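import Cfsg.Statements.S3779
import Cfsg.Agent.HKK.Aut
import Cfsg.Agent.HKK.Ext
import Cfsg.Agent.S4206
import Cfsg.Agent.S0108
import Cfsg.Agent.Frob.Thompson
import Cfsg.Agent.MaxClass.Basic
-- import your own Cfsg.Agent.* helpers here

set_option autoImplicit false
open Cfsg

namespace Cfsg.Agent.S3779

open Cfsg.Agent.HKK Subgroup in
theorem lcs_ns {G : Type*} [Group G] [Finite G] : NS (fun i => (⊤ : Subgroup G).lowerCentralSeries i) where
  normal i := inferInstance
  anti i := Subgroup.lowerCentralSeries_antitone _ (Nat.le_succ i)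
  comm i j := Cfsg.Agent.S4206.result (fun i => (⊤ : Subgroup G).lowerCentralSeries i) (fun i => inferInstance)
    (fun i => Subgroup.lowerCentralSeries_antitone _ (Nat.le_succ i)) ⊤ (fun i => le_rfl) i j

theorem coprime_of_fpf {G : Type*} [Group G] [Finite G] {p : ℕ} (hp : p.Prime) (α : MulAut G)
    (hα : orderOf α = p) (hfpf : ∀ g : G, α g = g → g = 1) : (Nat.card G).Coprime p := by
  have := Fact.mk hp
  have hP : IsPGroup p (Subgroup.zpowers α) := IsPGroup.of_card (n := 1) (by rw [Nat.card_zpowers, hα, pow_one])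
  have h1 := hP.card_modEq_card_fixedPoints G
  have h2 : MulAction.fixedPoints (Subgroup.zpowers α) G = {1} := by
    ext g
    rw [Set.mem_singleton_iff]
    constructor
    · intro h
      exact hfpf g (h ⟨α, Subgroup.mem_zpowers α⟩)
    · rintro rfl
      rintro ⟨a, ha⟩
      exact map_one a
  rw [h2, show Nat.card ({1} : Set G) = 1 by simp] at h1
  rw [Nat.coprime_comm, hp.coprime_iff_not_dvd]
  intro h3
  have h4 := (Nat.modEq_zero_iff_dvd.2 h3).symm.trans h1
  have h5 : (1 : ℕ) ≡ 0 [MOD p] := h4.symm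
  rw [Nat.modEq_zero_iff_dvd, Nat.dvd_one] at h5
  exact hp.one_lt.ne' h5

open scoped commutatorElement in
open Cfsg.Agent.HKK Subgroup in
theorem el_mem_Lc {G : Type*} [Group G] [Finite G] [Fact (NS (fun i => (⊤ : Subgroup G).lowerCentralSeries i))]
    (n : ℕ) (x : G) (hx : x ∈ (⊤ : Subgroup G).lowerCentralSeries n) :
    (el (F := fun i => (⊤ : Subgroup G).lowerCentralSeries i) n ⟨x, hx⟩) ∈ Lc (LR (fun i => (⊤ : Subgroup G).lowerCentralSeries i)) n := by
  induction n generalizing x with
  | zero => exact AddSubgroup.mem_top _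
  | succ n ih =>
    have key : ∀ x ∈ Subgroup.closure { x | ∃ p ∈ (⊤ : Subgroup G).lowerCentralSeries n, ∃ q ∈ (⊤ : Subgroup G), ⁅p, q⁆ = x },
        ∃ hx : x ∈ (⊤ : Subgroup G).lowerCentralSeries (n + 1),
          (el (F := fun i => (⊤ : Subgroup G).lowerCentralSeries i) (n + 1) ⟨x, hx⟩) ∈
            Lc (LR (fun i => (⊤ : Subgroup G).lowerCentralSeries i)) (n + 1) := by
      intro x hx
      induction hx using Subgroup.closure_induction with
      | mem z hz =>
        obtain ⟨a, ha, b, hb, rfl⟩ := hz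
        have hmem : ⁅a, b⁆ ∈ (⊤ : Subgroup G).lowerCentralSeries (n + 1) :=
          (Subgroup.mem_lowerCentralSeries_succ_iff (S := ⊤) n _).2 (Subgroup.subset_closure ⟨a, ha, b, hb, rfl⟩)
        refine ⟨hmem, ?_⟩
        apply AddSubgroup.subset_closure
        refine ⟨el n ⟨a, ha⟩, el 0 ⟨b, hb⟩, ih a ha, ?_⟩
        rw [lie_def, brL_el n 0 (n + 1) rfl]
      | one =>
        refine ⟨one_mem _, ?_⟩
        have : (el (F := fun i => (⊤ : Subgroup G).lowerCentralSeries i) (n + 1) ⟨1, one_mem _⟩) = 0 := el_one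
        rw [this]; exact AddSubgroup.zero_mem _
      | mul a b _ _ ha hb =>
        obtain ⟨ha, ha'⟩ := ha
        obtain ⟨hb, hb'⟩ := hb
        refine ⟨mul_mem ha hb, ?_⟩
        have := AddSubgroup.add_mem _ ha' hb'
        rw [← el_mul] at this
        exact this
      | inv a _ ha =>
        obtain ⟨ha, ha'⟩ := ha
        refine ⟨inv_mem ha, ?_⟩
        have := AddSubgroup.neg_mem _ ha'
        rw [← el_inv] at this
        exact this
    exact (key x ((Subgroup.mem_lowerCentralSeries_succ_iff (S := ⊤) n _).1 hx)).2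

/-- Let G be a finite group with an automorphism of prime order p fixing only the identity. Then G is nilpotent; if p = 2 then G is abelian, if p = 3 then G has class at most 2, and in general the class of G is at most ξ = 1 + (p−1) + (p−1)² + ⋯ + (p−1)^(n−1) with n = 2^(p−1) − 1 (the Higman–Kreknin–Kostrikin bound). -/
theorem result {G : Type*} [Group G] [Finite G] {p : ℕ} (hp : p.Prime) (α : MulAut G) (hα : orderOf α = p) (hfpf : ∀ g : G, α g = g → g = 1) : (p = 2 → (⊤ : Subgroup G).lowerCentralSeries 1 = ⊥) ∧ (p = 3 → (⊤ : Subgroup G).lowerCentralSeries 2 = ⊥) ∧ (⊤ : Subgroup G).lowerCentralSeries (Finset.sum (Finset.range (2 ^ (p - 1) - 1)) (fun i => (p - 1) ^ i)) = ⊥ := by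
  have := Fact.mk hp
  have hT : Frob.ThompsonNPC := fun G _ _ q _ hq P h1 h2 => (Cfsg.Agent.S0108.result hq P).mpr ⟨h1, h2⟩
  have hαp : ∀ g, (α ^ p) g = g := fun g => by rw [← hα, pow_orderOf_eq_one]; rfl
  have hnil : Group.IsNilpotent G := Frob.isNilpotent_of_fpf_aut hT hp (Nat.card G) G rfl α hαp hfpf
  have hNS : Fact (HKK.NS (fun i => (⊤ : Subgroup G).lowerCentralSeries i)) := ⟨lcs_ns⟩
  have hinv : ∀ i x, x ∈ (⊤ : Subgroup G).lowerCentralSeries i → α.toMonoidHom x ∈ (⊤ : Subgroup G).lowerCentralSeries i :=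
    fun i x hx => Frob.apply_mem_of_characteristic α _ hx
  have hit : ∀ n (g : G), (α.toMonoidHom)^[n] g = (α ^ n) g := by
    intro n
    induction n with
    | zero => intro g; rfl
    | succ n ih => intro g; rw [Function.iterate_succ_apply', ih, pow_succ']; rfl
  set φ := HKK.phi (F := fun i => (⊤ : Subgroup G).lowerCentralSeries i) α.toMonoidHom hinv with hφ
  have hN : ∀ x, ∑ s ∈ Finset.range p, φ^[s] x = 0 := by
    intro x
    induction x using HKK.el_ind with
    | h0 => exact Finset.sum_eq_zero fun s _ => iterate_map_zero _ _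
    | hadd a b ha hb =>
      have : ∀ s, φ^[s] (a + b) = φ^[s] a + φ^[s] b := fun s => iterate_map_add _ _ _ _
      simp only [this, Finset.sum_add_distrib, ha, hb, add_zero]
    | hof i x =>
      obtain ⟨g, hg⟩ := Frob.exists_div_eq hfpf (x : G)
      obtain ⟨h, h'⟩ := HKK.sum_phi (F := fun i => (⊤ : Subgroup G).lowerCentralSeries i) α.toMonoidHom hinv i x g hg.symm p
      rw [hφ, h', HKK.el_eq_zero]
      have : g⁻¹ * (α.toMonoidHom)^[p] g = 1 := by rw [hit, hαp, inv_mul_cancel]
      simp only [this]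
      exact one_mem _
  have hm := coprime_of_fpf hp α hα hfpf
  have hmL : ∀ x : HKK.LR (fun i => (⊤ : Subgroup G).lowerCentralSeries i), Nat.card G • x = 0 := by
    intro x
    induction x using HKK.el_ind with
    | h0 => exact smul_zero _
    | hadd a b ha hb => rw [smul_add, ha, hb, add_zero]
    | hof i x =>
      have h1 : ∀ n : ℕ, HKK.el i (x ^ n) = n • HKK.el i x := by
        intro n
        induction n with
        | zero => rw [pow_zero, zero_smul]; exact HKK.el_one
        | succ n ih => rw [pow_succ, HKK.el_mul, ih, succ_nsmul]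
      rw [← h1]
      have h2 : x ^ Nat.card G = 1 := Subtype.ext (by rw [Subgroup.coe_pow, pow_card_eq_one']; rfl)
      rw [h2]; exact HKK.el_one
  obtain ⟨h1, h2⟩ := HKK.hkk_lie φ (HKK.phi_lie _ _) hN hm hmL
  have key : ∀ n, HKK.Lc (HKK.LR (fun i => (⊤ : Subgroup G).lowerCentralSeries i)) n = ⊥ →
      (⊤ : Subgroup G).lowerCentralSeries n = ⊥ := by
    intro n hn
    by_contra hne
    have hlt := MaxClass.lcs_lt hne
    apply hlt.not_ge
    intro x hx
    have h3 := el_mem_Lc n x hx
    rw [hn, AddSubgroup.mem_bot, HKK.el_eq_zero] at h3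
    exact h3
  refine ⟨?_, fun h3 => key 2 (h2 h3), key _ h1⟩
  intro hp2
  subst hp2
  have := key _ h1
  simpa using this

end Cfsg.Agent.S3779
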