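import Cfsg.Statements.S1060
import Cfsg.Agent.ChevGrp.Orders
import Cfsg.Agent.S1035

set_option autoImplicit false
open Cfsg

namespace Cfsg.Agent.S1060

/-- `gcd(2, q-1) · |B₂(q)| = q⁴ (q² - 1)(q⁴ - 1)`. -/
theorem result {F : Type*} [Field F] [Fintype F] {q : ℕ} (hq : Fintype.card F = q) : Nat.gcd 2 (q - 1) * Nat.card ↥(Cfsg.Lie.chevB2.group F) = q ^ 4 * (q ^ 2 - 1) * (q ^ 4 - 1) := by
  have hD : Cfsg.Lie.chevB2 ∈ [Cfsg.Lie.chevG2, Cfsg.Lie.chevB2, Cfsg.Lie.chevD4, Cfsg.Lie.chevF4, Cfsg.Lie.chevE6, Cfsg.Lie.chevE7, Cfsg.Lie.chevE8] := by simp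
  obtain ⟨E⟩ := Cfsg.Agent.ChevGrp.DData.nonempty_of_mem hD
  have hq1 : 0 < q := by rw [← hq]; exact Fintype.card_pos
  have h2 : 1 ≤ q ^ 2 := Nat.one_le_pow _ _ hq1
  have h4 : 1 ≤ q ^ 4 := Nat.one_le_pow _ _ hq1
  have h := Cfsg.Agent.ChevGrp.order_of E (Cfsg.Agent.Chev.good_of_mem hD) hD hq (d := Nat.gcd 2 (q - 1)) (m := (q ^ 2 - 1) * (q ^ 4 - 1))
    (Cfsg.Agent.S1035.result hq (Cfsg.Lie.chevB2, Nat.gcd 2 (q - 1)) (by simp))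
    ((Cfsg.Agent.ChevWeyl.poinB2 E.rp (Cfsg.Agent.ChevGrp.cartan_B2 E) (q : ℤ)).trans (by
      push_cast [Nat.cast_sub, h2, h4]; rfl))
  rw [show Cfsg.Lie.chevB2.nroots / 2 = 4 from rfl] at h
  rw [h]
  ring

end Cfsg.Agent.S1060
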