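import Cfsg.Statements.S1061
import Cfsg.Agent.ChevGrp.Orders
import Cfsg.Agent.S1035

set_option autoImplicit false
open Cfsg

namespace Cfsg.Agent.S1061

/-- `gcd(2, q-1)² · |D₄(q)| = q¹² (q² - 1)(q⁴ - 1)(q⁴ - 1)(q⁶ - 1)`. -/
theorem result {F : Type*} [Field F] [Fintype F] {q : ℕ} (hq : Fintype.card F = q) : Nat.gcd 2 (q - 1) ^ 2 * Nat.card ↥(Cfsg.Lie.chevD4.group F) = q ^ 12 * (q ^ 2 - 1) * (q ^ 4 - 1) * (q ^ 4 - 1) * (q ^ 6 - 1) := by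
  have hD : Cfsg.Lie.chevD4 ∈ [Cfsg.Lie.chevG2, Cfsg.Lie.chevB2, Cfsg.Lie.chevD4, Cfsg.Lie.chevF4, Cfsg.Lie.chevE6, Cfsg.Lie.chevE7, Cfsg.Lie.chevE8] := by simp
  obtain ⟨E⟩ := Cfsg.Agent.ChevGrp.DData.nonempty_of_mem hD
  have hq1 : 0 < q := by rw [← hq]; exact Fintype.card_pos
  have h2 : 1 ≤ q ^ 2 := Nat.one_le_pow _ _ hq1
  have h4 : 1 ≤ q ^ 4 := Nat.one_le_pow _ _ hq1
  have h6 : 1 ≤ q ^ 6 := Nat.one_le_pow _ _ hq1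
  have h := Cfsg.Agent.ChevGrp.order_of E (Cfsg.Agent.Chev.good_of_mem hD) hD hq (d := Nat.gcd 2 (q - 1) ^ 2) (m := (q ^ 2 - 1) * (q ^ 4 - 1) * (q ^ 4 - 1) * (q ^ 6 - 1))
    (Cfsg.Agent.S1035.result hq (Cfsg.Lie.chevD4, Nat.gcd 2 (q - 1) ^ 2) (by simp))
    ((Cfsg.Agent.ChevWeyl.poinD4 E.rp (Cfsg.Agent.ChevGrp.cartan_D4 E) (q : ℤ)).trans (by
      push_cast [Nat.cast_sub, h2, h4, h6]; rfl))
  rw [show Cfsg.Lie.chevD4.nroots / 2 = 12 from rfl] at h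
  rw [h]
  ring

end Cfsg.Agent.S1061
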