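import Cfsg.Statements.S1064
import Cfsg.Agent.ChevGrp.Orders
import Cfsg.Agent.S1035

set_option autoImplicit false
open Cfsg

namespace Cfsg.Agent.S1064

/-- `gcd(2, q-1) · |E₇(q)| = q⁶³ ∏_{d ∈ {2,6,8,10,12,14,18}} (q^d - 1)`. -/
theorem result {F : Type*} [Field F] [Fintype F] {q : ℕ} (hq : Fintype.card F = q) : Nat.gcd 2 (q - 1) * Nat.card ↥(Cfsg.Lie.chevE7.group F) = q ^ 63 * (q ^ 2 - 1) * (q ^ 6 - 1) * (q ^ 8 - 1) * (q ^ 10 - 1) * (q ^ 12 - 1) * (q ^ 14 - 1) * (q ^ 18 - 1) := by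
  have hD : Cfsg.Lie.chevE7 ∈ [Cfsg.Lie.chevG2, Cfsg.Lie.chevB2, Cfsg.Lie.chevD4, Cfsg.Lie.chevF4, Cfsg.Lie.chevE6, Cfsg.Lie.chevE7, Cfsg.Lie.chevE8] := by simp
  obtain ⟨E⟩ := Cfsg.Agent.ChevGrp.DData.nonempty_of_mem hD
  have hq1 : 0 < q := by rw [← hq]; exact Fintype.card_pos
  have h2 : 1 ≤ q ^ 2 := Nat.one_le_pow _ _ hq1
  have h6 : 1 ≤ q ^ 6 := Nat.one_le_pow _ _ hq1
  have h8 : 1 ≤ q ^ 8 := Nat.one_le_pow _ _ hq1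
  have h10 : 1 ≤ q ^ 10 := Nat.one_le_pow _ _ hq1
  have h12 : 1 ≤ q ^ 12 := Nat.one_le_pow _ _ hq1
  have h14 : 1 ≤ q ^ 14 := Nat.one_le_pow _ _ hq1
  have h18 : 1 ≤ q ^ 18 := Nat.one_le_pow _ _ hq1
  have h := Cfsg.Agent.ChevGrp.order_of E (Cfsg.Agent.Chev.good_of_mem hD) hD hq (d := Nat.gcd 2 (q - 1)) (m := (q ^ 2 - 1) * (q ^ 6 - 1) * (q ^ 8 - 1) * (q ^ 10 - 1) * (q ^ 12 - 1) * (q ^ 14 - 1) * (q ^ 18 - 1))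
    (Cfsg.Agent.S1035.result hq (Cfsg.Lie.chevE7, Nat.gcd 2 (q - 1)) (by simp))
    ((Cfsg.Agent.ChevWeyl.poinE7 E.rp (Cfsg.Agent.ChevGrp.cartan_E7 E) (q : ℤ)).trans (by
      push_cast [Nat.cast_sub, h2, h6, h8, h10, h12, h14, h18]; rfl))
  rw [show Cfsg.Lie.chevE7.nroots / 2 = 63 from rfl] at h
  rw [h]
  ring

end Cfsg.Agent.S1064
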