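import Cfsg.Statements.S2566
import Cfsg.Agent.H43.O4Plus

set_option autoImplicit false
open Cfsg

namespace Cfsg.Agent.S2566

/-- The full orthogonal group of the plus-type form x₁y₁ + x₂y₂ in dimension 4 over the field of two elements has order 72 and is isomorphic to the wreath product of the symmetric group of degree 3 by a group of order 2: it has a normal subgroup isomorphic to the direct product of two symmetric groups of degree 3, of index 2, whose two direct factors are interchanged by conjugation by some element. -/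
theorem result :
    Nat.card ↥(Cfsg.isometryGroup (ZMod 2) (Cfsg.quadFormPlus 2 (ZMod 2))) = 72 ∧
    ∃ (A B : Subgroup ↥(Cfsg.isometryGroup (ZMod 2) (Cfsg.quadFormPlus 2 (ZMod 2)))),
      Nonempty (↥A ≃* Equiv.Perm (Fin 3)) ∧ Nonempty (↥B ≃* Equiv.Perm (Fin 3)) ∧ A ⊓ B = ⊥ ∧ (∀ a ∈ A, ∀ b ∈ B, a * b = b * a) ∧
      (A ⊔ B).index = 2 ∧ ∃ g : ↥(Cfsg.isometryGroup (ZMod 2) (Cfsg.quadFormPlus 2 (ZMod 2))), A.map (MulAut.conj g).toMonoidHom = B := by
  refine ⟨Cfsg.Agent.H43.card_G4, ?_⟩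
  obtain ⟨e⟩ := Cfsg.Agent.S0250.result (F := ZMod 2) (by simp [ZMod.card])
  let iA : Cfsg.Agent.H43.S2 →* ↥(Cfsg.isometryGroup (ZMod 2) (Cfsg.quadFormPlus 2 (ZMod 2))) :=
    Cfsg.Agent.H43.emb4.comp (MonoidHom.inl _ _)
  let iB : Cfsg.Agent.H43.S2 →* ↥(Cfsg.isometryGroup (ZMod 2) (Cfsg.quadFormPlus 2 (ZMod 2))) :=
    Cfsg.Agent.H43.emb4.comp (MonoidHom.inr _ _)
  have hiA : Function.Injective iA := Cfsg.Agent.H43.emb4_injective.comp (fun a b h => (Prod.ext_iff.1 h).1)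
  have hiB : Function.Injective iB := Cfsg.Agent.H43.emb4_injective.comp (fun a b h => (Prod.ext_iff.1 h).2)
  have hAB : iA.range ⊔ iB.range = Cfsg.Agent.H43.emb4.range := by
    apply le_antisymm
    · apply sup_le
      · rintro _ ⟨x, rfl⟩; exact ⟨_, rfl⟩
      · rintro _ ⟨x, rfl⟩; exact ⟨_, rfl⟩
    · rintro _ ⟨⟨x, y⟩, rfl⟩
      have : Cfsg.Agent.H43.emb4 (x, y) = iA x * iB y := by
        change _ = Cfsg.Agent.H43.emb4 (x, 1) * Cfsg.Agent.H43.emb4 (1, y)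
        rw [← map_mul, Prod.mk_mul_mk, mul_one, one_mul]
      rw [this]
      exact Subgroup.mul_mem_sup ⟨x, rfl⟩ ⟨y, rfl⟩
  refine ⟨iA.range, iB.range, ⟨(MonoidHom.ofInjective hiA).symm.trans e⟩, ⟨(MonoidHom.ofInjective hiB).symm.trans e⟩, ?_, ?_, ?_, Cfsg.Agent.H43.t4, ?_⟩
  · rw [Subgroup.eq_bot_iff_forall]
    rintro x ⟨⟨a, ha⟩, ⟨b, hb⟩⟩
    have h1 : Cfsg.Agent.H43.emb4 (a, 1) = Cfsg.Agent.H43.emb4 (1, b) := ha.trans hb.symm
    have h2 := Cfsg.Agent.H43.emb4_injective h1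
    have h3 : a = 1 := (Prod.ext_iff.1 h2).1
    rw [← ha, h3]
    exact map_one iA
  · rintro _ ⟨a, rfl⟩ _ ⟨b, rfl⟩
    change Cfsg.Agent.H43.emb4 (a, 1) * Cfsg.Agent.H43.emb4 (1, b) = Cfsg.Agent.H43.emb4 (1, b) * Cfsg.Agent.H43.emb4 (a, 1)
    rw [← map_mul, ← map_mul, Prod.mk_mul_mk, Prod.mk_mul_mk, mul_one, one_mul, mul_one, one_mul]
  · have h1 := Subgroup.card_mul_index (iA.range ⊔ iB.range)
    rw [hAB, ← Nat.card_congr (MonoidHom.ofInjective Cfsg.Agent.H43.emb4_injective).toEquiv, Nat.card_prod, Cfsg.Agent.H43.card_S2,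
      Cfsg.Agent.H43.card_G4] at h1
    rw [hAB]
    omega
  · have key : ∀ g : Cfsg.Agent.H43.S2, Cfsg.Agent.H43.t4 * iA g * Cfsg.Agent.H43.t4⁻¹ = iB (g.transpose)⁻¹ := by
      intro g
      rw [mul_inv_eq_iff_eq_mul]
      exact Cfsg.Agent.H43.t4_conj g
    ext x
    rw [Subgroup.mem_map]
    constructor
    · rintro ⟨_, ⟨g, rfl⟩, rfl⟩
      exact ⟨_, (key g).symm⟩
    · rintro ⟨g, rfl⟩
      refine ⟨iA (g⁻¹).transpose, ⟨_, rfl⟩, ?_⟩
      refine (key _).trans ?_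
      congr 1
      rw [inv_eq_iff_eq_inv]
      apply Subtype.ext
      simp [Matrix.SpecialLinearGroup.transpose]

end Cfsg.Agent.S2566
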