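import Cfsg.Statements.S0068
import Cfsg.Agent.Frob.Complement
import Mathlib.GroupTheory.FixedPointFree
-- import your own Cfsg.Agent.* helpers here

set_option autoImplicit false
open Cfsg

namespace Cfsg.Agent.S0068

/-- Frobenius complements of even order: if H complements a nontrivial normal subgroup K, each nonidentity element of H has trivial centraliser in K, and H has even order, then H contains a unique involution s, K is abelian, and s inverts every element of K. -/
theorem result {G : Type*} [Group G] [Finite G] (K H : Subgroup G) [K.Normal]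
    (hc : Subgroup.IsComplement' K H) (hK : K ≠ ⊥) (hfpf : ∀ h ∈ H, h ≠ 1 → K ⊓ Subgroup.centralizer {h} = ⊥)
    (heven : 2 ∣ Nat.card H) :
    (∃ s ∈ H, orderOf s = 2 ∧ (∀ t ∈ H, orderOf t = 2 → t = s) ∧ ∀ k ∈ K, s * k * s⁻¹ = k⁻¹) ∧ IsMulCommutative K := by
  classical
  have := Fact.mk Nat.prime_two
  obtain ⟨s, hs⟩ := exists_prime_orderOf_dvd_card' 2 heven
  have hs1 : (s : G) ≠ 1 := by
    intro h
    have : s = 1 := Subtype.ext h
    rw [this, orderOf_one] at hs
    omega
  have key : ∀ t ∈ H, orderOf t = 2 → ∀ k ∈ K, t * k * t⁻¹ = k⁻¹ := by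
    intro t ht hto k hk
    have ht1 : t ≠ 1 := by
      rintro rfl
      rw [orderOf_one] at hto; omega
    have htt : t * t = 1 := by
      have := pow_orderOf_eq_one t
      rwa [hto, pow_two] at this
    have hti : t⁻¹ = t := inv_eq_of_mul_eq_one_left htt
    -- the conjugation by `t` on `K` is a fixed-point-free involution
    let φ : K ≃* K := (MulAut.conjNormal t : MulAut K)
    have hφ : MonoidHom.FixedPointFree φ := by
      intro x hx
      have h1 : t * (x : G) * t⁻¹ = x := by
        have := congrArg Subtype.val hx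
        rwa [MulAut.conjNormal_apply] at this
      have h2 : (x : G) ∈ K ⊓ Subgroup.centralizer {t} := by
        refine Subgroup.mem_inf.mpr ⟨x.2, ?_⟩
        rw [Subgroup.mem_centralizer_iff]
        rintro _ rfl
        exact mul_inv_eq_iff_eq_mul.mp h1
      rw [hfpf t ht ht1, Subgroup.mem_bot] at h2
      exact Subtype.ext h2
    have hinv : Function.Involutive φ := by
      intro x
      apply Subtype.ext
      change t * (t * (x : G) * t⁻¹) * t⁻¹ = x
      have : t * (t * (x : G) * t⁻¹) * t⁻¹ = (t * t) * x * (t * t)⁻¹ := by group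
      rw [this, htt]; simp
    have h3 := hφ.coe_eq_inv_of_involutive hinv
    have h4 := congrArg Subtype.val (congrFun h3 ⟨k, hk⟩)
    exact h4
  refine ⟨⟨s, s.2, by rw [Subgroup.orderOf_coe, hs], ?_, key s s.2 (by rw [Subgroup.orderOf_coe, hs])⟩, ?_⟩
  · intro t ht hto
    by_contra hne
    obtain ⟨k, hk1⟩ := Subgroup.ne_bot_iff_exists_ne_one.mp hK
    have h1 := key t ht hto
    have h2 := key s s.2 (by rw [Subgroup.orderOf_coe, hs])
    have hst : (s : G)⁻¹ * t ≠ 1 := by
      intro h
      apply hne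
      exact (inv_mul_eq_one.mp h).symm
    have h3 : (k : G) ∈ K ⊓ Subgroup.centralizer {(s : G)⁻¹ * t} := by
      refine Subgroup.mem_inf.mpr ⟨k.2, ?_⟩
      rw [Subgroup.mem_centralizer_iff]
      rintro _ rfl
      have h5 : (s : G) * k * (s : G)⁻¹ = t * k * t⁻¹ := by rw [h1 k k.2, h2 k k.2]
      have h6 : t * k = (s : G) * k * (s : G)⁻¹ * t := by rw [h5]; group
      rw [mul_assoc, h6]; group
    rw [hfpf _ (H.mul_mem (H.inv_mem s.2) ht) hst, Subgroup.mem_bot] at h3
    exact hk1 (Subtype.ext h3)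
  · refine ⟨⟨fun a b => Subtype.ext ?_⟩⟩
    have h2 := key s s.2 (by rw [Subgroup.orderOf_coe, hs])
    have h3 := h2 (a * b : K) (a * b : K).2
    push_cast at h3 ⊢
    have h4 : (s : G) * (a * b) * (s : G)⁻¹ = (s * a * (s : G)⁻¹) * (s * b * (s : G)⁻¹) := by group
    rw [h4, h2 a a.2, h2 b b.2, mul_inv_rev] at h3
    -- a⁻¹ b⁻¹ = b⁻¹ a⁻¹
    have h5 := congrArg (·⁻¹) h3
    simp only [mul_inv_rev, inv_inv] at h5
    exact h5.symm

end Cfsg.Agent.S0068
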