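import Cfsg.Statements.S5601
import Cfsg.Agent.Golay.OrbThree


set_option autoImplicit false
open scoped Pointwise
open Cfsg

namespace Cfsg.Agent.S5601

open Cfsg.Agent.Golay Cfsg.Agent.Golay.Orb MulAction

/-- A subgroup of order 3 is generated by an element of order 3. -/
theorem gen {X : Subgroup Cfsg.M24} (hX : Nat.card X = 3) : ∃ x : Cfsg.M24, orderOf x = 3 ∧ X = Subgroup.zpowers x := by
  have : Fact (Nat.Prime 3) := ⟨Nat.prime_three⟩
  have hc : IsCyclic X := isCyclic_of_prime_card hX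
  obtain ⟨g, hg⟩ := hc.exists_generator
  refine ⟨g, ?_, ?_⟩
  · have h1 := orderOf_eq_card_of_forall_mem_zpowers hg
    rw [hX] at h1
    rw [← h1, Subgroup.orderOf_coe]
  · ext y
    constructor
    · intro hy
      obtain ⟨k, hk⟩ := Subgroup.mem_zpowers_iff.1 (hg ⟨y, hy⟩)
      rw [Subgroup.mem_zpowers_iff]
      exact ⟨k, by rw [← Subgroup.coe_zpow, hk]⟩
    · intro hy
      obtain ⟨k, rfl⟩ := Subgroup.mem_zpowers_iff.1 hy
      exact X.zpow_mem g.2 k

theorem fix_eq (x : Cfsg.M24) :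
    {p : Cfsg.GolayPt | ∀ y ∈ Subgroup.zpowers x, ((y : ↥Cfsg.M24) : Equiv.Perm Cfsg.GolayPt) p = p}.ncard =
      (Finset.univ.filter fun p => (x : Equiv.Perm Cfsg.GolayPt) p = p).card := by
  rw [← Set.ncard_coe_finset]
  congr 1
  ext p
  simp only [Set.mem_ofPred_eq, Finset.coe_filter, Finset.mem_univ, true_and]
  constructor
  · intro h; exact h x (Subgroup.mem_zpowers x)
  · intro h y hy
    have h1 : x ∈ stabilizer Cfsg.M24 p := h
    have h2 : Subgroup.zpowers x ≤ stabilizer Cfsg.M24 p := by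
      rw [Subgroup.zpowers_le]; exact h1
    exact h2 hy

theorem ordE {x : Cfsg.M24} (h : orderOf x = 3) : orderOf (x : Equiv.Perm Cfsg.GolayPt) = 3 := by
  rw [Subgroup.orderOf_coe, h]

theorem exists_of_tab {n : ℕ} (hv : validM24 n = true) (h3 : pmul n (pmul n n) = idTab) (hne : n ≠ idTab)
    (hlt : n < 32 ^ 24) : ∃ X : Subgroup Cfsg.M24, Nat.card X = 3 ∧
      {p : Cfsg.GolayPt | ∀ y ∈ X, ((y : ↥Cfsg.M24) : Equiv.Perm Cfsg.GolayPt) p = p}.ncard = fixCount n := by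
  obtain ⟨σ, hσ, hT⟩ := exists_mem_M24 hv
  refine ⟨Subgroup.zpowers ⟨σ, hσ⟩, ?_, ?_⟩
  · rw [Nat.card_zpowers]
    have : Fact (Nat.Prime 3) := ⟨Nat.prime_three⟩
    apply orderOf_eq_prime
    · apply Subtype.ext
      change σ ^ 3 = 1
      have h4 := isTable_pmul hT (isTable_pmul hT hT)
      rw [h3] at h4
      have h5 := isTable_unique h4 isTable_one
      rw [pow_succ', pow_two, h5]
    · intro h
      have h1 : σ = 1 := congrArg Subtype.val h
      rw [h1] at hT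
      exact hne (isTable_inj hT isTable_one hlt (by norm_num))
  · rw [fix_eq]
    exact fixCount_spec hT


/-- The group of the length-24 code has exactly two conjugacy classes of subgroups of order 3: a subgroup of order 3 fixes either exactly 6 of the 24 points or none of them, both cases occur, and two subgroups of order 3 with the same number of fixed points are conjugate. -/
theorem result : (∀ X : Subgroup ↥Cfsg.M24, Nat.card X = 3 → {p : Cfsg.GolayPt | ∀ x ∈ X, ((x : ↥Cfsg.M24) : Equiv.Perm Cfsg.GolayPt) p = p}.ncard = 6 ∨ {p : Cfsg.GolayPt | ∀ x ∈ X, ((x : ↥Cfsg.M24) : Equiv.Perm Cfsg.GolayPt) p = p}.ncard = 0) ∧ (∃ X : Subgroup ↥Cfsg.M24, Nat.card X = 3 ∧ {p : Cfsg.GolayPt | ∀ x ∈ X, ((x : ↥Cfsg.M24) : Equiv.Perm Cfsg.GolayPt) p = p}.ncard = 6) ∧ (∃ X : Subgroup ↥Cfsg.M24, Nat.card X = 3 ∧ {p : Cfsg.GolayPt | ∀ x ∈ X, ((x : ↥Cfsg.M24) : Equiv.Perm Cfsg.GolayPt) p = p}.ncard = 0) ∧ ∀ X Y : Subgroup ↥Cfsg.M24, Nat.card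 X = 3 → Nat.card Y = 3 → {p : Cfsg.GolayPt | ∀ x ∈ X, ((x : ↥Cfsg.M24) : Equiv.Perm Cfsg.GolayPt) p = p}.ncard = {p : Cfsg.GolayPt | ∀ x ∈ Y, ((x : ↥Cfsg.M24) : Equiv.Perm Cfsg.GolayPt) p = p}.ncard → ∃ k : ↥Cfsg.M24, MulAut.conj k • X = Y := by
  have conjE : ∀ {x g : Equiv.Perm Cfsg.GolayPt} {t : ℕ}, IsTable t (g * x * g⁻¹) →
      (Finset.univ.filter fun p => x p = p).card = fixCount t := by
    intro x g t h
    rw [← fixCount_conj g x, fixCount_spec h]
  refine ⟨?_, ?_, ?_, ?_⟩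
  · intro X hX
    obtain ⟨x, hx, rfl⟩ := gen hX
    rw [fix_eq]
    have h3 := ordE hx
    obtain ⟨g, hg, h | h⟩ := three_classify x.2 (by rw [← h3, pow_orderOf_eq_one])
      (by intro h; rw [h, orderOf_one] at h3; omega)
    · left; rw [conjE h, fixCount_tab36]
    · right; rw [conjE h, fixCount_tab30]
  · have := exists_of_tab tab36_valid (by decide +kernel) (by decide +kernel) (by decide +kernel)
    rwa [fixCount_tab36] at this
  · have := exists_of_tab tab30_valid (by decide +kernel) (by decide +kernel) (by decide +kernel)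
    rwa [fixCount_tab30] at this
  · intro X Y hX hY hXY
    obtain ⟨x, hx, rfl⟩ := gen hX
    obtain ⟨y, hy, rfl⟩ := gen hY
    rw [fix_eq, fix_eq] at hXY
    have hx3 := ordE hx
    have hy3 := ordE hy
    have fin : ∀ (t : ℕ) (g k : Equiv.Perm Cfsg.GolayPt), g ∈ Cfsg.M24 → k ∈ Cfsg.M24 →
        IsTable t (g * x * g⁻¹) → IsTable t (k * y * k⁻¹) →
        ∃ k : ↥Cfsg.M24, MulAut.conj k • Subgroup.zpowers x = Subgroup.zpowers y := by
      intro t g k hg hk h1 h2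
      have h3 := isTable_unique h1 h2
      refine ⟨⟨k⁻¹ * g, Cfsg.M24.mul_mem (Cfsg.M24.inv_mem hk) hg⟩, ?_⟩
      refine Eq.trans (MonoidHom.map_zpowers
        ((MulAut.conj (⟨k⁻¹ * g, Cfsg.M24.mul_mem (Cfsg.M24.inv_mem hk) hg⟩ : Cfsg.M24)).toMonoidHom) x) ?_
      congr 1
      apply Subtype.ext
      change (k⁻¹ * g) * x * (k⁻¹ * g)⁻¹ = y
      have : (k⁻¹ * g) * (x : Equiv.Perm Cfsg.GolayPt) * (k⁻¹ * g)⁻¹ = k⁻¹ * (g * x * g⁻¹) * k := by group
      rw [this, h3]; group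
    by_cases h6 : (Finset.univ.filter fun p => (x : Equiv.Perm Cfsg.GolayPt) p = p).card = 6
    · obtain ⟨g, hg, h1⟩ := three_fix6 x.2 hx3 (by rw [h6]; norm_num)
      obtain ⟨k, hk, h2⟩ := three_fix6 y.2 hy3 (by rw [← hXY, h6]; norm_num)
      exact fin _ g k hg hk h1 h2
    · obtain ⟨g, hg, h1⟩ := three_fix0 x.2 hx3 h6
      obtain ⟨k, hk, h2⟩ := three_fix0 y.2 hy3 (by rw [← hXY]; exact h6)
      exact fin _ g k hg hk h1 h2

end Cfsg.Agent.S5601
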