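import Cfsg.Statements.S5604
import Cfsg.Agent.Golay.OrbSeven


set_option autoImplicit false
open scoped Pointwise
open Cfsg

namespace Cfsg.Agent.S5604

open Cfsg.Agent.Golay Cfsg.Agent.Golay.Orb MulAction

noncomputable def ζM : Cfsg.M24 := ⟨ζ, ζ_mem⟩

theorem orderOf_ζM : orderOf ζM = 7 := by
  rw [← orderOf_ζ]; exact (Subgroup.orderOf_coe ζM).symm

/-- A subgroup of order 7 is conjugate to `<ζ>`. -/
theorem conj7 (S : Subgroup Cfsg.M24) (hS : Nat.card S = 7) : ∃ g : Cfsg.M24, ∀ x : Cfsg.M24,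
    x ∈ S ↔ ((g * x * g⁻¹ : Cfsg.M24) : Equiv.Perm Cfsg.GolayPt) ∈ Subgroup.zpowers ζ := by
  have : Fact (Nat.Prime 7) := ⟨by norm_num⟩
  have syl : ∀ T : Subgroup Cfsg.M24, Nat.card T = 7 → ∃ P : Sylow 7 Cfsg.M24, (P : Subgroup Cfsg.M24) = T := by
    intro T hT
    have hp : IsPGroup 7 T := IsPGroup.of_card (n := 1) (by rw [hT]; rfl)
    have hi : ¬ 7 ∣ T.index := by
      have h1 := T.card_mul_index
      rw [hT, card_M24] at h1
      omega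
    exact ⟨hp.toSylow hi, rfl⟩
  obtain ⟨P, hP⟩ := syl S hS
  obtain ⟨Q, hQ⟩ := syl (Subgroup.zpowers ζM) (by rw [Nat.card_zpowers, orderOf_ζM])
  obtain ⟨g, hg⟩ := MulAction.exists_smul_eq Cfsg.M24 P Q
  refine ⟨g, fun x => ?_⟩
  have h1 : x ∈ S ↔ g * x * g⁻¹ ∈ Subgroup.zpowers ζM := by
    rw [← hQ, ← hg, ← hP, Sylow.coe_subgroup_smul]
    exact (Subgroup.smul_mem_pointwise_smul_iff (a := MulAut.conj g) (S := (P : Subgroup Cfsg.M24)) (x := x)).symm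
  rw [h1]
  constructor
  · intro h
    obtain ⟨k, hk⟩ := Subgroup.mem_zpowers_iff.1 h
    rw [Subgroup.mem_zpowers_iff]
    refine ⟨k, ?_⟩
    rw [← hk]; rfl
  · intro h
    obtain ⟨k, hk⟩ := Subgroup.mem_zpowers_iff.1 h
    rw [Subgroup.mem_zpowers_iff]
    refine ⟨k, Subtype.ext ?_⟩
    rw [← hk]; rfl


/-- For a subgroup S of order 7 of the group of the length-24 code (a Sylow 7-subgroup): the normaliser of S has order 126, the centraliser of S has order 42 and is non-abelian, and the whole normaliser leaves some trio invariant. (These are the orders of a Frobenius group of order 21 times a symmetric group of degree 3; the isomorphism type itself is not asserted here.) -/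
theorem result (S : Subgroup ↥Cfsg.M24) (hS : Nat.card S = 7) : Nat.card ↥(Subgroup.normalizer (S : Set ↥Cfsg.M24)) = 126 ∧ Nat.card ↥(Subgroup.centralizer (S : Set ↥Cfsg.M24)) = 42 ∧ (∃ x ∈ Subgroup.centralizer (S : Set ↥Cfsg.M24), ∃ y ∈ Subgroup.centralizer (S : Set ↥Cfsg.M24), x * y ≠ y * x) ∧ ∃ T ∈ Cfsg.trios, ∀ n ∈ Subgroup.normalizer (S : Set ↥Cfsg.M24), ((n : ↥Cfsg.M24) : Equiv.Perm Cfsg.GolayPt) • T = T := by
  obtain ⟨g, hg⟩ := conj7 S hS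
  have hζS : g⁻¹ * ζM * g ∈ S := by
    rw [hg]
    have : g * (g⁻¹ * ζM * g) * g⁻¹ = ζM := by group
    rw [this]
    exact Subgroup.mem_zpowers ζ
  -- normaliser
  have hN : ∀ n : Cfsg.M24, n ∈ Subgroup.normalizer (S : Set ↥Cfsg.M24) ↔
      ((g * n * g⁻¹ : Cfsg.M24) : Equiv.Perm Cfsg.GolayPt) ∈ N7 := by
    intro n
    rw [Subgroup.mem_normalizer_iff]
    constructor
    · intro h
      rw [mem_N7]
      refine ⟨(g * n * g⁻¹).2, ?_⟩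
      have h1 := (h _).1 hζS
      rw [hg] at h1
      have h2 : g * (n * (g⁻¹ * ζM * g) * n⁻¹) * g⁻¹ = (g * n * g⁻¹) * ζM * (g * n * g⁻¹)⁻¹ := by group
      rw [h2] at h1
      obtain ⟨k, hk, h3⟩ := mem_zpowers_ζ.1 h1
      refine ⟨k, hk, ?_⟩
      rw [← h3]
      change _ = ((g * n * g⁻¹ : Cfsg.M24) : Equiv.Perm Cfsg.GolayPt) * ζ *
        ((g * n * g⁻¹ : Cfsg.M24) : Equiv.Perm Cfsg.GolayPt)⁻¹ * _
      rw [inv_mul_cancel_right]
    · intro h x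
      have h' := (Subgroup.mem_inf.1 h).2
      rw [hg, hg]
      have h1 := Subgroup.mem_normalizer_iff.1 h' ((g * x * g⁻¹ : Cfsg.M24) : Equiv.Perm Cfsg.GolayPt)
      rw [h1]
      have h2 : g * (n * x * n⁻¹) * g⁻¹ = (g * n * g⁻¹) * (g * x * g⁻¹) * (g * n * g⁻¹)⁻¹ := by group
      rw [h2]
      rfl
  have hC : ∀ n : Cfsg.M24, n ∈ Subgroup.centralizer (S : Set ↥Cfsg.M24) ↔
      ((g * n * g⁻¹ : Cfsg.M24) : Equiv.Perm Cfsg.GolayPt) ∈ C7 := by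
    intro n
    rw [Subgroup.mem_centralizer_iff, mem_C7]
    constructor
    · intro h
      refine ⟨(g * n * g⁻¹).2, ?_⟩
      have h1 := h _ hζS
      have h2 : g * n * g⁻¹ * ζM = ζM * (g * n * g⁻¹) := by
        have e1 : g * n * g⁻¹ * ζM = g * (n * (g⁻¹ * ζM * g)) * g⁻¹ := by group
        have e2 : ζM * (g * n * g⁻¹) = g * ((g⁻¹ * ζM * g) * n) * g⁻¹ := by group
        rw [e1, e2, h1]
      exact congrArg Subtype.val h2
    · rintro ⟨_, h⟩ x hx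
      have hx' : x ∈ S := hx
      rw [hg] at hx'
      obtain ⟨k, hk, h3⟩ := mem_zpowers_ζ.1 hx'
      have h4 : Commute ((g * n * g⁻¹ : Cfsg.M24) : Equiv.Perm Cfsg.GolayPt)
          ((g * x * g⁻¹ : Cfsg.M24) : Equiv.Perm Cfsg.GolayPt) := by
        rw [h3]
        exact Commute.pow_right h k
      have h5 : (g * n * g⁻¹) * (g * x * g⁻¹) = (g * x * g⁻¹) * (g * n * g⁻¹) := Subtype.ext h4
      have h6 : g * (n * x) * g⁻¹ = g * (x * n) * g⁻¹ := by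
        have e1 : g * (n * x) * g⁻¹ = g * n * g⁻¹ * (g * x * g⁻¹) := by group
        have e2 : g * (x * n) * g⁻¹ = g * x * g⁻¹ * (g * n * g⁻¹) := by group
        rw [e1, e2, h5]
      exact (mul_left_cancel (mul_right_cancel h6)).symm
  have cardEq : ∀ (P : Subgroup Cfsg.M24) (Q : Subgroup (Equiv.Perm Cfsg.GolayPt)), Q ≤ Cfsg.M24 →
      (∀ n : Cfsg.M24, n ∈ P ↔ ((g * n * g⁻¹ : Cfsg.M24) : Equiv.Perm Cfsg.GolayPt) ∈ Q) →
      Nat.card P = Nat.card Q := by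
    intro P Q hQ h
    refine Nat.card_congr (Equiv.ofBijective (fun n : P => (⟨_, (h n).1 n.2⟩ : Q)) ⟨?_, ?_⟩)
    · intro a b hab
      have h1 : ((g * a * g⁻¹ : Cfsg.M24) : Equiv.Perm Cfsg.GolayPt) = ((g * b * g⁻¹ : Cfsg.M24) : Equiv.Perm Cfsg.GolayPt) :=
        congrArg (fun q : Q => (q : Equiv.Perm Cfsg.GolayPt)) hab
      have h2 : g * (a : Cfsg.M24) * g⁻¹ = g * (b : Cfsg.M24) * g⁻¹ := Subtype.ext h1
      exact Subtype.ext (mul_left_cancel (mul_right_cancel h2))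
    · rintro ⟨q, hq⟩
      have e : g * (g⁻¹ * ⟨q, hQ hq⟩ * g) * g⁻¹ = (⟨q, hQ hq⟩ : Cfsg.M24) := by group
      refine ⟨⟨g⁻¹ * ⟨q, hQ hq⟩ * g, (h _).2 ?_⟩, ?_⟩
      · rw [e]; exact hq
      · apply Subtype.ext
        change ((g * (g⁻¹ * ⟨q, hQ hq⟩ * g) * g⁻¹ : Cfsg.M24) : Equiv.Perm Cfsg.GolayPt) = q
        rw [e]
  have hN7M : N7 ≤ Cfsg.M24 := fun σ h => (mem_N7.1 h).1
  have hC7M : C7 ≤ Cfsg.M24 := fun σ h => (mem_C7.1 h).1
  refine ⟨?_, ?_, ?_, ?_⟩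
  · rw [cardEq _ _ hN7M hN, card_N7]
  · rw [cardEq _ _ hC7M hC, card_C7]
  · obtain ⟨x, hx, y, hy, hxy⟩ := C7_nonabelian
    have ex : g * (g⁻¹ * ⟨x, hC7M hx⟩ * g) * g⁻¹ = (⟨x, hC7M hx⟩ : Cfsg.M24) := by group
    have ey : g * (g⁻¹ * ⟨y, hC7M hy⟩ * g) * g⁻¹ = (⟨y, hC7M hy⟩ : Cfsg.M24) := by group
    refine ⟨g⁻¹ * ⟨x, hC7M hx⟩ * g, (hC _).2 (by rw [ex]; exact hx), g⁻¹ * ⟨y, hC7M hy⟩ * g,
      (hC _).2 (by rw [ey]; exact hy), ?_⟩
    intro h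
    apply hxy
    have e1 : g⁻¹ * ⟨x, hC7M hx⟩ * g * (g⁻¹ * ⟨y, hC7M hy⟩ * g) =
      g⁻¹ * ((⟨x, hC7M hx⟩ : Cfsg.M24) * ⟨y, hC7M hy⟩) * g := by group
    have e2 : g⁻¹ * ⟨y, hC7M hy⟩ * g * (g⁻¹ * ⟨x, hC7M hx⟩ * g) =
      g⁻¹ * ((⟨y, hC7M hy⟩ : Cfsg.M24) * ⟨x, hC7M hx⟩) * g := by group
    rw [e1, e2] at h
    have h1 := mul_left_cancel (mul_right_cancel h)
    exact congrArg Subtype.val h1
  · refine ⟨(g : Equiv.Perm Cfsg.GolayPt)⁻¹ • decT 341, smul_mem_trios (Cfsg.M24.inv_mem g.2) (decT_mem (by norm_num)), ?_⟩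
    intro n hn
    have h1 := N7_fixes_trio ((hN n).1 hn)
    rw [eq_inv_smul_iff]
    have h2 : ((g * n * g⁻¹ : Cfsg.M24) : Equiv.Perm Cfsg.GolayPt) =
      (g : Equiv.Perm Cfsg.GolayPt) * (n : Equiv.Perm Cfsg.GolayPt) * (g : Equiv.Perm Cfsg.GolayPt)⁻¹ := rfl
    rw [h2, mul_smul, mul_smul] at h1
    exact h1

end Cfsg.Agent.S5604
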