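import Cfsg.Statements.S5607
import Cfsg.Agent.Golay.OrbCent0


set_option autoImplicit false
open scoped Pointwise
open Cfsg

namespace Cfsg.Agent.S5607

open Cfsg.Agent.Golay Cfsg.Agent.Golay.Orb


/-- For a fixed-point-free involution t of the group of the length-24 code: its centraliser in that group has order 7680, is transitive on the 24 points, and is contained, together with t, in the stabiliser of some sextet. -/
theorem result (t : Equiv.Perm Cfsg.GolayPt) (ht : t ∈ Cfsg.M24) (h₂ : orderOf t = 2) (h₀ : ∀ p, t p ≠ p) : Nat.card {c : Equiv.Perm Cfsg.GolayPt // c ∈ Cfsg.M24 ∧ c * t = t * c} = 7680 ∧ (∀ p q : Cfsg.GolayPt, ∃ c ∈ Cfsg.M24, c * t = t * c ∧ c p = q) ∧ ∃ S ∈ Cfsg.sextets, t • S = S ∧ ∀ c ∈ Cfsg.M24, c * t = t * c → c • S = S := by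
  have h0 : (Finset.univ.filter fun p => t p = p).card = 0 := by
    rw [Finset.card_eq_zero, Finset.filter_eq_empty_iff]
    intro p _
    exact h₀ p
  obtain ⟨k, hk, hT⟩ := inv_fix0 ht h₂ (by rw [h0]; norm_num)
  have hkt : k * t * k⁻¹ = τ0 := isTable_unique hT τ0_tab
  have hcomm : ∀ c : Equiv.Perm Cfsg.GolayPt, c * t = t * c ↔ (k * c * k⁻¹) * τ0 = τ0 * (k * c * k⁻¹) := by
    intro c
    rw [← hkt]
    constructor
    · intro h
      have e1 : k * c * k⁻¹ * (k * t * k⁻¹) = k * (c * t) * k⁻¹ := by group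
      have e2 : k * t * k⁻¹ * (k * c * k⁻¹) = k * (t * c) * k⁻¹ := by group
      rw [e1, e2, h]
    · intro h
      have e1 : k * c * k⁻¹ * (k * t * k⁻¹) = k * (c * t) * k⁻¹ := by group
      have e2 : k * t * k⁻¹ * (k * c * k⁻¹) = k * (t * c) * k⁻¹ := by group
      rw [e1, e2] at h
      exact mul_left_cancel (mul_right_cancel h)
  have hM : ∀ c : Equiv.Perm Cfsg.GolayPt, c ∈ Cfsg.M24 → k * c * k⁻¹ ∈ Cfsg.M24 := fun c hc =>
    Cfsg.M24.mul_mem (Cfsg.M24.mul_mem hk hc) (Cfsg.M24.inv_mem hk)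
  have hM' : ∀ c : Equiv.Perm Cfsg.GolayPt, c ∈ Cfsg.M24 → k⁻¹ * c * k ∈ Cfsg.M24 := fun c hc =>
    Cfsg.M24.mul_mem (Cfsg.M24.mul_mem (Cfsg.M24.inv_mem hk) hc) hk
  refine ⟨?_, ?_, ?_⟩
  · rw [← card_C0]
    refine Nat.card_congr (Equiv.ofBijective (fun c => (⟨k * c.1 * k⁻¹, mem_C0.2 ⟨hM _ c.2.1, (hcomm _).1 c.2.2⟩⟩ : C0))
      ⟨?_, ?_⟩)
    · intro a b hab
      have h1 : k * a.1 * k⁻¹ = k * b.1 * k⁻¹ := congrArg Subtype.val hab
      exact Subtype.ext (mul_left_cancel (mul_right_cancel h1))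
    · rintro ⟨c, hc⟩
      rw [mem_C0] at hc
      have e : k * (k⁻¹ * c * k) * k⁻¹ = c := by group
      exact ⟨⟨k⁻¹ * c * k, hM' _ hc.1, (hcomm _).2 (by rw [e]; exact hc.2)⟩, Subtype.ext e⟩
  · intro p q
    obtain ⟨c, hc, h1⟩ := C0_transitive (k p) (k q)
    rw [mem_C0] at hc
    have e : k * (k⁻¹ * c * k) * k⁻¹ = c := by group
    refine ⟨k⁻¹ * c * k, hM' _ hc.1, (hcomm _).2 (by rw [e]; exact hc.2), ?_⟩
    simp [h1]
  · refine ⟨k⁻¹ • decS 3186, smul_mem_sextets (Cfsg.M24.inv_mem hk) S0_mem, ?_, ?_⟩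
    · have h1 : τ0 • decS 3186 = decS 3186 := C0_fixes_sextet (mem_C0.2 ⟨τ0_mem, rfl⟩)
      have h2 : t = k⁻¹ * τ0 * k := by rw [← hkt]; group
      rw [h2, mul_smul, mul_smul, smul_inv_smul, h1]
    · intro c hc hct
      have h1 := C0_fixes_sextet (mem_C0.2 ⟨hM _ hc, (hcomm c).1 hct⟩)
      rw [mul_smul, mul_smul] at h1
      rw [eq_inv_smul_iff]
      exact h1

end Cfsg.Agent.S5607
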