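import Cfsg.Statements.S2322
import Cfsg.Agent.H39.UniSL

set_option autoImplicit false
open Cfsg

namespace Cfsg.Agent.S2322

open Cfsg.Agent.H39 Cfsg.Agent.Char Cfsg.Agent.CharBase Matrix
open scoped ComplexConjugate

/-- elliptic elements are conjugate to their twists -/
theorem elliptic_twist {F : Type*} [Field F] [Fintype F] [DecidableEq F] (hF : ringChar F ≠ 2)
    (g : SpecialLinearGroup (Fin 2) F)
    (hg : ∀ (c : F) (v : Fin 2 → F), v ≠ 0 → (g : Matrix (Fin 2) (Fin 2) F).mulVec v ≠ c • v) (c : Fˣ) :
    IsConj (sgm c g) g := by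
  have h2 : (2 : F) ≠ 0 := two_ne_zero_of hF
  obtain ⟨h10, hx⟩ := qf2_ne_zero_of_elliptic hg
  have hdisc : (g : Matrix (Fin 2) (Fin 2) F).trace ^ 2 - 4 * (g : Matrix (Fin 2) (Fin 2) F).det ≠ 0 := by
    intro h0
    rw [Matrix.trace_fin_two, Matrix.det_fin_two] at h0
    apply hx (-((g : Matrix (Fin 2) (Fin 2) F) 1 1 - (g : Matrix (Fin 2) (Fin 2) F) 0 0) / (2 * (g : Matrix (Fin 2) (Fin 2) F) 1 0))
    simp only [qf2]
    field_simp
    linear_combination -h0
  have hdisc' : (sgm c g : Matrix (Fin 2) (Fin 2) F).trace ^ 2 - 4 * (sgm c g : Matrix (Fin 2) (Fin 2) F).det ≠ 0 := by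
    have h3 : (sgm c g : Matrix (Fin 2) (Fin 2) F).det = 1 := (sgm c g).2
    have h4 : (g : Matrix (Fin 2) (Fin 2) F).det = 1 := g.2
    have h5 : (sgm c g : Matrix (Fin 2) (Fin 2) F).trace = (g : Matrix (Fin 2) (Fin 2) F).trace := by
      rw [Matrix.trace_fin_two, Matrix.trace_fin_two]
      rfl
    rw [h3, h5]
    rwa [h4] at hdisc
  obtain ⟨x, y, hxy⟩ := exists_qf2_eq_one h2 _ hdisc
  obtain ⟨x', y', hxy'⟩ := exists_qf2_eq_one h2 _ hdisc'
  have e1 := isConj_compSL hxy
  have e2 := isConj_compSL hxy'
  have h5 : (sgm c g : Matrix (Fin 2) (Fin 2) F).trace = (g : Matrix (Fin 2) (Fin 2) F).trace := by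
    rw [Matrix.trace_fin_two, Matrix.trace_fin_two]
    rfl
  rw [h5] at e2
  exact e2.symm.trans e1

/-- Over a finite field F with q elements, q odd: every irreducible complex character of SL₂ of degree q − 1 or (q − 1)/2 vanishes at every diagonal matrix whose diagonal entry a has a² ≠ 1, and every irreducible complex character of degree q + 1 or (q + 1)/2 vanishes at every element with no eigenvector in F². -/
theorem result {F : Type*} [Field F] [Fintype F] (hodd : Odd (Fintype.card F)) (χ : Matrix.SpecialLinearGroup (Fin 2) F → ℂ) (hχ : Cfsg.IsIrrCharacter (Matrix.SpecialLinearGroup (Fin 2) F) χ) (g : Matrix.SpecialLinearGroup (Fin 2) F) :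
    ((χ 1 = (Fintype.card F : ℂ) - 1 ∨ χ 1 = (((Fintype.card F - 1) / 2 : ℕ) : ℂ)) →
      (g : Matrix (Fin 2) (Fin 2) F) 0 1 = 0 → (g : Matrix (Fin 2) (Fin 2) F) 1 0 = 0 → (g : Matrix (Fin 2) (Fin 2) F) 0 0 ^ 2 ≠ 1 → χ g = 0) ∧
    ((χ 1 = (Fintype.card F : ℂ) + 1 ∨ χ 1 = (((Fintype.card F + 1) / 2 : ℕ) : ℂ)) →
      (∀ (c : F) (v : Fin 2 → F), v ≠ 0 → (g : Matrix (Fin 2) (Fin 2) F).mulVec v ≠ c • v) → χ g = 0) := by
  classical
  have hF := ringChar_ne_two hodd
  have hq1 : 1 < Fintype.card F := Fintype.one_lt_card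
  have hcast : ∀ a b : ℕ, (a : ℂ) = b → a = b := fun a b h => by exact_mod_cast h
  have hcl := isClassFunction_of_isCharacter (isCharacter_of_isIrr hχ)
  obtain ⟨k, hk⟩ := hodd
  have hk0 : 0 < k := by omega
  have e1 : (2 * k + 1 - 1) / 2 = k := by omega
  have e2 : (2 * k + 1 + 1) / 2 = k + 1 := by omega
  rw [hk, e1, e2]
  refine ⟨fun hd h01 h10 hne => ?_, fun hd hg => ?_⟩
  · by_cases h0 : ∑ x : F, χ (uSL x) = 0
    · refine (frameSL F).split_eq_zero (isCharacter_of_isIrr hχ) h0 g h01 h10 ?_
      intro heq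
      apply hne
      have heq' : (g : Matrix (Fin 2) (Fin 2) F) 0 0 = (g : Matrix (Fin 2) (Fin 2) F) 1 1 := heq
      have hdet : (g : Matrix (Fin 2) (Fin 2) F).det = 1 := g.2
      rw [Matrix.det_fin_two, h10, ← heq'] at hdet
      linear_combination hdet
    · exfalso
      -- for `q = 3` there is nothing to prove
      have h3 : k ≠ 1 := by
        rintro rfl
        apply hne
        have h4 : (g : Matrix (Fin 2) (Fin 2) F) 0 0 ≠ 0 := by
          have hB : g ∈ B2 (inSL F) := by rw [mem_B2]; exact h10
          exact (mt_diag_ne_zero hB).1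
        have h5 := FiniteField.pow_card_sub_one_eq_one _ h4
        rw [hk] at h5
        exact h5
      rcases prinSL_cases hχ h0 with ⟨α, rfl⟩ | rfl | rfl | ⟨α, χ₁, χ₂, hα, hα1, hne', hadd, rfl⟩
      · rw [pSL_one, hk] at hd
        rcases hd with hd | hd
        · have : (2 : ℂ) = 0 := by linear_combination hd
          norm_num at this
        · have h4 : ((2 * k + 2 : ℕ) : ℂ) = (k : ℂ) := by push_cast at hd ⊢; linear_combination hd
          have := hcast _ _ h4
          omega
      · rcases hd with hd | hd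
        · have h4 : ((1 : ℕ) : ℂ) = ((2 * k : ℕ) : ℂ) := by push_cast at hd ⊢; linear_combination hd
          have := hcast _ _ h4
          omega
        · have h4 : ((1 : ℕ) : ℂ) = (k : ℂ) := by push_cast at hd ⊢; linear_combination hd
          have := hcast _ _ h4
          omega
      · rw [Pi.sub_apply, pSL_one, hk] at hd
        rcases hd with hd | hd
        · have : (1 : ℂ) = 0 := by linear_combination hd
          norm_num at this
        · have h4 : ((2 * k + 1 : ℕ) : ℂ) = (k : ℂ) := by push_cast at hd ⊢; linear_combination hd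
          have := hcast _ _ h4
          omega
      · obtain ⟨d1, -⟩ := halves_degree hα1 hne' hadd
        rw [hk] at d1
        rcases hd with hd | hd
        · have h4 : ((4 * k : ℕ) : ℂ) = ((2 * k + 2 : ℕ) : ℂ) := by push_cast at hd d1 ⊢; linear_combination d1 - 2 * hd
          have := hcast _ _ h4
          omega
        · have h4 : ((2 * k : ℕ) : ℂ) = ((2 * k + 2 : ℕ) : ℂ) := by push_cast at hd d1 ⊢; linear_combination d1 - 2 * hd
          have := hcast _ _ h4
          omega
  · by_cases h0 : ∑ x : F, χ (uSL x) = 0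
    · obtain ⟨ν, hν⟩ := FiniteField.exists_nonsquare hF
      obtain ⟨ψ, hψ⟩ := exists_primitive F
      choose m hm using (frameSL F).hat_nat (isCharacter_of_isIrr hχ) ψ
      have hm0 : m 0 = 0 := by
        have h1 := mult_zero hm
        rw [h0] at h1
        have h3 := (mul_eq_zero.1 h1.symm).resolve_left (card_ne F)
        exact_mod_cast h3
      obtain ⟨hd', hb⟩ := bound_odd hF hχ hψ hm hν hk hk0 hm0
      obtain ⟨-, n2, n3, -, -⟩ := num_odd hk0 hb
      rcases hd with hd | hd
      · exfalso
        apply n2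
        apply hcast
        rw [← hd', hd]
        push_cast
        ring
      · obtain ⟨k1, a1, b1⟩ := n3 (hcast _ _ (by rw [← hd', hd]))
        subst k1
        have hd2 : χ 1 = ((2 : ℕ) : ℂ) := by rw [hd]
        refine (frameSL F).eq_zero_of_bound hχ (zpm (F := F)) (cpm F) (cpm_injective hF) cpm_ne_zero mt_zpm hψ m hm 2 hd2 ?_ g ?_
        · rw [sum_sq_odd hF hcl hm hν hk, hm0, a1, b1, card_SL, hk, Fintype.card_bool]
          norm_num
        · obtain ⟨h10, hx⟩ := qf2_ne_zero_of_elliptic hg
          rintro ⟨i, o⟩ hp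
          have m0 : mt (inSL F) (zpm i) = !![cpm F i, 0; 0, cpm F i] := by
            rw [mt_zpm]
            ext j k
            fin_cases j <;> fin_cases k <;> simp
          rcases o with _ | ⟨_ | y, x, hxx⟩
          · apply h10
            have h1 : zpm i = g := hp
            have h2 : mt (inSL F) g 1 0 = 0 := by rw [← h1, m0]; simp
            exact h2
          · apply h10
            have h1 : zpm i * uSL x = g := hp
            have h2 : mt (inSL F) g 1 0 = 0 := by
              rw [← h1, mt_mul, m0, (frameSL F).hu]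
              simp [Matrix.mul_apply, Fin.sum_univ_two]
            exact h2
          · apply hx y
            have h1 : zpm i * ((uSL y * wSL F) * uSL x * (uSL y * wSL F)⁻¹) = g := hp
            have h2 : mt (inSL F) g = !![cpm F i * (1 - x * y), cpm F i * (x * y ^ 2); -(cpm F i * x), cpm F i * (1 + x * y)] := by
              rw [← h1, mt_mul, m0, (frameSL F).mt_conj_u]
              ext j k
              fin_cases j <;> fin_cases k <;> simp [Matrix.mul_apply, Fin.sum_univ_two]
            have h3 : qf2 (mt (inSL F) g) y 1 = 0 := by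
              rw [h2]
              simp [qf2]
              ring
            exact h3
    · rcases prinSL_cases hχ h0 with ⟨α, rfl⟩ | rfl | rfl | ⟨α, χ₁, χ₂, hα, hα1, hne', hadd, rfl⟩
      · exact (frameSL F).prin_elliptic α 1 g hg
      · exfalso
        rcases hd with hd | hd
        · have h4 : ((1 : ℕ) : ℂ) = ((2 * k + 2 : ℕ) : ℂ) := by push_cast at hd ⊢; linear_combination hd
          have := hcast _ _ h4
          omega
        · have h4 : ((1 : ℕ) : ℂ) = ((k + 1 : ℕ) : ℂ) := by push_cast at hd ⊢; linear_combination hd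
          have := hcast _ _ h4
          omega
      · exfalso
        rw [Pi.sub_apply, pSL_one, hk] at hd
        rcases hd with hd | hd
        · have : (1 : ℂ) = 0 := by linear_combination -hd
          norm_num at this
        · have h4 : ((2 * k + 1 : ℕ) : ℂ) = ((k + 1 : ℕ) : ℂ) := by push_cast at hd ⊢; linear_combination hd
          have := hcast _ _ h4
          omega
      · obtain ⟨c, hc⟩ := halves hα1 hne' hadd
        have h1 : pSL α g = 0 := (frameSL F).prin_elliptic α 1 g hg
        rw [hadd, Pi.add_apply, hc g, classFun_eq_of_isConj (irr_isClassFunction χ₁) (elliptic_twist hF g hg c)] at h1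
        linear_combination (1 / 2 : ℂ) * h1

end Cfsg.Agent.S2322
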