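import Cfsg.Statements.S3103
import Cfsg.Agent.H51.AutA8
import Cfsg.Agent.S4207
import Cfsg.Agent.BG.L3_4g
import Cfsg.Agent.H36.PConstr

set_option autoImplicit false
open Cfsg

namespace Cfsg.Agent.S3103

open scoped commutatorElement
open Cfsg.Agent.BG.P09 in
theorem aux {X : Type*} [Group X] [Finite X] (Q : Subgroup X) [hQn : Q.Normal] (hQd : Q = Cfsg.pCore 2 X)
    (hch : Subgroup.centralizer (Q : Set X) ≤ Q)
    (h4 : Cfsg.SectionalPRankLE 2 4 ↥Q) :
    ∃ f : X ⧸ Q →* ↥(alternatingGroup (Fin 8)), Function.Injective f := by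
  classical
  haveI : Fact (Nat.Prime 2) := ⟨Nat.prime_two⟩
  have hQp : IsPGroup 2 Q := by rw [hQd]; exact Cfsg.Agent.Solv.pCore_isPGroup 2
  letI instV : CommGroup (Q ⧸ frattini Q) :=
    { (inferInstance : Group (Q ⧸ frattini Q)) with
      mul_comm := by
        intro a b
        induction a using QuotientGroup.induction_on with
        | H a =>
          induction b using QuotientGroup.induction_on with
          | H b =>
            rw [← QuotientGroup.mk_mul, ← QuotientGroup.mk_mul, QuotientGroup.eq]
            have h1 : (⁅b⁻¹, a⁻¹⁆ : Q) ∈ commutator Q := Subgroup.commutator_mem_commutator trivial trivial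
            have h2 := Cfsg.Agent.Solv.commutator_le_frattini_of_pGroup hQp h1
            rw [commutatorElement_def] at h2
            simpa [mul_assoc] using h2 }
  have hexp : ∀ v : Q ⧸ frattini Q, v ^ 2 = 1 := by
    intro v
    obtain ⟨y, hy⟩ := QuotientGroup.mk_surjective v
    have h1 : (QuotientGroup.mk (y ^ 2) : Q ⧸ frattini Q) = 1 :=
      (QuotientGroup.eq_one_iff _).mpr (Cfsg.Agent.Solv.pow_mem_frattini_of_pGroup hQp y)
    rw [← hy, ← QuotientGroup.mk_pow]
    exact h1
  have hcard : Nat.card (Q ⧸ frattini Q) ≤ 16 := by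
    have h1 := h4 ⊤ ((frattini Q).subgroupOf ⊤)
    have e : (↥(⊤ : Subgroup Q) ⧸ (frattini Q).subgroupOf ⊤) ≃* (Q ⧸ frattini Q) :=
      QuotientGroup.congr _ _ Subgroup.topEquiv (by
        ext x
        constructor
        · rintro ⟨y, hy, rfl⟩
          exact hy
        · intro hx
          exact ⟨⟨x, trivial⟩, hx, rfl⟩)
    have h2 := h1 ⊤ ⟨⟨fun a b => Subtype.ext (e.injective (by
      change e ((a : _) * (b : _)) = e ((b : _) * (a : _))
      rw [map_mul, map_mul, mul_comm]))⟩⟩ (fun a _ => e.injective (by rw [map_pow, hexp, map_one]))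
    rw [Subgroup.card_top, Nat.card_congr e.toEquiv] at h2
    exact h2
  obtain ⟨f, hf⟩ := Cfsg.Agent.H51.exists_aut_embed hexp hcard
  let α : X →* MulAut (Q ⧸ frattini Q) := fratAut (MulAut.conjNormal (H := Q))
  have hker : α.ker = Q := by
    apply le_antisymm
    · conv_rhs => rw [hQd]
      apply Cfsg.Agent.Solv.le_pCore inferInstance
      rintro ⟨x, hx⟩
      -- automorphism trivial on Frattini quotient
      have h1 : ∀ y : Q, (MulAut.conjNormal (H := Q) x) y * y⁻¹ ∈ frattini Q := by
        intro y
        have h2 : α x (QuotientGroup.mk y) = QuotientGroup.mk y := by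
          have h3 : α x = 1 := hx
          rw [h3]; rfl
        have h4 : (QuotientGroup.mk ((MulAut.conjNormal (H := Q) x) y) : Q ⧸ frattini Q) = QuotientGroup.mk y := h2
        rw [← QuotientGroup.eq_one_iff, QuotientGroup.mk_mul, h4, QuotientGroup.mk_inv, mul_inv_cancel]
      have hpow : ∀ β : MulAut Q, (∀ y : Q, β y * y⁻¹ ∈ frattini Q) → ∃ k, β ^ 2 ^ k = 1 := by
        intro β hβ
        obtain ⟨n, hn⟩ := IsPGroup.iff_card.1 hQp
        obtain ⟨r, hr⟩ := hQp.index (frattini Q)
        let A : Subgroup (MulAut Q) :=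
          { carrier := {γ | ∀ x, γ x * x⁻¹ ∈ frattini Q}
            one_mem' := fun x => by simp [one_mem]
            mul_mem' := by
              intro a b ha hb x
              have h1 := ha (b x)
              have h2 := hb x
              have := mul_mem h1 h2
              rwa [mul_assoc, inv_mul_cancel_left] at this
            inv_mem' := by
              intro a ha x
              have h1 := ha (a⁻¹ x)
              rw [MulAut.apply_inv_self] at h1
              have := inv_mem h1
              rwa [mul_inv_rev, inv_inv] at this }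
        have h1 := Cfsg.Agent.S4207.result hn hr A (fun α hα => hα)
        obtain ⟨k, -, hk⟩ := (Nat.dvd_prime_pow Fact.out).1 h1
        refine ⟨k, ?_⟩
        have h2 : (⟨β, hβ⟩ : A) ^ Nat.card A = 1 := pow_card_eq_one'
        rw [hk] at h2
        exact congrArg Subtype.val h2
      obtain ⟨k, hk⟩ := hpow _ h1
      rw [← map_pow] at hk
      have h5 : x ^ 2 ^ k ∈ Q := by
        apply hch
        rw [Subgroup.mem_centralizer_iff]
        intro y hy
        have h6 : (MulAut.conjNormal (H := Q) (x ^ 2 ^ k)) ⟨y, hy⟩ = ⟨y, hy⟩ := by rw [hk]; rfl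
        have h7 := congrArg Subtype.val h6
        rw [MulAut.conjNormal_apply] at h7
        exact (mul_inv_eq_iff_eq_mul.mp h7).symm
      obtain ⟨m, hm⟩ := hQp ⟨_, h5⟩
      refine ⟨k + m, Subtype.ext ?_⟩
      change x ^ 2 ^ (k + m) = 1
      rw [pow_add, pow_mul]
      exact congrArg Subtype.val hm
    · intro x hx
      rw [MonoidHom.mem_ker]
      ext v
      induction v using QuotientGroup.induction_on with
      | H y =>
        change (QuotientGroup.mk ((MulAut.conjNormal (H := Q) x) y) : Q ⧸ frattini Q) = QuotientGroup.mk y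
        have h1 : (MulAut.conjNormal (H := Q) x) y = (⟨x, hx⟩ : Q) * y * (⟨x, hx⟩ : Q)⁻¹ := by
          apply Subtype.ext
          rw [MulAut.conjNormal_apply]; rfl
        rw [h1, QuotientGroup.mk_mul, QuotientGroup.mk_mul, QuotientGroup.mk_inv, mul_comm, inv_mul_cancel_left]
  refine ⟨f.comp (QuotientGroup.lift Q α (by rw [hker])), ?_⟩
  rw [MonoidHom.coe_comp]
  apply hf.comp
  rw [injective_iff_map_eq_one]
  intro x hx
  induction x using QuotientGroup.induction_on with
  | H y =>
    have h1 : y ∈ α.ker := hx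
    rw [hker] at h1
    exact (QuotientGroup.eq_one_iff _).mpr h1

/-- Let X be a finite 2-constrained group with no nontrivial normal subgroup of odd order such that O₂(X) has sectional 2-rank at most 4. Then X/O₂(X) is isomorphic to a subgroup of the alternating group of degree 8. -/
theorem result {X : Type*} [Group X] [Finite X] (hc : Cfsg.IsPConstrained 2 X) (hO : Cfsg.oddCore X = ⊥)
    (h4 : Cfsg.SectionalPRankLE 2 4 ↥(Cfsg.pCore 2 X)) :
    ∃ f : X ⧸ Cfsg.pCore 2 X →* ↥(alternatingGroup (Fin 8)), Function.Injective f := by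
  exact aux _ rfl ((Cfsg.Agent.H36.PConstr.isPConstrained_iff_of_core_eq_bot hO).mp hc) h4

end Cfsg.Agent.S3103
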