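import Cfsg.Statements.S1013
import Cfsg.Agent.H17.SelfCent
import Cfsg.Agent.H17.CharKer

set_option autoImplicit false
open Cfsg

namespace Cfsg.Agent.S1013

/-- Let G be a transitive permutation group of prime degree p having more than one Sylow p-subgroup, and suppose a Sylow p-subgroup P has prime index in its normalizer. Then G is simple. -/
theorem result {α : Type*} [Fintype α] [DecidableEq α] {p : ℕ} [Fact p.Prime] (hα : Fintype.card α = p) (G : Subgroup (Equiv.Perm α)) [MulAction.IsPretransitive ↥G α] (P : Sylow p ↥G) (hn : 1 < Nat.card (Sylow p ↥G)) (ht : (((P : Subgroup ↥G).subgroupOf (Subgroup.normalizer ((P : Subgroup ↥G) : Set ↥G))).index).Prime) : IsSimpleGroup ↥G := by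
  classical
  have hp : p.Prime := Fact.out
  have hcα : Nat.card α = p := by rw [Nat.card_eq_fintype_card, hα]
  have hne : Nonempty α := Fintype.card_pos_iff.mp (by rw [hα]; exact hp.pos)
  have hpre : MulAction.IsPreprimitive ↥G α := MulAction.IsPreprimitive.of_prime_card (by rw [hcα]; exact hp)
  have hpdvd : p ∣ Nat.card ↥G := by
    obtain ⟨a⟩ := hne
    have h1 := MulAction.index_stabilizer_of_transitive ↥G a
    rw [hcα] at h1
    rw [← h1]
    exact Subgroup.index_dvd_card _
  -- order of G divides p!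
  have hGdvd : Nat.card ↥G ∣ p.factorial := by
    have := Subgroup.card_subgroup_dvd_card G
    rwa [Nat.card_perm, hcα] at this
  have hPcard : Nat.card (P : Subgroup ↥G) = p := by
    have h1 : (Nat.card ↥G).factorization p = 1 := by
      apply le_antisymm
      · have h2 := (Nat.factorization_le_iff_dvd (Nat.card_pos.ne') (Nat.factorial_ne_zero p)).mpr hGdvd p
        have h3 : p.factorial.factorization p = 1 := by
          rw [← Nat.mul_factorial_pred hp.ne_zero, Nat.factorization_mul hp.ne_zero (Nat.factorial_ne_zero _)]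
          have := hp.two_le
          rw [Finsupp.add_apply, hp.factorization_self, Nat.factorization_factorial_eq_zero_of_lt (by omega)]
        rwa [h3] at h2
      · exact (hp.dvd_iff_one_le_factorization Nat.card_pos.ne').mp hpdvd
    have h4 := P.card_eq_multiplicity
    rw [h1, pow_one] at h4
    exact h4
  have hPne : ¬ (P : Subgroup ↥G).Normal := by
    intro hN
    have : Unique (Sylow p ↥G) := Sylow.unique_of_normal P hN
    have := Nat.card_unique (α := Sylow p ↥G)
    omega
  have htr : ∀ M : Subgroup ↥G, M.Normal → M ≠ ⊥ → p ∣ Nat.card M := by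
    intro M hM hMb
    have htrans : MulAction.IsPretransitive M α := by
      apply MulAction.IsQuasiPreprimitive.isPretransitive_of_normal (G := ↥G)
      intro hfix
      apply hMb
      rw [eq_bot_iff]
      intro x hx
      rw [Subgroup.mem_bot]
      apply Subtype.ext
      ext a
      have : a ∈ MulAction.fixedPoints M α := by rw [hfix]; trivial
      exact this ⟨x, hx⟩
    obtain ⟨a⟩ := hne
    have h1 := MulAction.index_stabilizer_of_transitive M a
    rw [hcα] at h1
    rw [← h1]
    exact Subgroup.index_dvd_card _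
  have hnt : Nontrivial ↥G := by
    rw [← Finite.one_lt_card_iff_nontrivial]
    exact lt_of_lt_of_le hp.one_lt (Nat.le_of_dvd Nat.card_pos hpdvd)
  refine IsSimpleGroup.mk (fun N hN => ?_)
  by_cases hNb : N = ⊥
  · exact Or.inl hNb
  right
  have hpN := htr N hN hNb
  -- P ≤ N
  have hPN : (P : Subgroup ↥G) ≤ N := by
    obtain ⟨x, hx⟩ := exists_prime_orderOf_dvd_card' (G := N) p hpN
    have hx' : orderOf (x : ↥G) = p := by rw [← hx]; exact Subgroup.orderOf_coe x
    obtain ⟨Q, hQ⟩ : ∃ Q : Sylow p ↥G, (Q : Subgroup ↥G) = Subgroup.zpowers (x : ↥G) :=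
      ⟨H17.sylowOfElt P hPcard x hx', rfl⟩
    obtain ⟨g, hg⟩ := MulAction.exists_smul_eq ↥G Q P
    intro y hy
    rw [← hg, Sylow.coe_subgroup_smul] at hy
    have hz := Subgroup.mem_pointwise_smul_iff_inv_smul_mem.mp hy
    rw [hQ] at hz
    have h1 : (MulAut.conj g)⁻¹ • y ∈ N := (Subgroup.zpowers_le.mpr x.2) hz
    have h2 := hN.conj_mem _ h1 g
    have h3 : g * ((MulAut.conj g)⁻¹ • y) * g⁻¹ = y := by
      rw [← map_inv, MulAut.smul_def, MulAut.conj_apply]
      group
    rwa [h3] at h2
  have hfr : Subgroup.normalizer ((P : Subgroup ↥G) : Set ↥G) ⊔ N = ⊤ := Sylow.normalizer_sup_eq_top' P hPN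
  set NP := Subgroup.normalizer ((P : Subgroup ↥G) : Set ↥G) with hNP
  have hmid := Subgroup.relIndex_mul_relIndex (P : Subgroup ↥G) (N ⊓ NP) NP
    (le_inf hPN Subgroup.le_normalizer) inf_le_right
  have ht' : ((P : Subgroup ↥G).relIndex NP).Prime := ht
  rw [← hmid] at ht'
  rcases Nat.prime_mul_iff.mp ht' with ⟨_, h1⟩ | ⟨_, h1⟩
  · have h2 : NP ≤ N ⊓ NP := Subgroup.relIndex_eq_one.mp h1
    have h3 : NP ≤ N := h2.trans inf_le_left
    rwa [sup_eq_right.mpr h3] at hfr
  · exfalso
    have h2 : N ⊓ NP ≤ P := Subgroup.relIndex_eq_one.mp h1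
    have hcyc : IsCyclic (P : Subgroup ↥G) := isCyclic_of_prime_card hPcard
    have hcomm : IsMulCommutative (P : Subgroup ↥G) := hcyc.isMulCommutative
    let P' : Sylow p N := P.subtype hPN
    have hP' : (P' : Subgroup N) = (P : Subgroup ↥G).subgroupOf N := rfl
    have h3 : Subgroup.normalizer ((P' : Subgroup N) : Set N) ≤ Subgroup.centralizer ((P' : Subgroup N) : Set N) := by
      rw [hP', ← Subgroup.subgroupOf_normalizer_eq hPN]
      intro x hx
      have hxP : (x : ↥G) ∈ (P : Subgroup ↥G) := h2 ⟨x.2, hx⟩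
      rw [Subgroup.mem_centralizer_iff]
      intro y hy
      apply Subtype.ext
      have h7 : (y : ↥G) * (x : ↥G) = (x : ↥G) * (y : ↥G) :=
        congrArg Subtype.val (mul_comm' (⟨(y : ↥G), hy⟩ : (P : Subgroup ↥G)) ⟨x, hxP⟩)
      exact h7
    obtain ⟨K, hK1, hK2, hK3, hK4⟩ := H17.exists_normal_complement N P' h3
    have hKb : K = ⊥ := by
      by_contra hKb
      exact hK3 (htr K hK1 hKb)
    rw [hKb, Subgroup.card_bot, one_mul] at hK4
    have h5 : Nat.card (P' : Subgroup N) = p := by
      rw [hP', Nat.card_congr (Subgroup.subgroupOfEquivOfLe hPN).toEquiv, hPcard]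
    have h6 : (P : Subgroup ↥G) = N := by
      apply Subgroup.eq_of_le_of_card_ge hPN
      rw [hPcard, ← hK4]
      exact h5.le
    exact hPne (h6 ▸ hN)

end Cfsg.Agent.S1013
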