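import Cfsg.Statements.S0838
import Cfsg.Agent.Orth.Diag

set_option autoImplicit false
open Cfsg

namespace Cfsg.Agent.S0838

/-- Over a finite field with 2 ≠ 0 and n odd: two quadratic forms Q₁, Q₂ on F^n with non-degenerate polar forms are similar — there are an invertible linear map g and a scalar c ≠ 0 with Q₂ (g v) = c · Q₁ v for all v. -/
theorem result {F : Type*} [Field F] [Fintype F] (h2 : (2 : F) ≠ 0) {n : ℕ} (hn : Odd n) (Q₁ Q₂ : QuadraticForm F (Fin n → F)) (h₁ : (QuadraticMap.polarBilin Q₁).Nondegenerate) (h₂ : (QuadraticMap.polarBilin Q₂).Nondegenerate) : ∃ (g : (Fin n → F) ≃ₗ[F] (Fin n → F)) (c : F), c ≠ 0 ∧ ∀ v, Q₂ (g v) = c * Q₁ v := by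
  set b := Pi.basisFun F (Fin n) with hbdef
  have hd1 := Cfsg.Agent.Orth.gram_det_ne_zero h₁ b
  have hd2 := Cfsg.Agent.Orth.gram_det_ne_zero h₂ b
  set d1 := (Cfsg.Agent.Orth.gram Q₁ b).det with hd1'
  set d2 := (Cfsg.Agent.Orth.gram Q₂ b).det with hd2'
  have hc : d1 * d2 ≠ 0 := mul_ne_zero hd1 hd2
  have hpol : ∀ x y, QuadraticMap.polar ⇑((d1 * d2) • Q₁) x y = d1 * d2 * QuadraticMap.polar ⇑Q₁ x y := by
    intro x y
    simp only [QuadraticMap.polar, smul_apply, smul_eq_mul]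
    ring
  have hn' : (QuadraticMap.polarBilin ((d1 * d2) • Q₁)).Nondegenerate := by
    constructor
    · intro x hx
      refine h₁.1 x fun y => ?_
      have := hx y
      rw [Cfsg.Agent.Orth.pbil, hpol] at this
      exact (mul_eq_zero.1 this).resolve_left hc
    · intro x hx
      refine h₁.2 x fun y => ?_
      have := hx y
      rw [Cfsg.Agent.Orth.pbil, hpol] at this
      exact (mul_eq_zero.1 this).resolve_left hc
  have hg : Cfsg.Agent.Orth.gram ((d1 * d2) • Q₁) b = (d1 * d2) • Cfsg.Agent.Orth.gram Q₁ b := by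
    ext i j
    rw [Cfsg.Agent.Orth.gram, Matrix.of_apply, hpol, Matrix.smul_apply, smul_eq_mul]
    rfl
  obtain ⟨g, hg'⟩ := Cfsg.Agent.Orth.exists_isom_of_disc h2 hn' h₂ rfl b b (by
    rw [hg, Matrix.det_smul, Fintype.card_fin, ← hd1', ← hd2']
    obtain ⟨k, rfl⟩ := hn
    exact ⟨(d1 * d2) ^ k * (d1 * d2), by ring⟩)
  refine ⟨g, d1 * d2, hc, fun v => ?_⟩
  rw [hg', smul_apply, smul_eq_mul]

end Cfsg.Agent.S0838
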