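import Cfsg.Statements.S2624
import Cfsg.Agent.S2616
import Cfsg.Agent.Orth.Simil

set_option autoImplicit false
open Cfsg

namespace Cfsg.Agent.S2624

/-- For a quadratic form Q on F^n with non-degenerate polar form, F finite and n ≥ 2 even, every non-zero scalar c is the multiplier of some similarity: there is an invertible linear map g with Q(g v) = c·Q(v) for all v. -/
theorem result {F : Type*} [Field F] [Fintype F] {n : ℕ} (hn : 2 ≤ n) (he : Even n) (Q : QuadraticForm F (Fin n → F)) (hQ : (QuadraticMap.polarBilin Q).Nondegenerate) (c : F) (hc : c ≠ 0) : ∃ g : (Fin n → F) ≃ₗ[F] (Fin n → F), ∀ v, Q (g v) = c * Q v := by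
  obtain ⟨m, rfl⟩ := he
  have hdim : Module.finrank F (Fin (m + m) → F) = 2 * m := by
    rw [Module.finrank_fin_fun]; ring
  rcases Cfsg.Agent.S2616.result (by omega : 1 ≤ m) hdim Q hQ with
    ⟨b, hq, hef, hee⟩ | ⟨b, ζ, -, hq, hef, hee, heu, h0, h01, h1⟩
  · obtain ⟨g, hg, -⟩ := Cfsg.Agent.Orth.simil_of_basis hQ Q rfl b
      (Sum.elim (fun i => c • b (Sum.inl i)) (fun i => b (Sum.inr i))) hc
      (fun i => by
        rcases i with i | i
        · simp only [Sum.elim_inl, Cfsg.Agent.Orth.qsmul, (hq i).1, mul_zero]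
        · simp only [Sum.elim_inr, (hq i).2, mul_zero])
      (fun i j => by
        rcases i with i | i <;> rcases j with j | j
        · simp only [Sum.elim_inl, Cfsg.Agent.Orth.psl, Cfsg.Agent.Orth.psr, (hee i j).1, mul_zero]
        · simp only [Sum.elim_inl, Sum.elim_inr, Cfsg.Agent.Orth.psl, hef]
        · simp only [Sum.elim_inl, Sum.elim_inr, Cfsg.Agent.Orth.psr]
        · simp only [Sum.elim_inr, (hee i j).2, mul_zero])
    exact ⟨g, hg⟩
  · -- elliptic case: on the anisotropic plane multiply by an element of norm `c`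
    obtain ⟨s, t, hst⟩ : ∃ s t : F, s ^ 2 + s * t + ζ * t ^ 2 = c := by
      -- the plane is universal
      have hpl : ∀ s t : F, Q (s • b (Sum.inr 0) + t • b (Sum.inr 1)) = s ^ 2 + s * t + ζ * t ^ 2 := by
        intro s t
        rw [Cfsg.Agent.Orth.qadd, Cfsg.Agent.Orth.qsmul, Cfsg.Agent.Orth.qsmul,
          Cfsg.Agent.Orth.psl, Cfsg.Agent.Orth.psr, h0, h01, h1]
        ring
      by_cases h2 : (2 : F) = 0
      · obtain ⟨s, hs⟩ := Cfsg.Agent.Orth.isSquare_of_two_eq_zero h2 c
        exact ⟨s, 0, by rw [hs]; ring⟩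
      · by_cases hd : (4 : F) * ζ - 1 = 0
        · -- degenerate plane, impossible, but a direct argument is not needed
          exfalso
          have hz : b (Sum.inr 0) - (2 : F) • b (Sum.inr 1) = 0 := by
            refine hQ.1 _ fun y => ?_
            have hy := b.sum_repr y
            rw [← hy, Cfsg.Agent.Orth.pbil, Cfsg.Agent.Orth.psumr]
            refine Finset.sum_eq_zero fun i _ => ?_
            rw [Cfsg.Agent.Orth.psr]
            rcases i with (i | i) | i
            · rw [Cfsg.Agent.Orth.pc, Cfsg.Agent.Orth.pdr, Cfsg.Agent.Orth.psr, (heu i 0).1,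
                (heu i 1).1]; ring
            · rw [Cfsg.Agent.Orth.pc, Cfsg.Agent.Orth.pdr, Cfsg.Agent.Orth.psr, (heu i 0).2,
                (heu i 1).2]; ring
            · fin_cases i
              · change _ * QuadraticMap.polar ⇑Q _ (b (Sum.inr 0)) = 0
                rw [Cfsg.Agent.Orth.pc, Cfsg.Agent.Orth.pdr, Cfsg.Agent.Orth.psr, h01,
                  Cfsg.Agent.Orth.pself, h0]; ring
              · change _ * QuadraticMap.polar ⇑Q _ (b (Sum.inr 1)) = 0
                rw [Cfsg.Agent.Orth.pc, Cfsg.Agent.Orth.pdr, Cfsg.Agent.Orth.psr,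
                  Cfsg.Agent.Orth.pc Q _ (b (Sum.inr 0)), h01,
                  Cfsg.Agent.Orth.pself, h1]
                have : (1 : F) - 2 * (2 * ζ) = 0 := by linear_combination -hd
                rw [this, mul_zero]
          have hli := b.linearIndependent
          have := congrArg (fun x => b.repr x (Sum.inr 0)) hz
          simp [Finsupp.single_apply] at this
        · obtain ⟨x, y, hxy⟩ := Cfsg.Agent.Orth.exists_sum_sq (F := F) (a := 1) (b := 4 * ζ - 1)
            one_ne_zero hd (4 * c)
          refine ⟨(x - y) / 2, y, ?_⟩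
          have h4 : (4 : F) ≠ 0 := by
            have : (4 : F) = 2 * 2 := by norm_num
            rw [this]; exact mul_ne_zero h2 h2
          field_simp
          linear_combination hxy
    obtain ⟨g, hg, -⟩ := Cfsg.Agent.Orth.simil_of_basis hQ Q rfl b
      (Sum.elim (Sum.elim (fun i => c • b (Sum.inl (Sum.inl i))) (fun i => b (Sum.inl (Sum.inr i))))
        (fun k => if k = 0 then s • b (Sum.inr 0) + t • b (Sum.inr 1)
          else (-(t * ζ)) • b (Sum.inr 0) + (s + t) • b (Sum.inr 1))) hc
      (fun i => by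
        rcases i with (i | i) | i
        · simp only [Sum.elim_inl, Cfsg.Agent.Orth.qsmul, (hq i).1, mul_zero]
        · simp only [Sum.elim_inl, Sum.elim_inr, (hq i).2, mul_zero]
        · fin_cases i
          · simp only [Sum.elim_inr, Cfsg.Agent.Orth.qadd, Cfsg.Agent.Orth.qsmul,
              Cfsg.Agent.Orth.psl, Cfsg.Agent.Orth.psr, h0, h01, h1, Fin.zero_eta, if_true]
            rw [← hst]; ring
          · simp only [Sum.elim_inr, Fin.mk_one, one_ne_zero, if_false, Cfsg.Agent.Orth.qadd,
              Cfsg.Agent.Orth.qsmul, Cfsg.Agent.Orth.psl, Cfsg.Agent.Orth.psr, h0, h01, h1]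
            rw [← hst]; ring)
      (fun i j => by
        have hue : ∀ i k, QuadraticMap.polar ⇑Q (b (Sum.inr k)) (b (Sum.inl (Sum.inl i))) = 0 :=
          fun i k => by rw [Cfsg.Agent.Orth.pc]; exact (heu i k).1
        have huf : ∀ i k, QuadraticMap.polar ⇑Q (b (Sum.inr k)) (b (Sum.inl (Sum.inr i))) = 0 :=
          fun i k => by rw [Cfsg.Agent.Orth.pc]; exact (heu i k).2
        have h10 : QuadraticMap.polar ⇑Q (b (Sum.inr 1)) (b (Sum.inr 0)) = 1 := by
          rw [Cfsg.Agent.Orth.pc]; exact h01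
        rcases i with (i | i) | i <;> rcases j with (j | j) | j
        · simp only [Sum.elim_inl, Cfsg.Agent.Orth.psl, Cfsg.Agent.Orth.psr, (hee i j).1, mul_zero]
        · simp only [Sum.elim_inl, Sum.elim_inr, Cfsg.Agent.Orth.psl, hef]
        · fin_cases j <;>
          simp [Cfsg.Agent.Orth.psl, Cfsg.Agent.Orth.psr, Cfsg.Agent.Orth.par, (heu i 0).1,
            (heu i 1).1]
        · simp only [Sum.elim_inl, Sum.elim_inr, Cfsg.Agent.Orth.psr]
        · simp only [Sum.elim_inl, Sum.elim_inr, (hee i j).2, mul_zero]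
        · fin_cases j <;>
          simp [Cfsg.Agent.Orth.psl, Cfsg.Agent.Orth.psr, Cfsg.Agent.Orth.par, (heu i 0).2,
            (heu i 1).2]
        · fin_cases i <;>
          simp [Cfsg.Agent.Orth.psl, Cfsg.Agent.Orth.psr, Cfsg.Agent.Orth.pal, hue]
        · fin_cases i <;>
          simp [Cfsg.Agent.Orth.psl, Cfsg.Agent.Orth.psr, Cfsg.Agent.Orth.pal, huf]
        · fin_cases i <;> fin_cases j <;>
          simp [Cfsg.Agent.Orth.psl, Cfsg.Agent.Orth.psr, Cfsg.Agent.Orth.pal,
            Cfsg.Agent.Orth.par, Cfsg.Agent.Orth.pself, Cfsg.Agent.Orth.qadd,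
            Cfsg.Agent.Orth.qsmul, h01, h10, h0, h1, -smul_add] <;>
          rw [← hst] <;> ring)
    exact ⟨g, hg⟩

end Cfsg.Agent.S2624
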