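import Cfsg.Statements.S4449
import Cfsg.Agent.Glaub.Above

set_option autoImplicit false
open Cfsg

namespace Cfsg.Agent.S4449

open Cfsg.Agent.Glaub Cfsg.Agent.Char Cfsg.Agent.CharBase

/-- Inside a finite group Γ let the solvable subgroup S normalise G with the orders of G and S coprime, and let N be a normal subgroup of G normalised by S. Then for every S-invariant irreducible character ϑ of N, the induced character ϑ^G has an S-invariant irreducible constituent. -/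
theorem result {Γ : Type*} [Group Γ] [Fintype Γ] (G S N : Subgroup Γ) [Fintype G] [Fintype N] (hnorm : ∀ s ∈ S, ∀ g ∈ G, s * g * s⁻¹ ∈ G) (hNG : N ≤ G) (hNnormal : ∀ g ∈ G, ∀ n ∈ N, g * n * g⁻¹ ∈ N) (hNS : ∀ s ∈ S, ∀ n ∈ N, s * n * s⁻¹ ∈ N) (hcop : (Nat.card G).Coprime (Nat.card S)) (hsolv : Group.IsSolvable S) (θ : Cfsg.IrrCharacter N) (hinv : (∀ s ∈ S, ∀ g g' : N, (g' : Γ) = s * g * s⁻¹ → (θ : N → ℂ) g' = (θ : N → ℂ) g)) : ∃ χ : Cfsg.IrrCharacter G, Cfsg.classInner (fun n : N => (χ : G → ℂ) ⟨n, hNG n.2⟩) (θ : N → ℂ) ≠ 0 ∧ (∀ s ∈ S, ∀ g g' : G, (g' : Γ) = s * g * s⁻¹ → (χ : G → ℂ) g' = (χ : G → ℂ) g) := by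
  classical
  let M : Subgroup G := N.subgroupOf G
  haveI hM : M.Normal := ⟨fun x hx g => hNnormal g g.2 x hx⟩
  haveI : Fintype M := Fintype.ofFinite _
  let e : M ≃* N := Subgroup.subgroupOfEquivOfLe hNG
  let θ' : IrrCharacter M := ⟨fun x => (θ : N → ℂ) (e x),
    isIrrCharacter_comp_surjective θ.2 e.toMonoidHom e.surjective⟩
  have hN : ∀ a : S, ∀ n ∈ M, conjHom G S hnorm a n ∈ M := fun a n hn => hNS a a.2 n hn
  have hθ' : Inv (restrAct (conjHom G S hnorm) M hN) (θ' : M → ℂ) := by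
    intro a x
    exact hinv a a.2 (e x) (e (restrAct (conjHom G S hnorm) M hN a x)) rfl
  obtain ⟨χ, hχ, hne⟩ := exists_invariant_above (conjHom G S hnorm) hsolv hcop M hN θ' hθ'
  refine ⟨χ, ?_, (inv_conjHom_iff hnorm (χ : G → ℂ)).mp hχ⟩
  intro h0
  apply hne
  rw [← h0, ← Glaub.classInner_comp_equiv e]
  rfl

end Cfsg.Agent.S4449
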