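import Cfsg.Statements.S3794
import Cfsg.Agent.H52.FPF4b

set_option autoImplicit false
open Cfsg Cfsg.Agent.H52
open scoped commutatorElement

namespace Cfsg.Agent.S3794

theorem odd_card {G : Type*} [Group G] [Finite G] (σ : MulAut G) (hσ : σ ^ 4 = 1)
    (hfpf : ∀ g : G, σ g = g → g = 1) : Odd (Nat.card G) := by
  have h2 : Fact (Nat.Prime 2) := ⟨Nat.prime_two⟩
  have hpg : IsPGroup 2 (Subgroup.zpowers σ) := by
    rw [isPGroup_iff_pow_pow_eq_one]
    rintro ⟨x, k, rfl⟩
    refine ⟨2, Subtype.ext ?_⟩
    change (σ ^ k) ^ 4 = 1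
    rw [← zpow_natCast, ← zpow_mul, mul_comm, zpow_mul]
    have : σ ^ ((4 : ℕ) : ℤ) = 1 := by rw [zpow_natCast]; exact hσ
    rw [this, one_zpow]
  have h1 := hpg.card_modEq_card_fixedPoints G
  have h3 : MulAction.fixedPoints (Subgroup.zpowers σ) G = {1} := by
    ext g
    rw [MulAction.mem_fixedPoints, Set.mem_singleton_iff]
    constructor
    · intro h
      exact hfpf g (h ⟨σ, Subgroup.mem_zpowers σ⟩)
    · rintro rfl ⟨x, hx⟩
      exact map_one x
  rw [h3] at h1
  have h4 : Nat.card ({1} : Set G) = 1 := by simp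
  rw [h4] at h1
  exact Nat.odd_iff.mpr h1

theorem main (n : ℕ) : ∀ {G : Type*} [Group G] [Finite G] (_ : Group.IsSolvable G) (σ : MulAut G) (_ : σ ^ 4 = 1)
    (_ : ∀ g : G, σ g = g → g = 1) (_ : Nat.card G = n), Group.IsNilpotent (commutator G) := by
  induction n using Nat.strong_induction_on with
  | _ n ih =>
    intro G _ _ hG σ hσ hfpf hn
    by_cases hnt : Nontrivial G
    swap
    · have : Subsingleton G := not_nontrivial_iff_subsingleton.mp hnt
      infer_instance
    have hodd := odd_card σ hσ hfpf
    have hσ4 : ∀ x, σ (σ (σ (σ x))) = x := by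
      intro x
      have := congrArg (fun f : MulAut G => f x) hσ
      exact this
    -- a minimal invariant normal subgroup
    let P : Subgroup G → Prop := fun V => V.Normal ∧ (∀ x ∈ V, σ x ∈ V) ∧ V ≠ ⊥
    have hex : ∃ V, P V := ⟨⊤, inferInstance, fun _ _ => trivial, top_ne_bot⟩
    obtain ⟨V, hV, hVmin⟩ : ∃ V, P V ∧ ∀ W, P W → W ≤ V → W = V := by
      obtain ⟨V, hV⟩ := (Set.toFinite {V | P V}).exists_minimal hex
      exact ⟨V, hV.1, fun W hW hle => le_antisymm hle (hV.2 hW hle)⟩
    obtain ⟨hVn, hVσ, hVb⟩ := hV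
    have hsurj : ∀ x ∈ V, ∃ y ∈ V, σ y = x := by
      intro x hx
      exact ⟨σ (σ (σ x)), hVσ _ (hVσ _ (hVσ _ hx)), hσ4 x⟩
    have hVmin' : ∀ W : Subgroup G, W.Normal → (∀ x ∈ W, σ x ∈ W) → W ≤ V → W = ⊥ ∨ W = V := by
      intro W hW1 hW2 hW3
      by_cases h : W = ⊥
      · exact Or.inl h
      · exact Or.inr (hVmin W ⟨hW1, hW2, h⟩ hW3)
    -- V is abelian
    have hVcomm : ⁅V, V⁆ = ⊥ := by
      rcases hVmin' ⁅V, V⁆ inferInstance (by
        have : ⁅V, V⁆ ≤ ⁅V, V⁆.comap (MulEquiv.toMonoidHom σ) := by
          rw [← Subgroup.map_le_iff_le_comap, Subgroup.map_commutator]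
          apply Subgroup.commutator_mono
          all_goals
            rw [Subgroup.map_le_iff_le_comap]
            exact hVσ
        exact this) (Subgroup.commutator_le_self V) with h | h
      · exact h
      · exfalso
        have hs : Group.IsSolvable V := inferInstance
        have hnt : Nontrivial V := (Subgroup.nontrivial_iff_ne_bot V).mpr hVb
        have h1 := (Group.IsSolvable.commutator_lt_top_of_nontrivial V).ne
        apply h1
        apply Subgroup.map_injective V.subtype_injective
        rw [Subgroup.map_subtype_commutator, h, ← MonoidHom.range_eq_map, Subgroup.range_subtype]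
    have hVc : ∀ x ∈ V, ∀ y ∈ V, x * y = y * x := by
      intro x hx y hy
      rw [Subgroup.commutator_eq_bot_iff_le_centralizer] at hVcomm
      exact (Subgroup.mem_centralizer_iff.mp (hVcomm hx) y hy).symm
    letI instV : CommGroup V := { (inferInstance : Group V) with mul_comm := fun x y => Subtype.ext (hVc x x.2 y y.2) }
    have hVnt : Nontrivial V := (Subgroup.nontrivial_iff_ne_bot V).mpr hVb
    -- exponent p
    obtain ⟨p, hp, hpd⟩ := Nat.exists_prime_and_dvd (n := Nat.card V) (by
      have := (Subgroup.one_lt_card_iff_ne_bot V).mpr hVb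
      omega)
    have hpf : Fact p.Prime := ⟨hp⟩
    have hVp : ∀ x ∈ V, x ^ p = 1 := by
      let W : Subgroup G :=
        { carrier := {x | x ∈ V ∧ x ^ p = 1}
          one_mem' := ⟨V.one_mem, one_pow p⟩
          mul_mem' := by
            rintro a b ⟨ha, ha1⟩ ⟨hb, hb1⟩
            refine ⟨V.mul_mem ha hb, ?_⟩
            rw [Commute.mul_pow (hVc a ha b hb), ha1, hb1, one_mul]
          inv_mem' := by
            rintro a ⟨ha, ha1⟩
            exact ⟨V.inv_mem ha, by rw [inv_pow, ha1, inv_one]⟩ }
      rcases hVmin' W ⟨by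
        rintro x ⟨hx, hx1⟩ g
        exact ⟨hVn.conj_mem x hx g, by rw [conj_pow, hx1, mul_one, mul_inv_cancel]⟩⟩ (by
        rintro x ⟨hx, hx1⟩
        exact ⟨hVσ x hx, by rw [← map_pow, hx1, map_one]⟩) (fun x hx => hx.1) with h | h
      · exfalso
        obtain ⟨x, hx⟩ := exists_prime_orderOf_dvd_card' (G := V) p hpd
        have hxW : (x : G) ∈ W := by
          refine ⟨x.2, ?_⟩
          rw [← Subgroup.coe_pow, ← hx, pow_orderOf_eq_one]; rfl
        rw [h, Subgroup.mem_bot] at hxW
        have : x = 1 := Subtype.ext hxW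
        rw [this, orderOf_one] at hx
        exact hp.one_lt.ne hx
      · intro x hx
        rw [← h] at hx
        exact hx.2
    -- the quotient by V
    have hquot : Group.IsNilpotent (commutator (G ⧸ V)) := by
      apply ih (Nat.card (G ⧸ V)) _ (G := G ⧸ V) inferInstance (quotAut σ V hVσ) _
        (fpf_quotAut σ hfpf V hVσ) rfl
      · rw [← hn, Subgroup.card_eq_card_quotient_mul_card_subgroup V]
        exact lt_mul_of_one_lt_right Nat.card_pos ((Subgroup.one_lt_card_iff_ne_bot V).mpr hVb)
      · ext x
        obtain ⟨x, rfl⟩ := QuotientGroup.mk_surjective x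
        change (quotAut σ V hVσ) ((quotAut σ V hVσ) ((quotAut σ V hVσ) ((quotAut σ V hVσ) (QuotientGroup.mk x)))) = _
        rw [quotAut_mk, quotAut_mk, quotAut_mk, quotAut_mk, hσ4]; rfl
    -- the action on V
    let C : Subgroup G := (MulAut.conjNormal (H := V) : G →* MulAut V).ker
    have hCmem : ∀ x, x ∈ C ↔ ∀ v ∈ V, x * v * x⁻¹ = v := by
      intro x
      rw [MonoidHom.mem_ker]
      constructor
      · intro h v hv
        have := congrArg (fun f : MulAut V => ((f ⟨v, hv⟩ : V) : G)) h
        simpa using this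
      · intro h
        ext v
        rw [MulAut.conjNormal_apply]
        exact h v v.2
    have hCσ : ∀ x ∈ C, σ x ∈ C := by
      intro x hx
      rw [hCmem] at hx ⊢
      intro v hv
      obtain ⟨w, hw, rfl⟩ := hsurj v hv
      rw [← map_mul, ← map_inv, ← map_mul, hx w hw]
    have habel : ∀ x y : G ⧸ C, x * y = y * x := by
      apply comm_of_chief (H := G ⧸ C) inferInstance
        (Odd.of_dvd_nat hodd (Subgroup.card_quotient_dvd_card C)) (quotAut σ C hCσ) _
        (fpf_quotAut σ hfpf C hCσ) (V := V) p (fun v => Subtype.ext (by rw [Subgroup.coe_pow]; exact hVp v v.2))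
        (QuotientGroup.kerLift (MulAut.conjNormal (H := V) : G →* MulAut V)) (QuotientGroup.kerLift_injective _)
        (resAut σ V hVσ)
      · intro v
        apply Subtype.ext
        rw [resAut_coe, resAut_coe, resAut_coe, resAut_coe, hσ4]
      · intro v hv
        apply Subtype.ext
        apply hfpf
        rw [← resAut_coe σ V hVσ, hv]
      · intro h v
        obtain ⟨h, rfl⟩ := QuotientGroup.mk_surjective h
        apply Subtype.ext
        rw [quotAut_mk, resAut_coe]
        change σ ((MulAut.conjNormal h v : V) : G) = ((MulAut.conjNormal (σ h) (resAut σ V hVσ v) : V) : G)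
        rw [MulAut.conjNormal_apply, MulAut.conjNormal_apply, resAut_coe, map_mul, map_mul, map_inv]
      · intro W hW1 hW2
        rcases hVmin' (W.map V.subtype) ⟨by
          rintro _ ⟨w, hw, rfl⟩ g
          have := hW1 (QuotientGroup.mk g) w hw
          refine ⟨_, this, ?_⟩
          change ((MulAut.conjNormal g w : V) : G) = _
          rw [MulAut.conjNormal_apply]; rfl⟩ (by
          rintro _ ⟨w, hw, rfl⟩
          exact ⟨_, hW2 w hw, rfl⟩) (Subgroup.map_subtype_le W) with h | h
        · left
          exact (Subgroup.map_eq_bot_iff_of_injective W V.subtype_injective).mp h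
        · right
          apply Subgroup.map_injective V.subtype_injective
          rw [h, ← MonoidHom.range_eq_map, Subgroup.range_subtype]
      · intro x
        obtain ⟨x, rfl⟩ := QuotientGroup.mk_surjective x
        rw [quotAut_mk, quotAut_mk, quotAut_mk, quotAut_mk, hσ4]
    have hG'C : commutator G ≤ C := by
      rw [commutator_def, Subgroup.commutator_le]
      intro x _ y _
      rw [← QuotientGroup.eq_one_iff]
      have h1 : ((⁅x, y⁆ : G) : G ⧸ C) = ⁅(x : G ⧸ C), (y : G ⧸ C)⁆ := rfl
      rw [h1, commutatorElement_eq_one_iff_mul_comm]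
      exact habel x y
    -- conclusion
    let f : commutator G →* commutator (G ⧸ V) :=
      ((QuotientGroup.mk' V).comp (commutator G).subtype).codRestrict (commutator (G ⧸ V)) (fun x => by
        have h1 : (commutator G).map (QuotientGroup.mk' V) ≤ commutator (G ⧸ V) := by
          rw [commutator_def, commutator_def, Subgroup.map_commutator]
          exact Subgroup.commutator_mono le_top le_top
        exact h1 ⟨x, x.2, rfl⟩)
    refine Subgroup.isNilpotent_of_ker_le_center f ?_
    intro x hx
    rw [MonoidHom.mem_ker] at hx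
    have hxV : (x : G) ∈ V := by
      rw [← QuotientGroup.eq_one_iff]
      exact congrArg Subtype.val hx
    rw [Subgroup.mem_center_iff]
    intro y
    apply Subtype.ext
    have h1 := (hCmem (y : G)).mp (hG'C y.2) x hxV
    change (y : G) * x = x * y
    exact mul_inv_eq_iff_eq_mul.mp h1

/-- Let G be a finite solvable group with an automorphism σ satisfying σ⁴ = 1 and fixing only the identity. Then the derived subgroup G' is nilpotent. -/
theorem result {G : Type*} [Group G] [Finite G] (hG : Group.IsSolvable G) (σ : MulAut G) (hσ : σ ^ 4 = 1) (hfpf : ∀ g : G, σ g = g → g = 1) : Group.IsNilpotent (commutator G) := by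
  exact main _ hG σ hσ hfpf rfl

end Cfsg.Agent.S3794
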