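import Cfsg.Statements.S5422
import Cfsg.Agent.H90.LargePair
import Cfsg.Agent.H90.ConjIndex

set_option autoImplicit false
open Cfsg

namespace Cfsg.Agent.S5422

/-- Let Q be an extraspecial 2-subgroup of the finite group G whose centralizer in G is its centre Z and which is normal in the centralizer of Z; suppose Q has width at least 2 (order 2^(2w+1) with w ≥ 2) and g is an element of G not normalizing Z with g Z g⁻¹ inside Q. Then Z lies inside g Q g⁻¹; writing V for the subgroup generated by Z and g Z g⁻¹ (a four-group), the normalizer of V induces on V its full automorphism group, that is, the centralizer of V has index 6 in the normalizer of V; and Q is a large extraspecial 2-subgroup of G. -/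
theorem result {G : Type*} [Group G] [Finite G] (Q : Subgroup G) (hL1 : Cfsg.IsExtraspecial 2 ↥Q) (hL2 : Subgroup.centralizer (Q : Set G) = ((Subgroup.center ↥Q).map Q.subtype)) (hL3 : Subgroup.centralizer (((Subgroup.center ↥Q).map Q.subtype) : Set G) ≤ Subgroup.normalizer (Q : Set G)) (w : ℕ) (hw : 2 ≤ w) (hcard : Nat.card ↥Q = 2 ^ (2 * w + 1)) (g : G) (hg : g ∉ Subgroup.normalizer (((Subgroup.center ↥Q).map Q.subtype) : Set G)) (hZg : (((Subgroup.center ↥Q).map Q.subtype)).map (MulAut.conj g).toMonoidHom ≤ Q) : ((Subgroup.center ↥Q).map Q.subtype) ≤ (Q).map (MulAut.conj g).toMonoidHom ∧ (Subgroup.centralizer ((((Subgroup.center ↥Q).map Q.subtype) ⊔ (((Subgroup.center ↥Q).map Q.subtype)).map (MulAut.conj g).toMonoidHom : Subgroup G) : Set G)).relIndex (Subgroup.normalizer ((((Subgroup.center ↥Q).map Q.subtype) ⊔ (((Subgroup.center ↥Q).map Q.subtype)).map (MulAut.conj g).toMonoidHom : Subgroup G) : Set G)) = 6 ∧ Cfsg.IsLargeExtraspecial Q := by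
  obtain ⟨z, h, hz⟩ := H90.PL.of_isExtraspecial hL1 hL2 hL3
  rw [hz] at hg hZg ⊢
  set s := g * z * g⁻¹ with hs
  have hZs : (Subgroup.zpowers z).map (MulAut.conj g).toMonoidHom = Subgroup.zpowers s := by
    rw [MonoidHom.map_zpowers]; rfl
  rw [hZs] at hZg ⊢
  have hsQ : s ∈ Q := hZg (Subgroup.mem_zpowers s)
  have h' := h.conj g
  rw [← hs] at h'
  set Q' := Q.map (MulAut.conj g).toMonoidHom with hQ'
  have hsz : s ≠ z := by
    intro hc
    apply hg
    rw [Subgroup.mem_normalizer_iff_map_conj_eq]
    have : (Subgroup.zpowers z).map (MulAut.conj g).toMonoidHom = Subgroup.zpowers z := by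
      rw [hZs, hc]
    exact this
  have hcard8 : 8 < Nat.card Q := by
    rw [hcard]
    calc 8 = 2 ^ 3 := rfl
      _ < 2 ^ (2 * w + 1) := Nat.pow_lt_pow_right (by norm_num) (by omega)
  have hzQ' : z ∈ Q' := by
    apply h.mem_of_mem h' hcard8 hsQ hsz
    intro x hx1 hx2
    have := h.conj_mem g x hx1 hsQ
    rw [hx2] at this
    exact this
  refine ⟨by rw [Subgroup.zpowers_le]; exact hzQ', ?_, ?_⟩
  · -- index computation
    have hsc : s * z = z * s := h.central s hsQ
    have hz2 := h.sq
    have hs2 := h'.sq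
    have hmem := H90.card_sup_zpowers_of_involutions hz2 hs2 h.ne_one h'.ne_one hsz hsc
    set V : Subgroup G := Subgroup.zpowers z ⊔ Subgroup.zpowers s with hV
    set N := Subgroup.normalizer (V : Set G) with hN
    have hzV : z ∈ V := Subgroup.mem_sup_left (Subgroup.mem_zpowers z)
    have hsV : s ∈ V := Subgroup.mem_sup_right (Subgroup.mem_zpowers s)
    have hCV : Subgroup.centralizer (V : Set G) =
        Subgroup.centralizer ({s} : Set G) ⊓ Subgroup.centralizer ({z} : Set G) := by
      apply le_antisymm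
      · refine le_inf (Subgroup.centralizer_le ?_) (Subgroup.centralizer_le ?_)
        · simpa using hsV
        · simpa using hzV
      · rintro x ⟨hx1, hx2⟩
        change x ∈ Subgroup.centralizer ({s} : Set G) at hx1
        change x ∈ Subgroup.centralizer ({z} : Set G) at hx2
        rw [Subgroup.mem_centralizer_singleton_iff] at hx1 hx2
        rw [Subgroup.mem_centralizer_iff]
        intro t ht
        have : V ≤ Subgroup.centralizer ({x} : Set G) := by
          rw [hV, sup_le_iff, Subgroup.zpowers_le, Subgroup.zpowers_le,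
            Subgroup.mem_centralizer_singleton_iff, Subgroup.mem_centralizer_singleton_iff]
          exact ⟨hx2.symm, hx1.symm⟩
        have := this ht
        rw [Subgroup.mem_centralizer_singleton_iff] at this
        exact this
    have hNof : ∀ n : G, n * z * n⁻¹ ∈ V → n * s * n⁻¹ ∈ V → n ∈ N := by
      intro n h1 h2
      rw [hN, Subgroup.mem_normalizer_iff_map_conj_eq]
      apply Subgroup.eq_of_le_of_card_ge
      · rw [Subgroup.map_le_iff_le_comap, hV, sup_le_iff, Subgroup.zpowers_le, Subgroup.zpowers_le]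
        exact ⟨h1, h2⟩
      · exact (H90.card_map_conj V n).ge
    obtain ⟨q, hq, hqs⟩ := h.exists_conj hsQ h'.ne_one hsz
    have hqz : q * z * q⁻¹ = z := by rw [h.central q hq]; group
    obtain ⟨v, hv, hvz⟩ := h'.exists_conj hzQ' h.ne_one (Ne.symm hsz)
    have hvs : v * s * v⁻¹ = s := by rw [h'.central v hv]; group
    have hszV : s * z ∈ V := V.mul_mem hsV hzV
    have hzsV : z * s ∈ V := V.mul_mem hzV hsV
    have hqN : q ∈ N := hNof q (by rw [hqz]; exact hzV) (by rw [hqs]; exact hszV)
    have hvN : v ∈ N := hNof v (by rw [hvz]; exact hzsV) (by rw [hvs]; exact hsV)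
    have hzs1 : z * s ≠ z := fun hc => h'.ne_one (mul_eq_left.mp hc)
    have hzs2 : z * s ≠ s := fun hc => h.ne_one (mul_eq_right.mp hc)
    rw [hCV, ← Subgroup.relIndex_inf_mul_relIndex, H90.relIndex_centralizer_eq_ncard,
      H90.relIndex_centralizer_eq_ncard]
    have e1 : {y : G | ∃ n ∈ Subgroup.centralizer ({z} : Set G) ⊓ N, y = n * s * n⁻¹} = {s, z * s} := by
      ext y
      constructor
      · rintro ⟨n, ⟨hn1, hn2⟩, rfl⟩
        change n ∈ Subgroup.centralizer ({z} : Set G) at hn1
        rw [Subgroup.mem_centralizer_singleton_iff] at hn1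
        have h3 : n * s * n⁻¹ ∈ V := (Subgroup.mem_normalizer_iff.mp hn2 s).mp hsV
        rw [hmem] at h3
        rcases h3 with h3 | h3 | h3 | h3
        · exfalso; apply h'.ne_one
          rw [mul_inv_eq_iff_eq_mul, one_mul] at h3
          exact mul_eq_left.mp h3
        · exfalso; apply hsz
          rw [mul_inv_eq_iff_eq_mul, ← hn1] at h3
          exact mul_left_cancel h3
        · left; exact h3
        · right; exact h3
      · rintro (rfl | rfl)
        · exact ⟨1, one_mem _, by simp⟩
        · refine ⟨q, ⟨?_, hqN⟩, ?_⟩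
          · change q ∈ Subgroup.centralizer ({z} : Set G)
            rw [Subgroup.mem_centralizer_singleton_iff]; exact h.central q hq
          · rw [hqs, hsc]
    have e2 : {y : G | ∃ n ∈ N, y = n * z * n⁻¹} = {z, s, z * s} := by
      ext y
      constructor
      · rintro ⟨n, hn2, rfl⟩
        have h3 : n * z * n⁻¹ ∈ V := (Subgroup.mem_normalizer_iff.mp hn2 z).mp hzV
        rw [hmem] at h3
        rcases h3 with h3 | h3 | h3 | h3
        · exfalso; apply h.ne_one
          rw [mul_inv_eq_iff_eq_mul, one_mul] at h3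
          exact mul_eq_left.mp h3
        · left; exact h3
        · right; left; exact h3
        · right; right; exact h3
      · rintro (rfl | rfl | rfl)
        · exact ⟨1, one_mem _, by simp⟩
        · refine ⟨q * v, N.mul_mem hqN hvN, ?_⟩
          have e3 : q * v * z * (q * v)⁻¹ = q * (v * z * v⁻¹) * q⁻¹ := by group
          have e4 : q * (z * s) * q⁻¹ = (q * z * q⁻¹) * (q * s * q⁻¹) := by group
          rw [e3, hvz, e4, hqz, hqs, hsc, ← mul_assoc, hz2, one_mul]
        · exact ⟨v, hvN, hvz.symm⟩
    rw [e1, e2, Set.ncard_pair (Ne.symm hzs2), Set.ncard_insert_of_notMem, Set.ncard_pair (Ne.symm hzs2)]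
    simp only [Set.mem_insert_iff, Set.mem_singleton_iff, not_or]
    exact ⟨Ne.symm hsz, Ne.symm hzs1⟩
  · refine h.isLarge hL1 ?_
    intro K hK hQK
    refine h.odd_trivial_of_fpf hsQ h'.sq h'.ne_one hsz K hK hQK ?_
    intro k hk hks
    apply h.inf_centralizer_eq_one K hK hQK k hk
    have h1 : k * z * k⁻¹ * z⁻¹ ∈ Q' := Q'.mul_mem (h'.norm k hks z hzQ') (Q'.inv_mem hzQ')
    have h2 : k * z * k⁻¹ * z⁻¹ ∈ K := by
      have : k * (z * k⁻¹ * z⁻¹) ∈ K := K.mul_mem hk (hQK z h.mem _ (K.inv_mem hk))
      convert this using 1; group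
    have h3 := H90.eq_one_of_mem_odd_of_pow hK h2 (n := 2) (h'.pow_four h1)
    rw [mul_inv_eq_one, mul_inv_eq_iff_eq_mul] at h3
    exact h3

end Cfsg.Agent.S5422
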