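import Cfsg.Statements.S5433
import Cfsg.Agent.H90.Large

set_option autoImplicit false
open Cfsg

namespace Cfsg.Agent.S5433

/-- Let Q be a large extraspecial 2-subgroup of the finite group G (extraspecial; centralizer equal to its centre; normal in the centralizer of its centre; normalizing no non-trivial subgroup of odd order), and L a normal subgroup of G containing Q. Then G is the product of L and the normalizer of Q. -/
theorem result {G : Type*} [Group G] [Finite G] (Q : Subgroup G) (hQ : Cfsg.IsLargeExtraspecial Q) (L : Subgroup G) [L.Normal] (hQL : Q ≤ L) : L ⊔ Subgroup.normalizer (Q : Set G) = ⊤ := by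
  have : Fact (Nat.Prime 2) := ⟨Nat.prime_two⟩
  obtain ⟨z, h, hz⟩ := H90.PL.of_isLarge hQ
  obtain ⟨S, hS⟩ := (hQ.1.1.1.comap_subtype (K := L)).exists_le_sylow
  have hfr := Sylow.normalizer_sup_eq_top S
  have hQS : ∀ q ∈ Q, ∃ hq : q ∈ L, (⟨q, hq⟩ : L) ∈ S := by
    intro q hq
    exact ⟨hQL hq, hS (show (⟨q, hQL hq⟩ : L) ∈ Q.comap L.subtype from hq)⟩
  have hne : Nontrivial ↥(S : Subgroup L) := by
    obtain ⟨hz1, hz2⟩ := hQS z h.mem
    refine ⟨⟨⟨⟨z, hz1⟩, hz2⟩, 1, fun hc => h.ne_one ?_⟩⟩
    have := congrArg (fun t : ↥(S : Subgroup L) => ((t : L) : G)) hc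
    simpa using this
  have hcn := S.isPGroup'.center_nontrivial
  obtain ⟨⟨c, hc⟩, hc1⟩ := exists_ne (1 : Subgroup.center ↥(S : Subgroup L))
  have hcz : ((c : L) : G) = z := by
    rcases h.cent ((c : L) : G) (fun q hq => by
      obtain ⟨h1, h2⟩ := hQS q hq
      have := (Subgroup.mem_center_iff.mp hc) ⟨⟨q, h1⟩, h2⟩
      have := congrArg (fun t : ↥(S : Subgroup L) => ((t : L) : G)) this
      simpa using this.symm) with h3 | h3
    · exfalso
      apply hc1
      ext
      simpa using h3
    · exact h3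
  rw [eq_top_iff, ← hfr, sup_comm]
  apply sup_le_sup_left
  intro n hn
  have key : n * z = z * n := by
    have h1 : n * z * n⁻¹ = 1 ∨ n * z * n⁻¹ = z := by
      apply h.cent
      intro q hq
      -- q = n t n⁻¹ with t ∈ S
      obtain ⟨h1, h2⟩ := hQS q hq
      have h3 : q ∈ (S : Subgroup L).map L.subtype := ⟨⟨q, h1⟩, h2, rfl⟩
      have h4 : n⁻¹ * q * n ∈ (S : Subgroup L).map L.subtype := by
        have := (Subgroup.mem_normalizer_iff''.mp hn q).mp h3
        exact this
      obtain ⟨t, ht, ht'⟩ := h4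
      have h5 := (Subgroup.mem_center_iff.mp hc) ⟨t, ht⟩
      have h6 : (t : G) * c = c * t := by
        have := congrArg (fun t : ↥(S : Subgroup L) => ((t : L) : G)) h5
        simpa using this
      rw [hcz] at h6
      have h7 : q = n * t * n⁻¹ := by
        have : L.subtype t = (t : G) := rfl
        rw [← this, ht']; group
      rw [h7]
      calc n * z * n⁻¹ * (n * t * n⁻¹) = n * (z * t) * n⁻¹ := by group
        _ = n * (t * z) * n⁻¹ := by rw [h6]
        _ = n * t * n⁻¹ * (n * z * n⁻¹) := by group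
    rcases h1 with h1 | h1
    · exfalso; apply h.ne_one
      rw [mul_inv_eq_iff_eq_mul, one_mul] at h1
      exact (mul_eq_left.mp h1)
    · rwa [mul_inv_eq_iff_eq_mul] at h1
  apply h.le_normalizer
  rw [h.center_eq, Subgroup.mem_centralizer_iff]
  intro t ht
  have : Subgroup.zpowers z ≤ Subgroup.centralizer ({n} : Set G) := by
    rw [Subgroup.zpowers_le, Subgroup.mem_centralizer_singleton_iff]
    exact key.symm
  have := this ht
  rw [Subgroup.mem_centralizer_singleton_iff] at this
  exact this

end Cfsg.Agent.S5433
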