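import Cfsg.Statements.S4275
-- import your own Cfsg.Agent.* helpers here

set_option autoImplicit false
open Cfsg

namespace Cfsg.Agent.S4275

/-- Let G be a transitive group of permutations of a finite set Ω, let o ∈ Ω, and let α be an automorphism of G. Then α is induced by conjugation by a permutation of Ω normalizing G if and only if the image under α of the stabilizer of o fixes some point of Ω. -/
theorem result {Ω : Type*} [Fintype Ω] (G : Subgroup (Equiv.Perm Ω)) (htr : MulAction.IsPretransitive G Ω) (o : Ω) (α : G ≃* G) : (∃ σ : Equiv.Perm Ω, σ ∈ Subgroup.normalizer (G : Set (Equiv.Perm Ω)) ∧ ∀ g : G, ((α g : G) : Equiv.Perm Ω) = σ * (g : Equiv.Perm Ω) * σ⁻¹) ↔ ∃ ω : Ω, ∀ g ∈ (MulAction.stabilizer G o).map α.toMonoidHom, g • ω = ω := by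
  classical
  constructor
  · rintro ⟨σ, hσ, hα⟩
    refine ⟨σ o, ?_⟩
    rintro g ⟨k, hk, rfl⟩
    have hk' : (k : Equiv.Perm Ω) o = o := hk
    change ((α k : G) : Equiv.Perm Ω) (σ o) = σ o
    rw [hα k]
    simp [hk']
  · rintro ⟨ω, hω⟩
    -- stabilizers
    have hle : ∀ g : G, g • o = o → (α g) • ω = ω := by
      intro g hg
      exact hω (α g) ⟨g, hg, rfl⟩
    have hcard : Nat.card (MulAction.stabilizer G ω) = Nat.card (MulAction.stabilizer G o) := by
      obtain ⟨k, hk⟩ := htr.exists_smul_eq o ω
      exact (Nat.card_congr (MulAction.stabilizerEquivStabilizer (g := k) hk.symm).toEquiv).symm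
    have hmap : (MulAction.stabilizer G o).map α.toMonoidHom = MulAction.stabilizer G ω := by
      apply Subgroup.eq_of_le_of_card_ge
      · rintro _ ⟨g, hg, rfl⟩
        exact hle g hg
      · rw [hcard]
        exact le_of_eq (Nat.card_congr ((MulAction.stabilizer G o).equivMapOfInjective _ α.injective).toEquiv)
    have hiff : ∀ g : G, g • o = o ↔ (α g) • ω = ω := by
      intro g
      refine ⟨hle g, fun h => ?_⟩
      have h1 : α g ∈ (MulAction.stabilizer G o).map α.toMonoidHom := by rw [hmap]; exact h
      obtain ⟨k, hk, hk2⟩ := h1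
      have : k = g := α.injective hk2
      subst this
      exact hk
    have hiff2 : ∀ g k : G, g • o = k • o ↔ (α g) • ω = (α k) • ω := by
      intro g k
      rw [← inv_smul_eq_iff, ← mul_smul, hiff, map_mul, mul_smul, map_inv, inv_smul_eq_iff]
    choose rep hrep using fun x : Ω => htr.exists_smul_eq o x
    let f : Ω → Ω := fun x => (α (rep x)) • ω
    have hf : ∀ g : G, f (g • o) = (α g) • ω := by
      intro g
      exact (hiff2 _ _).mp (hrep (g • o))
    have hinj : Function.Injective f := by
      intro x y hxy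
      have := (hiff2 (rep x) (rep y)).mpr hxy
      rwa [hrep, hrep] at this
    let σ : Equiv.Perm Ω := Equiv.ofBijective f (Finite.injective_iff_bijective.mp hinj)
    have hσ : ∀ x, σ x = f x := fun x => rfl
    have key : ∀ g : G, ((α g : G) : Equiv.Perm Ω) = σ * (g : Equiv.Perm Ω) * σ⁻¹ := by
      intro g
      rw [eq_mul_inv_iff_mul_eq]
      ext x
      obtain ⟨k, rfl⟩ := htr.exists_smul_eq o x
      simp only [Equiv.Perm.mul_apply, hσ]
      rw [hf]
      have : (g : Equiv.Perm Ω) (k • o) = (g * k) • o := by rw [mul_smul]; rfl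
      rw [this, hf, map_mul, mul_smul]
      rfl
    refine ⟨σ, ?_, key⟩
    rw [Subgroup.mem_normalizer_iff]
    intro h
    constructor
    · intro hh
      have := key ⟨h, hh⟩
      rw [← this]
      exact (α ⟨h, hh⟩).2
    · intro hh
      have := key (α.symm ⟨_, hh⟩)
      rw [MulEquiv.apply_symm_apply] at this
      have h2 : h = ((α.symm ⟨_, hh⟩ : G) : Equiv.Perm Ω) := by
        have h3 : σ * h * σ⁻¹ = σ * ((α.symm ⟨_, hh⟩ : G) : Equiv.Perm Ω) * σ⁻¹ := this
        exact mul_left_cancel (mul_right_cancel h3)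
      rw [h2]
      exact Subtype.prop _

end Cfsg.Agent.S4275
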