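import Cfsg.Statements.S0680
import Cfsg.Agent.H34.Sharp2

set_option autoImplicit false
open Cfsg

namespace Cfsg.Agent.S0680

/-- A finite sharply doubly transitive permutation group has degree a prime power `p ^ j`; a Sylow `p`-subgroup is normal, elementary abelian and regular, and consists of the identity together with the elements without fixed points. (Frobenius' Theorem is not needed.) -/
theorem result {α : Type*} [Fintype α] [DecidableEq α] (G : Subgroup (Equiv.Perm α)) [MulAction.IsMultiplyPretransitive G α 2] (hsharp : ∀ x : Fin 2 ↪ α, MulAction.stabilizer G x = ⊥) (h2 : 2 ≤ Fintype.card α) : ∃ p j : ℕ, p.Prime ∧ 1 ≤ j ∧ Fintype.card α = p ^ j ∧ ∀ (hp : Fact p.Prime) (P : Sylow p G), (P : Subgroup G).Normal ∧ IsMulCommutative (P : Subgroup G) ∧ (∀ x ∈ (P : Subgroup G), x ^ p = 1) ∧ MulAction.IsPretransitive (P : Subgroup G) α ∧ (∀ a : α, MulAction.stabilizer (P : Subgroup G) a = ⊥) ∧ ∀ g : G, g ∈ (P : Subgroup G) ↔ g = 1 ∨ ∀ a : α, g • a ≠ a :=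 by
  classical
  have hS := Cfsg.Agent.H34.sharp2_of hsharp
  have h2' : 2 ≤ Nat.card α := by rwa [Nat.card_eq_fintype_card]
  obtain ⟨K, p, j, hp, hj, hcard, hKn, hKc, hmem, hcomm, hpow, hreg⟩ := hS.exists_kernel h2'
  refine ⟨p, j, hp, hj, by rw [← hcard, Nat.card_eq_fintype_card], ?_⟩
  intro hfp P
  have hG := hS.card h2'
  have hKp : IsPGroup p K := by
    intro g
    exact ⟨1, by rw [pow_one]; exact Subtype.ext (hpow g g.2)⟩
  have hidx : ¬ p ∣ K.index := by
    have h1 := Subgroup.card_mul_index K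
    rw [hKc, hG] at h1
    have h3 : K.index = Nat.card α - 1 := Nat.eq_of_mul_eq_mul_left (by omega) h1
    rw [h3, hcard]
    intro hd
    have h4 : p ∣ p ^ j := dvd_pow_self p (by omega)
    have h5 : p ∣ 1 := by
      have h6 : 1 ≤ p ^ j := Nat.one_le_pow _ _ hp.pos
      have := Nat.dvd_sub h4 hd
      rwa [Nat.sub_sub_self h6] at this
    exact hp.one_lt.ne' (Nat.dvd_one.mp h5)
  have hPK : (P : Subgroup G) = K := by
    let Q : Sylow p G := hKp.toSylow hidx
    have hQ : (Q : Subgroup G) = K := IsPGroup.toSylow_coe _ _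
    obtain ⟨g, hg⟩ := MulAction.exists_smul_eq G Q P
    rw [← hg]
    have : g • Q = Q := by
      have hQn : (Q : Subgroup G).Normal := by rw [hQ]; exact hKn
      exact Sylow.smul_eq_of_normal
    rw [this, hQ]
  rw [hPK]
  refine ⟨hKn, ⟨⟨fun a b => Subtype.ext (hcomm a a.2 b b.2)⟩⟩, hpow, ?_, ?_, hmem⟩
  · constructor
    intro a b
    obtain ⟨k, ⟨hk, hkb⟩, -⟩ := hreg a b
    exact ⟨⟨k, hk⟩, hkb⟩
  · intro a
    rw [Subgroup.eq_bot_iff_forall]
    intro k hk
    obtain ⟨l, ⟨hl, hla⟩, hu⟩ := hreg a a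
    have h1 := hu (k : G) ⟨k.2, hk⟩
    have h3 := hu 1 ⟨one_mem K, one_smul G a⟩
    exact Subtype.ext (h1.trans h3.symm)

end Cfsg.Agent.S0680
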