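import Cfsg.Statements.S0744
import Cfsg.Agent.H20.Gleason

set_option autoImplicit false
open Cfsg

namespace Cfsg.Agent.S0744

open Cfsg.Agent.H20

/-- If for some `k > 1` the pointwise stabilisers of all `(k-1)`-subsets have the same order `> 1` and those of all `k`-subsets have the same order, then the group is `(k-1)`-transitive. -/
theorem result {α : Type*} [Fintype α] [DecidableEq α] (G : Subgroup (Equiv.Perm α)) {k : ℕ} (hk : 1 < k) (hkn : k ≤ Fintype.card α) (l m : ℕ) (hl : 1 < l) (hkm1 : ∀ s : Finset α, s.card = k - 1 → Nat.card (fixingSubgroup G (s : Set α)) = l) (hkm : ∀ s : Finset α, s.card = k → Nat.card (fixingSubgroup G (s : Set α)) = m) : MulAction.IsMultiplyPretransitive G α (k - 1) := by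
  classical
  have hcard : Nat.card α = Fintype.card α := Nat.card_eq_fintype_card
  -- orbit lengths
  have key : ∀ s : Finset α, s.card = k - 1 → ∀ x : α, x ∉ s →
      Nat.card (MulAction.orbit (fixingSubgroup G (s : Set α)) x) * m = l := by
    intro s hs x hx
    set H := fixingSubgroup G (s : Set α) with hH
    have h1 : Nat.card (MulAction.orbit H x) * Nat.card (MulAction.stabilizer H x) = Nat.card H := by
      rw [← Nat.card_prod]
      exact Nat.card_congr (MulAction.orbitProdStabilizerEquivGroup H x)
    have h2 : Nat.card (MulAction.stabilizer H x) = m := by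
      have hc : (insert x s).card = k := by
        rw [Finset.card_insert_of_notMem hx, hs]; omega
      rw [← hkm (insert x s) hc]
      refine Nat.card_congr
        { toFun := fun g => ⟨((g : H) : G), ?_⟩
          invFun := fun g => ⟨⟨(g : G), ?_⟩, ?_⟩
          left_inv := fun g => rfl
          right_inv := fun g => rfl }
      · rw [mem_fixingSubgroup_iff]
        intro y hy
        rw [Finset.coe_insert, Set.mem_insert_iff] at hy
        rcases hy with rfl | hy
        · exact g.2
        · exact (mem_fixingSubgroup_iff G).1 (g : H).2 y hy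
      · rw [hH, mem_fixingSubgroup_iff]
        intro y hy
        exact (mem_fixingSubgroup_iff G).1 g.2 y (by rw [Finset.coe_insert]; exact Set.mem_insert_of_mem _ hy)
      · exact (mem_fixingSubgroup_iff G).1 g.2 x (by rw [Finset.coe_insert]; exact Set.mem_insert _ _)
    rw [h2, hkm1 s hs] at h1
    exact h1
  -- some moved point
  obtain ⟨s, -, hs⟩ := Finset.exists_subset_card_eq (s := (Finset.univ : Finset α)) (n := k - 1)
    (by rw [Finset.card_univ]; omega)
  obtain ⟨x, hx⟩ : ∃ x, x ∉ s := by
    by_contra hcon
    push Not at hcon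
    have : s = Finset.univ := Finset.eq_univ_iff_forall.2 hcon
    rw [this, Finset.card_univ] at hs
    omega
  have hm0 : 0 < m := by
    rcases Nat.eq_zero_or_pos m with rfl | h
    · have := key s hs x hx
      omega
    · exact h
  have hd : ∀ s : Finset α, s.card = k - 1 → ∀ x : α, x ∉ s →
      Nat.card (MulAction.orbit (fixingSubgroup G (s : Set α)) x) = l / m := by
    intro s hs x hx
    have h1 := key s hs x hx
    rw [← h1, Nat.mul_div_cancel _ hm0]
  have hd1 : 1 < l / m := by
    by_contra hcon
    have hall : ∀ y : α, y ∉ s → Nat.card (MulAction.orbit (fixingSubgroup G (s : Set α)) y) = 1 := by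
      intro y hy
      have h1 := hd s hs y hy
      have h2 : 0 < Nat.card (MulAction.orbit (fixingSubgroup G (s : Set α)) y) := by
        have : Nonempty (MulAction.orbit (fixingSubgroup G (s : Set α)) y) := ⟨⟨y, MulAction.mem_orbit_self y⟩⟩
        exact Nat.card_pos
      omega
    have htriv : ∀ g ∈ fixingSubgroup G (s : Set α), g = 1 := by
      intro g hg
      apply FaithfulSMul.eq_of_smul_eq_smul (α := α)
      intro y
      rw [one_smul]
      by_cases hy : y ∈ s
      · exact (mem_fixingSubgroup_iff G).1 hg y hy
      · have h1 := hall y hy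
        have h2 : y ∈ MulAction.fixedPoints (fixingSubgroup G (s : Set α)) α := by
          rw [MulAction.mem_fixedPoints_iff_card_orbit_eq_one, ← Nat.card_eq_fintype_card, h1]
        exact h2 ⟨g, hg⟩
    have h3 : Nat.card (fixingSubgroup G (s : Set α)) = 1 := by
      rw [Subgroup.card_eq_one, Subgroup.eq_bot_iff_forall]
      exact htriv
    rw [hkm1 s hs] at h3
    omega
  refine unif_multiply hd1 (k - 1) G α (by omega) (by rw [hcard]; omega) ?_
  intro s hs
  refine ⟨fixingSubgroup G (s : Set α), ?_, ?_⟩
  · intro a ha g hg
    exact (mem_fixingSubgroup_iff G).1 hg a ha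
  · intro x hx
    rw [hd s hs x hx]

end Cfsg.Agent.S0744
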