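import Cfsg.Statements.S5062
import Cfsg.Agent.H11.QpRoot

set_option autoImplicit false
universe u
open Cfsg

namespace Cfsg.Agent.S5062

open Cfsg.Agent.H11.QP

/-- Let k be a field of characteristic not 2 with k not of order 3, M a finite-dimensional k-vector space and G ≤ GL(M) such that (G, M) is a quadratic pair (M irreducible for G, and G generated by its quadratically acting elements σ whose scalar family 1 + c(σ − 1), c ∈ k, lies in G). Write 𝒬_d for the quadratic elements of G of minimal commutator rank, E(σ) for the subgroup generated by the members of 𝒬_d with the same fixed space and commutator space as σ, and Σ for the set of these subgroups. Then, inside the subgroup G₀ generated by Σ, the members of Σ form a set of abstract root subgroups of G₀ in which every member has a rank one partner; and whenever a member A and a rank one partner B of A lie in a connected component of the rank-one-pair graph that is degenerate (no commutator case among its members), there are subgroups A₀ ≤ A, B₀ ≤ B generating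 an image of SL₂(k₁) with central kernel on unitriangular subgroups, for some field k₁ with at least four elements. -/
theorem result {k : Type u} [Field k] (hk2 : ringChar k ≠ 2) (hk3 : Nat.card k ≠ 3)
    {M : Type u} [AddCommGroup M] [Module k M] [FiniteDimensional k M]
    {G : Subgroup (LinearMap.GeneralLinearGroup k M)} (hG : Cfsg.IsQuadraticPair G) :
    Cfsg.IsRootSubgroupSet ((fun A : Subgroup (LinearMap.GeneralLinearGroup k M) => A.subgroupOf (⨆ B ∈ Cfsg.quadraticRootSubgroups G, B)) ''
      Cfsg.quadraticRootSubgroups G) ∧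
    (∀ A ∈ Cfsg.quadraticRootSubgroups G, ¬ Cfsg.IsIsolatedIn (Cfsg.FAdj (Cfsg.quadraticRootSubgroups G)) (Cfsg.quadraticRootSubgroups G) A) ∧
    (∀ A ∈ Cfsg.quadraticRootSubgroups G, ∀ B ∈ Cfsg.rankOnePartners (Cfsg.quadraticRootSubgroups G) A,
      (∀ C ∈ Cfsg.componentOf (Cfsg.FAdj (Cfsg.quadraticRootSubgroups G)) (Cfsg.quadraticRootSubgroups G) A,
        ∀ D ∈ Cfsg.componentOf (Cfsg.FAdj (Cfsg.quadraticRootSubgroups G)) (Cfsg.quadraticRootSubgroups G) A,
          ¬ Cfsg.RootCommutatorCase (Cfsg.quadraticRootSubgroups G) C D) →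
      ∃ A₀ B₀ : Subgroup (LinearMap.GeneralLinearGroup k M), A₀ ≤ A ∧ B₀ ≤ B ∧
        ∃ (k₁ : Type u) (_ : Field k₁), 3 < ENat.card k₁ ∧ Cfsg.IsPSL2PairOver k₁ A₀ B₀) := by
  have hc2 := two_ne_zero_of_ringChar hk2
  refine ⟨?_, ?_, ?_⟩
  · apply rootSet_subOf rfl
    · intro A hA
      obtain ⟨x, hx, hAx⟩ := mem_sigma hA
      exact hAx.isMulCommutative hx.inn.sq
    · intro A hA h
      obtain ⟨x, hx, hAx⟩ := mem_sigma hA
      have h1 := hAx.un_mem (InE.refl hx.inn)
      rw [h, Subgroup.mem_bot] at h1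
      exact un_ne_one hx.inn.sq hx.2.1 h1
    · intro A hA g hg
      apply conj_sigma hA
      have hle : (⨆ B ∈ Cfsg.quadraticRootSubgroups G, B) ≤ G := by
        refine iSup_le (fun B => iSup_le (fun hB => ?_))
        obtain ⟨x, hx, hBx⟩ := mem_sigma hB
        exact hBx.le
      exact hle hg
    · intro A hA B hB
      exact pair_sigma hc2 hk3 hG.1 hA hB
  · intro A hA hiso
    obtain ⟨x, hx, hAx⟩ := mem_sigma hA
    obtain ⟨w, hw, ho⟩ := exists_opp_of_irr hc2 hk3 hG.1 hx
    obtain ⟨B, hBS, hB⟩ := exists_isE hw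
    exact (hiso.2 B).1 ⟨hA, hBS, rank_one_pair hc2 hk3 hx hw hAx hB ho.nn⟩
  · intro A hA B hB _
    obtain ⟨x, hx, hAx⟩ := mem_sigma hA
    obtain ⟨y, hy, hBy⟩ := mem_sigma hB.1
    have hn := nn_of_rankOne hc2 hk3 hG.1 hx hy hAx hBy hB.2
    obtain ⟨b, hb, ho⟩ := hn.exists_opp hc2 hk3 hx hy (InE.refl hx.inn) hx.2.1
    refine ⟨oneP x ho.xx, oneP b ho.yy, ?_, ?_, k, inferInstance, three_lt_enat hc2 hk3, psl2_of_opp ho hx.2.1⟩
    · rintro g ⟨c, hc⟩
      rw [hAx, hc, add_sub_cancel_left]
      exact (InE.refl hx.inn).smul c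
    · rintro g ⟨c, hc⟩
      rw [hBy, hc, add_sub_cancel_left]
      exact hb.smul c

end Cfsg.Agent.S5062
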