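import Cfsg.Statements.S0276
import Cfsg.Agent.H81.SL2Card

set_option autoImplicit false
open Cfsg

namespace Cfsg.Agent.S0276

/-- For q = 3 or 5 mod 8 the Sylow 2-subgroups of PSL_2(q) are elementary abelian of order 4. -/
theorem result {F : Type*} [Field F] [Fintype F] {q : ℕ} (hF : Fintype.card F = q) (hq : q % 8 = 3 ∨ q % 8 = 5) (P : Sylow 2 (Matrix.ProjectiveSpecialLinearGroup (Fin 2) F)) : IsKleinFour (P : Subgroup (Matrix.ProjectiveSpecialLinearGroup (Fin 2) F)) := by
  subst hF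
  have hodd : Odd (Fintype.card F) := by
    rw [Nat.odd_iff]; omega
  set q := Fintype.card F with hqdef
  -- lift P to a Sylow 2-subgroup of SL₂
  let π := QuotientGroup.mk' (Subgroup.center (Matrix.SpecialLinearGroup (Fin 2) F))
  have hπ : Function.Surjective π := QuotientGroup.mk'_surjective _
  obtain ⟨S, hS⟩ := Sylow.mapSurjective_surjective hπ 2 P
  obtain ⟨k, hk, hfac, hdvd, ⟨e⟩⟩ := Cfsg.Agent.H81.sylow_two_sl2 hodd S
  have hk1 : k = 1 := by
    rcases hdvd with h | h
    · by_contra hne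
      have h4 : 2 * 2 ^ 2 ∣ q - 1 := (Nat.mul_dvd_mul_left 2 (Nat.pow_dvd_pow 2 (by omega))).trans h
      norm_num at h4
      have : 1 < q := Fintype.one_lt_card
      omega
    · by_contra hne
      have h4 : 2 * 2 ^ 2 ∣ q + 1 := (Nat.mul_dvd_mul_left 2 (Nat.pow_dvd_pow 2 (by omega))).trans h
      norm_num at h4
      omega
  subst hk1
  have hcardS : Nat.card (S : Subgroup (Matrix.SpecialLinearGroup (Fin 2) F)) = 8 := by
    rw [S.card_eq_multiplicity, hfac]; norm_num
  have hPS : (P : Subgroup (Matrix.ProjectiveSpecialLinearGroup (Fin 2) F)) = (S : Subgroup (Matrix.SpecialLinearGroup (Fin 2) F)).map π := by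
    rw [← hS]; rfl
  have h2 := Cfsg.Agent.H81.two_ne_zero_of_odd hodd
  have hcardP : Nat.card (P : Subgroup (Matrix.ProjectiveSpecialLinearGroup (Fin 2) F)) = 4 := by
    have h1 : Nat.card (Matrix.SpecialLinearGroup (Fin 2) F) = Nat.card (Matrix.ProjectiveSpecialLinearGroup (Fin 2) F) * 2 := by
      have h3 := Subgroup.card_eq_card_quotient_mul_card_subgroup (Subgroup.center (Matrix.SpecialLinearGroup (Fin 2) F))
      rw [Cfsg.Agent.H81.card_center_sl2 h2] at h3
      exact h3
    have h0 : Nat.card (Matrix.ProjectiveSpecialLinearGroup (Fin 2) F) ≠ 0 := Nat.card_pos.ne'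
    rw [h1, Nat.factorization_mul h0 (by norm_num)] at hfac
    simp only [Finsupp.add_apply, Nat.Prime.factorization_self Nat.prime_two] at hfac
    rw [P.card_eq_multiplicity, show (Nat.card (Matrix.ProjectiveSpecialLinearGroup (Fin 2) F)).factorization 2 = 2 by omega]
    norm_num
  have hsq : ∀ g : (P : Subgroup (Matrix.ProjectiveSpecialLinearGroup (Fin 2) F)), g ^ 2 = 1 := by
    rintro ⟨g, hg⟩
    apply Subtype.ext
    change g ^ 2 = 1
    rw [hPS] at hg
    obtain ⟨s, hs, rfl⟩ := Subgroup.mem_map.1 hg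
    have hπp : (π s) ^ 2 = π (s ^ 2) := (map_pow π s 2).symm
    rw [hπp]
    have hs4 : s ^ 4 = 1 := by
      have h4 : ∀ y : QuaternionGroup (2 ^ 1), y ^ 4 = 1 := by decide
      have := h4 (e ⟨s, hs⟩)
      rw [← map_pow e] at this
      have h5 := (MulEquiv.map_eq_one_iff e).1 this
      exact congrArg Subtype.val h5
    have hs2 : s ^ 2 * s ^ 2 = 1 := by rw [← pow_add]; exact hs4
    change (QuotientGroup.mk (s ^ 2) : Matrix.ProjectiveSpecialLinearGroup (Fin 2) F) = 1
    rw [QuotientGroup.eq_one_iff]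
    rcases Cfsg.Agent.H81.sl2_invol h2 _ hs2 with h | h
    · rw [h]; exact one_mem _
    · exact Cfsg.Agent.H81.neg_one_mem_center _ h
  refine ⟨hcardP, ?_⟩
  have hdvd2 : Monoid.exponent (P : Subgroup (Matrix.ProjectiveSpecialLinearGroup (Fin 2) F)) ∣ 2 :=
    Monoid.exponent_dvd_of_forall_pow_eq_one hsq
  rcases (Nat.dvd_prime Nat.prime_two).1 hdvd2 with h | h
  · exfalso
    rw [Monoid.exp_eq_one_iff] at h
    have : Nat.card (P : Subgroup (Matrix.ProjectiveSpecialLinearGroup (Fin 2) F)) ≤ 1 := Finite.card_le_one_iff_subsingleton.2 h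
    omega
  · exact h

end Cfsg.Agent.S0276
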