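import Cfsg.Statements.S2092
import Cfsg.Agent.Stb.SpMult
-- import your own Cfsg.Agent.* helpers here

set_option autoImplicit false
open Cfsg

namespace Cfsg.Agent.S2092

/-- Schur multipliers of the symplectic groups: for m ≥ 2 and a field F with q elements (q ≥ 3 when m = 2), with (m, q) ≠ (3, 2), the Schur multiplier of PSp_2m(F) is cyclic of order gcd(2, q − 1); here the Schur multiplier is described through stem extensions, as in the definitions. -/
theorem result {F : Type*} [Field F] [Fintype F] {q : ℕ} (hF : Fintype.card F = q) (m : ℕ) (hm : 2 ≤ m) (h2 : m = 2 → 3 ≤ q) (hexc : ¬ (m = 3 ∧ q = 2)) : Cfsg.HasCyclicSchurMultiplier (Cfsg.PSp m F) (Nat.gcd 2 (q - 1)) := by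
  subst hF
  have h2' : m = 2 → 3 ≤ Fintype.card F := h2
  have hmult := Stb.sp_mult_one (F := F) m h2' hm hexc
  have hp : commutator (Matrix.symplecticGroup (Fin m) F) = ⊤ := by
    apply ClassSp.perfect_fin
    by_cases h : 3 ≤ m
    · exact Or.inl h
    · exact Or.inr (Or.inl ⟨by omega, h2' (by omega)⟩)
  have : NeZero m := ⟨by omega⟩
  have hcard := ClassSp.card_center (l := Fin m) (F := F)
  have hle : Nat.card (Subgroup.center (Matrix.symplecticGroup (Fin m) F)) ≤ 2 := by
    rw [hcard]; exact Nat.gcd_le_left _ (by norm_num)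
  have hpos : 0 < Nat.card (Subgroup.center (Matrix.symplecticGroup (Fin m) F)) := Nat.card_pos
  have hcyc : IsCyclic (Subgroup.center (Matrix.symplecticGroup (Fin m) F)) := by
    rcases Nat.lt_or_ge (Nat.card (Subgroup.center (Matrix.symplecticGroup (Fin m) F))) 2 with h | h
    · have h1 : Nat.card (Subgroup.center (Matrix.symplecticGroup (Fin m) F)) = 1 := by omega
      have : Subsingleton (Subgroup.center (Matrix.symplecticGroup (Fin m) F)) := (Nat.card_eq_one_iff_unique.1 h1).1
      exact isCyclic_of_subsingleton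
    · have h1 : Nat.card (Subgroup.center (Matrix.symplecticGroup (Fin m) F)) = 2 := by omega
      have : Fact (Nat.Prime 2) := ⟨Nat.prime_two⟩
      exact isCyclic_of_prime_card h1
  have e : Subgroup.center (Matrix.symplecticGroup (Fin m) F) ≃* Multiplicative (ZMod (Nat.gcd 2 (Fintype.card F - 1))) := by
    refine mulEquivOfCyclicCardEq ?_
    rw [hcard, Nat.card_congr Multiplicative.toAdd, Nat.card_zmod]
  have hker : (QuotientGroup.mk' (Subgroup.center (Matrix.symplecticGroup (Fin m) F))).ker =
      Subgroup.center (Matrix.symplecticGroup (Fin m) F) := QuotientGroup.ker_mk' _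
  exact Mult.mult_of_central hp hmult (QuotientGroup.mk' (Subgroup.center (Matrix.symplecticGroup (Fin m) F)))
    (QuotientGroup.mk'_surjective _) hker.le ((MulEquiv.subgroupCongr hker).trans e)

end Cfsg.Agent.S2092
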