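import Cfsg.Statements.S2579
import Cfsg.Agent.H43.RankOne

set_option autoImplicit false
open Cfsg

namespace Cfsg.Agent.S2579

/-- In SL_n(F) with n ≥ 3, over a finite field F, any two transvections (matrices t with t − 1 of rank one and square zero) are conjugate by an element of SL_n(F). -/
theorem result {F : Type*} [Field F] [Finite F] {n : ℕ} (hn : 3 ≤ n) (s t : Matrix.SpecialLinearGroup (Fin n) F) (hs : Cfsg.IsTransvection (s : Matrix (Fin n) (Fin n) F)) (ht : Cfsg.IsTransvection (t : Matrix (Fin n) (Fin n) F)) : IsConj s t := by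
  classical
  obtain ⟨a, φ, ha, hφ, hφa, hs'⟩ := Cfsg.Agent.H43.exists_of_isTransvection hs
  obtain ⟨b, ψ, hb, hψ, hψb, ht'⟩ := Cfsg.Agent.H43.exists_of_isTransvection ht
  obtain ⟨g, hgdet, hga, hgψ⟩ := Cfsg.Agent.H43.exists_flag_map ha hb hφ hψ hφa hψb
  -- a vector in the kernel of `ψ` outside the span of `b`
  obtain ⟨v, hvψ, hvb⟩ : ∃ v : Fin n → F, ψ ⬝ᵥ v = 0 ∧ v ∉ Submodule.span F {b} := by
    by_contra hcon
    push Not at hcon
    have hle : LinearMap.ker (Cfsg.Agent.H43.dotL ψ) ≤ Submodule.span F {b} := fun v hv => hcon v hv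
    have h1 := Submodule.finrank_mono hle
    have h2 := Cfsg.Agent.H43.finrank_ker_dotL hψ
    rw [finrank_span_singleton hb] at h1
    rw [Fintype.card_fin] at h2
    omega
  obtain ⟨f, hfv, hfb⟩ := Submodule.exists_le_ker_of_notMem hvb
  obtain ⟨χ, rfl⟩ := Cfsg.Agent.H43.exists_dotL f
  rw [Cfsg.Agent.H43.dotL_apply] at hfv
  have hχb : χ ⬝ᵥ b = 0 := hfb (Submodule.mem_span_singleton_self b)
  obtain ⟨u, hu⟩ : ∃ u : Fin n → F, u = ((g.det⁻¹ - 1) * (χ ⬝ᵥ v)⁻¹) • v := ⟨_, rfl⟩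
  have hχu : χ ⬝ᵥ u = g.det⁻¹ - 1 := by
    rw [hu, dotProduct_smul, smul_eq_mul, mul_assoc, inv_mul_cancel₀ hfv, mul_one]
  have hψu : ψ ⬝ᵥ u = 0 := by
    rw [hu, dotProduct_smul, hvψ, smul_zero]
  obtain ⟨g', hg'⟩ : ∃ g' : Matrix (Fin n) (Fin n) F, g' = Cfsg.Agent.H43.dil u χ * g := ⟨_, rfl⟩
  have hdet : g'.det = 1 := by
    rw [hg', Matrix.det_mul, Cfsg.Agent.H43.det_dil, hχu]
    rw [add_sub_cancel, inv_mul_cancel₀ hgdet]
  have hg'a : g'.mulVec a = b := by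
    rw [hg', ← Matrix.mulVec_mulVec, hga, Cfsg.Agent.H43.dil_mulVec, hχb, zero_smul, add_zero]
  have hg'ψ : Matrix.vecMul ψ g' = φ := by
    rw [hg', ← Matrix.vecMul_vecMul, Cfsg.Agent.H43.dil_vecMul, hψu, zero_smul, add_zero, hgψ]
  obtain ⟨G, hG⟩ : ∃ G : Matrix.SpecialLinearGroup (Fin n) F, (G : Matrix (Fin n) (Fin n) F) = g' := ⟨⟨g', hdet⟩, rfl⟩
  rw [isConj_iff]
  refine ⟨G, ?_⟩
  rw [mul_inv_eq_iff_eq_mul]
  apply Subtype.ext
  rw [Matrix.SpecialLinearGroup.coe_mul, Matrix.SpecialLinearGroup.coe_mul, hG]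
  change g' * (s : Matrix (Fin n) (Fin n) F) = (t : Matrix (Fin n) (Fin n) F) * g'
  rw [hs', ht', mul_add, add_mul, mul_one, one_mul, Cfsg.Agent.H43.mul_vecMulVec', Cfsg.Agent.H43.vecMulVec_mul',
    hg'a, hg'ψ]

end Cfsg.Agent.S2579
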