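import Cfsg.Statements.S0021
import Cfsg.Agent.H30.SylSys
import Cfsg.Agent.S0006

set_option autoImplicit false
open Pointwise
open Cfsg

namespace Cfsg.Agent.S0021

/-- A finite group with a family of pairwise permuting Sylow subgroups, one for each prime, is solvable (this direction rests on Burnside's two-prime Theorem). -/
theorem result {G : Type*} [Group G] [Finite G]
    (S : (p : Nat.Primes) → Sylow (p : ℕ) G)
    (hS : ∀ p q : Nat.Primes, (S p : Set G) * (S q : Set G) = (S q : Set G) * (S p : Set G)) :
    Group.IsSolvable G := by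
  apply Cfsg.Agent.S0006.result
  intro p hp
  have hG0 : Nat.card G ≠ 0 := Nat.card_pos.ne'
  obtain ⟨H, hc, -, -⟩ := Cfsg.Agent.H30.exists_prod_subgroup S hS ((Nat.card G).primeFactors.erase p)
    (fun q hq => Nat.prime_of_mem_primeFactors (Finset.mem_of_mem_erase hq))
  refine ⟨H, ?_⟩
  have h1 := H.index_mul_card
  have h2 := Cfsg.Agent.H30.prod_factorization_erase hG0 p
  rw [← hc] at h2
  rw [← h2] at h1
  exact Nat.eq_of_mul_eq_mul_right Nat.card_pos h1

end Cfsg.Agent.S0021
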