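import Cfsg.Statements.S0031

set_option autoImplicit false
open Cfsg

namespace Cfsg.Agent.S0031


/-- A fixed-point-free automorphism of a finite group maps some Sylow p-subgroup to itself. -/
theorem result {G : Type*} [Group G] [Finite G] (φ : G ≃* G)
    (hφ : MonoidHom.FixedPointFree (φ : G →* G)) (p : ℕ) [Fact p.Prime] :
    ∃ P : Sylow p G, (P : Subgroup G).map (φ : G →* G) = P := by
  have hsurj : Function.Surjective (fun g : G => (φ g)⁻¹ * g) := by
    apply Finite.surjective_of_injective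
    intro a b hab
    have h1 : (φ (a : G))⁻¹ * a = (φ (b : G))⁻¹ * b := hab
    have h2 : φ ((a : G) * (b : G)⁻¹) = (a : G) * (b : G)⁻¹ := by
      rw [map_mul, map_inv]
      have h3 : (a : G) = φ a * ((φ (b : G))⁻¹ * b) := by rw [← h1]; group
      calc φ (a : G) * (φ (b : G))⁻¹ = (φ a * ((φ (b : G))⁻¹ * b)) * (b : G)⁻¹ := by group
        _ = (a : G) * (b : G)⁻¹ := by rw [← h3]
    have h4 := hφ _ h2
    exact mul_inv_eq_one.1 h4
  obtain ⟨P⟩ : Nonempty (Sylow p G) := inferInstance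
  -- φ(P) = g P g⁻¹
  have hcard : Nat.card ((P : Subgroup G).map (φ : G →* G)) = p ^ (Nat.card G).factorization p := by
    rw [← P.card_eq_multiplicity]
    exact (Nat.card_congr ((P : Subgroup G).equivMapOfInjective (φ : G →* G) φ.injective).toEquiv).symm
  obtain ⟨Q, hQ⟩ : ∃ Q : Sylow p G, (Q : Subgroup G) = (P : Subgroup G).map (φ : G →* G) :=
    ⟨Sylow.ofCard _ hcard, rfl⟩
  obtain ⟨g, hg⟩ := MulAction.exists_smul_eq G P Q
  obtain ⟨h, hh⟩ := hsurj g
  have hh' : φ h * g = h := by rw [← hh]; group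
  refine ⟨h • P, ?_⟩
  ext x
  rw [Subgroup.mem_map]
  have key : ∀ y : G, y ∈ (P : Subgroup G) ↔ φ y ∈ (Q : Subgroup G) := by
    intro y
    rw [hQ, Subgroup.mem_map]
    constructor
    · intro hy; exact ⟨y, hy, rfl⟩
    · rintro ⟨z, hz, hzy⟩
      have : z = y := φ.injective hzy
      rwa [← this]
  have hQ2 : ∀ y : G, y ∈ (Q : Subgroup G) ↔ g⁻¹ * y * g ∈ (P : Subgroup G) := by
    intro y
    rw [← hg]
    rw [Sylow.coe_subgroup_smul, Subgroup.mem_pointwise_smul_iff_inv_smul_mem, MulAut.smul_def, ← map_inv, MulAut.conj_apply, inv_inv]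
  have hP2 : ∀ y : G, y ∈ ((h • P : Sylow p G) : Subgroup G) ↔ h⁻¹ * y * h ∈ (P : Subgroup G) := by
    intro y
    rw [Sylow.coe_subgroup_smul, Subgroup.mem_pointwise_smul_iff_inv_smul_mem, MulAut.smul_def, ← map_inv, MulAut.conj_apply, inv_inv]
  have hmain : ∀ y : G, y ∈ ((h • P : Sylow p G) : Subgroup G) ↔ φ y ∈ ((h • P : Sylow p G) : Subgroup G) := by
    intro y
    rw [hP2, hP2, key, hQ2]
    have e : g⁻¹ * φ (h⁻¹ * y * h) * g = h⁻¹ * φ y * h := by
      rw [map_mul, map_mul, map_inv]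
      have e1 : φ h * g = h := hh'
      have e2 : g⁻¹ * (φ h)⁻¹ = h⁻¹ := by rw [← mul_inv_rev, e1]
      calc g⁻¹ * ((φ h)⁻¹ * φ y * φ h) * g = (g⁻¹ * (φ h)⁻¹) * φ y * (φ h * g) := by group
        _ = h⁻¹ * φ y * h := by rw [e1, e2]
    rw [e]
  constructor
  · rintro ⟨y, hy, rfl⟩
    exact (hmain y).1 hy
  · intro hx
    obtain ⟨y, rfl⟩ := φ.surjective x
    exact ⟨y, (hmain y).2 hx, rfl⟩

end Cfsg.Agent.S0031
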