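import Cfsg.Statements.S0037
import Cfsg.Agent.Frob.Conj
-- import your own Cfsg.Agent.* helpers here

set_option autoImplicit false
open Pointwise
open Cfsg

namespace Cfsg.Agent.S0037

/-- Of two Frobenius complements in one finite group, the one of smaller (or equal) order is conjugate to a subgroup of the other. -/
theorem result {G : Type*} [Group G] [Finite G] (H H₀ : Subgroup G)
    (hH : Cfsg.IsFrobeniusComplement H) (hH₀ : Cfsg.IsFrobeniusComplement H₀) (hle : Nat.card H₀ ≤ Nat.card H) :
    ∃ g : G, MulAut.conj g • H₀ ≤ H := by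
  obtain ⟨g, hg⟩ := Frob.exists_conj_le hH hH₀ hle
  refine ⟨g⁻¹, fun x hx => ?_⟩
  rw [Frob.mem_conj_smul] at hx
  have h1 := hg hx
  rw [Frob.mem_conj_smul] at h1
  have : x = g⁻¹ * (g⁻¹⁻¹ * x * g⁻¹) * g := by group
  rw [this]; exact h1

end Cfsg.Agent.S0037
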