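import Cfsg.Statements.S0045
import Cfsg.Agent.H30.Carter

set_option autoImplicit false
open Pointwise
open Cfsg

namespace Cfsg.Agent.S0045

/-- Carter subgroups: a finite solvable group contains a nilpotent subgroup equal to its own normaliser, and all such subgroups are conjugate. -/
theorem result {G : Type*} [Group G] [Finite G] [Group.IsSolvable G] :
    (∃ C : Subgroup G, Group.IsNilpotent C ∧ Subgroup.normalizer (C : Set G) = C) ∧
    ∀ C D : Subgroup G, Group.IsNilpotent C → Subgroup.normalizer (C : Set G) = C →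
      Group.IsNilpotent D → Subgroup.normalizer (D : Set G) = D → ∃ g : G, MulAut.conj g • C = D := by
  have key : ∀ C : Subgroup G, Cfsg.Agent.H30.IsCarterIn ⊤ C ↔
      (Group.IsNilpotent C ∧ Subgroup.normalizer (C : Set G) = C) := by
    intro C
    constructor
    · rintro ⟨-, h1, h2⟩
      exact ⟨h1, le_antisymm (fun g hg => h2 g trivial hg) Subgroup.le_normalizer⟩
    · rintro ⟨h1, h2⟩
      exact ⟨le_top, h1, fun g _ hg => h2 ▸ hg⟩
  obtain ⟨⟨C, hC⟩, hconj⟩ := Cfsg.Agent.H30.carter G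
  refine ⟨⟨C, (key C).1 hC⟩, ?_⟩
  intro C D h1 h2 h3 h4
  obtain ⟨g, -, hg⟩ := hconj C D ((key C).2 ⟨h1, h2⟩) ((key D).2 ⟨h3, h4⟩)
  exact ⟨g, hg⟩

end Cfsg.Agent.S0045
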