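import Cfsg.Statements.S0054
import Mathlib

set_option autoImplicit false
open Cfsg

namespace Cfsg.Agent.S0054

/-- A regular normal subgroup of a finite 2-transitive group is elementary abelian: it is commutative and all its elements have order dividing one prime. -/
theorem result {G : Type*} [Group G] [Finite G]
    {X : Type*} [Nonempty X] [MulAction G X] (h2 : MulAction.IsMultiplyPretransitive G X 2)
    (N : Subgroup G) [N.Normal] (htrans : MulAction.IsPretransitive N X) (hreg : ∀ x : X, MulAction.stabilizer N x = ⊥) :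
    IsMulCommutative N ∧ ∃ p : ℕ, p.Prime ∧ ∀ n ∈ N, n ^ p = 1 := by
  classical
  have h2' : ∀ {a b c d : X}, a ≠ b → c ≠ d → ∃ g : G, g • a = c ∧ g • b = d :=
    MulAction.is_two_pretransitive_iff.mp h2
  obtain ⟨x₀⟩ := (inferInstance : Nonempty X)
  -- all nontrivial elements of `N` are conjugate in `G`
  have hconj : ∀ a ∈ N, a ≠ 1 → ∀ b ∈ N, b ≠ 1 → ∃ g : G, g * a * g⁻¹ = b := by
    intro a ha ha1 b hb hb1
    have hstab : ∀ c ∈ N, ∀ x : X, c • x = x → c = 1 := by
      intro c hc x hx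
      have h3 : (⟨c, hc⟩ : N) ∈ MulAction.stabilizer N x := hx
      rw [hreg x, Subgroup.mem_bot] at h3
      exact congrArg Subtype.val h3
    have ha2 : x₀ ≠ a • x₀ := fun h => ha1 (hstab a ha x₀ h.symm)
    have hb2 : x₀ ≠ b • x₀ := fun h => hb1 (hstab b hb x₀ h.symm)
    obtain ⟨g, hg1, hg2⟩ := h2' ha2 hb2
    refine ⟨g, ?_⟩
    have hm : g * a * g⁻¹ ∈ N := Subgroup.Normal.conj_mem inferInstance _ ha _
    have h4 : (b⁻¹ * (g * a * g⁻¹)) • x₀ = x₀ := by
      rw [mul_smul, mul_smul, mul_smul]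
      have h5 : g⁻¹ • x₀ = x₀ := by
        rw [inv_smul_eq_iff]; exact hg1.symm
      rw [h5, hg2, inv_smul_smul]
    have h6 := hstab _ (N.mul_mem (N.inv_mem hb) hm) x₀ h4
    rw [inv_mul_eq_one] at h6
    exact h6.symm
  by_cases hN : N = ⊥
  · subst hN
    refine ⟨⟨⟨fun a b => Subsingleton.elim _ _⟩⟩, 2, Nat.prime_two, ?_⟩
    intro n hn
    rw [Subgroup.mem_bot] at hn
    rw [hn, one_pow]
  have hcard : Nat.card N ≠ 1 := fun h => hN (Subgroup.card_eq_one.mp h)
  obtain ⟨p, hp, hdvd⟩ := Nat.exists_prime_and_dvd hcard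
  have : Fact p.Prime := ⟨hp⟩
  obtain ⟨y, hy⟩ := exists_prime_orderOf_dvd_card' (G := N) p hdvd
  have hy1 : (y : G) ≠ 1 := by
    intro h
    have : y = 1 := Subtype.ext h
    rw [this, orderOf_one] at hy
    exact hp.one_lt.ne hy
  have hpow : ∀ n ∈ N, n ^ p = 1 := by
    intro n hn
    by_cases hn1 : n = 1
    · rw [hn1, one_pow]
    obtain ⟨g, hg⟩ := hconj y y.2 hy1 n hn hn1
    rw [← hg, conj_pow]
    have h3 : (y : G) ^ p = 1 := by
      have := pow_orderOf_eq_one y
      rw [hy] at this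
      exact_mod_cast congrArg Subtype.val this
    rw [h3]; simp
  refine ⟨?_, p, hp, hpow⟩
  have hpN : IsPGroup p N := by
    rw [isPGroup_iff_pow_pow_eq_one]
    intro x
    refine ⟨1, Subtype.ext ?_⟩
    simpa using hpow x x.2
  have hnt : Nontrivial N := (Subgroup.nontrivial_iff_ne_bot N).mpr hN
  have hz := hpN.bot_lt_center
  obtain ⟨⟨z, hz⟩, hz1⟩ := Subgroup.ne_bot_iff_exists_ne_one.mp hz.ne'
  have hz1' : (z : G) ≠ 1 := by
    intro h
    apply hz1
    apply Subtype.ext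
    apply Subtype.ext
    exact h
  have hcen : ((Subgroup.center N).map N.subtype).Normal := inferInstance
  refine ⟨⟨fun a b => ?_⟩⟩
  by_cases ha1 : (a : G) = 1
  · have : a = 1 := Subtype.ext ha1
    rw [this]; simp
  obtain ⟨g, hg⟩ := hconj z z.2 hz1' a a.2 ha1
  have h7 : (a : G) ∈ (Subgroup.center N).map N.subtype := by
    rw [← hg]
    exact hcen.conj_mem _ ⟨z, hz, rfl⟩ _
  obtain ⟨a', ha', haa'⟩ := h7
  have h8 : a' = a := Subtype.ext haa'
  rw [h8] at ha'
  exact (Subgroup.mem_center_iff.mp ha' b).symm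

end Cfsg.Agent.S0054
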