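import Cfsg.Statements.S0059
import Cfsg.Agent.H91.Glauberman

set_option autoImplicit false
open Cfsg

namespace Cfsg.Agent.S0059


/-- Let a finite group act on a set on which a normal subgroup K of coprime order and index is transitive, with K or the quotient solvable. Then any complement H of K has a fixed point, and any two H-fixed points are interchanged by an element of K centralising H. -/
theorem result {G : Type*} [Group G] [Finite G] {X : Type*} [Nonempty X] [MulAction G X]
    (K H : Subgroup G) [K.Normal] (hc : Subgroup.IsComplement' K H) (hcop : (Nat.card K).Coprime K.index)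
    (hsolv : Group.IsSolvable K ∨ Group.IsSolvable (G ⧸ K)) (htrans : MulAction.IsPretransitive K X) :
    (∃ x : X, ∀ h ∈ H, h • x = x) ∧
    ∀ x y : X, (∀ h ∈ H, h • x = x) → (∀ h ∈ H, h • y = y) → ∃ k ∈ K ⊓ Subgroup.centralizer (H : Set G), k • x = y := by
  exact ⟨Cfsg.Agent.H91.glauberman_exists K H hc hcop hsolv htrans,
    fun x y hx hy => Cfsg.Agent.H91.glauberman_trans K H hc hcop hsolv htrans x y hx hy⟩

end Cfsg.Agent.S0059
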