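import Cfsg.Statements.S0063
import Cfsg.Agent.Transfer.Fusion

set_option autoImplicit false
open Cfsg

namespace Cfsg.Agent.S0063

theorem class_le (p : ℕ) [Fact p.Prime] (m : ℕ) : ∀ (G : Type*) [Group G] [Finite G],
    Nat.card G = p ^ m → 1 < m → Group.nilpotencyClass G ≤ m - 1 := by
  have hp : p.Prime := Fact.out
  induction m using Nat.strong_induction_on with
  | _ m ih =>
    intro G _ _ hG hm
    have hpG : IsPGroup p G := IsPGroup.of_card hG
    have hnil : Group.IsNilpotent G := hpG.isNilpotent
    have hnt : Nontrivial G := by
      rw [← Finite.one_lt_card_iff_nontrivial, hG]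
      exact Nat.one_lt_pow (by omega) hp.one_lt
    obtain ⟨k, hk⟩ := IsPGroup.iff_card.1 (hpG.to_subgroup (Subgroup.center G))
    have hk0 : k ≠ 0 := by
      rintro rfl
      have := hpG.center_nontrivial
      rw [← Finite.one_lt_card_iff_nontrivial, hk] at this
      simp at this
    have hq := (Subgroup.center G).card_mul_index
    rw [hk, hG] at hq
    have hkm : k ≤ m := by
      rw [← Nat.pow_dvd_pow_iff_le_right hp.one_lt, ← hq]
      exact Dvd.intro _ rfl
    have hqc : Nat.card (G ⧸ Subgroup.center G) = p ^ (m - k) := by
      rw [← Subgroup.index_eq_card]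
      have h1 : p ^ m = p ^ k * p ^ (m - k) := by rw [← pow_add]; congr 1; omega
      rw [h1] at hq
      exact Nat.eq_of_mul_eq_mul_left (pow_pos hp.pos _) hq
    rcases Nat.lt_or_ge 1 (m - k) with h2 | h2
    · have := ih (m - k) (by omega) _ hqc h2
      rw [Group.nilpotencyClass_eq_quotient_center_plus_one]
      omega
    · have hcyc : IsCyclic (G ⧸ Subgroup.center G) := by
        interval_cases h3 : m - k
        · have : Subsingleton (G ⧸ Subgroup.center G) := by
            rw [← Finite.card_le_one_iff_subsingleton, hqc]; simp
          infer_instance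
        · exact isCyclic_of_prime_card (p := p) (by rw [hqc, pow_one])
      have hcomm : IsMulCommutative G := isMulCommutative_of_isCyclic_quotient_center_self G
      have hcl : Group.nilpotencyClass G ≤ 1 := by
        rw [Group.IsNilpotent.nilpotencyClass_le_one_iff]
        exact hcomm
      omega

/-- A finite group of prime-power order p ^ m with m > 1 is nilpotent of class at most m - 1. -/
theorem result {G : Type*} [Group G] [Finite G] (p m : ℕ) [Fact p.Prime]
    (hG : Nat.card G = p ^ m) (hm : 1 < m) : Group.nilpotencyClass G ≤ m - 1 := by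
  exact class_le p m G hG hm

end Cfsg.Agent.S0063
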