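import Cfsg.Statements.S0064
import Cfsg.Agent.Transfer.Fusion

set_option autoImplicit false
open Cfsg

namespace Cfsg.Agent.S0064

/-- A finite group is nilpotent exactly when each of its subgroups is subnormal. -/
theorem result {G : Type*} [Group G] [Finite G] :
    Group.IsNilpotent G ↔ ∀ H : Subgroup G, H.IsSubnormal := by
  constructor
  · intro hG H
    -- strong induction on the index
    have key : ∀ n, ∀ H : Subgroup G, Nat.card G - Nat.card H ≤ n → H.IsSubnormal := by
      intro n
      induction n with
      | zero =>
        intro H hH
        have : H = ⊤ := by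
          apply Subgroup.eq_top_of_card_eq
          exact le_antisymm (Nat.le_of_dvd Nat.card_pos (Subgroup.card_subgroup_dvd_card _))
            (Nat.sub_eq_zero_iff_le.1 (Nat.le_zero.1 hH))
        rw [this]; exact Subgroup.IsSubnormal.top
      | succ n ih =>
        intro H hH
        by_cases hT : H = ⊤
        · rw [hT]; exact Subgroup.IsSubnormal.top
        · have h1 := Group.normalizerCondition_of_isNilpotent (G := G) H (lt_top_iff_ne_top.2 hT)
          have h2 : Nat.card H < Nat.card (Subgroup.normalizer (H : Set G)) :=
            Set.Finite.card_lt_card (Set.toFinite _) h1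
          exact Subgroup.IsSubnormal.step H _ h1.le (ih _ (by omega)) Subgroup.normal_in_normalizer
    exact key _ H le_rfl
  · intro h
    have := (Group.isNilpotent_of_finite_tfae (G := G)).out 1 0
    rw [← this]
    intro H hH
    have hs := h H
    obtain (rfl | ⟨K, hHK, hK, hn⟩) := Subgroup.IsSubnormal.iff_eq_top_or_exists.1 hs
    · exact absurd rfl hH.ne
    · refine lt_of_lt_of_le hHK ?_
      exact (Subgroup.normal_subgroupOf_iff_le_normalizer hHK.le).1 hn

end Cfsg.Agent.S0064
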