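import Cfsg.Statements.S0065
import Cfsg.Agent.Transfer.Fusion

set_option autoImplicit false
open Cfsg

namespace Cfsg.Agent.S0065

/-- A nontrivial normal subgroup of a nilpotent group intersects the centre nontrivially. -/
theorem result {G : Type*} [Group G] [Finite G] [Group.IsNilpotent G]
    (N : Subgroup G) [N.Normal] (hN : N ≠ ⊥) : N ⊓ Subgroup.center G ≠ ⊥ := by
  intro h
  obtain ⟨M, ⟨hMn, hMN, hM0⟩, hmin⟩ :=
    (Set.toFinite {M : Subgroup G | M.Normal ∧ M ≤ N ∧ M ≠ ⊥}).exists_minimal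
      ⟨N, inferInstance, le_rfl, hN⟩
  have h1 : ⁅M, (⊤ : Subgroup G)⁆ = ⊥ := by
    by_contra hne
    have h2 : M ≤ ⁅M, (⊤ : Subgroup G)⁆ :=
      hmin ⟨inferInstance, (Subgroup.commutator_le_left _ _).trans hMN, hne⟩
        (Subgroup.commutator_le_left _ _)
    exact hM0 (Transfer.eq_bot_of_le_commutator_of_isNilpotent (P := ⊤) inferInstance le_top h2)
  rw [Subgroup.commutator_top_right_eq_bot_iff_le_center] at h1
  apply hM0
  rw [eq_bot_iff, ← h]
  exact le_inf hMN h1

end Cfsg.Agent.S0065
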