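import Cfsg.Statements.S0069
import Cfsg.Agent.Frob.Center
import Cfsg.Agent.S0016
-- import your own Cfsg.Agent.* helpers here

set_option autoImplicit false
open Cfsg

namespace Cfsg.Agent.S0069

/-- A Frobenius complement has nontrivial centre: if H ≠ 1 complements a nontrivial normal subgroup K and every nonidentity element of H has trivial centraliser in K, then the centre of H is nontrivial. -/
theorem result {G : Type*} [Group G] [Finite G] (K H : Subgroup G) [K.Normal]
    (hc : Subgroup.IsComplement' K H) (hK : K ≠ ⊥) (hH : H ≠ ⊥) (hfpf : ∀ h ∈ H, h ≠ 1 → K ⊓ Subgroup.centralizer {h} = ⊥) :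
    Subgroup.center H ≠ ⊥ := by
  have h1 := Frob.hasFPFModule_of_fpf hc hK hfpf
  by_cases he : 2 ∣ Nat.card H
  · exact h1.center_ne_bot_of_even he
  · have hn : Nontrivial H := (Subgroup.nontrivial_iff_ne_bot H).mpr hH
    have hz : IsZGroup H := by
      refine ⟨fun p hp P => ?_⟩
      have := Fact.mk hp
      have h2 := (h1.subgroup (P : Subgroup H)).unique_subgroup_of_isPGroup P.isPGroup'
      rcases Cfsg.Agent.S0016.result p P.isPGroup' h2 with h | ⟨h2, _⟩
      · exact h
      · subst h2
        have hP : (P : Subgroup H) = ⊥ := by
          obtain ⟨n, hn⟩ := P.isPGroup'.exists_card_eq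
          rcases n with _ | n
          · rwa [pow_zero, Subgroup.card_eq_one] at hn
          · exfalso
            apply he
            exact (dvd_pow_self 2 (by omega)).trans (hn ▸ Subgroup.card_subgroup_dvd_card _)
        rw [hP]
        infer_instance
    exact h1.center_ne_bot_of_isZGroup

end Cfsg.Agent.S0069
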