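import Cfsg.Statements.S0070
import Cfsg.Agent.Solv.Frattini

set_option autoImplicit false
open Cfsg

namespace Cfsg.Agent.S0070

/-- The Fitting subgroup commutes with passing to the Frattini quotient: the Fitting subgroup of G modulo its Frattini subgroup is the image of the Fitting subgroup of G. -/
theorem result {G : Type*} [Group G] [Finite G] :
    Cfsg.fittingSubgroup (G ⧸ frattini G) = (Cfsg.fittingSubgroup G).map (QuotientGroup.mk' (frattini G)) := by
  apply le_antisymm
  · have hs := QuotientGroup.mk'_surjective (frattini G)
    have h1 : ((Cfsg.fittingSubgroup (G ⧸ frattini G)).comap (QuotientGroup.mk' (frattini G))).map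
        (QuotientGroup.mk' (frattini G)) = Cfsg.fittingSubgroup (G ⧸ frattini G) :=
      Subgroup.map_comap_eq_self_of_surjective hs _
    rw [← h1]
    apply Subgroup.map_mono
    have hn : ((Cfsg.fittingSubgroup (G ⧸ frattini G)).comap
      (QuotientGroup.mk' (frattini G))).Normal := inferInstance
    refine Solv.le_fitting hn ?_
    apply Solv.nilpotent_of_map_frattini_nilpotent
    rw [h1]
    exact Solv.fitting_isNilpotent
  · exact Solv.map_fitting_le _ (QuotientGroup.mk'_surjective (frattini G))

end Cfsg.Agent.S0070
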