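import Cfsg.Statements.S0073
import Cfsg.Agent.Transfer.SmallSylow

set_option autoImplicit false
open Cfsg

namespace Cfsg.Agent.S0073

/-- For a finite non-abelian simple group, either the cube of the least prime divisor of the order divides the order, or 12 does. -/
theorem result {G : Type*} [Group G] [Finite G] [IsSimpleGroup G] (hG : ∃ x y : G, x * y ≠ y * x) : (Nat.card G).minFac ^ 3 ∣ Nat.card G ∨ 12 ∣ Nat.card G := by
  by_contra hcon
  push Not at hcon
  obtain ⟨h3, h12⟩ := hcon
  set p := (Nat.card G).minFac with hp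
  have hcard : Nat.card G ≠ 1 := by
    intro h
    obtain ⟨x, y, hxy⟩ := hG
    have : Subsingleton G := (Nat.card_eq_one_iff_unique.1 h).1
    exact hxy (Subsingleton.elim _ _)
  have hpp : p.Prime := Nat.minFac_prime hcard
  have : Fact p.Prime := ⟨hpp⟩
  have hpG : p ∣ Nat.card G := Nat.minFac_dvd _
  have hnot := Transfer.not_hasNPC_of_isSimpleGroup hG hpG
  have hmin : ∀ q : ℕ, q.Prime → q ∣ Nat.card G → p ≤ q := fun q hq hqG => Nat.minFac_le_of_dvd hq.two_le hqG
  let P : Sylow p G := default
  obtain ⟨k, hk⟩ := IsPGroup.iff_card.1 P.2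
  have hkdvd : p ^ k ∣ Nat.card G := by rw [← hk]; exact Subgroup.card_subgroup_dvd_card _
  have hk3 : k < 3 := by
    by_contra hc
    push Not at hc
    exact h3 ((pow_dvd_pow p hc).trans hkdvd)
  have hk0 : k ≠ 0 := by
    rintro rfl
    have h5 := P.dvd_card_of_dvd_card hpG
    change p ∣ Nat.card P at h5
    have h6 : Nat.card P = p ^ 0 := hk
    rw [h6, pow_zero] at h5
    exact hpp.one_lt.ne' (Nat.dvd_one.1 h5)
  have hk' : k = 1 ∨ k = 2 := by omega
  rcases hk' with rfl | rfl
  · apply hnot
    apply Transfer.hasNPC_of_card_eq_prime P (by simpa using hk)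
    intro q hq hqG _ hdvd
    have h5 := hmin q hq hqG
    have h6 := Nat.le_of_dvd (Nat.sub_pos_of_lt hpp.one_lt) hdvd
    omega
  · apply hnot
    apply Transfer.hasNPC_of_card_eq_prime_sq P hk
    intro q hq hqG hqp
    have h5 := hmin q hq hqG
    refine ⟨?_, ?_⟩
    · intro hdvd
      have h6 := Nat.le_of_dvd (Nat.sub_pos_of_lt hpp.one_lt) hdvd
      omega
    · intro hdvd
      have h6 := Nat.le_of_dvd (Nat.succ_pos _) hdvd
      have h7 : q = p + 1 := by omega
      have h8 : p = 2 := by
        by_contra h9
        have h10 := hpp.odd_of_ne_two h9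
        have h11 : Even q := by rw [h7]; exact h10.add_one
        have h12' : q = 2 := (hq.even_iff).1 h11
        have := hpp.two_le
        omega
      apply h12
      have h13 : 4 ∣ Nat.card G := by
        rw [h8] at hkdvd
        simpa using hkdvd
      have h14 : 3 ∣ Nat.card G := by
        rw [h7, h8] at hqG
        simpa using hqG
      have : Nat.Coprime 4 3 := by norm_num
      exact (this.mul_dvd_of_dvd_of_dvd h13 h14)

end Cfsg.Agent.S0073
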