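import Cfsg.Statements.S0078
import Cfsg.Agent.Transfer.Fusion

set_option autoImplicit false
open Cfsg

namespace Cfsg.Agent.S0078

/-- In a p-normal group, a Sylow p-subgroup P meets O^p(G) exactly where it meets O^p(V), for any subgroup V containing the normalizer of the centre of P. -/
theorem result {G : Type*} [Group G] [Finite G] {p : ℕ} [Fact p.Prime] (P : Sylow p G) (hn : ∀ Q : Sylow p G, (P : Subgroup G) ⊓ Subgroup.centralizer (P : Set G) ≤ (Q : Subgroup G) → (Q : Subgroup G) ⊓ Subgroup.centralizer (Q : Set G) = (P : Subgroup G) ⊓ Subgroup.centralizer (P : Set G)) (V : Subgroup G) (hV : Subgroup.normalizer (((P : Subgroup G) ⊓ Subgroup.centralizer (P : Set G) : Subgroup G) : Set G) ≤ V) : (P : Subgroup G) ⊓ Cfsg.pResidual p G = (P : Subgroup G) ⊓ (Cfsg.pResidual p V).map V.subtype := by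
  set Z : Subgroup G := (P : Subgroup G) ⊓ Subgroup.centralizer (P : Set G) with hZ
  have hPV : (P : Subgroup G) ≤ V := by
    refine le_trans ?_ hV
    have h1 : Z ≤ Subgroup.centralizer ((P : Subgroup G) : Set G) := inf_le_right
    rw [Subgroup.le_centralizer_iff] at h1
    exact h1.trans (Subgroup.centralizer_le_normalizer _)
  have hW : Cfsg.IsWeaklyClosed Z P := by
    refine ⟨inf_le_left, ?_⟩
    intro g hg
    -- `Z ≤ g⁻¹ P g`
    have h1 : Z ≤ ((g⁻¹ • P : Sylow p G) : Subgroup G) := by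
      intro z hz
      have h2 : g * z * g⁻¹ ∈ (P : Subgroup G) := hg ⟨z, hz, rfl⟩
      refine ⟨g * z * g⁻¹, h2, ?_⟩
      change g⁻¹ * (g * z * g⁻¹) * g⁻¹⁻¹ = z
      group
    have h2 := hn (g⁻¹ • P) h1
    -- conjugating
    ext y
    constructor
    · rintro ⟨z, hz, rfl⟩
      have hz' : z ∈ ((g⁻¹ • P : Sylow p G) : Subgroup G) ⊓
        Subgroup.centralizer ((g⁻¹ • P : Sylow p G) : Set G) := by rw [h2]; exact hz
      refine ⟨hg ⟨z, hz, rfl⟩, ?_⟩
      change g * z * g⁻¹ ∈ Subgroup.centralizer (P : Set G)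
      rw [Subgroup.mem_centralizer_iff]
      intro x hx
      have hx' : g⁻¹ * x * g ∈ ((g⁻¹ • P : Sylow p G) : Set G) := by
        refine ⟨x, hx, ?_⟩
        change g⁻¹ * x * g⁻¹⁻¹ = _
        group
      have := Subgroup.mem_centralizer_iff.1 hz'.2 _ hx'
      calc x * (g * z * g⁻¹) = g * (g⁻¹ * x * g * z) * g⁻¹ := by group
        _ = g * (z * (g⁻¹ * x * g)) * g⁻¹ := by rw [this]
        _ = _ := by group
    · intro hy
      refine ⟨g⁻¹ * y * g, ?_, ?_⟩
      · change g⁻¹ * y * g ∈ Z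
        rw [← h2]
        refine ⟨⟨y, hy.1, ?_⟩, ?_⟩
        · change g⁻¹ * y * g⁻¹⁻¹ = _
          group
        · refine Subgroup.mem_centralizer_iff.2 ?_
          rintro _ ⟨x, hx, rfl⟩
          change g⁻¹ * x * g⁻¹⁻¹ * (g⁻¹ * y * g) = g⁻¹ * y * g * (g⁻¹ * x * g⁻¹⁻¹)
          have := Subgroup.mem_centralizer_iff.1 hy.2 x hx
          calc g⁻¹ * x * g⁻¹⁻¹ * (g⁻¹ * y * g) = g⁻¹ * (x * y) * g := by group
            _ = g⁻¹ * (y * x) * g := by rw [this]
            _ = _ := by group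
      · change g * (g⁻¹ * y * g) * g⁻¹ = y
        group
  have hc := Transfer.controlsFusion_normalizer_of_weaklyClosed P Z inf_le_right hW
  exact Transfer.inf_pResidual_eq_of_control hPV (hc.mono hV)

end Cfsg.Agent.S0078
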