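import Cfsg.Statements.S0080
import Cfsg.Agent.Transfer.Fusion

set_option autoImplicit false
open Cfsg

namespace Cfsg.Agent.S0080

/-- When the index of H is prime to the order of H/H', the focal subgroup of H is G' ∩ H, and H/(G' ∩ H) has a normal complement. -/
theorem result {G : Type*} [Group G] [Finite G] (H : Subgroup G) (h : Nat.Coprime H.index (⁅H, H⁆.relIndex H)) : Subgroup.focalSubgroup H = commutator G ⊓ H ∧ ∃ N : Subgroup G, N.Normal ∧ N ⊓ H = commutator G ⊓ H ∧ N ⊔ H = ⊤ := by
  have hcard : Nat.card (H ⧸ H.focalSubgroupOf) ∣ ⁅H, H⁆.relIndex H := by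
    rw [← Subgroup.index_eq_card]
    exact Subgroup.relIndex_dvd_of_le_left H (Subgroup.commutator_le_focalSubgroup H)
  have hcop : (Nat.card (H ⧸ H.focalSubgroupOf)).Coprime H.index :=
    (Nat.Coprime.coprime_dvd_right hcard h).symm
  have hker : H.transferFocal.ker ⊓ H ≤ H.focalSubgroup := by
    rintro x ⟨hx1, hx2⟩
    have h1 : H.transferFocal x = 1 := hx1
    have h2 := H.transferFocal_eq_pow ⟨x, hx2⟩
    change H.transferFocal x = _ at h2
    rw [h1] at h2
    have h3 : ((⟨x, hx2⟩ : H) : H ⧸ H.focalSubgroupOf) = 1 := by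
      apply (powCoprime hcop).injective
      simp only [powCoprime_apply, one_pow]
      exact h2.symm
    rw [QuotientGroup.eq_one_iff, Subgroup.focalSubgroupOf_def, Subgroup.mem_subgroupOf] at h3
    exact h3
  have hcomm : commutator G ≤ H.transferFocal.ker := by
    rw [commutator_def, Subgroup.commutator_le]
    intro a _ b _
    rw [MonoidHom.mem_ker, map_commutatorElement, commutatorElement_eq_one_iff_mul_comm]
    exact (inferInstance : IsMulCommutative (H ⧸ H.focalSubgroupOf)).is_comm.comm _ _
  have e1 : H.focalSubgroup = commutator G ⊓ H := by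
    apply le_antisymm
    · exact le_inf H.focalSubgroup_le_commutator H.focalSubgroup_le
    · exact (inf_le_inf_right _ hcomm).trans hker
  refine ⟨e1, H.transferFocal.ker, inferInstance, ?_, ?_⟩
  · rw [← e1]
    apply le_antisymm hker
    apply le_inf _ H.focalSubgroup_le
    exact H.focalSubgroup_le_commutator.trans hcomm
  · rw [eq_top_iff]
    intro g _
    obtain ⟨y, hy⟩ := (powCoprime hcop).surjective (H.transferFocal g)
    obtain ⟨x, rfl⟩ := QuotientGroup.mk'_surjective _ y
    have h2 := H.transferFocal_eq_pow x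
    have h3 : g * (x : G)⁻¹ ∈ H.transferFocal.ker := by
      rw [MonoidHom.mem_ker, map_mul, map_inv, h2, ← hy, mul_inv_eq_one]
      simp only [powCoprime_apply]
      rfl
    have h4 : g = g * (x : G)⁻¹ * x := by group
    rw [h4]
    exact Subgroup.mul_mem_sup h3 x.2

end Cfsg.Agent.S0080
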