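import Cfsg.Statements.S0084
import Cfsg.Agent.H31.Avg
import Cfsg.Agent.Transfer.Frobenius

set_option autoImplicit false
open Cfsg

namespace Cfsg.Agent.S0084

open Subgroup

/-- The automiser of a Sylow subgroup: if every prime order is excluded then the normalizer is
the centralizer. -/
theorem normalizer_le_centralizer_of {G : Type*} [Group G] [Finite G] {p : ℕ} [Fact p.Prime]
    (P : Sylow p G) (hP : IsMulCommutative (P : Subgroup G))
    (h : (Nat.card (Equiv.Perm P)).Coprime
      ((centralizer (P : Set G)).relIndex (normalizer (P : Set G)))) :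
    normalizer (P : Set G) ≤ centralizer (P : Set G) := by
  classical
  set φ : normalizer (P : Set G) →* MulAut (P : Subgroup G) := (P : Subgroup G).normalizerMonoidHom
    with hφ
  have hφa : ∀ (n : normalizer (P : Set G)) (x : (P : Subgroup G)),
      ((φ n x : (P : Subgroup G)) : G) = n * x * (n : G)⁻¹ := by
    intro n x; rfl
  have hker : φ.ker = (centralizer (P : Set G)).subgroupOf (normalizer (P : Set G)) := by
    ext n
    rw [MonoidHom.mem_ker, mem_subgroupOf, mem_centralizer_iff]
    constructor
    · intro h x hx
      have := congrArg (fun f : MulAut (P : Subgroup G) => ((f ⟨x, hx⟩ : (P : Subgroup G)) : G)) h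
      simp only [hφa] at this
      have h2 : (n : G) * x * (n : G)⁻¹ = x := this
      rw [mul_inv_eq_iff_eq_mul] at h2
      exact h2.symm
    · intro h
      ext x
      rw [hφa]
      have := h x x.2
      change (n : G) * x * (n : G)⁻¹ = x
      rw [mul_inv_eq_iff_eq_mul]; exact this.symm
  have hcard : Nat.card φ.range =
      (centralizer (P : Set G)).relIndex (normalizer (P : Set G)) := by
    rw [← Subgroup.index_ker, hker]; rfl
  let ψ : MulAut (P : Subgroup G) →* Equiv.Perm (P : Subgroup G) := MulAut.toPerm _
  have hψ : Function.Injective ψ := by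
    intro f g hfg
    ext x
    exact congrArg (fun e : Equiv.Perm (P : Subgroup G) => ((e x : (P : Subgroup G)) : G)) hfg
  have h1 : Nat.card (φ.range.map ψ) = Nat.card φ.range :=
    Subgroup.card_map_of_injective hψ
  have h2 : Nat.card (φ.range.map ψ) ∣ Nat.card (Equiv.Perm (P : Subgroup G)) :=
    Subgroup.card_subgroup_dvd_card _
  have h3 : Nat.card φ.range = 1 := by
    rw [h1] at h2
    rw [hcard] at h2 ⊢
    exact Nat.Coprime.eq_one_of_dvd (Nat.Coprime.symm h) h2
  rw [hcard, relIndex_eq_one] at h3
  exact h3

theorem relIndex_coprime_of_sylow {G : Type*} [Group G] [Finite G] {p : ℕ} [Fact p.Prime]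
    (P : Sylow p G) (hP : IsMulCommutative (P : Subgroup G)) :
    ((centralizer (P : Set G)).relIndex (normalizer (P : Set G))).Coprime p := by
  have h1 : (P : Subgroup G) ≤ centralizer (P : Set G) := by
    intro x hx
    rw [mem_centralizer_iff]
    intro y hy
    exact congrArg Subtype.val (hP.is_comm.comm (⟨y, hy⟩ : (P : Subgroup G)) ⟨x, hx⟩)
  have h2 : (centralizer (P : Set G)).relIndex (normalizer (P : Set G)) ∣
      (P : Subgroup G).relIndex (normalizer (P : Set G)) := relIndex_dvd_of_le_left _ h1
  have h3 : (P : Subgroup G).relIndex (normalizer (P : Set G)) ∣ (P : Subgroup G).index :=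
    ⟨(normalizer (P : Set G)).index, (relIndex_mul_index Subgroup.le_normalizer).symm⟩
  exact Nat.Coprime.coprime_dvd_left (h2.trans h3) (Cfsg.Agent.Transfer.coprime_index_sylow P)

theorem relIndex_dvd_card {G : Type*} [Group G] [Finite G] (A B : Subgroup G) :
    A.relIndex B ∣ Nat.card G := (A.relIndex_dvd_card B).trans (card_subgroup_dvd_card B)


/-- A group whose Sylow 2-subgroups are Klein four-groups and whose order is prime to 3 has a normal 2-complement. -/
theorem result {G : Type*} [Group G] [Finite G] (T : Sylow 2 G) (hT : IsKleinFour T) (h3 : ¬ 3 ∣ Nat.card G) : Cfsg.HasNormalPComplement 2 G := by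
  have hTc : IsMulCommutative (T : Subgroup G) := by
    haveI : IsKleinFour (T : Subgroup G) := hT
    exact IsKleinFour.isMulCommutative
  apply Cfsg.Agent.Transfer.hasNPC_of_normalizer_le_centralizer T
  apply normalizer_le_centralizer_of T hTc
  have hcard : Nat.card (T : Subgroup G) = 4 := hT.card_four
  have h24 : Nat.card (Equiv.Perm T) = 24 := by
    have : Nat.card (Equiv.Perm (T : Subgroup G)) = (Nat.card (T : Subgroup G)).factorial := Nat.card_perm
    rw [hcard] at this
    exact this
  rw [h24]
  have e : (24 : ℕ) = 2 ^ 3 * 3 := by norm_num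
  rw [e]
  refine Nat.Coprime.mul_left ((relIndex_coprime_of_sylow T hTc).symm.pow_left 3) ?_
  refine (Nat.Prime.coprime_iff_not_dvd Nat.prime_three).2 ?_
  intro h
  exact h3 (h.trans (relIndex_dvd_card _ _))

end Cfsg.Agent.S0084
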