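import Cfsg.Statements.S0085
import Cfsg.Agent.H31.Avg
import Cfsg.Agent.Transfer.Frobenius

set_option autoImplicit false
open Cfsg

namespace Cfsg.Agent.S0085

open Subgroup

theorem relIndex_coprime_of_sylow {G : Type*} [Group G] [Finite G] {p : ℕ} [Fact p.Prime]
    (P : Sylow p G) (hP : IsMulCommutative (P : Subgroup G)) :
    ((centralizer (P : Set G)).relIndex (normalizer (P : Set G))).Coprime p := by
  have h1 : (P : Subgroup G) ≤ centralizer (P : Set G) := by
    intro x hx
    rw [mem_centralizer_iff]
    intro y hy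
    exact congrArg Subtype.val (hP.is_comm.comm (⟨y, hy⟩ : (P : Subgroup G)) ⟨x, hx⟩)
  have h2 : (centralizer (P : Set G)).relIndex (normalizer (P : Set G)) ∣
      (P : Subgroup G).relIndex (normalizer (P : Set G)) := relIndex_dvd_of_le_left _ h1
  have h3 : (P : Subgroup G).relIndex (normalizer (P : Set G)) ∣ (P : Subgroup G).index :=
    ⟨(normalizer (P : Set G)).index, (relIndex_mul_index Subgroup.le_normalizer).symm⟩
  exact Nat.Coprime.coprime_dvd_left (h2.trans h3) (Cfsg.Agent.Transfer.coprime_index_sylow P)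

theorem relIndex_dvd_card {G : Type*} [Group G] [Finite G] (A B : Subgroup G) :
    A.relIndex B ∣ Nat.card G := (A.relIndex_dvd_card B).trans (card_subgroup_dvd_card B)

/-- An automorphism of a group of order 8 whose 5th power is trivial is trivial. -/
theorem aut_eq_one {A : Type*} [Group A] [Finite A] (h8 : Nat.card A = 8) (f : MulAut A)
    (hf : f ^ 5 = 1) : f = 1 := by
  classical
  haveI : Fact (Nat.Prime 5) := ⟨by norm_num⟩
  have hz : IsPGroup 5 (zpowers f) := by
    rintro ⟨g, hg⟩
    obtain ⟨k, rfl⟩ := mem_zpowers_iff.1 hg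
    refine ⟨1, ?_⟩
    apply Subtype.ext
    change (f ^ k) ^ (5 ^ 1) = 1
    rw [pow_one, ← zpow_natCast, zpow_comm]
    rw [zpow_natCast, hf, one_zpow]
  have h := hz.card_modEq_card_fixedPoints A
  rw [h8] at h
  let F : Subgroup A :=
    { carrier := {a | f a = a}
      one_mem' := map_one f
      mul_mem' := by intro a b ha hb; change f (a * b) = a * b; rw [map_mul, ha, hb]
      inv_mem' := by intro a ha; change f a⁻¹ = a⁻¹; rw [map_inv, ha] }
  have hF : MulAction.fixedPoints (zpowers f) A = (F : Set A) := by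
    ext a
    constructor
    · intro ha
      exact ha ⟨f, mem_zpowers f⟩
    · intro ha
      rintro ⟨g, hg⟩
      change g a = a
      have hs : f ∈ MulAction.stabilizer (MulAut A) a := ha
      exact (zpowers_le.2 hs) hg
  have hc : Nat.card (MulAction.fixedPoints (zpowers f) A) = Nat.card F := by
    rw [hF]; rfl
  rw [hc] at h
  have hd : Nat.card F ∣ 8 := by rw [← h8]; exact card_subgroup_dvd_card F
  have hF8 : Nat.card F = 8 := by
    have hle := Nat.le_of_dvd (by norm_num) hd
    have hpos : 0 < Nat.card F := Nat.card_pos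
    unfold Nat.ModEq at h
    interval_cases (Nat.card F) <;> simp_all <;> omega
  have htop : F = ⊤ := by
    rw [← Subgroup.card_eq_iff_eq_top, hF8, h8]
  ext a
  have : a ∈ F := by rw [htop]; exact mem_top a
  exact this

theorem normalizer_le_centralizer_of_eight {G : Type*} [Group G] [Finite G] {p : ℕ} [Fact p.Prime]
    (P : Sylow p G) (hP : IsMulCommutative (P : Subgroup G)) (h8 : Nat.card (P : Subgroup G) = 8)
    (h : Nat.Coprime (2 ^ 7 * 3 ^ 2 * 7)
      ((centralizer (P : Set G)).relIndex (normalizer (P : Set G)))) :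
    normalizer (P : Set G) ≤ centralizer (P : Set G) := by
  classical
  set φ : normalizer (P : Set G) →* MulAut (P : Subgroup G) := (P : Subgroup G).normalizerMonoidHom
    with hφ
  have hφa : ∀ (n : normalizer (P : Set G)) (x : (P : Subgroup G)),
      ((φ n x : (P : Subgroup G)) : G) = n * x * (n : G)⁻¹ := by
    intro n x; rfl
  have hker : φ.ker = (centralizer (P : Set G)).subgroupOf (normalizer (P : Set G)) := by
    ext n
    rw [MonoidHom.mem_ker, mem_subgroupOf, mem_centralizer_iff]
    constructor
    · intro h x hx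
      have := congrArg (fun f : MulAut (P : Subgroup G) => ((f ⟨x, hx⟩ : (P : Subgroup G)) : G)) h
      simp only [hφa] at this
      have h2 : (n : G) * x * (n : G)⁻¹ = x := this
      rw [mul_inv_eq_iff_eq_mul] at h2
      exact h2.symm
    · intro h
      ext x
      rw [hφa]
      have := h x x.2
      change (n : G) * x * (n : G)⁻¹ = x
      rw [mul_inv_eq_iff_eq_mul]; exact this.symm
  have hcard : Nat.card φ.range =
      (centralizer (P : Set G)).relIndex (normalizer (P : Set G)) := by
    rw [← Subgroup.index_ker, hker]; rfl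
  let ψ : MulAut (P : Subgroup G) →* Equiv.Perm (P : Subgroup G) := MulAut.toPerm _
  have hψ : Function.Injective ψ := by
    intro f g hfg
    ext x
    exact congrArg (fun e : Equiv.Perm (P : Subgroup G) => ((e x : (P : Subgroup G)) : G)) hfg
  have h1 : Nat.card (φ.range.map ψ) = Nat.card φ.range :=
    Subgroup.card_map_of_injective hψ
  have h2 : Nat.card (φ.range.map ψ) ∣ Nat.card (Equiv.Perm (P : Subgroup G)) :=
    Subgroup.card_subgroup_dvd_card _
  have hfac : Nat.card (Equiv.Perm (P : Subgroup G)) = 5 * (2 ^ 7 * 3 ^ 2 * 7) := by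
    rw [Nat.card_perm, h8]; decide
  rw [h1, hfac] at h2
  have h3 : Nat.card φ.range ∣ 5 := by
    refine Nat.Coprime.dvd_of_dvd_mul_right ?_ h2
    rw [hcard]; exact h.symm
  have h4 : φ.range = ⊥ := by
    rw [eq_bot_iff]
    intro f hf
    rw [mem_bot]
    apply aut_eq_one h8
    have : (⟨f, hf⟩ : φ.range) ^ 5 = 1 := by
      obtain ⟨k, hk⟩ := h3
      rw [hk, pow_mul, pow_card_eq_one', one_pow]
    exact congrArg Subtype.val this
  have h5 : Nat.card φ.range = 1 := by rw [h4]; exact card_bot
  rw [hcard, relIndex_eq_one] at h5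
  exact h5


/-- A group whose Sylow 2-subgroups are elementary abelian of order 8 and whose order is prime to 3 and to 7 has a normal 2-complement. -/
theorem result {G : Type*} [Group G] [Finite G] (T : Sylow 2 G) (h8 : Nat.card T = 8) (he : ∀ x : T, x * x = 1) (h3 : ¬ 3 ∣ Nat.card G) (h7 : ¬ 7 ∣ Nat.card G) : Cfsg.HasNormalPComplement 2 G := by
  have hTc : IsMulCommutative (T : Subgroup G) := by
    refine ⟨⟨fun a b => ?_⟩⟩
    have h1 := he (a * b)
    have ha := he a
    have hb := he b
    have ha' : a⁻¹ = a := inv_eq_of_mul_eq_one_left ha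
    have hb' : b⁻¹ = b := inv_eq_of_mul_eq_one_left hb
    have hab : (a * b)⁻¹ = a * b := inv_eq_of_mul_eq_one_left h1
    rw [← hab, mul_inv_rev, ha', hb']
  apply Cfsg.Agent.Transfer.hasNPC_of_normalizer_le_centralizer T
  apply normalizer_le_centralizer_of_eight T hTc h8
  refine Nat.Coprime.mul_left (Nat.Coprime.mul_left
    ((relIndex_coprime_of_sylow T hTc).symm.pow_left 7) (Nat.Coprime.pow_left 2 ?_)) ?_
  · refine (Nat.Prime.coprime_iff_not_dvd Nat.prime_three).2 ?_
    intro h
    exact h3 (h.trans (relIndex_dvd_card _ _))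
  · refine (Nat.Prime.coprime_iff_not_dvd (by norm_num)).2 ?_
    intro h
    exact h7 (h.trans (relIndex_dvd_card _ _))

end Cfsg.Agent.S0085
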