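import Cfsg.Statements.S0087
import Cfsg.Agent.H31.Avg
import Cfsg.Agent.Transfer.Frobenius
import Cfsg.Agent.Hall.Basic

set_option autoImplicit false
open Cfsg

namespace Cfsg.Agent.S0087

open Subgroup
open scoped Pointwise

universe u

theorem le_centralizer_of_hall (n : ℕ) : ∀ {G : Type u} [Group G] [Finite G], Nat.card G = n →
    ∀ (H : Subgroup G), Nat.Coprime (Nat.card H) H.index →
    normalizer (H : Set G) ≤ centralizer (H : Set G) →
    ∃ N : Subgroup G, N.Normal ∧ N.IsComplement' H := by
  induction n using Nat.strong_induction_on with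
  | _ n ih =>
  intro G _ _ hn H hHall h
  have hHc : H ≤ centralizer (H : Set G) := Subgroup.le_normalizer.trans h
  apply Cfsg.Agent.Transfer.exists_normal_complement_of_forall_hasNPC hHall
  intro p hp hpH
  haveI : Fact p.Prime := ⟨hp⟩
  -- a Sylow p-subgroup of G inside H
  have hpi : (H.index).Coprime p := (Nat.Coprime.coprime_dvd_left hpH hHall).symm
  obtain ⟨R⟩ : Nonempty (Sylow p H) := inferInstance
  have hRind : ¬ p ∣ ((R : Subgroup H).map H.subtype).index := by
    rw [Subgroup.index_map_subtype]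
    intro hd
    rcases (Nat.Prime.dvd_mul hp).1 hd with hd | hd
    · exact R.not_dvd_index hd
    · exact hp.ne_one (Nat.Coprime.eq_one_of_dvd hpi.symm hd)
  have hRp : IsPGroup p ((R : Subgroup H).map H.subtype) := R.2.map _
  let P : Sylow p G := hRp.toSylow hRind
  have hPH : (P : Subgroup G) ≤ H := by
    change (R : Subgroup H).map H.subtype ≤ H
    exact Subgroup.map_subtype_le _
  apply Cfsg.Agent.Transfer.hasNPC_of_normalizer_le_centralizer P
  set C := centralizer ((P : Subgroup G) : Set G) with hC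
  have hHC : H ≤ C := hHc.trans (centralizer_le hPH)
  rcases eq_or_ne C ⊤ with hCt | hCt
  · have : centralizer (P : Set G) = ⊤ := hCt
    rw [this]; exact le_top
  -- complement in C
  have hcardC : Nat.card C < n := by
    rw [← hn]
    exact lt_of_le_of_ne (Subgroup.card_le_card_group C) (fun h' => hCt ((Subgroup.card_eq_iff_eq_top C).1 h'))
  have hHallC : Nat.Coprime (Nat.card (H.subgroupOf C)) (H.subgroupOf C).index := by
    have h1 : Nat.card (H.subgroupOf C) = Nat.card H :=
      Nat.card_congr (subgroupOfEquivOfLe hHC).toEquiv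
    rw [h1]
    have h2 : (H.subgroupOf C).index ∣ H.index := by
      change H.relIndex C ∣ H.index
      exact ⟨C.index, (relIndex_mul_index hHC).symm⟩
    exact Nat.Coprime.coprime_dvd_right h2 hHall
  have hnormC : normalizer ((H.subgroupOf C : Subgroup C) : Set C) ≤
      centralizer ((H.subgroupOf C : Subgroup C) : Set C) := by
    intro x hx
    have hx' : (x : G) ∈ normalizer (H : Set G) := by
      refine mem_normalizer_iff.2 ?_
      intro y
      constructor
      · intro hy
        have := (mem_normalizer_iff.1 hx ⟨y, hHC hy⟩).1 (mem_subgroupOf.2 hy)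
        exact mem_subgroupOf.1 this
      · intro hy
        have hyC : y ∈ C := by
          have h1 := C.mul_mem (C.mul_mem (C.inv_mem x.2) (hHC hy)) x.2
          have e : (x : G)⁻¹ * (x * y * (x : G)⁻¹) * x = y := by group
          rwa [e] at h1
        have := (mem_normalizer_iff.1 hx ⟨y, hyC⟩).2 (mem_subgroupOf.2 hy)
        exact mem_subgroupOf.1 this
    have hx2 := h hx'
    refine mem_centralizer_iff.2 ?_
    intro y hy
    apply Subtype.ext
    exact mem_centralizer_iff.1 hx2 y (mem_subgroupOf.1 hy)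
  obtain ⟨M, hM, hMc⟩ := ih _ hcardC rfl (H.subgroupOf C) hHallC hnormC
  intro g hg
  -- the conjugate of H by g lies in C
  have hgC : MulAut.conj g • H ≤ C := by
    intro x hx
    rw [Cfsg.Agent.Hall.mem_conj_smul] at hx
    refine mem_centralizer_iff.2 ?_
    intro y hy
    have h1 : g⁻¹ * y * g ∈ (P : Subgroup G) := by
      have := (mem_normalizer_iff.1 (Subgroup.inv_mem _ hg) y).1 hy
      rwa [inv_inv] at this
    have h2 := mem_centralizer_iff.1 (hHC hx) _ h1
    have h3 : g * ((g⁻¹ * y * g) * (g⁻¹ * x * g)) * g⁻¹ = g * ((g⁻¹ * x * g) * (g⁻¹ * y * g)) * g⁻¹ := by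
      rw [h2]
    have e1 : g * ((g⁻¹ * y * g) * (g⁻¹ * x * g)) * g⁻¹ = y * x := by group
    have e2 : g * ((g⁻¹ * x * g) * (g⁻¹ * y * g)) * g⁻¹ = x * y := by group
    rwa [e1, e2] at h3
  have hMcop : (Nat.card M).Coprime M.index := by
    have h1 := hMc.index_eq_card
    have h2 := hMc.symm.index_eq_card
    rw [h1.symm, h2]
    exact hHallC.symm
  have hMc' : M.IsComplement' ((MulAut.conj g • H).subgroupOf C) := by
    rw [Cfsg.Agent.Hall.isComplement'_iff_of_coprime hMcop]
    have h1 : Nat.card ((MulAut.conj g • H).subgroupOf C) = Nat.card (MulAut.conj g • H : Subgroup G) :=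
      Nat.card_congr (subgroupOfEquivOfLe hgC).toEquiv
    rw [h1, Cfsg.Agent.Hall.card_conj_smul]
    have h2 := hMc.symm.index_eq_card
    rw [h2]
    exact (Nat.card_congr (subgroupOfEquivOfLe hHC).toEquiv).symm
  have hsolv : Group.IsSolvable (C ⧸ M) := by
    have hHsolv : Group.IsSolvable (H.subgroupOf C) := by
      refine Group.isSolvable_of_comm ?_
      intro a b
      apply Subtype.ext
      apply Subtype.ext
      exact (mem_centralizer_iff.1 (hHc (mem_subgroupOf.1 a.2)) _ (mem_subgroupOf.1 b.2)).symm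
    exact Group.isSolvable_of_surjective (f := (QuotientGroup.mk' M).comp (H.subgroupOf C).subtype) (by
      intro y
      obtain ⟨x, rfl⟩ := QuotientGroup.mk'_surjective _ y
      obtain ⟨⟨m, b⟩, hmb⟩ := hMc.2 x
      refine ⟨b, ?_⟩
      have : x = m * b := hmb.symm
      rw [this, map_mul]
      have hm1 : (QuotientGroup.mk' M) (m : C) = 1 := (QuotientGroup.eq_one_iff _).2 m.2
      rw [hm1, one_mul]
      rfl)
  obtain ⟨c, hc⟩ := Cfsg.Agent.Hall.sz_conj M hMcop (Or.inr hsolv) _ _ hMc hMc'
  have hc' : MulAut.conj (c : G) • H = MulAut.conj g • H :=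
    Cfsg.Agent.Hall.conj_of_subgroupOf hHC hgC c hc
  have h5 : (c : G)⁻¹ * g ∈ normalizer (H : Set G) := by
    have h6 : MulAut.conj ((c : G)⁻¹ * g) • H = H := by
      rw [map_mul, mul_smul, ← hc', smul_smul, ← map_mul, inv_mul_cancel, map_one, one_smul]
    refine Subgroup.mem_normalizer_iff.2 ?_
    intro x
    have h7 := Subgroup.ext_iff.1 h6 (((c : G)⁻¹ * g) * x * ((c : G)⁻¹ * g)⁻¹)
    rw [Cfsg.Agent.Hall.mem_conj_smul] at h7
    rw [← h7]
    simp [mul_assoc]
  have h6 : (c : G)⁻¹ * g ∈ C := (centralizer_le hPH) (h h5)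
  have := C.mul_mem c.2 h6
  rwa [mul_inv_cancel_left] at this


/-- A Hall subgroup that is central in its normalizer has a normal complement. -/
theorem result {G : Type*} [Group G] [Finite G] (H : Subgroup G) (hHall : Nat.Coprime (Nat.card H) H.index) (h : Subgroup.normalizer (H : Set G) ≤ Subgroup.centralizer (H : Set G)) : ∃ N : Subgroup G, N.Normal ∧ N.IsComplement' H := by
  exact le_centralizer_of_hall _ rfl H hHall h

end Cfsg.Agent.S0087
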