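import Cfsg.Statements.S0090
import Cfsg.Agent.H31.Avg
import Cfsg.Agent.Transfer.Frobenius

set_option autoImplicit false
open Cfsg

namespace Cfsg.Agent.S0090


/-- An abelian normal Hall subgroup A splits as the internal direct product of G' ∩ A and Z(G) ∩ A, and [A, G] = G' ∩ A. -/
theorem result {G : Type*} [Group G] [Finite G] (A : Subgroup G) [A.Normal] (hc : IsMulCommutative A) (hHall : Nat.Coprime (Nat.card A) A.index) : ⁅A, (⊤ : Subgroup G)⁆ = commutator G ⊓ A ∧ (commutator G ⊓ A) ⊓ (Subgroup.center G ⊓ A) = ⊥ ∧ (commutator G ⊓ A) ⊔ (Subgroup.center G ⊓ A) = A := by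
  have hN : (⊤ : Subgroup G) ≤ Subgroup.normalizer (A : Set G) := by
    rw [Subgroup.normalizer_eq_top]
  obtain ⟨h1, h2⟩ := Cfsg.Agent.H31.abelian_hall_coprime A ⊤ hc hHall le_top hN
  have hcen : Subgroup.centralizer ((⊤ : Subgroup G) : Set G) = Subgroup.center G := by
    rw [Subgroup.coe_top, Subgroup.centralizer_univ]
  rw [hcen] at h1 h2
  have hle : ⁅A, (⊤ : Subgroup G)⁆ ≤ commutator G ⊓ A := by
    refine le_inf ?_ (Subgroup.commutator_le_left A ⊤)
    rw [commutator_def]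
    exact Subgroup.commutator_mono le_top le_rfl
  have hbot := Cfsg.Agent.H31.abelian_hall_inf_commutator_inf_center A hc hHall
  have hbot' : (commutator G ⊓ A) ⊓ (Subgroup.center G ⊓ A) = ⊥ := by
    rw [← hbot]
    apply le_antisymm
    · rintro x ⟨⟨hx1, hx2⟩, hx3, _⟩
      exact ⟨⟨hx2, hx1⟩, hx3⟩
    · rintro x ⟨⟨hx1, hx2⟩, hx3⟩
      exact ⟨⟨hx2, hx1⟩, hx3, hx1⟩
  have heq : ⁅A, (⊤ : Subgroup G)⁆ = commutator G ⊓ A := by
    apply le_antisymm hle
    intro x hx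
    have hxA : x ∈ (A ⊓ Subgroup.center G) ⊔ ⁅A, (⊤ : Subgroup G)⁆ := by rw [h2]; exact hx.2
    haveI : (⁅A, (⊤ : Subgroup G)⁆).Normal := Subgroup.commutator_normal A ⊤
    obtain ⟨c, hc', d, hd, rfl⟩ := Subgroup.mem_sup_of_normal_right.1 hxA
    have hcG : c ∈ commutator G ⊓ A := by
      have : c = (c * d) * d⁻¹ := by group
      rw [this]
      exact Subgroup.mul_mem _ hx (Subgroup.inv_mem _ (hle hd))
    have hc1 : c ∈ (commutator G ⊓ A) ⊓ (Subgroup.center G ⊓ A) := ⟨hcG, hc'.2, hc'.1⟩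
    rw [hbot', Subgroup.mem_bot] at hc1
    rw [hc1, one_mul]; exact hd
  refine ⟨heq, hbot', ?_⟩
  rw [← heq, sup_comm, inf_comm]
  exact h2

end Cfsg.Agent.S0090
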