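import Cfsg.Statements.S0091
import Cfsg.Agent.H31.Avg
import Cfsg.Agent.Transfer.Frobenius

set_option autoImplicit false
open Cfsg

namespace Cfsg.Agent.S0091


/-- If a nontrivial Sylow p-subgroup controls its own fusion then it is not contained in the derived subgroup. -/
theorem result {G : Type*} [Group G] [Finite G] {p : ℕ} [Fact p.Prime] (P : Sylow p G) (hp : p ∣ Nat.card G) (h : ∀ x ∈ P, ∀ y ∈ P, (∃ g : G, g * x * g⁻¹ = y) → ∃ z ∈ P, z * x * z⁻¹ = y) : ¬ (P : Subgroup G) ≤ commutator G := by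
  intro hle
  have hctl : Cfsg.Agent.Transfer.ControlsFusion (P : Subgroup G) (P : Subgroup G) := by
    intro x hx g hg
    obtain ⟨z, hz, hzx⟩ := h x hx _ hg ⟨g, rfl⟩
    exact ⟨z, hz, hzx⟩
  have h1 := Cfsg.Agent.Transfer.commutator_inf_eq_of_control' le_rfl hctl
  have h2 : (P : Subgroup G) ≤ ⁅(P : Subgroup G), (P : Subgroup G)⁆ := by
    intro x hx
    have : x ∈ commutator G ⊓ (P : Subgroup G) := ⟨hle hx, hx⟩
    rw [h1] at this
    exact this.1
  have h3 := Cfsg.Agent.Transfer.eq_bot_of_le_commutator_of_isNilpotent P.2.isNilpotent le_rfl h2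
  exact P.ne_bot_of_dvd_card hp h3

end Cfsg.Agent.S0091
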