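import Cfsg.Statements.S0092
import Cfsg.Agent.H31.Avg
import Cfsg.Agent.Transfer.Frobenius
import Cfsg.Agent.Hall.Basic

set_option autoImplicit false
open Cfsg

namespace Cfsg.Agent.S0092

open Subgroup
open scoped Pointwise


/-- If the Sylow p-subgroups of O^p(G) are abelian then G splits over O^p(G). -/
theorem result {G : Type*} [Group G] [Finite G] {p : ℕ} [Fact p.Prime] (h : ∀ Q : Sylow p (Cfsg.pResidual p G), IsMulCommutative Q) : ∃ K : Subgroup G, K.IsComplement' (Cfsg.pResidual p G) := by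
  classical
  set N := Cfsg.pResidual p G with hN
  have hpp : p.Prime := Fact.out
  obtain ⟨Q0⟩ : Nonempty (Sylow p N) := inferInstance
  have hQ0c : IsMulCommutative (Q0 : Subgroup N) := h Q0
  -- Q0 = [Q0, N_N(Q0)], C_{Q0}(N_N(Q0)) = 1
  obtain ⟨h1, h2⟩ := Cfsg.Agent.H31.abelian_hall_coprime (Q0 : Subgroup N)
    (Subgroup.normalizer (Q0 : Set N)) hQ0c Q0.card_coprime_index Subgroup.le_normalizer le_rfl
  have h3 := Cfsg.Agent.Transfer.inf_pResidual_eq_of_isMulCommutative Q0 hQ0c
  have h30 : Cfsg.pResidual p N = ⊤ := Cfsg.Agent.Transfer.pResidual_pResidual p G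
  rw [h30, inf_top_eq] at h3
  rw [← h3, inf_right_comm, inf_idem] at h1
  set Q : Subgroup G := (Q0 : Subgroup N).map N.subtype with hQ
  have hQN : Q ≤ N := Subgroup.map_subtype_le _
  have hQp : IsPGroup p Q := Q0.2.map _
  have hQc : IsMulCommutative Q := by
    refine ⟨⟨?_⟩⟩
    rintro ⟨_, a, ha, rfl⟩ ⟨_, b, hb, rfl⟩
    apply Subtype.ext
    have := congrArg Subtype.val (hQ0c.is_comm.comm (⟨a, ha⟩ : (Q0 : Subgroup N)) ⟨b, hb⟩)
    exact congrArg (Subtype.val : N → G) this
  -- L = N_G(Q), first Frattini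
  set L := Subgroup.normalizer (Q : Set G) with hL
  have hfr : L ⊔ N = ⊤ := by
    have := Sylow.normalizer_sup_eq_top (N := N) Q0
    exact this
  -- C_Q(L ∩ N) = 1
  have hcen : ∀ x ∈ Q, (∀ y ∈ L ⊓ N, y * x = x * y) → x = 1 := by
    rintro _ ⟨x, hx, rfl⟩ hy
    have : x ∈ (Q0 : Subgroup N) ⊓ Subgroup.centralizer ((Subgroup.normalizer (Q0 : Set N) : Subgroup N) : Set N) := by
      refine ⟨hx, Subgroup.mem_centralizer_iff.2 ?_⟩
      intro y hyn
      apply Subtype.ext
      apply hy (y : G)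
      refine Subgroup.mem_inf.2 ⟨?_, y.2⟩
      refine Subgroup.mem_normalizer_iff.2 ?_
      intro w
      constructor
      · rintro ⟨v, hv, rfl⟩
        exact ⟨y * v * y⁻¹, (Subgroup.mem_normalizer_iff.1 hyn v).1 hv, rfl⟩
      · rintro ⟨v, hv, hvw⟩
        refine ⟨y⁻¹ * v * y, ?_, ?_⟩
        · refine (Subgroup.mem_normalizer_iff.1 hyn _).2 ?_
          have e : y * (y⁻¹ * v * y) * y⁻¹ = v := by group
          rw [e]; exact hv
        · have hvw' : (v : G) = y * w * (y : G)⁻¹ := hvw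
          change (y : G)⁻¹ * v * y = w
          rw [hvw']; group
    rw [h1, Subgroup.mem_bot] at this
    rw [this]; rfl
  -- M: complement of Q in L ∩ N
  have hQL : Q ≤ L ⊓ N := le_inf Subgroup.le_normalizer hQN
  set D := L ⊓ N with hD
  have hQn : (Q.subgroupOf D).Normal := by
    have : D ≤ Subgroup.normalizer (Q : Set G) := inf_le_left
    exact Subgroup.normal_subgroupOf_of_le_normalizer this
  have hcopQ : (Nat.card Q).Coprime (Q.relIndex D) := by
    have h5 : Q.relIndex N = (Q0 : Subgroup N).index := by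
      rw [Subgroup.relIndex, hQ, Subgroup.subgroupOf, Subgroup.comap_map_eq_self_of_injective N.subtype_injective]
    have h6 : Q.relIndex D ∣ Q.relIndex N := by
      have hDN : D ≤ N := inf_le_right
      exact ⟨D.relIndex N, (Subgroup.relIndex_mul_relIndex _ _ _ hQL hDN).symm⟩
    rw [h5] at h6
    refine Nat.Coprime.coprime_dvd_right h6 ?_
    have h7 : Nat.card Q = Nat.card (Q0 : Subgroup N) :=
      Subgroup.card_map_of_injective N.subtype_injective
    rw [h7]
    exact Q0.card_coprime_index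
  obtain ⟨M0, hM0⟩ : ∃ M0 : Subgroup D, M0.IsComplement' (Q.subgroupOf D) := by
    apply Subgroup.exists_left_complement'_of_coprime
    have : Nat.card (Q.subgroupOf D) = Nat.card Q := Nat.card_congr (Subgroup.subgroupOfEquivOfLe hQL).toEquiv
    rw [this]
    exact hcopQ
  set M : Subgroup G := M0.map D.subtype with hM
  have hMD : M ≤ D := Subgroup.map_subtype_le _
  have hMcard : Nat.card M = Q.relIndex D := by
    have h8 : Nat.card M = Nat.card M0 := Subgroup.card_map_of_injective D.subtype_injective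
    rw [h8]
    exact hM0.index_eq_card.symm ▸ rfl
  -- R = N_L(M)
  set R := L ⊓ Subgroup.normalizer (M : Set G) with hR
  have hQM : D = Q ⊔ M := by
    apply le_antisymm
    · intro x hx
      obtain ⟨⟨m, q⟩, hmq⟩ := hM0.2 ⟨x, hx⟩
      have hxe : x = (m : D) * (q : D) := (congrArg Subtype.val hmq).symm
      rw [hxe]
      refine Subgroup.mul_mem _ (Subgroup.mem_sup_right ⟨m, m.2, rfl⟩) (Subgroup.mem_sup_left ?_)
      exact Subgroup.mem_subgroupOf.1 q.2
    · exact sup_le hQL hMD
  have hMQ : ∀ x ∈ M, x ∈ Q → x = 1 := by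
    intro x hxM hxQ
    have h9 : (Nat.card Q).Coprime (Nat.card M) := by rw [hMcard]; exact hcopQ
    have : x ∈ Q ⊓ M := ⟨hxQ, hxM⟩
    rw [Subgroup.inf_eq_bot_of_coprime h9, Subgroup.mem_bot] at this
    exact this
  have hRQ : ∀ x ∈ R, x ∈ Q → x = 1 := by
    intro x hxR hxQ
    apply hcen x hxQ
    intro y hy
    rw [hQM] at hy
    have hQM2 : ∀ m ∈ M, m * x = x * m := by
      intro m hm
      have h10 : x * m * x⁻¹ * m⁻¹ ∈ M :=
        M.mul_mem ((Subgroup.mem_normalizer_iff.1 hxR.2 m).1 hm) (M.inv_mem hm)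
      have hmL : m ∈ L := (hMD hm).1
      have h11 : m * x⁻¹ * m⁻¹ ∈ Q := (Subgroup.mem_normalizer_iff.1 hmL _).1 (Q.inv_mem hxQ)
      have h12 : x * m * x⁻¹ * m⁻¹ ∈ Q := by
        have := Q.mul_mem hxQ h11
        simpa [mul_assoc] using this
      have h13 := hMQ _ h10 h12
      have h14 : x * m = m * x := by
        have := congrArg (· * m * x) h13
        simpa [mul_assoc] using this
      exact h14.symm
    have hcc : Q ⊔ M ≤ Subgroup.centralizer {x} := by
      refine sup_le ?_ ?_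
      · intro q hq
        rw [Subgroup.mem_centralizer_singleton_iff]
        exact congrArg Subtype.val (hQc.is_comm.comm (⟨q, hq⟩ : Q) ⟨x, hxQ⟩)
      · intro m hm
        rw [Subgroup.mem_centralizer_singleton_iff]
        exact hQM2 m hm
    have := hcc hy
    rw [Subgroup.mem_centralizer_singleton_iff] at this
    exact this
  -- L = Q R
  have hDnorm : ∀ l ∈ L, MulAut.conj l • D = D := by
    intro l hl
    rw [hD, Subgroup.smul_inf, Cfsg.Agent.Hall.conj_smul_normal l N]
    congr 1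
    exact Subgroup.conj_smul_eq_self_of_mem hl
  have hLQR : ∀ l ∈ L, ∃ q ∈ Q, q * l ∈ R := by
    intro l hl
    have hMl : MulAut.conj l • M ≤ D := by
      rw [← hDnorm l hl]
      exact Cfsg.Agent.Hall.conj_smul_mono hMD
    obtain ⟨q, hq, hqc⟩ := Cfsg.Agent.Hall.sz_conj_rel Q D hQL inf_le_left hcopQ
      (by
        refine Group.isSolvable_of_comm ?_
        intro a b
        exact hQc.is_comm.comm a b) (MulAut.conj l • M) M hMl hMD
      (by rw [Cfsg.Agent.Hall.card_conj_smul, hMcard]) hMcard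
    refine ⟨q, hq, ?_⟩
    refine Subgroup.mem_inf.2 ⟨L.mul_mem (hQL hq).1 hl, ?_⟩
    rw [Cfsg.Agent.Hall.conj_smul_conj_smul] at hqc
    refine Subgroup.mem_normalizer_iff.2 ?_
    intro x
    have h7 := Subgroup.ext_iff.1 hqc ((q * l) * x * (q * l)⁻¹)
    rw [Cfsg.Agent.Hall.mem_conj_smul] at h7
    rw [← h7]
    simp [mul_assoc]
  -- R ∩ N is a p'-group
  have hRN : ∀ x ∈ R, x ∈ N → (∃ k, orderOf x = p ^ k) → x = 1 := by
    rintro x hxR hxN ⟨k, hk⟩
    apply hRQ x hxR
    -- x is a p-element of N_N(Q)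
    have h15 : (⟨x, hxN⟩ : N) ∈ Subgroup.normalizer (Q0 : Set N) := by
      refine Subgroup.mem_normalizer_iff.2 ?_
      intro y
      have h16 := Subgroup.mem_normalizer_iff.1 hxR.1 (y : G)
      constructor
      · intro hy
        obtain ⟨v, hv, hv2⟩ := h16.1 ⟨y, hy, rfl⟩
        have : v = (⟨x, hxN⟩ : N) * y * (⟨x, hxN⟩ : N)⁻¹ := Subtype.ext hv2
        rw [← this]; exact hv
      · intro hy
        obtain ⟨v, hv, hv2⟩ := h16.2 ⟨_, hy, rfl⟩
        have : v = y := Subtype.ext hv2
        rw [← this]; exact hv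
    have h17 := Cfsg.Agent.Transfer.mem_sylow_of_mem_normalizer h15
      (k := k) (by rw [← hk]; apply Subtype.ext; exact pow_orderOf_eq_one x)
    exact ⟨_, h17, rfl⟩
  -- K = Sylow p-subgroup of R
  obtain ⟨K0⟩ : Nonempty (Sylow p R) := inferInstance
  set K : Subgroup G := (K0 : Subgroup R).map R.subtype with hK
  have hKR : K ≤ R := Subgroup.map_subtype_le _
  have hKp : IsPGroup p K := K0.2.map _
  have hKN : K ⊓ N = ⊥ := by
    rw [eq_bot_iff]
    rintro x ⟨hxK, hxN⟩
    rw [Subgroup.mem_bot]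
    apply hRN x (hKR hxK) hxN
    obtain ⟨k, hk⟩ := IsPGroup.iff_orderOf.1 hKp (⟨x, hxK⟩ : K)
    exact ⟨k, by rw [← hk, Subgroup.orderOf_mk]⟩
  have hRNtop : R ⊔ N = ⊤ := by
    rw [eq_top_iff, ← hfr]
    refine sup_le ?_ le_sup_right
    intro l hl
    obtain ⟨q, hq, hqr⟩ := hLQR l hl
    have : l = q⁻¹ * (q * l) := by group
    rw [this]
    exact Subgroup.mul_mem _ (Subgroup.mem_sup_right (N.inv_mem (hQN hq))) (Subgroup.mem_sup_left hqr)
  obtain ⟨k, hk⟩ := Cfsg.Agent.Transfer.index_pResidual_eq_pow (p := p) (G := G)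
  have hk' : N.index = p ^ k := hk
  have hidx : N.relIndex R = p ^ k := by
    rw [← Subgroup.relIndex_sup_right, hRNtop, Subgroup.relIndex_top_right, hk']
  have hKcard : Nat.card K = Nat.card K0 := Subgroup.card_map_of_injective R.subtype_injective
  have hd1 : p ^ k ∣ Nat.card K := by
    have h23 : p ^ k ∣ Nat.card K0 * (K0 : Subgroup R).index := by
      have : Nat.card K0 * (K0 : Subgroup R).index = Nat.card R := Subgroup.card_mul_index _
      rw [this, ← hidx]
      exact Subgroup.relIndex_dvd_card _ _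
    rw [hKcard]
    refine Nat.Coprime.dvd_of_dvd_mul_right ?_ h23
    exact (Cfsg.Agent.Transfer.coprime_index_sylow K0).symm.pow_left k
  have hd2 : Nat.card K ∣ p ^ k := by
    have h24 : N.relIndex K = Nat.card K := by
      have : N.subgroupOf K = ⊥ := by
        rw [Subgroup.subgroupOf_eq_bot, disjoint_comm, disjoint_iff]
        exact hKN
      rw [Subgroup.relIndex, this, Subgroup.index_bot]
    rw [← h24, ← hk']
    exact Subgroup.relIndex_dvd_index_of_normal _ _
  have hKc : Nat.card K = p ^ k := Nat.dvd_antisymm hd2 hd1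
  refine ⟨K, Subgroup.isComplement'_of_card_mul_and_disjoint ?_ (disjoint_iff.2 hKN)⟩
  rw [hKc, ← hk', mul_comm]
  exact Subgroup.card_mul_index N

end Cfsg.Agent.S0092
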