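import Cfsg.Statements.S0096
import Cfsg.Agent.BG.ClassTwo

set_option autoImplicit false
open Cfsg

namespace Cfsg.Agent.S0096

theorem result {P : Type*} [Group P] [Finite P] {p : ℕ} [Fact p.Prime] (hp : p ≠ 2) (hP : IsPGroup p P) (h2 : ⁅commutator P, (⊤ : Subgroup P)⁆ = ⊥) (g : P) (hg : g ∈ Subgroup.closure {x : P | x ^ p = 1}) : g ^ p = 1 := by
  refine Cfsg.Agent.BG.closure_pow_eq_one hp ?_ g hg
  intro x y z
  have h1 := Subgroup.commutator_top_right_eq_bot_iff_le_center.1 h2
  have h3 : (x * y * x⁻¹ * y⁻¹) ∈ commutator P := by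
    rw [commutator_def]
    exact Subgroup.commutator_mem_commutator (Subgroup.mem_top x) (Subgroup.mem_top y)
  exact ((Subgroup.mem_center_iff.1 (h1 h3)) z).symm

end Cfsg.Agent.S0096
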