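import Cfsg.Statements.S0101
import Cfsg.Agent.H31.Avg
import Cfsg.Agent.Transfer.Frobenius

set_option autoImplicit false
open Cfsg

namespace Cfsg.Agent.S0101

open Subgroup

theorem isMulCommutative_quotient_of_coatom {P : Type*} [Group P] [Finite P] {p : ℕ} [Fact p.Prime]
    (hP : IsPGroup p P) (M : Subgroup P) (hM : IsCoatom M) (hMn : M.Normal) :
    ∀ a b : P ⧸ M, a * b = b * a := by
  have hQ : IsPGroup p (P ⧸ M) := hP.to_quotient M
  haveI : Nontrivial (P ⧸ M) := by
    rw [QuotientGroup.nontrivial_iff]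
    exact hM.1
  haveI : Nontrivial (center (P ⧸ M)) := hQ.center_nontrivial
  have h1 : M < (center (P ⧸ M)).comap (QuotientGroup.mk' M) := by
    obtain ⟨⟨z, hz⟩, hz1⟩ := exists_ne (1 : center (P ⧸ M))
    obtain ⟨y, rfl⟩ := QuotientGroup.mk'_surjective _ z
    refine lt_of_le_of_ne ?_ ?_
    · intro x hx
      rw [mem_comap]
      have : (QuotientGroup.mk' M) x = 1 := (QuotientGroup.eq_one_iff x).2 hx
      rw [this]; exact one_mem _
    · intro he
      apply hz1
      apply Subtype.ext
      have : y ∈ M := by rw [he]; exact hz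
      exact (QuotientGroup.eq_one_iff y).2 this
  have h2 := hM.2 _ h1
  intro a b
  obtain ⟨x, rfl⟩ := QuotientGroup.mk'_surjective _ a
  have : x ∈ (center (P ⧸ M)).comap (QuotientGroup.mk' M) := by rw [h2]; exact mem_top x
  exact (mem_center_iff.1 (mem_comap.1 this) b).symm


/-- In a perfect central extension, the kernel meets each Sylow p-subgroup P inside the Frattini subgroup of P. -/
theorem result {H : Type*} {G : Type*} [Group H] [Group G] [Finite H] (σ : H →* G) (hσ : Function.Surjective σ) (hc : σ.ker ≤ Subgroup.center H) (hH : commutator H = ⊤) {p : ℕ} [Fact p.Prime] (P : Sylow p H) : σ.ker ⊓ (P : Subgroup H) ≤ (frattini P).map (P : Subgroup H).subtype := by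
  classical
  rintro z ⟨hzk, hzP⟩
  by_contra hcon
  have hz : (⟨z, hzP⟩ : P) ∉ frattini P := by
    intro h
    exact hcon ⟨⟨z, hzP⟩, h, rfl⟩
  have hex : ∃ M : Subgroup P, IsCoatom M ∧ (⟨z, hzP⟩ : P) ∉ M := by
    by_contra hno
    push Not at hno
    apply hz
    unfold frattini Order.radical
    rw [Subgroup.mem_iInf]
    intro M
    rw [Subgroup.mem_iInf]
    intro hM
    exact hno M hM
  obtain ⟨M, hM, hzM⟩ := hex
  haveI : Group.IsNilpotent P := IsPGroup.isNilpotent P.2
  have hMn : M.Normal := Subgroup.NormalizerCondition.normal_of_coatom M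
    (Group.normalizerCondition_of_isNilpotent) hM
  have hcomm := isMulCommutative_quotient_of_coatom P.2 M hM hMn
  letI : CommGroup (P ⧸ M) := { (inferInstance : Group (P ⧸ M)) with mul_comm := hcomm }
  obtain ⟨h1, h2⟩ := Cfsg.Agent.H31.central_pow_eq_one (H := (P : Subgroup H))
    (QuotientGroup.mk' M) z (hc hzk) (by rw [hH]; exact Subgroup.mem_top z)
  have h3 : (⟨z, hzP⟩ : P) ^ (P : Subgroup H).index ∈ M := by
    have : (⟨z, hzP⟩ : P) ^ (P : Subgroup H).index = ⟨z ^ (P : Subgroup H).index, h1⟩ := rfl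
    rw [this]
    exact (QuotientGroup.eq_one_iff _).1 h2
  apply hzM
  have hcop : (orderOf (⟨z, hzP⟩ : P)).Coprime (P : Subgroup H).index := by
    refine Nat.Coprime.coprime_dvd_left (orderOf_dvd_natCard _) ?_
    exact P.card_coprime_index
  obtain ⟨m, hm⟩ := exists_pow_eq_self_of_coprime hcop.symm
  rw [← hm]
  exact M.pow_mem h3 m

end Cfsg.Agent.S0101
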