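import Cfsg.Statements.S0102
import Cfsg.Agent.H31.Avg
import Cfsg.Agent.Transfer.Frobenius

set_option autoImplicit false
open Cfsg

namespace Cfsg.Agent.S0102


/-- A finite perfect group with cyclic Sylow p-subgroups has no perfect central extension whose kernel has order divisible by p. -/
theorem result {G : Type*} {H : Type*} [Group G] [Group H] [Finite G] [Finite H] (hG : commutator G = ⊤) {p : ℕ} [Fact p.Prime] (hcyc : ∀ P : Sylow p G, IsCyclic P) (σ : H →* G) (hσ : Function.Surjective σ) (hz : σ.ker ≤ Subgroup.center H) (hH : commutator H = ⊤) : ¬ p ∣ Nat.card σ.ker := by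
  classical
  intro hp
  have hpp : p.Prime := Fact.out
  -- an element of order p in the kernel
  obtain ⟨x, hx⟩ := exists_prime_orderOf_dvd_card' p hp
  have hx1 : orderOf (x : H) = p := by rw [Subgroup.orderOf_coe, hx]
  have hxp : IsPGroup p (Subgroup.zpowers (x : H)) := by
    apply IsPGroup.of_card (n := 1)
    rw [Nat.card_zpowers, hx1, pow_one]
  obtain ⟨P, hP⟩ := hxp.exists_le_sylow
  have hxP : (x : H) ∈ (P : Subgroup H) := hP (Subgroup.mem_zpowers _)
  -- P is abelian
  let Q : Sylow p G := P.mapSurjective hσ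
  have hQ : (Q : Subgroup G) = (P : Subgroup H).map σ := rfl
  have hQc : IsCyclic (Q : Subgroup G) := hcyc Q
  have hPc : IsMulCommutative (P : Subgroup H) := by
    let f : (P : Subgroup H) →* (Q : Subgroup G) :=
      (σ.subgroupMap (P : Subgroup H))
    refine ⟨⟨?_⟩⟩
    haveI : IsCyclic ((P : Subgroup H).map σ) := hQc
    apply commutative_of_cyclic_center_quotient (σ.subgroupMap (P : Subgroup H))
    intro y hy
    have hy1 : σ (y : H) = 1 := congrArg Subtype.val hy
    have hy2 : (y : H) ∈ Subgroup.center H := hz hy1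
    rw [Subgroup.mem_center_iff]
    intro w
    apply Subtype.ext
    exact Subgroup.mem_center_iff.1 hy2 w
  have h1 := Cfsg.Agent.H31.abelian_hall_inf_commutator_inf_center (P : Subgroup H) hPc
    P.card_coprime_index
  have h2 : (x : H) ∈ (P : Subgroup H) ⊓ commutator H ⊓ Subgroup.center H :=
    ⟨⟨hxP, by rw [hH]; exact Subgroup.mem_top _⟩, hz x.2⟩
  rw [h1, Subgroup.mem_bot] at h2
  rw [h2, orderOf_one] at hx1
  exact hpp.ne_one hx1.symm

end Cfsg.Agent.S0102
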