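import Cfsg.Statements.S0103
import Cfsg.Agent.H31.Avg
import Cfsg.Agent.Transfer.Frobenius

set_option autoImplicit false
open Cfsg

namespace Cfsg.Agent.S0103


/-- If a Sylow p-subgroup P intersects every distinct conjugate trivially, then its normalizer controls fusion in P. -/
theorem result {G : Type*} [Group G] [Finite G] {p : ℕ} [Fact p.Prime] (P : Sylow p G) (hTI : ∀ g : G, (P : Subgroup G).map (MulAut.conj g).toMonoidHom ≠ (P : Subgroup G) → (P : Subgroup G) ⊓ (P : Subgroup G).map (MulAut.conj g).toMonoidHom = ⊥) (x y : G) (hx : x ∈ P) (hy : y ∈ P) (hc : ∃ g : G, g * x * g⁻¹ = y) : ∃ n ∈ Subgroup.normalizer (P : Set G), n * x * n⁻¹ = y := by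
  obtain ⟨g, hg⟩ := hc
  by_cases hgP : (P : Subgroup G).map (MulAut.conj g).toMonoidHom = (P : Subgroup G)
  · refine ⟨g, ?_, hg⟩
    refine Subgroup.mem_normalizer_iff.2 ?_
    intro z
    constructor
    · intro hz
      have : g * z * g⁻¹ ∈ (P : Subgroup G).map (MulAut.conj g).toMonoidHom := ⟨z, hz, rfl⟩
      rwa [hgP] at this
    · intro hz
      have hz' : g * z * g⁻¹ ∈ (P : Subgroup G).map (MulAut.conj g).toMonoidHom := by
        rw [hgP]; exact hz
      obtain ⟨w, hw, hwz⟩ := hz'
      have : w = z := (MulAut.conj g).injective hwz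
      rw [← this]; exact hw
  · have h1 := hTI g hgP
    have h2 : y ∈ (P : Subgroup G) ⊓ (P : Subgroup G).map (MulAut.conj g).toMonoidHom :=
      ⟨hy, ⟨x, hx, hg⟩⟩
    rw [h1, Subgroup.mem_bot] at h2
    have hx1 : x = 1 := by
      rw [h2] at hg
      have : x = g⁻¹ * (g * x * g⁻¹) * g := by group
      rw [this, hg]; group
    refine ⟨1, Subgroup.one_mem _, ?_⟩
    rw [hx1, h2]; group

end Cfsg.Agent.S0103
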