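import Cfsg.Statements.S0104
import Cfsg.Agent.H31.Avg
import Cfsg.Agent.Transfer.Frobenius
import Cfsg.Agent.Hall.Basic

set_option autoImplicit false
open Cfsg

namespace Cfsg.Agent.S0104

open scoped Pointwise


/-- A subgroup Z of a Sylow p-subgroup P that is normalized by N_G(P) is weakly closed in P exactly when it is normal in every Sylow p-subgroup containing it. -/
theorem result {G : Type*} [Group G] [Finite G] {p : ℕ} [Fact p.Prime] (P : Sylow p G) (Z : Subgroup G) (hZP : Z ≤ (P : Subgroup G)) (hZN : Subgroup.normalizer (P : Set G) ≤ Subgroup.normalizer (Z : Set G)) : Cfsg.IsWeaklyClosed Z P ↔ ∀ R : Sylow p G, Z ≤ (R : Subgroup G) → (R : Subgroup G) ≤ Subgroup.normalizer (Z : Set G) := by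
  have hconj : ∀ (g : G) (A : Subgroup G), A.map (MulAut.conj g).toMonoidHom = MulAut.conj g • A := by
    intro g A; rfl
  constructor
  · rintro ⟨_, hw⟩ R hZR
    obtain ⟨g, hg⟩ := MulAction.exists_smul_eq G P R
    have hR : (R : Subgroup G) = MulAut.conj g • (P : Subgroup G) := by
      rw [← hg]; rfl
    have h1 : Z.map (MulAut.conj g⁻¹).toMonoidHom ≤ (P : Subgroup G) := by
      rw [hconj]
      intro x hx
      rw [Cfsg.Agent.Hall.mem_conj_smul] at hx
      have := hZR hx
      rw [hR, Cfsg.Agent.Hall.mem_conj_smul] at this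
      simpa [mul_assoc] using this
    have h2 := hw g⁻¹ h1
    have hgN : g ∈ Subgroup.normalizer (Z : Set G) := by
      rw [hconj] at h2
      rw [Subgroup.mem_normalizer_iff]
      intro x
      have := Subgroup.ext_iff.1 h2 x
      rw [Cfsg.Agent.Hall.mem_conj_smul, inv_inv] at this
      exact this.symm
    have hPN : (P : Subgroup G) ≤ Subgroup.normalizer (Z : Set G) :=
      Subgroup.le_normalizer.trans hZN
    intro x hx
    rw [hR, Cfsg.Agent.Hall.mem_conj_smul] at hx
    have h3 := Subgroup.mul_mem _ (Subgroup.mul_mem _ hgN (hPN hx)) (Subgroup.inv_mem _ hgN)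
    simpa [mul_assoc] using h3
  · intro h
    refine ⟨hZP, ?_⟩
    intro g hg
    rw [hconj] at hg ⊢
    have h1 : Z ≤ ((g⁻¹ • P : Sylow p G) : Subgroup G) := by
      intro z hz
      change z ∈ MulAut.conj g⁻¹ • (P : Subgroup G)
      rw [Cfsg.Agent.Hall.mem_conj_smul]
      apply hg
      rw [Cfsg.Agent.Hall.mem_conj_smul]
      simpa [mul_assoc] using hz
    have h2 := h _ h1
    have hPN : (P : Subgroup G) ≤ Subgroup.normalizer (Z : Set G) :=
      Subgroup.le_normalizer.trans hZN
    obtain ⟨n, hn⟩ := MulAction.exists_smul_eq (Subgroup.normalizer (Z : Set G))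
      (Sylow.subtype P hPN) (Sylow.subtype (g⁻¹ • P) h2)
    have h3 : ((n : G) * g) ∈ Subgroup.normalizer (Z : Set G) ∨ True := Or.inr trivial
    have hn' : MulAut.conj (n : G) • (P : Subgroup G) = MulAut.conj g⁻¹ • (P : Subgroup G) := by
      have h4 := congrArg (fun S : Sylow p (Subgroup.normalizer (Z : Set G)) =>
        (S : Subgroup (Subgroup.normalizer (Z : Set G)))) hn
      exact Cfsg.Agent.Hall.conj_of_subgroupOf hPN h2 n h4
    have h5 : g * n ∈ Subgroup.normalizer (P : Set G) := by
      have h6 : MulAut.conj (g * n) • (P : Subgroup G) = P := by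
        rw [map_mul, mul_smul, hn', smul_smul, ← map_mul, mul_inv_cancel, map_one, one_smul]
      refine Subgroup.mem_normalizer_iff.2 ?_
      intro x
      have h7 := Subgroup.ext_iff.1 h6 (g * n * x * (g * n)⁻¹)
      rw [Cfsg.Agent.Hall.mem_conj_smul] at h7
      rw [← h7]
      simp [mul_assoc]
    have h8 : g ∈ Subgroup.normalizer (Z : Set G) := by
      have := Subgroup.mul_mem _ (hZN h5) (Subgroup.inv_mem _ n.2)
      simpa using this
    ext x
    rw [Cfsg.Agent.Hall.mem_conj_smul]
    have := (Subgroup.mem_normalizer_iff.1 (Subgroup.inv_mem _ h8)) x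
    rw [inv_inv] at this
    exact this.symm

end Cfsg.Agent.S0104
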