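import Cfsg.Statements.S0107
-- import your own Cfsg.Agent.* helpers here
import Cfsg.Agent.S0111

set_option autoImplicit false
open Cfsg

namespace Cfsg.Agent.S0107

/-- The rotation subgroup of a dihedral group. -/
def rot (N : ℕ) : Subgroup (DihedralGroup N) where
  carrier := {x | ∃ i, x = DihedralGroup.r i}
  mul_mem' := by
    rintro _ _ ⟨i, rfl⟩ ⟨j, rfl⟩
    exact ⟨i + j, by simp⟩
  one_mem' := ⟨0, rfl⟩
  inv_mem' := by
    rintro _ ⟨i, rfl⟩
    exact ⟨-i, rfl⟩

theorem rot_index (N : ℕ) : (rot N).index = 2 := by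
  rw [Subgroup.index_eq_two_iff]
  refine ⟨DihedralGroup.sr 0, ?_⟩
  intro b
  rcases b with i | i
  · right
    refine ⟨⟨i, rfl⟩, ?_⟩
    rintro ⟨j, hj⟩
    rw [DihedralGroup.r_mul_sr] at hj
    cases hj
  · left
    refine ⟨⟨_, DihedralGroup.sr_mul_sr _ _⟩, ?_⟩
    rintro ⟨j, hj⟩
    cases hj

theorem rot_involution {n : ℕ} (hn : 1 ≤ n) (i : ZMod (2 ^ n)) (h : orderOf (DihedralGroup.r i) = 2) :
    i = ((2 ^ (n - 1) : ℕ) : ZMod (2 ^ n)) := by
  have h2 : (DihedralGroup.r i) ^ 2 = 1 := orderOf_dvd_iff_pow_eq_one.1 (dvd_of_eq h)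
  have h1 : i ≠ 0 := by
    rintro rfl
    rw [← DihedralGroup.one_def, orderOf_one] at h
    exact absurd h (by norm_num)
  rw [pow_two, DihedralGroup.r_mul_r, DihedralGroup.one_def] at h2
  have h3 : i + i = 0 := DihedralGroup.r.inj h2
  have : NeZero (2 ^ n) := ⟨by positivity⟩
  have h4 : i = ((i.val : ℕ) : ZMod (2 ^ n)) := (ZMod.natCast_zmod_val i).symm
  have h5 : i.val < 2 ^ n := ZMod.val_lt i
  have h6 : 0 < i.val := by
    rcases Nat.eq_zero_or_pos i.val with h0 | h0
    · exact absurd ((ZMod.val_eq_zero i).1 h0) h1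
    · exact h0
  have h7 : ((i.val + i.val : ℕ) : ZMod (2 ^ n)) = 0 := by
    push_cast
    rw [← h4]; exact h3
  rw [ZMod.natCast_eq_zero_iff] at h7
  obtain ⟨k, hk⟩ := h7
  have h8 : 2 ^ n = 2 * 2 ^ (n - 1) := by
    rw [← pow_succ']; congr 1; omega
  have h9 : k = 1 := by
    rcases k with _ | _ | k
    · omega
    · rfl
    · exfalso
      have : 2 ^ n * (k + 1 + 1) ≥ 2 ^ n * 2 := Nat.mul_le_mul_left _ (by omega)
      omega
  rw [h4]
  congr 1
  rw [h9] at hk
  omega

/-- A finite group with no nontrivial 2-group quotient and dihedral Sylow 2-subgroups of order at least 8 has a single class of involutions. -/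
theorem result {G : Type*} [Group G] [Finite G] (T : Sylow 2 G) (n : ℕ) (hn : 2 ≤ n) (hT : Nonempty ((T : Subgroup G) ≃* DihedralGroup (2 ^ n))) (hO : Cfsg.pResidual 2 G = ⊤) (x y : G) (hx : orderOf x = 2) (hy : orderOf y = 2) : ∃ g : G, g * x * g⁻¹ = y := by
  obtain ⟨e⟩ := hT
  set z : G := ((e.symm (DihedralGroup.r ((2 ^ (n - 1) : ℕ) : ZMod (2 ^ n))) : (T : Subgroup G)) : G) with hz
  -- an involution of T in the rotation group is z
  have hrot : ∀ u : (T : Subgroup G), orderOf (u : G) = 2 → e u ∈ rot (2 ^ n) → (u : G) = z := by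
    rintro u hu ⟨i, hi⟩
    have h1 : orderOf (DihedralGroup.r i) = 2 := by
      rw [← hi, MulEquiv.orderOf_eq, Subgroup.orderOf_coe] at *
      exact hu
    have h2 := rot_involution (by omega) i h1
    rw [hz, ← h2, ← hi, MulEquiv.symm_apply_apply]
  have hconj : ∀ (a g : G), orderOf (g * a * g⁻¹) = orderOf a := by
    intro a g
    have := MulEquiv.orderOf_eq (MulAut.conj g) a
    simpa using this
  have key : ∀ u : G, orderOf u = 2 → ∃ g : G, g * u * g⁻¹ = z := by
    intro u hu
    -- move into T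
    have hp : IsPGroup 2 (Subgroup.zpowers u) := by
      apply IsPGroup.of_card (n := 1)
      rw [Nat.card_zpowers, hu, pow_one]
    obtain ⟨S, hS⟩ := hp.exists_le_sylow
    obtain ⟨g, hg⟩ := MulAction.exists_smul_eq G S T
    have hu1 : g * u * g⁻¹ ∈ (T : Subgroup G) := by
      rw [← hg]
      exact Subgroup.smul_mem_pointwise_smul u (MulAut.conj g) (S : Subgroup G) (hS (Subgroup.mem_zpowers u))
    have hu2 : orderOf (g * u * g⁻¹) = 2 := by rw [hconj]; exact hu
    by_cases hr : e ⟨g * u * g⁻¹, hu1⟩ ∈ rot (2 ^ n)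
    · exact ⟨g, hrot ⟨g * u * g⁻¹, hu1⟩ hu2 hr⟩
    · set Q : Subgroup G := ((rot (2 ^ n)).comap e.toMonoidHom).map (T : Subgroup G).subtype with hQ
      have hQT : Q ≤ (T : Subgroup G) := Subgroup.map_subtype_le _
      have hQi : Q.relIndex (T : Subgroup G) = 2 := by
        rw [Subgroup.relIndex, hQ, Subgroup.subgroupOf, Subgroup.comap_map_eq_self_of_injective (Subgroup.subtype_injective _)]
        rw [Subgroup.index_comap_of_surjective _ e.surjective, rot_index]
      have hnot : g * u * g⁻¹ ∉ Q := by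
        rintro ⟨t, ht, ht'⟩
        apply hr
        have : t = ⟨g * u * g⁻¹, hu1⟩ := Subtype.ext ht'
        rw [← this]
        exact ht
      rcases S0111.result T Q hQT hQi (g * u * g⁻¹) hu2 hu1 hnot with ⟨M, hM, hMi, hMu⟩ | ⟨k, hk⟩
      · exfalso
        apply hMu
        have : Cfsg.pResidual 2 G ≤ M := by
          rw [Cfsg.pResidual, Subgroup.closure_le]
          intro a ha
          have ha' : Nat.Coprime (orderOf a) 2 := ha
          have h1 : (QuotientGroup.mk a : G ⧸ M) ^ 2 = 1 := by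
            have : Nat.card (G ⧸ M) = 2 := hMi
            rw [← this]
            exact pow_card_eq_one'
          have h2 : (QuotientGroup.mk a : G ⧸ M) ^ (orderOf a) = 1 := by
            rw [← QuotientGroup.mk_pow, pow_orderOf_eq_one, QuotientGroup.mk_one]
          have h3 : (QuotientGroup.mk a : G ⧸ M) = 1 := by
            rw [← orderOf_eq_one_iff]
            exact Nat.eq_one_of_dvd_coprimes ha' (orderOf_dvd_of_pow_eq_one h2) (orderOf_dvd_of_pow_eq_one h1)
          exact (QuotientGroup.eq_one_iff a).1 h3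
        rw [hO] at this
        exact this (Subgroup.mem_top _)
      · obtain ⟨t, ht, ht'⟩ := hk
        refine ⟨k * g, ?_⟩
        have h1 : (t : G) = k * g * u * (k * g)⁻¹ := by
          have : (t : G) = k * (g * u * g⁻¹) * k⁻¹ := ht'
          rw [this]; group
        rw [← h1]
        apply hrot t _ ht
        rw [h1, hconj]; exact hu
  obtain ⟨a, ha⟩ := key x hx
  obtain ⟨b, hb⟩ := key y hy
  refine ⟨b⁻¹ * a, ?_⟩
  have : b⁻¹ * a * x * (b⁻¹ * a)⁻¹ = b⁻¹ * (a * x * a⁻¹) * b := by group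
  rw [this, ha, ← hb]
  group

end Cfsg.Agent.S0107
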