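import Cfsg.Statements.S0114
import Mathlib
import Cfsg.Agent.MaxClass.TwoGroups

set_option autoImplicit false
open Cfsg

namespace Cfsg.Agent.S0114

/-- The central quotient of a 2-group of maximal class is dihedral. -/
theorem result {X : Type*} [Group X] [Finite X] (n : ℕ) (hn : 3 ≤ n) (hX : Nat.card X = 2 ^ n) (hc : Group.nilpotencyClass X = n - 1) : Nonempty (X ⧸ Subgroup.center X ≃* DihedralGroup (2 ^ (n - 2))) := by
  have hp : Fact (Nat.Prime 2) := ⟨Nat.prime_two⟩
  exact Cfsg.Agent.MaxClass.center_quotient_dihedral hn hX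
    (Cfsg.Agent.MaxClass.index_commutator_of_maxClass (p := 2) (by omega) hX hc)

end Cfsg.Agent.S0114
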