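import Cfsg.Statements.S0115
import Mathlib
import Cfsg.Agent.MaxClass.TwoGroups

set_option autoImplicit false
open Cfsg

namespace Cfsg.Agent.S0115

/-- A 2-group of order 2^n, n ≥ 3, is of maximal class exactly when its commutator quotient is a Klein four-group. -/
theorem result {X : Type*} [Group X] [Finite X] (n : ℕ) (hn : 3 ≤ n) (hX : Nat.card X = 2 ^ n) : Group.nilpotencyClass X = n - 1 ↔ IsKleinFour (X ⧸ commutator X) := by
  have hp : Fact (Nat.Prime 2) := ⟨Nat.prime_two⟩
  constructor
  · intro hc
    have hidx : (commutator X).index = 4 :=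
      Cfsg.Agent.MaxClass.index_commutator_of_maxClass (p := 2) (by omega) hX hc
    have hcard : Nat.card (X ⧸ commutator X) = 4 := by rw [← hidx]; rfl
    refine ⟨hcard, ?_⟩
    have hnil : Group.IsNilpotent X := (IsPGroup.of_card hX).isNilpotent
    have hncyc : ¬ IsCyclic (X ⧸ commutator X) := by
      intro h
      have h1 := Cfsg.Agent.MaxClass.commutator_eq_bot_of_isCyclic_quotient h
      rw [h1, Subgroup.index_bot, hX] at hidx
      have : 2 ^ 3 ≤ 2 ^ n := Nat.pow_le_pow_right (by norm_num) hn
      omega
    have hsq : ∀ x : X ⧸ commutator X, x ^ 2 = 1 := by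
      intro x
      have h1 : orderOf x ∣ 2 ^ 2 := by
        have := orderOf_dvd_natCard x
        rwa [hcard] at this
      obtain ⟨k, hk, hk'⟩ := (Nat.dvd_prime_pow Nat.prime_two).1 h1
      have hk2 : k ≠ 2 := by
        rintro rfl
        exact hncyc (isCyclic_of_orderOf_eq_card x (by rw [hk', hcard]; norm_num))
      apply orderOf_dvd_iff_pow_eq_one.1
      rw [hk']
      calc 2 ^ k ∣ 2 ^ 1 := pow_dvd_pow 2 (by omega)
        _ = 2 := pow_one 2
    have hdvd : Monoid.exponent (X ⧸ commutator X) ∣ 2 := Monoid.exponent_dvd_of_forall_pow_eq_one hsq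
    rcases (Nat.dvd_prime Nat.prime_two).1 hdvd with h | h
    · exfalso
      have h1 := Monoid.exp_eq_one_iff.1 h
      have h2 : Nat.card (X ⧸ commutator X) = 1 := Nat.card_of_subsingleton 1
      omega
    · exact h
  · intro h
    have hidx : (commutator X).index = 4 := h.card_four
    exact Cfsg.Agent.MaxClass.maxClass_of_index_commutator hn hX hidx

end Cfsg.Agent.S0115
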