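import Cfsg.Statements.S0118
import Cfsg.Agent.ZJ.Control

set_option autoImplicit false
open Cfsg

namespace Cfsg.Agent.S0118

/-- Glauberman's ZJ-Theorem, in the case of groups with no section isomorphic to SL(2,p), p odd: conjugation of subsets of a Sylow p-subgroup P inside P is always induced from the normalizer of Z(J(P)). -/
theorem result {G : Type*} [Group G] [Finite G] {p : ℕ} [Fact p.Prime] (hp : p ≠ 2) (hfree : ¬ ∃ (H K : Subgroup G) (hK : (K.subgroupOf H).Normal), Nonempty ((H ⧸ K.subgroupOf H) ≃* Matrix.SpecialLinearGroup (Fin 2) (ZMod p))) (P : Sylow p G) (A : Set G) (hA : A ⊆ (P : Set G)) (g : G) (hAg : (fun a => g⁻¹ * a * g) '' A ⊆ (P : Set G)) : ∃ n ∈ Subgroup.normalizer (Cfsg.centerThompsonOf p (P : Subgroup G) : Set G), ∀ a ∈ A, n⁻¹ * a * n = g⁻¹ * a * g := by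
  have hG : ¬ Cfsg.Agent.H36.QuadSL2.HasSL2Section p G := by
    intro h
    obtain ⟨H, K, hK, _, he⟩ := Cfsg.Agent.H36.QuadSL2.HasSL2Section.exists_quotient (X := G) (H := ⊤)
      (h.of_surjective (Subgroup.topEquiv (G := G)).toMonoidHom (Subgroup.topEquiv (G := G)).surjective)
    exact hfree ⟨H, K, hK, he⟩
  obtain ⟨x, hx, hx'⟩ := Cfsg.Agent.ZJ.zje_control hp hG P A hA g⁻¹ (by
    simpa using hAg)
  refine ⟨x⁻¹, inv_mem hx, fun a ha => ?_⟩
  have := hx' a ha
  rw [inv_inv] at this ⊢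
  exact this

end Cfsg.Agent.S0118
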