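import Cfsg.Statements.S0120
import Mathlib.GroupTheory.SemidirectProduct
import Cfsg.Agent.BG.OmegaOdd

set_option autoImplicit false
open Cfsg

namespace Cfsg.Agent.S0120


/-- For odd p, a p'-automorphism of a p-group acting trivially on the elements of order dividing p is trivial. -/
theorem result {G : Type*} [Group G] [Finite G] {p : ℕ} [Fact p.Prime] (hp : p ≠ 2) (hG : IsPGroup p G) (a : MulAut G) (ha : Nat.Coprime (orderOf a) p) (h : ∀ x : G, x ^ p = 1 → a x = x) : a = 1 := by
  classical
  let A : Subgroup (MulAut G) := Subgroup.zpowers a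
  let Γ := SemidirectProduct G A A.subtype
  let H : Subgroup Γ := (SemidirectProduct.inl : G →* Γ).range
  let B : Subgroup Γ := (SemidirectProduct.inr : A →* Γ).range
  haveI : Finite Γ := Finite.of_equiv (G × A) SemidirectProduct.equivProd.symm
  have hH : IsPGroup p H := by
    rintro ⟨_, g, rfl⟩
    obtain ⟨k, hk⟩ := hG g
    refine ⟨k, ?_⟩
    apply Subtype.ext
    change (SemidirectProduct.inl g : Γ) ^ p ^ k = 1
    rw [← map_pow, hk, map_one]
  have hB : (Nat.card B).Coprime p := by
    have : Nat.card B = Nat.card A :=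
      (Nat.card_congr (MonoidHom.ofInjective (f := (SemidirectProduct.inr : A →* Γ)) SemidirectProduct.inr_injective).toEquiv).symm
    rw [this, Nat.card_zpowers]
    exact ha
  have hconj : ∀ (b : A) (g : G), (SemidirectProduct.inr b : Γ) * SemidirectProduct.inl g * (SemidirectProduct.inr b)⁻¹
      = SemidirectProduct.inl ((b : MulAut G) g) := by
    intro b g
    rw [← map_inv, ← SemidirectProduct.inl_aut]; rfl
  have hBH : B ≤ Subgroup.normalizer (H : Set Γ) := by
    have : H.Normal := by
      change (SemidirectProduct.inl : G →* Γ).range.Normal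
      rw [SemidirectProduct.range_inl_eq_ker_rightHom]
      infer_instance
    rw [Subgroup.normalizer_eq_top]
    exact le_top
  have hfix : ∀ b : A, ∀ x : G, x ^ p = 1 → (b : MulAut G) x = x := by
    rintro ⟨b, n, rfl⟩ x hx
    have hst : a ∈ MulAction.stabilizer (MulAut G) x := h x hx
    exact Subgroup.zpow_mem _ hst n
  have hmain := Cfsg.Agent.BG.le_centralizer_of_omega1 hp B hB _ H rfl hH hBH (by
    rintro _ ⟨x, rfl⟩ hx _ ⟨b, rfl⟩
    have hx1 : x ^ p = 1 := by
      apply SemidirectProduct.inl_injective (φ := A.subtype)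
      rw [map_pow, map_one]; exact hx
    have := hconj b x
    rw [hfix b x hx1] at this
    calc (SemidirectProduct.inr b : Γ) * SemidirectProduct.inl x
        = ((SemidirectProduct.inr b : Γ) * SemidirectProduct.inl x * (SemidirectProduct.inr b)⁻¹) * SemidirectProduct.inr b := by group
      _ = SemidirectProduct.inl x * SemidirectProduct.inr b := by rw [this])
  ext x
  rw [MulAut.one_apply]
  have h1 : (SemidirectProduct.inr (⟨a, Subgroup.mem_zpowers a⟩ : A) : Γ) ∈ Subgroup.centralizer (H : Set Γ) :=
    hmain ⟨_, rfl⟩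
  rw [Subgroup.mem_centralizer_iff] at h1
  have h2 := h1 (SemidirectProduct.inl x) ⟨x, rfl⟩
  have h3 := hconj ⟨a, Subgroup.mem_zpowers a⟩ x
  apply SemidirectProduct.inl_injective (φ := A.subtype)
  rw [← h3, ← h2]
  group

end Cfsg.Agent.S0120
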