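import Cfsg.Statements.S0122
import Cfsg.Agent.H59.NormalP4


set_option autoImplicit false
set_option linter.style.haveILetI false
open Cfsg

namespace Cfsg.Agent.S0122

/-- For odd p, a p-group containing an elementary abelian subgroup of order p^4 has a normal elementary abelian subgroup of order p^4. -/
theorem result {G : Type*} [Group G] [Finite G] {p : ℕ} [Fact p.Prime] (hp : p ≠ 2) (hG : IsPGroup p G) (E : Subgroup G) (hE : Cfsg.IsElementaryAbelian p E) (hE4 : Nat.card E = p ^ 4) : ∃ A : Subgroup G, A.Normal ∧ Cfsg.IsElementaryAbelian p A ∧ Nat.card A = p ^ 4 := by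

  have hp' : p.Prime := Fact.out
  have hodd : Odd p := hp'.odd_of_ne_two hp
  obtain ⟨N, hNn, hNe, hNc⟩ := Cfsg.Agent.H59.exists_normal_elab_p4 hodd hG hE hE4.ge
  obtain ⟨A, hAn, hAN, hAc⟩ := Cfsg.Agent.H23.exists_normal_le_card_eq hG hNn 4 hNc
  refine ⟨A, hAn, ?_, hAc⟩
  exact Cfsg.Agent.H11.elem_mono hAN hNe


end Cfsg.Agent.S0122
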