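import Cfsg.Statements.S0125
import Cfsg.Agent.H20.Basic

set_option autoImplicit false
set_option linter.style.haveILetI false
open Cfsg

namespace Cfsg.Agent.S0125

/-- The centralizer of a self-centralizing normal subgroup A of a Sylow p-subgroup is the direct product of A with a normal p'-subgroup. -/
theorem result {G : Type*} [Group G] [Finite G] {p : ℕ} [Fact p.Prime] (R : Sylow p G) (A : Subgroup G) (hAR : A ≤ (R : Subgroup G)) (hAn : (R : Subgroup G) ≤ Subgroup.normalizer (A : Set G)) (hC : (R : Subgroup G) ⊓ Subgroup.centralizer (A : Set G) = A) : ∃ H : Subgroup G, H ≤ Subgroup.centralizer (A : Set G) ∧ Nat.Coprime (Nat.card H) p ∧ Subgroup.centralizer (A : Set G) ≤ Subgroup.normalizer (H : Set G) ∧ H ⊓ A = ⊥ ∧ H ⊔ A = Subgroup.centralizer (A : Set G) := by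
  classical
  set C := Subgroup.centralizer (A : Set G) with hCdef
  have hAC : A ≤ C := by rw [← hC]; exact inf_le_right
  have hAp : IsPGroup p A := R.2.to_le hAR
  -- `A` is a maximal `p`-subgroup of `C`
  have hmax : ∀ Q : Subgroup G, Q ≤ C → IsPGroup p Q → A ≤ Q → Q = A := by
    intro Q hQC hQp hAQ
    set N := Subgroup.normalizer (A : Set G) with hN
    have hCN : C ≤ N := by
      intro c hc
      rw [hN, Subgroup.mem_normalizer_iff]
      intro x
      constructor
      · intro hx
        have := Subgroup.mem_centralizer_iff.mp hc x hx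
        have h2 : c * x * c⁻¹ = x := by rw [← this]; group
        rwa [h2]
      · intro hx
        have := Subgroup.mem_centralizer_iff.mp hc _ hx
        have h2 : c * x * c⁻¹ = x := by
          have h3 : c * x * c⁻¹ * c = c * (c * x * c⁻¹) := this
          have h4 : c * x * c⁻¹ * c = c * x := by group
          rw [h4] at h3
          exact (mul_left_cancel h3).symm
        rwa [h2] at hx
    obtain ⟨h, hh⟩ := Cfsg.Agent.H20.exists_conj_mem_sylow (R.subtype hAn)
      (H := Q.subgroupOf N) (hQp.comap_of_injective N.subtype N.subtype_injective)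
    have hle : ∀ x ∈ Q, (h : G)⁻¹ * x * h ∈ A := by
      intro x hx
      rw [← hC]
      refine ⟨?_, ?_⟩
      · have := hh ⟨x, hCN (hQC hx)⟩ (by rw [Subgroup.mem_subgroupOf]; exact hx)
        exact this
      · have hxc := hQC hx
        refine Subgroup.mem_centralizer_iff.mpr ?_
        intro a ha
        have ha' : (h : G) * a * (h : G)⁻¹ ∈ A := (Subgroup.mem_normalizer_iff.mp h.2 a).mp ha
        have := Subgroup.mem_centralizer_iff.mp hxc _ ha'
        calc a * ((h : G)⁻¹ * x * h) = (h : G)⁻¹ * ((h : G) * a * (h : G)⁻¹ * x) * h := by group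
          _ = (h : G)⁻¹ * (x * ((h : G) * a * (h : G)⁻¹)) * h := by rw [this]
          _ = (h : G)⁻¹ * x * h * a := by group
    have hcard : Nat.card Q ≤ Nat.card A := by
      apply Nat.card_le_card_of_injective (fun x : Q => (⟨(h : G)⁻¹ * x * h, hle x x.2⟩ : A))
      intro x y hxy
      have := congrArg Subtype.val hxy
      simp only at this
      exact Subtype.ext (mul_left_cancel (mul_right_cancel this))
    exact (Subgroup.eq_of_le_of_card_ge hAQ hcard).symm
  -- `A` as a Sylow subgroup of `C`
  have hApC : IsPGroup p (A.subgroupOf C) := hAp.comap_of_injective C.subtype C.subtype_injective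
  obtain ⟨P, hPA⟩ : ∃ P : Sylow p C, (P : Subgroup C) = A.subgroupOf C := ⟨
    { toSubgroup := A.subgroupOf C
      isPGroup' := hApC
      is_maximal' := by
        intro Q hQ hAQ
        have h1 : Q.map C.subtype = A := by
          apply hmax _ (Subgroup.map_subtype_le Q) (hQ.map _)
          intro a ha
          exact ⟨⟨a, hAC ha⟩, hAQ (by rw [Subgroup.mem_subgroupOf]; exact ha), rfl⟩
        rw [← h1]
        exact (Subgroup.comap_map_eq_self_of_injective C.subtype_injective Q).symm }, rfl⟩
  have hcen : ∀ a ∈ A, ∀ c : C, a * c = c * a := fun a ha c =>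
    Subgroup.mem_centralizer_iff.mp c.2 a ha
  have hPc : Subgroup.normalizer ((P : Subgroup C) : Set C) ≤
      Subgroup.centralizer ((P : Subgroup C) : Set C) := by
    intro c _
    rw [Subgroup.mem_centralizer_iff]
    intro a ha
    apply Subtype.ext
    rw [SetLike.mem_coe, hPA, Subgroup.mem_subgroupOf] at ha
    exact hcen a ha c
  obtain ⟨K, hKn, hcomp, hndvd⟩ : ∃ K : Subgroup C, K.Normal ∧ K.IsComplement' P ∧
      ¬ p ∣ Nat.card K := ⟨_, inferInstance, MonoidHom.ker_transferSylow_isComplement' P hPc,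
        MonoidHom.not_dvd_card_ker_transferSylow P hPc⟩
  refine ⟨K.map C.subtype, Subgroup.map_subtype_le K, ?_, ?_, ?_, ?_⟩
  · rw [Subgroup.card_map_of_injective C.subtype_injective]
    exact ((Nat.Prime.coprime_iff_not_dvd Fact.out).mpr hndvd).symm
  · intro c hc
    rw [Subgroup.mem_normalizer_iff]
    intro x
    constructor
    · rintro ⟨k, hk, rfl⟩
      exact ⟨⟨c, hc⟩ * k * ⟨c, hc⟩⁻¹, hKn.conj_mem k hk ⟨c, hc⟩, rfl⟩
    · rintro ⟨k, hk, hkx⟩
      refine ⟨⟨c, hc⟩⁻¹ * k * ⟨c, hc⟩, ?_, ?_⟩
      · have := hKn.conj_mem k hk ⟨c, hc⟩⁻¹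
        rwa [inv_inv] at this
      · have h3 : x = c⁻¹ * (c * x * c⁻¹) * c := by group
        rw [h3, ← hkx]; rfl
  · rw [eq_bot_iff]
    rintro x ⟨⟨k, hk, rfl⟩, hx⟩
    have hkP : k ∈ (P : Subgroup C) := by rw [hPA, Subgroup.mem_subgroupOf]; exact hx
    have h1 : k ∈ (⊥ : Subgroup C) := hcomp.disjoint.le_bot (Subgroup.mem_inf.mpr ⟨hk, hkP⟩)
    rw [Subgroup.mem_bot] at h1 ⊢
    rw [h1]; rfl
  · have h1 := hcomp.sup_eq_top
    have h2 := congrArg (Subgroup.map C.subtype) h1
    rw [Subgroup.map_sup] at h2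
    have h3 : (P : Subgroup C).map C.subtype = A := by
      rw [hPA]; exact Subgroup.map_subgroupOf_eq_of_le hAC
    rw [h3] at h2
    rw [h2, ← MonoidHom.range_eq_map, C.range_subtype]


end Cfsg.Agent.S0125
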