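import Cfsg.Statements.S0127
import Cfsg.Agent.OddP.CyclicMaxOmega

set_option autoImplicit false
set_option linter.style.haveILetI false
open Cfsg

namespace Cfsg.Agent.S0127

/-- For odd p, in a non-cyclic p-group with a cyclic subgroup of index p, the elements of order dividing p generate an elementary abelian subgroup of order p^2. -/
theorem result {R : Type*} [Group R] [Finite R] {p : ℕ} [Fact p.Prime] (hp : p ≠ 2) (hR : IsPGroup p R) (hnc : ¬ IsCyclic R) (C : Subgroup R) (hC : IsCyclic C) (hCi : C.index = p) : Cfsg.IsElementaryAbelian p (Subgroup.closure {x : R | x ^ p = 1}) ∧ Nat.card (Subgroup.closure {x : R | x ^ p = 1}) = p ^ 2 := by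
  classical
  have hpp : p.Prime := Fact.out
  have hmul := Cfsg.Agent.OddP.mul_pow_of_cyclic_max hp hR C hC hCi
  have hcard := Cfsg.Agent.OddP.card_ker_powHom_of_cyclic_max hR hnc C hC hCi hmul
  have heq : Subgroup.closure {x : R | x ^ p = 1} = (Cfsg.Agent.OddP.powHom p hmul).ker := by
    apply le_antisymm
    · rw [Subgroup.closure_le]
      intro x hx
      exact hx
    · intro x hx
      exact Subgroup.subset_closure hx
  rw [heq]
  refine ⟨⟨?_, ?_⟩, hcard⟩
  · exact IsPGroup.isMulCommutative_of_card_eq_prime_sq hcard
  · intro x hx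
    exact hx


end Cfsg.Agent.S0127
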