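import Cfsg.Statements.S0129
import Cfsg.Agent.H23.PGroupNormal


set_option autoImplicit false
set_option linter.style.haveILetI false
open Cfsg

namespace Cfsg.Agent.S0129


theorem index_centralizer_le {G : Type*} [Group G] [Finite G] {p : ℕ} [hp : Fact p.Prime]
    (hG : IsPGroup p G) : ∀ (j : ℕ) (B : Subgroup G), B.Normal → Nat.card B = p ^ j →
      (Subgroup.centralizer (B : Set G)).index ≤ p ^ (j * (j - 1) / 2) := by
  intro j
  induction j with
  | zero =>
    intro B _ hB
    rw [pow_zero] at hB
    have h1 : B = ⊥ := Subgroup.card_eq_one.1 hB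
    subst h1
    have h2 : Subgroup.centralizer ((⊥ : Subgroup G) : Set G) = ⊤ := by
      rw [eq_top_iff]
      intro g _
      rw [Subgroup.mem_centralizer_iff]
      intro h hh
      rw [Subgroup.coe_bot, Set.mem_singleton_iff] at hh
      rw [hh, one_mul, mul_one]
    rw [h2, Subgroup.index_top]
    exact Nat.one_le_pow _ _ hp.out.pos
  | succ j ih =>
    intro B hBn hB
    obtain ⟨M, hM, hMB, hMc⟩ := Cfsg.Agent.H23.exists_normal_le_card_eq hG hBn j
      (by rw [hB]; exact Nat.pow_le_pow_right hp.out.pos (Nat.le_succ j))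
    have hlt : M < B := by
      refine lt_of_le_of_ne hMB ?_
      rintro rfl
      rw [hB] at hMc
      exact absurd (Nat.pow_right_injective hp.out.two_le hMc) (by omega)
    obtain ⟨x, hx, _, _, hcomm, _, hc⟩ := Cfsg.Agent.H23.exists_step hG hM hBn hlt
    have hle : M ⊔ Subgroup.zpowers x ≤ B := sup_le hMB (Subgroup.zpowers_le.2 hx)
    have heq : M ⊔ Subgroup.zpowers x = B := by
      apply Subgroup.eq_of_le_of_card_ge hle
      rw [hc, hMc, hB, pow_succ]
    have hCle : Subgroup.centralizer (B : Set G) ≤ Subgroup.centralizer (M : Set G) :=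
      Subgroup.centralizer_le hMB
    have hmem : ∀ c ∈ Subgroup.centralizer (M : Set G), c * x = x * c →
        c ∈ Subgroup.centralizer (B : Set G) := by
      intro c hcM hcx
      rw [Subgroup.mem_centralizer_iff]
      intro b hb
      have h1 : B ≤ Subgroup.centralizer ({c} : Set G) := by
        rw [← heq]
        apply sup_le
        · intro m hm
          rw [Subgroup.mem_centralizer_singleton_iff]
          exact Subgroup.mem_centralizer_iff.1 hcM m hm
        · rw [Subgroup.zpowers_le, Subgroup.mem_centralizer_singleton_iff]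
          exact hcx.symm
      exact Subgroup.mem_centralizer_singleton_iff.1 (h1 hb)
    have hrel : (Subgroup.centralizer (B : Set G)).relIndex (Subgroup.centralizer (M : Set G))
        ≤ p ^ j := by
      rw [← hMc]
      let f : (Subgroup.centralizer (M : Set G)) ⧸
          ((Subgroup.centralizer (B : Set G)).subgroupOf (Subgroup.centralizer (M : Set G))) → M :=
        fun q => ⟨x * (q.out : G) * x⁻¹ * (q.out : G)⁻¹, hcomm _⟩
      apply Nat.card_le_card_of_injective f
      intro q q' hqq
      have h1 : x * (q.out : G) * x⁻¹ * (q.out : G)⁻¹ = x * (q'.out : G) * x⁻¹ * (q'.out : G)⁻¹ :=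
        congrArg Subtype.val hqq
      rw [← q.out_eq, ← q'.out_eq]
      apply Quotient.sound
      change QuotientGroup.leftRel _ _ _
      rw [QuotientGroup.leftRel_apply]
      rw [Subgroup.mem_subgroupOf]
      apply hmem _ (q.out⁻¹ * q'.out).2
      push_cast
      have h2 : (q.out : G) * x⁻¹ * (q.out : G)⁻¹ = (q'.out : G) * x⁻¹ * (q'.out : G)⁻¹ := by
        have h3 := congrArg (fun y => x⁻¹ * y) h1
        simpa [mul_assoc] using h3
      have h3 : (q.out : G)⁻¹ * (q'.out : G) * x⁻¹ = x⁻¹ * ((q.out : G)⁻¹ * (q'.out : G)) := by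
        have h4 := congrArg (fun y => (q.out : G)⁻¹ * y * (q'.out : G)) h2
        have h5 : (q.out : G)⁻¹ * ((q.out : G) * x⁻¹ * (q.out : G)⁻¹) * (q'.out : G) =
          x⁻¹ * ((q.out : G)⁻¹ * (q'.out : G)) := by group
        have h6 : (q.out : G)⁻¹ * ((q'.out : G) * x⁻¹ * (q'.out : G)⁻¹) * (q'.out : G) =
          (q.out : G)⁻¹ * (q'.out : G) * x⁻¹ := by group
        rw [← h5, ← h6]
        exact h4.symm
      have h4 : Commute ((q.out : G)⁻¹ * (q'.out : G)) x⁻¹ := h3
      exact (Commute.inv_right_iff.1 h4).eq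
    have h1 : (Subgroup.centralizer (B : Set G)).relIndex (Subgroup.centralizer (M : Set G)) *
        (Subgroup.centralizer (M : Set G)).index = (Subgroup.centralizer (B : Set G)).index :=
      Subgroup.relIndex_mul_index hCle
    rw [← h1]
    calc _ ≤ p ^ j * p ^ (j * (j - 1) / 2) := Nat.mul_le_mul hrel (ih M hM hMc)
      _ = p ^ ((j + 1) * (j + 1 - 1) / 2) := by
        rw [← pow_add]
        congr 1
        rcases j with _ | j
        · rfl
        · have e1 : (j + 1 + 1) * (j + 1 + 1 - 1) = (j + 1) * (j + 1 - 1) + 2 * (j + 1) := by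
            rw [Nat.add_sub_cancel, Nat.add_sub_cancel]; ring
          rw [e1, Nat.add_mul_div_left _ _ (by norm_num : 0 < 2)]
          omega

/-- The order of a p-group is bounded by p^(a(a+1)/2) when it has a maximal normal abelian subgroup of order p^a. -/
theorem result {G : Type*} [Group G] [Finite G] {p : ℕ} [Fact p.Prime] (hG : IsPGroup p G) (A : Subgroup G) [A.Normal] (hA : IsMulCommutative A) (hmax : ∀ B : Subgroup G, B.Normal → IsMulCommutative B → A ≤ B → B = A) (a : ℕ) (ha : Nat.card A = p ^ a) : Nat.card G ≤ p ^ (a * (a + 1) / 2) := by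

  have hAn : A.Normal := inferInstance
  have hCA : Subgroup.centralizer (A : Set G) = A := by
    have hle : A ≤ Subgroup.centralizer (A : Set G) := (Cfsg.Agent.H11.comm_iff_le_centralizer A).1 hA
    by_contra hne
    have hlt : A < Subgroup.centralizer (A : Set G) := lt_of_le_of_ne hle (Ne.symm hne)
    have hCn : (Subgroup.centralizer (A : Set G)).Normal := inferInstance
    obtain ⟨x, hx, hxA, _, _, hn, hc⟩ := Cfsg.Agent.H23.exists_step hG hAn hCn hlt
    have hcomm : IsMulCommutative ↥(A ⊔ Subgroup.zpowers x) := by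
      apply Cfsg.Agent.H11.comm_sup hA inferInstance
      rintro a ha _ ⟨n, rfl⟩
      have h1 : Commute a x := (Subgroup.mem_centralizer_iff.1 hx a ha)
      exact h1.zpow_right n
    have h2 := hmax _ hn hcomm le_sup_left
    apply hxA
    have h3 : x ∈ A ⊔ Subgroup.zpowers x :=
      (le_sup_right : Subgroup.zpowers x ≤ _) (Subgroup.mem_zpowers x)
    rw [h2] at h3
    exact h3
  have h1 := index_centralizer_le hG a A hAn ha
  rw [hCA] at h1
  rw [← Subgroup.card_mul_index A, ha]
  calc p ^ a * A.index ≤ p ^ a * p ^ (a * (a - 1) / 2) := Nat.mul_le_mul_left _ h1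
    _ = p ^ (a * (a + 1) / 2) := by
      rw [← pow_add]
      congr 1
      rcases a with _ | a
      · rfl
      · have e1 : (a + 1) * (a + 1 + 1) = (a + 1) * (a + 1 - 1) + 2 * (a + 1) := by
          rw [Nat.add_sub_cancel]; ring
        rw [e1, Nat.add_mul_div_left _ _ (by norm_num : 0 < 2)]
        omega


end Cfsg.Agent.S0129
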