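import Cfsg.Statements.S0131
-- import your own Cfsg.Agent.* helpers here

set_option autoImplicit false
open Cfsg

namespace Cfsg.Agent.S0131

/-- P/P' has a normal complement in G exactly when the focal subgroup G' ∩ P is as small as possible, namely P'. -/
theorem result {G : Type*} [Group G] [Finite G] {p : ℕ} [Fact p.Prime] (P : Sylow p G) : (∃ N : Subgroup G, N.Normal ∧ N ⊓ (P : Subgroup G) = ⁅(P : Subgroup G), (P : Subgroup G)⁆ ∧ N ⊔ (P : Subgroup G) = ⊤) ↔ commutator G ⊓ (P : Subgroup G) = ⁅(P : Subgroup G), (P : Subgroup G)⁆ := by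
  constructor
  · rintro ⟨N, hN, h1, h2⟩
    apply le_antisymm
    · rw [← h1]
      refine inf_le_inf_right _ ?_
      rw [commutator_def, Subgroup.commutator_le]
      intro a _ b _
      have ha : a ∈ N ⊔ (P : Subgroup G) := h2 ▸ Subgroup.mem_top a
      have hb : b ∈ N ⊔ (P : Subgroup G) := h2 ▸ Subgroup.mem_top b
      obtain ⟨n, hn, x, hx, rfl⟩ := Subgroup.mem_sup_of_normal_left.1 ha
      obtain ⟨m, hm, y, hy, rfl⟩ := Subgroup.mem_sup_of_normal_left.1 hb
      have hxy : x * y * x⁻¹ * y⁻¹ ∈ N := by
        have : x * y * x⁻¹ * y⁻¹ ∈ ⁅(P : Subgroup G), (P : Subgroup G)⁆ := Subgroup.commutator_mem_commutator hx hy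
        rw [← h1] at this
        exact this.1
      rw [← QuotientGroup.eq_one_iff] at hn hm hxy ⊢
      simp only [commutatorElement_def, QuotientGroup.mk_mul, QuotientGroup.mk_inv, hn, hm, one_mul] at hxy ⊢
      exact hxy
    · refine le_inf ?_ ?_
      · rw [commutator_def]
        exact Subgroup.commutator_mono le_top le_top
      · exact Subgroup.commutator_le_self _
  · intro h
    refine ⟨P.transferFocal.ker, inferInstance, ?_, ?_⟩
    · rw [Subgroup.ker_transferFocal_inf_eq_focalSubgroup, ← Subgroup.commutator_inf_eq_focalSubgroup, h]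
    · rw [eq_top_iff]
      intro g _
      obtain ⟨x, hx⟩ := Subgroup.focalSubgroupOf.pow_index_surjective P (P.transferFocal g)
      obtain ⟨x, rfl⟩ := QuotientGroup.mk'_surjective _ x
      have hx' : P.transferFocal x = P.transferFocal g := (P.transferFocal_eq_pow x).trans hx
      have : g = (g * (x : G)⁻¹) * x := by group
      rw [this]
      refine Subgroup.mul_mem_sup ?_ x.2
      rw [MonoidHom.mem_ker, map_mul, map_inv, hx', mul_inv_cancel]

end Cfsg.Agent.S0131
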