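import Cfsg.Statements.S0162
import Mathlib
import Cfsg.Agent.CharBase.Column
import Cfsg.Agent.CharBase.Central
import Cfsg.Agent.H78.NormalInd

set_option autoImplicit false
open Cfsg

namespace Cfsg.Agent.S0162

/-- If a finite group has odd order, its order is congruent to its number of conjugacy classes modulo 16. -/
theorem result {G : Type*} [Group G] [Finite G] (hodd : Odd (Nat.card G)) : Nat.card G ≡ Nat.card (ConjClasses G) [MOD 16] := by
  open Cfsg Cfsg.Agent.CharBase in
  open scoped ComplexConjugate in
  (
    classical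
    have := Fintype.ofFinite G
    have := Fintype.ofFinite (IrrCharacter G)
    rw [← card_irr_eq_card_conjClasses]
    choose d hd using fun χ : IrrCharacter G => exists_nat_degree (irr_isCharacter χ)
    have hdodd : ∀ χ, Odd (d χ) := fun χ => Odd.of_dvd_nat hodd (degree_dvd_card χ.2 (hd χ))
    have h1 : Nat.card G = ∑ χ : IrrCharacter G, d χ ^ 2 := by
      have h2 := sum_sq_degree (G := G)
      simp only [hd] at h2
      exact_mod_cast h2.symm
    have h3 : Nat.card (IrrCharacter G) = ∑ χ : IrrCharacter G, 1 := by
      rw [Finset.sum_const, Finset.card_univ, Nat.card_eq_fintype_card]; simp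
    rw [← ZMod.natCast_eq_natCast_iff, h1, h3]
    push_cast
    rw [← sub_eq_zero, ← Finset.sum_sub_distrib]
    let σ : IrrCharacter G → IrrCharacter G := fun χ => ⟨fun g => conj ((χ : G → ℂ) g), isIrrCharacter_conj χ.2⟩
    have hdσ : ∀ χ, d (σ χ) = d χ := by
      intro χ
      have h4 : ((d (σ χ) : ℕ) : ℂ) = d χ := by
        rw [← hd (σ χ)]
        change conj ((χ : G → ℂ) 1) = _
        rw [hd χ]; simp
      exact_mod_cast h4
    have h8 : ∀ n : ℕ, Odd n → ((n : ZMod 16) ^ 2 - 1) + ((n : ZMod 16) ^ 2 - 1) = 0 := by
      rintro n ⟨k, rfl⟩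
      have h9 : 2 ∣ k * (k + 1) := (Nat.even_mul_succ_self k).two_dvd
      obtain ⟨m, hm⟩ := h9
      have h10 : (k : ZMod 16) * (k + 1) = 2 * m := by exact_mod_cast congrArg (Nat.cast (R := ZMod 16)) hm
      push_cast
      have h11 : ((2 * (k : ZMod 16) + 1) ^ 2 - 1) + ((2 * (k : ZMod 16) + 1) ^ 2 - 1) = 8 * (k * (k + 1)) := by ring
      rw [h11, h10]
      have h12 : (8 : ZMod 16) * (2 * m) = 16 * m := by ring
      rw [h12]
      have : (16 : ZMod 16) = 0 := by decide
      rw [this, zero_mul]
    apply Finset.sum_involution (fun χ _ => σ χ)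
    · intro χ _
      rw [hdσ]
      exact h8 _ (hdodd χ)
    · intro χ _ hne heq
      apply hne
      have h5 : (χ : G → ℂ) = fun _ => 1 := by
        apply Cfsg.Agent.H78.eq_one_of_real_of_odd hodd χ χ.2
        intro g
        exact congrFun (congrArg Subtype.val heq) g
      have h6 : d χ = 1 := by
        have := hd χ
        rw [h5] at this
        have h7 : (1 : ℂ) = d χ := this
        exact_mod_cast h7.symm
      rw [h6]; simp
    · intro χ _; exact Finset.mem_univ _
    · intro χ _
      apply Subtype.ext
      funext g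
      exact Complex.conj_conj _
  )

end Cfsg.Agent.S0162
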