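import Cfsg.Statements.S0166
import Mathlib
import Cfsg.Prelude.Def_Characters
import Cfsg.Agent.Char.Splitting

set_option autoImplicit false
open Cfsg

namespace Cfsg.Agent.S0166

/-- Brauer's splitting field Theorem: a complex representation of a finite group of exponent m is equivalent to a representation by matrices with entries in ℚ adjoined exp(2πi/m). -/
theorem result {G : Type*} [Group G] [Finite G] (n : ℕ) (ρ : Representation ℂ G (Fin n → ℂ)) : ∃ σ : Representation ℂ G (Fin n → ℂ), Nonempty (ρ.Equiv σ) ∧ ∀ g : G, ∀ i j : Fin n, LinearMap.toMatrix' (σ g) i j ∈ Algebra.adjoin ℚ ({Complex.exp (2 * Real.pi * Complex.I / (Monoid.exponent G : ℂ))} : Set ℂ) := by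
  open Cfsg Cfsg.Agent.CharBase Cfsg.Agent.Char Cfsg.Agent.Char.SF in
  (
    set ζ : ℂ := Complex.exp (2 * Real.pi * Complex.I / (Monoid.exponent G : ℂ)) with hζ
    have hm : Monoid.exponent G ≠ 0 := Monoid.exponent_ne_zero_of_finite
    have hprim : IsPrimitiveRoot ζ (Monoid.exponent G) := Complex.isPrimitiveRoot_exp _ hm
    have hne : NeZero (Monoid.exponent G) := ⟨hm⟩
    have halg : IsAlgebraic ℚ ζ := (hprim.isIntegral (Nat.pos_of_ne_zero hm)).tower_top.isAlgebraic
    have hK : HasRoots (IntermediateField.adjoin ℚ ({ζ} : Set ℂ)) G := by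
      intro z hz
      obtain ⟨i, -, hi⟩ := hprim.eq_pow_of_pow_eq_one hz
      refine ⟨⟨ζ ^ i, pow_mem (IntermediateField.mem_adjoin_simple_self ℚ ζ) i⟩, hi⟩
    obtain ⟨σ, hσ⟩ := exists_realization hK n ρ
    refine ⟨baseC σ, hσ, fun g i j => ?_⟩
    rw [baseC_matrix, Matrix.map_apply]
    have h1 := IntermediateField.adjoin_simple_toSubalgebra_of_isAlgebraic halg
    rw [← h1]
    exact (LinearMap.toMatrix' (σ g) i j).2
  )

end Cfsg.Agent.S0166
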