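import Cfsg.Statements.S0167
import Mathlib
import Cfsg.Agent.CharBase.Column
import Cfsg.Agent.CharBase.Central

set_option autoImplicit false
open Cfsg

namespace Cfsg.Agent.S0167

section Aux

open Cfsg Cfsg.Agent.CharBase
open scoped ComplexConjugate

/-- Frobenius' count of the ways to write `g` as a commutator. -/
theorem card_commutator_eq {G : Type*} [Group G] [Fintype G] [Fintype (IrrCharacter G)] [DecidableEq G] (g : G) :
    (((Finset.univ : Finset (G × G)).filter (fun x => x.1 * x.2 * x.1⁻¹ * x.2⁻¹ = g)).card : ℂ) =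
      (Nat.card G : ℂ) * ∑ χ : IrrCharacter G, (χ : G → ℂ) g⁻¹ / (χ : G → ℂ) 1 := by
  classical
  have hG : (Nat.card G : ℂ) ≠ 0 := by exact_mod_cast Nat.card_pos.ne'
  -- the sum over `a, b` of `χ([a,b] g⁻¹)`
  have key : ∀ χ : IrrCharacter G, ∑ x : G × G, (χ : G → ℂ) (x.1 * x.2 * x.1⁻¹ * x.2⁻¹ * g⁻¹) =
      (Nat.card G : ℂ) ^ 2 * (χ : G → ℂ) g⁻¹ / (χ : G → ℂ) 1 ^ 2 := by
    intro χ
    have h0 := irr_one_ne_zero χ.2
    rw [Fintype.sum_prod_type_right]
    have h1 : ∀ b : G, ∑ a : G, (χ : G → ℂ) (a * b * a⁻¹ * b⁻¹ * g⁻¹) =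
        (Nat.card G : ℂ) * (χ : G → ℂ) b * (χ : G → ℂ) (b⁻¹ * g⁻¹) / (χ : G → ℂ) 1 := by
      intro b
      have h2 := sum_conj_mul χ.2 (b⁻¹ * g⁻¹) b
      have h3 : ∀ a : G, (χ : G → ℂ) (a * b * a⁻¹ * b⁻¹ * g⁻¹) = (χ : G → ℂ) (b⁻¹ * g⁻¹ * (a * b * a⁻¹)) := by
        intro a
        rw [classFun_mul_comm (irr_isClassFunction χ) (b⁻¹ * g⁻¹) (a * b * a⁻¹)]
        congr 1; group
      rw [Finset.sum_congr rfl (fun a _ => h3 a), h2]; ring
    rw [Finset.sum_congr rfl (fun b _ => h1 b)]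
    have h4 := congrFun (conv_irr χ χ) g⁻¹
    rw [if_pos rfl] at h4
    unfold conv at h4
    simp only [Pi.smul_apply, smul_eq_mul] at h4
    rw [← Finset.sum_div]
    have h5 : ∑ b : G, (Nat.card G : ℂ) * (χ : G → ℂ) b * (χ : G → ℂ) (b⁻¹ * g⁻¹) =
        (Nat.card G : ℂ) * ∑ b : G, (χ : G → ℂ) b * (χ : G → ℂ) (b⁻¹ * g⁻¹) := by
      rw [Finset.mul_sum]
      exact Finset.sum_congr rfl (fun b _ => by ring)
    rw [h5, h4]
    field_simp
  have h6 : (((Finset.univ : Finset (G × G)).filter (fun x => x.1 * x.2 * x.1⁻¹ * x.2⁻¹ = g)).card : ℂ) =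
      (Nat.card G : ℂ)⁻¹ * ∑ x : G × G, ∑ χ : IrrCharacter G, (χ : G → ℂ) 1 * (χ : G → ℂ) (x.1 * x.2 * x.1⁻¹ * x.2⁻¹ * g⁻¹) := by
    simp only [sum_degree_mul]
    rw [← Finset.sum_filter, Finset.sum_const, nsmul_eq_mul]
    have h7 : (Finset.univ : Finset (G × G)).filter (fun x => x.1 * x.2 * x.1⁻¹ * x.2⁻¹ = g) =
        (Finset.univ : Finset (G × G)).filter (fun x => x.1 * x.2 * x.1⁻¹ * x.2⁻¹ * g⁻¹ = 1) := by
      ext x
      simp only [Finset.mem_filter, Finset.mem_univ, true_and]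
      rw [mul_inv_eq_one]
    rw [h7]
    field_simp
  rw [h6, Finset.sum_comm, Finset.mul_sum, Finset.mul_sum]
  refine Finset.sum_congr rfl (fun χ _ => ?_)
  rw [← Finset.mul_sum, key χ]
  have h0 := irr_one_ne_zero χ.2
  field_simp

end Aux

/-- An element g of a finite group is a commutator if and only if the sum over the irreducible characters χ of χ g / χ 1 is nonzero. -/
theorem result {G : Type*} [Group G] [Finite G] (g : G) : (∃ a b : G, g = a * b * a⁻¹ * b⁻¹) ↔ ∑ᶠ χ : Cfsg.IrrCharacter G, (χ : G → ℂ) g / (χ : G → ℂ) 1 ≠ 0 := by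
  open Cfsg Cfsg.Agent.CharBase in
  open scoped ComplexConjugate in
  (
    classical
    have := Fintype.ofFinite G
    have := Fintype.ofFinite (IrrCharacter G)
    rw [finsum_eq_sum_of_fintype]
    have hG : (Nat.card G : ℂ) ≠ 0 := by exact_mod_cast Nat.card_pos.ne'
    have h1 := card_commutator_eq g
    have h2 : ∑ χ : IrrCharacter G, (χ : G → ℂ) g⁻¹ / (χ : G → ℂ) 1 =
        conj (∑ χ : IrrCharacter G, (χ : G → ℂ) g / (χ : G → ℂ) 1) := by
      rw [map_sum]
      refine Finset.sum_congr rfl (fun χ _ => ?_)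
      rw [map_div₀, ← irr_inv, ← irr_inv, inv_one]
    rw [h2] at h1
    constructor
    · rintro ⟨a, b, hab⟩ h0
      rw [h0, map_zero, mul_zero] at h1
      have h3 : ((Finset.univ : Finset (G × G)).filter (fun x => x.1 * x.2 * x.1⁻¹ * x.2⁻¹ = g)).card = 0 := by
        exact_mod_cast h1
      rw [Finset.card_eq_zero, Finset.filter_eq_empty_iff] at h3
      exact h3 (Finset.mem_univ (a, b)) hab.symm
    · intro h0
      by_contra hcon
      apply h0
      have h3 : ((Finset.univ : Finset (G × G)).filter (fun x => x.1 * x.2 * x.1⁻¹ * x.2⁻¹ = g)).card = 0 := by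
        rw [Finset.card_eq_zero, Finset.filter_eq_empty_iff]
        rintro ⟨a, b⟩ _ hab
        exact hcon ⟨a, b, hab.symm⟩
      rw [h3, Nat.cast_zero, eq_comm, mul_eq_zero] at h1
      have h4 := h1.resolve_left hG
      exact (map_eq_zero (starRingEnd ℂ)).mp h4
  )

end Cfsg.Agent.S0167
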