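import Cfsg.Statements.S0168
import Mathlib
import Cfsg.Agent.CharBase.Ortho
import Cfsg.Agent.Char.Values

set_option autoImplicit false
open Cfsg

namespace Cfsg.Agent.S0168

/-- The Burnside–Brauer Theorem. Let χ be the character of a faithful complex representation of a finite group, taking m distinct values. Then every irreducible character has nonzero inner product with χ ^ i for some i < m. -/
theorem result {G : Type*} [Group G] [Fintype G] {V : Type*} [AddCommGroup V] [Module ℂ V] [FiniteDimensional ℂ V] (ρ : Representation ℂ G V) (hfaithful : Function.Injective ρ) (ψ : G → ℂ) (hψ : Cfsg.IsIrrCharacter G ψ) : ∃ i : ℕ, i < Nat.card (Set.range ρ.character) ∧ Cfsg.classInner (fun g => ρ.character g ^ i) ψ ≠ 0 := by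
  open Cfsg Cfsg.Agent.CharBase in
  open scoped ComplexConjugate in
  (
    classical
    by_contra hcon
    push Not at hcon
    have hG : (Nat.card G : ℂ) ≠ 0 := by exact_mod_cast Nat.card_pos.ne'
    let S : Finset ℂ := Finset.univ.image ρ.character
    have hS : Nat.card (Set.range ρ.character) = S.card := by
      have : Set.range ρ.character = (S : Set ℂ) := by
        ext z
        simp [S]
      rw [this]
      simp
    have h1 : ∀ i < S.card, ∑ g : G, ρ.character g ^ i * conj (ψ g) = 0 := by
      intro i hi
      have := hcon i (by rw [hS]; exact hi)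
      unfold classInner at this
      rcases mul_eq_zero.mp this with h | h
      · exact absurd (inv_eq_zero.mp h) hG
      · exact h
    -- polynomial version
    have h2 : ∀ P : Polynomial ℂ, P.natDegree < S.card → ∑ g : G, P.eval (ρ.character g) * conj (ψ g) = 0 := by
      intro P hP
      have h3 : ∀ g : G, P.eval (ρ.character g) * conj (ψ g) =
          ∑ i ∈ Finset.range (P.natDegree + 1), P.coeff i * (ρ.character g ^ i * conj (ψ g)) := by
        intro g
        rw [Polynomial.eval_eq_sum_range, Finset.sum_mul]
        exact Finset.sum_congr rfl (fun i _ => by ring)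
      rw [Finset.sum_congr rfl (fun g _ => h3 g), Finset.sum_comm]
      apply Finset.sum_eq_zero
      intro i hi
      rw [← Finset.mul_sum, h1 i (by rw [Finset.mem_range] at hi; omega), mul_zero]
    let P : Polynomial ℂ := ∏ a ∈ S.erase (ρ.character 1), (Polynomial.X - Polynomial.C a)
    have h1S : ρ.character 1 ∈ S := Finset.mem_image_of_mem _ (Finset.mem_univ 1)
    have hdeg : P.natDegree < S.card := by
      have : P.natDegree = (S.erase (ρ.character 1)).card := by
        simp only [P]
        rw [Polynomial.natDegree_prod_of_monic _ _ (fun a _ => Polynomial.monic_X_sub_C a)]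
        simp
      rw [this, Finset.card_erase_of_mem h1S]
      have : 0 < S.card := Finset.card_pos.mpr ⟨_, h1S⟩
      omega
    have h4 := h2 P hdeg
    have h5 : ∀ g : G, g ≠ 1 → P.eval (ρ.character g) = 0 := by
      intro g hg
      have hne : ρ.character g ≠ ρ.character 1 := by
        intro h
        apply hg
        apply hfaithful
        rw [Representation.char_one] at h
        rw [(Cfsg.Agent.Char.rep_character_eq_finrank_iff ρ g).mp h, map_one]
        rfl
      simp only [P]
      rw [Polynomial.eval_prod]
      apply Finset.prod_eq_zero (i := ρ.character g)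
      · rw [Finset.mem_erase]
        exact ⟨hne, Finset.mem_image_of_mem _ (Finset.mem_univ g)⟩
      · simp
    rw [Finset.sum_eq_single 1 (fun g _ hg => by rw [h5 g hg, zero_mul]) (fun h => absurd (Finset.mem_univ 1) h)] at h4
    rcases mul_eq_zero.mp h4 with h6 | h6
    · simp only [P] at h6
      rw [Polynomial.eval_prod, Finset.prod_eq_zero_iff] at h6
      obtain ⟨a, ha, ha'⟩ := h6
      rw [Finset.mem_erase] at ha
      apply ha.1
      simp only [Polynomial.eval_sub, Polynomial.eval_X, Polynomial.eval_C] at ha'
      exact (sub_eq_zero.mp ha').symm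
    · exact irr_one_ne_zero hψ ((map_eq_zero (starRingEnd ℂ)).mp h6)
  )

end Cfsg.Agent.S0168
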