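import Cfsg.Statements.S0172
import Cfsg.Agent.H75.Frob

set_option autoImplicit false
open Cfsg

namespace Cfsg.Agent.S0172

open Cfsg.Agent.CharBase Cfsg.Agent.H75

theorem sum_cent (A : Type*) [Group A] [Finite A] [Fintype A] :
    (∑ a : A, Nat.card (Subgroup.centralizer ({a} : Set A))) =
      Nat.card A * Nat.card (ConjClasses A) := by
  classical
  have h := sum_centralizer_eq_card_classes (G := A) (fun _ => True) (fun _ _ _ _ => trivial)
  simp only [if_true] at h
  have h2 : Nat.card {C : ConjClasses A // ∃ g, ConjClasses.mk g = C ∧ True} =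
      Nat.card (ConjClasses A) := by
    refine Nat.card_congr (Equiv.subtypeUnivEquiv (fun C => ?_))
    obtain ⟨g, rfl⟩ := ConjClasses.mk_surjective C
    exact ⟨g, rfl, trivial⟩
  rw [h2] at h
  exact_mod_cast h

theorem card_cent_conj {A : Type*} [Group A] (a y : A) :
    Nat.card (Subgroup.centralizer ({y * a * y⁻¹} : Set A)) =
      Nat.card (Subgroup.centralizer ({a} : Set A)) := by
  refine Nat.card_congr (Equiv.subtypeEquiv (MulAut.conj y⁻¹).toEquiv (fun c => ?_))
  simp only [Subgroup.mem_centralizer_iff, Set.mem_singleton_iff, forall_eq]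
  constructor
  · intro h
    have h2 := congrArg (fun t => y⁻¹ * t * y) h
    simp only [MulEquiv.toEquiv_eq_coe, EquivLike.coe_coe, MulAut.conj_apply, inv_inv]
    simp only [mul_assoc, inv_mul_cancel_left] at h2 ⊢
    simpa [mul_assoc] using h2
  · intro h
    simp only [MulEquiv.toEquiv_eq_coe, EquivLike.coe_coe, MulAut.conj_apply, inv_inv] at h
    have h2 := congrArg (fun t => y * t * y⁻¹) h
    simp only [mul_assoc, mul_inv_cancel_left] at h2 ⊢
    simpa [mul_assoc] using h2

theorem card_cent_of_le {A : Type*} [Group A] (B : Subgroup A) (b : B)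
    (h : ∀ c : A, c * b = b * c → c ∈ B) :
    Nat.card (Subgroup.centralizer ({(b : A)} : Set A)) =
      Nat.card (Subgroup.centralizer ({b} : Set B)) := by
  symm
  refine Nat.card_congr ⟨fun c => ⟨(c : B), ?_⟩, fun c => ⟨⟨c, ?_⟩, ?_⟩, ?_, ?_⟩
  · have := c.2
    simp only [Subgroup.mem_centralizer_iff, Set.mem_singleton_iff, forall_eq] at this ⊢
    exact congrArg Subtype.val this
  · have := c.2
    simp only [Subgroup.mem_centralizer_iff, Set.mem_singleton_iff, forall_eq] at this
    exact h c this.symm
  · have := c.2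
    simp only [Subgroup.mem_centralizer_iff, Set.mem_singleton_iff, forall_eq] at this ⊢
    exact Subtype.ext this
  · intro c; rfl
  · intro c; rfl

/-- Class number of a Frobenius group: if G = K H with K normal, K ⊓ H trivial and no non-identity element of H commuting with a non-identity element of K, then |H| * k(G) + 1 = |H| * k(H) + k(K), where k denotes the number of conjugacy classes. -/
theorem result {G : Type*} [Group G] [Finite G] (K H : Subgroup G) [K.Normal] (hKH : K ⊓ H = ⊥) (hKH' : K ⊔ H = ⊤) (hfpf : ∀ h ∈ H, h ≠ 1 → ∀ k ∈ K, h * k = k * h → k = 1) : Nat.card H * Nat.card (ConjClasses G) + 1 = Nat.card H * Nat.card (ConjClasses H) + Nat.card (ConjClasses K) := by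
  classical
  have := Fintype.ofFinite G
  have := Fintype.ofFinite K
  have := Fintype.ofFinite H
  have hcompl : Subgroup.IsComplement' K H := by
    apply Subgroup.isComplement'_of_disjoint_and_mul_eq_univ
    · exact disjoint_iff.mpr hKH
    · rw [← Subgroup.normal_mul, hKH']
      rfl
  have hcard : Nat.card K * Nat.card H = Nat.card G := hcompl.card_mul_card
  have hsum : (∑ g : G, Nat.card (Subgroup.centralizer ({g} : Set G))) =
      ∑ h : H, ∑ k : K, Nat.card (Subgroup.centralizer ({(k : G) * (h : G)} : Set G)) := by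
    rw [Finset.sum_comm, ← Fintype.sum_prod_type']
    exact (Fintype.sum_bijective (fun x : K × H => (x.1 : G) * (x.2 : G)) hcompl _ _
      (fun x => rfl)).symm
  rw [sum_cent G] at hsum
  rw [← Finset.add_sum_erase _ _ (Finset.mem_univ (1 : H))] at hsum
  -- outside `K`
  have h1 : ∀ h ∈ Finset.univ.erase (1 : H),
      (∑ k : K, Nat.card (Subgroup.centralizer ({(k : G) * (h : G)} : Set G))) =
        Nat.card K * Nat.card (Subgroup.centralizer ({h} : Set H)) := by
    intro h hh
    have hne : (h : G) ≠ 1 := fun e => (Finset.ne_of_mem_erase hh) (Subtype.ext e)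
    have h2 : ∀ k ∈ (Finset.univ : Finset K),
        Nat.card (Subgroup.centralizer ({(k : G) * (h : G)} : Set G)) =
        Nat.card (Subgroup.centralizer ({h} : Set H)) := by
      intro k _
      obtain ⟨y, hy, hyk⟩ := frob_coset K H hfpf h.2 hne k.2
      rw [hyk, card_cent_conj, card_cent_of_le H h]
      intro c hc
      obtain ⟨k', hk', h', hh', rfl⟩ := frob_decomp K H hKH' c
      -- mod K
      have h3 : k' * (h' * h * h'⁻¹) * k'⁻¹ = h := by
        have := congrArg (fun t => t * (h'⁻¹ * k'⁻¹)) hc
        simp only [mul_assoc] at this ⊢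
        simpa [mul_assoc] using this
      have h4 : k' * ((h' * h * h'⁻¹) * k'⁻¹ * (h' * h * h'⁻¹)⁻¹) =
          h * (h' * h * h'⁻¹)⁻¹ := by
        have e : k' * ((h' * h * h'⁻¹) * k'⁻¹ * (h' * h * h'⁻¹)⁻¹) =
          (k' * (h' * h * h'⁻¹) * k'⁻¹) * (h' * h * h'⁻¹)⁻¹ := by group
        rw [e, h3]
      have h5 : h * (h' * h * h'⁻¹)⁻¹ ∈ K ⊓ H := by
        constructor
        · rw [← h4]
          exact K.mul_mem hk' (Subgroup.Normal.conj_mem inferInstance _ (K.inv_mem hk') _)
        · exact H.mul_mem h.2 (H.inv_mem (H.mul_mem (H.mul_mem hh' h.2) (H.inv_mem hh')))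
      rw [hKH, Subgroup.mem_bot] at h5
      have h6 : (h' * h * h'⁻¹) = h := (mul_inv_eq_one.mp h5).symm
      rw [h6] at h3
      have h7 : (h : G) * k' = k' * h := by
        have := congrArg (fun t => t * k') h3
        simp only [mul_assoc, inv_mul_cancel, mul_one] at this
        exact this.symm
      have h8 := hfpf h h.2 hne k' hk' h7
      rw [h8, one_mul]
      exact hh'
    rw [Finset.sum_congr rfl h2, Finset.sum_const, Finset.card_univ, ← Nat.card_eq_fintype_card,
      smul_eq_mul]
  rw [Finset.sum_congr rfl h1, ← Finset.mul_sum] at hsum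
  have h2 := sum_cent H
  rw [← Finset.add_sum_erase _ _ (Finset.mem_univ (1 : H))] at h2
  have h3 := sum_cent K
  rw [← Finset.add_sum_erase _ _ (Finset.mem_univ (1 : K))] at h3
  have hc1 : ∀ (A : Type _) [Group A], Nat.card (Subgroup.centralizer ({(1 : A)} : Set A)) =
      Nat.card A := by
    intro A _
    have : (Subgroup.centralizer ({1} : Set A)) = ⊤ := by
      rw [Subgroup.centralizer_eq_top_iff_subset]
      intro x hx
      rw [Set.mem_singleton_iff] at hx
      rw [hx]; exact Subgroup.one_mem _
    rw [this, Subgroup.card_top]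
  rw [hc1 H] at h2
  rw [hc1 K] at h3
  have h4 : (∑ k : K, Nat.card (Subgroup.centralizer ({(k : G) * ((1 : H) : G)} : Set G))) =
      Nat.card G + ∑ k ∈ Finset.univ.erase (1 : K), Nat.card (Subgroup.centralizer ({k} : Set K)) := by
    rw [← Finset.add_sum_erase _ _ (Finset.mem_univ (1 : K))]
    congr 1
    · simp only [OneMemClass.coe_one, mul_one]
      exact hc1 G
    · refine Finset.sum_congr rfl (fun k hk => ?_)
      have hne : (k : G) ≠ 1 := fun e => (Finset.ne_of_mem_erase hk) (Subtype.ext e)
      rw [OneMemClass.coe_one, mul_one, card_cent_of_le K k]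
      intro c hc
      by_contra hcK
      exact hne (frob_commute K H hKH' hfpf hcK k.2 hc)
  rw [h4] at hsum
  set S1 := ∑ k ∈ Finset.univ.erase (1 : K), Nat.card (Subgroup.centralizer ({k} : Set K))
  set S2 := ∑ k ∈ Finset.univ.erase (1 : H), Nat.card (Subgroup.centralizer ({k} : Set H))
  have hKpos : 0 < Nat.card K := Nat.card_pos
  apply Nat.eq_of_mul_eq_mul_left hKpos
  rw [← hcard] at hsum
  nlinarith [hsum, h2, h3]

end Cfsg.Agent.S0172
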