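import Cfsg.Statements.S0177
import Mathlib
import Cfsg.Prelude.Def_Characters
import Cfsg.Agent.Char.Artin

set_option autoImplicit false
open Cfsg

namespace Cfsg.Agent.S0177

/-- The Artin induction Theorem: for a character χ of a finite group, |G| • χ is a ℤ-linear combination of functions induced from homomorphisms of cyclic subgroups into ℂˣ. -/
theorem result {G : Type*} [Group G] [Fintype G] (χ : G → ℂ) (hχ : Cfsg.IsCharacter G χ) : ∃ l : List ((A : Subgroup G) × ((A →* ℂˣ) × ℤ)), (∀ t ∈ l, IsCyclic t.1) ∧ (Nat.card G : ℂ) • χ = (l.map fun t => (t.2.2 : ℂ) • Cfsg.indFun t.1 (fun a => (t.2.1 a : ℂ))).sum := by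
  open Cfsg Cfsg.Agent.CharBase Cfsg.Agent.Char Cfsg.Agent.Char.BI Cfsg.Agent.Char.AI in
  (
    have h := card_smul_mem_cycSpan hχ
    generalize (Nat.card G : ℂ) • χ = ξ at h
    clear hχ
    unfold cycSpan at h
    induction h using AddSubgroup.closure_induction with
    | zero => exact ⟨[], by simp, by simp⟩
    | add a b _ _ ha hb =>
      obtain ⟨l1, h1, rfl⟩ := ha
      obtain ⟨l2, h2, rfl⟩ := hb
      refine ⟨l1 ++ l2, ?_, by rw [List.map_append, List.sum_append]⟩
      intro t ht
      rcases List.mem_append.mp ht with ht | ht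
      · exact h1 t ht
      · exact h2 t ht
    | neg a _ ha =>
      obtain ⟨l1, h1, rfl⟩ := ha
      refine ⟨l1.map (fun t => ⟨t.1, (t.2.1, - t.2.2)⟩), ?_, ?_⟩
      · intro t ht
        rw [List.mem_map] at ht
        obtain ⟨t', ht', rfl⟩ := ht
        exact h1 t' ht'
      · rw [List.map_map, List.sum_neg]
        congr 1
        rw [List.map_map]
        apply List.map_congr_left
        intro t _
        simp
    | mem f hf =>
      obtain ⟨A, l, hA, rfl⟩ := hf
      refine ⟨[⟨A, (l, 1)⟩], ?_, by simp⟩
      intro t ht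
      rw [List.mem_singleton] at ht
      subst ht
      exact hA
  )

end Cfsg.Agent.S0177
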