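import Cfsg.Statements.S0178
import Cfsg.Agent.H75.Tools
import Cfsg.Agent.Char.Induced
import Cfsg.Agent.Char.IndRep

set_option autoImplicit false
open Cfsg

namespace Cfsg.Agent.S0178

open Cfsg.Agent.CharBase Cfsg.Agent.H75

/-- The degree of an irreducible complex representation of a finite group is at most the index of any abelian subgroup. -/
theorem result {G : Type*} [Group G] [Finite G] {V : Type*} [AddCommGroup V] [Module ℂ V] [FiniteDimensional ℂ V] (ρ : Representation ℂ G V) [ρ.IsIrreducible] (A : Subgroup G) (hA : ∀ a ∈ A, ∀ b ∈ A, a * b = b * a) : Module.finrank ℂ V ≤ A.index := by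
  classical
  have := Fintype.ofFinite G
  have := Fintype.ofFinite A
  have hρ : ρ.IsIrreducible := inferInstance
  let χ : IrrCharacter G := irrOfRep ρ hρ
  have hχ1 : (χ : G → ℂ) 1 = Module.finrank ℂ V := irrOfRep_one ρ hρ
  -- a linear constituent of the restriction
  have hres := isCharacter_restrict (irr_isCharacter χ) A
  obtain ⟨l, hl⟩ : ∃ l : IrrCharacter A, classInner (fun a : A => (χ : G → ℂ) a) (l : A → ℂ) ≠ 0 := by
    by_contra hne
    push Not at hne
    have h1 := classFun_eq_zero_of_classInner (isClassFunction_of_isCharacter hres) hne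
    have h2 := congrFun h1 1
    exact irr_one_ne_zero χ.2 h2
  have hl1 : (l : A → ℂ) 1 = 1 := by
    have h1 : deg l = 1 := by
      have h2 : Nat.card (IrrCharacter A) = Nat.card A := by
        rw [card_irr_eq_card_conjClasses]
        have hinj : Function.Injective (ConjClasses.mk : A → ConjClasses A) := by
          intro a b h
          rw [ConjClasses.mk_eq_mk_iff_isConj, isConj_iff] at h
          obtain ⟨c, hc⟩ := h
          rw [← hc]
          have h3 : c * a = a * c := Subtype.ext (hA c c.2 a a.2)
          rw [h3]; group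
        exact (Nat.card_congr (Equiv.ofBijective _ ⟨hinj, ConjClasses.mk_surjective⟩)).symm
      have := Fintype.ofFinite (IrrCharacter A)
      have h3 := sum_deg_sq (G := A)
      have h4 : ∑ χ : IrrCharacter A, (1 : ℕ) = Nat.card A := by
        rw [← h2]; simp
      have h5 : ∀ χ ∈ (Finset.univ : Finset (IrrCharacter A)), 1 ≤ deg χ ^ 2 :=
        fun χ _ => Nat.one_le_pow _ _ (deg_pos χ)
      have h6 := (Finset.sum_eq_sum_iff_of_le h5).mp (by rw [h3, h4]) l (Finset.mem_univ l)
      have : deg l ^ 2 = 1 := h6.symm
      simpa using this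
    rw [deg_spec, h1]; simp
  have hind : IsCharacter G (indFun A (l : A → ℂ)) := Char.indFun_isCharacter A _ (irr_isCharacter l)
  have h1 : indFun A (l : A → ℂ) 1 = (A.index : ℂ) := by
    rw [Char.indFun_one_apply, hl1, mul_one]
  have h2 : classInner (indFun A (l : A → ℂ)) (χ : G → ℂ) ≠ 0 := by
    rw [classInner_comm_of_isCharacter hind (irr_isCharacter χ),
      Char.frobenius_reciprocity' A _ _ (irr_isClassFunction χ)]
    exact hl
  have h3 := deg_le_of_constituent hind h1 χ h2
  have h4 : deg χ = Module.finrank ℂ V := by
    have := deg_spec χ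
    rw [hχ1] at this
    exact_mod_cast this.symm
  rw [← h4]
  exact h3

end Cfsg.Agent.S0178
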