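import Cfsg.Statements.S0180
import Cfsg.Agent.H75.Tools
import Cfsg.Agent.Char.Galois

set_option autoImplicit false
open Cfsg

namespace Cfsg.Agent.S0180

open Cfsg.Agent.CharBase Cfsg.Agent.H75

/-- Every irreducible complex character of a finite group takes only rational values if and only if g is conjugate to g ^ m for every element g and every m coprime to the group order. -/
theorem result {G : Type*} [Group G] [Finite G] : (∀ χ : Cfsg.IrrCharacter G, ∀ g : G, ∃ q : ℚ, (χ : G → ℂ) g = (q : ℂ)) ↔ ∀ m : ℕ, m.Coprime (Nat.card G) → ∀ g : G, IsConj g (g ^ m) := by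
  constructor
  · intro h m hm g
    apply isConj_of_irr_eq
    intro χ
    obtain ⟨σ, hσ⟩ := Char.exists_aut_pow Nat.card_pos.ne' hm
    have h1 := Char.map_char_eq (irr_isCharacter χ) g (orderOf_dvd_natCard g) σ hσ
    obtain ⟨q, hq⟩ := h χ g
    rw [← h1, hq]
    exact (map_ratCast σ q).symm
  · intro h χ g
    obtain ⟨m, hm⟩ := Char.exists_int_of_fixed (n := Nat.card G) Nat.card_pos.ne' ((χ : G → ℂ) g)
      (Char.char_mem_closure (irr_isCharacter χ) g dvd_rfl) (fun k σ hk hσ => by
        rw [Char.map_char_eq (irr_isCharacter χ) g (orderOf_dvd_natCard g) σ hσ]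
        exact (classFun_eq_of_isConj (irr_isClassFunction χ) (h k hk g)).symm)
    exact ⟨m, by rw [hm]; simp⟩

end Cfsg.Agent.S0180
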