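import Cfsg.Statements.S0181
import Cfsg.Agent.H75.Tools

set_option autoImplicit false
open Cfsg

namespace Cfsg.Agent.S0181

open Cfsg.Agent.CharBase Cfsg.Agent.H75

/-- Let H be a normal subgroup of a finite group G and ρ an irreducible complex representation whose kernel does not contain H. If g commutes with no non-identity element of H, then the character of ρ vanishes at g. -/
theorem result {G : Type*} [Group G] [Finite G] {V : Type*} [AddCommGroup V] [Module ℂ V] [FiniteDimensional ℂ V] (ρ : Representation ℂ G V) [ρ.IsIrreducible] (H : Subgroup G) [H.Normal] (hker : ∃ h ∈ H, ρ h ≠ LinearMap.id) (g : G) (hg : ∀ h ∈ H, h * g = g * h → h = 1) : ρ.character g = 0 := by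
  classical
  have := Fintype.ofFinite G
  have := Fintype.ofFinite H
  -- the fixed points of `H`
  let W : Subrepresentation ρ :=
    { toSubmodule :=
        { carrier := {v | ∀ h ∈ H, ρ h v = v}
          add_mem' := fun {a b} ha hb h hh => by rw [map_add, ha h hh, hb h hh]
          zero_mem' := fun h _ => map_zero _
          smul_mem' := fun c a ha h hh => by rw [map_smul, ha h hh] }
      apply_mem_toSubmodule := by
        intro x v hv h hh
        have h1 : x⁻¹ * h * x ∈ H := by
          simpa using Subgroup.Normal.conj_mem (H := H) inferInstance h hh x⁻¹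
        have h2 : ρ h (ρ x v) = ρ x (ρ (x⁻¹ * h * x) v) := by
          rw [← Module.End.mul_apply, ← Module.End.mul_apply, ← map_mul, ← map_mul]
          congr 2
          group
        rw [h2, hv _ h1] }
  have hW : W = ⊥ := by
    rcases eq_bot_or_eq_top W with h | h
    · exact h
    · exfalso
      obtain ⟨h0, hh0, hne⟩ := hker
      apply hne
      ext v
      have hv : v ∈ W.toSubmodule := by rw [h]; trivial
      exact hv h0 hh0
  have hP : (∑ h : H, ρ (h : G)) = 0 := by
    ext v
    have h1 : (∑ h : H, ρ (h : G)) v ∈ W.toSubmodule := by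
      intro k hk
      rw [LinearMap.sum_apply, map_sum]
      refine Fintype.sum_equiv (Equiv.mulLeft ⟨k, hk⟩) _ _ (fun h => ?_)
      simp only [Equiv.coe_mulLeft]
      rw [← Module.End.mul_apply, ← map_mul]
      rfl
    rw [hW] at h1
    exact (Submodule.mem_bot ℂ).mp h1
  have hmem : ∀ h : H, g⁻¹ * h * g * (h : G)⁻¹ ∈ H := by
    intro h
    refine H.mul_mem ?_ (H.inv_mem h.2)
    simpa using Subgroup.Normal.conj_mem (H := H) inferInstance (h : G) h.2 g⁻¹
  let f : H → H := fun h => ⟨g⁻¹ * h * g * (h : G)⁻¹, hmem h⟩
  have hinj : Function.Injective f := by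
    intro a b hab
    have h3 : g⁻¹ * a * g * (a : G)⁻¹ = g⁻¹ * b * g * (b : G)⁻¹ := congrArg Subtype.val hab
    have h4 : ((b : G)⁻¹ * a) * g = g * ((b : G)⁻¹ * a) := by
      have h5 := congrArg (fun t => (b : G)⁻¹ * (g * t) * a) h3
      simp only [mul_assoc, inv_mul_cancel, mul_one, inv_mul_cancel_left, mul_inv_cancel_left] at h5
      simp only [mul_assoc]
      exact h5
    have h6 := hg _ (H.mul_mem (H.inv_mem b.2) a.2) h4
    exact Subtype.ext (inv_mul_eq_one.mp h6).symm
  have hbij : Function.Bijective f := Finite.injective_iff_bijective.mp hinj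
  have h1 : (∑ h : H, ρ.character (g * h)) = 0 := by
    have h2 : (∑ h : H, ρ.character (g * h)) = LinearMap.trace ℂ V (ρ g * ∑ h : H, ρ (h : G)) := by
      rw [Finset.mul_sum, map_sum]
      refine Finset.sum_congr rfl (fun h _ => ?_)
      rw [← map_mul]; rfl
    rw [h2, hP, mul_zero, map_zero]
  have h2 : (∑ h : H, ρ.character (g * h)) = ∑ h : H, ρ.character g := by
    rw [← hbij.sum_comp]
    refine Finset.sum_congr rfl (fun h _ => ?_)
    have h3 : g * (f h : G) = h * g * (h : G)⁻¹ := by
      change g * (g⁻¹ * h * g * (h : G)⁻¹) = _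
      group
    rw [h3]
    exact Representation.char_conj ρ g h
  rw [h2, Finset.sum_const, Finset.card_univ, nsmul_eq_mul] at h1
  rcases mul_eq_zero.mp h1 with h | h
  · exfalso
    have : Fintype.card H ≠ 0 := Fintype.card_ne_zero
    exact this (by exact_mod_cast h)
  · exact h

end Cfsg.Agent.S0181
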