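import Cfsg.Statements.S0183
import Cfsg.Agent.FT.Base

set_option autoImplicit false
open Cfsg

namespace Cfsg.Agent.S0183

/-- The CN-Theorem for odd order: a finite group of odd order in which every non-identity element has a nilpotent centralizer (a CN-group) is solvable. -/
theorem result {G : Type*} [Group G] [Finite G] (hodd : Odd (Nat.card G)) (hCN : Cfsg.IsCNGroup G) : Group.IsSolvable G :=
  Cfsg.Agent.FT.solvable_of_odd hodd

end Cfsg.Agent.S0183
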