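import Cfsg.Statements.S0184
import Cfsg.Agent.H75.Tools
import Cfsg.Agent.Solv.MinNormal

set_option autoImplicit false
open Cfsg

namespace Cfsg.Agent.S0184

open Cfsg.Agent.CharBase Cfsg.Agent.H75

/-- A finite p-group admits a faithful irreducible complex representation if and only if its centre is cyclic. -/
theorem result {G : Type*} [Group G] [Finite G] (p : ℕ) [Fact p.Prime] (hG : IsPGroup p G) : (∃ (n : ℕ) (ρ : Representation ℂ G (Fin n → ℂ)), ρ.IsIrreducible ∧ Function.Injective ρ) ↔ IsCyclic (Subgroup.center G) := by
  classical
  have := Fintype.ofFinite G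
  constructor
  · rintro ⟨n, ρ, hρ, hinj⟩
    have := hρ
    -- the centre acts by scalars
    have hsc : ∀ z : Subgroup.center G, ∃ c : ℂ, ρ (z : G) = c • LinearMap.id := by
      intro z
      obtain ⟨c, hc⟩ := Char.schur_scalar ρ (ρ (z : G)) (fun g v => by
        have hz := Subgroup.mem_center_iff.mp z.2 g
        have h1 : ρ (z : G) * ρ g = ρ g * ρ (z : G) := by
          rw [← map_mul, ← map_mul, hz]
        exact congrArg (fun f => f v) h1)
      exact ⟨c, hc⟩
    choose c hc using hsc
    have hn : Nontrivial (Fin n → ℂ) := Char.nontrivial_of_isIrreducible ρ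
    have hmul : ∀ a b, c (a * b) = c a * c b := by
      intro a b
      have h1 : ρ ((a * b : Subgroup.center G) : G) = ρ (a : G) * ρ (b : G) := by
        rw [← map_mul]; rfl
      rw [hc, hc, hc] at h1
      obtain ⟨v, hv⟩ := exists_ne (0 : Fin n → ℂ)
      have h2 := congrArg (fun f => f v) h1
      simp only [LinearMap.smul_apply, LinearMap.id_coe, id_eq, Module.End.mul_apply, smul_smul] at h2
      exact smul_left_injective ℂ hv h2
    have hone : c 1 = 1 := by
      have h1 : ρ ((1 : Subgroup.center G) : G) = 1 := by simp
      rw [hc] at h1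
      obtain ⟨v, hv⟩ := exists_ne (0 : Fin n → ℂ)
      have h2 := congrArg (fun f => f v) h1
      simp only [LinearMap.smul_apply, LinearMap.id_coe, id_eq, Module.End.one_apply] at h2
      have h3 : c 1 • v = (1 : ℂ) • v := by rw [h2, one_smul]
      exact smul_left_injective ℂ hv h3
    let f : Subgroup.center G →* ℂ := { toFun := c, map_one' := hone, map_mul' := hmul }
    have hf : Function.Injective f := by
      intro a b hab
      apply Subtype.ext
      apply hinj
      rw [hc, hc]
      have : c a = c b := hab
      rw [this]
    exact isCyclic_of_injective_ringHom f hf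
  · intro hcyc
    by_cases htriv : Nontrivial G
    · -- element of order p in the centre
      have := hG.center_nontrivial
      have := hG.isNilpotent
      have hpG : IsPGroup p (Subgroup.center G) := hG.to_subgroup _
      obtain ⟨w, hw⟩ : ∃ w : Subgroup.center G, orderOf w = p := by
        apply exists_prime_orderOf_dvd_card' p
        obtain ⟨k, hk⟩ := (IsPGroup.iff_card.mp hpG)
        rw [hk]
        apply dvd_pow_self
        rintro rfl
        rw [pow_zero] at hk
        have := Finite.one_lt_card (α := Subgroup.center G)
        omega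
      have hw1 : (w : G) ≠ 1 := by
        intro h
        have : w = 1 := Subtype.ext h
        rw [this, orderOf_one] at hw
        exact (Fact.out : p.Prime).one_lt.ne hw
      obtain ⟨χ, hχ⟩ : ∃ χ : IrrCharacter G, (χ : G → ℂ) (w : G) ≠ (χ : G → ℂ) 1 := by
        by_contra hne
        push Not at hne
        exact hw1 (isConj_one_left.mp (isConj_of_irr_eq hne))
      obtain ⟨n, ρ, hρ, hρχ⟩ := χ.2
      refine ⟨n, ρ, hρ, ?_⟩
      have hker : ∀ g : G, ρ g = 1 → g = 1 := by
        intro g hg
        by_contra hg1
        -- the kernel is a nontrivial normal subgroup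
        let K : Subgroup G := charKer (irr_isCharacter χ)
        have hK : K.Normal := charKer_normal _
        have hKnt : K ≠ ⊥ := by
          intro hb
          apply hg1
          have : g ∈ K := by
            change (χ : G → ℂ) g = (χ : G → ℂ) 1
            rw [← hρχ, rep_eq_char_one_iff]; exact hg
          rw [hb] at this
          exact Subgroup.mem_bot.mp this
        have h1 := Solv.inf_center_ne_bot_of_nilpotent K hKnt
        obtain ⟨y, hy1⟩ := Subgroup.ne_bot_iff_exists_ne_one.mp h1
        obtain ⟨hyK, hyZ⟩ := Subgroup.mem_inf.mp y.2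
        let y' : Subgroup.center G := ⟨y, hyZ⟩
        have hy' : y' ≠ 1 := by
          intro h
          apply hy1
          have h5 : (y' : G) = 1 := by rw [h]; rfl
          exact Subtype.ext h5
        have h2 : w ∈ Subgroup.zpowers y' := by
          apply mem_zpowers_of_cyclic
          rw [hw]
          exact hpG.dvd_orderOf hy'
        obtain ⟨k, hk⟩ := Subgroup.mem_zpowers_iff.mp h2
        apply hχ
        have h3 : (w : G) ∈ K := by
          rw [← hk]
          exact Subgroup.zpow_mem _ hyK k
        exact h3
      intro a b hab
      have : ρ (a * b⁻¹) = 1 := by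
        rw [map_mul, hab, ← map_mul, mul_inv_cancel, map_one]
      exact mul_inv_eq_one.mp (hker _ this)
    · rw [not_nontrivial_iff_subsingleton] at htriv
      obtain ⟨n, ρ, hρ, -⟩ := isIrrCharacter_one (G := G)
      exact ⟨n, ρ, hρ, fun a b _ => Subsingleton.elim a b⟩

end Cfsg.Agent.S0184
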