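import Cfsg.Statements.S0185
import Cfsg.Agent.H75.Tools

set_option autoImplicit false
open Cfsg

namespace Cfsg.Agent.S0185

open Cfsg.Agent.CharBase Cfsg.Agent.H75

/-- If a finite group has a faithful complex representation of degree less than the smallest prime dividing its order, the group is abelian. -/
theorem result {G : Type*} [Group G] [Finite G] {V : Type*} [AddCommGroup V] [Module ℂ V] [FiniteDimensional ℂ V] (ρ : Representation ℂ G V) (hfaithful : Function.Injective ρ) (hdeg : ∀ p : ℕ, p.Prime → p ∣ Nat.card G → Module.finrank ℂ V < p) (a b : G) : a * b = b * a := by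
  classical
  have := Fintype.ofFinite G
  have hχ : IsCharacter G ρ.character := CharBase.isCharacter_of_rep ρ
  have h1 : ρ.character 1 = (Module.finrank ℂ V : ℂ) := Representation.char_one ρ
  refine comm_of_faithful_linear hχ ?_ ?_ a b
  · intro g hg
    rw [h1, Char.rep_character_eq_finrank_iff] at hg
    apply hfaithful
    rw [hg, map_one]; rfl
  · intro ψ hψ
    have h2 : deg ψ ≤ Module.finrank ℂ V := by
      apply deg_le_of_constituent hχ h1 ψ
      convert hψ
    have h3 : deg ψ = 1 := by
      by_contra hne
      obtain ⟨p, hp, hpd⟩ := Nat.exists_prime_and_dvd hne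
      have h4 := hdeg p hp (hpd.trans (deg_dvd ψ))
      have h5 := Nat.le_of_dvd (deg_pos ψ) hpd
      omega
    rw [deg_spec, h3]; simp

end Cfsg.Agent.S0185
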