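import Cfsg.Statements.S0186
import Cfsg.Agent.H75.Tools

set_option autoImplicit false
open Cfsg

namespace Cfsg.Agent.S0186

open Cfsg.Agent.CharBase Cfsg.Agent.H75

/-- Let G be a finite simple group of order n and p a prime dividing n. If G has more than n / p^2 conjugacy classes, then every Sylow p-subgroup of G is abelian. -/
theorem result {G : Type*} [Group G] [Finite G] [IsSimpleGroup G] (p : ℕ) [Fact p.Prime] (hp : p ∣ Nat.card G) (hmany : Nat.card G < p ^ 2 * Nat.card (ConjClasses G)) (P : Sylow p G) (a b : G) (ha : a ∈ P) (hb : b ∈ P) : a * b = b * a := by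
  classical
  have := Fintype.ofFinite G
  have := Fintype.ofFinite (IrrCharacter G)
  have hpp : p.Prime := Fact.out
  have := Fintype.ofFinite (P : Subgroup G)
  -- either the Sylow subgroup has order p, or p² divides the order
  by_cases hp2 : p ^ 2 ∣ Nat.card G
  · obtain ⟨m, hm⟩ := hp2
    have h1 : m < Nat.card (ConjClasses G) := by
      rw [hm] at hmany
      exact Nat.lt_of_mul_lt_mul_left hmany
    -- there is a nonprincipal character of degree less than p
    obtain ⟨χ, hχ1, hχp⟩ : ∃ χ : IrrCharacter G, χ ≠ oneIrr G ∧ deg χ < p := by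
      by_contra hne
      push Not at hne
      have h2 := sum_deg_sq (G := G)
      have h3 : deg (oneIrr G) = 1 := by
        have := deg_spec (oneIrr G)
        rw [oneIrr_apply] at this
        exact_mod_cast this.symm
      rw [← Finset.add_sum_erase _ _ (Finset.mem_univ (oneIrr G)), h3] at h2
      have h4 : (Finset.univ.erase (oneIrr G)).card * p ^ 2 ≤
          ∑ x ∈ Finset.univ.erase (oneIrr G), deg x ^ 2 := by
        rw [← smul_eq_mul]
        apply Finset.card_nsmul_le_sum
        intro x hx
        exact Nat.pow_le_pow_left (hne x (Finset.ne_of_mem_erase hx)) 2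
      rw [Finset.card_erase_of_mem (Finset.mem_univ _), Finset.card_univ,
        ← Nat.card_eq_fintype_card, card_irr_eq_card_conjClasses] at h4
      rw [hm] at h2
      have h5 : m * p ^ 2 ≤ (Nat.card (ConjClasses G) - 1) * p ^ 2 :=
        Nat.mul_le_mul_right _ (by omega)
      have h6 : p ^ 2 * m = m * p ^ 2 := Nat.mul_comm _ _
      omega
    -- it is faithful
    have hker : ∀ g : G, (χ : G → ℂ) g = (χ : G → ℂ) 1 → g = 1 := by
      have hN : (charKer (irr_isCharacter χ)).Normal := charKer_normal _
      rcases hN.eq_bot_or_eq_top with h | h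
      · intro g hg
        have : g ∈ charKer (irr_isCharacter χ) := hg
        rw [h] at this
        exact Subgroup.mem_bot.mp this
      · exfalso
        apply hχ1
        have h2 : ∀ g : G, (χ : G → ℂ) g = (χ : G → ℂ) 1 := by
          intro g
          have : g ∈ charKer (irr_isCharacter χ) := by rw [h]; trivial
          exact this
        by_contra hne
        have h3 := classInner_irr_of_ne hne
        have h4 : classInner (χ : G → ℂ) ((oneIrr G : IrrCharacter G) : G → ℂ) = (χ : G → ℂ) 1 := by
          unfold classInner
          simp only [oneIrr_apply, map_one, mul_one, h2]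
          rw [Finset.sum_const, Finset.card_univ, ← Nat.card_eq_fintype_card, nsmul_eq_mul]
          have : (Nat.card G : ℂ) ≠ 0 := by exact_mod_cast Nat.card_pos.ne'
          field_simp
        rw [h4] at h3
        exact irr_one_ne_zero χ.2 h3
    have hres := isCharacter_restrict (irr_isCharacter χ) (P : Subgroup G)
    have hcomm := comm_of_faithful_linear hres (fun g hg => Subtype.ext (hker g hg)) (fun ψ hψ => by
      have h2 : deg ψ ≤ deg χ := by
        apply deg_le_of_constituent hres (deg_spec χ) ψ
        convert hψ
      have h3 := deg_dvd ψ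
      obtain ⟨k, hk⟩ := IsPGroup.iff_card.mp P.2
      rw [hk] at h3
      obtain ⟨j, hj, hj2⟩ := (Nat.dvd_prime_pow hpp).mp h3
      have h4 : deg ψ = 1 := by
        rcases Nat.eq_zero_or_pos j with h0 | h0
        · rw [hj2, h0, pow_zero]
        · exfalso
          have : p ^ 1 ≤ p ^ j := Nat.pow_le_pow_right hpp.pos h0
          rw [pow_one, ← hj2] at this
          omega
      rw [deg_spec, h4]; simp)
    have := hcomm ⟨a, ha⟩ ⟨b, hb⟩
    exact congrArg Subtype.val this
  · -- P has order p
    have h1 : Nat.card P = p := by
      have h2 := P.card_eq_multiplicity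
      have h3 : (Nat.card G).factorization p = 1 := by
        have h4 : 1 ≤ (Nat.card G).factorization p :=
          (hpp.dvd_iff_one_le_factorization Nat.card_pos.ne').mp hp
        have h5 : ¬ 2 ≤ (Nat.card G).factorization p := by
          intro h
          exact hp2 ((hpp.pow_dvd_iff_le_factorization Nat.card_pos.ne').mpr h)
        omega
      rw [h2, h3, pow_one]
    have : IsCyclic P := isCyclic_of_prime_card h1
    have := IsCyclic.isMulCommutative (α := P)
    exact congrArg Subtype.val (this.is_comm.comm ⟨a, ha⟩ ⟨b, hb⟩)

end Cfsg.Agent.S0186
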