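import Cfsg.Statements.S0188
import Cfsg.Agent.H75.Tools

set_option autoImplicit false
open Cfsg

namespace Cfsg.Agent.S0188

open Cfsg.Agent.CharBase Cfsg.Agent.H75
open scoped ComplexConjugate

theorem prod_inner {G : Type*} [Group G] [Fintype G] {H : Type*} [Group H] [Fintype H]
    (φ φ' : G → ℂ) (ψ ψ' : H → ℂ) :
    classInner (fun x : G × H => φ x.1 * ψ x.2) (fun x : G × H => φ' x.1 * ψ' x.2) =
      classInner φ φ' * classInner ψ ψ' := by
  unfold classInner
  rw [Fintype.sum_prod_type, Nat.card_prod, Nat.cast_mul, mul_inv]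
  have h1 : ∀ g : G, (∑ h : H, φ g * ψ h * conj (φ' g * ψ' h)) =
      (φ g * conj (φ' g)) * ∑ h : H, ψ h * conj (ψ' h) := by
    intro g
    rw [Finset.mul_sum]
    refine Finset.sum_congr rfl (fun h _ => ?_)
    rw [map_mul]; ring
  simp only [h1]
  rw [← Finset.sum_mul]
  ring

theorem prod_isIrr {G : Type*} [Group G] [Finite G] {H : Type*} [Group H] [Finite H]
    {φ : G → ℂ} {ψ : H → ℂ} (hφ : IsIrrCharacter G φ) (hψ : IsIrrCharacter H ψ) :
    IsIrrCharacter (G × H) (fun x => φ x.1 * ψ x.2) := by
  classical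
  have := Fintype.ofFinite G
  have := Fintype.ofFinite H
  have h1 : IsCharacter (G × H) (fun x => φ x.1 * ψ x.2) :=
    isCharacter_mul (isCharacter_comp (isCharacter_of_isIrr hφ) (MonoidHom.fst G H))
      (isCharacter_comp (isCharacter_of_isIrr hψ) (MonoidHom.snd G H))
  rw [isIrrCharacter_iff h1, prod_inner]
  rw [classInner_irr_self ⟨φ, hφ⟩, classInner_irr_self ⟨ψ, hψ⟩, mul_one]

/-- The irreducible complex characters of G × H are precisely the functions (g, h) ↦ φ g * ψ h with φ, ψ irreducible characters of G and H. -/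
theorem result {G : Type*} [Group G] [Finite G] {H : Type*} [Group H] [Finite H] (θ : G × H → ℂ) : Cfsg.IsIrrCharacter (G × H) θ ↔ ∃ (φ : G → ℂ) (ψ : H → ℂ), Cfsg.IsIrrCharacter G φ ∧ Cfsg.IsIrrCharacter H ψ ∧ θ = fun x => φ x.1 * ψ x.2 := by
  classical
  have := Fintype.ofFinite G
  have := Fintype.ofFinite H
  constructor
  · intro hθ
    by_contra hne
    push Not at hne
    have hcl : IsClassFunction (G × H) θ := isClassFunction_of_isCharacter (isCharacter_of_isIrr hθ)
    -- θ is orthogonal to all products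
    have h1 : ∀ (φ : IrrCharacter G) (ψ : IrrCharacter H),
        ∑ g : G, (∑ h : H, θ (g, h) * conj ((ψ : H → ℂ) h)) * conj ((φ : G → ℂ) g) = 0 := by
      intro φ ψ
      have h2 := classInner_irr_of_ne (χ := ⟨θ, hθ⟩) (ψ := ⟨_, prod_isIrr φ.2 ψ.2⟩)
        (fun h => hne φ ψ φ.2 ψ.2 (congrArg Subtype.val h))
      unfold classInner at h2
      have h3 : ((Nat.card (G × H) : ℂ))⁻¹ ≠ 0 := inv_ne_zero (by exact_mod_cast Nat.card_pos.ne')
      have h4 := (mul_eq_zero.mp h2).resolve_left h3
      rw [Fintype.sum_prod_type] at h4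
      rw [← h4]
      refine Finset.sum_congr rfl (fun g _ => ?_)
      rw [Finset.sum_mul]
      refine Finset.sum_congr rfl (fun h _ => ?_)
      simp only [map_mul]
      ring
    have h2 : ∀ (ψ : IrrCharacter H) (g : G), ∑ h : H, θ (g, h) * conj ((ψ : H → ℂ) h) = 0 := by
      intro ψ g
      have hf : IsClassFunction G (fun g => ∑ h : H, θ (g, h) * conj ((ψ : H → ℂ) h)) := by
        intro a b
        refine Finset.sum_congr rfl (fun h _ => ?_)
        have := hcl (a, h) (b, 1)
        simp only [Prod.mk_mul_mk, Prod.inv_mk, one_mul, inv_one, mul_one] at this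
        rw [this]
      have h5 : (fun g => ∑ h : H, θ (g, h) * conj ((ψ : H → ℂ) h)) = 0 := by
        apply classFun_eq_zero_of_classInner hf
        intro φ
        unfold classInner
        rw [h1 φ ψ, mul_zero]
      exact congrFun h5 g
    have h3 : θ (1, 1) = 0 := by
      have hf : IsClassFunction H (fun h => θ (1, h)) := by
        intro a b
        have := hcl (1, a) (1, b)
        simpa using this
      have h5 : (fun h : H => θ (1, h)) = 0 := by
        apply classFun_eq_zero_of_classInner hf
        intro ψ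
        unfold classInner
        rw [h2 ψ 1, mul_zero]
      exact congrFun h5 1
    exact irr_one_ne_zero hθ h3
  · rintro ⟨φ, ψ, hφ, hψ, rfl⟩
    exact prod_isIrr hφ hψ

end Cfsg.Agent.S0188
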