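import Cfsg.Statements.S0191
import Cfsg.Agent.H75.Zeros

set_option autoImplicit false
open Cfsg

namespace Cfsg.Agent.S0191

open Cfsg.Agent.CharBase Cfsg.Agent.H75

/-- An irreducible complex representation of a finite group of degree greater than 1 has a character that vanishes somewhere. -/
theorem result {G : Type*} [Group G] [Finite G] {V : Type*} [AddCommGroup V] [Module ℂ V] [FiniteDimensional ℂ V] (ρ : Representation ℂ G V) [ρ.IsIrreducible] (hdeg : 1 < Module.finrank ℂ V) : ∃ g : G, ρ.character g = 0 := by
  have hρ : ρ.IsIrreducible := inferInstance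
  let χ : IrrCharacter G := irrOfRep ρ hρ
  have hχ1 : (χ : G → ℂ) 1 = Module.finrank ℂ V := irrOfRep_one ρ hρ
  have h4 : deg χ = Module.finrank ℂ V := by
    have := deg_spec χ
    rw [hχ1] at this
    exact_mod_cast this.symm
  exact exists_zero_of_nonlinear χ (by rw [h4]; exact hdeg)

end Cfsg.Agent.S0191
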