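import Cfsg.Statements.S0197
import Cfsg.Agent.H67.L33.OrderMain
import Cfsg.Agent.H17.Basic

set_option autoImplicit false
open Cfsg

namespace Cfsg.Agent.S0197

/-- If a finite simple group has an involution whose centralizer is isomorphic to the general linear group GL(2, 3), then the group has order 5616 or 7920. -/
theorem result {G : Type*} [Group G] [Finite G] [IsSimpleGroup G] (t : G) (ht : orderOf t = 2) (e : Subgroup.centralizer ({t} : Set G) ≃* Matrix.GeneralLinearGroup (Fin 2) (ZMod 3)) : Nat.card G = 5616 ∨ Nat.card G = 7920 := by
  have hnc : ¬ IsMulCommutative G := by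
    intro hc
    obtain ⟨P⟩ := H67.L33.exists_par e
    have h1 : P.el (H67.L33.a0 * H67.L33.m0) = P.el (H67.L33.m0 * H67.L33.a0) := by
      rw [P.mul, P.mul]
      exact hc.is_comm.comm _ _
    have h2 := P.inj h1
    revert h2
    decide +kernel
  exact H67.L33.order_main (H17.commutator_eq_top hnc) ht e

end Cfsg.Agent.S0197
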