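import Cfsg.Statements.S0211
import Cfsg.Agent.H4.Dihedral

set_option autoImplicit false
open Cfsg

namespace Cfsg.Agent.S0211

/-- Let x, y be involutions with xy of even order n and z = (xy)^(n/2). Then xz is conjugate to x by an element of the subgroup generated by x, y if and only if 4 divides n. -/
theorem result {G : Type*} [Group G] [Finite G] (x y : G) (hx : orderOf x = 2) (hy : orderOf y = 2) (heven : Even (orderOf (x * y))) : (∃ d ∈ Subgroup.closure ({x, y} : Set G), d * x * d⁻¹ = x * (x * y) ^ (orderOf (x * y) / 2)) ↔ 4 ∣ orderOf (x * y) := by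
  exact Cfsg.Agent.H4.exists_conj_mul_pow_half_iff (Cfsg.Agent.H4.mul_self_of_orderOf_two hx)
    (Cfsg.Agent.H4.mul_self_of_orderOf_two hy) heven

end Cfsg.Agent.S0211
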