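import Cfsg.Statements.S0218
import Mathlib

set_option autoImplicit false
open Cfsg

namespace Cfsg.Agent.S0218

/-- The generalized quaternion group of order 2^(n+3) contains exactly one element of order 2. -/
theorem result (n : ℕ) : Nat.card {x : QuaternionGroup (2 ^ (n + 1)) // orderOf x = 2} = 1 := by
  set m : ℕ := 2 ^ (n + 1) with hm
  have hmpos : 0 < m := by positivity
  have : NeZero m := ⟨hmpos.ne'⟩
  have : NeZero (2 * m) := ⟨by positivity⟩
  rw [Nat.card_eq_one_iff_exists]
  have key : orderOf (QuaternionGroup.a (m : ZMod (2 * m)) : QuaternionGroup m) = 2 := by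
    have h2 : (QuaternionGroup.a (m : ZMod (2 * m)) : QuaternionGroup m) ^ 2 = 1 := by
      rw [sq, QuaternionGroup.a_mul_a, ← QuaternionGroup.a_zero]
      congr 1
      have : ((2 * m : ℕ) : ZMod (2 * m)) = 0 := ZMod.natCast_self _
      rw [← this]; push_cast; ring
    have h1 : (QuaternionGroup.a (m : ZMod (2 * m)) : QuaternionGroup m) ≠ 1 := by
      rw [← QuaternionGroup.a_zero]
      intro h
      injection h with h
      rw [ZMod.natCast_eq_zero_iff] at h
      have := Nat.le_of_dvd hmpos h
      omega
    exact orderOf_eq_prime h2 h1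
  refine ⟨⟨QuaternionGroup.a (m : ZMod (2 * m)), key⟩, ?_⟩
  rintro ⟨x, hx⟩
  apply Subtype.ext
  rcases x with i | i
  · have hx2 : (QuaternionGroup.a i : QuaternionGroup m) ^ 2 = 1 := by
      rw [← hx]; exact pow_orderOf_eq_one _
    have hx1 : (QuaternionGroup.a i : QuaternionGroup m) ≠ 1 := by
      intro h; rw [h, orderOf_one] at hx; omega
    rw [sq, QuaternionGroup.a_mul_a, ← QuaternionGroup.a_zero] at hx2
    injection hx2 with hx2
    rw [← QuaternionGroup.a_zero] at hx1
    have hi0 : i ≠ 0 := fun h => hx1 (by rw [h])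
    have hiv : ((i.val + i.val : ℕ) : ZMod (2 * m)) = 0 := by
      push_cast; rw [ZMod.natCast_zmod_val]; exact hx2
    rw [ZMod.natCast_eq_zero_iff] at hiv
    have hlt := ZMod.val_lt i
    have hne : i.val ≠ 0 := fun h => hi0 ((ZMod.val_eq_zero i).1 h)
    obtain ⟨c, hc⟩ := hiv
    have hival : i.val = m := by
      have h1 : c < 2 := by nlinarith
      have h0 : c ≠ 0 := by rintro rfl; omega
      have : c = 1 := by omega
      subst this; omega
    show QuaternionGroup.a i = QuaternionGroup.a (m : ZMod (2 * m))
    congr 1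
    have := ZMod.natCast_zmod_val i
    rw [hival] at this
    exact this.symm
  · exfalso
    rw [QuaternionGroup.orderOf_xa] at hx
    omega

end Cfsg.Agent.S0218
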