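import Cfsg.Statements.S0226
import Cfsg.Agent.H80.Count

set_option autoImplicit false
open Cfsg

namespace Cfsg.Agent.S0226

/-- A finite group of even order has an odd number of involutions. -/
theorem result {G : Type*} [Group G] [Finite G] (heven : Even (Nat.card G)) : Odd (Nat.card {t : G // orderOf t = 2}) := by
  exact Cfsg.Agent.H80.odd_card_involutions heven

end Cfsg.Agent.S0226
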