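import Mathlib
import Cfsg.Statements.S0244
-- import your own Cfsg.Agent.* helpers here

set_option autoImplicit false
open Cfsg

namespace Cfsg.Agent.S0244

/-- Sp_2 = SL_2: a matrix on Fin 1 ⊕ Fin 1 lies in Mathlib's symplectic group iff its determinant is 1. -/
theorem result {R : Type*} [CommRing R] (A : Matrix (Fin 1 ⊕ Fin 1) (Fin 1 ⊕ Fin 1) R) : A ∈ Matrix.symplecticGroup (Fin 1) R ↔ A.det = 1 := by
  rw [SymplecticGroup.mem_iff, ← Matrix.fromBlocks_toBlocks A]
  generalize A.toBlocks₁₁ = a
  generalize A.toBlocks₁₂ = b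
  generalize A.toBlocks₂₁ = c
  generalize A.toBlocks₂₂ = d
  have hdet : (Matrix.fromBlocks a b c d).det = a 0 0 * d 0 0 - b 0 0 * c 0 0 := by
    rw [← Matrix.det_submatrix_equiv_self (finSumFinEquiv (m := 1) (n := 1)).symm, Matrix.det_fin_two]
    rfl
  rw [hdet, Matrix.J, Matrix.fromBlocks_transpose, Matrix.fromBlocks_multiply, Matrix.fromBlocks_multiply]
  constructor
  · intro h
    have h12 := congrFun (congrFun h (Sum.inl 0)) (Sum.inr 0)
    simp [Matrix.mul_apply] at h12
    linear_combination -h12
  · intro h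
    ext i j
    rcases i with i | i <;> rcases j with j | j <;> fin_cases i <;> fin_cases j <;>
      simp [Matrix.mul_apply] <;> first | (linear_combination h) | (linear_combination -h) | ring

end Cfsg.Agent.S0244
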