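import Mathlib
import Cfsg.Statements.S0247
import Cfsg.Agent.ClassSp.Sp42
-- import your own Cfsg.Agent.* helpers here

set_option autoImplicit false
open Cfsg

namespace Cfsg.Agent.S0247

/-- Sp_4(2) is isomorphic to the symmetric group S_6. -/
theorem result {F : Type*} [Field F] [Fintype F] (hF : Fintype.card F = 2) : Nonempty (Matrix.symplecticGroup (Fin 2) F ≃* Equiv.Perm (Fin 6)) := by
  obtain ⟨e⟩ := Cfsg.Agent.ClassSp.Sp42.main
  let eF : F ≃+* ZMod 2 := (ZMod.ringEquivOfPrime F (by norm_num) hF).symm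
  exact ⟨(Cfsg.Agent.ClassSp.spCongr eF).trans e⟩

end Cfsg.Agent.S0247
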