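import Mathlib
import Cfsg.Statements.S0255
import Cfsg.Agent.ClassBase.PSL27
-- import your own Cfsg.Agent.* helpers here

set_option autoImplicit false
open Cfsg

namespace Cfsg.Agent.S0255

/-- PSL_2(7) is isomorphic to PSL_3(2). -/
theorem result {F K : Type*} [Field F] [Fintype F] [Field K] [Fintype K] (hF : Fintype.card F = 7) (hK : Fintype.card K = 2) : Nonempty (Matrix.ProjectiveSpecialLinearGroup (Fin 2) F ≃* Matrix.ProjectiveSpecialLinearGroup (Fin 3) K) := by
  classical
  obtain ⟨e⟩ := Cfsg.Agent.ClassBase.PSL27.main_27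
  have hc : Subgroup.center (Matrix.SpecialLinearGroup (Fin 3) (ZMod 2)) = ⊥ := by
    have h3 := Cfsg.Agent.H4.card_center_SL (F := ZMod 2) 3 (by norm_num)
    rw [ZMod.card] at h3
    exact Subgroup.card_eq_one.1 h3
  let e2 : Matrix.SpecialLinearGroup (Fin 3) (ZMod 2) ≃*
      Matrix.ProjectiveSpecialLinearGroup (Fin 3) (ZMod 2) :=
    (QuotientGroup.quotientBot.symm).trans (QuotientGroup.quotientMulEquivOfEq hc.symm)
  let eF : F ≃+* ZMod 7 := (ZMod.ringEquivOfPrime F (by norm_num) hF).symm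
  let eK : K ≃+* ZMod 2 := (ZMod.ringEquivOfPrime K (by norm_num) hK).symm
  exact ⟨(Cfsg.Agent.ClassBase.pslCongr eF).trans
    (e.trans (e2.trans (Cfsg.Agent.ClassBase.pslCongr eK).symm))⟩

end Cfsg.Agent.S0255
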