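import Cfsg.Statements.S0257
import Cfsg.Agent.H81.SL2Card

set_option autoImplicit false
open Cfsg

namespace Cfsg.Agent.S0257

/-- count over `ZMod 3` -/
theorem card_six : Nat.card {t : ZMod 3 × ZMod 3 × ZMod 3 // - (t.1 * t.1) - t.2.1 * t.2.2 = 1} = 6 := by
  rw [Nat.card_eq_fintype_card]; decide

/-- trace-zero elements of `SL₂(3)`: at most six -/
theorem card_trace_zero {F : Type*} [Field F] [Fintype F] (hF : Fintype.card F = 3) :
    Nat.card {g : Matrix.SpecialLinearGroup (Fin 2) F // g.1 0 0 + g.1 1 1 = 0} ≤ 6 := by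
  have hF' : Fintype.card F = Fintype.card (ZMod 3) := by rw [hF, ZMod.card]
  let e : F ≃+* ZMod 3 := FiniteField.ringEquivOfCardEq hF'
  rw [← card_six]
  let f : {g : Matrix.SpecialLinearGroup (Fin 2) F // g.1 0 0 + g.1 1 1 = 0} →
      {t : ZMod 3 × ZMod 3 × ZMod 3 // - (t.1 * t.1) - t.2.1 * t.2.2 = 1} := fun g =>
    ⟨(e (g.1.1 0 0), e (g.1.1 0 1), e (g.1.1 1 0)), by
      have hd := g.1.2
      have ht := g.2
      rw [Matrix.det_fin_two] at hd
      have h11 : g.1.1 1 1 = - g.1.1 0 0 := by linear_combination ht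
      rw [h11] at hd
      have := congrArg e hd
      simp only [map_sub, map_mul, map_neg, map_one] at this
      simp only
      linear_combination this⟩
  refine Nat.card_le_card_of_injective f ?_
  intro g h hgh
  have h1 := congrArg (fun t => t.1.1) hgh
  have h2 := congrArg (fun t => t.1.2.1) hgh
  have h3 := congrArg (fun t => t.1.2.2) hgh
  simp only [f] at h1 h2 h3
  have a1 := e.injective h1
  have a2 := e.injective h2
  have a3 := e.injective h3
  apply Subtype.ext
  apply Cfsg.Agent.H81.slExt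
  ext i j
  fin_cases i <;> fin_cases j
  · exact a1
  · exact a2
  · exact a3
  · have t1 := g.2
    have t2 := h.2
    have : g.1.1 1 1 = h.1.1 1 1 := by linear_combination t1 - t2 - a1
    exact this

/-- SL_2(3) has a normal subgroup of index 3 isomorphic to the quaternion group of order 8, and its centre has order 2. -/
theorem result {F : Type*} [Field F] [Fintype F] (hF : Fintype.card F = 3) : (∃ Q : Subgroup (Matrix.SpecialLinearGroup (Fin 2) F), Q.Normal ∧ Q.index = 3 ∧ Nonempty (Q ≃* QuaternionGroup 2)) ∧ Nat.card (Subgroup.center (Matrix.SpecialLinearGroup (Fin 2) F)) = 2 := by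
  have h2 : (2 : F) ≠ 0 := Cfsg.Agent.H81.two_ne_zero_of_odd (by rw [hF]; decide)
  refine ⟨?_, Cfsg.Agent.H81.card_center_sl2 h2⟩
  have hcard : Nat.card (Matrix.SpecialLinearGroup (Fin 2) F) = 24 := by
    rw [Cfsg.Agent.H81.card_sl2, hF]
  obtain ⟨x, w, hx, hw2, hw⟩ := Cfsg.Agent.H81.exists_dicyclic (F := F) (by rw [hF]; decide) 2 le_rfl (Or.inr (by rw [hF]))
  obtain ⟨Q, ⟨e⟩, hcardQ, hxQ, hwQ⟩ := Cfsg.Agent.H81.exists_subgroup_quat 2 le_rfl x w hw2 hw hx
  -- elements of Q are ±1 or trace zero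
  have key : ∀ s ∈ Q, s = 1 ∨ s.1 = -1 ∨ s.1 0 0 + s.1 1 1 = 0 := by
    intro s hs
    have hs4 : s ^ 4 = 1 := by
      have h4 : ∀ y : QuaternionGroup 2, y ^ 4 = 1 := by decide
      have := h4 (e ⟨s, hs⟩)
      rw [← map_pow] at this
      have h5 := (MulEquiv.map_eq_one_iff e).1 this
      exact congrArg Subtype.val h5
    have hs2 : s ^ 2 * s ^ 2 = 1 := by rw [← pow_add]; exact hs4
    rcases Cfsg.Agent.H81.sl2_invol h2 _ hs2 with h | h
    · rcases Cfsg.Agent.H81.sl2_invol h2 s (by rw [← sq]; exact h) with h | h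
      · exact Or.inl h
      · exact Or.inr (Or.inl h)
    · right; right
      rw [Cfsg.Agent.H81.slPow_val] at h
      have hinv : s.1 = - (s⁻¹).1 := by
        have h1 : s.1 * (s⁻¹).1 = 1 := by
          rw [← Cfsg.Agent.H81.slMul_val, mul_inv_cancel]; rfl
        calc s.1 = s.1 * (s.1 * (s⁻¹).1) := by rw [h1, mul_one]
          _ = (s.1 ^ 2) * (s⁻¹).1 := by rw [sq, mul_assoc]
          _ = - (s⁻¹).1 := by rw [h, neg_one_mul]
      rw [Cfsg.Agent.H81.slInv_val, Matrix.adjugate_fin_two] at hinv
      have := congrFun (congrFun hinv 0) 0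
      simp at this
      linear_combination this
  -- the set of trace zero elements is contained in Q
  classical
  have hfin : Finite (Matrix.SpecialLinearGroup (Fin 2) F) := inferInstance
  let m1 : Matrix.SpecialLinearGroup (Fin 2) F := ⟨-1, by simp [Matrix.det_neg]⟩
  let T : Set (Matrix.SpecialLinearGroup (Fin 2) F) := {g | g.1 0 0 + g.1 1 1 = 0}
  have hT : T.ncard ≤ 6 := card_trace_zero hF
  have hQT : (Q : Set (Matrix.SpecialLinearGroup (Fin 2) F)) ⊆ T ∪ {1, m1} := by
    intro s hs
    rcases key s hs with h | h | h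
    · right; left; exact h
    · right; right; exact Cfsg.Agent.H81.slExt h
    · left; exact h
  have hQcard : (Q : Set (Matrix.SpecialLinearGroup (Fin 2) F)).ncard = 8 := hcardQ
  have hcard2 : ({1, m1} : Set (Matrix.SpecialLinearGroup (Fin 2) F)).ncard ≤ 2 := by
    refine (Set.ncard_insert_le _ _).trans ?_
    rw [Set.ncard_singleton]
  have hun : (T ∪ {1, m1}).ncard ≤ 8 := (Set.ncard_union_le _ _).trans (by omega)
  have heq : (Q : Set (Matrix.SpecialLinearGroup (Fin 2) F)) = T ∪ {1, m1} :=
    Set.eq_of_subset_of_ncard_le hQT (by rw [hQcard]; exact hun) (Set.toFinite _)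
  have hm1c : m1 ∈ Subgroup.center (Matrix.SpecialLinearGroup (Fin 2) F) :=
    Cfsg.Agent.H81.neg_one_mem_center _ rfl
  have hnormal : Q.Normal := by
    constructor
    intro s hs g
    have hs' : s ∈ T ∪ {1, m1} := by rw [← heq]; exact hs
    have goal : g * s * g⁻¹ ∈ T ∪ {1, m1} := by
      rcases hs' with h | h | h
      · left
        change (g * s * g⁻¹).1 0 0 + (g * s * g⁻¹).1 1 1 = 0
        have htr : Matrix.trace (g * s * g⁻¹).1 = Matrix.trace s.1 := by
          rw [Cfsg.Agent.H81.slMul_val, Cfsg.Agent.H81.slMul_val, Matrix.trace_mul_comm, ← Matrix.mul_assoc,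
            ← Cfsg.Agent.H81.slMul_val, inv_mul_cancel, Cfsg.Agent.H81.slOne_val, Matrix.one_mul]
        rw [Matrix.trace_fin_two, Matrix.trace_fin_two] at htr
        rw [htr]; exact h
      · right; left
        rw [h]; group
      · right; right
        rw [h, Set.mem_singleton_iff]
        have := Subgroup.mem_center_iff.1 hm1c g
        rw [this]; group
    rw [← heq] at goal
    exact goal
  refine ⟨Q, hnormal, ?_, ⟨e⟩⟩
  have := Q.card_mul_index
  rw [hcardQ, hcard] at this
  omega

end Cfsg.Agent.S0257
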