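import Cfsg.Statements.S0260
import Cfsg.Agent.H81.SL2Sylow

set_option autoImplicit false
open Cfsg

namespace Cfsg.Agent.S0260

/-- Any two distinct Sylow p-subgroups of SL_2(q), p the characteristic, generate SL_2(q). -/
theorem result {F : Type*} [Field F] [Fintype F] (p : ℕ) [Fact p.Prime] [CharP F p] (P Q : Sylow p (Matrix.SpecialLinearGroup (Fin 2) F)) (h : P ≠ Q) : (P : Subgroup (Matrix.SpecialLinearGroup (Fin 2) F)) ⊔ (Q : Subgroup (Matrix.SpecialLinearGroup (Fin 2) F)) = ⊤ := by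
  obtain ⟨v, hv, hPv⟩ := Cfsg.Agent.H81.sylow_eq_Tsl p P
  obtain ⟨w, hw, hQw⟩ := Cfsg.Agent.H81.sylow_eq_Tsl p Q
  rw [hPv, hQw]
  rcases Cfsg.Agent.H81.cross_ne_zero_or hv hw with h1 | ⟨c, hc, rfl⟩
  · exact Cfsg.Agent.H81.Tsl_sup h1
  · exfalso
    apply h
    apply Sylow.ext
    rw [hPv, hQw, Cfsg.Agent.H81.Tsl_smul hc]

end Cfsg.Agent.S0260
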