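import Cfsg.Statements.S0263
import Mathlib

set_option autoImplicit false
open Cfsg

namespace Cfsg.Agent.S0263

/-- A Sylow p-subgroup of GL_n(q), p the characteristic, has order q^(n(n-1)/2). -/
theorem result {F : Type*} [Field F] [Fintype F] {q : ℕ} (hF : Fintype.card F = q) (p : ℕ) [Fact p.Prime] [CharP F p] (n : ℕ) (P : Sylow p (Matrix.GeneralLinearGroup (Fin n) F)) : Nat.card P = q ^ (n * (n - 1) / 2) := by
  subst hF
  obtain ⟨f, hpr, hq⟩ := FiniteField.card F p
  have hf : (f : ℕ) ≠ 0 := f.ne_zero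
  have hp : p.Prime := Fact.out
  rw [show Nat.card P = Nat.card (P : Subgroup (Matrix.GeneralLinearGroup (Fin n) F)) from rfl, P.card_eq_multiplicity, Matrix.card_GL_field]
  have h1 : (∏ i : Fin n, (Fintype.card F ^ n - Fintype.card F ^ (i : ℕ))) =
      Fintype.card F ^ (n * (n - 1) / 2) * ∏ i : Fin n, (Fintype.card F ^ (n - (i : ℕ)) - 1) := by
    rw [← Finset.sum_range_id_mul_two] <;> try skip
    rw [Nat.mul_div_cancel _ (by norm_num : 0 < 2)]
    rw [← Finset.prod_pow_eq_pow_sum, ← Fin.prod_univ_eq_prod_range (fun i => Fintype.card F ^ i) n,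
      ← Finset.prod_mul_distrib]
    refine Finset.prod_congr rfl fun i _ => ?_
    rw [Nat.mul_sub, mul_one, ← pow_add]
    congr 2
    omega
  have hnz : ∀ i : Fin n, ¬ p ∣ (Fintype.card F ^ (n - (i : ℕ)) - 1) := by
    intro i hdvd
    have hi : n - (i : ℕ) ≠ 0 := by omega
    have h2 : p ∣ Fintype.card F ^ (n - (i : ℕ)) := by
      rw [hq]
      exact dvd_pow (dvd_pow_self p hf) hi
    have h3 : 1 ≤ Fintype.card F ^ (n - (i : ℕ)) := Nat.one_le_pow _ _ Fintype.card_pos
    have h4 := (Nat.dvd_sub h2 hdvd)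
    rw [Nat.sub_sub_self h3] at h4
    exact hp.one_lt.ne' (Nat.dvd_one.mp h4)
  have hprod : ¬ p ∣ ∏ i : Fin n, (Fintype.card F ^ (n - (i : ℕ)) - 1) := by
    rw [Prime.dvd_finsetProd_iff hp.prime]
    rintro ⟨i, _, hi⟩
    exact hnz i hi
  rw [h1, Nat.factorization_mul, Finsupp.add_apply, Nat.factorization_eq_zero_of_not_dvd hprod, add_zero,
    Nat.factorization_pow, Finsupp.smul_apply, hq, hp.factorization_pow]
  · rw [Finsupp.single_eq_same, ← pow_mul, smul_eq_mul, mul_comm]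
  · exact pow_ne_zero _ Fintype.card_pos.ne'
  · intro h0
    exact hprod (h0 ▸ dvd_zero p)

end Cfsg.Agent.S0263
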