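import Cfsg.Statements.S0264
import Mathlib
import Cfsg.Agent.ClassBase.SL

set_option autoImplicit false
open Cfsg

namespace Cfsg.Agent.S0264

open scoped commutatorElement

/-- GL_n(F)' = SL_n(F) (as the kernel of det), for every field F and every n, except n = 2 over the field of two elements. -/
theorem result {F : Type*} [Field F] (n : ℕ) (h : n = 2 → ∃ a : F, a ≠ 0 ∧ a ≠ 1) : commutator (Matrix.GeneralLinearGroup (Fin n) F) = (Matrix.GeneralLinearGroup.det : Matrix.GeneralLinearGroup (Fin n) F →* Fˣ).ker := by
  apply le_antisymm
  · -- commutators have determinant one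
    exact Abelianization.commutator_subset_ker _
  · intro g hg
    have hdet : g.1.det = 1 := by
      have := congrArg Units.val (MonoidHom.mem_ker.1 hg)
      simpa using this
    obtain ⟨s, rfl⟩ : ∃ s : Matrix.SpecialLinearGroup (Fin n) F, Matrix.SpecialLinearGroup.toGL s = g :=
      ⟨⟨g.1, hdet⟩, by apply Units.ext; rfl⟩
    rcases Nat.lt_or_ge n 2 with h2 | h2
    · have hs : Subsingleton (Matrix.SpecialLinearGroup (Fin n) F) := by
        have : Subsingleton (Fin n) := by
          rw [Fin.subsingleton_iff_le_one]; omega
        infer_instance
      rw [Subsingleton.elim s 1, map_one]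
      exact one_mem _
    rcases Nat.lt_or_ge n 3 with h3 | h3
    · obtain rfl : n = 2 := by omega
      obtain ⟨a, ha0, ha1⟩ := h rfl
      refine Matrix.SL2.transvection_induction (fun s => Matrix.SpecialLinearGroup.toGL s ∈ commutator (Matrix.GeneralLinearGroup (Fin 2) F)) ?_ ?_ s
      · intro i j hij c
        have ha1' : a - 1 ≠ 0 := sub_ne_zero.mpr ha1
        -- diagonal matrix with `a` at position i
        let d : Matrix.GeneralLinearGroup (Fin 2) F := Matrix.GeneralLinearGroup.mkOfDetNeZero
          (Matrix.diagonal (fun k => if k = i then a else 1)) (by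
            rw [Matrix.det_diagonal, Finset.prod_ite_eq' Finset.univ i (fun _ => a)]; simpa using ha0)
        let t : Matrix.SpecialLinearGroup (Fin 2) F := Matrix.SpecialLinearGroup.transvection hij (c / (a - 1))
        let t' : Matrix.SpecialLinearGroup (Fin 2) F := Matrix.SpecialLinearGroup.transvection hij c
        have key : ⁅d, Matrix.SpecialLinearGroup.toGL t⁆ = Matrix.SpecialLinearGroup.toGL t' := by
          rw [commutatorElement_def, mul_inv_eq_iff_eq_mul, mul_inv_eq_iff_eq_mul]
          apply Units.ext
          change d.1 * t.1 = t'.1 * t.1 * d.1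
          have hd : d.1 = Matrix.diagonal (fun k => if k = i then a else 1) := rfl
          have ht : t.1 = 1 + Matrix.single i j (c / (a - 1)) := rfl
          have ht' : t'.1 = 1 + Matrix.single i j c := rfl
          rw [hd, ht, ht']
          ext k l
          fin_cases i <;> fin_cases j <;> first | exact absurd rfl hij | skip
          all_goals
            fin_cases k <;> fin_cases l <;> simp [Matrix.mul_apply, Fin.sum_univ_two, Matrix.single, Matrix.diagonal] <;> field_simp <;> ring
        change Matrix.SpecialLinearGroup.toGL t' ∈ _
        rw [← key]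
        exact Subgroup.commutator_mem_commutator (Subgroup.mem_top _) (Subgroup.mem_top _)
      · intro A B hA hB
        rw [map_mul]
        exact mul_mem hA hB
    · have hs : s ∈ commutator (Matrix.SpecialLinearGroup (Fin n) F) := by
        rw [Cfsg.Agent.ClassBase.sl_fin_commutator_eq_top n h3]; trivial
      have := Subgroup.mem_map_of_mem (Matrix.SpecialLinearGroup.toGL (n := Fin n) (R := F)) hs
      rw [commutator_def, Subgroup.map_commutator] at this
      rw [commutator_def]
      exact Subgroup.commutator_mono le_top le_top this

end Cfsg.Agent.S0264
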