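import Cfsg.Statements.S0266
import Cfsg.Agent.H81.Proj

set_option autoImplicit false
open scoped MatrixGroups
open Cfsg

namespace Cfsg.Agent.S0266

/-- PGL_2(F) is sharply 3-transitive on the projective line: it is 3-transitive and the stabiliser of three distinct points is trivial. -/
theorem result {F : Type*} [Field F] : MulAction.IsMultiplyPretransitive (Matrix.ProjGenLinGroup (Fin 2) F) (Projectivization F (Fin 2 → F)) 3 ∧ ∀ (g : Matrix.ProjGenLinGroup (Fin 2) F) (a b c : Projectivization F (Fin 2 → F)), a ≠ b → a ≠ c → b ≠ c → g • a = a → g • b = b → g • c = c → g = 1 := by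
  constructor
  · rw [MulAction.isMultiplyPretransitive_iff]
    intro x y
    have hx : ∀ i j : Fin 3, i ≠ j → x i ≠ x j := fun i j h h' => h (x.injective h')
    have hy : ∀ i j : Fin 3, i ≠ j → y i ≠ y j := fun i j h h' => h (y.injective h')
    obtain ⟨g, h0, h1, h2⟩ := Cfsg.Agent.H81.gl_three_transitive (hx 0 1 (by decide)) (hx 0 2 (by decide))
      (hx 1 2 (by decide)) (hy 0 1 (by decide)) (hy 0 2 (by decide)) (hy 1 2 (by decide))
    refine ⟨Matrix.ProjGenLinGroup.mk g, ?_⟩
    ext i
    fin_cases i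
    · exact h0
    · exact h1
    · exact h2
  · intro g a b c hab hac hbc ha hb hc
    induction g using Matrix.ProjGenLinGroup.induction_on with | mk g =>
    change g • a = a at ha
    change g • b = b at hb
    change g • c = c at hc
    obtain ⟨k, rfl, rfl, rfl⟩ := Cfsg.Agent.H81.exists_gl_frame hab hac hbc
    have e0 : (k⁻¹ * g * k) • Cfsg.Agent.H81.pt0 F = Cfsg.Agent.H81.pt0 F := by
      rw [mul_smul, mul_smul, ha, inv_smul_smul]
    have e1 : (k⁻¹ * g * k) • Cfsg.Agent.H81.pt1 F = Cfsg.Agent.H81.pt1 F := by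
      rw [mul_smul, mul_smul, hb, inv_smul_smul]
    have e2 : (k⁻¹ * g * k) • Cfsg.Agent.H81.ptc F 1 = Cfsg.Agent.H81.ptc F 1 := by
      rw [mul_smul, mul_smul, hc, inv_smul_smul]
    obtain ⟨h1, h2, h3⟩ := Cfsg.Agent.H81.fix_frame e0 e1 e2
    rw [one_mul] at h3
    have hcen : k⁻¹ * g * k ∈ Subgroup.center (Matrix.GeneralLinearGroup (Fin 2) F) := by
      rw [Matrix.GeneralLinearGroup.mem_center_iff_val_mem_range_scalar]
      refine ⟨(k⁻¹ * g * k).1 0 0, ?_⟩
      ext i j
      fin_cases i <;> fin_cases j <;> simp only [Matrix.scalar_apply, Matrix.diagonal, Matrix.of_apply]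
      · simp
      · simpa using h2.symm
      · simpa using h1.symm
      · simpa using h3.symm
    rw [Matrix.ProjGenLinGroup.mk_eq_one]
    have e : g = k * (k⁻¹ * g * k) * k⁻¹ := by group
    rw [e]
    exact (inferInstance : (Subgroup.center (Matrix.GeneralLinearGroup (Fin 2) F)).Normal).conj_mem _ hcen k

end Cfsg.Agent.S0266
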