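import Cfsg.Statements.S0267
import Cfsg.Agent.H81.Proj

set_option autoImplicit false
open Cfsg

namespace Cfsg.Agent.S0267

/-- SL_2(q) is 3-transitive on the q+1 points of the projective line if and only if q is even. -/
theorem result {F : Type*} [Field F] [Fintype F] : MulAction.IsMultiplyPretransitive (Matrix.SpecialLinearGroup (Fin 2) F) (Projectivization F (Fin 2 → F)) 3 ↔ ringChar F = 2 := by
  constructor
  · intro h
    rw [MulAction.isMultiplyPretransitive_iff] at h
    by_contra hchar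
    -- every nonzero element is a square
    have hsq : ∀ c : F, c ≠ 0 → IsSquare c := by
      intro c hc
      let x : Fin 3 ↪ Projectivization F (Fin 2 → F) := ⟨![Cfsg.Agent.H81.pt0 F, Cfsg.Agent.H81.pt1 F, Cfsg.Agent.H81.ptc F 1], by
        intro i j hij
        fin_cases i <;> fin_cases j <;> first | rfl | (exfalso; revert hij; simp [Cfsg.Agent.H81.pt0_ne_pt1, Cfsg.Agent.H81.pt1_ne_ptc, Cfsg.Agent.H81.pt0_ne_ptc, Cfsg.Agent.H81.pt0_ne_pt1.symm, Cfsg.Agent.H81.pt1_ne_ptc.symm, (Cfsg.Agent.H81.pt0_ne_ptc (one_ne_zero (α := F))).symm])⟩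
      let y : Fin 3 ↪ Projectivization F (Fin 2 → F) := ⟨![Cfsg.Agent.H81.pt0 F, Cfsg.Agent.H81.pt1 F, Cfsg.Agent.H81.ptc F c], by
        intro i j hij
        fin_cases i <;> fin_cases j <;> first | rfl | (exfalso; revert hij; simp [hc, Cfsg.Agent.H81.pt0_ne_pt1, Cfsg.Agent.H81.pt1_ne_ptc, Cfsg.Agent.H81.pt0_ne_ptc, Cfsg.Agent.H81.pt0_ne_pt1.symm, Cfsg.Agent.H81.pt1_ne_ptc.symm, (Cfsg.Agent.H81.pt0_ne_ptc hc).symm])⟩
      obtain ⟨g, hg⟩ := h x y
      have g0 : g • Cfsg.Agent.H81.pt0 F = Cfsg.Agent.H81.pt0 F := congrFun (congrArg DFunLike.coe hg) 0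
      have g1 : g • Cfsg.Agent.H81.pt1 F = Cfsg.Agent.H81.pt1 F := congrFun (congrArg DFunLike.coe hg) 1
      have g2 : g • Cfsg.Agent.H81.ptc F 1 = Cfsg.Agent.H81.ptc F c := congrFun (congrArg DFunLike.coe hg) 2
      obtain ⟨h1, h2, h3⟩ := Cfsg.Agent.H81.fix_frame (g := Matrix.SpecialLinearGroup.toGL g) g0 g1 g2
      change g.1 1 0 = 0 at h1
      change g.1 0 1 = 0 at h2
      change g.1 1 1 = c * g.1 0 0 at h3
      have hd := g.2
      rw [Matrix.det_fin_two, h1, h2, h3] at hd
      have ha : g.1 0 0 ≠ 0 := by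
        intro h0; rw [h0] at hd; simp at hd
      refine ⟨(g.1 0 0)⁻¹, ?_⟩
      field_simp
      linear_combination hd
    obtain ⟨a, ha⟩ := FiniteField.exists_nonsquare hchar
    exact ha (by
      rcases eq_or_ne a 0 with rfl | h0
      · exact ⟨0, by simp⟩
      · exact hsq a h0)
  · intro hchar
    rw [MulAction.isMultiplyPretransitive_iff]
    intro x y
    have hx : ∀ i j : Fin 3, i ≠ j → x i ≠ x j := fun i j h h' => h (x.injective h')
    have hy : ∀ i j : Fin 3, i ≠ j → y i ≠ y j := fun i j h h' => h (y.injective h')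
    obtain ⟨g, h0, h1, h2⟩ := Cfsg.Agent.H81.gl_three_transitive (hx 0 1 (by decide)) (hx 0 2 (by decide))
      (hx 1 2 (by decide)) (hy 0 1 (by decide)) (hy 0 2 (by decide)) (hy 1 2 (by decide))
    obtain ⟨r, hr⟩ := FiniteField.isSquare_of_char_two hchar (g.1.det)
    have hdet : g.1.det ≠ 0 := Matrix.GeneralLinearGroup.det_ne_zero g
    have hr0 : r ≠ 0 := by
      rintro rfl
      apply hdet
      rw [hr]; simp
    let s : Matrix.SpecialLinearGroup (Fin 2) F := ⟨r⁻¹ • g.1, by
      rw [Matrix.det_smul, hr, Fintype.card_fin]; field_simp⟩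
    have hs : ∀ z : Projectivization F (Fin 2 → F), s • z = g • z := by
      intro z
      induction z using Projectivization.ind with | _ v hv =>
      rw [Projectivization.smul_mk, Projectivization.smul_mk, Projectivization.mk_eq_mk_iff']
      refine ⟨r⁻¹, ?_⟩
      change r⁻¹ • (g.1.mulVec v) = (r⁻¹ • g.1).mulVec v
      rw [Matrix.smul_mulVec]
    refine ⟨s, ?_⟩
    ext i
    fin_cases i
    · exact (hs _).trans h0
    · exact (hs _).trans h1
    · exact (hs _).trans h2

end Cfsg.Agent.S0267
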