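import Mathlib
import Cfsg.Statements.S0268

set_option autoImplicit false
open Cfsg

namespace Cfsg.Agent.S0268

/-- For q odd, -1 is the unique involution of SL_2(q). -/
theorem result {F : Type*} [Field F] [Fintype F] (hF : Odd (Fintype.card F)) (g : Matrix.SpecialLinearGroup (Fin 2) F) (h1 : g ≠ 1) (h2 : g * g = 1) : (g : Matrix (Fin 2) (Fin 2) F) = -1 := by
  have h2F : (2 : F) ≠ 0 := by
    intro h
    have hc : CharP F 2 := CharTwo.of_one_ne_zero_of_two_eq_zero one_ne_zero h
    have h3 : ringChar F = 2 := ringChar.eq F 2 ▸ rfl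
    have h4 := FiniteField.even_card_of_char_two (F := F) h3
    have := Nat.odd_iff.mp hF
    omega
  have hdet := g.det_coe
  rw [Matrix.det_fin_two] at hdet
  have hm : (g : Matrix (Fin 2) (Fin 2) F) * (g : Matrix (Fin 2) (Fin 2) F) = 1 := by
    rw [← Matrix.SpecialLinearGroup.coe_mul, h2, Matrix.SpecialLinearGroup.coe_one]
  have e00 := congrFun (congrFun hm 0) 0
  have e01 := congrFun (congrFun hm 0) 1
  have e10 := congrFun (congrFun hm 1) 0
  have e11 := congrFun (congrFun hm 1) 1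
  simp only [Matrix.mul_apply, Fin.sum_univ_two, Matrix.one_apply_eq, Matrix.one_apply_ne, ne_eq,
    Fin.isValue, zero_ne_one, not_false_eq_true, one_ne_zero] at e00 e01 e10 e11
  have ne : ¬ ((g : Matrix (Fin 2) (Fin 2) F) 0 0 + (g : Matrix (Fin 2) (Fin 2) F) 1 1 = 0) := by
    intro hs
    apply h2F
    have hd : (g : Matrix (Fin 2) (Fin 2) F) 1 1 = -(g : Matrix (Fin 2) (Fin 2) F) 0 0 := by
      linear_combination hs
    rw [hd] at hdet
    linear_combination -e00 - hdet
  have b0 : (g : Matrix (Fin 2) (Fin 2) F) 0 1 = 0 := by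
    have : (g : Matrix (Fin 2) (Fin 2) F) 0 1 * ((g : Matrix (Fin 2) (Fin 2) F) 0 0 + (g : Matrix (Fin 2) (Fin 2) F) 1 1) = 0 := by
      linear_combination e01
    exact (mul_eq_zero.mp this).resolve_right ne
  have c0 : (g : Matrix (Fin 2) (Fin 2) F) 1 0 = 0 := by
    have : (g : Matrix (Fin 2) (Fin 2) F) 1 0 * ((g : Matrix (Fin 2) (Fin 2) F) 0 0 + (g : Matrix (Fin 2) (Fin 2) F) 1 1) = 0 := by
      linear_combination e10
    exact (mul_eq_zero.mp this).resolve_right ne
  rw [b0, c0] at e00 e11 hdet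
  have had : (g : Matrix (Fin 2) (Fin 2) F) 0 0 = (g : Matrix (Fin 2) (Fin 2) F) 1 1 := by
    linear_combination (g : Matrix (Fin 2) (Fin 2) F) 1 1 * e00 - (g : Matrix (Fin 2) (Fin 2) F) 0 0 * hdet
  have hsq : ((g : Matrix (Fin 2) (Fin 2) F) 0 0 - 1) * ((g : Matrix (Fin 2) (Fin 2) F) 0 0 + 1) = 0 := by
    linear_combination e00
  rcases mul_eq_zero.mp hsq with h | h
  · exfalso
    apply h1
    apply Matrix.SpecialLinearGroup.ext
    intro i j
    have ha : (g : Matrix (Fin 2) (Fin 2) F) 0 0 = 1 := by linear_combination h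
    rw [ha] at had
    fin_cases i <;> fin_cases j <;> simp [ha, ← had, b0, c0]
  · have ha : (g : Matrix (Fin 2) (Fin 2) F) 0 0 = -1 := by linear_combination h
    rw [ha] at had
    ext i j
    fin_cases i <;> fin_cases j <;> simp [ha, ← had, b0, c0]

end Cfsg.Agent.S0268
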