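import Cfsg.Statements.S0275
import Cfsg.Agent.H81.Dickson
import Cfsg.Agent.H81.QuatSub
import Cfsg.Agent.H81.SL2Card

set_option autoImplicit false
open Cfsg

namespace Cfsg.Agent.S0275

/-- If p is odd and H is a subgroup of SL_2(q), q a power of p, with more than one Sylow p-subgroup, then the Sylow 2-subgroups of H are generalised quaternion. -/
theorem result {F : Type*} [Field F] [Fintype F] (p : ℕ) [Fact p.Prime] [CharP F p] (hp : p ≠ 2) (H : Subgroup (Matrix.SpecialLinearGroup (Fin 2) F)) (hH : 1 < Nat.card (Sylow p H)) (S : Sylow 2 H) : ∃ k : ℕ, 1 ≤ k ∧ Nonempty ((S : Subgroup H) ≃* QuaternionGroup (2 ^ k)) := by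
  classical
  have hFodd : Odd (Fintype.card F) := by
    obtain ⟨n, hpp, hc⟩ := FiniteField.card F p
    rw [hc]
    apply Odd.pow
    rcases hpp.eq_two_or_odd' with h | h
    · exact absurd h hp
    · exact h
  have hFp : Fact (Nat.Prime 2) := ⟨Nat.prime_two⟩
  -- noncommutativity
  obtain ⟨K, hK, ⟨e⟩⟩ := Cfsg.Agent.H81.dickson p hp H hH
  have hpodd : Odd (Fintype.card (ZMod p)) := by
    rw [ZMod.card]
    rcases (Fact.out : p.Prime).eq_two_or_odd' with h | h
    · exact absurd h hp
    · exact h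
  obtain ⟨P0⟩ : Nonempty (Sylow 2 (Matrix.SpecialLinearGroup (Fin 2) (ZMod p))) := inferInstance
  obtain ⟨k0, hk0, -, -, ⟨e0⟩⟩ := Cfsg.Agent.H81.sylow_two_sl2 hpodd P0
  -- an embedding of the quaternion group into `H`
  let f : QuaternionGroup (2 ^ k0) →* H :=
    ((Subgroup.inclusion hK).comp e.symm.toMonoidHom).comp
      ((P0 : Subgroup (Matrix.SpecialLinearGroup (Fin 2) (ZMod p))).subtype.comp e0.symm.toMonoidHom)
  have hf : Function.Injective f := by
    intro a b hab
    have h1 := (Subgroup.inclusion_injective hK) hab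
    have h2 := e.symm.injective h1
    have h3 := Subtype.ext h2
    exact e0.symm.injective h3
  have hP0 : IsPGroup 2 (QuaternionGroup (2 ^ k0)) := by
    exact P0.isPGroup'.of_equiv e0
  have hrange : IsPGroup 2 f.range := by
    intro ⟨y, x, hx⟩
    obtain ⟨j, hj⟩ := hP0 x
    refine ⟨j, ?_⟩
    apply Subtype.ext
    change y ^ 2 ^ j = 1
    rw [← hx, ← map_pow, hj, map_one]
  obtain ⟨T, hT⟩ := hrange.exists_le_sylow
  have hS : ∃ a b : (S : Subgroup H), a * b ≠ b * a := by
    let g : (T : Subgroup H) ≃* (S : Subgroup H) := Sylow.equiv T S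
    have ha : f (QuaternionGroup.a 1) ∈ (T : Subgroup H) := hT ⟨_, rfl⟩
    have hb : f (QuaternionGroup.xa 0) ∈ (T : Subgroup H) := hT ⟨_, rfl⟩
    refine ⟨g ⟨_, ha⟩, g ⟨_, hb⟩, fun h => ?_⟩
    rw [← map_mul, ← map_mul] at h
    have h1 := congrArg Subtype.val (g.injective h)
    change f (QuaternionGroup.a 1) * f (QuaternionGroup.xa 0) = f (QuaternionGroup.xa 0) * f (QuaternionGroup.a 1) at h1
    rw [← map_mul, ← map_mul] at h1
    have h2 := hf h1
    rw [QuaternionGroup.a_mul_xa, QuaternionGroup.xa_mul_a] at h2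
    have h3 := QuaternionGroup.xa.inj h2
    have h4 : ((2 : ℕ) : ZMod (2 * 2 ^ k0)) = 0 := by
      push_cast
      linear_combination -h3
    rw [ZMod.natCast_eq_zero_iff] at h4
    have h5 := Nat.le_of_dvd (by norm_num) h4
    have h6 : 2 ≤ 2 ^ k0 := by
      calc 2 = 2 ^ 1 := by norm_num
        _ ≤ 2 ^ k0 := Nat.pow_le_pow_right (by norm_num) hk0
    omega
  -- embedding of `S`
  have hSp : IsPGroup 2 ((S : Subgroup H).map H.subtype) := S.isPGroup'.map _
  obtain ⟨P, hP⟩ := hSp.exists_le_sylow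
  obtain ⟨k, hk, -, -, ⟨e1⟩⟩ := Cfsg.Agent.H81.sylow_two_sl2 hFodd P
  let φ : (S : Subgroup H) →* QuaternionGroup (2 ^ k) :=
    e1.toMonoidHom.comp ((Subgroup.inclusion hP).comp (H.subtype.subgroupMap (S : Subgroup H)))
  have hφ : Function.Injective φ := by
    intro a b hab
    have h1 := e1.injective hab
    have h2 := Subgroup.inclusion_injective hP h1
    have h3 := congrArg Subtype.val h2
    exact Subtype.ext (Subtype.ext h3)
  exact Cfsg.Agent.H81.quat_of_embeds k φ hφ hS

end Cfsg.Agent.S0275
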