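import Cfsg.Statements.S0281
import Cfsg.Agent.Uni.Sub
import Cfsg.Agent.Uni.SU

set_option autoImplicit false
open Cfsg

namespace Cfsg.Agent.S0281

/-- SU_2(q) is isomorphic to SL_2(q). -/
theorem result {F K : Type*} [Field F] [Fintype F] [Field K] [Fintype K] {q : ℕ} (hF : Fintype.card F = q ^ 2) (hK : Fintype.card K = q) : Nonempty (Cfsg.SU 2 F q ≃* Matrix.SpecialLinearGroup (Fin 2) K) := by
  classical
  -- the embedding
  obtain ⟨ι, hι1, hι2⟩ : ∃ ι : K →+* F, (∀ k, (ι k) ^ q = ι k) ∧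
      ∀ x : F, x ^ q = x → ∃ k, ι k = x := by
    let S : Subfield F := RingHom.eqLocusField (Cfsg.Agent.Uni.conjHom hF) (RingHom.id F)
    have hS : ∀ x : F, x ∈ S ↔ x ^ q = x := fun x => Iff.rfl
    have hc : Fintype.card K = Fintype.card S := by
      rw [hK, ← Nat.card_eq_fintype_card, ← Cfsg.Agent.Uni.card_fixed hF]
      exact Nat.card_congr (Equiv.subtypeEquivRight fun x => (hS x).symm)
    let e : K ≃+* S := FiniteField.ringEquivOfCardEq hc
    refine ⟨S.subtype.comp e.toRingHom, fun k => (hS _).1 (e k).2, fun x hx => ?_⟩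
    exact ⟨e.symm ⟨x, (hS x).2 hx⟩, by simp⟩
  have hinj : Function.Injective ι := ι.injective
  have hq0 : q ≠ 0 := Cfsg.Agent.Uni.q_ne_zero hF
  obtain ⟨ε, hε0, hε⟩ := Cfsg.Agent.Uni.exists_skew hF
  obtain ⟨u, hu0, huu⟩ := Cfsg.Agent.Uni.exists_isotropic (F := F) (n := 2) hF le_rfl
  obtain ⟨v, hv⟩ := Cfsg.Agent.Uni.exists_hyp' hF hu0 huu
  obtain ⟨w, hw⟩ : ∃ w, w = (ε ^ q) • v := ⟨_, rfl⟩
  have hww : Cfsg.hermForm 2 F q w w = 0 := by
    rw [hw, Cfsg.Agent.Uni.hermForm_smul_left, Cfsg.Agent.Uni.hermForm_smul_right, hv.2.1]; simp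
  have huw : Cfsg.hermForm 2 F q u w = ε := by
    rw [hw, Cfsg.Agent.Uni.hermForm_smul_right, hv.2.2, mul_one, Cfsg.Agent.Uni.pow_q_pow_q hF]
  have hwu : Cfsg.hermForm 2 F q w u = -ε := by
    rw [← Cfsg.Agent.Uni.hermForm_symm hF, huw, hε]
  simp only [Cfsg.hermForm, Fin.sum_univ_two] at huu hww huw hwu
  let P : Matrix (Fin 2) (Fin 2) F := !![u 0, w 0; u 1, w 1]
  let J : Matrix (Fin 2) (Fin 2) F := !![0, ε; -ε, 0]
  have hPJ : P.transpose * P.map (Cfsg.Agent.Uni.conjHom hF) = J := by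
    ext i j
    fin_cases i <;> fin_cases j <;>
      simp [P, J, Matrix.mul_apply, Fin.sum_univ_two, huu, hww, huw, hwu]
  have hPu : IsUnit P := by
    rw [Matrix.isUnit_iff_isUnit_det, isUnit_iff_ne_zero]
    intro h0
    have := congrArg Matrix.det hPJ
    rw [Matrix.det_mul, Matrix.det_transpose, h0, zero_mul] at this
    simp [J, Matrix.det_fin_two] at this
    exact hε0 this
  obtain ⟨Pu, hPu'⟩ := hPu
  let Q : Matrix (Fin 2) (Fin 2) F := ((Pu⁻¹ : GL (Fin 2) F) : Matrix (Fin 2) (Fin 2) F)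
  have hPQ : P * Q = 1 := by rw [← hPu']; exact Pu.mul_inv
  have hQP : Q * P = 1 := by rw [← hPu']; exact Pu.inv_mul
  have hdet : ∀ A : Matrix (Fin 2) (Fin 2) F, (P * A * Q).det = A.det := by
    intro A
    have : P.det * Q.det = 1 := by rw [← Matrix.det_mul, hPQ, Matrix.det_one]
    rw [Matrix.det_mul, Matrix.det_mul]
    linear_combination A.det * this
  let σ := Cfsg.Agent.Uni.conjHom hF
  have hσmul : ∀ A B : Matrix (Fin 2) (Fin 2) F, (A * B).map σ = A.map σ * B.map σ :=
    fun A B => Matrix.map_mul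
  have hQσ : P.map σ * Q.map σ = 1 := by
    rw [← hσmul, hPQ]; exact Matrix.map_one _ (map_zero _) (map_one _)
  have hQTPT : Q.transpose * P.transpose = 1 := by
    rw [← Matrix.transpose_mul, hPQ, Matrix.transpose_one]
  have hpres : ∀ A : Matrix (Fin 2) (Fin 2) F, A.transpose * J * A.map σ = J →
      Cfsg.Agent.Uni.Pres q (P * A * Q) := by
    intro A hA
    rw [Cfsg.Agent.Uni.pres_iff_transpose_mul hF]
    change (P * A * Q).transpose * (P * A * Q).map σ = 1
    rw [hσmul, hσmul, Matrix.transpose_mul, Matrix.transpose_mul]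
    calc Q.transpose * (A.transpose * P.transpose) * (P.map σ * A.map σ * Q.map σ)
        = Q.transpose * (A.transpose * (P.transpose * P.map σ) * A.map σ) * Q.map σ := by
          simp only [Matrix.mul_assoc]
      _ = Q.transpose * (P.transpose * P.map σ) * Q.map σ := by rw [hPJ, hA]
      _ = (Q.transpose * P.transpose) * (P.map σ * Q.map σ) := by
          simp only [Matrix.mul_assoc]
      _ = 1 := by rw [hQTPT, hQσ, one_mul]
  have hpres' : ∀ M : Matrix (Fin 2) (Fin 2) F, Cfsg.Agent.Uni.Pres q M →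
      (Q * M * P).transpose * J * (Q * M * P).map σ = J := by
    intro M hM
    rw [Cfsg.Agent.Uni.pres_iff_transpose_mul hF] at hM
    change M.transpose * M.map σ = 1 at hM
    rw [hσmul, hσmul, Matrix.transpose_mul, Matrix.transpose_mul, ← hPJ]
    change P.transpose * (M.transpose * Q.transpose) * (P.transpose * P.map σ) *
      (Q.map σ * M.map σ * P.map σ) = P.transpose * P.map σ
    calc P.transpose * (M.transpose * Q.transpose) * (P.transpose * P.map σ) *
      (Q.map σ * M.map σ * P.map σ)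
        = P.transpose * (M.transpose * (Q.transpose * P.transpose) * (P.map σ * Q.map σ) *
            M.map σ) * P.map σ := by simp only [Matrix.mul_assoc]
      _ = P.transpose * P.map σ := by
          rw [hQTPT, hQσ, Matrix.mul_one, Matrix.mul_one, hM, Matrix.mul_one]
  have hfix : ∀ A : Matrix.SpecialLinearGroup (Fin 2) K,
      ((A : Matrix (Fin 2) (Fin 2) K).map ι).transpose * J *
        ((A : Matrix (Fin 2) (Fin 2) K).map ι).map σ = J := by
    intro A
    have hA : A.1 0 0 * A.1 1 1 - A.1 0 1 * A.1 1 0 = 1 := by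
      have := A.2
      rwa [Matrix.det_fin_two] at this
    have hA' : ι (A.1 0 0) * ι (A.1 1 1) - ι (A.1 0 1) * ι (A.1 1 0) = 1 := by
      rw [← map_mul, ← map_mul, ← map_sub, hA, map_one]
    ext i j
    fin_cases i <;> fin_cases j <;>
      simp [J, σ, Matrix.mul_apply, Fin.sum_univ_two, hι1]
    · ring
    · linear_combination ε * hA'
    · linear_combination (-ε) * hA'
    · ring
  let φ : Matrix.SpecialLinearGroup (Fin 2) K →* Cfsg.SU 2 F q :=
    MonoidHom.mk' (fun A => Cfsg.Agent.Uni.mkSU (P * (A : Matrix (Fin 2) (Fin 2) K).map ι * Q)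
      (hpres _ (hfix A)) (by
        rw [hdet, ← RingHom.mapMatrix_apply, ← RingHom.map_det, A.2, map_one])) (by
      intro A B
      apply Cfsg.Agent.Uni.SU_ext
      rw [Cfsg.Agent.Uni.SU_coe_mul]
      simp only [Cfsg.Agent.Uni.mkSU_coe]
      rw [Matrix.SpecialLinearGroup.coe_mul, Matrix.map_mul]
      calc P * ((A : Matrix (Fin 2) (Fin 2) K).map ι * (B : Matrix (Fin 2) (Fin 2) K).map ι) * Q
          = P * (A : Matrix (Fin 2) (Fin 2) K).map ι * (Q * P) *
              (B : Matrix (Fin 2) (Fin 2) K).map ι * Q := by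
            rw [hQP, Matrix.mul_one]; simp only [Matrix.mul_assoc]
        _ = _ := by simp only [Matrix.mul_assoc])
  have hφ : ∀ A, ((φ A : Matrix.SpecialLinearGroup (Fin 2) F) : Matrix (Fin 2) (Fin 2) F) =
      P * (A : Matrix (Fin 2) (Fin 2) K).map ι * Q := fun A => rfl
  refine ⟨(MulEquiv.ofBijective φ ⟨?_, ?_⟩).symm⟩
  · intro A B hAB
    have h1 : P * (A : Matrix (Fin 2) (Fin 2) K).map ι * Q =
        P * (B : Matrix (Fin 2) (Fin 2) K).map ι * Q := by rw [← hφ, ← hφ, hAB]
    have h2 := congrArg (fun X => Q * X * P) h1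
    have h3 : ∀ X : Matrix (Fin 2) (Fin 2) F, Q * (P * X * Q) * P = X := by
      intro X
      calc Q * (P * X * Q) * P = (Q * P) * X * (Q * P) := by simp only [Matrix.mul_assoc]
        _ = X := by rw [hQP, Matrix.one_mul, Matrix.mul_one]
    simp only [h3] at h2
    apply Subtype.ext
    ext i j
    exact hinj (congrFun (congrFun h2 i) j)
  · intro g
    obtain ⟨M, hM⟩ : ∃ M : Matrix (Fin 2) (Fin 2) F,
      M = ((g : Matrix.SpecialLinearGroup (Fin 2) F) : Matrix (Fin 2) (Fin 2) F) := ⟨_, rfl⟩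
    have hMp : Cfsg.Agent.Uni.Pres q M := by rw [hM]; exact Cfsg.Agent.Uni.SU_pres g
    have hMd : M.det = 1 := by rw [hM]; exact Matrix.SpecialLinearGroup.det_coe _
    obtain ⟨A, hA⟩ : ∃ A : Matrix (Fin 2) (Fin 2) F, A = Q * M * P := ⟨_, rfl⟩
    have hAd : A.det = 1 := by
      have h1 := hdet A
      rw [hA] at h1
      have h3 : P * (Q * M * P) * Q = M := by
        calc P * (Q * M * P) * Q = (P * Q) * M * (P * Q) := by simp only [Matrix.mul_assoc]
          _ = M := by rw [hPQ, Matrix.one_mul, Matrix.mul_one]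
      rw [h3, ← hA] at h1
      rw [← h1, hMd]
    have hAJ := hpres' M hMp
    rw [← hA] at hAJ
    rw [Matrix.det_fin_two] at hAd
    have e00 := congrFun (congrFun hAJ 0) 0
    have e01 := congrFun (congrFun hAJ 0) 1
    have e10 := congrFun (congrFun hAJ 1) 0
    have e11 := congrFun (congrFun hAJ 1) 1
    simp [J, σ, Matrix.mul_apply, Fin.sum_univ_two] at e00 e01 e10 e11
    have hfixA : ∀ i j, (A i j) ^ q = A i j := by
      have f00 : A 0 0 ^ q = A 0 0 := by
        apply mul_left_cancel₀ hε0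
        linear_combination (-(ε * A 0 0 ^ q)) * hAd + (-(A 0 0)) * e10 + (A 0 1) * e00
      have f01 : A 0 1 ^ q = A 0 1 := by
        apply mul_left_cancel₀ hε0
        linear_combination (-(ε * A 0 1 ^ q)) * hAd + (-(A 0 0)) * e11 + (A 0 1) * e01
      have f10 : A 1 0 ^ q = A 1 0 := by
        apply mul_left_cancel₀ hε0
        linear_combination (-(ε * A 1 0 ^ q)) * hAd + (A 1 1) * e00 + (-(A 1 0)) * e10
      have f11 : A 1 1 ^ q = A 1 1 := by
        apply mul_left_cancel₀ hε0
        linear_combination (-(ε * A 1 1 ^ q)) * hAd + (A 1 1) * e01 + (-(A 1 0)) * e11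
      intro i j
      fin_cases i <;> fin_cases j
      exacts [f00, f01, f10, f11]
    choose a ha using fun i j => hι2 _ (hfixA i j)
    have hadet : (Matrix.of a).det = 1 := by
      apply hinj
      rw [Matrix.det_fin_two, map_sub, map_mul, map_mul, map_one]
      simp only [Matrix.of_apply, ha]
      exact hAd
    obtain ⟨B, hB⟩ : ∃ B : Matrix.SpecialLinearGroup (Fin 2) K,
      (B : Matrix (Fin 2) (Fin 2) K) = Matrix.of a := ⟨⟨Matrix.of a, hadet⟩, rfl⟩
    refine ⟨B, ?_⟩
    apply Cfsg.Agent.Uni.SU_ext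
    rw [hφ, ← hM]
    have h4 : (B : Matrix (Fin 2) (Fin 2) K).map ι = A := by
      rw [hB]
      ext i j
      exact ha i j
    rw [h4, hA]
    calc P * (Q * M * P) * Q = (P * Q) * M * (P * Q) := by simp only [Matrix.mul_assoc]
      _ = M := by rw [hPQ, Matrix.one_mul, Matrix.mul_one]

end Cfsg.Agent.S0281
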