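import Cfsg.Statements.S0285
import Cfsg.Agent.Uni.Basic

set_option autoImplicit false
open Cfsg

namespace Cfsg.Agent.S0285

/-- The standard Hermitian form on F^n, |F| = q^2, has exactly (q^n - (-1)^n)(q^(n-1) + (-1)^n) non-zero isotropic vectors; counting the zero vector too: -/
theorem result {F : Type*} [Field F] [Fintype F] {q : ℕ} (hF : Fintype.card F = q ^ 2) (n : ℕ) : Nat.card {v : Fin n → F // Cfsg.hermForm n F q v v = 0} = (if Even n then (q ^ n - 1) * (q ^ (n - 1) + 1) else (q ^ n + 1) * (q ^ (n - 1) - 1)) + 1 := by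
  have h := (Cfsg.Agent.Uni.cnt_closed hF n).1
  have hq := Cfsg.Agent.Uni.two_le_q hF
  change Cfsg.Agent.Uni.cnt n F q 0 = _
  have hq0 : (q : ℤ) ≠ 0 := by exact_mod_cast (show q ≠ 0 by omega)
  rcases Nat.eq_zero_or_pos n with rfl | hn
  · simp only [pow_zero, sub_self, zero_mul, mul_eq_zero, hq0, false_or] at h
    simp only [Even.zero, if_true, pow_zero, Nat.sub_self, zero_mul, zero_add]
    have : (Cfsg.Agent.Uni.cnt 0 F q 0 : ℤ) = 1 := by linarith
    exact_mod_cast this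
  · obtain ⟨m, rfl⟩ : ∃ m, n = m + 1 := ⟨n - 1, by omega⟩
    have h2 : (Cfsg.Agent.Uni.cnt (m + 1) F q 0 : ℤ) =
        ((q : ℤ) ^ (m + 1) - (-1) ^ (m + 1)) * ((q : ℤ) ^ m + (-1) ^ (m + 1)) + 1 := by
      have h3 : (Cfsg.Agent.Uni.cnt (m + 1) F q 0 : ℤ) - 1 =
        ((q : ℤ) ^ (m + 1) - (-1) ^ (m + 1)) * ((q : ℤ) ^ m + (-1) ^ (m + 1)) := by
        apply mul_left_cancel₀ hq0
        rw [h]; ring
      linarith
    have h1 : 1 ≤ q ^ (m + 1) := Nat.one_le_pow _ _ (by omega)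
    have h1' : 1 ≤ q ^ m := Nat.one_le_pow _ _ (by omega)
    rw [Nat.add_sub_cancel]
    split_ifs with he
    · rw [he.neg_one_pow] at h2
      zify [h1]
      exact h2
    · rw [(Nat.not_even_iff_odd.1 he).neg_one_pow] at h2
      zify [h1']
      rw [h2]; ring

end Cfsg.Agent.S0285

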