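import Cfsg.Statements.S0289
import Cfsg.Agent.OrthCount.Orders
-- import your own Cfsg.Agent.* helpers here

set_option autoImplicit false
open Cfsg

namespace Cfsg.Agent.S0289

/-- The hyperbolic quadratic form on F^(2m), m at least 1, has q^(2m-1) + q^m - q^(m-1) zeros (that is, (q^m - 1)(q^(m-1) + 1) non-zero isotropic vectors). -/
theorem result {F : Type*} [Field F] [Fintype F] {q : ℕ} (hF : Fintype.card F = q) (m : ℕ) (hm : 1 ≤ m) : Nat.card {v : Fin m ⊕ Fin m → F // Cfsg.quadFormPlus m F v = 0} = q ^ (2 * m - 1) + q ^ m - q ^ (m - 1) := by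
  have h := Cfsg.Agent.OrthCount.zeros_plus (F := F) m
  rw [Nat.card_eq_fintype_card (α := F), hF] at h
  have hq : 0 < q := by rw [← hF]; exact Fintype.card_pos
  obtain ⟨n, rfl⟩ := Nat.exists_eq_add_of_le hm
  set Z := Nat.card {v : Fin (1 + n) ⊕ Fin (1 + n) → F // Cfsg.quadFormPlus (1 + n) F v = 0}
  have h3 : q * (Z + q ^ n) = q * (q ^ (2 * n + 1) + q ^ (n + 1)) := by
    rw [mul_add, mul_add]
    have e1 : q * q ^ n = q ^ (1 + n) := by ring
    have e2 : q * q ^ (2 * n + 1) = q ^ (2 * (1 + n)) := by ring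
    have e3 : q * q ^ (n + 1) = q ^ (1 + n + 1) := by ring
    rw [e1, e2, e3]; exact h
  have h4 := Nat.eq_of_mul_eq_mul_left hq h3
  have e4 : 2 * (1 + n) - 1 = 2 * n + 1 := by omega
  have e5 : 1 + n - 1 = n := by omega
  rw [e4, e5, Nat.add_comm 1 n]
  omega

end Cfsg.Agent.S0289
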