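import Cfsg.Statements.S0290
import Cfsg.Agent.OrthCount.Orders
-- import your own Cfsg.Agent.* helpers here

set_option autoImplicit false
open Cfsg

namespace Cfsg.Agent.S0290

/-- The minus-type quadratic form on F^(2m), m at least 1, has q^(2m-1) + q^(m-1) - q^m zeros (that is, (q^m + 1)(q^(m-1) - 1) non-zero isotropic vectors). -/
theorem result {F : Type*} [Field F] [Fintype F] {q : ℕ} (hF : Fintype.card F = q) (m : ℕ) (hm : 1 ≤ m) (a b : F) (hab : ∀ z₁ z₂ : F, z₁ ^ 2 + a * z₁ * z₂ + b * z₂ ^ 2 = 0 → z₁ = 0 ∧ z₂ = 0) : Nat.card {v : (Fin (m - 1) ⊕ Fin (m - 1)) ⊕ Fin 2 → F // Cfsg.quadFormMinus (m - 1) F a b v = 0} = q ^ (2 * m - 1) + q ^ (m - 1) - q ^ m := by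
  have h := Cfsg.Agent.OrthCount.zeros_minus (m - 1) (Cfsg.Agent.OrthCount.aniso_of hab)
  rw [Nat.card_eq_fintype_card (α := F), hF] at h
  have hq : 0 < q := by rw [← hF]; exact Fintype.card_pos
  set Z := Nat.card {v : (Fin (m - 1) ⊕ Fin (m - 1)) ⊕ Fin 2 → F // Cfsg.quadFormMinus (m - 1) F a b v = 0}
  obtain ⟨n, hn⟩ := Nat.exists_eq_add_of_le hm
  have e0 : m - 1 = n := by omega
  rw [e0] at h ⊢
  have h3 : q * (Z + q ^ (n + 1)) = q * (q ^ (2 * n + 1) + q ^ n) := by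
    rw [mul_add, mul_add]
    have e1 : q * q ^ n = q ^ (n + 1) := by ring
    have e2 : q * q ^ (2 * n + 1) = q ^ (2 * n + 2) := by ring
    have e3 : q * q ^ (n + 1) = q ^ (n + 2) := by ring
    rw [e1, e2, e3]; exact h
  have h4 := Nat.eq_of_mul_eq_mul_left hq h3
  have e4 : 2 * m - 1 = 2 * n + 1 := by omega
  have e5 : m = n + 1 := by omega
  rw [e4, e5]
  omega

end Cfsg.Agent.S0290
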