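import Mathlib
import Cfsg.Statements.S0294
import Cfsg.Agent.ClassO.Card
-- import your own Cfsg.Agent.* helpers here

set_option autoImplicit false
open Cfsg

namespace Cfsg.Agent.S0294

/-- gcd(4, q^m + 1) |PΩ^-_{2m}(q)| = q^(m(m-1)) (q^m + 1) prod_{i=1}^{m-1} (q^(2i) - 1), m at least 4 (type ²D_m). -/
theorem result {F : Type*} [Field F] [Fintype F] {q : ℕ} (hF : Fintype.card F = q) (m : ℕ) (hm : 4 ≤ m) (a b : F) (hab : ∀ z₁ z₂ : F, z₁ ^ 2 + a * z₁ * z₂ + b * z₂ ^ 2 = 0 → z₁ = 0 ∧ z₂ = 0) : Nat.gcd 4 (q ^ m + 1) * Nat.card (Cfsg.POmega F (Cfsg.quadFormMinus (m - 1) F a b)) = q ^ (m * (m - 1)) * (q ^ m + 1) * ∏ i ∈ Finset.range (m - 1), (q ^ (2 * (i + 1)) - 1) := by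
  subst hF
  have hm' : 3 ≤ m - 1 := by omega
  have hQ := Cfsg.Agent.Orth.qfMinus_nondegenerate (m - 1) F (Cfsg.Agent.Orth.disc_ne_zero_of_aniso hab)
  have hR := Cfsg.Agent.ClassO.RGrp_minus (F := F) (m := m - 1) (by omega) hab
  have hH := Cfsg.Agent.ClassO.hyp_minus F (m - 1) a b (Fin.castLE hm') (Fin.castLE_injective hm')
  have hcard : 2 ≤ Fintype.card ((Fin (m - 1) ⊕ Fin (m - 1)) ⊕ Fin 2) := by simp
  have h0 := Cfsg.Agent.S0288.result (F := F) rfl m (by omega) a b hab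
  by_cases h2 : (2 : F) = 0
  · have h1 := Cfsg.Agent.ClassO.card_even_gen hQ hR hH h2 (by omega)
    have h1' : Nat.card (Cfsg.POmega F (Cfsg.quadFormMinus (m - 1) F a b)) * 2
      = Nat.card (Cfsg.isometryGroup F (Cfsg.quadFormMinus (m - 1) F a b)) := h1
    rw [h0] at h1'
    have hev := Cfsg.Agent.ClassO.even_of_two_eq_zero h2
    have hodd : Odd (Fintype.card F ^ m + 1) := by
      have he : Even (Fintype.card F ^ m) := hev.pow_of_ne_zero (by omega)
      exact he.add_one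
    have hg : Nat.gcd 4 (Fintype.card F ^ m + 1) = 1 := by
      have : Nat.Coprime (2 ^ 2) (Fintype.card F ^ m + 1) :=
        Nat.Coprime.pow_left 2 (Nat.coprime_two_left.2 hodd)
      exact this
    rw [hg]
    linarith
  · have hodd : Odd (Fintype.card F) := by
      rw [← Nat.not_even_iff_odd]
      intro hev
      apply h2
      have h4 := FiniteField.even_card_iff_char_two.2 (Nat.even_iff.1 hev)
      have : CharP F 2 := by rw [← h4]; exact ringChar.charP F
      exact CharTwo.two_eq_zero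
    have hpow : Odd (Fintype.card F ^ m) := hodd.pow
    have hneg := Cfsg.Agent.S0791.result (F := F) rfl hodd m (by omega) a b hab
    by_cases h4 : Fintype.card F ^ m % 4 = 3
    · have h1 := Cfsg.Agent.ClassO.card_odd_gen_two hQ hR hH h2 hcard (hneg.2 h4)
      have h1' : Nat.card (Cfsg.POmega F (Cfsg.quadFormMinus (m - 1) F a b)) * 8
        = Nat.card (Cfsg.isometryGroup F (Cfsg.quadFormMinus (m - 1) F a b)) := h1
      rw [h0] at h1'
      have hg : Nat.gcd 4 (Fintype.card F ^ m + 1) = 4 :=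
        Nat.gcd_eq_left (by omega)
      rw [hg]
      linarith
    · have h1 := Cfsg.Agent.ClassO.card_odd_gen_one hQ hR hH h2 hcard (fun h => h4 (hneg.1 h))
      have h1' : Nat.card (Cfsg.POmega F (Cfsg.quadFormMinus (m - 1) F a b)) * 4
        = Nat.card (Cfsg.isometryGroup F (Cfsg.quadFormMinus (m - 1) F a b)) := h1
      rw [h0] at h1'
      have h5 : Fintype.card F ^ m % 4 = 1 := by
        obtain ⟨k, hk⟩ := hpow
        omega
      obtain ⟨k, hk⟩ : ∃ k, Fintype.card F ^ m + 1 = 2 * (2 * k + 1) :=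
        ⟨(Fintype.card F ^ m + 1) / 4, by omega⟩
      have hg : Nat.gcd 4 (Fintype.card F ^ m + 1) = 2 := by
        rw [hk, show 4 = 2 * 2 from rfl, Nat.gcd_mul_left]
        have : Nat.gcd 2 (2 * k + 1) = 1 := Nat.coprime_two_left.2 ⟨k, rfl⟩
        rw [this]
      rw [hg]
      linarith

end Cfsg.Agent.S0294
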