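import Cfsg.Statements.S0307


set_option autoImplicit false
open Cfsg

namespace Cfsg.Agent.S0307

/-- PSL_n(q) is normal in PGL_n(q) with cyclic quotient of order gcd(n, q-1): the image of the natural map PSL_n → PGL_n is the kernel of a surjective homomorphism onto the cyclic group of that order. -/
theorem result {F : Type*} [Field F] [Fintype F] {q : ℕ} (hF : Fintype.card F = q) (n : ℕ) (hn : 1 ≤ n) : ∃ g : Matrix.ProjGenLinGroup (Fin n) F →* Multiplicative (ZMod (Nat.gcd n (q - 1))), Function.Surjective g ∧ g.ker = (Matrix.ProjectiveSpecialLinearGroup.toPGL : Matrix.ProjectiveSpecialLinearGroup (Fin n) F →* Matrix.ProjGenLinGroup (Fin n) F).range := by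
  classical
  subst hF
  have hn0 : NeZero n := ⟨by omega⟩
  have hne : Nonempty (Fin n) := ⟨0⟩
  let P : Subgroup Fˣ := (powMonoidHom n : Fˣ →* Fˣ).range
  have hcyc : IsCyclic (Fˣ ⧸ P) := isCyclic_of_surjective (QuotientGroup.mk' P) (QuotientGroup.mk'_surjective P)
  have hcard : Nat.card (Fˣ ⧸ P) = Nat.gcd n (Fintype.card F - 1) := by
    have h1 := IsCyclic.index_powMonoidHom_range (G := Fˣ) n
    rw [Nat.card_eq_fintype_card, Fintype.card_units, Nat.gcd_comm] at h1
    exact h1
  have hcard' : Nat.card (Multiplicative (ZMod (Nat.gcd n (Fintype.card F - 1)))) = Nat.gcd n (Fintype.card F - 1) := by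
    exact Nat.card_zmod _
  let ε : (Fˣ ⧸ P) ≃* Multiplicative (ZMod (Nat.gcd n (Fintype.card F - 1))) :=
    mulEquivOfCyclicCardEq (hcard.trans hcard'.symm)
  let d : Matrix.GeneralLinearGroup (Fin n) F →* (Fˣ ⧸ P) := (QuotientGroup.mk' P).comp Matrix.GeneralLinearGroup.det
  have hd : Subgroup.center (Matrix.GeneralLinearGroup (Fin n) F) ≤ d.ker := by
    intro z hz
    rw [Matrix.GeneralLinearGroup.center_eq_range_scalar] at hz
    obtain ⟨u, rfl⟩ := hz
    rw [MonoidHom.mem_ker, MonoidHom.comp_apply]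
    apply (QuotientGroup.eq_one_iff _).2
    refine ⟨u, ?_⟩
    rw [powMonoidHom_apply]
    exact (by simp : Matrix.GeneralLinearGroup.det (Matrix.GeneralLinearGroup.scalar (Fin n) u) = u ^ n).symm
  let g₀ : Matrix.ProjGenLinGroup (Fin n) F →* (Fˣ ⧸ P) := QuotientGroup.lift _ d hd
  have hg₀ : ∀ A, g₀ (Matrix.ProjGenLinGroup.mk A) = d A := fun A => rfl
  refine ⟨(ε : (Fˣ ⧸ P) →* _).comp g₀, ?_, ?_⟩
  · intro y
    obtain ⟨c, hc⟩ := QuotientGroup.mk_surjective (ε.symm y)
    obtain ⟨A, hA⟩ := Matrix.GeneralLinearGroup.det_surjective (n := Fin n) c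
    refine ⟨Matrix.ProjGenLinGroup.mk A, ?_⟩
    rw [MonoidHom.comp_apply, hg₀, MonoidHom.comp_apply, hA]
    change ε (QuotientGroup.mk c) = y
    rw [hc, MulEquiv.apply_symm_apply]
  · ext X
    cases X with | mk A =>
    rw [MonoidHom.mem_ker, MonoidHom.comp_apply, hg₀]
    have h0 : (ε : (Fˣ ⧸ P) →* Multiplicative (ZMod (Nat.gcd n (Fintype.card F - 1)))) (d A) = 1 ↔ Matrix.GeneralLinearGroup.det A ∈ P := by
      rw [MonoidHom.comp_apply]
      change ε (QuotientGroup.mk (Matrix.GeneralLinearGroup.det A)) = 1 ↔ _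
      rw [EmbeddingLike.map_eq_one_iff, QuotientGroup.eq_one_iff]
    rw [h0]
    constructor
    · rintro ⟨c, hc⟩
      rw [powMonoidHom_apply] at hc
      let B : Matrix.GeneralLinearGroup (Fin n) F := A * Matrix.GeneralLinearGroup.scalar (Fin n) c⁻¹
      have hB : Matrix.GeneralLinearGroup.det B = 1 := by
        rw [map_mul, ← hc]
        have : Matrix.GeneralLinearGroup.det (Matrix.GeneralLinearGroup.scalar (Fin n) c⁻¹) = (c⁻¹) ^ n := by simp
        rw [this, inv_pow, mul_inv_cancel]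
      have hB' : Matrix.det (B : Matrix (Fin n) (Fin n) F) = 1 := by
        have := congrArg Units.val hB
        simpa using this
      refine ⟨QuotientGroup.mk (⟨(B : Matrix (Fin n) (Fin n) F), hB'⟩ : Matrix.SpecialLinearGroup (Fin n) F), ?_⟩
      change Matrix.ProjGenLinGroup.mk (Matrix.SpecialLinearGroup.toGL _) = _
      rw [Matrix.ProjGenLinGroup.mk_eq_mk_iff]
      refine ⟨c, ?_⟩
      have h2 : (Matrix.SpecialLinearGroup.toGL (⟨(B : Matrix (Fin n) (Fin n) F), hB'⟩ : Matrix.SpecialLinearGroup (Fin n) F) :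
          Matrix.GeneralLinearGroup (Fin n) F) = B := by
        apply Units.ext; rfl
      rw [h2]
      change A * Matrix.GeneralLinearGroup.scalar (Fin n) c⁻¹ * Matrix.GeneralLinearGroup.scalar (Fin n) c = A
      rw [mul_assoc, ← map_mul, inv_mul_cancel, map_one, mul_one]
    · rintro ⟨Y, hY⟩
      obtain ⟨Y, rfl⟩ := QuotientGroup.mk_surjective Y
      have hY' : Matrix.ProjGenLinGroup.mk (Matrix.SpecialLinearGroup.toGL Y) = Matrix.ProjGenLinGroup.mk A := hY
      rw [Matrix.ProjGenLinGroup.mk_eq_mk_iff] at hY'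
      obtain ⟨u, hu⟩ := hY'
      refine ⟨u, ?_⟩
      rw [powMonoidHom_apply, ← hu, map_mul]
      have h1 : Matrix.GeneralLinearGroup.det (Matrix.SpecialLinearGroup.toGL Y) = 1 := by
        apply Units.ext
        simp
      have h2 : Matrix.GeneralLinearGroup.det (Matrix.GeneralLinearGroup.scalar (Fin n) u) = u ^ n := by simp
      rw [h1, h2, one_mul]

end Cfsg.Agent.S0307
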