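import Cfsg.Statements.S0310
import Cfsg.Agent.BNPair.Parabolic

set_option autoImplicit false
open Cfsg

namespace Cfsg.Agent.S0310

/-- For a set `J` of distinguished generators, the subgroup generated by `B` and `J` is exactly the union of
the double cosets `B n B` with `n` in the subgroup generated by `J` (so `B W_J B` is a subgroup). -/
theorem result {G : Type*} [Group G] (P : Cfsg.BNPair G) {J : Set G}
    (hJ : J ⊆ P.S) (g : G) :
    g ∈ P.parabolic J ↔ ∃ n ∈ Subgroup.closure J, g ∈ DoubleCoset.doubleCoset n (P.B : Set G) P.B := by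
  rw [BNP.parabolic_eq_par P hJ]
  constructor
  · rintro ⟨w, hw, hg⟩
    obtain ⟨l, hl, rfl⟩ := BNP.exists_word_of_mem_closure P hw
    refine ⟨(l.map Subtype.val).prod, ?_, ?_⟩
    · apply Subgroup.list_prod_mem
      intro x hx
      obtain ⟨t, ht, rfl⟩ := List.mem_map.1 hx
      exact Subgroup.subset_closure (hl t ht)
    · rw [← BNP.mk_prod P l (BNP.prod_mem_N P l), BNP.mem_C_mk] at hg
      exact hg
  · rintro ⟨n, hn, hg⟩
    rw [DoubleCoset.mem_doubleCoset] at hg
    obtain ⟨b, hb, b', hb', rfl⟩ := hg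
    refine Subgroup.mul_mem _ (Subgroup.mul_mem _ (BNP.B_le_par P _ hb) ?_) (BNP.B_le_par P _ hb')
    rw [← BNP.parabolic_eq_par P hJ]
    exact (le_sup_right : Subgroup.closure J ≤ _) hn

end Cfsg.Agent.S0310
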