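import Cfsg.Statements.S0316
import Cfsg.Agent.BNPair.Parabolic

set_option autoImplicit false
open Cfsg

namespace Cfsg.Agent.S0316

/-- The map `J ↦ P_J` is a lattice isomorphism from the power set of the set of distinguished generators onto the
subgroups containing `B`. -/
theorem result {G : Type*} [Group G] (P : Cfsg.BNPair G) :
    ∃ e : Set P.S ≃o {M : Subgroup G // P.B ≤ M},
      ∀ J : Set P.S, ((e J : {M : Subgroup G // P.B ≤ M}) : Subgroup G) = P.parabolic (Subtype.val '' J) := by
  have hsub : ∀ J : Set P.S, Subtype.val '' J ⊆ P.S := by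
    rintro J _ ⟨s, _, rfl⟩
    exact s.2
  have hpre : ∀ J : Set P.S, Subtype.val ⁻¹' (Subtype.val '' J) = J := fun J =>
    Set.preimage_image_eq J Subtype.val_injective
  refine ⟨{ toFun := fun J => ⟨P.parabolic (Subtype.val '' J), le_sup_left⟩
            invFun := fun M => {s : P.S | (s : G) ∈ M.1}
            left_inv := ?_
            right_inv := ?_
            map_rel_iff' := ?_ }, fun J => rfl⟩
  · intro J
    ext s
    change (s : G) ∈ P.parabolic (Subtype.val '' J) ↔ s ∈ J
    rw [BNP.parabolic_eq_par P (hsub J), hpre, BNP.coe_mem_par_iff]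
  · rintro ⟨M, hM⟩
    apply Subtype.ext
    simp only
    rw [BNP.parabolic_eq_par P (hsub _), hpre]
    exact (BNP.eq_par P hM).symm
  · intro J K
    change P.parabolic (Subtype.val '' J) ≤ P.parabolic (Subtype.val '' K) ↔ J ⊆ K
    rw [BNP.parabolic_eq_par P (hsub J), BNP.parabolic_eq_par P (hsub K), hpre, hpre,
      BNP.par_le_par_iff]

end Cfsg.Agent.S0316
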