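import Cfsg.Statements.S0320
import Cfsg.Agent.BNPair.Parabolic
import Cfsg.Agent.BNPair.Coxeter

set_option autoImplicit false
open Cfsg

namespace Cfsg.Agent.S0320

/-- The Weyl group `W = N / (B ⊓ N)` of a (B,N)-pair, with its distinguished involutions, is a Coxeter system. -/
theorem result {G : Type*} [Group G] (P : Cfsg.BNPair G)
    [hN : ((P.B ⊓ P.N).subgroupOf P.N).Normal] :
    ∃ (M : CoxeterMatrix P.S) (cs : CoxeterSystem M (P.N ⧸ (P.B ⊓ P.N).subgroupOf P.N)),
      ∀ s : P.S, cs.simple s = QuotientGroup.mk (⟨(s : G), P.subset s.2⟩ : P.N) := by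
  have hred : ∀ l : List P.S, Cox.Red (BNP.σ P) l ↔ BNP.len P (BNP.wp P l) = l.length := by
    intro l
    constructor
    · intro h
      obtain ⟨l', hl', e⟩ := BNP.exists_reduced P (BNP.wp P l)
      have h1 := h l' e
      have h2 := BNP.len_le P l
      omega
    · intro h l' hl'
      have h1 := BNP.len_le P l'
      have h2 : BNP.wp P l' = BNP.wp P l := hl'
      rw [h2, h] at h1
      exact h1
  have E : Cox.Exchange (BNP.σ P) :=
    { sq := BNP.σ_mul_self P
      inj := BNP.σ_injective P
      gen := BNP.exists_word P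
      exch := by
        intro i l hl hil
        rw [hred] at hl hil
        apply BNP.exchange_prefix P hl
        rw [BNP.wp_cons, List.length_cons] at hil
        rcases BNP.len_σ_mul_cases P i (BNP.wp P l) with h | h <;> omega }
  exact E.exists_coxeterSystem

end Cfsg.Agent.S0320
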