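import Cfsg.Statements.S0321
import Cfsg.Agent.BNPair.Parabolic

set_option autoImplicit false
open Cfsg

namespace Cfsg.Agent.S0321

/-- For `n ∈ N` not in `B`, the union `B ∪ B n B` is (the underlying set of) a subgroup exactly when `n` agrees
modulo `B ⊓ N` with one of the distinguished representatives; thus the distinguished involutions are
determined by `B` and `N`. -/
theorem result {G : Type*} [Group G] (P : Cfsg.BNPair G) {n : G}
    (hn : n ∈ P.N) (hnB : n ∉ P.B) :
    (∃ H : Subgroup G, (H : Set G) = (P.B : Set G) ∪ DoubleCoset.doubleCoset n (P.B : Set G) P.B) ↔ ∃ s ∈ P.S, s⁻¹ * n ∈ P.B := by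
  constructor
  · rintro ⟨H, hH⟩
    have hBH : P.B ≤ H := by
      intro b hb
      have : b ∈ (H : Set G) := by rw [hH]; exact Or.inl hb
      exact this
    have hmem : ∀ g : G, g ∈ H → g ∈ BNP.C P 1 ∨ g ∈ BNP.C P (QuotientGroup.mk (⟨n, hn⟩ : P.N)) := by
      intro g hg
      have : g ∈ (H : Set G) := hg
      rw [hH] at this
      rcases this with h | h
      · exact Or.inl ((BNP.mem_C_one P).2 h)
      · exact Or.inr ((BNP.mem_C_mk P).2 h)
    have hnH : n ∈ H := by
      have : n ∈ (H : Set G) := by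
        rw [hH]; exact Or.inr (DoubleCoset.mem_doubleCoset_self _ _ _)
      exact this
    obtain ⟨l, hl, e⟩ := BNP.exists_reduced P (QuotientGroup.mk (⟨n, hn⟩ : P.N))
    have hnC : n ∈ BNP.C P (BNP.wp P l) := by
      rw [e]; exact BNP.self_mem_C P ⟨n, hn⟩
    have hlet := BNP.letters_mem P hBH (by rw [e, hl]) hnC hnH
    cases l with
    | nil =>
      exact absurd ((BNP.mk_eq_one_iff P ⟨n, hn⟩).1 e.symm) hnB
    | cons s l =>
      refine ⟨s, s.2, ?_⟩
      have hs := hlet s (by simp)
      rcases hmem s hs with h | h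
      · exact absurd (BNP.C_disjoint P (BNP.coe_mem_C_σ P s) h) (BNP.σ_ne_one P s)
      · have := BNP.C_disjoint P (BNP.coe_mem_C_σ P s) h
        exact (BNP.mk_eq_mk_iff P ⟨(s : G), P.subset s.2⟩ ⟨n, hn⟩).1 this
  · rintro ⟨s, hs, h⟩
    refine ⟨BNP.par P {⟨s, hs⟩}, ?_⟩
    have hw : (QuotientGroup.mk (⟨n, hn⟩ : P.N) : BNP.W P) = BNP.σ P ⟨s, hs⟩ :=
      ((BNP.mk_eq_mk_iff P ⟨s, P.subset hs⟩ ⟨n, hn⟩).2 h).symm
    ext g
    constructor
    · rintro ⟨w, hw', hg⟩
      have h2 : w = 1 ∨ w = BNP.σ P ⟨s, hs⟩ := by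
        rw [Set.image_singleton] at hw'
        obtain ⟨l, hl, rfl⟩ := BNP.exists_word_of_mem_closure P (J := {⟨s, hs⟩})
          (by rwa [Set.image_singleton])
        clear hw' hg
        induction l with
        | nil => left; rfl
        | cons t l ih =>
          have ht : t = ⟨s, hs⟩ := hl t (by simp)
          subst ht
          rw [BNP.wp_cons]
          rcases ih (fun u hu => hl u (by simp [hu])) with h | h
          · right; rw [h, mul_one]
          · left; rw [h, BNP.σ_mul_self]
      rcases h2 with rfl | rfl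
      · left; exact (BNP.mem_C_one P).1 hg
      · right
        rw [← hw, BNP.mem_C_mk] at hg
        exact hg
    · rintro (hg | hg)
      · exact BNP.B_le_par P _ hg
      · refine ⟨BNP.σ P ⟨s, hs⟩, Subgroup.subset_closure ⟨_, rfl, rfl⟩, ?_⟩
        rw [← hw, BNP.mem_C_mk]
        exact hg

end Cfsg.Agent.S0321
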