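import Cfsg.Statements.S0322
import Cfsg.Agent.BNPair.Parabolic

set_option autoImplicit false
open Cfsg

namespace Cfsg.Agent.S0322

/-- A group with a (B,N)-pair of rank one acts doubly transitively on the left cosets of `B`. -/
theorem result {G : Type*} [Group G] (P : Cfsg.BNPair G) (h : P.rank = 1) : MulAction.IsMultiplyPretransitive G (G ⧸ P.B) 2 := by
  obtain ⟨⟨s, hs⟩, hall⟩ := Nat.card_eq_one_iff_exists.1 h
  have hG : ∀ g : G, g ∈ P.B ∨ ∃ b ∈ P.B, ∃ b' ∈ P.B, g = b * s * b' := by
    intro g
    obtain ⟨w, hw⟩ := BNP.exists_mem_C P g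
    have h2 : w = 1 ∨ w = BNP.σ P ⟨s, hs⟩ := by
      obtain ⟨l, rfl⟩ := BNP.exists_word P w
      clear hw
      induction l with
      | nil => left; rfl
      | cons t l ih =>
        have ht : t = ⟨s, hs⟩ := hall t
        subst ht
        rw [BNP.wp_cons]
        rcases ih with h | h
        · right; rw [h, mul_one]
        · left; rw [h, BNP.σ_mul_self]
    rcases h2 with rfl | rfl
    · left; exact (BNP.mem_C_one P).1 hw
    · right; exact BNP.exists_coe_of_mem_C_σ P hw
  rw [MulAction.is_two_pretransitive_iff]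
  -- it suffices to move any pair to `(B, s B)`
  have key : ∀ a b : G ⧸ P.B, a ≠ b → ∃ g : G, g • ((1 : G) : G ⧸ P.B) = a ∧
      g • ((s : G) : G ⧸ P.B) = b := by
    intro a b hab
    induction a using QuotientGroup.induction_on with
    | H x =>
    induction b using QuotientGroup.induction_on with
    | H y =>
    have hxy : x⁻¹ * y ∉ P.B := by
      intro hcon
      exact hab (QuotientGroup.eq.2 hcon)
    rcases hG (x⁻¹ * y) with hc | ⟨b, hb, b', hb', e⟩
    · exact absurd hc hxy
    · refine ⟨x * b, ?_, ?_⟩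
      · rw [MulAction.Quotient.smul_coe, QuotientGroup.eq]
        simpa using P.B.inv_mem hb
      · rw [MulAction.Quotient.smul_coe, QuotientGroup.eq]
        have : y = x * (b * s * b') := by rw [← e]; group
        rw [this, smul_eq_mul]
        have : (x * b * s)⁻¹ * (x * (b * s * b')) = b' := by group
        rw [this]
        exact hb'
  intro a b c d hab hcd
  obtain ⟨g, hg1, hg2⟩ := key a b hab
  obtain ⟨k, hk1, hk2⟩ := key c d hcd
  refine ⟨k * g⁻¹, ?_, ?_⟩
  · rw [← hg1, mul_smul, inv_smul_smul, hk1]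
  · rw [← hg2, mul_smul, inv_smul_smul, hk2]

end Cfsg.Agent.S0322
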