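import Cfsg.Statements.S0323

set_option autoImplicit false
open scoped Pointwise
open Cfsg

namespace Cfsg.Agent.S0323

/-- A doubly transitive action on a set with at least three points yields a (B,N)-pair of rank one:
`B` is the stabiliser of a point `x`, `N` the setwise stabiliser of a pair `{x, y}`. -/
theorem result {G Ω : Type*} [Group G] [MulAction G Ω]
    (h2 : MulAction.IsMultiplyPretransitive G Ω 2) {x y z : Ω} (hxy : x ≠ y) (hyz : y ≠ z) (hxz : x ≠ z) :
    ∃ P : Cfsg.BNPair G, P.B = MulAction.stabilizer G x ∧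
      P.N = MulAction.stabilizer G ({x, y} : Set Ω) ∧ P.rank = 1 := by
  rw [MulAction.is_two_pretransitive_iff] at h2
  obtain ⟨s, hsx, hsy⟩ := h2 hxy hxy.symm
  have memB : ∀ g : G, g ∈ MulAction.stabilizer G x ↔ g • x = x := fun g => MulAction.mem_stabilizer_iff
  have memN : ∀ g : G, g ∈ MulAction.stabilizer G ({x, y} : Set Ω) ↔
      (g • x = x ∧ g • y = y) ∨ (g • x = y ∧ g • y = x) := by
    intro g
    rw [MulAction.mem_stabilizer_iff]
    have himg : g • ({x, y} : Set Ω) = {g • x, g • y} := by
      rw [← Set.image_smul, Set.image_pair]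
    rw [himg]
    constructor
    · intro h
      have h1 : g • x ∈ ({x, y} : Set Ω) := by rw [← h]; simp
      have h3 : g • y ∈ ({x, y} : Set Ω) := by rw [← h]; simp
      have hne : g • x ≠ g • y := fun h => hxy (smul_left_cancel g h)
      rcases h1 with h1 | h1 <;> rcases h3 with h3 | h3
      · exact absurd (h1.trans h3.symm) hne
      · exact Or.inl ⟨h1, h3⟩
      · exact Or.inr ⟨h1, h3⟩
      · rw [Set.mem_singleton_iff] at h1 h3
        exact absurd (h1.trans h3.symm) hne
    · rintro (⟨h1, h3⟩ | ⟨h1, h3⟩)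
      · rw [h1, h3]
      · rw [h1, h3, Set.pair_comm]
  have hsN : s ∈ MulAction.stabilizer G ({x, y} : Set Ω) := (memN s).2 (Or.inr ⟨hsx, hsy⟩)
  -- elements moving x
  have hmove : ∀ g n : G, g • x ≠ x → n • x = y →
      ∃ b ∈ MulAction.stabilizer G x, ∃ b' ∈ MulAction.stabilizer G x, g = b * n * b' := by
    intro g n hg hn
    obtain ⟨b, hb1, hb2⟩ := h2 hxy hg.symm
    refine ⟨b, (memB b).2 hb1, (b * n)⁻¹ * g, ?_, by group⟩
    rw [memB, mul_smul, inv_smul_eq_iff, mul_smul, hn, hb2]
  refine ⟨{ B := MulAction.stabilizer G x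
            N := MulAction.stabilizer G ({x, y} : Set Ω)
            S := {s}
            sup_eq_top := ?_
            conj_mem := ?_
            subset := ?_
            sq_mem := ?_
            inj := ?_
            closure_sup := ?_
            mul_mem_union := ?_
            conj_ne := ?_ }, rfl, rfl, ?_⟩
  · rw [eq_top_iff]
    intro g _
    by_cases hg : g • x = x
    · exact (le_sup_left : MulAction.stabilizer G x ≤ _) ((memB g).2 hg)
    · obtain ⟨b, hb, b', hb', rfl⟩ := hmove g s hg hsx
      exact Subgroup.mul_mem _ (Subgroup.mul_mem _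
        ((le_sup_left : MulAction.stabilizer G x ≤ _) hb)
        ((le_sup_right : MulAction.stabilizer G ({x, y} : Set Ω) ≤ _) hsN))
        ((le_sup_left : MulAction.stabilizer G x ≤ _) hb')
  · rintro n hn t ht
    obtain ⟨htB, htN⟩ := Subgroup.mem_inf.1 ht
    rw [memB] at htB ⊢
    have hty : t • y = y := by
      rcases (memN t).1 htN with ⟨_, h⟩ | ⟨h, _⟩
      · exact h
      · exact absurd (htB.symm.trans h) hxy
    rw [mul_smul, mul_smul, smul_eq_iff_eq_inv_smul]
    rcases (memN n⁻¹).1 (Subgroup.inv_mem _ hn) with ⟨h, _⟩ | ⟨h, _⟩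
    · rw [h, htB]
    · rw [h, hty]
  · rintro _ rfl
    exact hsN
  · rintro _ rfl
    rw [memB, mul_smul, hsx, hsy]
  · rintro _ rfl _ rfl _
    rfl
  · apply le_antisymm
    · refine sup_le ?_ inf_le_right
      rw [Subgroup.closure_le]
      rintro _ rfl
      exact hsN
    · intro n hn
      have hs' : s ∈ Subgroup.closure {s} ⊔ (MulAction.stabilizer G x ⊓
          MulAction.stabilizer G ({x, y} : Set Ω)) :=
        (le_sup_left : Subgroup.closure {s} ≤ _) (Subgroup.subset_closure rfl)
      rcases (memN n).1 hn with ⟨h, _⟩ | ⟨h, _⟩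
      · exact (le_sup_right : MulAction.stabilizer G x ⊓
          MulAction.stabilizer G ({x, y} : Set Ω) ≤ _) ⟨(memB n).2 h, hn⟩
      · have h3 : s⁻¹ * n ∈ MulAction.stabilizer G x ⊓
            MulAction.stabilizer G ({x, y} : Set Ω) := by
          refine Subgroup.mem_inf.2 ⟨?_, Subgroup.mul_mem _ (Subgroup.inv_mem _ hsN) hn⟩
          rw [memB, mul_smul, h, inv_smul_eq_iff, hsx]
        have h4 := Subgroup.mul_mem _ hs' ((le_sup_right : MulAction.stabilizer G x ⊓
          MulAction.stabilizer G ({x, y} : Set Ω) ≤ _) h3)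
        rwa [mul_inv_cancel_left] at h4
  · rintro t ht n hn b hb
    obtain rfl : t = s := ht
    rcases (memN n).1 hn with ⟨h, _⟩ | ⟨h, h'⟩
    · left
      rw [DoubleCoset.mem_doubleCoset]
      have hnB : n ∈ MulAction.stabilizer G x := (memB n).2 h
      exact ⟨1, Subgroup.one_mem _, n⁻¹ * b * n,
        Subgroup.mul_mem _ (Subgroup.mul_mem _ (Subgroup.inv_mem _ hnB) hb) hnB, by group⟩
    · by_cases hg : (t * b * n) • x = x
      · left
        rw [DoubleCoset.mem_doubleCoset]
        have h3 : t * n ∈ MulAction.stabilizer G x := by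
          rw [memB, mul_smul, h, hsy]
        exact ⟨1, Subgroup.one_mem _, (t * n)⁻¹ * (t * b * n),
          Subgroup.mul_mem _ (Subgroup.inv_mem _ h3) ((memB _).2 hg), by group⟩
      · right
        rw [DoubleCoset.mem_doubleCoset]
        obtain ⟨b1, hb1, b2, hb2, e⟩ := hmove _ n hg h
        exact ⟨b1, hb1, b2, hb2, e⟩
  · rintro t ht hcon
    obtain rfl : t = s := ht
    obtain ⟨b, hb1, hb2⟩ := h2 hxy hxz
    have h3 : t * b * t ∈ ((MulAction.stabilizer G x : Subgroup G) : Set G) := by
      rw [← hcon]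
      exact ⟨b, (memB b).2 hb1, rfl⟩
    rw [SetLike.mem_coe, memB, mul_smul, mul_smul, hsx, hb2] at h3
    -- t • z = x = t • y
    have h4 : t • z = t • y := by rw [h3, hsy]
    exact hyz (smul_left_cancel t h4).symm
  · change Nat.card ({s} : Set G) = 1
    simp

end Cfsg.Agent.S0323
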