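import Cfsg.Statements.S0328
import Cfsg.Agent.Suzuki.Trans

set_option autoImplicit false
open Cfsg

namespace Cfsg.Agent.S0328

/-- The stabiliser in the Suzuki group of the two ovoid points spanned by `(1,0,0,0)` and `(0,0,0,1)` is
isomorphic to the multiplicative group of the field (cyclic of order `q - 1`). -/
theorem result {F : Type*} [Field F] [Fintype F] {m : ℕ} (hm : 1 ≤ m)
    (hF : Fintype.card F = 2 ^ (2 * m + 1)) :
    Nonempty (↥(MulAction.stabilizer (Cfsg.Sz F m) (Cfsg.suzukiPointInfinity F) ⊓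
        MulAction.stabilizer (Cfsg.Sz F m) (Cfsg.suzukiPointZero F)) ≃* Fˣ) := by
  have := Suz.charP_two hF
  have hfix : ∀ μ : Fˣ, Suz.hS hF μ ∈ MulAction.stabilizer (Cfsg.Sz F m) (Cfsg.suzukiPointInfinity F) ⊓
        MulAction.stabilizer (Cfsg.Sz F m) (Cfsg.suzukiPointZero F) := by
    intro μ
    refine Subgroup.mem_inf.2 ⟨?_, ?_⟩
    · rw [MulAction.mem_stabilizer_iff]
      exact Suz.H_smul_pinf _ μ
    · rw [MulAction.mem_stabilizer_iff, Suz.pzero_eq (Suz.th F m)]
      have h := Suz.H_smul_pt (Suz.th F m) (Suz.th_th hF) μ 0 0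
      rw [mul_zero, mul_zero] at h
      exact h
  let f : Fˣ →* ↥(MulAction.stabilizer (Cfsg.Sz F m) (Cfsg.suzukiPointInfinity F) ⊓
        MulAction.stabilizer (Cfsg.Sz F m) (Cfsg.suzukiPointZero F)) :=
    { toFun := fun μ => ⟨Suz.hS hF μ, hfix μ⟩
      map_one' := Subtype.ext (Suz.hS_one hF)
      map_mul' := fun μ ν => Subtype.ext (Suz.hS_mul hF μ ν).symm }
  have hf : Function.Bijective f := by
    constructor
    · intro μ ν h
      exact Suz.hS_injective hF (congrArg Subtype.val h)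
    · rintro ⟨g, hg⟩
      obtain ⟨h1, h2⟩ := Subgroup.mem_inf.1 hg
      rw [MulAction.mem_stabilizer_iff] at h1 h2
      rw [Suz.pzero_eq (Suz.th F m)] at h2
      obtain ⟨μ, hμ⟩ := Suz.eq_H_of_fix hm hF g.2 h1 h2
      exact ⟨μ, Subtype.ext (Subtype.ext hμ.symm)⟩
  exact ⟨(MulEquiv.ofBijective f hf).symm⟩

end Cfsg.Agent.S0328
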