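import Cfsg.Statements.S0331
import Cfsg.Agent.Suzuki.Cent

set_option autoImplicit false
open Cfsg

namespace Cfsg.Agent.S0331

/-- For every odd prime `p` the Sylow `p`-subgroups of the Suzuki group are cyclic. -/
theorem result {F : Type*} [Field F] [Fintype F] {m : ℕ} (hm : 1 ≤ m)
    (hF : Fintype.card F = 2 ^ (2 * m + 1)) {p : ℕ} [Fact p.Prime] (hp : p ≠ 2)
    (P : Sylow p (Cfsg.Sz F m)) : IsCyclic P := by
  have := Cfsg.Agent.Suz.charP_two hF
  by_cases hne : (P : Subgroup (Cfsg.Sz F m)) = ⊥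
  · have : Subsingleton P := by
      constructor
      rintro ⟨a, ha⟩ ⟨b, hb⟩
      have ha' : a ∈ (P : Subgroup (Cfsg.Sz F m)) := ha
      have hb' : b ∈ (P : Subgroup (Cfsg.Sz F m)) := hb
      rw [hne, Subgroup.mem_bot] at ha' hb'
      exact Subtype.ext (ha'.trans hb'.symm)
    exact isCyclic_of_subsingleton
  · obtain ⟨z, -, hzo, hzc⟩ := Cfsg.Agent.SC.exists_center_order P.isPGroup' hne
    have hpp : p.Prime := Fact.out
    have hz1 : z ≠ 1 := by
      rintro rfl
      rw [orderOf_one] at hzo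
      exact hpp.one_lt.ne hzo
    have hodd : ¬ 2 ∣ orderOf z := by
      rw [hzo]
      intro h
      exact hp ((Nat.prime_dvd_prime_iff_eq Nat.prime_two hpp).1 h).symm
    have hc := Cfsg.Agent.Suz.isCyclic_centralizer_of_odd hF hm hz1 hodd
    have hle : (P : Subgroup (Cfsg.Sz F m)) ≤ Subgroup.centralizer {z} := fun x hx =>
      Subgroup.mem_centralizer_singleton_iff.2 (hzc x hx)
    exact isCyclic_of_injective (Subgroup.inclusion hle) (Subgroup.inclusion_injective hle)

end Cfsg.Agent.S0331
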