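import Cfsg.Statements.S0335
import Cfsg.Agent.Suzuki.Trans

set_option autoImplicit false
open Cfsg

namespace Cfsg.Agent.S0335

/-- The Suzuki–Tits point set is an ovoid: any three distinct points of it are projectively independent
(no line of projective 3-space meets it in more than two points). -/
theorem result {F : Type*} [Field F] [Fintype F] {m : ℕ} (hm : 1 ≤ m)
    (hF : Fintype.card F = 2 ^ (2 * m + 1)) (p : Fin 3 ↪ Cfsg.suzukiOvoid F m) :
    Projectivization.Independent (fun i => (p i : Projectivization F (Fin 4 → F))) := by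
  have := Suz.charP_two hF
  have h01 : p 0 ≠ p 1 := fun h => absurd (p.injective h) (by decide)
  have h02 : p 0 ≠ p 2 := fun h => absurd (p.injective h) (by decide)
  have h12 : p 1 ≠ p 2 := fun h => absurd (p.injective h) (by decide)
  obtain ⟨g, hg0, hg1⟩ := Suz.exists_smul_pair hF h01
  -- the third point
  have h2 : ∃ x y : F, p 2 = g • Suz.opt m x y ∧
      ¬ (x = 0 ∧ y = 0) := by
    rcases Suz.ov_cases (g⁻¹ • p 2) with h | ⟨x, y, h⟩
    · rw [inv_smul_eq_iff, hg0] at h
      exact absurd h.symm h02
    · refine ⟨x, y, by rw [← h, smul_inv_smul], ?_⟩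
      rintro ⟨rfl, rfl⟩
      rw [inv_smul_eq_iff, hg1] at h
      exact h12 h.symm
  obtain ⟨x, y, hp2, hxy⟩ := h2
  let e : (Fin 4 → F) ≃ₗ[F] (Fin 4 → F) := DistribMulAction.toLinearEquiv F _ g.1
  let v : Fin 3 → Fin 4 → F := ![![1, 0, 0, 0], Suz.vv (Suz.th F m) 0 0, Suz.vv (Suz.th F m) x y]
  have hv : LinearIndependent F v := by
    rw [Fintype.linearIndependent_iff]
    intro c hc
    have hz : x * y + x ^ 2 * Suz.th F m x + Suz.th F m y ≠ 0 := fun h =>
      hxy (Suz.zero_of_f_eq_zero _ (Suz.th_th hF) h)
    have e0 := congrFun hc 0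
    have e1 := congrFun hc 1
    have e2 := congrFun hc 2
    have e3 := congrFun hc 3
    simp [v, Suz.vv, Fin.sum_univ_succ] at e0 e1 e2 e3
    have hc2 : c 2 = 0 := by
      rcases e1 with h | h
      · exact h
      · rcases e2 with h' | h'
        · exact h'
        · exact absurd ⟨h', h⟩ hxy
    have hc0 : c 0 = 0 := by
      rw [hc2] at e0
      simpa using e0
    have hc1 : c 1 = 0 := by
      rw [hc2] at e3
      simpa using e3
    intro i
    fin_cases i
    · exact hc0
    · exact hc1
    · exact hc2
  have hve : LinearIndependent F (fun i => e (v i)) :=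
    hv.map' e.toLinearMap (LinearMap.ker_eq_bot.2 e.injective)
  have hne : ∀ i, e (v i) ≠ 0 := fun i => hve.ne_zero i
  have key := Projectivization.Independent.mk (fun i => e (v i)) hne hve
  have heq : (fun i => Projectivization.mk F (e (v i)) (hne i)) =
      (fun i => (p i : Projectivization F (Fin 4 → F))) := by
    funext i
    fin_cases i
    · exact (congrArg Subtype.val hg0)
    · exact (congrArg Subtype.val hg1)
    · exact (congrArg Subtype.val hp2).symm
  rw [← heq]
  exact key

end Cfsg.Agent.S0335
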