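import Cfsg.Statements.S0344
import Mathlib
import Cfsg.Agent.H37.ZSimple

set_option autoImplicit false
open Cfsg

namespace Cfsg.Agent.S0344

/-- A finite simple Zassenhaus group with a two-point stabiliser of even order is isomorphic to `PSL₂(F)` for a finite
field `F` with more than three elements. -/
theorem result {G Ω : Type*} [Group G] [Finite G] [MulAction G Ω] [Finite Ω]
    (hZ : Cfsg.IsZassenhausGroup G Ω) [IsSimpleGroup G]
    {a b : Ω} (hab : a ≠ b) (heven : Even (Nat.card ↥(MulAction.stabilizer G a ⊓ MulAction.stabilizer G b))) :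
    ∃ (F : Type) (_ : Field F) (_ : Fintype F), 3 < Fintype.card F ∧ Nonempty (G ≃* Matrix.ProjectiveSpecialLinearGroup (Fin 2) F) := by
  have h := Cfsg.Agent.H34.zgp_of hZ
  obtain ⟨g0, hg0, hg1⟩ := Cfsg.Agent.H37.ZT.stab2_ne_bot hZ hab
  obtain ⟨h1, -, K, iK, iFK, hr, hK, h2⟩ := Cfsg.Agent.H37.ZT.simple_even hZ hab heven
  refine ⟨K, iK, iFK, ?_, h2⟩
  have h3 : 0 < Nat.card (Cfsg.Agent.H34.stab2 G a b) := Nat.card_pos
  have h4 : Nat.card (Cfsg.Agent.H34.stab2 G a b) ≠ 1 := by
    intro h5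
    change Even (Nat.card (Cfsg.Agent.H34.stab2 G a b)) at heven
    rw [h5] at heven
    exact absurd heven (by decide)
  rw [← Nat.card_eq_fintype_card]
  omega

end Cfsg.Agent.S0344
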