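import Cfsg.Statements.S0353
import Cfsg.Agent.Stn.Span

set_option autoImplicit false
open Cfsg

namespace Cfsg.Agent.S0353

/-- In an S(5, 8, 24), the symmetric difference of two blocks meeting in four points is a block. -/
theorem result {α : Type*} [Fintype α] [DecidableEq α] (hα : Fintype.card α = 24) {B : Set (Finset α)} (hB : Cfsg.IsSteinerSystem 5 8 B) {b c : Finset α} (hb : b ∈ B) (hc : c ∈ B) (h4 : (b ∩ c).card = 4) : symmDiff b c ∈ B := by
  rw [Cfsg.Agent.Stn.block5_iff hα hB]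
  have hb' := (Cfsg.Agent.Stn.block5_iff hα hB b).1 hb
  have hc' := (Cfsg.Agent.Stn.block5_iff hα hB c).1 hc
  refine ⟨?_, ?_⟩
  · rw [Cfsg.Agent.Stn.ind_symm]
    exact Submodule.add_mem _ hb'.1 hc'.1
  · have := Cfsg.Agent.Stn.card_symm b c
    omega

end Cfsg.Agent.S0353
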