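import Cfsg.Statements.S0357
import Cfsg.Agent.H91.Steiner12


set_option autoImplicit false
open Cfsg

namespace Cfsg.Agent.S0357

open Cfsg.Agent.H91.Steiner12


/-- In a Steiner system S(5, 6, 12), the complement of every block is again a block. -/
theorem result {α : Type*} [Fintype α] [DecidableEq α] (hα : Fintype.card α = 12) {B : Set (Finset α)} (hB : Cfsg.IsSteinerSystem 5 6 B) {b : Finset α} (hb : b ∈ B) : bᶜ ∈ B := by
  have h1 := card_meet hα hB hb (s := ∅) (Finset.empty_subset _)
  rw [Finset.card_empty] at h1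
  obtain ⟨c, hc⟩ := Finset.card_eq_one.1 (show (meet B b ∅).card = 1 from h1)
  have h2 : c ∈ meet B b ∅ := by rw [hc]; simp
  rw [mem_meet] at h2
  have h3 : c ⊆ bᶜ := by
    rw [Finset.subset_compl_iff_disjoint_right, Finset.disjoint_iff_inter_eq_empty, Finset.inter_comm]
    exact h2.2
  have h4 : c = bᶜ := Finset.eq_of_subset_of_card_le h3 (by
    rw [Finset.card_compl, hα, hB.1 b hb, hB.1 c h2.1])
  rw [← h4]
  exact h2.1

end Cfsg.Agent.S0357
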