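import Cfsg.Statements.S0369
import Cfsg.Agent.Golay.M24Order

set_option autoImplicit false
open Cfsg

namespace Cfsg.Agent.S0369

open scoped Pointwise in
theorem aux : Cfsg.M24 = Cfsg.setSystemAut Cfsg.octads := by
  ext σ
  constructor
  · intro hσ
    exact MulAction.mem_stabilizer_set.2 (fun s => Cfsg.Agent.Golay.smul_mem_octads hσ)
  · intro hσ
    have h := MulAction.mem_stabilizer_set.1 hσ
    apply Cfsg.Agent.Golay.mem_M24_of_basis
    intro b hb
    have hoct : Cfsg.Agent.Golay.ofMask b ∈ Cfsg.octads := by
      rw [Cfsg.Agent.Golay.mem_octads_iff, Cfsg.Agent.Golay.maskOf_ofMask (Cfsg.Agent.Golay.codeBasis_lt hb)]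
      revert b
      decide +kernel
    exact ((h _).2 hoct).1

/-- The group of the length-24 code coincides with the automorphism group of its octad system. -/
theorem result : Cfsg.M24 = Cfsg.setSystemAut Cfsg.octads := by
  exact Cfsg.Agent.S0369.aux

end Cfsg.Agent.S0369
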