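import Cfsg.Statements.S0384
import Cfsg.Agent.Golay.M12

set_option autoImplicit false
open scoped Pointwise
open Cfsg

namespace Cfsg.Agent.S0384

/-- A dodecad stabiliser is sharply 5-transitive on the dodecad. -/
theorem result (d : Finset Cfsg.GolayPt) (hd : d ∈ Cfsg.dodecads) (x y : Fin 5 ↪ Cfsg.GolayPt) (hx : ∀ i, x i ∈ d) (hy : ∀ i, y i ∈ d) : ∃! g : MulAction.stabilizer Cfsg.M24 d, ∀ i, ((g : Cfsg.M24) : Equiv.Perm Cfsg.GolayPt) (x i) = y i := by
  obtain ⟨g, hg, h⟩ := Cfsg.Agent.Golay.M12_map hd x y hx hy x.injective y.injective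
  refine ⟨⟨g, hg⟩, h, fun g' hg' => ?_⟩
  apply Subtype.ext
  apply Cfsg.Agent.Golay.M12_unique hd g'.2 hg x hx x.injective
  intro i
  have h1 := hg' i
  have h2 := h i
  exact h1.trans h2.symm

end Cfsg.Agent.S0384
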