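import Cfsg.Statements.S0385
import Cfsg.Agent.Golay.Dodecad

set_option autoImplicit false
open Cfsg

namespace Cfsg.Agent.S0385

/-- The 6-point intersections of octads with a fixed dodecad form a Steiner system S(5, 6, 12) on the dodecad. -/
theorem result (d : Finset Cfsg.GolayPt) (hd : d ∈ Cfsg.dodecads) : Cfsg.IsSteinerSystem 5 6 {h : Finset {p : Cfsg.GolayPt // p ∈ d} | ∃ o ∈ Cfsg.octads, (o ∩ d).card = 6 ∧ h = Finset.subtype (fun p => p ∈ d) o} := by
  classical
  have hcard : ∀ o : Finset Cfsg.GolayPt, (Finset.subtype (fun p => p ∈ d) o).card = (o ∩ d).card := by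
    intro o
    rw [Finset.card_subtype, Finset.filter_mem_eq_inter]
  constructor
  · rintro b ⟨o, _, h6, rfl⟩
    rw [hcard, h6]
  · intro s hs
    have hs' : (s.map (Function.Embedding.subtype _)).card = 5 := by rw [Finset.card_map, hs]
    have hsd : s.map (Function.Embedding.subtype _) ⊆ d := by
      intro p hp
      obtain ⟨q, _, rfl⟩ := Finset.mem_map.1 hp
      exact q.2
    obtain ⟨o, ho, hso⟩ := Cfsg.Agent.Golay.exists_octad hs'
    have h6 := Cfsg.Agent.Golay.octad_inter_dodecad_six ho hd hso hsd hs'.ge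
    refine ⟨Finset.subtype (fun p => p ∈ d) o, ⟨⟨o, ho, h6, rfl⟩, ?_⟩, ?_⟩
    · intro q hq
      rw [Finset.mem_subtype]
      exact hso (Finset.mem_map_of_mem _ hq)
    · rintro b' ⟨⟨o', ho', h6', rfl⟩, hsb⟩
      have : s.map (Function.Embedding.subtype _) ⊆ o' := by
        intro p hp
        obtain ⟨q, hq, rfl⟩ := Finset.mem_map.1 hp
        exact Finset.mem_subtype.1 (hsb hq)
      rw [Cfsg.Agent.Golay.octad_eq_of_subset ho' ho this hso hs'.ge]

end Cfsg.Agent.S0385
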