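import Cfsg.Statements.S0386
import Cfsg.Agent.Golay.M12

set_option autoImplicit false
open Cfsg

namespace Cfsg.Agent.S0386

open Cfsg.Agent.Golay
open scoped Pointwise in
theorem count_eq {d : Finset GolayPt} (hd : d ∈ dodecads) (k : ℕ) :
    {o : Finset GolayPt | o ∈ octads ∧ (o ∩ d).card = k}.ncard =
      (octadList.filter (fun m => Nat.beq (pop (m &&& 340831)) k)).length := by
  obtain ⟨ρ, hρ, h⟩ := M24_dodecad_transitive hd d0_mem
  rw [← ncard_octads_filter]
  apply Set.ncard_congr (fun o _ => ρ • o)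
  · rintro o ⟨ho, hk⟩
    refine ⟨(smul_mem_octads hρ).2 ho, ?_⟩
    have h1 : (ρ • o ∩ d0).card = k := by
      rw [← h, ← Finset.smul_finset_inter, Finset.card_smul_finset]
      exact hk
    rw [card_eq_pop, maskOf_inter, maskOf_ofMask (by norm_num)] at h1
    rw [Nat.beq_eq]
    exact h1
  · intro o o' _ _ h'
    exact smul_left_cancel ρ h'
  · rintro o ⟨ho, hk⟩
    refine ⟨ρ⁻¹ • o, ⟨?_, ?_⟩, smul_inv_smul _ _⟩
    · rw [← smul_mem_octads hρ, smul_inv_smul]; exact ho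
    · have h1 : (o ∩ d0).card = k := by
        rw [card_eq_pop, maskOf_inter, maskOf_ofMask (by norm_num)]
        exact Nat.eq_of_beq_eq_true hk
      rw [← Finset.card_smul_finset ρ, Finset.smul_finset_inter, smul_inv_smul, h]
      exact h1

theorem aux {d : Finset GolayPt} (hd : d ∈ dodecads) : {o : Finset Cfsg.GolayPt | o ∈ Cfsg.octads ∧ (o ∩ d).card = 6}.ncard = 132 ∧ {o : Finset Cfsg.GolayPt | o ∈ Cfsg.octads ∧ (o ∩ d).card = 2}.ncard = 132 ∧ {o : Finset Cfsg.GolayPt | o ∈ Cfsg.octads ∧ (o ∩ d).card = 4}.ncard = 495 := by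
  refine ⟨?_, ?_, ?_⟩
  · rw [count_eq hd]; decide +kernel
  · rw [count_eq hd]; decide +kernel
  · rw [count_eq hd]; decide +kernel

/-- For a fixed dodecad, 132 octads meet it in 6 points, 132 in 2 points and 495 in 4 points. -/
theorem result (d : Finset Cfsg.GolayPt) (hd : d ∈ Cfsg.dodecads) : {o : Finset Cfsg.GolayPt | o ∈ Cfsg.octads ∧ (o ∩ d).card = 6}.ncard = 132 ∧ {o : Finset Cfsg.GolayPt | o ∈ Cfsg.octads ∧ (o ∩ d).card = 2}.ncard = 132 ∧ {o : Finset Cfsg.GolayPt | o ∈ Cfsg.octads ∧ (o ∩ d).card = 4}.ncard = 495 := by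
  exact Cfsg.Agent.S0386.aux hd

end Cfsg.Agent.S0386
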