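import Cfsg.Statements.S0402
import Cfsg.Agent.LeechSimple.HS

set_option autoImplicit false
open Cfsg

namespace Cfsg.Agent.S0402

/-- Stabiliser of a minimal vector is simple of order 42305421312000. -/
theorem result (v : Cfsg.leechLattice) (hv : Cfsg.sqNorm (v : Cfsg.GolayPt → ℤ) = 32) : Cfsg.IsCo2 (MulAction.stabilizer Cfsg.Co0 v) := by
  obtain ⟨g, hg⟩ := Cfsg.Agent.Leech.trans_32 v Cfsg.Agent.LeechSimple.w32 hv Cfsg.Agent.LeechSimple.norm_w32
  refine ⟨?_, Cfsg.Agent.Leech.card_stab_32 v hv⟩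
  have e : MulAction.stabilizer Cfsg.Co0 v ≃* MulAction.stabilizer Cfsg.Co0 Cfsg.Agent.LeechSimple.w32 :=
    MulAction.stabilizerEquivStabilizer hg.symm
  exact Cfsg.Agent.SimpleCrit.simple_congr e.symm (Cfsg.Agent.LeechSimple.simple_co2 Cfsg.Agent.LeechSimple.card_hs)


end Cfsg.Agent.S0402
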