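import Cfsg.Statements.S0403
import Cfsg.Agent.LeechSimple.Basic

set_option autoImplicit false
open Cfsg

namespace Cfsg.Agent.S0403

/-- Stabiliser of a vector of sum of squares 48 is simple of order 495766656000. -/
theorem result (v : Cfsg.leechLattice) (hv : Cfsg.sqNorm (v : Cfsg.GolayPt → ℤ) = 48) : Cfsg.IsCo3 (MulAction.stabilizer Cfsg.Co0 v) := by
  obtain ⟨g, hg⟩ := Cfsg.Agent.Leech.to_leechV v hv
  refine ⟨?_, Cfsg.Agent.Leech.card_stab_48 v hv⟩
  have e : MulAction.stabilizer Cfsg.Co0 v ≃* MulAction.stabilizer Cfsg.Co0 Cfsg.Spor.leechV :=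
    MulAction.stabilizerEquivStabilizer hg.symm
  exact Cfsg.Agent.SimpleCrit.simple_congr e.symm Cfsg.Agent.LeechSimple.simple_co3

end Cfsg.Agent.S0403
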