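import Cfsg.Statements.S0407
import Cfsg.Agent.Stn.Span

set_option autoImplicit false
open Cfsg

namespace Cfsg.Agent.S0407

/-- Uniqueness of the Steiner system S(5, 8, 24) up to isomorphism. -/
theorem result {α β : Type*} [Fintype α] [DecidableEq α] [Fintype β] [DecidableEq β] (hα : Fintype.card α = 24) (hβ : Fintype.card β = 24) {B : Set (Finset α)} {B' : Set (Finset β)} (hB : Cfsg.IsSteinerSystem 5 8 B) (hB' : Cfsg.IsSteinerSystem 5 8 B') : Cfsg.SetSystemIso B B' := by
  obtain ⟨p⟩ : Nonempty α := Fintype.card_pos_iff.1 (by omega)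
  obtain ⟨q⟩ : Nonempty β := Fintype.card_pos_iff.1 (by omega)
  obtain ⟨φ, -, hφ⟩ := (Cfsg.Agent.Stn.fam5 hα hB).unique (Cfsg.Agent.Stn.fam5 hβ hB') p q
  refine ⟨φ, ?_⟩
  have key : ∀ X : Finset α, X ∈ B ↔ X.image φ ∈ B' := by
    intro X
    rw [Cfsg.Agent.Stn.block5_iff hα hB, Cfsg.Agent.Stn.block5_iff hβ hB', ← Cfsg.Agent.Stn.mem_fam, ← Cfsg.Agent.Stn.mem_fam,
      hφ, Finset.map_eq_image, Finset.card_image_of_injective _ φ.injective]
    rfl
  ext Y
  rw [Set.mem_image]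
  constructor
  · rintro ⟨X, hX, rfl⟩
    exact (key X).1 hX
  · intro hY
    refine ⟨Y.image φ.symm, ?_, ?_⟩
    · rw [key, Finset.image_image]
      simpa using hY
    · simp only [Finset.image_image]
      simp

end Cfsg.Agent.S0407
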