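import Cfsg.Statements.S0409
import Cfsg.Agent.Stn.Span

set_option autoImplicit false
open Cfsg

namespace Cfsg.Agent.S0409

/-- Uniqueness of the Steiner system S(4, 7, 23) up to isomorphism. -/
theorem result {α β : Type*} [Fintype α] [DecidableEq α] [Fintype β] [DecidableEq β] (hα : Fintype.card α = 23) (hβ : Fintype.card β = 23) {B : Set (Finset α)} {B' : Set (Finset β)} (hB : Cfsg.IsSteinerSystem 4 7 B) (hB' : Cfsg.IsSteinerSystem 4 7 B') : Cfsg.SetSystemIso B B' := by
  obtain ⟨φ, hn, hφ⟩ := (Cfsg.Agent.Stn.fam4 hα hB).unique (Cfsg.Agent.Stn.fam4 hβ hB') none none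
  -- the induced bijection
  let ψ : α ≃ β := Equiv.removeNone φ
  have hψ : ∀ x : α, φ (some x) = some (ψ x) := by
    intro x
    have : φ (some x) ≠ none := by
      rw [← hn]
      intro h
      exact absurd (φ.injective h) (by simp)
    exact (Equiv.removeNone_some φ (Option.ne_none_iff_exists'.1 this)).symm
  have hext : ∀ X : Finset α, (Cfsg.Agent.Stn.ext1 X).map φ.toEmbedding = Cfsg.Agent.Stn.ext1 (X.image ψ) := by
    intro X
    ext y
    rw [Finset.mem_map_equiv]
    obtain ⟨x, rfl⟩ := φ.surjective y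
    rw [Equiv.symm_apply_apply]
    rcases x with _ | x
    · rw [hn]; simp [Cfsg.Agent.Stn.ext1]
    · rw [hψ]; simp [Cfsg.Agent.Stn.ext1]
  refine ⟨ψ, ?_⟩
  have key : ∀ X : Finset α, X ∈ B ↔ X.image ψ ∈ B' := by
    intro X
    rw [Cfsg.Agent.Stn.block4_iff hα hB, Cfsg.Agent.Stn.block4_iff hβ hB', ← Cfsg.Agent.Stn.mem_fam, ← Cfsg.Agent.Stn.mem_fam,
      hφ, hext, Finset.card_image_of_injective _ ψ.injective]
  ext Y
  rw [Set.mem_image]
  constructor
  · rintro ⟨X, hX, rfl⟩
    exact (key X).1 hX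
  · intro hY
    refine ⟨Y.image ψ.symm, ?_, ?_⟩
    · rw [key, Finset.image_image]
      simpa using hY
    · simp only [Finset.image_image]
      simp

end Cfsg.Agent.S0409
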