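import Cfsg.Statements.S0418
import Cfsg.Agent.SimpleCrit.Basic

set_option autoImplicit false
open Cfsg

namespace Cfsg.Agent.S0418

open MulAction Cfsg.Agent.SimpleCrit

/-- order of a sharply `k`-transitive group -/
theorem card_of_sharp {G α : Type*} [Group G] [MulAction G α] [Fintype α] (k : ℕ)
    [IsMultiplyPretransitive G α k] (hk : k ≤ Fintype.card α)
    (hsharp : ∀ x : Fin k ↪ α, MulAction.stabilizer G x = ⊥) :
    Nat.card G = (Fintype.card α).descFactorial k := by
  have hne : Nonempty (Fin k ↪ α) := by
    rw [Function.Embedding.nonempty_iff_card_le, Fintype.card_fin]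
    exact hk
  obtain ⟨x⟩ := hne
  have h1 := MulAction.index_stabilizer_of_transitive G x
  rw [hsharp x, Subgroup.index_bot] at h1
  rw [h1, Nat.card_eq_fintype_card, Fintype.card_embedding_eq, Fintype.card_fin]

/-- A sharply 4-transitive group of degree 11 is simple of order 7920. -/
theorem result {α : Type*} [Fintype α] [DecidableEq α] (hα : Fintype.card α = 11) (G : Subgroup (Equiv.Perm α)) [MulAction.IsMultiplyPretransitive G α 4] (hsharp : ∀ x : Fin 4 ↪ α, MulAction.stabilizer G x = ⊥) : Cfsg.IsM11 G := by
  have hcard : Nat.card G = 7920 := by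
    rw [card_of_sharp 4 (by rw [hα]; norm_num) hsharp, hα]
    rfl
  refine ⟨?_, hcard⟩
  have h2 : IsMultiplyPretransitive G α 2 :=
    isMultiplyPretransitive_of_le (n := 4) (by norm_num) (by rw [Nat.card_eq_fintype_card, hα]; norm_num)
  have hprim : IsPreprimitive G α := isPreprimitive_of_is_two_pretransitive h2
  exact simple_of_numbers (p := 11) (q := 5) (m := 1) (N := 7920) (α := α) (by norm_num) (by norm_num)
    (by rw [Nat.card_eq_fintype_card, hα]) (by norm_num) hcard (by norm_num) (by decide) (by norm_num)

end Cfsg.Agent.S0418
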