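import Cfsg.Statements.S0419
import Cfsg.Agent.SimpleCrit.Stab
import Cfsg.Agent.S0418

set_option autoImplicit false
open Cfsg

namespace Cfsg.Agent.S0419

open MulAction Cfsg.Agent.SimpleCrit

/-- A sharply 5-transitive group of degree 12 is simple of order 95040. -/
theorem result {α : Type*} [Fintype α] [DecidableEq α] (hα : Fintype.card α = 12) (G : Subgroup (Equiv.Perm α)) [MulAction.IsMultiplyPretransitive G α 5] (hsharp : ∀ x : Fin 5 ↪ α, MulAction.stabilizer G x = ⊥) : Cfsg.IsM12 G := by
  have hcard : Nat.card G = 95040 := by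
    rw [Cfsg.Agent.S0418.card_of_sharp 5 (by rw [hα]; norm_num) hsharp, hα]
    rfl
  refine ⟨?_, hcard⟩
  have hα' : Nat.card α = 12 := by rw [Nat.card_eq_fintype_card, hα]
  have h3 : IsMultiplyPretransitive G α 3 :=
    isMultiplyPretransitive_of_le (n := 5) (by norm_num) (by rw [hα']; norm_num)
  have h2 : IsMultiplyPretransitive G α 2 :=
    isMultiplyPretransitive_of_le (n := 5) (by norm_num) (by rw [hα']; norm_num)
  have h1 : IsPretransitive G α := isPretransitive_of_is_two_pretransitive
  have hne : Nonempty α := by
    apply Fintype.card_pos_iff.1; rw [hα]; norm_num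
  obtain ⟨a⟩ := hne
  have hst : Nat.card (stabilizer G a) = 7920 :=
    card_stabilizer_of_pretransitive a hα' hcard (by norm_num) (by norm_num)
  have hs : IsSimpleGroup (stabilizer G a) :=
    stabilizer_simple_of_numbers (p := 11) (q := 5) (m := 1) (N := 7920) (α := α) (by rw [hα']; norm_num) a
      (by norm_num) (by norm_num) (by rw [hα']) (by norm_num) hst (by norm_num) (by decide) (by norm_num)
  have hnt : Nontrivial α := Fintype.one_lt_card_iff_nontrivial.1 (by rw [hα]; norm_num)
  exact simple_of_stabilizer_simple a hs Nat.prime_two Nat.prime_three (by norm_num) (by rw [hα']; norm_num)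
    (by rw [hα']; norm_num)

end Cfsg.Agent.S0419
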