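import Cfsg.Statements.S0429
import Cfsg.Agent.Mdx.Srg5

set_option autoImplicit false
open Cfsg

namespace Cfsg.Agent.S0429

/-- Uniqueness of the strongly regular graph with parameters (77, 16, 0, 4). -/
theorem result {V W : Type*} [Fintype V] [Fintype W] {G : SimpleGraph V} {H : SimpleGraph W} [DecidableRel G.Adj] [DecidableRel H.Adj] (hG : G.IsSRGWith 77 16 0 4) (hH : H.IsSRGWith 77 16 0 4) : Nonempty (G ≃g H) := by
  classical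
  obtain ⟨c1, s1⟩ := Cfsg.Agent.Mdx.Srg.steiner hG
  obtain ⟨c2, s2⟩ := Cfsg.Agent.Mdx.Srg.steiner hH
  obtain ⟨e, he⟩ := Cfsg.Agent.Stn.ssi_iff (Cfsg.Agent.S0410.result c1 c2 s1 s2)
  obtain ⟨φ⟩ := Cfsg.Agent.Mdx.Srg.iso_block hG
  obtain ⟨ψ⟩ := Cfsg.Agent.Mdx.Srg.iso_block hH
  let eB : Set.range (Cfsg.Agent.Mdx.Srg.bk G) ≃ Set.range (Cfsg.Agent.Mdx.Srg.bk H) :=
    Equiv.subtypeEquiv (Equiv.finsetCongr e) he
  have h3 : ∀ b : Set.range (Cfsg.Agent.Mdx.Srg.bk G), (eB b).1 = b.1.map e.toEmbedding := fun _ => rfl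
  have χ : Cfsg.blockGraph (Set.range (Cfsg.Agent.Mdx.Srg.bk G)) ≃g Cfsg.blockGraph (Set.range (Cfsg.Agent.Mdx.Srg.bk H)) := by
    refine ⟨eB, ?_⟩
    intro a b
    rw [Cfsg.Agent.H8.SRG.block_adj s2, Cfsg.Agent.H8.SRG.block_adj s1, h3, h3, Finset.disjoint_map]
  exact ⟨(φ.trans χ).trans ψ.symm⟩

end Cfsg.Agent.S0429
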