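import Cfsg.Statements.S0439

set_option autoImplicit false
open Cfsg

namespace Cfsg.Agent.S0439

theorem orderOf_swap_eq_two {α : Type*} [DecidableEq α] {x y : α} (hxy : x ≠ y) :
    orderOf (Equiv.swap x y) = 2 := by
  apply orderOf_eq_prime
  · rw [sq, Equiv.swap_mul_self]
  · intro h
    apply hxy
    have := congrArg (fun f => f x) h
    simpa using this.symm

theorem swap_mul_swap_pow {α : Type*} [DecidableEq α] [Fintype α] {x y z w : α} (hxy : x ≠ y) (hzw : z ≠ w) :
    (Equiv.swap x y * Equiv.swap z w) ^ 2 = 1 ∨ (Equiv.swap x y * Equiv.swap z w) ^ 3 = 1 := by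
  have three : ∀ a b c : α, a ≠ b → a ≠ c → (Equiv.swap a b * Equiv.swap a c) ^ 2 = 1 ∨
      (Equiv.swap a b * Equiv.swap a c) ^ 3 = 1 := by
    intro a b c hab hac
    by_cases hbc : b = c
    · left; subst hbc; rw [Equiv.swap_mul_self, one_pow]
    · right
      have := Equiv.Perm.isThreeCycle_swap_mul_swap_same hab hac hbc
      rw [← this.orderOf]; exact pow_orderOf_eq_one _
  by_cases h1 : x = z
  · subst h1; exact three _ _ _ hxy hzw
  by_cases h2 : x = w
  · subst h2; rw [Equiv.swap_comm z x]; exact three _ _ _ hxy hzw.symm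
  by_cases h3 : y = z
  · subst h3; rw [Equiv.swap_comm x y]; exact three _ _ _ hxy.symm hzw
  by_cases h4 : y = w
  · subst h4; rw [Equiv.swap_comm x y, Equiv.swap_comm z y]; exact three _ _ _ hxy.symm hzw.symm
  left
  have hd : Equiv.Perm.Disjoint (Equiv.swap x y) (Equiv.swap z w) := by
    intro t
    by_cases h5 : t = x
    · right; subst h5; exact Equiv.swap_apply_of_ne_of_ne h1 h2
    by_cases h6 : t = y
    · right; subst h6; exact Equiv.swap_apply_of_ne_of_ne h3 h4
    left; exact Equiv.swap_apply_of_ne_of_ne h5 h6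
  rw [hd.commute.mul_pow, sq, sq, Equiv.swap_mul_self, Equiv.swap_mul_self, one_mul]


/-- In the symmetric group of degree n ≥ 2, the set of transpositions is a conjugacy class of 3-transpositions which generates the group. -/
theorem result (n : ℕ) (hn : 2 ≤ n) : Cfsg.IsThreeTranspositionClass {σ : Equiv.Perm (Fin n) | σ.IsSwap} := by
  classical
  refine ⟨⟨?_, ?_⟩, ?_, Equiv.Perm.closure_isSwap⟩
  · rintro d ⟨x, y, hxy, rfl⟩
    exact orderOf_swap_eq_two hxy
  · rintro d ⟨x, y, hxy, rfl⟩ e ⟨z, w, hzw, rfl⟩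
    exact swap_mul_swap_pow hxy hzw
  · have h01 : (⟨0, by omega⟩ : Fin n) ≠ ⟨1, by omega⟩ := by simp
    refine ⟨Equiv.swap ⟨0, by omega⟩ ⟨1, by omega⟩, ⟨_, _, h01, rfl⟩, ?_⟩
    ext σ
    constructor
    · rintro ⟨x, y, hxy, rfl⟩
      exact Equiv.Perm.isConj_swap h01 hxy
    · intro h
      rw [Set.mem_setOf_eq]
      obtain ⟨c, hc⟩ := isConj_iff.1 h
      rw [← hc, ← Equiv.swap_apply_apply]
      exact ⟨_, _, fun h => h01 (c.injective h), rfl⟩

end Cfsg.Agent.S0439
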