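import Cfsg.Statements.S0765
import Cfsg.Agent.ClassSp.Order
import Cfsg.Agent.ClGeo.Symp

set_option autoImplicit false
open Cfsg

namespace Cfsg.Agent.S0765

private theorem sf_eq {F : Type*} [Field F] (m : ℕ) (u v : Fin m ⊕ Fin m → F) :
    Cfsg.Agent.ClassSp.sf u v = - Cfsg.sympForm m F u v :=
  Cfsg.Agent.ClassSp.sf_eq_dotProduct u v

private theorem closure_eq {F : Type*} [Field F] (m : ℕ) :
    Subgroup.closure {A : Matrix.symplecticGroup (Fin m) F | ∃ (w : Fin m ⊕ Fin m → F) (c : F), (A : Matrix (Fin m ⊕ Fin m) (Fin m ⊕ Fin m) F) = Cfsg.sympTransvection m w c} = Cfsg.Agent.ClassSp.tvGroup (Fin m) F := by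
  unfold Cfsg.Agent.ClassSp.tvGroup
  congr 1
  ext A
  have key : ∀ (w : Fin m ⊕ Fin m → F) (c : F),
      ((Cfsg.Agent.ClassSp.tv w c : Matrix.symplecticGroup (Fin m) F) : Matrix (Fin m ⊕ Fin m) (Fin m ⊕ Fin m) F)
        = Cfsg.sympTransvection m w (-c) := by
    intro w c
    apply Cfsg.Agent.ClGeo.ext_mulVec
    intro x
    rw [Cfsg.Agent.ClassSp.tv_mulVec, Cfsg.Agent.ClGeo.sympTransvection_mulVec, sf_eq]
    congr 2
    ring
  constructor
  · rintro ⟨w, c, h⟩
    refine ⟨w, -c, Subtype.ext ?_⟩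
    rw [key, h, neg_neg]
  · rintro ⟨w, c, rfl⟩
    exact ⟨w, -c, key w c⟩

/-- Generation of the symplectic group by symplectic transvections: the subgroup of Sp_2m(F) generated by all matrices of maps x ↦ x + c f(x, w) w is the whole group. -/
theorem result {F : Type*} [Field F] (m : ℕ) : Subgroup.closure {A : Matrix.symplecticGroup (Fin m) F | ∃ (w : Fin m ⊕ Fin m → F) (c : F), (A : Matrix (Fin m ⊕ Fin m) (Fin m ⊕ Fin m) F) = Cfsg.sympTransvection m w c} = ⊤ := by
  rw [closure_eq, Cfsg.Agent.ClassSp.tvGroup_eq_top]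

end Cfsg.Agent.S0765
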