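import Cfsg.Statements.S0766
import Cfsg.Agent.ClassSp.Order
import Cfsg.Agent.ClGeo.Symp

set_option autoImplicit false
open Cfsg

namespace Cfsg.Agent.S0766

private theorem sf_eq {F : Type*} [Field F] (m : ℕ) (u v : Fin m ⊕ Fin m → F) :
    Cfsg.Agent.ClassSp.sf u v = - Cfsg.sympForm m F u v :=
  Cfsg.Agent.ClassSp.sf_eq_dotProduct u v

private theorem closure_eq {F : Type*} [Field F] (m : ℕ) :
    Subgroup.closure {A : Matrix.symplecticGroup (Fin m) F | ∃ (w : Fin m ⊕ Fin m → F) (c : F), (A : Matrix (Fin m ⊕ Fin m) (Fin m ⊕ Fin m) F) = Cfsg.sympTransvection m w c} = Cfsg.Agent.ClassSp.tvGroup (Fin m) F := by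
  unfold Cfsg.Agent.ClassSp.tvGroup
  congr 1
  ext A
  have key : ∀ (w : Fin m ⊕ Fin m → F) (c : F),
      ((Cfsg.Agent.ClassSp.tv w c : Matrix.symplecticGroup (Fin m) F) : Matrix (Fin m ⊕ Fin m) (Fin m ⊕ Fin m) F)
        = Cfsg.sympTransvection m w (-c) := by
    intro w c
    apply Cfsg.Agent.ClGeo.ext_mulVec
    intro x
    rw [Cfsg.Agent.ClassSp.tv_mulVec, Cfsg.Agent.ClGeo.sympTransvection_mulVec, sf_eq]
    congr 2
    ring
  constructor
  · rintro ⟨w, c, h⟩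
    refine ⟨w, -c, Subtype.ext ?_⟩
    rw [key, h, neg_neg]
  · rintro ⟨w, c, rfl⟩
    exact ⟨w, -c, key w c⟩

/-- The subgroup generated by the symplectic transvections acts transitively on ordered pairs (u, v) with f(u, v) = 1. -/
theorem result {F : Type*} [Field F] (m : ℕ) (u v u' v' : Fin m ⊕ Fin m → F) (h : Cfsg.sympForm m F u v = 1) (h' : Cfsg.sympForm m F u' v' = 1) : ∃ A ∈ Subgroup.closure {A : Matrix.symplecticGroup (Fin m) F | ∃ (w : Fin m ⊕ Fin m → F) (c : F), (A : Matrix (Fin m ⊕ Fin m) (Fin m ⊕ Fin m) F) = Cfsg.sympTransvection m w c}, (A : Matrix (Fin m ⊕ Fin m) (Fin m ⊕ Fin m) F).mulVec u = u' ∧ (A : Matrix (Fin m ⊕ Fin m) (Fin m ⊕ Fin m) F).mulVec v = v' := by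
  rw [closure_eq]
  have h1 : Cfsg.Agent.ClassSp.sf v u = 1 := by
    rw [Cfsg.Agent.ClassSp.sf_swap, sf_eq, h, neg_neg]
  have h2 : Cfsg.Agent.ClassSp.sf v' u' = 1 := by
    rw [Cfsg.Agent.ClassSp.sf_swap, sf_eq, h', neg_neg]
  obtain ⟨g, hg, hgv, hgu⟩ := Cfsg.Agent.ClassSp.exists_mem_tvGroup_pair h1 h2
  exact ⟨g, hg, hgu, hgv⟩

end Cfsg.Agent.S0766
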