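import Cfsg.Statements.S0440
import Cfsg.Agent.GeoMax.TT
import Cfsg.Agent.H43.TvCent
import Cfsg.Agent.S0765
import Cfsg.Agent.S0766

set_option autoImplicit false
open Cfsg

namespace Cfsg.Agent.S0440

open Cfsg.Agent.ClGeo Matrix

private def tv (n : ℕ) (v : Fin n ⊕ Fin n → ZMod 2) : Matrix.symplecticGroup (Fin n) (ZMod 2) :=
  ⟨Cfsg.sympTransvection n v 1, sympTransvection_mem n v 1⟩

private theorem z2 (c : ZMod 2) (hc : c ≠ 0) : c = 1 := by
  revert c; decide


/-- In the symplectic group in dimension 2n ≥ 2 over the field with two elements, the elements g for which g - 1 has rank one (the symplectic transvections) form a conjugacy class of 3-transpositions generating the group. -/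
theorem result (n : ℕ) (hn : 1 ≤ n) : Cfsg.IsThreeTranspositionClass {g : Matrix.symplecticGroup (Fin n) (ZMod 2) | ((g : Matrix (Fin n ⊕ Fin n) (Fin n ⊕ Fin n) (ZMod 2)) - 1).rank = 1} := by
  have hset : {g : Matrix.symplecticGroup (Fin n) (ZMod 2) | ((g : Matrix (Fin n ⊕ Fin n) (Fin n ⊕ Fin n) (ZMod 2)) - 1).rank = 1}
      = tv n '' {v | v ≠ 0} := by
    ext g
    constructor
    · intro hg
      obtain ⟨a, c, ha, hc, h⟩ := Cfsg.Agent.H43.eq_sympTransvection g hg
      refine ⟨a, ha, Subtype.ext ?_⟩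
      rw [h, z2 c hc]; rfl
    · rintro ⟨v, hv, rfl⟩
      show (Cfsg.sympTransvection n v 1 - 1).rank = 1
      have h1 : Cfsg.sympTransvection n v (1 : ZMod 2) - 1 = vecMulVec v (Matrix.J (Fin n) (ZMod 2) *ᵥ v) := by
        unfold Cfsg.sympTransvection; simp
      rw [h1]
      apply Cfsg.Agent.GeoMax.rank_vecMulVec_one hv
      intro h0
      rw [h0] at h1
      have h1' : vecMulVec v (0 : Fin n ⊕ Fin n → ZMod 2) = 0 := by ext i j; simp [vecMulVec_apply]
      rw [h1', sub_eq_zero] at h1
      have h0 := h1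
      apply hv
      apply sympForm_nondeg_right n v
      intro x
      have h2 := congrArg (fun A => A *ᵥ x) h0
      simp only [sympTransvection_mulVec, Matrix.one_mulVec, one_mul] at h2
      have h3 : Cfsg.sympForm n (ZMod 2) x v • v = 0 := by simpa using h2
      rcases smul_eq_zero.1 h3 with h4 | h4
      · exact h4
      · exact absurd h4 hv
  have hconj : ∀ (g : Matrix.symplecticGroup (Fin n) (ZMod 2)) (v : Fin n ⊕ Fin n → ZMod 2),
      g * tv n v * g⁻¹ = tv n ((g : Matrix (Fin n ⊕ Fin n) (Fin n ⊕ Fin n) (ZMod 2)) *ᵥ v) := by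
    intro g v
    rw [mul_inv_eq_iff_eq_mul]
    exact Subtype.ext (conj_sympTransvection n g.2 v 1)
  have hsf : ∀ u v : Fin n ⊕ Fin n → ZMod 2, Cfsg.sympForm n (ZMod 2) u v = Cfsg.sympForm n (ZMod 2) v u := by
    intro u v
    rw [sympForm_neg_swap, ZMod.neg_eq_self_mod_two]
  have hinj : ∀ g : Matrix.symplecticGroup (Fin n) (ZMod 2), ∀ v : Fin n ⊕ Fin n → ZMod 2, v ≠ 0 →
      (g : Matrix (Fin n ⊕ Fin n) (Fin n ⊕ Fin n) (ZMod 2)) *ᵥ v ≠ 0 := by
    intro g v hv h0
    apply hv
    apply sympForm_nondeg_right n v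
    intro x
    rw [← sympForm_mulVec n g.2 x v, h0, sympForm_zero_right]
  rw [hset]
  refine Cfsg.Agent.GeoMax.threeTransClass_of _ (tv n) (fun g v => (g : Matrix (Fin n ⊕ Fin n) (Fin n ⊕ Fin n) (ZMod 2)) *ᵥ v)
    ?_ ?_ ?_ ?_ ?_ ?_ ?_ ?_
  · intro g v hv; exact hinj g v hv
  · intro g v _; exact hconj g v
  · intro u hu v hv
    obtain ⟨u', hu'⟩ : ∃ x, Cfsg.sympForm n (ZMod 2) u x ≠ 0 := by
      by_contra hcon; push Not at hcon
      exact hu (sympForm_nondeg_left n u hcon)
    obtain ⟨v', hv'⟩ : ∃ x, Cfsg.sympForm n (ZMod 2) v x ≠ 0 := by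
      by_contra hcon; push Not at hcon
      exact hv (sympForm_nondeg_left n v hcon)
    obtain ⟨A, -, hA, -⟩ := Cfsg.Agent.S0766.result n u u' v v' (z2 _ hu') (z2 _ hv')
    exact ⟨A, by rw [← hA]⟩
  · refine ⟨fun _ => 1, ?_⟩
    intro h0
    have := congrFun h0 (Sum.inl ⟨0, by omega⟩)
    simp at this
  · intro v hv h1
    have h2 : tv n v ∈ tv n '' {v | v ≠ 0} := ⟨v, hv, rfl⟩
    rw [← hset, h1] at h2
    simp at h2
  · intro v _
    apply Subtype.ext
    show Cfsg.sympTransvection n v 1 * Cfsg.sympTransvection n v 1 = 1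
    rw [sympTransvection_mul, show (1 : ZMod 2) + 1 = 0 by decide, sympTransvection_zero]
  · intro u _ v _
    by_cases h : Cfsg.sympForm n (ZMod 2) u v = 0
    · left
      apply Subtype.ext
      apply ext_mulVec
      intro x
      show (Cfsg.sympTransvection n u 1 * Cfsg.sympTransvection n v 1) *ᵥ x = (Cfsg.sympTransvection n v 1 * Cfsg.sympTransvection n u 1) *ᵥ x
      rw [← Matrix.mulVec_mulVec, ← Matrix.mulVec_mulVec]
      simp only [sympTransvection_mulVec, sympForm_add_left, sympForm_smul_left, h, hsf v u]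
      simp only [one_mul, mul_zero, add_zero]
      abel
    · right
      have h1 := z2 _ h
      show tv n (Cfsg.sympTransvection n u 1 *ᵥ v) = tv n (Cfsg.sympTransvection n v 1 *ᵥ u)
      rw [sympTransvection_mulVec, sympTransvection_mulVec, hsf v u, h1, one_mul, one_smul, one_smul, add_comm]
  · rw [eq_top_iff, ← Cfsg.Agent.S0765.result n, Subgroup.closure_le]
    rintro A ⟨w, c, h⟩
    by_cases hw : w = 0
    · have : A = 1 := by
        apply Subtype.ext
        rw [h, hw]
        apply ext_mulVec; intro x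
        rw [sympTransvection_mulVec]; simp
      rw [this]; exact one_mem _
    by_cases hc : c = 0
    · have : A = 1 := by
        apply Subtype.ext
        rw [h, hc, sympTransvection_zero]; rfl
      rw [this]; exact one_mem _
    apply Subgroup.subset_closure
    refine ⟨w, hw, Subtype.ext ?_⟩
    rw [h, z2 c hc]; rfl

end Cfsg.Agent.S0440
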