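import Cfsg.Statements.S0442
import Mathlib

set_option autoImplicit false
open Cfsg

namespace Cfsg.Agent.S0442

/-- A standard trick for producing elements of an involution centraliser: for an involution a and an element g, let b be the conjugate g⁻¹ * a * g. If a * b has odd order 2m + 1 then g * (a * b) ^ m commutes with a; if a * b has even order 2m then (a * b) ^ m and (a * (g * a * g⁻¹)) ^ m commute with a. -/
theorem result {G : Type*} [Group G] (a g : G) (ha : orderOf a = 2) : (∀ m : ℕ, orderOf (a * (g⁻¹ * a * g)) = 2 * m + 1 → Commute (g * (a * (g⁻¹ * a * g)) ^ m) a) ∧ (∀ m : ℕ, orderOf (a * (g⁻¹ * a * g)) = 2 * m → Commute ((a * (g⁻¹ * a * g)) ^ m) a ∧ Commute ((a * (g * a * g⁻¹)) ^ m) a) := by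
  have ha2 : a * a = 1 := by
    have h2 := pow_orderOf_eq_one a
    rw [ha, sq] at h2; exact h2
  have hai : a⁻¹ = a := inv_eq_of_mul_eq_one_left ha2
  set b := g⁻¹ * a * g with hb
  have hb2 : b * b = 1 := by
    rw [hb]
    have e1 : g⁻¹ * a * g * (g⁻¹ * a * g) = g⁻¹ * (a * a) * g := by simp only [mul_assoc, mul_inv_cancel_left]
    rw [e1, ha2, mul_one, inv_mul_cancel]
  have hbi : b⁻¹ = b := inv_eq_of_mul_eq_one_left hb2
  -- a (ab)^m a = (ba)^m = ((ab)^m)⁻¹
  have hinv : ∀ m : ℕ, a * (a * b) ^ m * a = ((a * b) ^ m)⁻¹ := by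
    intro m
    have : a * (a * b) ^ m * a⁻¹ = (a * (a * b) * a⁻¹) ^ m := (conj_pow).symm
    rw [hai] at this
    rw [this, ← inv_pow, mul_inv_rev, hai, hbi, ← mul_assoc, ha2, one_mul]
  have hga : g * b = a * g := by rw [hb]; group
  refine ⟨fun m hm => ?_, fun m hm => ?_⟩
  · -- (ab)^(2m+1) = 1
    have h1 : (a * b) ^ (2 * m + 1) = 1 := by rw [← hm]; exact pow_orderOf_eq_one _
    have h2 : (a * b) ^ m * (a * b) ^ m * (a * b) = 1 := by
      rw [← pow_add, ← pow_succ, ← h1]; congr 1; ring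
    -- want g (ab)^m a = a g (ab)^m
    show g * (a * b) ^ m * a = a * (g * (a * b) ^ m)
    rw [← mul_assoc a g, ← hga, mul_assoc g, mul_assoc g]
    congr 1
    clear_value b
    -- (ab)^m a = b (ab)^m
    have h3 : (a * b) ^ m * a = a * ((a * b) ^ m)⁻¹ := by
      rw [← hinv m]
      rw [← mul_assoc, ← mul_assoc, ha2, one_mul]
    rw [h3]
    have h4 : ((a * b) ^ m)⁻¹ = (a * b) ^ m * (a * b) := by
      rw [inv_eq_iff_eq_inv]
      apply eq_inv_of_mul_eq_one_left
      rw [← mul_assoc]; exact h2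
    rw [h4]
    have h5 : (a * b) ^ m * (a * b) = (a * b) * (a * b) ^ m := (pow_mul_comm' _ _)
    rw [h5, ← mul_assoc, ← mul_assoc, ha2, one_mul]
  · have key : ∀ c : G, (a * c) ^ (2 * m) = 1 → c * c = 1 → Commute ((a * c) ^ m) a := by
      intro c hc hc2
      have hci : c⁻¹ = c := inv_eq_of_mul_eq_one_left hc2
      have h1 : a * (a * c) ^ m * a = ((a * c) ^ m)⁻¹ := by
        have : a * (a * c) ^ m * a⁻¹ = (a * (a * c) * a⁻¹) ^ m := (conj_pow).symm
        rw [hai] at this
        rw [this, ← inv_pow, mul_inv_rev, hai, hci, ← mul_assoc, ha2, one_mul]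
      have h2 : ((a * c) ^ m)⁻¹ = (a * c) ^ m := by
        apply inv_eq_of_mul_eq_one_left
        rw [← pow_add, ← two_mul]; exact hc
      rw [h2] at h1
      show (a * c) ^ m * a = a * (a * c) ^ m
      nth_rewrite 1 [← h1]
      rw [mul_assoc, ha2, mul_one]
    have hab1 : (a * b) ^ (2 * m) = 1 := by rw [← hm]; exact pow_orderOf_eq_one _
    refine ⟨key b hab1 hb2, key (g * a * g⁻¹) ?_ ?_⟩
    · -- (a * g a g⁻¹) is conjugate (by g) to (g⁻¹ a g) a = b a
      have h1 : a * (g * a * g⁻¹) = g * (b * a) * g⁻¹ := by rw [hb]; group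
      rw [h1, conj_pow]
      have h2 : (b * a) = (a * b)⁻¹ := by rw [mul_inv_rev, hai, hbi]
      rw [h2, inv_pow, hab1, inv_one, mul_one, mul_inv_cancel]
    · have e1 : g * a * g⁻¹ * (g * a * g⁻¹) = g * (a * a) * g⁻¹ := by simp only [mul_assoc, inv_mul_cancel_left]
      rw [e1, ha2, mul_one, mul_inv_cancel]

end Cfsg.Agent.S0442
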