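import Cfsg.Statements.S0443

set_option autoImplicit false
open Cfsg

namespace Cfsg.Agent.S0443

/-- Two definitions of a 2-central involution agree: an element t of order 2 of a finite group lies in the centre of some Sylow 2-subgroup if and only if its centraliser contains some Sylow 2-subgroup. -/
theorem result {G : Type*} [Group G] [Finite G] (t : G) (ht : orderOf t = 2) : Cfsg.IsTwoCentralInvolution t ↔ ∃ P : Sylow 2 G, (P : Subgroup G) ≤ Subgroup.centralizer ({t} : Set G) := by
  constructor
  · rintro ⟨-, P, htP, hc⟩
    refine ⟨P, fun x hx => ?_⟩
    rw [Subgroup.mem_centralizer_singleton_iff]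
    first
      | exact hc x hx
      | exact (hc x hx).symm
  · rintro ⟨P, hP⟩
    refine ⟨ht, P, ?_, ?_⟩
    · -- P ⊔ ⟨t⟩ is a 2-group
      have hcomm : ∀ x ∈ P, x * t = t * x := by
        intro x hx
        have := hP hx
        rw [Subgroup.mem_centralizer_singleton_iff] at this
        first
          | exact this
          | exact this.symm
      have hz : IsPGroup 2 (Subgroup.zpowers t) := by
        rw [IsPGroup.iff_card, Nat.card_zpowers, ht]; exact ⟨1, rfl⟩
      have hn : Subgroup.zpowers t ≤ Subgroup.normalizer ((P : Subgroup G) : Set G) := by
        rw [Subgroup.zpowers_le]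
        rw [Subgroup.mem_normalizer_iff]
        intro x
        constructor
        · intro hx
          have := hcomm x hx
          rw [← this, mul_assoc, mul_inv_cancel, mul_one]; exact hx
        · intro hx
          have := hcomm _ hx
          have h2 : x = t * x * t⁻¹ := by
            have h3 : t * x = t * (t * x * t⁻¹) := by rw [← this]; group
            exact mul_left_cancel h3
          rw [h2]; exact hx
      have := IsPGroup.to_sup_of_normal_left' P.2 hz hn
      have hle : (P : Subgroup G) ≤ (P : Subgroup G) ⊔ Subgroup.zpowers t := le_sup_left
      have heq := P.3 this hle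
      have : t ∈ (P : Subgroup G) ⊔ Subgroup.zpowers t :=
        (le_sup_right : Subgroup.zpowers t ≤ _) (Subgroup.mem_zpowers t)
      rw [heq] at this
      exact this
    · intro x hx
      have := hP hx
      rw [Subgroup.mem_centralizer_singleton_iff] at this
      first
        | exact this
        | exact this.symm

end Cfsg.Agent.S0443
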