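import Cfsg.Statements.S0445
import Mathlib

set_option autoImplicit false
open Cfsg

namespace Cfsg.Agent.S0445


/-- the general matrix commuting with the transvection -/
def FM (c : ZMod 2) (r s : Fin 3 → ZMod 2) (h : Matrix (Fin 3) (Fin 3) (ZMod 2)) :
    Matrix (Fin 5) (Fin 5) (ZMod 2) :=
  !![1, c, r 0, r 1, r 2;
     0, 1, 0, 0, 0;
     0, s 0, h 0 0, h 0 1, h 0 2;
     0, s 1, h 1 0, h 1 1, h 1 2;
     0, s 2, h 2 0, h 2 1, h 2 2]

theorem det_FM (c : ZMod 2) (r s : Fin 3 → ZMod 2) (h : Matrix (Fin 3) (Fin 3) (ZMod 2)) :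
    (FM c r s h).det = h.det := by
  rw [Matrix.det_succ_column_zero]
  rw [Finset.sum_eq_single 0]
  · have h1 : (FM c r s h) 0 0 = 1 := rfl
    rw [h1]
    rw [Matrix.det_succ_row_zero]
    rw [Finset.sum_eq_single 0]
    · have h2 : (FM c r s h).submatrix (Fin.succAbove 0) Fin.succ 0 0 = 1 := rfl
      rw [h2]
      have h3 : ((FM c r s h).submatrix (Fin.succAbove 0) Fin.succ).submatrix Fin.succ
          (Fin.succAbove 0) = h := by
        ext i j
        fin_cases i <;> fin_cases j <;> rfl
      rw [h3]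
      simp
    · intro j _ hj
      have h2 : (FM c r s h).submatrix (Fin.succAbove 0) Fin.succ 0 j = 0 := by
        fin_cases j
        · exact absurd rfl hj
        all_goals rfl
      rw [h2]; simp
    · intro h'; exact absurd (Finset.mem_univ _) h'
  · intro j _ hj
    have h2 : (FM c r s h) j 0 = 0 := by
      fin_cases j
      · exact absurd rfl hj
      all_goals rfl
    rw [h2]; simp
  · intro h'; exact absurd (Finset.mem_univ _) h'

theorem entry (A : Matrix (Fin 5) (Fin 5) (ZMod 2))
    (hA : Matrix.transvection 0 1 1 * A = A * Matrix.transvection 0 1 1) (i j : Fin 5) :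
    (if i = 0 then A 1 j else 0) = (if j = 1 then A i 0 else 0) := by
  have h1 : (Matrix.single 0 1 (1 : ZMod 2)) * A = A * (Matrix.single 0 1 (1 : ZMod 2)) := by
    have := hA
    unfold Matrix.transvection at this
    rw [add_mul, mul_add, one_mul, mul_one] at this
    exact add_left_cancel this
  have h2 := congrFun (congrFun h1 i) j
  rw [Matrix.mul_apply, Matrix.mul_apply] at h2
  simp only [Matrix.single_apply] at h2
  simp only [ite_mul, one_mul, zero_mul, mul_ite, mul_one, mul_zero] at h2
  rw [Finset.sum_eq_single (1 : Fin 5), Finset.sum_eq_single (0 : Fin 5)] at h2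
  · by_cases hi : i = 0 <;> by_cases hj : j = 1
    · subst hi hj; simpa using h2
    · have : ¬ (1 = j) := fun e => hj e.symm
      simp only [hi, hj, this, and_true, and_false, if_true, if_false] at h2 ⊢
      exact h2
    · have : ¬ (0 = i) := fun e => hi e.symm
      subst hj
      simp only [hi, this, false_and, and_self, if_true, if_false] at h2 ⊢
      exact h2
    · rw [if_neg hi, if_neg hj]
  · intro b _ hb
    rw [if_neg]; rintro ⟨h, _⟩; exact hb h.symm
  · intro h'; exact absurd (Finset.mem_univ _) h'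
  · intro b _ hb
    rw [if_neg]; rintro ⟨_, h⟩; exact hb h.symm
  · intro h'; exact absurd (Finset.mem_univ _) h'

theorem eq_FM (A : Matrix (Fin 5) (Fin 5) (ZMod 2))
    (hA : Matrix.transvection 0 1 1 * A = A * Matrix.transvection 0 1 1) (hd : A.det = 1) :
    A = FM (A 0 1) (fun j => A 0 (j.natAdd 2)) (fun i => A (i.natAdd 2) 1)
      (fun i j => A (i.natAdd 2) (j.natAdd 2)) := by
  have e := entry A hA
  have h1 : ∀ j, j ≠ 1 → A 1 j = 0 := by
    intro j hj
    have := e 0 j
    rw [if_pos rfl, if_neg hj] at this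
    exact this
  have h2 : ∀ i, i ≠ 0 → A i 0 = 0 := by
    intro i hi
    have := e i 1
    rw [if_neg hi, if_pos rfl] at this
    exact this.symm
  have h3 : A 1 1 = A 0 0 := by
    have := e 0 1
    rw [if_pos rfl, if_pos rfl] at this
    exact this
  have h4 : A 0 0 = 1 := by
    by_contra h4
    have h5 : A 0 0 = 0 := by
      have : ∀ x : ZMod 2, x ≠ 1 → x = 0 := by decide
      exact this _ h4
    have h6 : A.det = 0 := by
      apply Matrix.det_eq_zero_of_column_eq_zero 0
      intro i
      by_cases hi : i = 0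
      · rw [hi, h5]
      · exact h2 i hi
    rw [h6] at hd
    exact absurd hd (by decide)
  ext i j
  fin_cases i <;> fin_cases j
  all_goals first
    | rfl
    | exact h4
    | exact h3.trans h4
    | exact h2 _ (by decide)
    | exact h1 _ (by decide)

theorem comm_FM (c : ZMod 2) (r s : Fin 3 → ZMod 2) (h : Matrix (Fin 3) (Fin 3) (ZMod 2)) :
    Matrix.transvection 0 1 1 * FM c r s h = FM c r s h * Matrix.transvection 0 1 1 := by
  unfold Matrix.transvection
  rw [add_mul, mul_add, one_mul, mul_one]
  congr 1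
  ext i j
  rw [Matrix.mul_apply, Matrix.mul_apply, Fin.sum_univ_five, Fin.sum_univ_five]
  fin_cases i <;> fin_cases j <;> simp [Matrix.single_apply, FM]


/-- In the special linear group of dimension 5 over the field with two elements, the centraliser of a transvection has order 21504 = 2 ^ 7 · 168 (it is an extension of an extraspecial group of order 2 ^ 7 by the simple group of order 168). -/
theorem result (s : Matrix.SpecialLinearGroup (Fin 5) (ZMod 2)) (hs : (s : Matrix (Fin 5) (Fin 5) (ZMod 2)) = Matrix.transvection 0 1 1) : Nat.card (Subgroup.centralizer ({s} : Set (Matrix.SpecialLinearGroup (Fin 5) (ZMod 2)))) = 21504 := by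
  have hcard : Nat.card (Subgroup.centralizer ({s} : Set (Matrix.SpecialLinearGroup (Fin 5) (ZMod 2)))) =
      Nat.card (ZMod 2 × (Fin 3 → ZMod 2) × (Fin 3 → ZMod 2) ×
        {h : Matrix (Fin 3) (Fin 3) (ZMod 2) // h.det = 1}) := by
    symm
    let f : (ZMod 2 × (Fin 3 → ZMod 2) × (Fin 3 → ZMod 2) ×
        {h : Matrix (Fin 3) (Fin 3) (ZMod 2) // h.det = 1}) →
        Subgroup.centralizer ({s} : Set (Matrix.SpecialLinearGroup (Fin 5) (ZMod 2))) :=
      fun x => ⟨(⟨FM x.1 x.2.1 x.2.2.1 x.2.2.2.1, by rw [det_FM]; exact x.2.2.2.2⟩ :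
        Matrix.SpecialLinearGroup (Fin 5) (ZMod 2)), by
        refine Subgroup.mem_centralizer_singleton_iff.2 ?_
        apply Subtype.ext
        change FM x.1 x.2.1 x.2.2.1 x.2.2.2.1 * (s : Matrix (Fin 5) (Fin 5) (ZMod 2)) =
          (s : Matrix (Fin 5) (Fin 5) (ZMod 2)) * FM x.1 x.2.1 x.2.2.1 x.2.2.2.1
        rw [hs]
        exact (comm_FM _ _ _ _).symm⟩
    apply Nat.card_congr
    refine Equiv.ofBijective f ⟨?_, ?_⟩
    · rintro ⟨c, r, t, h, hh⟩ ⟨c', r', t', h', hh'⟩ he
      have he' : FM c r t h = FM c' r' t' h' :=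
        congrArg (fun x : Subgroup.centralizer ({s} : Set (Matrix.SpecialLinearGroup (Fin 5) (ZMod 2))) =>
          ((x : Matrix.SpecialLinearGroup (Fin 5) (ZMod 2)) : Matrix (Fin 5) (Fin 5) (ZMod 2))) he
      have e : ∀ i j, FM c r t h i j = FM c' r' t' h' i j := fun i j => congrFun (congrFun he' i) j
      have e1 : c = c' := e 0 1
      have e2 : r = r' := by
        funext j; fin_cases j
        · exact e 0 2
        · exact e 0 3
        · exact e 0 4
      have e3 : t = t' := by
        funext j; fin_cases j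
        · exact e 2 1
        · exact e 3 1
        · exact e 4 1
      have e4 : h = h' := by
        ext i j; fin_cases i <;> fin_cases j
        · exact e 2 2
        · exact e 2 3
        · exact e 2 4
        · exact e 3 2
        · exact e 3 3
        · exact e 3 4
        · exact e 4 2
        · exact e 4 3
        · exact e 4 4
      subst e1 e2 e3 e4
      rfl
    · rintro ⟨g, hg⟩
      rw [Subgroup.mem_centralizer_singleton_iff] at hg
      have hg' : (g : Matrix (Fin 5) (Fin 5) (ZMod 2)) * (s : Matrix (Fin 5) (Fin 5) (ZMod 2)) =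
          (s : Matrix (Fin 5) (Fin 5) (ZMod 2)) * (g : Matrix (Fin 5) (Fin 5) (ZMod 2)) :=
        congrArg Subtype.val hg
      rw [hs] at hg'
      have h1 := eq_FM g.1 hg'.symm g.2
      refine ⟨⟨g.1 0 1, (fun j => g.1 0 (j.natAdd 2)), (fun i => g.1 (i.natAdd 2) 1),
        ⟨(fun i j => g.1 (i.natAdd 2) (j.natAdd 2)), ?_⟩⟩, ?_⟩
      · have h7 := det_FM (g.1 0 1) (fun j => g.1 0 (j.natAdd 2)) (fun i => g.1 (i.natAdd 2) 1)
          (fun i j => g.1 (i.natAdd 2) (j.natAdd 2))
        exact h7.symm.trans ((congrArg Matrix.det h1).symm.trans g.2)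
      · apply Subtype.ext
        apply Subtype.ext
        exact h1.symm
  rw [hcard]
  have h3 : Nat.card {h : Matrix (Fin 3) (Fin 3) (ZMod 2) // h.det = 1} = 168 := by
    have h4 := Matrix.card_GL_field (𝔽 := ZMod 2) 3
    have h5 : Nat.card {h : Matrix (Fin 3) (Fin 3) (ZMod 2) // h.det = 1} =
        Nat.card (GL (Fin 3) (ZMod 2)) := by
      apply Nat.card_congr
      refine Equiv.ofBijective (fun h => Matrix.GeneralLinearGroup.mkOfDetNeZero h.1 (by
        rw [h.2]; decide)) ⟨?_, ?_⟩
      · rintro ⟨h, hh⟩ ⟨h', hh'⟩ he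
        have := congrArg (fun x : GL (Fin 3) (ZMod 2) => (x : Matrix (Fin 3) (Fin 3) (ZMod 2))) he
        exact Subtype.ext this
      · intro g
        refine ⟨⟨g.1, ?_⟩, ?_⟩
        · have h6 : IsUnit g.1.det := (Matrix.isUnit_iff_isUnit_det _).1 g.isUnit
          have : ∀ x : ZMod 2, x ≠ 0 → x = 1 := by decide
          exact this _ h6.ne_zero
        · apply Units.ext
          rfl
    rw [h5, h4]
    simp [Fin.prod_univ_three, ZMod.card]
  rw [Nat.card_prod, Nat.card_prod, Nat.card_prod, h3]
  simp

end Cfsg.Agent.S0445
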