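import Cfsg.Statements.S0455
import Cfsg.Agent.LE.J3U.NC
import Cfsg.Agent.LE.J2Iso
import Cfsg.Agent.S0215

set_option autoImplicit false
open Cfsg

namespace Cfsg.Agent.S0455

/-- Janko's second and third groups: let G be finite simple with a 2-central involution t whose centraliser C contains a normal extraspecial subgroup E of order 32 with C/E isomorphic to the alternating group of degree 5. Then G has order 604800 or 50232960. -/
theorem result {G : Type*} [Group G] [Finite G] [IsSimpleGroup G] (t : G) (ht : Cfsg.IsTwoCentralInvolution t) (E : Subgroup (Subgroup.centralizer ({t} : Set G))) [E.Normal] (hE : Nat.card E = 32) (hX : Cfsg.IsExtraspecial 2 E) (e : (Subgroup.centralizer ({t} : Set G)) ⧸ E ≃* alternatingGroup (Fin 5)) : Cfsg.IsJ2 G ∨ Cfsg.IsJ3 G := by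
  obtain ⟨ht2, P, htP, hP⟩ := ht
  have t1 : t ≠ 1 := by rintro rfl; rw [orderOf_one] at ht2; omega
  obtain ⟨ζ, hζ, -⟩ := Cfsg.Agent.H90.XS.of_isExtraspecial hX
  -- the involution is not isolated
  have hg : ∃ g : G, g * t * g⁻¹ ≠ t ∧ (g * t * g⁻¹) * t = t * (g * t * g⁻¹) := by
    by_contra hcon
    push Not at hcon
    have hiso : ∀ g : G, g * t * g⁻¹ ∈ P → g * t * g⁻¹ = t := by
      intro g hg
      by_contra hne
      exact hcon g hne (hP _ hg)
    obtain ⟨N, hN, hodd, hc⟩ := Cfsg.Agent.S0215.result P t ht2 htP hiso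
    rcases hN.eq_bot_or_eq_top with h | h
    · -- `t` is central
      have htc : ∀ g : G, t * g = g * t := by
        intro g
        have := hc g
        rw [h, Subgroup.mem_bot] at this
        calc t * g = (t * g * t⁻¹ * g⁻¹) * g * t := by group
          _ = g * t := by rw [this]; group
      have hcen : Subgroup.center G = ⊤ := by
        rcases (inferInstance : (Subgroup.center G).Normal).eq_bot_or_eq_top with h2 | h2
        · exfalso
          have : t ∈ Subgroup.center G := Subgroup.mem_center_iff.2 (fun g => (htc g).symm)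
          rw [h2, Subgroup.mem_bot] at this
          exact t1 this
        · exact h2
      have hab : ∀ a b : G, a * b = b * a := by
        intro a b
        have : a ∈ Subgroup.center G := by rw [hcen]; exact Subgroup.mem_top _
        exact (Subgroup.mem_center_iff.1 this b).symm
      have h3 : ∀ q ∈ E, q = 1 ∨ q = ζ := fun q hq => hζ.nondeg q hq (fun y _ => Subtype.ext (hab _ _))
      have h4 : Nat.card E ≤ 2 := by
        have h5 : (E : Set ↥(Subgroup.centralizer ({t} : Set G))) ⊆ {1, ζ} := by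
          intro q hq
          rcases h3 q hq with h6 | h6 <;> rw [h6] <;> simp
        calc Nat.card E = (E : Set ↥(Subgroup.centralizer ({t} : Set G))).ncard := rfl
          _ ≤ ({1, ζ} : Set ↥(Subgroup.centralizer ({t} : Set G))).ncard := Set.ncard_le_ncard h5 (Set.toFinite _)
          _ ≤ 2 := Set.ncard_insert_le _ _ |>.trans (by rw [Set.ncard_singleton])
      omega
    · rw [h, Subgroup.card_top] at hodd
      have h2 : 2 ∣ Nat.card G := by rw [← ht2]; exact orderOf_dvd_natCard t
      rw [← Nat.not_even_iff_odd, even_iff_two_dvd] at hodd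
      exact hodd h2
  have h2c := Cfsg.Agent.LE.J3U.cent_le ht2 E hX hE e hg
  obtain ⟨x, B⟩ := Cfsg.Agent.LE.exists_base' ht2 E hX hE h2c (Cfsg.Agent.LE.J3U.card_quot e)
  by_cases hone : ∀ x y : G, orderOf x = 2 → orderOf y = 2 → IsConj x y
  · right
    obtain ⟨Q, f, y, a, c⟩ := Cfsg.Agent.LE.J3U.exists_c3' ht2 E hX hE e hone
    obtain ⟨φ, -⟩ := c.iso
    exact ⟨inferInstance, by rw [← Nat.card_congr φ.toEquiv, Cfsg.Agent.LE.J3U.cardJ]⟩
  · left
    push Not at hone
    have nwc : ∃ g, g * t * g⁻¹ ∈ E.map (Subgroup.centralizer ({t} : Set G)).subtype ∧ g * t * g⁻¹ ≠ t := by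
      by_contra hcon
      push Not at hcon
      obtain ⟨g, hg1, hg2⟩ := hg
      exact hg1 (B.isolated hcon g hg2)
    obtain ⟨a, b, ha, hb, hab⟩ := hone
    obtain ⟨φ⟩ := B.isoJ2 nwc ⟨a, b, ha, hb, hab⟩
    obtain ⟨ψ⟩ : Nonempty (Cfsg.Spor.J2 ≃* Cfsg.Agent.J2Tab.J) := ⟨Cfsg.Agent.Ico.isoJ⟩
    exact ⟨inferInstance, by rw [Nat.card_congr φ.toEquiv, Nat.card_congr ψ.toEquiv, Cfsg.Agent.J2Tab.card_J]⟩

end Cfsg.Agent.S0455
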