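import Cfsg.Statements.S0456
import Cfsg.Agent.LE.J3U.NC

set_option autoImplicit false
open Cfsg

namespace Cfsg.Agent.S0456

/-- Janko's third group: let G be finite simple with all involutions conjugate, and let t be an involution whose centraliser C has a normal extraspecial subgroup E of order 32 with C/E isomorphic to the alternating group of degree 5. Then G has order 50232960. -/
theorem result {G : Type*} [Group G] [Finite G] [IsSimpleGroup G] (hone : ∀ x y : G, orderOf x = 2 → orderOf y = 2 → IsConj x y) (t : G) (ht : orderOf t = 2) (E : Subgroup (Subgroup.centralizer ({t} : Set G))) [E.Normal] (hE : Nat.card E = 32) (hX : Cfsg.IsExtraspecial 2 E) (e : (Subgroup.centralizer ({t} : Set G)) ⧸ E ≃* alternatingGroup (Fin 5)) : Cfsg.IsJ3 G := by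
  obtain ⟨Q, f, y, a, c⟩ := Cfsg.Agent.LE.J3U.exists_c3' ht E hX hE e hone
  obtain ⟨φ, -⟩ := c.iso
  exact ⟨inferInstance, by rw [← Nat.card_congr φ.toEquiv, Cfsg.Agent.LE.J3U.cardJ]⟩

end Cfsg.Agent.S0456
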