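import Cfsg.Statements.S0463
import Cfsg.Agent.CosetEnum.HN.Ord
import Cfsg.Agent.KMat.Real

set_option autoImplicit false
open Cfsg

namespace Cfsg.Agent.S0463

/-- The Harada–Norton group exists as a transitive permutation group of degree 1140000: simple of order 273030912000000 with point stabiliser isomorphic to the alternating group of degree 12. -/
theorem result : ∃ H : Subgroup (Equiv.Perm (Fin 1140000)), Cfsg.IsHN H ∧ MulAction.IsPretransitive H (Fin 1140000) ∧ Nonempty (MulAction.stabilizer H (0 : Fin 1140000) ≃* alternatingGroup (Fin 12)) := by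
  obtain ⟨K, ⟨e⟩, h2, ⟨f⟩⟩ := KMat.realize HN.simple_HN HN.HA HN.index_eq (by
    intro h
    have h1 := HN.index_eq
    rw [h, Subgroup.index_top] at h1
    norm_num at h1)
  obtain ⟨a⟩ := HN.QA_equiv
  refine ⟨K, ⟨?_, ?_⟩, h2, ⟨f.trans (HN.eHA.symm.trans a)⟩⟩
  · haveI := HN.simple_HN
    exact e.symm.isSimpleGroup
  · rw [← HN.card_HN]
    exact (Nat.card_congr e.toEquiv).symm

end Cfsg.Agent.S0463
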