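import Cfsg.Statements.S0479
import Cfsg.Agent.HH.ON45
import Cfsg.Agent.S1699

set_option autoImplicit false
open Cfsg

namespace Cfsg.Agent.S0479

open Cfsg.Agent.HH.PM Cfsg.Agent.HH.ON45 Cfsg.Spor Matrix

/-- index of a generator -/
def ix : Cfsg.Spor.ON.Gen → ℕ
  | .g => 0 | .a => 1 | .b => 2 | .c => 3 | .d => 4 | .e => 5 | .f => 6

lemma spec1 {ws : List ℕ} (h : ws ∈ W1) (h' : ws.all (fun i => Nat.blt i T.length) = true) : wpr 45 7 T ws = 1 :=
  chkW_spec (c := 9363) (w := 45) (K := 4096) (by norm_num) (by norm_num) (by norm_num) (fun x hx => by omega) (by norm_num)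
    (by norm_num) valid_T chk_W1 h h'

lemma spec2 {ws : List ℕ} (h : ws ∈ W2) (h' : ws.all (fun i => Nat.blt i T.length) = true) : wpr 45 7 T ws = 1 :=
  chkW_spec (c := 9363) (w := 45) (K := 4096) (by norm_num) (by norm_num) (by norm_num) (fun x hx => by omega) (by norm_num)
    (by norm_num) valid_T chk_W2 h h'

/-- the matrices of the generators -/
def M (x : Cfsg.Spor.ON.Gen) : Matrix (Fin 45) (Fin 45) (ZMod 7) := spm 45 7 (T.getD (ix x) [])

/-- word in the matrices -/
lemma wpr_map (L : List Cfsg.Spor.ON.Gen) : wpr 45 7 T (L.map ix) = (L.map M).prod := by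
  unfold wpr
  rw [List.map_map]
  rfl

lemma ms_list : T.getD 7 [] = (List.range 45).map (fun i => [(i, 2)]) := by rfl

lemma ms_eq : spm 45 7 (T.getD 7 []) = (2 : ZMod 7) • (1 : Matrix (Fin 45) (Fin 45) (ZMod 7)) := by
  ext i j
  rw [ms_list, Matrix.smul_apply, Matrix.one_apply, smul_eq_mul]
  have h : ((List.range 45).map (fun i => [(i, 2)])).getD i.val [] = [(i.val, 2)] := by
    rw [List.getD_eq_getElem _ _ (by simp)]
    simp
  unfold spm
  rw [h, List.map_cons, List.map_nil, List.sum_cons, List.sum_nil, add_zero]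
  by_cases hij : i = j
  · subst hij
    rw [if_pos rfl, if_pos rfl, mul_one]; rfl
  · rw [if_neg hij, if_neg (fun h => hij (Fin.ext h)), mul_zero]

lemma wpr_append (a b : List ℕ) : wpr 45 7 T (a ++ b) = wpr 45 7 T a * wpr 45 7 T b := by
  unfold wpr
  rw [List.map_append, List.prod_append]

lemma wpr_seven : wpr 45 7 T [7] = spm 45 7 (T.getD 7 []) := by
  unfold wpr
  rw [List.map_cons, List.map_nil, List.prod_cons, List.prod_nil, mul_one]

lemma wpr_map' (L : List Cfsg.Spor.ON.Gen) : wpr 45 7 T (L.map ix ++ [7]) = (L.map M).prod * ((2 : ZMod 7) • 1) := by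
  rw [wpr_append, wpr_seven, wpr_map, ms_eq]

lemma word1 (L : List Cfsg.Spor.ON.Gen) (h : L.map ix ∈ W1) (h' : (L.map ix).all (fun i => Nat.blt i T.length) = true) :
    (L.map M).prod = 1 := by rw [← wpr_map, spec1 h h']

lemma word2 (L : List Cfsg.Spor.ON.Gen) (h : L.map ix ∈ W2) (h' : (L.map ix).all (fun i => Nat.blt i T.length) = true) :
    (L.map M).prod = 1 := by rw [← wpr_map, spec2 h h']

lemma word3 (L : List Cfsg.Spor.ON.Gen) (h : L.map ix ++ [7] ∈ W2)
    (h' : (L.map ix ++ [7]).all (fun i => Nat.blt i T.length) = true) :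
    (L.map M).prod = (4 : ZMod 7) • 1 := by
  have h1 := wpr_map' L
  rw [spec2 h h'] at h1
  rw [mul_smul_comm, mul_one] at h1
  have h2 := congrArg (fun X => (4 : ZMod 7) • X) h1
  simp only [smul_smul] at h2
  rw [h2, show (4 : ZMod 7) * 2 = 1 from by decide, one_smul]

lemma det4 : ((4 : ZMod 7) • (1 : Matrix (Fin 45) (Fin 45) (ZMod 7))).det = 1 := by
  rw [Matrix.det_smul, Matrix.det_one, Fintype.card_fin, mul_one]
  decide

/-- determinants -/
lemma det_word (L : List Cfsg.Spor.ON.Gen) : ((L.map M).prod).det = (L.map (fun x => (M x).det)).prod := by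
  induction L with
  | nil => simp
  | cons x L ih => rw [List.map_cons, List.prod_cons, Matrix.det_mul, ih, List.map_cons, List.prod_cons]

lemma k1 : ∀ x y : ZMod 7, x * x = 1 → y * y = 1 → x * (y * (x * (y * (x * y)))) = 1 → x = y := by decide

lemma k2 : ∀ g b : ZMod 7, b * b = 1 → g * (g * (g * g)) = 1 →
      g * (b * (b * (g * (b * (b * (g * (b * (b * (g * b))))))))) = 1 → b = 1 := by decide

lemma k3 : ∀ g : ZMod 7, g * (g * (g * g)) = 1 → 1 * (1 * (1 * (g * (1 * (1 * (1 * (g * (1 * (1 * (1 * (g * (1 * (1 * (1 * (g *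
      (1 * (1 * (1 * g)))))))))))))))))) = 1 → g = 1 := by decide

lemma det_aux (D : Cfsg.Spor.ON.Gen → ZMod 7)
    (h1 : ∀ L : List Cfsg.Spor.ON.Gen, (L.map M).prod = 1 → (L.map D).prod = 1)
    (h4 : ∀ L : List Cfsg.Spor.ON.Gen, (L.map M).prod = (4 : ZMod 7) • 1 → (L.map D).prod = 1)
    (x : Cfsg.Spor.ON.Gen) : D x = 1 := by
  have ha := h1 _ (word1 [.a, .a] (by decide) (by decide))
  have hab := h1 _ (word1 [.a, .b, .a, .b, .a, .b] (by decide) (by decide))
  have hb := h1 _ (word1 [.b, .b] (by decide) (by decide))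
  have hbc := h1 _ (word1 [.b, .c, .b, .c, .b, .c] (by decide) (by decide))
  have hc := h1 _ (word1 [.c, .c] (by decide) (by decide))
  have hd := h1 _ (word1 [.d, .d] (by decide) (by decide))
  have hde := h1 _ (word1 [.d, .e, .d, .e, .d, .e] (by decide) (by decide))
  have he := h1 _ (word1 [.e, .e] (by decide) (by decide))
  have hef := h1 _ (word1 [.e, .f, .e, .f, .e, .f] (by decide) (by decide))
  have hf := h1 _ (word1 [.f, .f] (by decide) (by decide))
  have hg := h1 _ (word2 [.g, .g, .g, .g] (by decide) (by decide))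
  have h5 := h4 _ (word3 [.b,.c,.d,.g,.b,.c,.d,.g,.b,.c,.d,.g,.b,.c,.d,.g,.b,.c,.d,.g] (by decide) (by decide))
  have h6 := h4 _ (word3 [.g,.b,.c,.g,.c,.b,.g,.b,.c,.g,.c] (by decide) (by decide))
  have h7 := h4 _ (word3 [.g,.e,.d,.g,.d,.e,.g,.e,.d,.g,.d] (by decide) (by decide))
  simp only [List.map_cons, List.map_nil, List.prod_cons, List.prod_nil, mul_one] at ha hab hb hbc hc hd hde he hef hf hg h5 h6 h7
  have e1 := k1 _ _ ha hb hab
  have e2 := k1 _ _ hb hc hbc
  have e3 := k1 _ _ hd he hde
  have e4 := k1 _ _ he hf hef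
  rw [← e2] at h6
  rw [← e3] at h7
  have f1 := k2 _ _ hb hg h6
  have f2 := k2 _ _ hd hg h7
  have f3 : D .c = 1 := e2.symm.trans f1
  rw [f1, f3, f2] at h5
  have f4 := k3 _ hg h5
  cases x
  · exact f4
  · exact e1.trans f1
  · exact f1
  · exact f3
  · exact f2
  · exact e3.symm.trans f2
  · exact e4.symm.trans (e3.symm.trans f2)

lemma det_M (x : Cfsg.Spor.ON.Gen) : (M x).det = 1 := by
  refine det_aux (fun x => (M x).det) ?_ ?_ x
  · intro L h
    rw [← det_word, h, Matrix.det_one]
  · intro L h
    rw [← det_word, h, det4]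

/-- generators in the special linear group -/
def u (x : Cfsg.Spor.ON.Gen) : Matrix.SpecialLinearGroup (Fin 45) (ZMod 7) := ⟨M x, det_M x⟩

lemma u_word (L : List Cfsg.Spor.ON.Gen) :
    (((L.map u).prod : Matrix.SpecialLinearGroup (Fin 45) (ZMod 7)) : Matrix (Fin 45) (Fin 45) (ZMod 7)) = (L.map M).prod := by
  induction L with
  | nil => rfl
  | cons x L ih => rw [List.map_cons, List.prod_cons, Matrix.SpecialLinearGroup.coe_mul, ih, List.map_cons, List.prod_cons]; rfl

lemma u_one {L : List Cfsg.Spor.ON.Gen} (h : (L.map M).prod = 1) : (L.map u).prod = 1 := by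
  apply Subtype.ext
  rw [u_word, h]; rfl

lemma u_center {L : List Cfsg.Spor.ON.Gen} (h : (L.map M).prod = (4 : ZMod 7) • 1) :
    (L.map u).prod ∈ Subgroup.center (Matrix.SpecialLinearGroup (Fin 45) (ZMod 7)) := by
  rw [Matrix.SpecialLinearGroup.mem_center_iff]
  refine ⟨4, by rw [Fintype.card_fin]; decide, ?_⟩
  rw [u_word, h]
  ext i j
  rw [Matrix.scalar_apply, Matrix.smul_apply, Matrix.diagonal_apply, Matrix.one_apply, smul_eq_mul]
  split_ifs
  · rw [mul_one]
  · rw [mul_zero]

lemma u_inv (x : Cfsg.Spor.ON.Gen) (hx : x ≠ .g) : (u x)⁻¹ = u x := by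
  have h : ([x, x].map u).prod = 1 := by
    apply u_one
    cases x <;> first | exact absurd rfl hx | exact word1 _ (by decide) (by decide)
  rw [List.map_cons, List.map_cons, List.map_nil, List.prod_cons, List.prod_cons, List.prod_nil, mul_one] at h
  exact inv_eq_of_mul_eq_one_left h

lemma g_inv : (u .g)⁻¹ = u .g * (u .g * u .g) := by
  have h := u_one (word2 [.g, .g, .g, .g] (by decide) (by decide))
  simp only [List.map_cons, List.map_nil, List.prod_cons, List.prod_nil, mul_one] at h
  exact inv_eq_of_mul_eq_one_right h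

lemma u_pow (L : List Cfsg.Spor.ON.Gen) (k : ℕ) : (L.map u).prod ^ k = (((List.replicate k L).flatten).map u).prod := by
  induction k with
  | zero => simp
  | succ k ih => rw [pow_succ', ih, List.replicate_succ, List.flatten_cons, List.map_append, List.prod_append]

/-- abbreviation -/
abbrev Z : Subgroup (Matrix.SpecialLinearGroup (Fin 45) (ZMod 7)) := Subgroup.center _

lemma mem_of_one {x : Matrix.SpecialLinearGroup (Fin 45) (ZMod 7)} (h : x = 1) : x ∈ Z := by
  rw [h]; exact one_mem _

lemma rels : ∀ r ∈ (coxRelators Cfsg.Spor.ON.edges ∪ {r | r ∈ Cfsg.Spor.ON.extra}), FreeGroup.lift u r ∈ Z := by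
  have ia := u_inv .a (by decide)
  have ib := u_inv .b (by decide)
  have ic := u_inv .c (by decide)
  have id := u_inv .d (by decide)
  have ie := u_inv .e (by decide)
  have if' := u_inv .f (by decide)
  have ig := g_inv
  rintro r (⟨x, hx, y, hy, rfl⟩ | h)
  · rw [map_pow, map_mul, FreeGroup.lift_apply_of, FreeGroup.lift_apply_of]
    apply mem_of_one
    have h1 : (([x, y].map u).prod) ^ (coxLabel Cfsg.Spor.ON.edges x y) = 1 := by
      rw [u_pow]
      apply u_one
      have hx' : x ≠ .g := by rintro rfl; revert hx; decide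
      have hy' : y ≠ .g := by rintro rfl; revert hy; decide
      apply word1
      · cases x <;> first | exact absurd rfl hx' | (cases y <;> first | exact absurd rfl hy' | decide)
      · cases x <;> cases y <;> decide
    rw [List.map_cons, List.map_cons, List.map_nil, List.prod_cons, List.prod_cons, List.prod_nil, mul_one] at h1
    exact h1
  · have hm : r ∈ Cfsg.Spor.ON.extra := h
    unfold Cfsg.Spor.ON.extra at hm
    simp only [List.mem_cons, List.not_mem_nil, or_false] at hm
    rcases hm with rfl | rfl | rfl | rfl | rfl | rfl | rfl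
    · have h1 := u_one (word2 [.a, .f, .g, .g] (by decide) (by decide))
      have h2 := u_one (word2 [.g, .g, .g, .g] (by decide) (by decide))
      simp only [List.map_cons, List.map_nil, List.prod_cons, List.prod_nil, mul_one] at h1 h2
      simp only [map_mul, map_inv, map_pow, FreeGroup.lift_apply_of]
      apply mem_of_one
      rw [mul_inv_eq_one, pow_two]
      have h3 : u .a * u .f = (u .g * u .g)⁻¹ := eq_inv_of_mul_eq_one_left (by rw [mul_assoc]; exact h1)
      rw [h3]
      exact inv_eq_of_mul_eq_one_left (by rw [mul_assoc]; exact h2)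
    · have h1 := u_one (word2 [.a, .f, .d, .c, .d, .c, .d, .c, .d, .c] (by decide) (by decide))
      simp only [List.map_cons, List.map_nil, List.prod_cons, List.prod_nil, mul_one] at h1
      simp only [map_mul, map_inv, map_pow, FreeGroup.lift_apply_of]
      apply mem_of_one
      rw [← inv_pow, _root_.mul_inv_rev, ic, id]
      simp only [pow_succ, pow_zero, one_mul, mul_assoc]
      exact h1
    · have h1 := u_one (word2 [.c, .g, .g, .g, .d, .g, .g, .g, .d, .c, .d, .g, .d, .g] (by decide) (by decide))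
      simp only [List.map_cons, List.map_nil, List.prod_cons, List.prod_nil, mul_one] at h1
      simp only [map_mul, map_inv, FreeGroup.lift_apply_of]
      apply mem_of_one
      simp only [_root_.mul_inv_rev, ic, id, ig, mul_assoc]
      exact h1
    · have h1 := u_one (word2 [.d, .g, .g, .g, .c, .g, .g, .g, .c, .d, .c, .g, .c, .g] (by decide) (by decide))
      simp only [List.map_cons, List.map_nil, List.prod_cons, List.prod_nil, mul_one] at h1
      simp only [map_mul, map_inv, FreeGroup.lift_apply_of]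
      apply mem_of_one
      simp only [_root_.mul_inv_rev, ic, id, ig, mul_assoc]
      exact h1
    · have h1 := u_center (word3 [.b,.c,.d,.g,.b,.c,.d,.g,.b,.c,.d,.g,.b,.c,.d,.g,.b,.c,.d,.g] (by decide) (by decide))
      simp only [List.map_cons, List.map_nil, List.prod_cons, List.prod_nil, mul_one] at h1
      simp only [map_mul, map_inv, map_pow, FreeGroup.lift_apply_of]
      simp only [pow_succ, pow_zero, one_mul, mul_assoc]
      exact h1
    · have h1 := u_center (word3 [.g,.b,.c,.g,.c,.b,.g,.b,.c,.g,.c] (by decide) (by decide))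
      simp only [List.map_cons, List.map_nil, List.prod_cons, List.prod_nil, mul_one] at h1
      simp only [map_mul, map_inv, map_pow, FreeGroup.lift_apply_of]
      simp only [ib, ic, mul_assoc]
      exact h1
    · have h1 := u_center (word3 [.g,.e,.d,.g,.d,.e,.g,.e,.d,.g,.d] (by decide) (by decide))
      simp only [List.map_cons, List.map_nil, List.prod_cons, List.prod_nil, mul_one] at h1
      simp only [map_mul, map_inv, map_pow, FreeGroup.lift_apply_of]
      simp only [ie, id, mul_assoc]
      exact h1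

/-- the projective map on generators -/
def ub (x : Cfsg.Spor.ON.Gen) : Matrix.SpecialLinearGroup (Fin 45) (ZMod 7) ⧸ Z := QuotientGroup.mk' Z (u x)

lemma rels' : ∀ r ∈ (coxRelators Cfsg.Spor.ON.edges ∪ {r | r ∈ Cfsg.Spor.ON.extra}), FreeGroup.lift ub r = 1 := by
  intro r hr
  have h1 : FreeGroup.lift ub r = QuotientGroup.mk' Z (FreeGroup.lift u r) := by
    have : FreeGroup.lift ub = (QuotientGroup.mk' Z).comp (FreeGroup.lift u) := by
      ext x
      simp [ub]
    rw [this]; rfl
  rw [h1]
  exact (QuotientGroup.eq_one_iff _).2 (rels r hr)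

/-- the projective representation -/
def phi : Cfsg.Spor.ON →* Matrix.SpecialLinearGroup (Fin 45) (ZMod 7) ⧸ Z := PresentedGroup.toGroup rels'

lemma phi_inj : Function.Injective phi := by
  haveI : IsSimpleGroup Cfsg.Spor.ON := Cfsg.Agent.S1699.result.1
  rcases (MonoidHom.normal_ker phi).eq_bot_or_eq_top with h | h
  · exact (MonoidHom.ker_eq_bot_iff phi).1 h
  · exfalso
    have h1 : phi (PresentedGroup.of Cfsg.Spor.ON.Gen.a) = 1 := by
      rw [← MonoidHom.mem_ker, h]; trivial
    have h2 : phi (PresentedGroup.of Cfsg.Spor.ON.Gen.a) = ub .a := PresentedGroup.toGroup.of rels'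
    rw [h2] at h1
    have h3 : u .a ∈ Z := (QuotientGroup.eq_one_iff _).1 h1
    rw [Matrix.SpecialLinearGroup.mem_center_iff] at h3
    obtain ⟨r, _, hr⟩ := h3
    have h4 := congrFun (congrFun hr 1) 2
    have h5 : (Matrix.scalar (Fin 45) r) 1 2 = 0 := by
      rw [Matrix.scalar_apply, Matrix.diagonal_apply_ne]
      decide
    rw [h5] at h4
    have h6 : (0 : ZMod 7) = spm 45 7 (T.getD 1 []) 1 2 := h4
    revert h6
    decide

lemma center_ON : Subgroup.center Cfsg.Spor.ON = ⊥ := by
  haveI : IsSimpleGroup Cfsg.Spor.ON := Cfsg.Agent.S1699.result.1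
  rcases (inferInstance : (Subgroup.center Cfsg.Spor.ON).Normal).eq_bot_or_eq_top with h | h
  · exact h
  · exfalso
    letI : CommGroup Cfsg.Spor.ON := Group.commGroupOfCenterEqTop h
    haveI : Finite Cfsg.Spor.ON := Nat.finite_of_card_ne_zero (by rw [Cfsg.Agent.S1699.result.2]; norm_num)
    have h1 := IsSimpleGroup.prime_card (α := Cfsg.Spor.ON)
    rw [Cfsg.Agent.S1699.result.2] at h1
    revert h1
    norm_num

lemma card_Z : Nat.card Z = 3 := by
  rw [Nat.card_congr (Matrix.SpecialLinearGroup.center_equiv_rootsOfUnity' (n := Fin 45) (R := ZMod 7) 0).toEquiv]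
  have h : Nat.card {x : (ZMod 7)ˣ // x ^ 45 = 1} = 3 := by
    rw [Nat.card_eq_fintype_card]; decide
  rw [← h]
  apply Nat.card_congr
  apply Equiv.subtypeEquivRight
  intro x
  rw [mem_rootsOfUnity, Fintype.card_fin]

/-- the triple cover -/
def HH : Subgroup (Matrix.SpecialLinearGroup (Fin 45) (ZMod 7)) := phi.range.comap (QuotientGroup.mk' Z)

/-- the projection -/
def psi : HH →* phi.range := ((QuotientGroup.mk' Z).comp HH.subtype).codRestrict phi.range (fun h => h.2)

lemma psi_surj : Function.Surjective psi := by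
  rintro ⟨y, hy⟩
  obtain ⟨s, rfl⟩ := QuotientGroup.mk'_surjective Z y
  exact ⟨⟨s, hy⟩, rfl⟩

lemma Z_le : Z ≤ HH := by
  intro z hz
  change QuotientGroup.mk' Z z ∈ phi.range
  have : QuotientGroup.mk' Z z = 1 := (QuotientGroup.eq_one_iff _).2 hz
  rw [this]; exact one_mem _

lemma ker_psi : psi.ker = Z.subgroupOf HH := by
  ext h
  rw [MonoidHom.mem_ker, Subgroup.mem_subgroupOf]
  constructor
  · intro hh
    exact (QuotientGroup.eq_one_iff _).1 (congrArg Subtype.val hh)
  · intro hh
    apply Subtype.ext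
    exact (QuotientGroup.eq_one_iff _).2 hh

lemma center_range : Subgroup.center phi.range = ⊥ := by
  let e : Cfsg.Spor.ON ≃* phi.range := MonoidHom.ofInjective phi_inj
  rw [eq_bot_iff]
  intro z hz
  obtain ⟨x, rfl⟩ := e.surjective z
  have hx : x ∈ Subgroup.center Cfsg.Spor.ON := by
    rw [Subgroup.mem_center_iff] at hz ⊢
    intro y
    apply e.injective
    rw [map_mul, map_mul]
    exact hz (e y)
  rw [center_ON, Subgroup.mem_bot] at hx
  rw [hx, map_one]; exact one_mem _

lemma center_HH : Subgroup.center HH = psi.ker := by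
  apply le_antisymm
  · intro z hz
    rw [MonoidHom.mem_ker]
    have h1 : psi z ∈ Subgroup.center phi.range := by
      rw [Subgroup.mem_center_iff] at hz ⊢
      intro y
      obtain ⟨x, rfl⟩ := psi_surj y
      rw [← map_mul, ← map_mul, hz x]
    rw [center_range, Subgroup.mem_bot] at h1
    exact h1
  · rw [ker_psi]
    intro z hz
    rw [Subgroup.mem_subgroupOf, Subgroup.mem_center_iff] at hz
    rw [Subgroup.mem_center_iff]
    intro y
    apply Subtype.ext
    exact hz y


/-- A triple cover of the O'Nan group as 45 × 45 matrices over the field with seven elements: SL(45, 7) has a subgroup whose centre has order 3 and whose quotient by its centre is simple of order 460815505920. -/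
theorem result : ∃ H : Subgroup (Matrix.SpecialLinearGroup (Fin 45) (ZMod 7)), Nat.card (Subgroup.center H) = 3 ∧ Cfsg.IsON (H ⧸ Subgroup.center H) := by
  refine ⟨HH, ?_, ?_⟩
  · rw [center_HH, ker_psi, Nat.card_congr (Subgroup.subgroupOfEquivOfLe Z_le).toEquiv, card_Z]
  · let e : (HH ⧸ Subgroup.center HH) ≃* Cfsg.Spor.ON :=
      ((QuotientGroup.quotientMulEquivOfEq center_HH).trans
        (QuotientGroup.quotientKerEquivOfSurjective psi psi_surj)).trans (MonoidHom.ofInjective phi_inj).symm
    haveI : IsSimpleGroup Cfsg.Spor.ON := Cfsg.Agent.S1699.result.1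
    exact ⟨(MulEquiv.isSimpleGroup_congr e).2 inferInstance, by rw [Nat.card_congr e.toEquiv]; exact Cfsg.Agent.S1699.result.2⟩

end Cfsg.Agent.S0479
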