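import Cfsg.Statements.S0481

set_option autoImplicit false
open Cfsg

namespace Cfsg.Agent.S0481

/-- Large extraspecial subgroups: let z be an involution of a finite group G whose centraliser C contains a normal 2-subgroup Q with centre of order 2 and all squares central, such that every element of G centralising Q lies in Q. Then C contains a Sylow 2-subgroup of G, and any involution of G whose centraliser contains a Sylow 2-subgroup of G is conjugate to z. -/
theorem result {G : Type*} [Group G] [Finite G] (z : G) (hz : orderOf z = 2) (Q : Subgroup G) (hQC : Q ≤ Subgroup.centralizer ({z} : Set G)) (hQn : ∀ g ∈ Subgroup.centralizer ({z} : Set G), ∀ q ∈ Q, g * q * g⁻¹ ∈ Q) (hQ2 : IsPGroup 2 Q) (hZ : Nat.card (Subgroup.center Q) = 2) (hsq : ∀ x : Q, x ^ 2 ∈ Subgroup.center Q) (hlarge : Subgroup.centralizer (Q : Set G) ≤ Q) : (∃ P : Sylow 2 G, (P : Subgroup G) ≤ Subgroup.centralizer ({z} : Set G)) ∧ ∀ u : G, orderOf u = 2 → (∃ P : Sylow 2 G, (P : Subgroup G) ≤ Subgroup.centralizer ({u} : Set G)) → IsConj z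 u := by
  haveI : Fact (Nat.Prime 2) := ⟨Nat.prime_two⟩
  have hzQ : z ∈ Subgroup.centralizer (Q : Set G) := by
    rw [Subgroup.mem_centralizer_iff]
    intro q hq
    have := hQC hq
    rw [Subgroup.mem_centralizer_singleton_iff] at this
    first
      | exact this
      | exact this.symm
  have hz1 : z ≠ 1 := by rintro rfl; simp at hz
  -- every element centralising Q is 1 or z
  have key : ∀ w ∈ Subgroup.centralizer (Q : Set G), w ≠ 1 → w = z := by
    have hmem : ∀ w ∈ Subgroup.centralizer (Q : Set G), ∃ h : w ∈ Q, (⟨w, h⟩ : Q) ∈ Subgroup.center Q := by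
      intro w hw
      refine ⟨hlarge hw, ?_⟩
      rw [Subgroup.mem_center_iff]
      intro q
      have := Subgroup.mem_centralizer_iff.1 hw q q.2
      exact Subtype.ext this
    intro w hw hw1
    obtain ⟨h1, h2⟩ := hmem w hw
    obtain ⟨h3, h4⟩ := hmem z hzQ
    obtain ⟨a, b, hab, huniv⟩ := Nat.card_eq_two_iff.1 hZ
    have hone : (1 : Subgroup.center Q) ∈ ({a, b} : Set (Subgroup.center Q)) := by rw [huniv]; trivial
    have hw' : (⟨⟨w, h1⟩, h2⟩ : Subgroup.center Q) ∈ ({a, b} : Set (Subgroup.center Q)) := by rw [huniv]; trivial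
    have hz' : (⟨⟨z, h3⟩, h4⟩ : Subgroup.center Q) ∈ ({a, b} : Set (Subgroup.center Q)) := by rw [huniv]; trivial
    have hwne : (⟨⟨w, h1⟩, h2⟩ : Subgroup.center Q) ≠ 1 := by
      intro h; apply hw1
      exact congrArg (fun t : Subgroup.center Q => ((t : Q) : G)) h
    have hzne : (⟨⟨z, h3⟩, h4⟩ : Subgroup.center Q) ≠ 1 := by
      intro h; apply hz1
      exact congrArg (fun t : Subgroup.center Q => ((t : Q) : G)) h
    have : (⟨⟨w, h1⟩, h2⟩ : Subgroup.center Q) = ⟨⟨z, h3⟩, h4⟩ := by
      simp only [Set.mem_insert_iff, Set.mem_singleton_iff] at hone hw' hz'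
      rcases hone with h | h <;> rcases hw' with h' | h' <;> rcases hz' with h'' | h'' <;>
        first
          | exact h'.trans h''.symm
          | exact absurd (h'.trans h.symm) hwne
          | exact absurd (h''.trans h.symm) hzne
    exact congrArg (fun t : Subgroup.center Q => ((t : Q) : G)) this
  -- a Sylow 2-subgroup containing Q: its centre is ⟨z⟩
  obtain ⟨P, hQP⟩ := hQ2.exists_le_sylow
  have hQne : Nontrivial Q := by
    refine ⟨⟨z, hlarge hzQ⟩, 1, ?_⟩
    intro h; exact hz1 (congrArg Subtype.val h)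
  haveI : Nontrivial (P : Subgroup G) := by
    refine ⟨⟨z, hQP (hlarge hzQ)⟩, 1, ?_⟩
    intro h; exact hz1 (congrArg Subtype.val h)
  haveI := (P.2 : IsPGroup 2 (P : Subgroup G)).center_nontrivial
  have hcen : ∀ w : (P : Subgroup G), w ∈ Subgroup.center (P : Subgroup G) → w ≠ 1 → (w : G) = z := by
    intro w hw hw1
    apply key
    · rw [Subgroup.mem_centralizer_iff]
      intro q hq
      have := Subgroup.mem_center_iff.1 hw ⟨q, hQP hq⟩
      exact congrArg Subtype.val this
    · intro h; exact hw1 (Subtype.ext h)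
  have hPz : (P : Subgroup G) ≤ Subgroup.centralizer ({z} : Set G) := by
    obtain ⟨w, hw⟩ := exists_ne (1 : Subgroup.center (P : Subgroup G))
    have hwz := hcen w w.2 (fun h => hw (Subtype.ext h))
    intro x hx
    have := Subgroup.mem_center_iff.1 w.2 ⟨x, hx⟩
    have h2 : x * (w : (P : Subgroup G)) = (w : (P : Subgroup G)) * x := congrArg Subtype.val this
    rw [hwz] at h2
    rw [Subgroup.mem_centralizer_singleton_iff]
    first
      | exact h2
      | exact h2.symm
  refine ⟨⟨P, hPz⟩, ?_⟩
  rintro u hu ⟨R, hR⟩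
  -- conjugate R to P
  obtain ⟨g, hg⟩ := MulAction.exists_smul_eq G R P
  have hu1 : u ≠ 1 := by rintro rfl; simp at hu
  -- v = g u g⁻¹ centralises P
  have hv : ∀ x ∈ (P : Subgroup G), x * (g * u * g⁻¹) = (g * u * g⁻¹) * x := by
    intro x hx
    rw [← hg] at hx
    have hx' : g⁻¹ * x * g ∈ (R : Subgroup G) := by
      have : x ∈ ((g • R : Sylow 2 G) : Subgroup G) := hx
      rw [Sylow.coe_subgroup_smul, Subgroup.mem_pointwise_smul_iff_inv_smul_mem] at this
      simpa [MulAut.smul_def] using this
    have h2 := hR hx'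
    rw [Subgroup.mem_centralizer_singleton_iff] at h2
    have h3 : (g⁻¹ * x * g) * u = u * (g⁻¹ * x * g) := by
      first
        | exact h2
        | exact h2.symm
    calc x * (g * u * g⁻¹) = g * ((g⁻¹ * x * g) * u) * g⁻¹ := by group
      _ = g * (u * (g⁻¹ * x * g)) * g⁻¹ := by rw [h3]
      _ = (g * u * g⁻¹) * x := by group
  have : g * u * g⁻¹ = z := by
    apply key
    · rw [Subgroup.mem_centralizer_iff]
      intro q hq
      exact hv q (hQP hq)
    · intro h
      apply hu1
      have : u = g⁻¹ * (g * u * g⁻¹) * g := by group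
      rw [this, h]; group
  exact (isConj_iff.2 ⟨g, this⟩).symm

end Cfsg.Agent.S0481
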