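import Cfsg.Statements.S0505
import Cfsg.Agent.S0017
import Cfsg.Agent.H49.CharP
import Cfsg.Agent.H9.SylowUtil
import Cfsg.Agent.Supersolvable.Hereditary

set_option autoImplicit false
open Cfsg

namespace Cfsg.Agent.S0505

/-- Let G be a finite group of even order in which the centralizer of every involution is solvable and has trivial
core (no nontrivial normal subgroup of odd order). Then G is of characteristic 2 type. -/
theorem result {G : Type*} [Group G] [Finite G]
    (h2 : Even (Nat.card G))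
    (hs : ∀ t : G, orderOf t = 2 → Group.IsSolvable (Subgroup.centralizer ({t} : Set G)))
    (hc : ∀ t : G, orderOf t = 2 → Cfsg.oddCore (Subgroup.centralizer ({t} : Set G)) = ⊥) :
    Cfsg.IsCharacteristicTwoType G := by
  refine ⟨h2, ?_⟩
  intro T hT hTne
  have hf : Fact (Nat.Prime 2) := ⟨Nat.prime_two⟩
  -- an involution in the centre of T
  have hz := Cfsg.Agent.Supersolvable.inf_centralizer_ne_bot (p := 2) T T hT hT
    Subgroup.le_normalizer hTne
  have hzp : IsPGroup 2 (T ⊓ Subgroup.centralizer (T : Set G) : Subgroup G) := hT.to_le inf_le_left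
  have hdvd : 2 ∣ Nat.card (T ⊓ Subgroup.centralizer (T : Set G) : Subgroup G) := by
    rcases hzp.card_eq_or_dvd with h | h
    · exact absurd (Subgroup.card_eq_one.1 h) hz
    · exact h
  obtain ⟨⟨t, ht⟩, hto'⟩ := exists_prime_orderOf_dvd_card' 2 hdvd
  have hto : orderOf t = 2 := by rwa [Subgroup.orderOf_mk] at hto'
  obtain ⟨htT, htc⟩ := Subgroup.mem_inf.1 ht
  set C : Subgroup G := Subgroup.centralizer ({t} : Set G) with hC
  have hTC : T ≤ C := by
    intro x hx
    rw [hC, Subgroup.mem_centralizer_singleton_iff]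
    exact Subgroup.mem_centralizer_iff.1 htc x hx
  have hsol : Group.IsSolvable C := hs t hto
  have hCC : Subgroup.centralizer (Cfsg.pCore 2 C : Set C) ≤ Cfsg.pCore 2 C :=
    Cfsg.Agent.S0017.result 2 (hc t hto)
  refine Cfsg.Agent.H49.charP_of_coprime_eq_one (Subgroup.normalizer (T : Set G)) ?_
  intro c hcL hcop hcc
  set L : Subgroup G := Subgroup.normalizer (T : Set G) with hL
  set D : Subgroup G := Subgroup.centralizer (T : Set G) with hD
  have hDL : D ≤ L := Cfsg.Agent.H49.centralizer_le_normalizer' T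
  have hLD : L ≤ Subgroup.normalizer (D : Set G) := by
    intro g hg
    rw [Subgroup.mem_normalizer_iff]
    intro x
    have key : ∀ g ∈ L, ∀ x ∈ D, g * x * g⁻¹ ∈ D := by
      intro g hg x hx
      rw [hD, Subgroup.mem_centralizer_iff] at hx ⊢
      intro y hy
      have h2 : g⁻¹ * y * g ∈ T := (Subgroup.mem_normalizer_iff''.1 hg y).1 hy
      have h3 := hx _ h2
      calc y * (g * x * g⁻¹) = g * ((g⁻¹ * y * g) * x) * g⁻¹ := by group
        _ = g * (x * (g⁻¹ * y * g)) * g⁻¹ := by rw [h3]
        _ = g * x * g⁻¹ * y := by group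
    constructor
    · exact key g hg x
    · intro hx
      have := key g⁻¹ (inv_mem hg) _ hx
      have e : g⁻¹ * (g * x * g⁻¹) * g⁻¹⁻¹ = x := by group
      rwa [e] at this
  have hTR : T ≤ (Cfsg.pCore 2 L).map L.subtype :=
    Cfsg.Agent.H49.le_pCoreOf Subgroup.le_normalizer le_rfl hT
  have hcD : c ∈ D := by
    rw [hD, Subgroup.mem_centralizer_iff]
    intro y hy
    exact Subgroup.mem_centralizer_iff.1 hcc y (hTR hy)
  have hcC : c ∈ C := by
    rw [hC, Subgroup.mem_centralizer_singleton_iff]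
    exact (Subgroup.mem_centralizer_iff.1 hcD t htT).symm
  have hnR : C ≤ Subgroup.normalizer (((Cfsg.pCore 2 C).map C.subtype : Subgroup G) : Set G) :=
    le_trans Subgroup.le_normalizer (Cfsg.Agent.H49.normalizer_le_normalizer_pCoreOf 2 C)
  have hRD : (Cfsg.pCore 2 C).map C.subtype ⊓ D ≤ (Cfsg.pCore 2 L).map L.subtype := by
    refine le_trans ?_ (Cfsg.Agent.H49.pCoreOf_le_pCoreOf hDL hLD)
    have hDC : D ≤ C := by
      intro x hx
      rw [hC, Subgroup.mem_centralizer_singleton_iff]
      exact (Subgroup.mem_centralizer_iff.1 hx t htT).symm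
    refine Cfsg.Agent.H49.le_pCoreOf inf_le_right ?_
      ((Cfsg.Agent.H49.isPGroup_pCoreOf 2 C).to_le inf_le_left)
    exact le_trans (le_inf (le_trans hDC hnR) Subgroup.le_normalizer)
      (Subgroup.inf_normalizer_le_normalizer_inf)
  have hcR : c ∈ Subgroup.centralizer (((Cfsg.pCore 2 C).map C.subtype : Subgroup G) : Set G) := by
    refine Cfsg.Agent.H49.thompson_AB hT hcop hcD _ (Cfsg.Agent.H49.isPGroup_pCoreOf 2 C)
      (le_trans hTC hnR) (hnR hcC) ?_
    rw [Subgroup.mem_centralizer_iff]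
    intro y hy
    exact Subgroup.mem_centralizer_iff.1 hcc y (hRD hy)
  have hc1 : (⟨c, hcC⟩ : C) ∈ Cfsg.pCore 2 C := by
    apply hCC
    rw [Subgroup.mem_centralizer_iff]
    intro y hy
    exact Subtype.ext (Subgroup.mem_centralizer_iff.1 hcR y ⟨y, hy, rfl⟩)
  have h3 := Cfsg.Agent.H49.eq_one_of_coprime_of_pGroup (Cfsg.Agent.H49.pCore_isPGroup (G := C) 2)
    hc1 (n := orderOf c) hcop (Subtype.ext (pow_orderOf_eq_one c))
  exact congrArg Subtype.val h3

end Cfsg.Agent.S0505
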