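import Cfsg.Statements.S1238
import Cfsg.Agent.H21.TFFus
import Cfsg.Agent.Fus.Group

set_option autoImplicit false
open Cfsg

namespace Cfsg.Agent.S1238

theorem d2' : Nonempty (Multiplicative (ZMod 2 × ZMod 2) ≃* DihedralGroup 2) := by
  have ha : (Multiplicative.ofAdd ((1, 0) : ZMod 2 × ZMod 2)) ^ 2 = 1 := by
    rw [← ofAdd_nsmul]
    exact congrArg Multiplicative.ofAdd (by decide : (2 : ℕ) • ((1, 0) : ZMod 2 × ZMod 2) = 0)
  have hb : (Multiplicative.ofAdd ((0, 1) : ZMod 2 × ZMod 2)) ^ 2 = 1 := by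
    rw [← ofAdd_nsmul]
    exact congrArg Multiplicative.ofAdd (by decide : (2 : ℕ) • ((0, 1) : ZMod 2 × ZMod 2) = 0)
  refine H56.dihedral_equiv (a := Multiplicative.ofAdd ((1, 0) : ZMod 2 × ZMod 2))
    (b := Multiplicative.ofAdd ((0, 1) : ZMod 2 × ZMod 2)) (by norm_num) ?_ ?_ hb ?_ ?_
  · have hne : Multiplicative.ofAdd ((1, 0) : ZMod 2 × ZMod 2) ≠ 1 := by
      intro h
      have h1 := congrArg (fun x => (Multiplicative.toAdd x).1) h
      exact absurd h1 (by decide)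
    have hp : Fact (Nat.Prime 2) := ⟨Nat.prime_two⟩
    exact orderOf_eq_prime ha hne
  · intro hb
    obtain ⟨k, hk⟩ := Subgroup.mem_zpowers_iff.1 hb
    have h1 : (Multiplicative.toAdd ((Multiplicative.ofAdd ((1, 0) : ZMod 2 × ZMod 2)) ^ k)).2 = 1 := by rw [hk]; rfl
    rw [toAdd_zpow] at h1
    simp at h1
  · rw [mul_comm, inv_mul_cancel_left]
    exact (inv_eq_of_mul_eq_one_left (by rw [← pow_two]; exact ha)).symm
  · rw [Nat.card_eq_fintype_card]; rfl

theorem d2 : Nonempty (Multiplicative (ZMod (2 ^ 1) × ZMod (2 ^ 1)) ≃* DihedralGroup 2) := d2'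

open Cfsg.FusionSystem Cfsg.Agent.Fus in
theorem center_bot {G : Type*} [Group G] [Finite G] (hiso : ∀ z : G, ¬ Cfsg.IsIsolatedInvolution z) (S : Sylow 2 G) :
    (groupFusionSystem (S : Subgroup G)).center = ⊥ := by
  haveI : Fact (Nat.Prime 2) := ⟨Nat.prime_two⟩
  have hSat := group_saturated (p := 2) S
  rw [eq_bot_iff]
  refine sSup_le fun Q hQ => ?_
  by_contra hne
  obtain ⟨hQS, hQ2⟩ := (isCentral_iff_singleton S.isPGroup' hSat).1 hQ
  -- an involution in `Q`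
  obtain ⟨x, hx, hx1⟩ := SetLike.not_le_iff_exists.1 hne
  rw [Subgroup.mem_bot] at hx1
  obtain ⟨k, hk⟩ := IsPGroup.iff_orderOf.1 S.isPGroup' ⟨x, hQS hx⟩
  rw [Subgroup.orderOf_mk] at hk
  have hk0 : k ≠ 0 := by
    rintro rfl
    rw [pow_zero, orderOf_eq_one_iff] at hk
    exact hx1 hk
  obtain ⟨k, rfl⟩ := Nat.exists_eq_succ_of_ne_zero hk0
  set z := x ^ 2 ^ k with hz
  have hz2 : orderOf z = 2 := by
    rw [hz, orderOf_pow' x (by positivity), hk, Nat.gcd_eq_right (pow_dvd_pow 2 (Nat.le_succ k)),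
      Nat.pow_div (Nat.le_succ k) (by norm_num)]
    simp
  have hzQ : z ∈ Q := Q.pow_mem hx _
  have hzS := hQS hzQ
  have hconj : ∀ g : G, g * z * g⁻¹ ∈ (S : Subgroup G) → g * z * g⁻¹ = z := by
    intro g hg
    apply hQ2 z hzQ
    rw [isConjElt_iff]
    refine ⟨fun y => g * y * g⁻¹, isMap_group.2 ⟨Subgroup.zpowers_le.2 hzS, ?_, g, fun _ _ => rfl⟩, rfl⟩
    intro y hy
    obtain ⟨m, rfl⟩ := Subgroup.mem_zpowers_iff.1 hy
    rw [← conj_zpow]
    exact Subgroup.zpow_mem _ hg m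
  apply hiso z
  refine ⟨hz2, fun g hc => ?_⟩
  set w := g * z * g⁻¹ with hw
  -- a Sylow subgroup containing `z` and `w`
  have hzz : z * z = 1 := by rw [← pow_two, ← hz2, pow_orderOf_eq_one]
  have hww : w * w = 1 := by
    have : w * w = g * (z * z) * g⁻¹ := by rw [hw]; group
    rw [this, hzz]; group
  let V := H21.TFus.four z w hzz hww hc.eq
  have hV : IsPGroup 2 V := by
    rintro ⟨y, hy⟩
    refine ⟨1, Subtype.ext ?_⟩
    show y ^ 2 ^ 1 = 1
    rw [pow_one, pow_two]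
    rcases H21.TFus.mem_four.1 hy with rfl | rfl | rfl | rfl
    · rw [one_mul]
    · exact hzz
    · exact hww
    · calc z * w * (z * w) = z * (w * z) * w := by group
        _ = z * (z * w) * w := by rw [hc.eq]
        _ = (z * z) * (w * w) := by group
        _ = 1 := by rw [hzz, hww, one_mul]
  obtain ⟨T, hT⟩ := hV.exists_le_sylow
  obtain ⟨h, hh⟩ := MulAction.exists_smul_eq G T S
  have hmem : ∀ y ∈ (T : Subgroup G), h * y * h⁻¹ ∈ (S : Subgroup G) := by
    intro y hy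
    rw [← hh]
    exact ⟨y, hy, rfl⟩
  have e1 := hconj h (hmem z (hT (H21.TFus.mem_four.2 (Or.inr (Or.inl rfl)))))
  have e2 : h * w * h⁻¹ = z := by
    have h3 := hmem w (hT (H21.TFus.mem_four.2 (Or.inr (Or.inr (Or.inl rfl)))))
    have h4 : h * w * h⁻¹ = (h * g) * z * (h * g)⁻¹ := by rw [hw]; group
    rw [h4] at h3 ⊢
    exact hconj _ h3
  have h5 : w = h⁻¹ * (h * w * h⁻¹) * h := by group
  have h6 : z = h⁻¹ * (h * z * h⁻¹) * h := by group
  rw [h5, e2]
  rw [e1] at h6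
  exact h6.symm

theorem rank_sylow {G : Type*} [Group G] [Finite G] (h2 : Cfsg.PRankLE 2 2 G) (h1 : ¬ Cfsg.PRankLE 2 1 G)
    (S : Sylow 2 G) : Cfsg.PRankAtLeast 2 2 (S : Subgroup G) ∧ ¬ Cfsg.PRankAtLeast 2 3 (S : Subgroup G) := by
  haveI : Fact (Nat.Prime 2) := ⟨Nat.prime_two⟩
  constructor
  · unfold Cfsg.PRankLE at h1
    push Not at h1
    obtain ⟨A, hA, hAe, hAc⟩ := h1
    have hAp : IsPGroup 2 A := fun a => ⟨1, Subtype.ext (by
      show (a : G) ^ 2 ^ 1 = 1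
      rw [pow_one]; exact hAe a a.2)⟩
    obtain ⟨T, hT⟩ := hAp.exists_le_sylow
    obtain ⟨h, hh⟩ := MulAction.exists_smul_eq G T S
    have hmem : ∀ y ∈ A, h * y * h⁻¹ ∈ (S : Subgroup G) := by
      intro y hy
      rw [← hh]
      exact ⟨y, hT hy, rfl⟩
    let f : A →* (S : Subgroup G) := MonoidHom.mk' (fun y => ⟨h * y * h⁻¹, hmem y y.2⟩) (by
      intro a b
      apply Subtype.ext
      show h * ((a : G) * b) * h⁻¹ = h * a * h⁻¹ * (h * b * h⁻¹)
      group)
    have hf : Function.Injective f := by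
      intro a b hab
      have : h * (a : G) * h⁻¹ = h * b * h⁻¹ := congrArg Subtype.val hab
      exact Subtype.ext (mul_left_cancel (mul_right_cancel this))
    refine ⟨f.range, ⟨⟨?_⟩⟩, ?_, ?_⟩
    · rintro ⟨_, a, rfl⟩ ⟨_, b, rfl⟩
      apply Subtype.ext
      show f a * f b = f b * f a
      rw [← map_mul, ← map_mul, hA.is_comm.comm a b]
    · rintro _ ⟨a, rfl⟩
      rw [← map_pow]
      have : a ^ 2 = 1 := Subtype.ext (hAe a a.2)
      rw [this, map_one]
    · have e : Nat.card f.range = Nat.card A := Nat.card_congr (MonoidHom.ofInjective hf).symm.toEquiv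
      rw [e]
      obtain ⟨n, hn⟩ := IsPGroup.iff_card.1 hAp
      rw [hn] at hAc ⊢
      exact Nat.pow_le_pow_right (by norm_num) ((Nat.pow_lt_pow_iff_right (by norm_num)).1 hAc)
  · rintro ⟨A, hA, hAe, hAc⟩
    have h3 := h2 (A.map (S : Subgroup G).subtype) ⟨⟨?_⟩⟩ ?_
    · rw [Nat.card_congr (Subgroup.equivMapOfInjective A _ (Subgroup.subtype_injective _)).symm.toEquiv] at h3
      norm_num at h3 hAc
      omega
    · rintro ⟨_, a, ha, rfl⟩ ⟨_, b, hb, rfl⟩
      apply Subtype.ext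
      show (a : G) * b = b * a
      exact congrArg (fun x : A => ((x : (S : Subgroup G)) : G)) (hA.is_comm.comm ⟨a, ha⟩ ⟨b, hb⟩)
    · rintro _ ⟨a, ha, rfl⟩
      exact congrArg Subtype.val (hAe a ha)

/-- Let G be a finite group of 2-rank 2 (a Klein four-subgroup but no elementary abelian subgroup of order 8) which is fusion simple: G has no subgroup of index 2 and no isolated involution. Let S be a Sylow 2-subgroup. Then S is dihedral, quasi-dihedral, wreathed, isomorphic to Z_{2^n} × Z_{2^n} for some n ≥ 2, or isomorphic to a Sylow 2-subgroup of PSU(3) over the field with 16 elements. -/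
theorem result {G : Type*} [Group G] [Finite G] (h2 : Cfsg.PRankLE 2 2 G) (h1 : ¬ Cfsg.PRankLE 2 1 G) (hidx : ∀ H : Subgroup G, H.index ≠ 2) (hiso : ∀ z : G, ¬ Cfsg.IsIsolatedInvolution z) (S : Sylow 2 G) {F : Type*} [Field F] [Fintype F] (hF : Fintype.card F = 16) (P : Sylow 2 (Cfsg.PSU 3 F 4)) : (∃ m : ℕ, 2 ≤ m ∧ Nonempty ((S : Subgroup G) ≃* DihedralGroup m)) ∨ Cfsg.IsQuasiDihedral (S : Subgroup G) ∨ Cfsg.IsWreathed (S : Subgroup G) ∨ (∃ n : ℕ, 2 ≤ n ∧ Nonempty ((S : Subgroup G) ≃* Multiplicative (ZMod (2 ^ n) × ZMod (2 ^ n)))) ∨ Nonempty ((S : Subgroup G) ≃* (P : Subgroup (Cfsg.PSU 3 F 4))) := by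
  haveI : Fact (Nat.Prime 2) := ⟨Nat.prime_two⟩
  obtain ⟨hr2, hr3⟩ := rank_sylow h2 h1 S
  rcases H21.TFus.main S.isPGroup' (Fus.group_saturated (p := 2) S) hr2 hr3 (center_bot hiso S) with h | h | h | ⟨Z, β, h⟩
  · exact Or.inl h
  · exact Or.inr (Or.inl h)
  · exact Or.inr (Or.inr (Or.inl h))
  · rcases h.final hF P with ⟨n, hn, ⟨e⟩⟩ | h
    · by_cases hn1 : n = 1
      · left
        subst hn1
        refine ⟨2, le_rfl, ?_⟩
        have hd := d2
        obtain ⟨d⟩ := hd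
        exact ⟨e.trans d⟩
      · right; right; right; left
        exact ⟨n, by omega, ⟨e⟩⟩
    · exact Or.inr (Or.inr (Or.inr (Or.inr h)))

end Cfsg.Agent.S1238
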