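import Cfsg.Statements.S0518
import Cfsg.Agent.S2954
import Cfsg.Agent.H48.KSEnd

set_option autoImplicit false
open Cfsg

namespace Cfsg.Agent.S0518

/-- Let G be a finite group of characteristic 2 type with trivial 2-core in which every 2-local subgroup is solvable
and, for every Sylow 2-subgroup S, the centralizer of the set of central involutions of S lies in the normalizer of S.
Then either G has a strongly embedded subgroup, or the subgroup generated by the elements of odd order has two distinct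
maximal 2-local subgroups, each isomorphic to the symmetric group of degree 4, whose intersection has order 8. -/
theorem result {G : Type*} [Group G] [Finite G]
    (hL : Cfsg.IsCharacteristicTwoType G) (hO : Cfsg.pCore 2 G = ⊥)
    (hN : ∀ N : Subgroup G, Cfsg.IsTwoLocal N → Group.IsSolvable N)
    (hZ : ∀ S : Sylow 2 G,
      Subgroup.centralizer {z : G | z ∈ (S : Subgroup G) ∧ z ^ 2 = 1 ∧ ∀ s ∈ (S : Subgroup G), s * z = z * s} ≤
        Subgroup.normalizer ((S : Subgroup G) : Set G))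
    (H : Subgroup G) (hH : H = Subgroup.closure {g : G | Odd (orderOf g)}) :
    (∃ K : Subgroup G, Cfsg.IsStronglyEmbedded K) ∨
      ∃ M₁ M₂ : Subgroup H, M₁ ≠ M₂ ∧ Cfsg.IsMaximalTwoLocal M₁ ∧ Cfsg.IsMaximalTwoLocal M₂ ∧
        Nonempty (M₁ ≃* Equiv.Perm (Fin 4)) ∧ Nonempty (M₂ ≃* Equiv.Perm (Fin 4)) ∧ Nat.card ↥(M₁ ⊓ M₂) = 8 := by
  classical
  obtain ⟨S⟩ : Nonempty (Sylow 2 G) := inferInstance
  have hS1 : (S : Subgroup G) ≠ ⊥ := by
    intro h0
    have h1 := S.not_dvd_index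
    rw [h0, Subgroup.index_bot] at h1
    exact h1 hL.1.two_dvd
  set M := Subgroup.normalizer (Cfsg.thompsonSubgroupOf 2 (S : Subgroup G) : Set G) with hM
  have hJ1 : Cfsg.thompsonSubgroupOf 2 (S : Subgroup G) ≠ ⊥ := H49.JC.JJ_ne_bot S.isPGroup' hS1
  have hJp : IsPGroup 2 (Cfsg.thompsonSubgroupOf 2 (S : Subgroup G)) :=
    S.isPGroup'.to_le H49.JC.JJ_le
  have hMl : Cfsg.IsTwoLocal M := ⟨_, hJp, hJ1, rfl⟩
  have c : H49.JC.MCtx S M := ⟨hO, hMl, le_rfl⟩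
  by_cases hst : Cfsg.straddlingTwoSubgroups M = ∅
  · exact Or.inl ⟨M, c.stronglyEmbedded_iff.2 hst⟩
  right
  have hZ' : ∀ S : Sylow 2 G, Subgroup.centralizer (Cfsg.omegaCenterOf (S : Subgroup G) : Set G) ≤
      Subgroup.normalizer ((S : Subgroup G) : Set G) := by
    intro S
    refine le_trans (Subgroup.centralizer_le ?_) (hZ S)
    rintro z ⟨hz, hz2, hzc⟩
    refine Subgroup.subset_closure ⟨⟨hz, ?_⟩, hz2⟩
    exact Subgroup.mem_centralizer_iff.2 (fun s hs => hzc s hs)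
  obtain ⟨T, hTs, hTmax⟩ : ∃ T ∈ Cfsg.straddlingTwoSubgroups M, ∀ T' ∈ Cfsg.straddlingTwoSubgroups M,
      toLex (Cfsg.maxElemAbelianOrder T', toLex (Nat.card ↥(Cfsg.thompsonSubgroupOf 2 T'), Nat.card ↥T')) ≤
      toLex (Cfsg.maxElemAbelianOrder T, toLex (Nat.card ↥(Cfsg.thompsonSubgroupOf 2 T), Nat.card ↥T)) :=
    Set.exists_max_image _ (fun T : Subgroup G => toLex (Cfsg.maxElemAbelianOrder T,
      toLex (Nat.card ↥(Cfsg.thompsonSubgroupOf 2 T), Nat.card ↥T))) (Set.toFinite _)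
      (Set.nonempty_iff_ne_empty.2 hst)
  have hT : T ∈ Cfsg.maxStraddlingTwoSubgroups M := by
    refine ⟨hTs, fun T' hT' => ?_⟩
    have h1 := hTmax T' hT'
    rw [Prod.Lex.toLex_le_toLex] at h1
    rcases h1 with h1 | ⟨h1, h2⟩
    · exact ⟨h1.le, fun h3 => absurd h3 h1.ne⟩
    · refine ⟨h1.le, fun _ => ?_⟩
      rw [Prod.Lex.toLex_le_toLex] at h2
      rcases h2 with h2 | ⟨h2, h3⟩
      · exact ⟨h2.le, fun h4 => absurd h4 h2.ne⟩
      · exact ⟨h2.le, fun _ => h3⟩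
  obtain ⟨P₁, P₂, hne, m₁, m₂, s₁, s₂, ⟨⟨φ₁⟩, ⟨φ₂⟩⟩ | ⟨⟨φ₁⟩, ⟨φ₂⟩⟩⟩ :=
    S2954.result hL hN hZ' hO S M hMl le_rfl T hT
  · exact H48.KS.final hH m₁ m₂ hne s₁ s₂ (C := Multiplicative (ZMod 1)) (Or.inl (by simp))
      (φ₁.trans MulEquiv.prodUnique.symm) (φ₂.trans MulEquiv.prodUnique.symm)
  · exact H48.KS.final hH m₁ m₂ hne s₁ s₂ (C := Multiplicative (ZMod 2)) (Or.inr (by simp)) φ₁ φ₂

end Cfsg.Agent.S0518
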