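import Cfsg.Statements.S0521
import Cfsg.Agent.H9.OddQuad

set_option autoImplicit false
open Cfsg

namespace Cfsg.Agent.S0521

open scoped commutatorElement in
/-- core case: trivial `p'`-core. -/
theorem core {X : Type*} [Group X] [Finite X] [Group.IsSolvable X]
    (hX : Odd (Nat.card X)) (p : ℕ) [Fact p.Prime] (hp2 : p ≠ 2) (S : Sylow p X)
    (hS : IsCyclic (commutator (S : Subgroup X))) (hO : Cfsg.pPrimeCore p X = ⊥) :
    (S : Subgroup X) ≤ Cfsg.pCore p X := by
  have hp : p.Prime := Fact.out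
  intro x hx
  set R := pCore p X with hR
  have hRp : IsPGroup p R := Agent.Solv.pCore_isPGroup p
  have hRS : R ≤ S := Agent.Solv.pCore_le_sylow S
  apply Agent.H9.mem_pCore_of_quad_frattini hp2 hX (Agent.H91.centralizer_pCore_le p hO)
  rw [← hR]
  set Φ : Subgroup X := (frattini R).map R.subtype with hΦ
  have hΦR : Φ ≤ R := Subgroup.map_subtype_le _
  have hΦn : Φ.Normal := by
    have h1 := Agent.H49.normalizer_le_normalizer_map_of_char R (frattini R)
    have h2 : Subgroup.normalizer (R : Set X) = ⊤ := Subgroup.normalizer_eq_top_iff.2 inferInstance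
    rw [h2, top_le_iff, Subgroup.normalizer_eq_top_iff] at h1
    exact h1
  let π := QuotientGroup.mk' Φ
  have hπ : Function.Surjective π := QuotientGroup.mk'_surjective Φ
  -- the commutator subgroup of S inside X
  set D : Subgroup X := (commutator (S : Subgroup X)).map (S : Subgroup X).subtype with hD
  have hDc : IsCyclic D := by
    obtain ⟨g, hg⟩ := hS.exists_generator
    have e := ((commutator (S : Subgroup X)).equivMapOfInjective (S : Subgroup X).subtype
      (S : Subgroup X).subtype_injective)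
    exact isCyclic_of_surjective e e.surjective
  have hDmem : ∀ a ∈ (S : Subgroup X), ∀ b ∈ (S : Subgroup X), a * b * a⁻¹ * b⁻¹ ∈ D := by
    intro a ha b hb
    refine ⟨⁅(⟨a, ha⟩ : (S : Subgroup X)), ⟨b, hb⟩⁆,
      Subgroup.commutator_mem_commutator (Subgroup.mem_top _) (Subgroup.mem_top _), rfl⟩
  have hDS : ∀ a ∈ (S : Subgroup X), ∀ d ∈ D, a * d * a⁻¹ ∈ D := by
    rintro a ha _ ⟨d, hd, rfl⟩
    refine ⟨⟨a, ha⟩ * d * ⟨a, ha⟩⁻¹, ?_, rfl⟩
    exact (inferInstance : (commutator (S : Subgroup X)).Normal).conj_mem d hd _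
  set L : Subgroup X := D ⊓ R with hL
  have hLc : IsCyclic L := by
    haveI := hDc
    have : Function.Injective (Subgroup.inclusion (inf_le_left : D ⊓ R ≤ D)) := Subgroup.inclusion_injective _
    exact isCyclic_of_injective _ this
  let Lb : Subgroup (X ⧸ Φ) := L.map π
  have hLbc : IsCyclic Lb := by
    haveI := hLc
    let f : L →* Lb := (π.subgroupMap L)
    exact isCyclic_of_surjective f (MonoidHom.subgroupMap_surjective π L)
  have hRpow : ∀ u ∈ R, u ^ p ∈ Φ := by
    intro u hu
    refine ⟨⟨u, hu⟩ ^ p, Agent.Solv.pow_mem_frattini_of_pGroup hRp _, rfl⟩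
  have hLbpow : ∀ u ∈ Lb, u ^ p = 1 := by
    rintro _ ⟨u, hu, rfl⟩
    rw [← map_pow]
    exact (QuotientGroup.eq_one_iff _).2 (hRpow u hu.2)
  have hcard : Nat.card Lb ∣ p := by
    obtain ⟨g, hg⟩ := hLbc.exists_generator
    have h1 : orderOf g = Nat.card Lb := orderOf_eq_card_of_forall_mem_zpowers hg
    rw [← h1]
    apply orderOf_dvd_of_pow_eq_one
    exact Subtype.ext (hLbpow g g.2)
  let Sb : Subgroup (X ⧸ Φ) := (S : Subgroup X).map π
  have hSbp : IsPGroup p Sb := S.isPGroup'.map π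
  have hLbSb : Lb ≤ Sb := Subgroup.map_mono (inf_le_right.trans hRS)
  have hcent : ∀ s ∈ Sb, ∀ l ∈ Lb, s * l = l * s := by
    rcases (Nat.dvd_prime hp).1 hcard with h1 | h1
    · intro s _ l hl
      have h2 : Lb = ⊥ := Subgroup.card_eq_one.1 h1
      rw [h2, Subgroup.mem_bot] at hl
      rw [hl, mul_one, one_mul]
    · have hn : (Lb.subgroupOf Sb).Normal := by
        constructor
        rintro ⟨l, hl'⟩ hl ⟨s, hs⟩
        obtain ⟨l0, hl0, rfl⟩ := (Subgroup.mem_subgroupOf.1 hl : l ∈ Lb)
        obtain ⟨s0, hs0, rfl⟩ := hs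
        refine Subgroup.mem_subgroupOf.2 ⟨s0 * l0 * s0⁻¹, ⟨hDS s0 hs0 l0 hl0.1, ?_⟩, by simp [map_mul, map_inv]⟩
        exact (inferInstance : R.Normal).conj_mem l0 hl0.2 s0
      have h2 : Nat.card (Lb.subgroupOf Sb) = p := by
        rw [Nat.card_congr (Subgroup.subgroupOfEquivOfLe hLbSb).toEquiv, h1]
      have h3 := Agent.H63.le_center_of_card_eq_prime hSbp (Lb.subgroupOf Sb) h2
      intro s hs l hl
      have h4 := h3 (Subgroup.mem_subgroupOf.2 hl : (⟨l, hLbSb hl⟩ : Sb) ∈ Lb.subgroupOf Sb)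
      rw [Subgroup.mem_center_iff] at h4
      exact congrArg Subtype.val (h4 ⟨s, hs⟩)
  intro u hu
  have h1 : x * u * x⁻¹ * u⁻¹ ∈ L := by
    refine ⟨hDmem x hx u (hRS hu), ?_⟩
    exact R.mul_mem ((inferInstance : R.Normal).conj_mem u hu x) (R.inv_mem hu)
  have h2 := hcent (π x) ⟨x, hx, rfl⟩ (π (x * u * x⁻¹ * u⁻¹)) ⟨_, h1, rfl⟩
  rw [← QuotientGroup.eq_one_iff]
  change π _ = 1
  rw [map_mul, map_mul, map_mul, h2, map_inv, map_inv]
  group


/-- Let X be a finite solvable group of odd order, p a prime and S a Sylow p-subgroup of X whose commutator subgroup is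
cyclic. Then the product of the largest normal subgroup of X of order prime to p with S is a normal subgroup of X. -/
theorem result {X : Type*} [Group X] [Finite X] [Group.IsSolvable X]
    (hX : Odd (Nat.card X)) (p : ℕ) [Fact p.Prime] (S : Sylow p X) (hS : IsCyclic (commutator (S : Subgroup X))) :
    (Cfsg.pPrimeCore p X ⊔ (S : Subgroup X)).Normal := by
  by_cases hp2 : p = 2
  · have h1 : (S : Subgroup X) = ⊥ := by
      subst hp2
      rw [← Subgroup.card_eq_one]
      obtain ⟨n, hn⟩ := IsPGroup.iff_card.1 S.isPGroup'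
      have h2 : Nat.card S ∣ Nat.card X := Subgroup.card_subgroup_dvd_card _
      rcases n with _ | n
      · rw [hn, pow_zero]
      · exfalso
        rw [hn, pow_succ] at h2
        have h3 : 2 ∣ Nat.card X := (dvd_mul_left 2 _).trans h2
        exact (Nat.not_even_iff_odd.2 hX) (even_iff_two_dvd.2 h3)
    rw [h1, sup_bot_eq]
    infer_instance
  set N := Cfsg.pPrimeCore p X with hN
  have hsurj : Function.Surjective (QuotientGroup.mk' N) := QuotientGroup.mk'_surjective N
  have h1 : Cfsg.pPrimeCore p (X ⧸ N) = ⊥ := Agent.Solv.pPrimeCore_quotient_pPrimeCore p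
  let Q : Sylow p (X ⧸ N) := S.mapSurjective hsurj
  have hQ : (Q : Subgroup (X ⧸ N)) = (S : Subgroup X).map (QuotientGroup.mk' N) := rfl
  have hodd : Odd (Nat.card (X ⧸ N)) := by
    have h1 : Nat.card X = Nat.card (X ⧸ N) * Nat.card N := Subgroup.card_eq_card_quotient_mul_card_subgroup N
    rw [h1] at hX
    exact (Nat.odd_mul.1 hX).1
  have hQc : IsCyclic (commutator (Q : Subgroup (X ⧸ N))) := by
    let f : (S : Subgroup X) →* (Q : Subgroup (X ⧸ N)) := (QuotientGroup.mk' N).subgroupMap (S : Subgroup X)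
    have hf : Function.Surjective f := MonoidHom.subgroupMap_surjective _ _
    have h3 : (commutator (S : Subgroup X)).map f = commutator (Q : Subgroup (X ⧸ N)) := by
      rw [commutator_def, commutator_def, Subgroup.map_commutator, Subgroup.map_top_of_surjective f hf]
    rw [← h3]
    haveI := hS
    exact isCyclic_of_surjective (f.subgroupMap _) (MonoidHom.subgroupMap_surjective _ _)
  have h2 : Cfsg.pCore p (X ⧸ N) ≤ Q := Agent.Solv.pCore_le_sylow Q
  have h4 : (Q : Subgroup (X ⧸ N)) = Cfsg.pCore p (X ⧸ N) :=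
    le_antisymm (core hodd p hp2 Q hQc h1) h2
  have h5 : N ⊔ (S : Subgroup X) = (Cfsg.pCore p (X ⧸ N)).comap (QuotientGroup.mk' N) := by
    rw [← h4, hQ, Subgroup.comap_map_eq, QuotientGroup.ker_mk', sup_comm]
  rw [h5]
  infer_instance

end Cfsg.Agent.S0521
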