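import Cfsg.Statements.S0522
import Cfsg.Agent.H9.OddTrans2

set_option autoImplicit false
open Cfsg

namespace Cfsg.Agent.S0522

/-- Transitivity Theorem (odd-order setting). Let X be a finite group of odd order in which the normalizer of every
nontrivial p-subgroup is solvable, P a Sylow p-subgroup, and B an abelian subgroup of P, normalized by P, with
C_P(B) = B and containing an elementary abelian subgroup of order p^3. Then for every prime q ≠ p, any two q-subgroups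
that are maximal among the q-subgroups normalized by B are conjugate by an element of the centralizer of B. -/
theorem result {X : Type*} [Group X] [Finite X] (hX : Odd (Nat.card X)) (p : ℕ)
    [Fact p.Prime] (hloc : ∀ T : Subgroup X, IsPGroup p T → T ≠ ⊥ → Group.IsSolvable (Subgroup.normalizer (T : Set X)))
    (P : Sylow p X) (B : Subgroup X) (hBP : B ≤ (P : Subgroup X))
    (hBn : ∀ x ∈ (P : Subgroup X), ∀ b ∈ B, x * b * x⁻¹ ∈ B) (hBa : IsMulCommutative B)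
    (hBc : (P : Subgroup X) ⊓ Subgroup.centralizer (B : Set X) = B)
    (hB3 : ∃ E : Subgroup X, E ≤ B ∧ (∀ e ∈ E, e ^ p = 1) ∧ p ^ 3 ≤ Nat.card E)
    (q : ℕ) [Fact q.Prime] (hqp : q ≠ p) (Q₁ Q₂ : Subgroup X)
    (h₁ : IsPGroup q Q₁ ∧ B ≤ Subgroup.normalizer (Q₁ : Set X) ∧
      ∀ R : Subgroup X, IsPGroup q R → B ≤ Subgroup.normalizer (R : Set X) → Q₁ ≤ R → R = Q₁)
    (h₂ : IsPGroup q Q₂ ∧ B ≤ Subgroup.normalizer (Q₂ : Set X) ∧
      ∀ R : Subgroup X, IsPGroup q R → B ≤ Subgroup.normalizer (R : Set X) → Q₂ ≤ R → R = Q₂) :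
    ∃ c ∈ Subgroup.centralizer (B : Set X), Q₂ = Q₁.map (MulAut.conj c).toMonoidHom := by
  have hp : p.Prime := Fact.out
  have hBa' : ∀ a ∈ B, ∀ b ∈ B, a * b = b * a := by
    intro a ha b hb
    exact congrArg Subtype.val (hBa.is_comm.comm (⟨a, ha⟩ : B) ⟨b, hb⟩)
  have hBc' : ∀ s ∈ (P : Subgroup X), (∀ b ∈ B, s * b = b * s) → s ∈ B := by
    intro s hs h
    rw [← hBc]
    refine Subgroup.mem_inf.2 ⟨hs, ?_⟩
    rw [Subgroup.mem_centralizer_iff]
    intro b hb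
    exact (h b hb).symm
  have hBp : IsPGroup p B := P.isPGroup'.to_le hBP
  obtain ⟨E, hEB, hEp, hEc⟩ := hB3
  have hE : Cfsg.IsElementaryAbelian p E := by
    refine ⟨⟨⟨fun a b => Subtype.ext (hBa' a (hEB a.2) b (hEB b.2))⟩⟩, hEp⟩
  have hp2 : p ≠ 2 := by
    rintro rfl
    have h1 : Nat.card E ∣ Nat.card X := Subgroup.card_subgroup_dvd_card E
    obtain ⟨n, hn⟩ := IsPGroup.iff_card.1 (hBp.to_le hEB)
    rcases n with _ | n
    · rw [hn] at hEc; norm_num at hEc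
    · rw [hn, pow_succ] at h1
      have h3 : 2 ∣ Nat.card X := (dvd_mul_left 2 _).trans h1
      exact (Nat.not_even_iff_odd.2 hX) (even_iff_two_dvd.2 h3)
  -- Omega
  let Ω : Subgroup X :=
    { carrier := {x | x ∈ B ∧ x ^ p = 1}
      mul_mem' := by
        rintro a b ⟨ha, ha'⟩ ⟨hb, hb'⟩
        refine ⟨mul_mem ha hb, ?_⟩
        have hc : Commute a b := hBa' a ha b hb
        rw [hc.mul_pow, ha', hb', one_mul]
      one_mem' := ⟨one_mem _, one_pow _⟩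
      inv_mem' := by
        rintro a ⟨ha, ha'⟩
        exact ⟨inv_mem ha, by rw [inv_pow, ha', inv_one]⟩ }
  have hEΩ : E ≤ Ω := fun e he => ⟨hEB he, hEp e he⟩
  have hΩB : Ω ≤ B := fun x hx => hx.1
  have hΩn : (Ω.subgroupOf (P : Subgroup X)).Normal := by
    constructor
    intro x hx g
    have hx' : (x : X) ∈ Ω := hx
    refine (⟨hBn g g.2 x hx'.1, ?_⟩ : (g : X) * x * (g : X)⁻¹ ∈ Ω)
    rw [conj_pow, hx'.2, mul_one, mul_inv_cancel]
  have hΩcard : p ^ 2 ≤ Nat.card (Ω.subgroupOf (P : Subgroup X)) := by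
    rw [Nat.card_congr (Subgroup.subgroupOfEquivOfLe (hΩB.trans hBP)).toEquiv]
    calc p ^ 2 ≤ p ^ 3 := Nat.pow_le_pow_right hp.pos (by norm_num)
      _ ≤ Nat.card E := hEc
      _ ≤ Nat.card Ω := Subgroup.card_le_of_le hEΩ
  obtain ⟨M, hMn, hMΩ, hMc⟩ := Cfsg.Agent.H23.exists_normal_le_card_eq P.isPGroup' hΩn 2 hΩcard
  let B0 : Subgroup X := M.map (P : Subgroup X).subtype
  have hB0Ω : B0 ≤ Ω := by
    rintro _ ⟨m, hm, rfl⟩
    exact hMΩ hm
  have hB0c : Nat.card B0 = p ^ 2 := by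
    rw [Subgroup.card_map_of_injective (Subgroup.subtype_injective _), hMc]
  have hB0 : Cfsg.IsElementaryAbelian p B0 :=
    ⟨⟨⟨fun a b => Subtype.ext (hBa' a (hΩB (hB0Ω a.2)) b (hΩB (hB0Ω b.2)))⟩⟩, fun a ha => (hB0Ω ha).2⟩
  have hB0n : ∀ x ∈ (P : Subgroup X), ∀ b ∈ B0, x * b * x⁻¹ ∈ B0 := by
    rintro x hx _ ⟨m, hm, rfl⟩
    exact ⟨⟨x, hx⟩ * m * ⟨x, hx⟩⁻¹, hMn.conj_mem m hm _, rfl⟩
  obtain ⟨c, hc, hcQ⟩ := Cfsg.Agent.H9.transitivity (p := p) hBp hBa' hEB hE hEc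
    (fun a ha ha1 K hKD hKB hK => Cfsg.Agent.H9.le_th_of_invariant hp2 hX hloc P B hBP hBn hBa' hBc' B0
      (hB0Ω.trans hΩB) hB0 hB0c hB0n ha ha1 hKD hKB hK) hqp (Q₁ := Q₁) (Q₂ := Q₂) h₁ h₂
  refine ⟨c, ?_, hcQ.symm⟩
  rw [Subgroup.mem_centralizer_iff]
  exact hc

end Cfsg.Agent.S0522
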