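import Cfsg.Statements.S0530
import Cfsg.Agent.Supersolvable.Criteria

set_option autoImplicit false
open Cfsg

namespace Cfsg.Agent.S0530

/-- A finite group whose order is twice a prime power is supersolvable. -/
theorem result {G : Type*} [Group G] [Finite G] (p n : ℕ) (hp : p.Prime) (hG : Nat.card G = 2 * p ^ n) : Cfsg.IsSupersolvable G := by
  exact Cfsg.Agent.Supersolvable.of_card_eq_two_mul_prime_pow p hp n hG

end Cfsg.Agent.S0530
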