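import Cfsg.Statements.S0534
import Cfsg.Agent.Supersolvable.Criteria
import Cfsg.Agent.Hall.Hall

set_option autoImplicit false
open Cfsg

namespace Cfsg.Agent.S0534

/-- Let G be a finite solvable group and A a finite abelian group such that every prime dividing the order of A divides the order of G and, for each prime p dividing the order of G, the exponent of p in the order of A is one less than its exponent in the order of G. Then G × A has a subgroup of every order dividing its order. -/
theorem result {G A : Type*} [Group G] [CommGroup A] [Finite G] [Finite A] [Group.IsSolvable G] (hA : ∀ p : ℕ, p.Prime → p ∣ Nat.card A → p ∣ Nat.card G) (hexp : ∀ p : ℕ, p.Prime → p ∣ Nat.card G → (Nat.card A).factorization p + 1 = (Nat.card G).factorization p) : Cfsg.HasSubgroupOfEveryOrder (G × A) := by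
  classical
  intro d hd
  rw [Nat.card_prod] at hd
  set g := Nat.card G with hg
  set a := Nat.card A with ha
  have hg0 : g ≠ 0 := Nat.card_pos.ne'
  have ha0 : a ≠ 0 := Nat.card_pos.ne'
  have hd0 : d ≠ 0 := by
    rintro rfl
    exact (mul_ne_zero hg0 ha0) (Nat.eq_zero_of_zero_dvd hd)
  let f : ℕ →₀ ℕ := g.factorization.filter (fun p => g.factorization p ≤ d.factorization p)
  have hfle : f ≤ g.factorization := by
    intro p
    show (g.factorization.filter _) p ≤ _
    rw [Finsupp.filter_apply]
    split_ifs
    · exact le_rfl
    · exact Nat.zero_le _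
  have hfsupp : ∀ p ∈ f.support, p.Prime := by
    intro p hp
    have h1 : p ∈ g.factorization.support := Finsupp.support_mono hfle hp
    exact Nat.prime_of_mem_primeFactors (by simpa using h1)
  set m := f.prod (· ^ ·) with hm
  have hmf : m.factorization = f := Nat.prod_pow_factorization_eq_self hfsupp
  have hm0 : m ≠ 0 := by
    rw [hm, Finsupp.prod]
    exact Finset.prod_ne_zero_iff.2 (fun p hp => pow_ne_zero _ (hfsupp p hp).ne_zero)
  have hmg : m ∣ g := (Nat.factorization_le_iff_dvd hm0 hg0).1 (by rw [hmf]; exact hfle)
  have hmd : m ∣ d := by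
    refine (Nat.factorization_le_iff_dvd hm0 hd0).1 ?_
    rw [hmf]
    intro p
    show (g.factorization.filter _) p ≤ _
    rw [Finsupp.filter_apply]
    split_ifs with h
    · exact h
    · exact Nat.zero_le _
  obtain ⟨k, hk⟩ := hmg
  obtain ⟨e, he⟩ := hmd
  have hk0 : k ≠ 0 := by rintro rfl; exact hg0 (by rw [hk, mul_zero])
  have he0 : e ≠ 0 := by rintro rfl; exact hd0 (by rw [he, mul_zero])
  have hcop : m.Coprime k := by
    rw [Nat.coprime_iff_gcd_eq_one]
    by_contra hne
    obtain ⟨p, hp, hpd⟩ := Nat.exists_prime_and_dvd hne
    have h1 : p ∣ m := dvd_trans hpd (Nat.gcd_dvd_left _ _)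
    have h2 : p ∣ k := dvd_trans hpd (Nat.gcd_dvd_right _ _)
    have h3 : g.factorization p = m.factorization p + k.factorization p := by
      rw [hk, Nat.factorization_mul hm0 hk0, Finsupp.add_apply]
    have h4 : 0 < k.factorization p := hp.factorization_pos_of_dvd hk0 h2
    have h5 : 0 < m.factorization p := hp.factorization_pos_of_dvd hm0 h1
    rw [hmf] at h3 h5
    have h6 : f p = if g.factorization p ≤ d.factorization p then g.factorization p else 0 :=
      Finsupp.filter_apply _ _ _
    rw [h6] at h3 h5
    split_ifs at h3 h5 <;> omega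
  obtain ⟨H, hH⟩ := Cfsg.Agent.Hall.hall_exists (G := G) m k hk hcop
  have hea : e ∣ a := by
    refine (Nat.factorization_le_iff_dvd he0 ha0).1 ?_
    intro p
    have h1 : d.factorization p = f p + e.factorization p := by
      rw [he, Nat.factorization_mul hm0 he0, Finsupp.add_apply, hmf]
    have h2 : d.factorization p ≤ g.factorization p + a.factorization p := by
      have := (Nat.factorization_le_iff_dvd hd0 (mul_ne_zero hg0 ha0)).2 hd p
      rwa [Nat.factorization_mul hg0 ha0, Finsupp.add_apply] at this
    have h6 : f p = if g.factorization p ≤ d.factorization p then g.factorization p else 0 :=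
      Finsupp.filter_apply _ _ _
    rw [h6] at h1
    by_cases hp : p.Prime
    · by_cases hpg : p ∣ g
      · have h7 := hexp p hp hpg
        split_ifs at h1 <;> omega
      · have h8 : g.factorization p = 0 := Nat.factorization_eq_zero_of_not_dvd hpg
        have h9 : a.factorization p = 0 :=
          Nat.factorization_eq_zero_of_not_dvd (fun h => hpg (hA p hp h))
        omega
    · rw [Nat.factorization_eq_zero_of_not_prime _ hp]
      exact Nat.zero_le _
  have hAs : Cfsg.IsSupersolvable A := Cfsg.Agent.Supersolvable.of_isNilpotent inferInstance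
  obtain ⟨B, hB⟩ := Cfsg.Agent.Supersolvable.hasSubgroupOfEveryOrder hAs e hea
  refine ⟨H.prod B, ?_⟩
  rw [Nat.card_congr (H.prodEquiv B).toEquiv, Nat.card_prod, hH, hB, he]

end Cfsg.Agent.S0534
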