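import Cfsg.Statements.S0535
import Cfsg.Agent.S0006

set_option autoImplicit false
open Cfsg

namespace Cfsg.Agent.S0535

/-- Suppose that for every nontrivial subgroup H of a finite group and every prime p dividing the order of H there is a proper subgroup of H whose index in H is a power of p. Then the group is solvable. -/
theorem result {G : Type*} [Group G] [Finite G] (h : ∀ H : Subgroup G, H ≠ ⊥ → ∀ p : ℕ, p.Prime → p ∣ Nat.card H → ∃ K : Subgroup H, K ≠ ⊤ ∧ ∃ k : ℕ, K.index = p ^ k) : Group.IsSolvable G := by
  apply Cfsg.Agent.S0006.result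
  intro p hp
  have key : ∀ n : ℕ, ∀ H : Subgroup G, Nat.card H ≤ n → (∃ k, H.index = p ^ k) →
      ∃ K : Subgroup G, (∃ k, K.index = p ^ k) ∧ ¬ p ∣ Nat.card K := by
    intro n
    induction n with
    | zero =>
      intro H hH _
      exact absurd (Nat.card_pos (α := H)) (by omega)
    | succ n ih =>
      intro H hH ⟨k, hk⟩
      by_cases hpd : p ∣ Nat.card H
      · have hne : H ≠ ⊥ := by
          rintro rfl
          rw [Subgroup.card_bot] at hpd
          exact hp.one_lt.ne' (Nat.dvd_one.1 hpd)
        obtain ⟨K, hK, j, hj⟩ := h H hne p hp hpd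
        have hcard : Nat.card (K.map H.subtype) = Nat.card K :=
          Subgroup.card_map_of_injective H.subtype_injective
        have hlt : Nat.card K < Nat.card H := by
          apply lt_of_le_of_ne (Subgroup.card_le_card_group K)
          intro e
          exact hK (Subgroup.eq_top_of_card_eq K e)
        apply ih (K.map H.subtype) (by omega)
        refine ⟨j + k, ?_⟩
        have h1 : (K.map H.subtype).index * Nat.card (K.map H.subtype) = Nat.card G :=
          Subgroup.index_mul_card _
        have h2 : H.index * Nat.card H = Nat.card G := Subgroup.index_mul_card _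
        have h3 : K.index * Nat.card K = Nat.card H := Subgroup.index_mul_card _
        have h4 : 0 < Nat.card K := Nat.card_pos
        have : (K.map H.subtype).index * Nat.card K = (p ^ (j + k)) * Nat.card K := by
          rw [hcard] at h1
          rw [h1, ← h2, hk, ← h3, hj]; ring
        exact Nat.eq_of_mul_eq_mul_right h4 this
      · exact ⟨H, ⟨k, hk⟩, hpd⟩
  obtain ⟨K, ⟨k, hk⟩, hpK⟩ := key (Nat.card G) ⊤ (by simp) ⟨0, by simp⟩
  refine ⟨K, ?_⟩
  have h1 : K.index * Nat.card K = Nat.card G := Subgroup.index_mul_card _
  have h2 : (Nat.card G).factorization p = k := by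
    rw [← h1, hk, Nat.factorization_mul (pow_ne_zero _ hp.ne_zero) Nat.card_pos.ne']
    simp [Nat.factorization_eq_zero_of_not_dvd hpK, hp.factorization_pow]
  rw [h2, hk]

end Cfsg.Agent.S0535
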