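import Cfsg.Statements.S0536
import Cfsg.Agent.H52.Basic
import Cfsg.Agent.H52.Schmidt

set_option autoImplicit false
open Cfsg

namespace Cfsg.Agent.S0536

/-- Structure of minimal non-nilpotent groups: if a finite group is not nilpotent but all its proper subgroups are, then there are distinct primes p and q, a cyclic Sylow p-subgroup P and a normal Sylow q-subgroup Q with G generated by P and Q. -/
theorem result {G : Type*} [Group G] [Finite G] (hG : Cfsg.IsMinimalNonNilpotent G) : ∃ p q : ℕ, p.Prime ∧ q.Prime ∧ p ≠ q ∧ ∃ (P : Sylow p G) (Q : Sylow q G), IsCyclic P ∧ (Q : Subgroup G).Normal ∧ (P : Subgroup G) ⊔ Q = ⊤ := by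
  obtain ⟨p, q, x, Q, hp, hq, hpq, hQn, hQp, ⟨k, hk⟩, htop, -⟩ := Cfsg.Agent.H52.schmidt_structure hG
  have : Fact p.Prime := ⟨hp⟩
  have : Fact q.Prime := ⟨hq⟩
  obtain ⟨m, hm⟩ := IsPGroup.iff_card.mp hQp
  have hcx : Nat.card (Subgroup.zpowers x) = p ^ k := by rw [Nat.card_zpowers, hk]
  have hcop : (Nat.card Q).Coprime (Nat.card (Subgroup.zpowers x)) := by
    rw [hm, hcx]
    exact Nat.Coprime.pow _ _ ((Nat.coprime_primes hq hp).mpr hpq.symm)
  have hdis : Q ⊓ Subgroup.zpowers x = ⊥ := (Subgroup.disjoint_of_coprime_natCard hcop).eq_bot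
  have hcard : Nat.card G = q ^ m * p ^ k := by
    have := Cfsg.Agent.H52.card_eq_mul_of_factor (⊤ : Subgroup G) Q (Subgroup.zpowers x) le_top le_top hdis (by
      intro g _
      have hg : g ∈ Q ⊔ Subgroup.zpowers x := by rw [htop]; trivial
      rw [← SetLike.mem_coe, Subgroup.normal_mul] at hg
      obtain ⟨u, hu, v, hv, rfl⟩ := hg
      exact ⟨u, hu, v, hv, rfl⟩)
    rw [Subgroup.card_top, hm, hcx] at this
    exact this
  have hQi : Q.index = p ^ k := by
    have := Q.card_mul_index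
    rw [hm, hcard] at this
    exact Nat.eq_of_mul_eq_mul_left (pow_pos hq.pos m) this
  have hxi : (Subgroup.zpowers x).index = q ^ m := by
    have := (Subgroup.zpowers x).card_mul_index
    rw [hcx, hcard, mul_comm (q ^ m)] at this
    exact Nat.eq_of_mul_eq_mul_left (pow_pos hp.pos k) this
  have hQi' : ¬ q ∣ Q.index := by
    rw [hQi]; intro h
    exact hpq ((Nat.prime_dvd_prime_iff_eq hq hp).mp (hq.dvd_of_dvd_pow h)).symm
  have hxi' : ¬ p ∣ (Subgroup.zpowers x).index := by
    rw [hxi]; intro h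
    exact hpq ((Nat.prime_dvd_prime_iff_eq hp hq).mp (hp.dvd_of_dvd_pow h))
  have hxp : IsPGroup p (Subgroup.zpowers x) := IsPGroup.of_card hcx
  refine ⟨p, q, hp, hq, hpq, hxp.toSylow hxi', hQp.toSylow hQi', ?_, hQn, ?_⟩
  · change IsCyclic (Subgroup.zpowers x)
    infer_instance
  · change Subgroup.zpowers x ⊔ Q = ⊤
    rw [sup_comm]; exact htop

end Cfsg.Agent.S0536
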