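import Cfsg.Statements.S0537
import Cfsg.Agent.S0536
import Cfsg.Agent.H91.CoprimeAb

set_option autoImplicit false
open Cfsg

namespace Cfsg.Agent.S0537

/-- A finite non-abelian group in which every proper subgroup is abelian is either of prime-power order, or is generated by a cyclic Sylow p-subgroup and a normal Sylow q-subgroup that is elementary abelian, for distinct primes p and q. -/
theorem result {G : Type*} [Group G] [Finite G] (hna : ¬ IsMulCommutative G) (h : ∀ H : Subgroup G, H ≠ ⊤ → IsMulCommutative H) : (∃ p : ℕ, p.Prime ∧ IsPGroup p G) ∨ ∃ p q : ℕ, p.Prime ∧ q.Prime ∧ p ≠ q ∧ ∃ (P : Sylow p G) (Q : Sylow q G), IsCyclic P ∧ (Q : Subgroup G).Normal ∧ Cfsg.IsElementaryAbelian q (Q : Subgroup G) ∧ (P : Subgroup G) ⊔ Q = ⊤ := by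
  by_cases hpg : ∃ p : ℕ, p.Prime ∧ IsPGroup p G
  · exact Or.inl hpg
  right
  by_cases hnil : Group.IsNilpotent G
  · exfalso
    apply hna
    obtain ⟨e⟩ := ((Group.isNilpotent_of_finite_tfae (G := G)).out 0 4).1 hnil
    have hab : ∀ x y : ((p : (Nat.card G).primeFactors) → (P : Sylow p G) → P), x * y = y * x := by
      intro x y
      funext p P
      have hp : Fact (p : ℕ).Prime := ⟨Nat.prime_of_mem_primeFactors p.2⟩
      have hP : (P : Subgroup G) ≠ ⊤ := by
        intro hP
        apply hpg
        refine ⟨p, hp.1, ?_⟩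
        have h1 := P.isPGroup'
        rw [hP] at h1
        exact h1.of_equiv Subgroup.topEquiv
      have h2 := h _ hP
      exact h2.is_comm.comm (x p P) (y p P)
    constructor
    constructor
    intro a b
    have := hab (e.symm a) (e.symm b)
    simpa using congrArg e this
  · have hmin : Cfsg.IsMinimalNonNilpotent G := by
      refine ⟨hnil, fun H hH => ?_⟩
      have := h H hH
      letI : CommGroup H := { (inferInstance : Group H) with mul_comm := this.is_comm.comm }
      exact CommGroup.isNilpotent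
    obtain ⟨p, q, hp, hq, hpq, P, Q, hPc, hQn, hPQ⟩ := Cfsg.Agent.S0536.result hmin
    haveI : Fact p.Prime := ⟨hp⟩
    haveI : Fact q.Prime := ⟨hq⟩
    refine ⟨p, q, hp, hq, hpq, P, Q, hPc, hQn, ?_, hPQ⟩
    have hQtop : (Q : Subgroup G) ≠ ⊤ := by
      intro hQ
      apply hpg
      refine ⟨q, hq, ?_⟩
      have h1 := Q.isPGroup'
      rw [hQ] at h1
      exact h1.of_equiv Subgroup.topEquiv
    have hQab := h _ hQtop
    refine ⟨hQab, ?_⟩
    have hQcomm : ∀ x ∈ (Q : Subgroup G), ∀ y ∈ (Q : Subgroup G), x * y = y * x := by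
      intro x hx y hy
      exact congrArg Subtype.val (hQab.is_comm.comm ⟨x, hx⟩ ⟨y, hy⟩)
    -- the subgroup Omega
    let Ω : Subgroup G :=
      { carrier := {x | x ∈ (Q : Subgroup G) ∧ x ^ q = 1}
        mul_mem' := by
          rintro a b ⟨ha, ha'⟩ ⟨hb, hb'⟩
          refine ⟨mul_mem ha hb, ?_⟩
          have hc : Commute a b := hQcomm a ha b hb
          rw [hc.mul_pow, ha', hb', one_mul]
        one_mem' := ⟨one_mem _, one_pow _⟩
        inv_mem' := by
          rintro a ⟨ha, ha'⟩
          exact ⟨inv_mem ha, by rw [inv_pow, ha', inv_one]⟩ }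
    have hΩQ : Ω ≤ Q := fun x hx => hx.1
    have hΩn : Ω.Normal := by
      constructor
      rintro x ⟨hx, hx'⟩ g
      refine ⟨hQn.conj_mem x hx g, ?_⟩
      rw [conj_pow, hx', mul_one, mul_inv_cancel]
    have hdisj : ∀ x, x ∈ (P : Subgroup G) → x ∈ (Q : Subgroup G) → x = 1 := by
      intro x hx hx'
      have hc : (Nat.card P).Coprime (Nat.card Q) := IsPGroup.coprime_card_of_ne p q hpq (P : Subgroup G) (Q : Subgroup G) P.isPGroup' Q.isPGroup'
      have h1 : orderOf x ∣ Nat.card P := by
        rw [← Subgroup.orderOf_mk x hx]; exact orderOf_dvd_natCard _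
      have h2 : orderOf x ∣ Nat.card Q := by
        rw [← Subgroup.orderOf_mk x hx']; exact orderOf_dvd_natCard _
      exact orderOf_eq_one_iff.1 (Nat.eq_one_of_dvd_coprimes hc h1 h2)
    by_contra hne
    push Not at hne
    obtain ⟨a, ha, ha'⟩ := hne
    have htop : (P : Subgroup G) ⊔ Ω ≠ ⊤ := by
      intro htop
      have hmem : a ∈ (P : Subgroup G) ⊔ Ω := by rw [htop]; exact Subgroup.mem_top a
      rw [Subgroup.mem_sup_of_normal_right] at hmem
      obtain ⟨u, hu, w, hw, huw⟩ := hmem
      have hu1 : u = 1 := by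
        apply hdisj u hu
        have : u = a * w⁻¹ := by rw [← huw]; group
        rw [this]
        exact mul_mem ha (inv_mem (hΩQ hw))
      rw [hu1, one_mul] at huw
      rw [← huw] at ha'
      exact ha' hw.2
    have hab2 := h _ htop
    have hcent : (P : Subgroup G) ≤ Subgroup.centralizer ((Q : Subgroup G) : Set G) := by
      haveI : IsMulCommutative (Q : Subgroup G) := hQab
      apply Cfsg.Agent.H91.le_centralizer_of_prime_order
      · exact le_trans le_top (Subgroup.normalizer_eq_top_iff.2 hQn).ge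
      · exact IsPGroup.coprime_card_of_ne p q hpq (P : Subgroup G) (Q : Subgroup G) P.isPGroup' Q.isPGroup'
      · intro v hv hvp b hb
        have hvΩ : v ∈ Ω := by
          refine ⟨hv, ?_⟩
          obtain ⟨k, hk⟩ := (IsPGroup.iff_orderOf.1 Q.isPGroup') ⟨v, hv⟩
          rw [Subgroup.orderOf_mk] at hk
          rw [hk] at hvp
          have hk1 : k = 1 := by
            by_contra hk1
            exact (Nat.Prime.prime hvp).not_isUnit (by
              have := Nat.Prime.eq_one_of_pow hvp
              exact absurd this hk1)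
          rw [hk1, pow_one] at hk
          rw [← hk]; exact pow_orderOf_eq_one v
        exact congrArg Subtype.val (hab2.is_comm.comm ⟨b, Subgroup.mem_sup_left hb⟩ ⟨v, Subgroup.mem_sup_right hvΩ⟩)
    apply hna
    constructor
    constructor
    intro x y
    have hPcomm : ∀ x ∈ (P : Subgroup G), ∀ y ∈ (P : Subgroup G), x * y = y * x := by
      intro x hx y hy
      have := hPc
      letI := IsCyclic.commGroup (α := P)
      exact congrArg Subtype.val (mul_comm (⟨x, hx⟩ : P) ⟨y, hy⟩)
    have hx : x ∈ (P : Subgroup G) ⊔ Q := by rw [hPQ]; exact Subgroup.mem_top x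
    have hy : y ∈ (P : Subgroup G) ⊔ Q := by rw [hPQ]; exact Subgroup.mem_top y
    rw [Subgroup.mem_sup_of_normal_right] at hx hy
    obtain ⟨u, hu, v, hv, rfl⟩ := hx
    obtain ⟨u', hu', v', hv', rfl⟩ := hy
    have c1 : ∀ a ∈ (P : Subgroup G), ∀ b ∈ (Q : Subgroup G), a * b = b * a := by
      intro a ha b hb
      exact ((Subgroup.mem_centralizer_iff.1 (hcent ha)) b hb).symm
    calc u * v * (u' * v') = u * (v * u') * v' := by group
      _ = u * (u' * v) * v' := by rw [← c1 u' hu' v hv]
      _ = (u * u') * (v * v') := by group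
      _ = (u' * u) * (v' * v) := by rw [hPcomm u hu u' hu', hQcomm v hv v' hv']
      _ = u' * (u * v') * v := by group
      _ = u' * (v' * u) * v := by rw [c1 u hu v' hv']
      _ = u' * v' * (u * v) := by group

end Cfsg.Agent.S0537
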