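import Cfsg.Statements.S0541
import Cfsg.Agent.Alperin.Basic

set_option autoImplicit false
open Pointwise
open Cfsg

namespace Cfsg.Agent.S0541

theorem le_normalizer_of_smul_le {G : Type*} [Group G] [Finite G] {Y W : Subgroup G}
    (h : ∀ y ∈ Y, MulAut.conj y • W ≤ W) : Y ≤ Subgroup.normalizer (W : Set G) := by
  intro y hy
  apply Subgroup.mem_normalizer_fintype
  intro w hw
  exact h y hy ⟨w, hw, rfl⟩

theorem smul_le_of_le_normalizer {G : Type*} [Group G] {Y W : Subgroup G}
    (h : Y ≤ Subgroup.normalizer (W : Set G)) {y : G} (hy : y ∈ Y) : MulAut.conj y • W ≤ W := by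
  rintro _ ⟨w, hw, rfl⟩
  exact ((Subgroup.mem_normalizer_iff.mp (h hy)) w).mp hw

theorem conj_smul_iSup {G : Type*} [Group G] {ι : Sort*} (x : G) (f : ι → Subgroup G) :
    MulAut.conj x • (⨆ i, f i) = ⨆ i, MulAut.conj x • f i :=
  Subgroup.map_iSup (MulAut.conj x).toMonoidHom f

/-- Let Z and Y be subgroups of a finite group G and p a prime. Suppose that for every g in G the subgroup generated by the conjugates of g Z g⁻¹ under Y is a p-group. Then there is a Sylow p-subgroup P of G such that Y normalizes the subgroup generated by all conjugates of Z contained in P. -/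
theorem result {G : Type*} [Group G] [Finite G] (p : ℕ) [Fact p.Prime] (Z Y : Subgroup G) (h : ∀ g : G, IsPGroup p ↥(⨆ y ∈ Y, MulAut.conj (y * g) • Z)) : ∃ P : Sylow p G, Y ≤ Subgroup.normalizer ((⨆ g ∈ {g : G | MulAut.conj g • Z ≤ (P : Subgroup G)}, MulAut.conj g • Z : Subgroup G) : Set G) := by
  classical
  let Good : Subgroup G → Prop := fun Q => IsPGroup p Q ∧ Y ≤ Subgroup.normalizer (Q : Set G) ∧
    ∃ S : Set G, Q = ⨆ g ∈ S, MulAut.conj g • Z
  have hGood0 : Good ⊥ := by
    refine ⟨IsPGroup.of_bot, ?_, ∅, by simp⟩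
    rw [Subgroup.normalizer_eq_top]; exact le_top
  obtain ⟨Q, hQ⟩ := (Set.toFinite {Q : Subgroup G | Good Q}).exists_maximal ⟨⊥, hGood0⟩
  obtain ⟨hQp, hQY, S, hS⟩ := hQ.prop
  obtain ⟨P, hP⟩ := hQp.exists_le_sylow
  refine ⟨P, ?_⟩
  set W : Subgroup G := ⨆ g ∈ {g : G | MulAut.conj g • Z ≤ (P : Subgroup G)}, MulAut.conj g • Z with hW
  have hWP : W ≤ (P : Subgroup G) := iSup₂_le fun g hg => hg
  have hWp : IsPGroup p W := P.isPGroup'.to_le hWP
  have hQW : Q ≤ W := by
    rw [hS]
    refine iSup₂_le fun g hg => ?_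
    have : MulAut.conj g • Z ≤ (P : Subgroup G) := by
      refine le_trans ?_ hP
      rw [hS]
      exact le_iSup₂_of_le g hg le_rfl
    exact le_iSup₂_of_le (f := fun g (_ : g ∈ {g : G | MulAut.conj g • Z ≤ (P : Subgroup G)}) => MulAut.conj g • Z) g this le_rfl
  have hWQ : W ≤ Q := by
    by_contra hcon
    set N := Subgroup.normalizer (Q : Set G) with hN
    -- a conjugate of `Z` normalising `Q` and not contained in `Q`
    have hex : ∃ g : G, MulAut.conj g • Z ≤ N ∧ ¬ MulAut.conj g • Z ≤ Q := by
      by_cases hWN : W ≤ N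
      · by_contra hall
        push Not at hall
        apply hcon
        rw [hW]
        refine iSup₂_le fun g hg => ?_
        apply hall
        refine le_trans ?_ hWN
        exact le_iSup₂_of_le (f := fun g (_ : g ∈ {g : G | MulAut.conj g • Z ≤ (P : Subgroup G)}) => MulAut.conj g • Z) g hg le_rfl
      · have hlt : W ⊓ N < W := lt_of_le_of_ne inf_le_left (fun h => hWN (inf_eq_left.mp h))
        have hcard := Alperin.card_lt_card_inf_normalizer hWp hlt
        obtain ⟨x, hx, hxM⟩ : ∃ x ∈ W ⊓ Subgroup.normalizer ((W ⊓ N : Subgroup G) : Set G), x ∉ W ⊓ N := by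
          by_contra hall
          push Not at hall
          have h1 : W ⊓ Subgroup.normalizer ((W ⊓ N : Subgroup G) : Set G) ≤ W ⊓ N := hall
          have h2 := Subgroup.card_le_of_le h1
          omega
        have hxN : x ∉ N := fun h => hxM ⟨hx.1, h⟩
        have hQM : Q ≤ W ⊓ N := le_inf hQW Subgroup.le_normalizer
        have h1 : MulAut.conj x • Q ≤ W ⊓ N := by
          rintro _ ⟨w, hw, rfl⟩
          exact ((Subgroup.mem_normalizer_iff.mp hx.2) w).mp (hQM hw)
        have h2 : ¬ MulAut.conj x • Q ≤ Q := by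
          intro hle
          apply hxN
          rw [hN]
          apply Subgroup.mem_normalizer_fintype
          intro w hw
          exact hle ⟨w, hw, rfl⟩
        have h3 : MulAut.conj x • Q = ⨆ g ∈ S, MulAut.conj (x * g) • Z := by
          rw [hS, conj_smul_iSup]
          refine iSup_congr fun g => ?_
          rw [conj_smul_iSup]
          refine iSup_congr fun hg => ?_
          rw [map_mul, mul_smul]
        by_contra hall
        push Not at hall
        apply h2
        rw [h3]
        refine iSup₂_le fun g hg => hall _ ?_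
        refine le_trans ?_ (h1.trans inf_le_right)
        rw [h3]
        exact le_iSup₂_of_le (f := fun g (_ : g ∈ S) => MulAut.conj (x * g) • Z) g hg le_rfl
    obtain ⟨g, hgN, hgQ⟩ := hex
    set R : Subgroup G := ⨆ y ∈ Y, MulAut.conj (y * g) • Z with hR
    have hRp : IsPGroup p R := h g
    have hRN : R ≤ N := by
      rw [hR]
      refine iSup₂_le fun y hy => ?_
      rw [map_mul, mul_smul]
      rintro _ ⟨z, hz, rfl⟩
      have h1 : z ∈ N := hgN hz
      have h2 : y ∈ N := hQY hy
      exact N.mul_mem (N.mul_mem h2 h1) (N.inv_mem h2)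
    have hRY : Y ≤ Subgroup.normalizer (R : Set G) := by
      apply le_normalizer_of_smul_le
      intro y' hy'
      rw [hR]
      rw [conj_smul_iSup]
      refine iSup_le fun y => ?_
      rw [conj_smul_iSup]
      refine iSup_le fun hy => ?_
      have : MulAut.conj y' • (MulAut.conj (y * g) • Z) =
          MulAut.conj (y' * y * g) • Z := by
        rw [mul_assoc, map_mul MulAut.conj y', mul_smul]
      rw [this]
      exact le_iSup₂_of_le (f := fun y (_ : y ∈ Y) => MulAut.conj (y * g) • Z) (y' * y) (Y.mul_mem hy' hy) le_rfl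
    have hgR : MulAut.conj g • Z ≤ R := by
      have := le_iSup₂_of_le (f := fun y (_ : y ∈ Y) => MulAut.conj (y * g) • Z) 1 Y.one_mem (le_refl _)
      rw [one_mul] at this
      exact this
    have hnew : Good (Q ⊔ R) := by
      refine ⟨?_, ?_, S ∪ {x | ∃ y ∈ Y, x = y * g}, ?_⟩
      · rw [sup_comm]
        exact hRp.to_sup_of_normal_right' hQp hRN
      · apply le_normalizer_of_smul_le
        intro y hy
        rw [Subgroup.smul_sup]
        exact sup_le_sup (smul_le_of_le_normalizer hQY hy) (smul_le_of_le_normalizer hRY hy)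
      · apply le_antisymm
        · apply sup_le
          · rw [hS]
            refine iSup₂_le fun g' hg' => ?_
            exact le_iSup₂_of_le (f := fun g'' (_ : g'' ∈ S ∪ {x | ∃ y ∈ Y, x = y * g}) => MulAut.conj g'' • Z) g' (Or.inl hg') le_rfl
          · rw [hR]
            refine iSup₂_le fun y hy => ?_
            exact le_iSup₂_of_le (f := fun g'' (_ : g'' ∈ S ∪ {x | ∃ y ∈ Y, x = y * g}) => MulAut.conj g'' • Z) (y * g) (Or.inr ⟨y, hy, rfl⟩) le_rfl
        · refine iSup₂_le fun g' hg' => ?_
          rcases hg' with hg' | ⟨y, hy, rfl⟩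
          · refine le_trans ?_ le_sup_left
            rw [hS]
            exact le_iSup₂_of_le (f := fun g (_ : g ∈ S) => MulAut.conj g • Z) g' hg' le_rfl
          · refine le_trans ?_ le_sup_right
            exact le_iSup₂_of_le (f := fun y (_ : y ∈ Y) => MulAut.conj (y * g) • Z) y hy le_rfl
    have hle := hQ.le_of_ge hnew le_sup_left
    exact hgQ (hgR.trans (le_sup_right.trans hle))
  have : W = Q := le_antisymm hWQ hQW
  rw [this]
  exact hQY

end Cfsg.Agent.S0541
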