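import Cfsg.Statements.S0549
import Cfsg.Agent.H10.Prim

set_option autoImplicit false
open Cfsg

namespace Cfsg.Agent.S0549

open Cfsg.Agent.H10 in
theorem result {G : Type*} [Group G] [Finite G] (U : Subgroup G) (hU : IsCoatom U) (hcore : U.normalCore = ⊥) (N : Subgroup G) [N.Normal] (hN : N ≠ ⊥) : Subgroup.centralizer (N : Set G) ⊓ U = ⊥ ∧ (Subgroup.centralizer (N : Set G) = ⊥ ∨ (Subgroup.centralizer (N : Set G) ≠ ⊥ ∧ ∀ K : Subgroup G, K.Normal → K ≤ Subgroup.centralizer (N : Set G) → K = ⊥ ∨ K = Subgroup.centralizer (N : Set G))) := by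
  have h1 := centralizer_inf_eq_bot_of_corefree hU hcore hN
  refine ⟨h1, ?_⟩
  by_cases hC : Subgroup.centralizer (N : Set G) = ⊥
  · exact Or.inl hC
  · refine Or.inr ⟨hC, fun K hKn hK => ?_⟩
    by_cases hKb : K = ⊥
    · exact Or.inl hKb
    · exact Or.inr (eq_of_normal_le_of_inf_eq_bot hU hcore hKb hK h1)

end Cfsg.Agent.S0549
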