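import Cfsg.Statements.S0550
import Cfsg.Agent.H10.Prim
import Cfsg.Agent.H95.QuotIso

set_option autoImplicit false
open Cfsg

namespace Cfsg.Agent.S0550

/-- Let U be a maximal subgroup with trivial normal core in a finite group G, and A ≠ B two minimal normal subgroups. Then A is the centralizer of B and B that of A, U complements each of them, A and B are non-abelian, and A, B and (A ⊔ B) ∩ U are pairwise isomorphic. -/
theorem result {G : Type*} [Group G] [Finite G] (U : Subgroup G) (hU : IsCoatom U) (hcore : U.normalCore = ⊥) (A B : Subgroup G) [A.Normal] [B.Normal] (hA : A ≠ ⊥) (hB : B ≠ ⊥) (hAmin : ∀ K : Subgroup G, K.Normal → K ≤ A → K = ⊥ ∨ K = A) (hBmin : ∀ K : Subgroup G, K.Normal → K ≤ B → K = ⊥ ∨ K = B) (hAB : A ≠ B) : Subgroup.centralizer (B : Set G) = A ∧ Subgroup.centralizer (A : Set G) = B ∧ Subgroup.IsComplement' A U ∧ Subgroup.IsComplement' B U ∧ ¬ IsMulCommutative A ∧ Nonempty (A ≃* B) ∧ Nonempty (A ≃* ↥((A ⊔ B) ⊓ U)) := by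
  have hdis : A ⊓ B = ⊥ := by
    rcases hAmin (A ⊓ B) inferInstance inf_le_left with h | h
    · exact h
    · rcases hBmin (A ⊓ B) inferInstance inf_le_right with h' | h'
      · exact h'
      · exact absurd (h.symm.trans h') hAB
  have hcomm : A ≤ Subgroup.centralizer (B : Set G) := by
    intro a ha
    rw [Subgroup.mem_centralizer_iff]
    intro b hb
    exact (Subgroup.commute_of_normal_of_disjoint A B inferInstance inferInstance
      (disjoint_iff.mpr hdis) a b ha hb).symm
  have hcomm' : B ≤ Subgroup.centralizer (A : Set G) := by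
    intro b hb
    rw [Subgroup.mem_centralizer_iff]
    intro a ha
    exact (Subgroup.commute_of_normal_of_disjoint A B inferInstance inferInstance
      (disjoint_iff.mpr hdis) a b ha hb)
  have hCA := H10.centralizer_inf_eq_bot_of_corefree hU hcore hA
  have hCB := H10.centralizer_inf_eq_bot_of_corefree hU hcore hB
  have h1 : A = Subgroup.centralizer (B : Set G) := H10.eq_of_normal_le_of_inf_eq_bot hU hcore hA hcomm hCB
  have h2 : B = Subgroup.centralizer (A : Set G) := H10.eq_of_normal_le_of_inf_eq_bot hU hcore hB hcomm' hCA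
  have hAU : A ⊓ U = ⊥ := by rw [h1]; exact hCB
  have hBU : B ⊓ U = ⊥ := by rw [h2]; exact hCA
  have hAU' := H10.sup_eq_top_of_corefree hU hcore hA
  have hBU' := H10.sup_eq_top_of_corefree hU hcore hB
  have key : ∀ X Y : Subgroup G, X.Normal → Y.Normal → X ⊓ Y = ⊥ → X ⊓ U = ⊥ → X ⊔ U = ⊤ →
      Nonempty (Y ≃* ↥((X ⊔ Y) ⊓ U)) := by
    intro X Y hX hY hXY hXU hXU'
    apply H95.nonempty_equiv_of_sup_eq X
    · rw [inf_comm]; exact hXY
    · rw [inf_assoc, inf_comm U X, hXU, inf_bot_eq]
    · apply le_antisymm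
      · refine sup_le ?_ le_sup_right
        intro y hy
        have hy' : y ∈ X ⊔ U := by rw [hXU']; trivial
        obtain ⟨x, hx, u, hu, rfl⟩ := Subgroup.mem_sup_of_normal_left.mp hy'
        refine Subgroup.mul_mem _ (Subgroup.mem_sup_right hx) (Subgroup.mem_sup_left ⟨?_, hu⟩)
        have : u = x⁻¹ * (x * u) := by group
        rw [this]
        exact Subgroup.mul_mem _ (Subgroup.mem_sup_left (X.inv_mem hx)) (Subgroup.mem_sup_right hy)
      · refine sup_le ?_ le_sup_right
        rw [sup_comm Y X]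
        exact inf_le_left
  obtain ⟨e1⟩ := key A B inferInstance inferInstance hdis hAU hAU'
  obtain ⟨e2⟩ := key B A inferInstance inferInstance (by rw [inf_comm]; exact hdis) hBU hBU'
  have h3 : (B ⊔ A) ⊓ U = (A ⊔ B) ⊓ U := by rw [sup_comm]
  refine ⟨h1.symm, h2.symm, ?_, ?_, ?_, ?_, ?_⟩
  · exact Subgroup.isComplement'_of_disjoint_and_mul_eq_univ (disjoint_iff.mpr hAU)
      (by rw [← Subgroup.normal_mul, hAU']; rfl)
  · exact Subgroup.isComplement'_of_disjoint_and_mul_eq_univ (disjoint_iff.mpr hBU)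
      (by rw [← Subgroup.normal_mul, hBU']; rfl)
  · intro hab
    have hle : A ≤ B := by
      rw [h2]
      intro a ha
      rw [Subgroup.mem_centralizer_iff]
      intro b hb
      exact congrArg Subtype.val (mul_comm' (⟨b, hb⟩ : A) ⟨a, ha⟩)
    rcases hBmin A inferInstance hle with h | h
    · exact hA h
    · exact hAB h
  · exact ⟨e2.trans ((MulEquiv.subgroupCongr h3).trans e1.symm)⟩
  · exact ⟨e2.trans (MulEquiv.subgroupCongr h3)⟩

end Cfsg.Agent.S0550
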