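import Cfsg.Statements.S0551
import Cfsg.Agent.H10.Prim
import Cfsg.Agent.H10.MinNormal
import Cfsg.Agent.Hall.Basic
import Cfsg.Agent.Solv.MinNormal

set_option autoImplicit false
open Pointwise
open Cfsg

namespace Cfsg.Agent.S0551

theorem conj_smul_normalizer {G : Type*} [Group G] (g : G) (Q R : Subgroup G) (h : MulAut.conj g • Q = R) :
    MulAut.conj g • Subgroup.normalizer (Q : Set G) = Subgroup.normalizer (R : Set G) := by
  rw [← h]
  exact Subgroup.map_equiv_normalizer_eq Q (MulAut.conj g)

/-- In a finite solvable group all core-free maximal subgroups are conjugate. -/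
theorem result {G : Type*} [Group G] [Finite G] [Group.IsSolvable G] (U V : Subgroup G) (hU : IsCoatom U) (hV : IsCoatom V) (hUc : U.normalCore = ⊥) (hVc : V.normalCore = ⊥) : ∃ g : G, MulAut.conj g • U = V := by
  have hnt : Nontrivial G := by
    by_contra hcon
    rw [not_nontrivial_iff_subsingleton] at hcon
    exact hU.1 (Subsingleton.elim _ _)
  obtain ⟨M, hM⟩ := H10.exists_isMinNormal (G := G)
  have hMn : M.Normal := hM.1
  have hMb : M ≠ ⊥ := hM.2.1
  have hMs : Group.IsSolvable M := inferInstance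
  have hMab : IsMulCommutative M := hM.isMulCommutative hMs
  obtain ⟨p, hp, _, hpM, d, hd, hcM⟩ := hM.elementary hMs
  have hMC : M ≤ Subgroup.centralizer (M : Set G) := by
    intro a ha
    rw [Subgroup.mem_centralizer_iff]
    intro b hb
    exact congrArg Subtype.val (mul_comm' (⟨b, hb⟩ : M) ⟨a, ha⟩)
  have hCU := H10.centralizer_inf_eq_bot_of_corefree hU hUc hMb
  have hCV := H10.centralizer_inf_eq_bot_of_corefree hV hVc hMb
  have hC : M = Subgroup.centralizer (M : Set G) := H10.eq_of_normal_le_of_inf_eq_bot hU hUc hMb hMC hCU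
  have hMU : M ⊓ U = ⊥ := by rw [eq_bot_iff, ← hCU]; exact inf_le_inf_right _ hMC
  have hMV : M ⊓ V = ⊥ := by rw [eq_bot_iff, ← hCV]; exact inf_le_inf_right _ hMC
  have hMU' := H10.sup_eq_top_of_corefree hU hUc hMb
  have hMV' := H10.sup_eq_top_of_corefree hV hVc hMb
  by_cases hMt : M = ⊤
  · refine ⟨1, ?_⟩
    rw [hMt, top_inf_eq] at hMU hMV
    rw [hMU, hMV]
    simp
  -- a minimal normal subgroup of the quotient
  have hntq : Nontrivial (G ⧸ M) := QuotientGroup.nontrivial_iff.mpr hMt
  obtain ⟨L', hL'⟩ := H10.exists_isMinNormal (G := G ⧸ M)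
  have hL'n : L'.Normal := hL'.1
  obtain ⟨q, hq, _, hqL', e, he, hcL'⟩ := hL'.elementary inferInstance
  set L := L'.comap (QuotientGroup.mk' M) with hL
  have hLn : L.Normal := inferInstance
  have hML : M ≤ L := by
    intro x hx
    have h1 : (QuotientGroup.mk' M) x = 1 := (QuotientGroup.eq_one_iff x).mpr hx
    show (QuotientGroup.mk' M) x ∈ L'
    rw [h1]
    exact L'.one_mem
  have hrel : M.relIndex L = q ^ e := by
    have h1 : M.relIndex L = Nat.card L' := by
      rw [hL]
      have := Subgroup.relIndex_comap (f := QuotientGroup.mk' M) (H := (⊥ : Subgroup (G ⧸ M))) (K := L)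
      rw [MonoidHom.comap_bot, QuotientGroup.ker_mk'] at this
      rw [this, Subgroup.relIndex_bot_left, hL, Subgroup.map_comap_eq_self_of_surjective (QuotientGroup.mk'_surjective M)]
    rw [h1, hcL']
  have hLM : L ≠ M := by
    intro h
    rw [h, Subgroup.relIndex_self] at hrel
    exact (Nat.one_lt_pow he.ne' hq.one_lt).ne hrel
  have hpq : p ≠ q := by
    rintro rfl
    -- `L` is a `p`-group
    have hLp : IsPGroup p L := by
      apply IsPGroup.of_card (n := d + e)
      have : Nat.card M * M.relIndex L = Nat.card L := by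
        rw [← Subgroup.relIndex_bot_left, ← Subgroup.relIndex_bot_left]
        exact Subgroup.relIndex_mul_relIndex ⊥ M L bot_le hML
      rw [← this, hcM, hrel, pow_add]
    have hpf : Fact p.Prime := ⟨hp⟩
    have hLnil : Group.IsNilpotent L := hLp.isNilpotent
    have hMLb : M.subgroupOf L ≠ ⊥ := by
      rw [Ne, Subgroup.subgroupOf_eq_bot, disjoint_iff, inf_eq_left.mpr hML]
      exact hMb
    have h1 := Solv.inf_center_ne_bot_of_nilpotent (M.subgroupOf L) hMLb
    have h2 : (M.subgroupOf L ⊓ Subgroup.center L).map L.subtype ≠ ⊥ := by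
      rw [Ne, Subgroup.map_eq_bot_iff_of_injective _ L.subtype_injective]
      exact h1
    have h3 : ((M.subgroupOf L ⊓ Subgroup.center L).map L.subtype).Normal := by
      rw [Subgroup.map_inf _ _ _ L.subtype_injective, Subgroup.subgroupOf_map_subtype]
      have : ((Subgroup.center L).map L.subtype).Normal := inferInstance
      infer_instance
    have h4 : (M.subgroupOf L ⊓ Subgroup.center L).map L.subtype ≤ M := by
      rw [Subgroup.map_inf _ _ _ L.subtype_injective, Subgroup.subgroupOf_map_subtype]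
      exact inf_le_left.trans inf_le_left
    have h5 := (hM.2.2 _ h3 h4).resolve_left h2
    apply hLM
    apply le_antisymm _ hML
    rw [hC]
    intro x hx
    rw [Subgroup.mem_centralizer_iff]
    intro m hm
    rw [← h5] at hm
    obtain ⟨y, hy, rfl⟩ := hm
    have := (Subgroup.mem_center_iff.mp hy.2) ⟨x, hx⟩
    exact (congrArg Subtype.val this).symm
  have hcop : (Nat.card M).Coprime (M.relIndex L) := by
    rw [hcM, hrel]
    exact Nat.Coprime.pow _ _ ((Nat.coprime_primes hp hq).mpr hpq)
  have hQ : ∀ W : Subgroup G, M ⊓ W = ⊥ → M ⊔ W = ⊤ → Nat.card ↥(L ⊓ W) = M.relIndex L := by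
    intro W h1 h2
    have h3 : L = (L ⊓ W) ⊔ M := by
      apply le_antisymm
      · intro x hx
        have hx' : x ∈ M ⊔ W := by rw [h2]; trivial
        obtain ⟨m, hm, w, hw, rfl⟩ := Subgroup.mem_sup_of_normal_left.mp hx'
        refine Subgroup.mul_mem _ (Subgroup.mem_sup_right hm) (Subgroup.mem_sup_left ⟨?_, hw⟩)
        have : w = m⁻¹ * (m * w) := by group
        rw [this]
        exact L.mul_mem (L.inv_mem (hML hm)) hx
      · exact sup_le inf_le_left hML
    have h4 : M.relIndex L = M.relIndex (L ⊓ W) := by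
      conv_lhs => rw [h3]
      exact Subgroup.relIndex_sup_right _ _
    have h5 : M ⊓ (L ⊓ W) = ⊥ := by
      rw [eq_bot_iff, ← h1]
      exact inf_le_inf_left _ inf_le_right
    rw [h4, ← Subgroup.inf_relIndex_right, h5, Subgroup.relIndex_bot_left]
  obtain ⟨g, hg, hgQ⟩ := Hall.sz_conj_rel M L hML (by rw [Subgroup.normalizer_eq_top]; exact le_top) hcop hMs
    (L ⊓ U) (L ⊓ V) inf_le_left inf_le_left (hQ U hMU hMU') (hQ V hMV hMV')
  have hN : ∀ W : Subgroup G, IsCoatom W → W.normalCore = ⊥ → M ⊓ W = ⊥ → M ⊔ W = ⊤ →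
      Subgroup.normalizer ((L ⊓ W : Subgroup G) : Set G) = W := by
    intro W hW hWc h1 h2
    have hle : W ≤ Subgroup.normalizer ((L ⊓ W : Subgroup G) : Set G) := by
      refine H10.le_normalizer_of_conj_mem fun u hu k hk => ⟨hLn.conj_mem k hk.1 u, ?_⟩
      exact W.mul_mem (W.mul_mem hu hk.2) (W.inv_mem hu)
    rcases hW.le_iff.mp hle with h | h
    · exfalso
      have hnorm : (L ⊓ W : Subgroup G).Normal := Subgroup.normalizer_eq_top_iff.mp h
      have hb : L ⊓ W = ⊥ := by
        rw [eq_bot_iff, ← hWc]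
        exact Subgroup.normal_le_normalCore.mpr inf_le_right
      have hc := hQ W h1 h2
      rw [hb, Subgroup.card_bot, hrel] at hc
      exact (Nat.one_lt_pow he.ne' hq.one_lt).ne hc
    · exact h
  refine ⟨g, ?_⟩
  have := conj_smul_normalizer g _ _ hgQ
  rwa [hN U hU hUc hMU hMU', hN V hV hVc hMV hMV'] at this

end Cfsg.Agent.S0551
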