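import Cfsg.Statements.S0552
import Cfsg.Agent.Solv.MinNormal
import Mathlib.Tactic.Group

set_option autoImplicit false
open Cfsg

namespace Cfsg.Agent.S0552

theorem result {G : Type*} [Group G] [Finite G] [Group.IsSolvable G] (σ : G ≃* G) (hσ : ∀ x ∈ Cfsg.fittingSubgroup G, σ x = x) (hne : σ ≠ MulEquiv.refl G) : ¬ (orderOf σ).Coprime (Nat.card G) := by
  intro hcop
  apply hne
  ext g
  have hFn : (Cfsg.fittingSubgroup G).Normal := inferInstance
  have hC := Cfsg.Agent.Solv.centralizer_fitting_le (G := G)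
  set z : G := g⁻¹ * σ g with hz
  have hzC : z ∈ Subgroup.centralizer (Cfsg.fittingSubgroup G : Set G) := by
    rw [Subgroup.mem_centralizer_iff]
    intro x hx
    have h1 : σ (g * x * g⁻¹) = g * x * g⁻¹ := hσ _ (hFn.conj_mem x hx g)
    rw [map_mul, map_mul, hσ x hx, map_inv] at h1
    rw [hz]
    calc x * (g⁻¹ * σ g) = g⁻¹ * (g * x * g⁻¹) * σ g := by group
      _ = g⁻¹ * (σ g * x * (σ g)⁻¹) * σ g := by rw [h1]
      _ = g⁻¹ * σ g * x := by group
  have hσz : σ z = z := hσ z (hC hzC)
  have hpow : ∀ n : ℕ, (σ ^ n : MulAut G) g = g * z ^ n := by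
    intro n
    induction n with
    | zero => simp
    | succ n ih =>
      rw [pow_succ', MulAut.mul_apply, ih, map_mul, map_pow, hσz, pow_succ', ← mul_assoc]
      congr 1
      rw [hz]; group
  have h1 := hpow (orderOf (σ : MulAut G))
  rw [pow_orderOf_eq_one, MulAut.one_apply] at h1
  have h2 : z ^ orderOf σ = 1 := by
    have : g * z ^ orderOf σ = g * 1 := by rw [mul_one]; exact h1.symm
    exact mul_left_cancel this
  have h3 : z = 1 := by
    have h4 : orderOf z ∣ orderOf σ := orderOf_dvd_of_pow_eq_one h2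
    have h5 : orderOf z ∣ Nat.card G := orderOf_dvd_natCard z
    have h6 := Nat.dvd_gcd h4 h5
    rw [hcop] at h6
    exact orderOf_eq_one_iff.mp (Nat.dvd_one.mp h6)
  rw [MulEquiv.refl_apply]
  have : σ g = g * z := by rw [hz]; group
  rw [this, h3, mul_one]

end Cfsg.Agent.S0552
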