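import Cfsg.Statements.S0553
import Cfsg.Agent.H10.MinNormal
import Cfsg.Agent.Solv.MinNormal

set_option autoImplicit false
open Cfsg

namespace Cfsg.Agent.S0553

universe u

theorem aux (n : ℕ) : ∀ (G : Type u) [Group G] [Finite G] [Group.IsSolvable G] [Nontrivial G],
    Nat.card G = n → (∀ M : Subgroup G, IsCoatom M → (Nat.card M).Coprime M.index) →
    ∃ p : ℕ, p.Prime ∧ p ∣ Nat.card G ∧ ∀ P : Sylow p G, (P : Subgroup G).Normal := by
  induction n using Nat.strong_induction_on with
  | _ n ih =>
    intro G _ _ _ _ hn h
    obtain ⟨M, hM⟩ := H10.exists_isMinNormal (G := G)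
    have hMn : M.Normal := hM.1
    have hMb : M ≠ ⊥ := hM.2.1
    have hMs : Group.IsSolvable M := inferInstance
    have hMab : IsMulCommutative M := hM.isMulCommutative hMs
    obtain ⟨p, hp, _, hpM, d, hd, hcM⟩ := hM.elementary hMs
    have hpf : Fact p.Prime := ⟨hp⟩
    -- if `M` has index prime to `p` we are done
    have hdone : ¬ p ∣ M.index → ∃ p : ℕ, p.Prime ∧ p ∣ Nat.card G ∧ ∀ P : Sylow p G, (P : Subgroup G).Normal := by
      intro hidx
      refine ⟨p, hp, ?_, ?_⟩
      · have h1 : p ∣ Nat.card M := by rw [hcM]; exact dvd_pow_self p hd.ne'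
        exact h1.trans (Subgroup.card_subgroup_dvd_card M)
      · intro P
        have hQn : ((hpM.toSylow hidx : Sylow p G) : Subgroup G).Normal := by
          rw [IsPGroup.toSylow_coe]; exact hMn
        obtain ⟨g, hg⟩ := MulAction.exists_smul_eq G (hpM.toSylow hidx) P
        rw [Sylow.smul_eq_of_normal] at hg
        rw [← hg]; exact hQn
    by_cases hF : ∀ H : Subgroup G, IsCoatom H → M ≤ H
    · -- `M` is contained in the Frattini subgroup
      have hng : ∀ K : Subgroup G, K ⊔ M = ⊤ → K = ⊤ := by
        intro K hK
        by_contra hne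
        obtain ⟨H, hH, hKH⟩ := (eq_top_or_exists_le_coatom K).resolve_left hne
        apply hH.1
        rw [← top_le_iff, ← hK]
        exact sup_le hKH (hF H hH)
      have hMt : M ≠ ⊤ := by
        intro ht
        have := hng ⊥ (by rw [ht, bot_sup_eq])
        exact bot_ne_top this
      have hntq : Nontrivial (G ⧸ M) := QuotientGroup.nontrivial_iff.mpr hMt
      have hcard : Nat.card G = Nat.card (G ⧸ M) * Nat.card M := Subgroup.card_eq_card_quotient_mul_card_subgroup M
      have hlt : Nat.card (G ⧸ M) < n := by
        rw [← hn, hcard]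
        have h1 : 1 < Nat.card M := by rw [hcM]; exact Nat.one_lt_pow hd.ne' hp.one_lt
        have h2 : 0 < Nat.card (G ⧸ M) := Nat.card_pos
        calc Nat.card (G ⧸ M) = Nat.card (G ⧸ M) * 1 := (mul_one _).symm
          _ < _ := Nat.mul_lt_mul_of_pos_left h1 h2
      have hq' : ∀ K : Subgroup (G ⧸ M), IsCoatom K → (Nat.card K).Coprime K.index := by
        intro K hK
        have h1 := h (K.comap (QuotientGroup.mk' M)) (Subgroup.isCoatom_comap_of_surjective (QuotientGroup.mk'_surjective M) hK)
        rw [Subgroup.index_comap_of_surjective K (QuotientGroup.mk'_surjective M)] at h1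
        refine Nat.Coprime.coprime_dvd_left ?_ h1
        have h2 : (K.comap (QuotientGroup.mk' M)).map (QuotientGroup.mk' M) = K :=
          Subgroup.map_comap_eq_self_of_surjective (QuotientGroup.mk'_surjective M) K
        have h3 : Nat.card ((K.comap (QuotientGroup.mk' M)).map (QuotientGroup.mk' M)) ∣ Nat.card (K.comap (QuotientGroup.mk' M)) :=
          Subgroup.card_map_dvd _ _
        rw [h2] at h3
        exact h3
      obtain ⟨q, hq, hqd, hqn⟩ := ih _ hlt (G ⧸ M) rfl hq'
      have hqf : Fact q.Prime := ⟨hq⟩
      refine ⟨q, hq, hqd.trans (by rw [hcard]; exact dvd_mul_right _ _), ?_⟩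
      intro Q
      have h1 : ((Q : Subgroup G).map (QuotientGroup.mk' M)).Normal := by
        have := hqn (Q.mapSurjective (QuotientGroup.mk'_surjective M))
        rwa [Sylow.coe_mapSurjective] at this
      have h2 : (((Q : Subgroup G).map (QuotientGroup.mk' M)).comap (QuotientGroup.mk' M)).Normal := inferInstance
      have h3 : ((Q : Subgroup G).map (QuotientGroup.mk' M)).comap (QuotientGroup.mk' M) = (Q : Subgroup G) ⊔ M := by
        rw [Subgroup.comap_map_eq, QuotientGroup.ker_mk']
      rw [h3] at h2
      have h4 := Sylow.normalizer_sup_eq_top' (N := (Q : Subgroup G) ⊔ M) Q le_sup_left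
      rw [← sup_assoc] at h4
      have h5 : Subgroup.normalizer ((Q : Subgroup G) : Set G) ⊔ (Q : Subgroup G) = Subgroup.normalizer ((Q : Subgroup G) : Set G) :=
        sup_eq_left.mpr Subgroup.le_normalizer
      have h6 : Subgroup.normalizer ((Q : Subgroup G) : Set G) ⊔ M = ⊤ := by
        rw [← h5]; exact h4
      exact Subgroup.normalizer_eq_top_iff.mp (hng _ h6)
    · push Not at hF
      obtain ⟨H, hH, hMH⟩ := hF
      have hsup : M ⊔ H = ⊤ := by
        rcases hH.le_iff.mp (le_sup_right : H ≤ M ⊔ H) with h1 | h1
        · exact h1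
        · exact absurd (le_sup_left.trans h1.le) hMH
      have hinf := Solv.inf_eq_bot_of_minimal_abelian M H hMab hM.2.2 hsup hMH
      have h1 := Solv.index_mul_card_inf_eq_card_of_sup_eq_top M H hsup
      rw [inf_comm, hinf, Subgroup.card_bot, mul_one] at h1
      have h2 := h H hH
      rw [h1] at h2
      have h3 : M.index = Nat.card H := by
        have e1 := Subgroup.card_mul_index M
        have e2 := Subgroup.card_mul_index H
        rw [h1] at e2
        have h4 : 0 < Nat.card M := Nat.card_pos
        have : Nat.card M * M.index = Nat.card M * Nat.card H := by rw [e1, ← e2, mul_comm]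
        exact Nat.eq_of_mul_eq_mul_left h4 this
      apply hdone
      rw [h3]
      intro hdv
      have h5 : p ∣ Nat.card M := by rw [hcM]; exact dvd_pow_self p hd.ne'
      exact Nat.not_coprime_of_dvd_of_dvd hp.one_lt hdv h5 h2

/-- Let G be a nontrivial finite solvable group in which every maximal subgroup has order coprime to its index. Then for some prime p dividing the order of G the Sylow p-subgroups of G are normal. -/
theorem result {G : Type*} [Group G] [Finite G] [Group.IsSolvable G] [Nontrivial G] (h : ∀ M : Subgroup G, IsCoatom M → (Nat.card M).Coprime M.index) : ∃ p : ℕ, p.Prime ∧ p ∣ Nat.card G ∧ ∀ P : Sylow p G, (P : Subgroup G).Normal :=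
  aux _ G rfl h

end Cfsg.Agent.S0553
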