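import Cfsg.Statements.S0554
import Cfsg.Agent.H10.MinNormal

set_option autoImplicit false
open Cfsg

namespace Cfsg.Agent.S0554

universe u

theorem prod_ofFn_mul {G : Type*} [Group G] (N : Subgroup G) [hN : N.Normal] :
    ∀ (t : ℕ) (f : Fin t → G) (i : Fin t) (n : G), n ∈ N →
      ∃ m ∈ N, (List.ofFn f).prod * n = (List.ofFn (Function.update f i (f i * m))).prod := by
  intro t
  induction t with
  | zero => intro f i; exact i.elim0
  | succ t ih =>
    intro f i n hn
    refine Fin.cases ?_ (fun j => ?_) i
    · set B := (List.ofFn (fun j : Fin t => f j.succ)).prod with hB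
      refine ⟨B * n * B⁻¹, hN.conj_mem n hn B, ?_⟩
      rw [List.ofFn_succ, List.prod_cons, List.ofFn_succ, List.prod_cons, Function.update_self]
      have : (fun j : Fin t => Function.update f 0 (f 0 * (B * n * B⁻¹)) j.succ) = fun j : Fin t => f j.succ := by
        funext j
        rw [Function.update_of_ne (Fin.succ_ne_zero j)]
      rw [this, ← hB]
      group
    · obtain ⟨m, hm, h⟩ := ih (fun j : Fin t => f j.succ) j n hn
      refine ⟨m, hm, ?_⟩
      rw [List.ofFn_succ, List.prod_cons, List.ofFn_succ, List.prod_cons,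
        Function.update_of_ne (Fin.succ_ne_zero j).symm, mul_assoc, h]
      congr 3
      funext k
      by_cases hk : k = j
      · subst hk
        rw [Function.update_self, Function.update_self]
      · rw [Function.update_of_ne hk, Function.update_of_ne (fun h => hk (Fin.succ_injective _ h))]

open Cfsg.Agent.H10 in
theorem aux : ∀ (n : ℕ) (G : Type u) [Group G] [Finite G] [Group.IsSolvable G], Nat.card G = n →
    ∀ (t : ℕ) (p : Fin t → ℕ) (_ : ∀ i, (p i).Prime) 
    (_ : ∀ q : ℕ, q.Prime → q ∣ Nat.card G → ∃ i, p i = q) (S : (i : Fin t) → Sylow (p i) G),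
    ∀ g : G, ∃ s : (i : Fin t) → G, (∀ i, s i ∈ (S i : Subgroup G)) ∧ g = (List.ofFn s).prod := by
  intro n
  induction n using Nat.strong_induction_on with
  | _ n ih =>
    intro G _ _ _ hn t p hp hall S g
    rcases subsingleton_or_nontrivial G with hs | hnt
    · exact ⟨fun _ => 1, fun i => Subgroup.one_mem _, Subsingleton.elim _ _⟩
    · obtain ⟨N, hN⟩ := exists_isMinNormal (G := G)
      obtain ⟨r, hr, -, hrN, d, hd0, hd⟩ := hN.elementary inferInstance
      have hNn := hN.1
      have hrG : r ∣ Nat.card G := by
        have : r ∣ Nat.card N := by rw [hd]; exact dvd_pow_self _ hd0.ne'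
        exact this.trans (Subgroup.card_subgroup_dvd_card N)
      obtain ⟨i0, hi0⟩ := hall r hr hrG
      have hfact : ∀ i, Fact (p i).Prime := fun i => ⟨hp i⟩
      have hNS : N ≤ (S i0 : Subgroup G) := by
        have : IsPGroup (p i0) N := by rw [hi0]; exact hrN
        exact this.le_sylow_of_normal _
      have hlt : Nat.card (G ⧸ N) < n := by
        rw [← hn, ← Subgroup.index_eq_card]
        have h1 := N.card_mul_index
        have h2 : 1 < Nat.card N := by
          rw [Subgroup.one_lt_card_iff_ne_bot]; exact hN.2.1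
        have h3 : 0 < N.index := Nat.pos_of_ne_zero Subgroup.index_ne_zero_of_finite
        nlinarith
      obtain ⟨s', hs', hprod⟩ := ih _ hlt (G ⧸ N) rfl t p hp
        (fun q hq hqd => hall q hq (hqd.trans (Subgroup.card_quotient_dvd_card N)))
        (fun i => (S i).mapSurjective (QuotientGroup.mk'_surjective N)) (QuotientGroup.mk' N g)
      have hlift : ∀ i, ∃ x ∈ (S i : Subgroup G), QuotientGroup.mk' N x = s' i := by
        intro i
        obtain ⟨x, hx, hxe⟩ := hs' i
        exact ⟨x, hx, hxe⟩
      choose s hs1 hs2 using hlift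
      have h1 : QuotientGroup.mk' N (List.ofFn s).prod = QuotientGroup.mk' N g := by
        rw [hprod, map_list_prod, List.map_ofFn]
        congr 2
        funext i
        exact hs2 i
      have h2 : ((List.ofFn s).prod)⁻¹ * g ∈ N := by
        rw [← QuotientGroup.eq]
        exact h1
      obtain ⟨m, hm, hfin⟩ := prod_ofFn_mul N t s i0 _ h2
      refine ⟨Function.update s i0 (s i0 * m), ?_, ?_⟩
      · intro i
        by_cases hi : i = i0
        · subst hi
          rw [Function.update_self]
          exact Subgroup.mul_mem _ (hs1 i) (hNS hm)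
        · rw [Function.update_of_ne hi]
          exact hs1 i
      · rw [← hfin]
        group

theorem result {G : Type*} [Group G] [Finite G] [Group.IsSolvable G] (t : ℕ) (p : Fin t → ℕ) (hp : ∀ i, (p i).Prime) (hinj : Function.Injective p) (hall : ∀ q : ℕ, q.Prime → q ∣ Nat.card G → ∃ i, p i = q) (S : (i : Fin t) → Sylow (p i) G) : ∀ g : G, ∃ s : (i : Fin t) → G, (∀ i, s i ∈ (S i : Subgroup G)) ∧ g = (List.ofFn s).prod :=
  aux _ G rfl t p hp hall S

end Cfsg.Agent.S0554
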