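import Cfsg.Statements.S0555
import Cfsg.Agent.H10.Imports

set_option autoImplicit false
open Cfsg

namespace Cfsg.Agent.S0555

theorem commutator_le_centralizer_of_conj_zpow {Q : Type*} [Group Q] (β : Q)
    (hβ : ∀ g : Q, ∃ m : ℤ, g * β * g⁻¹ = β ^ m) :
    commutator Q ≤ Subgroup.centralizer {β} := by
  rw [commutator_def, Subgroup.commutator_le]
  intro g _ h _
  obtain ⟨m, hm⟩ := hβ g
  obtain ⟨n, hn⟩ := hβ h
  have h1 : (g * h) * β * (g * h)⁻¹ = β ^ (m * n) := by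
    have : (g * h) * β * (g * h)⁻¹ = g * (h * β * h⁻¹) * g⁻¹ := by group
    rw [this, hn, ← conj_zpow, hm, zpow_mul]
  have h2 : (h * g) * β * (h * g)⁻¹ = β ^ (m * n) := by
    have : (h * g) * β * (h * g)⁻¹ = h * (g * β * g⁻¹) * h⁻¹ := by group
    rw [this, hm, ← conj_zpow, hn, mul_comm, zpow_mul]
  rw [Subgroup.mem_centralizer_singleton_iff]
  have h3 : (g * h) * β * (g * h)⁻¹ = (h * g) * β * (h * g)⁻¹ := h1.trans h2.symm
  rw [commutatorElement_def]
  have h4 : β = (g * h)⁻¹ * ((h * g) * β * (h * g)⁻¹) * (g * h) := by rw [← h3]; group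
  have h5 : (h * g)⁻¹ * ((g * h) * β * (g * h)⁻¹) * (h * g) = β := by rw [h3]; group
  have key : ∀ u v : Q, u * β * u⁻¹ = v * β * v⁻¹ → (u * v⁻¹) * (v * β * v⁻¹) = (v * β * v⁻¹) * (u * v⁻¹) := by
    intro u v huv
    calc (u * v⁻¹) * (v * β * v⁻¹) = (u * β * u⁻¹) * (u * v⁻¹) := by group
      _ = _ := by rw [huv]
  -- g h g⁻¹ h⁻¹ = (g h) (h g)⁻¹ commutes with (hg) β (hg)⁻¹; we want β, so use g⁻¹, h⁻¹ instead
  obtain ⟨m', hm'⟩ := hβ g⁻¹
  obtain ⟨n', hn'⟩ := hβ h⁻¹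
  have h6 : (g⁻¹ * h⁻¹) * β * (g⁻¹ * h⁻¹)⁻¹ = β ^ (m' * n') := by
    have : (g⁻¹ * h⁻¹) * β * (g⁻¹ * h⁻¹)⁻¹ = g⁻¹ * (h⁻¹ * β * h⁻¹⁻¹) * g⁻¹⁻¹ := by group
    rw [this, hn', ← conj_zpow, hm', zpow_mul]
  have h7 : (h⁻¹ * g⁻¹) * β * (h⁻¹ * g⁻¹)⁻¹ = β ^ (m' * n') := by
    have : (h⁻¹ * g⁻¹) * β * (h⁻¹ * g⁻¹)⁻¹ = h⁻¹ * (g⁻¹ * β * g⁻¹⁻¹) * h⁻¹⁻¹ := by group
    rw [this, hm', ← conj_zpow, hn', mul_comm, zpow_mul]
  have h8 : (g⁻¹ * h⁻¹) * β * (g⁻¹ * h⁻¹)⁻¹ = (h⁻¹ * g⁻¹) * β * (h⁻¹ * g⁻¹)⁻¹ := h6.trans h7.symm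
  calc g * h * g⁻¹ * h⁻¹ * β = (g * h) * ((g⁻¹ * h⁻¹) * β * (g⁻¹ * h⁻¹)⁻¹) * (g⁻¹ * h⁻¹) := by group
    _ = (g * h) * ((h⁻¹ * g⁻¹) * β * (h⁻¹ * g⁻¹)⁻¹) * (g⁻¹ * h⁻¹) := by rw [h8]
    _ = β * (g * h * g⁻¹ * h⁻¹) := by group

theorem result {G : Type*} [Group G] (i : ℕ) (hi : 1 ≤ i) (h₁ : IsCyclic (↥(derivedSeries G i) ⧸ (derivedSeries G (i + 1)).subgroupOf (derivedSeries G i))) (h₂ : IsCyclic (↥(derivedSeries G (i + 1)) ⧸ (derivedSeries G (i + 2)).subgroupOf (derivedSeries G (i + 1)))) : derivedSeries G (i + 1) = derivedSeries G (i + 2) := by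
  have hB21 : derivedSeries G (i + 2) ≤ derivedSeries G (i + 1) := derivedSeries_antitone G (by omega)
  have hB10 : derivedSeries G (i + 1) ≤ derivedSeries G i := derivedSeries_antitone G (by omega)
  have hB01 : derivedSeries G i ≤ derivedSeries G 1 := derivedSeries_antitone G hi
  refine le_antisymm ?_ hB21
  have : (derivedSeries G (i + 2)).Normal := derivedSeries_normal G _
  have hn1 : (derivedSeries G (i + 1)).Normal := derivedSeries_normal G _
  set N := derivedSeries G (i + 2) with hN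
  set B := derivedSeries G (i + 1) with hB
  set A := derivedSeries G i with hA
  -- generator of B / N
  obtain ⟨β', hβ'⟩ := h₂.exists_generator
  obtain ⟨b, rfl⟩ := QuotientGroup.mk_surjective β'
  have hgen : ∀ y ∈ B, ∃ k : ℤ, (QuotientGroup.mk' N y) = (QuotientGroup.mk' N (b : G)) ^ k := by
    intro y hy
    obtain ⟨k, hk⟩ := hβ' (QuotientGroup.mk ⟨y, hy⟩)
    refine ⟨k, ?_⟩
    simp only at hk
    rw [← QuotientGroup.mk_zpow, QuotientGroup.eq, Subgroup.mem_subgroupOf] at hk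
    symm
    rw [← map_zpow]
    change (QuotientGroup.mk ((b : G) ^ k) : G ⧸ N) = QuotientGroup.mk y
    rw [QuotientGroup.eq]
    exact hk
  have hcomm : commutator (G ⧸ N) ≤ Subgroup.centralizer {QuotientGroup.mk' N (b : G)} := by
    apply commutator_le_centralizer_of_conj_zpow
    intro g
    obtain ⟨g, rfl⟩ := QuotientGroup.mk'_surjective N g
    obtain ⟨k, hk⟩ := hgen (g * b * g⁻¹) (hn1.conj_mem b b.2 g)
    exact ⟨k, by rw [← hk]; simp⟩
  -- D_1 centralizes B modulo N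
  have hcen : ∀ x ∈ derivedSeries G 1, ∀ y ∈ B, Commute (QuotientGroup.mk' N x) (QuotientGroup.mk' N y) := by
    intro x hx y hy
    have h1 : QuotientGroup.mk' N x ∈ commutator (G ⧸ N) := by
      rw [derivedSeries_one] at hx
      have := Subgroup.map_commutator (⊤ : Subgroup G) ⊤ (QuotientGroup.mk' N)
      rw [commutator_def]
      have h3 : (⊤ : Subgroup (G ⧸ N)) = Subgroup.map (QuotientGroup.mk' N) ⊤ := by
        rw [Subgroup.map_top_of_surjective _ (QuotientGroup.mk'_surjective N)]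
      rw [h3, ← this]
      exact ⟨x, hx, rfl⟩
    have h2 := hcomm h1
    rw [Subgroup.mem_centralizer_singleton_iff] at h2
    obtain ⟨k, hk⟩ := hgen y hy
    rw [hk]
    exact Commute.zpow_right h2 k
  -- A / N is abelian
  have hnA : (B.subgroupOf A).Normal := inferInstance
  have hab : ∀ x ∈ A, ∀ y ∈ A, Commute (QuotientGroup.mk' N x) (QuotientGroup.mk' N y) := by
    -- use a generator of A / B
    obtain ⟨α', hα'⟩ := h₁.exists_generator
    obtain ⟨a, rfl⟩ := QuotientGroup.mk_surjective α'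
    have hgenA : ∀ y ∈ A, ∃ k : ℤ, ∃ c ∈ B, y = (a : G) ^ k * c := by
      intro y hy
      obtain ⟨k, hk⟩ := hα' (QuotientGroup.mk ⟨y, hy⟩)
      refine ⟨k, (a : G) ^ (-k) * y, ?_, by group⟩
      simp only at hk
      rw [← QuotientGroup.mk_zpow, QuotientGroup.eq, Subgroup.mem_subgroupOf] at hk
      rw [zpow_neg]
      exact hk
    intro x hx y hy
    obtain ⟨k, c, hc, rfl⟩ := hgenA x hx
    obtain ⟨l, d, hd, rfl⟩ := hgenA y hy
    have ha1 : (a : G) ∈ derivedSeries G 1 := hB01 a.2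
    simp only [map_mul, map_zpow]
    have e1 : Commute (QuotientGroup.mk' N (a : G)) (QuotientGroup.mk' N d) := hcen _ ha1 _ hd
    have e2 : Commute (QuotientGroup.mk' N (a : G)) (QuotientGroup.mk' N c) := hcen _ ha1 _ hc
    have e3 : Commute (QuotientGroup.mk' N c) (QuotientGroup.mk' N d) := hcen _ (hB01 (hB10 hc)) _ hd
    have e4 : Commute ((QuotientGroup.mk' N (a : G)) ^ k) ((QuotientGroup.mk' N (a : G)) ^ l) :=
      (Commute.refl _).zpow_zpow k l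
    refine Commute.mul_left (Commute.mul_right e4 (e1.zpow_left k)) (Commute.mul_right (e2.symm.zpow_right l) e3)
  rw [hB, derivedSeries_succ, Subgroup.commutator_le]
  intro x hx y hy
  have := hab x hx y hy
  rw [← QuotientGroup.ker_mk' N, MonoidHom.mem_ker, map_commutatorElement, commutatorElement_eq_one_iff_commute]
  exact this

end Cfsg.Agent.S0555
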