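import Cfsg.Statements.S0558
import Cfsg.Agent.S0079

set_option autoImplicit false
open Cfsg

namespace Cfsg.Agent.S0558

section
variable {G : Type*} [Group G] [Finite G] (H : Subgroup G)

/-- A Sylow subgroup of `H` whose normalizer is `H` is a Sylow subgroup of `G`. -/
theorem not_dvd_index (p : ℕ) [Fact p.Prime] (P : Sylow p H)
    (h : Subgroup.normalizer (((P : Subgroup H).map H.subtype : Subgroup G) : Set G) = H) :
    ¬ p ∣ ((P : Subgroup H).map H.subtype).index := by
  have hp : p.Prime := Fact.out
  intro hd
  have hcP : Nat.card ((P : Subgroup H).map H.subtype) = p ^ (Nat.card H).factorization p := by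
    rw [Nat.card_congr ((P : Subgroup H).equivMapOfInjective H.subtype H.subtype_injective).symm.toEquiv]
    exact P.card_eq_multiplicity
  have hdvd : p ^ ((Nat.card H).factorization p + 1) ∣ Nat.card G := by
    rw [← Subgroup.card_mul_index ((P : Subgroup H).map H.subtype), hcP, pow_succ]
    exact Nat.mul_dvd_mul_left _ hd
  have h1 := Sylow.prime_pow_dvd_card_normalizer hdvd hcP
  rw [h] at h1
  exact Nat.pow_succ_factorization_not_dvd (Nat.card_pos (α := H)).ne' hp h1

end

/-- Let H be a subgroup of a finite group G that is not a Sylow subgroup of G for any prime, and suppose that for every prime p dividing the order of H and every Sylow p-subgroup P of H the normalizer of P in G is exactly H. Then some normal subgroup of G is a complement to H. -/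
theorem result {G : Type*} [Group G] [Finite G] (H : Subgroup G) (hnot : ∀ p : ℕ, p.Prime → ∀ P : Sylow p G, (P : Subgroup G) ≠ H) (hnorm : ∀ p : ℕ, p.Prime → p ∣ Nat.card H → ∀ P : Sylow p H, Subgroup.normalizer (((P : Subgroup H).map H.subtype : Subgroup G) : Set G) = H) : ∃ N : Subgroup G, N.Normal ∧ Subgroup.IsComplement' N H := by
  classical
  -- Sylow subgroups of `H` are normal in `H`
  have hnormal : ∀ p : ℕ, p.Prime → p ∣ Nat.card H → ∀ P : Sylow p H, (P : Subgroup H).Normal := by
    intro p hp hd P
    constructor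
    intro x hx g
    have hg : (g : G) ∈ Subgroup.normalizer (((P : Subgroup H).map H.subtype : Subgroup G) : Set G) := by
      rw [hnorm p hp hd P]; exact g.2
    rw [Subgroup.mem_normalizer_iff] at hg
    obtain ⟨y, hy, hyx⟩ := (hg x).mp ⟨x, hx, rfl⟩
    have : y = g * x * g⁻¹ := Subtype.ext hyx
    rw [← this]; exact hy
  -- the Sylow subgroup of `G`
  have hSyl : ∀ p : ℕ, (hp : p.Prime) → p ∣ Nat.card H → ∀ P : Sylow p H,
      ∃ Q : Sylow p G, (Q : Subgroup G) = (P : Subgroup H).map H.subtype := by
    intro p hp hd P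
    have := Fact.mk hp
    have h1 : IsPGroup p ((P : Subgroup H).map H.subtype) := P.isPGroup'.map H.subtype
    exact ⟨h1.toSylow (not_dvd_index H p P (hnorm p hp hd P)), rfl⟩
  -- another prime
  have hother : ∀ p : ℕ, p.Prime → p ∣ Nat.card H → ∃ q : ℕ, q.Prime ∧ q ≠ p ∧ q ∣ Nat.card H := by
    intro p hp hd
    by_contra hcon
    push Not at hcon
    have := Fact.mk hp
    have hH : IsPGroup p H := by
      rw [IsPGroup.iff_card]
      refine ⟨_, Nat.eq_prime_pow_of_unique_prime_dvd (Nat.card_pos (α := H)).ne' ?_⟩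
      intro d hdp hdd
      by_contra hne
      exact hcon d hdp hne hdd
    obtain ⟨P⟩ : Nonempty (Sylow p H) := inferInstance
    obtain ⟨Q, hQ⟩ := hSyl p hp hd P
    have hPt : (P : Subgroup H) = ⊤ := by
      have h1 : IsPGroup p (⊤ : Subgroup H) := hH.to_subgroup ⊤
      exact (P.is_maximal' h1 le_top).symm
    apply hnot p hp Q
    rw [hQ, hPt, ← MonoidHom.range_eq_map, Subgroup.range_subtype]
  -- normal complements of the Sylow subgroups
  have hN : ∀ p : ℕ, p.Prime → p ∣ Nat.card H → ∃ N : Subgroup G, N.Normal ∧ ¬ p ∣ Nat.card N ∧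
      N.index = p ^ (Nat.card H).factorization p := by
    intro p hp hd
    have := Fact.mk hp
    obtain ⟨P⟩ : Nonempty (Sylow p H) := inferInstance
    obtain ⟨PG, hPG⟩ := hSyl p hp hd P
    have hPn := hnormal p hp hd P
    obtain ⟨q, hq, hqp, hqd⟩ := hother p hp hd
    have := Fact.mk hq
    -- commuting of Sylow subgroups
    have hcomm : ∀ r : ℕ, r.Prime → r ≠ p → r ∣ Nat.card H → ∀ R : Sylow r H, ∀ x ∈ (P : Subgroup H), ∀ y ∈ (R : Subgroup H), x * y = y * x := by
      intro r hr hrp hrd R x hx y hy
      have := Fact.mk hr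
      have hRn := hnormal r hr hrd R
      have hdis : Disjoint (P : Subgroup H) (R : Subgroup H) :=
        IsPGroup.disjoint_of_ne p r (Ne.symm hrp) _ _ P.isPGroup' R.isPGroup'
      exact Subgroup.commute_of_normal_of_disjoint _ _ hPn hRn hdis x y hx hy
    have hcP : Nat.card PG = p ^ (Nat.card H).factorization p := by
      have h1 : Nat.card (PG : Subgroup G) = Nat.card ((P : Subgroup H).map H.subtype) := by rw [hPG]
      show Nat.card (PG : Subgroup G) = _
      rw [h1, Nat.card_congr ((P : Subgroup H).equivMapOfInjective H.subtype H.subtype_injective).symm.toEquiv]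
      exact P.card_eq_multiplicity
    have hfus : ∀ x ∈ (PG : Subgroup G), ∀ y ∈ (PG : Subgroup G), (∃ g : G, g * x * g⁻¹ = y) → ∃ h ∈ (PG : Subgroup G), h * x * h⁻¹ = y := by
      rintro x hx y hy ⟨g, hg⟩
      rw [hPG] at hx hy ⊢
      obtain ⟨x', hx', rfl⟩ := hx
      obtain ⟨y', hy', rfl⟩ := hy
      -- first: conjugate in `H`
      have h1 : ∃ h : H, h * x' * h⁻¹ = y' := by
        obtain ⟨R⟩ : Nonempty (Sylow q H) := inferInstance
        obtain ⟨RG, hRG⟩ := hSyl q hq hqd R
        have hRx : (RG : Subgroup G) ≤ Subgroup.centralizer {(H.subtype x')} := by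
          rw [hRG]
          rintro _ ⟨r, hr, rfl⟩
          rw [Subgroup.mem_centralizer_singleton_iff]
          have := hcomm q hq hqp hqd R x' hx' r hr
          exact congrArg Subtype.val this.symm
        have hRy : (RG : Subgroup G) ≤ Subgroup.centralizer {(H.subtype y')} := by
          rw [hRG]
          rintro _ ⟨r, hr, rfl⟩
          rw [Subgroup.mem_centralizer_singleton_iff]
          have := hcomm q hq hqp hqd R y' hy' r hr
          exact congrArg Subtype.val this.symm
        have hRgy : ((g • RG : Sylow q G) : Subgroup G) ≤ Subgroup.centralizer {(H.subtype y')} := by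
          rw [Sylow.coe_subgroup_smul]
          rintro _ ⟨r, hr, rfl⟩
          rw [Subgroup.mem_centralizer_singleton_iff, ← hg]
          have := hRx hr
          rw [Subgroup.mem_centralizer_singleton_iff] at this
          show (g * r * g⁻¹) * (g * H.subtype x' * g⁻¹) = (g * H.subtype x' * g⁻¹) * (g * r * g⁻¹)
          calc (g * r * g⁻¹) * (g * H.subtype x' * g⁻¹) = g * (r * H.subtype x') * g⁻¹ := by group
            _ = g * (H.subtype x' * r) * g⁻¹ := by rw [this]
            _ = _ := by group
        obtain ⟨c, hc⟩ := MulAction.exists_smul_eq (Subgroup.centralizer {(H.subtype y')})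
          ((g • RG).subtype hRgy) (RG.subtype hRy)
        have hc2 : (c : G) • (g • RG) = RG := by
          rw [Sylow.smul_subtype] at hc
          exact Sylow.subtype_injective hc
        have hcg : ((c : G) * g) ∈ H := by
          rw [← mul_smul] at hc2
          have h3 : (c : G) * g ∈ Subgroup.normalizer ((RG : Subgroup G) : Set G) :=
            Sylow.smul_eq_iff_mem_normalizer.mp hc2
          rw [hRG] at h3
          exact (hnorm q hq hqd R).le h3
        refine ⟨⟨(c : G) * g, hcg⟩, ?_⟩
        apply Subtype.ext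
        show (c : G) * g * H.subtype x' * ((c : G) * g)⁻¹ = H.subtype y'
        have hcy := Subgroup.mem_centralizer_singleton_iff.mp c.2
        calc (c : G) * g * H.subtype x' * ((c : G) * g)⁻¹ = (c : G) * (g * H.subtype x' * g⁻¹) * (c : G)⁻¹ := by group
          _ = (c : G) * H.subtype y' * (c : G)⁻¹ := by rw [hg]
          _ = H.subtype y' * (c : G) * (c : G)⁻¹ := by rw [hcy]
          _ = H.subtype y' := by group
      obtain ⟨h, hh⟩ := h1
      -- `H = P C_H(x')`
      set C := Subgroup.centralizer {x'} with hC
      have hCtop : (P : Subgroup H) ⊔ C = ⊤ := by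
        rw [← Subgroup.index_eq_one]
        by_contra hne
        obtain ⟨r, hr, hrd⟩ := Nat.exists_prime_and_dvd hne
        have := Fact.mk hr
        have hrP : r ∣ (P : Subgroup H).index := hrd.trans (Subgroup.index_dvd_of_le le_sup_left)
        have hrC : r ∣ C.index := hrd.trans (Subgroup.index_dvd_of_le le_sup_right)
        by_cases hrp : r = p
        · subst hrp
          exact P.not_dvd_index hrP
        · obtain ⟨R⟩ : Nonempty (Sylow r H) := inferInstance
          have hrH : r ∣ Nat.card H := hrP.trans (Subgroup.index_dvd_card _)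
          have hRC : (R : Subgroup H) ≤ C := by
            intro z hz
            rw [hC, Subgroup.mem_centralizer_singleton_iff]
            exact (hcomm r hr hrp hrH R x' hx' z hz).symm
          exact R.not_dvd_index (hrC.trans (Subgroup.index_dvd_of_le hRC))
      have hmem : h ∈ (P : Subgroup H) ⊔ C := by rw [hCtop]; trivial
      obtain ⟨u, hu, c, hc, hucc⟩ := Subgroup.mem_sup_of_normal_left.mp hmem
      refine ⟨H.subtype u, ⟨u, hu, rfl⟩, ?_⟩
      rw [← map_inv, ← map_mul, ← map_mul]
      congr 1
      rw [← hh, ← hucc]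
      have hcx := Subgroup.mem_centralizer_singleton_iff.mp hc
      calc u * x' * u⁻¹ = u * (x' * c) * c⁻¹ * u⁻¹ := by group
        _ = u * (c * x') * c⁻¹ * u⁻¹ := by rw [hcx]
        _ = u * c * x' * (u * c)⁻¹ := by group
    have hnil : Group.IsNilpotent (PG : Subgroup G) := PG.isPGroup'.isNilpotent
    have hHall : Nat.Coprime (Nat.card (PG : Subgroup G)) (PG : Subgroup G).index := PG.card_coprime_index
    obtain ⟨N, hNn, hNc⟩ := (S0079.result (PG : Subgroup G) hnil hHall).mpr hfus
    refine ⟨N, hNn, ?_, ?_⟩
    · have h1 : (PG : Subgroup G).index = Nat.card N := hNc.index_eq_card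
      rw [← h1]; exact PG.not_dvd_index
    · rw [hNc.symm.index_eq_card]; exact hcP
  choose! N hNn hNc hNi using hN
  let ι := {p // p ∈ (Nat.card H).primeFactors}
  let K : Subgroup G := ⨅ p : ι, N p.1
  have hKn : K.Normal := by
    apply Subgroup.normal_iInf_normal
    intro p
    exact hNn p.1 (Nat.prime_of_mem_primeFactors p.2) (Nat.dvd_of_mem_primeFactors p.2)
  have hidx : K.index ≤ Nat.card H := by
    refine (Subgroup.index_iInf_le _).trans ?_
    have h1 : ∀ p : ι, (N p.1).index = p.1 ^ (Nat.card H).factorization p.1 := fun p =>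
      hNi p.1 (Nat.prime_of_mem_primeFactors p.2) (Nat.dvd_of_mem_primeFactors p.2)
    simp_rw [h1]
    rw [Finset.prod_coe_sort (Nat.card H).primeFactors (fun p => p ^ (Nat.card H).factorization p)]
    apply le_of_eq
    exact Nat.prod_factorization_pow_eq_self (Nat.card_pos (α := H)).ne'
  have hdis : K ⊓ H = ⊥ := by
    rw [← Subgroup.card_eq_one]
    by_contra hne
    obtain ⟨r, hr, hrd⟩ := Nat.exists_prime_and_dvd hne
    have hrH : r ∣ Nat.card H := hrd.trans (Subgroup.card_dvd_of_le inf_le_right)
    have hrK : r ∣ Nat.card (N r) := by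
      refine hrd.trans (Subgroup.card_dvd_of_le (inf_le_left.trans ?_))
      exact iInf_le (fun p : ι => N p.1) ⟨r, Nat.mem_primeFactors.mpr ⟨hr, hrH, (Nat.card_pos (α := H)).ne'⟩⟩
    exact hNc r hr hrH hrK
  refine ⟨K, hKn, ?_⟩
  apply Subgroup.isComplement'_of_card_mul_and_disjoint _ (disjoint_iff.mpr hdis)
  have h1 : Nat.card K * K.index = Nat.card G := Subgroup.card_mul_index K
  have hle : Nat.card G ≤ Nat.card K * Nat.card H := by
    rw [← h1]; exact Nat.mul_le_mul_left _ hidx
  have hge : Nat.card K * Nat.card H ≤ Nat.card G := by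
    rw [← Nat.card_prod]
    apply Nat.card_le_card_of_injective (fun x : K × H => (x.1 : G) * x.2)
    exact Subgroup.mul_injective_of_disjoint (disjoint_iff.mpr hdis)
  omega

end Cfsg.Agent.S0558
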