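import Cfsg.Statements.S0556
import Cfsg.Agent.S0079
import Cfsg.Agent.S0558
import Cfsg.Agent.Hall.Basic
import Cfsg.Agent.H10.Prim

set_option autoImplicit false
open Cfsg

namespace Cfsg.Agent.S0556

open Pointwise in
theorem core {G : Type*} [Group G] [Finite G] (A : Subgroup G) (hA : IsCoatom A)
    (hab : IsMulCommutative A) (hfpf : ∀ g : G, g ∉ A → ∀ x ∈ A, g * x * g⁻¹ ∈ A → x = 1) :
    derivedSeries G 2 = ⊥ := by
  classical
  have hcomm : ∀ a ∈ A, ∀ b ∈ A, a * b = b * a := fun a ha b hb =>
    congrArg Subtype.val (mul_comm' (⟨a, ha⟩ : A) ⟨b, hb⟩)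
  -- `A` is a Hall subgroup
  have hHall : Nat.Coprime (Nat.card A) A.index := by
    apply Nat.Coprime.symm
    rw [Nat.coprime_iff_gcd_eq_one]
    by_contra hne
    obtain ⟨p, hp, hpd⟩ := Nat.exists_prime_and_dvd hne
    have hpi : p ∣ A.index := hpd.trans (Nat.gcd_dvd_left _ _)
    have hpc : p ∣ Nat.card A := hpd.trans (Nat.gcd_dvd_right _ _)
    have := Fact.mk hp
    obtain ⟨P⟩ : Nonempty (Sylow p A) := inferInstance
    have hn : Subgroup.normalizer (((P : Subgroup A).map A.subtype : Subgroup G) : Set G) = A := by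
      apply le_antisymm
      · intro g hg
        by_contra hgA
        have hPb : (P : Subgroup A) ≠ ⊥ := P.ne_bot_of_dvd_card hpc
        obtain ⟨x, hx⟩ := Subgroup.ne_bot_iff_exists_ne_one.mp hPb
        rw [Subgroup.mem_normalizer_iff] at hg
        have h1 := (hg (x : A)).mp ⟨x, x.2, rfl⟩
        have h2 : g * ((x : A) : G) * g⁻¹ ∈ A := by
          obtain ⟨y, _, hy⟩ := h1
          rw [← hy]; exact y.2
        have h3 := hfpf g hgA (x : A) (x : A).2 h2
        apply hx
        exact Subtype.ext (Subtype.ext h3)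
      · apply H10.le_normalizer_of_conj_mem
        rintro u hu _ ⟨y, hy, rfl⟩
        have : u * (y : G) * u⁻¹ = y := by
          rw [hcomm u hu y y.2, mul_inv_cancel_right]
        rw [Subgroup.coe_subtype, this]
        exact ⟨y, hy, rfl⟩
    have h4 := S0558.not_dvd_index A p P hn
    apply h4
    refine hpi.trans (Subgroup.index_dvd_of_le ?_)
    rintro _ ⟨y, _, rfl⟩
    exact y.2
  have hnil : Group.IsNilpotent A := by
    let _ : CommGroup A := { (inferInstance : Group A) with mul_comm := mul_comm' }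
    infer_instance
  have hfus : ∀ x ∈ A, ∀ y ∈ A, (∃ g : G, g * x * g⁻¹ = y) → ∃ h ∈ A, h * x * h⁻¹ = y := by
    rintro x hx y hy ⟨g, hg⟩
    by_cases hgA : g ∈ A
    · exact ⟨g, hgA, hg⟩
    · have h1 := hfpf g hgA x hx (by rw [hg]; exact hy)
      refine ⟨1, A.one_mem, ?_⟩
      rw [← hg, h1]; group
  obtain ⟨K, hKn, hKc⟩ := (S0079.result A hnil hHall).mpr hfus
  have hKA : K ⊓ A = ⊥ := disjoint_iff.mp hKc.disjoint
  have hKA' : K ⊔ A = ⊤ := hKc.sup_eq_top
  have hKcard : K.index = Nat.card A := hKc.symm.index_eq_card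
  have hAcard : A.index = Nat.card K := hKc.index_eq_card
  have hcop : (Nat.card K).Coprime K.index := by rw [hKcard, ← hAcard]; exact hHall.symm
  have hKb : K ≠ ⊥ := by
    rintro rfl
    rw [bot_sup_eq] at hKA'
    exact hA.1 hKA'
  -- `G / K` is commutative
  have hquot : commutator G ≤ K := by
    rw [commutator_def, Subgroup.commutator_le]
    intro g₁ _ g₂ _
    have h1 : g₁ ∈ K ⊔ A := by rw [hKA']; trivial
    have h2 : g₂ ∈ K ⊔ A := by rw [hKA']; trivial
    obtain ⟨k₁, hk₁, a₁, ha₁, rfl⟩ := Subgroup.mem_sup_of_normal_left.mp h1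
    obtain ⟨k₂, hk₂, a₂, ha₂, rfl⟩ := Subgroup.mem_sup_of_normal_left.mp h2
    rw [← QuotientGroup.eq_one_iff]
    have e1 : ((k₁ * a₁ : G) : G ⧸ K) = (a₁ : G ⧸ K) := by
      rw [QuotientGroup.mk_mul, (QuotientGroup.eq_one_iff k₁).mpr hk₁, one_mul]
    have e2 : ((k₂ * a₂ : G) : G ⧸ K) = (a₂ : G ⧸ K) := by
      rw [QuotientGroup.mk_mul, (QuotientGroup.eq_one_iff k₂).mpr hk₂, one_mul]
    rw [commutatorElement_def, QuotientGroup.mk_mul, QuotientGroup.mk_mul, QuotientGroup.mk_mul,
      QuotientGroup.mk_inv, QuotientGroup.mk_inv, e1, e2, ← QuotientGroup.mk_inv, ← QuotientGroup.mk_inv,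
      ← QuotientGroup.mk_mul, ← QuotientGroup.mk_mul, ← QuotientGroup.mk_mul, hcomm a₁ ha₁ a₂ ha₂]
    rw [mul_inv_cancel_right, mul_inv_cancel]
    rfl
  have hsolq : Group.IsSolvable (G ⧸ K) := by
    have h1 : IsMulCommutative (G ⧸ K) := (Subgroup.Normal.quotient_commutative_iff_commutator_le (N := K)).mpr hquot
    let _ : CommGroup (G ⧸ K) := { (inferInstance : Group (G ⧸ K)) with mul_comm := mul_comm' }
    infer_instance
  -- an `A`-invariant Sylow subgroup of `K`
  have hKnt : Nat.card K ≠ 1 := by rwa [Ne, Subgroup.card_eq_one]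
  obtain ⟨q, hq, hqK⟩ := Nat.exists_prime_and_dvd hKnt
  have := Fact.mk hq
  obtain ⟨Q⟩ : Nonempty (Sylow q K) := inferInstance
  set Q' : Subgroup G := (Q : Subgroup K).map K.subtype with hQ'
  have hQ'K : Q' ≤ K := by
    rintro _ ⟨y, _, rfl⟩
    exact y.2
  have hQ'b : Q' ≠ ⊥ := by
    rw [hQ', Ne, Subgroup.map_eq_bot_iff_of_injective _ K.subtype_injective]
    exact Q.ne_bot_of_dvd_card hqK
  have hFr := Sylow.normalizer_sup_eq_top Q
  set L := Subgroup.normalizer (Q' : Set G) with hL
  have hidxL : (K.subgroupOf L).index = K.index := by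
    have h1 : K.relIndex (L ⊔ K) = K.relIndex L := Subgroup.relIndex_sup_right _ _
    rw [hFr, Subgroup.relIndex_top_right] at h1
    exact h1.symm
  have hcopL : Nat.Coprime (Nat.card (K.subgroupOf L)) (K.subgroupOf L).index := by
    rw [hidxL]
    refine Nat.Coprime.coprime_dvd_left ?_ hcop
    exact Subgroup.card_comap_dvd_of_injective K L.subtype L.subtype_injective
  obtain ⟨B, hB⟩ := Subgroup.exists_right_complement'_of_coprime hcopL
  have hBcard : Nat.card (B.map L.subtype) = K.index := by
    rw [Nat.card_congr (B.equivMapOfInjective L.subtype L.subtype_injective).symm.toEquiv, ← hidxL]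
    exact hB.symm.index_eq_card.symm
  have hBc : Subgroup.IsComplement' K (B.map L.subtype) :=
    (Hall.isComplement'_iff_of_coprime hcop).mpr hBcard
  obtain ⟨g, hg⟩ := Hall.sz_conj K hcop (Or.inr hsolq) _ _ hBc hKc
  set R : Subgroup G := MulAut.conj g • Q' with hR
  have hRK : R ≤ K := by
    rintro _ ⟨y, hy, rfl⟩
    exact hKn.conj_mem y (hQ'K hy) g
  have hRb : R ≠ ⊥ := by
    intro h
    apply hQ'b
    rw [hR] at h
    exact (Subgroup.map_eq_bot_iff_of_injective _ (MulAut.conj g).injective).mp h
  have hAR : A ≤ Subgroup.normalizer (R : Set G) := by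
    rw [← hg]
    apply H10.le_normalizer_of_conj_mem
    rintro _ ⟨_, ⟨b, _, rfl⟩, rfl⟩ _ ⟨y, hy, rfl⟩
    refine ⟨(b : G) * y * (b : G)⁻¹, ?_, ?_⟩
    · exact (Subgroup.mem_normalizer_iff.mp b.2 y).mp hy
    · simp [MulAut.smul_def, mul_assoc]
  have hARtop : A ⊔ R = ⊤ := by
    rcases hA.le_iff.mp (le_sup_left : A ≤ A ⊔ R) with h | h
    · exact h
    · exfalso
      apply hRb
      have : R ≤ A := le_sup_right.trans h.le
      rw [eq_bot_iff, ← hKA]
      exact le_inf hRK this
  have hKR : K = R := by
    apply le_antisymm _ hRK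
    intro k hk
    have h1 : k ∈ R ⊔ A := by rw [sup_comm, hARtop]; trivial
    rw [sup_comm] at h1
    have h3 : ((A ⊔ R : Subgroup G) : Set G) = A * R := Subgroup.coe_mul_of_left_le_normalizer_right A R hAR
    rw [← SetLike.mem_coe, h3] at h1
    obtain ⟨a, ha, r, hr, rfl⟩ := h1
    have h4 : a ∈ K ⊓ A := ⟨by
      have := K.mul_mem hk (K.inv_mem (hRK hr))
      simpa using this, ha⟩
    rw [hKA, Subgroup.mem_bot] at h4
    rw [h4]
    show (1 : G) * r ∈ R
    rw [one_mul]; exact hr
  have hKq : IsPGroup q K := by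
    rw [hKR, hR, hQ']
    exact (Q.isPGroup'.map K.subtype).map (MulAut.conj g).toMonoidHom
  have hKnil : Group.IsNilpotent K := hKq.isNilpotent
  have hKder : ⁅K, K⁆ = ⊥ := by
    have hnorm : (⁅K, K⁆ : Subgroup G).Normal := inferInstance
    rcases hA.le_iff.mp (le_sup_left : A ≤ A ⊔ ⁅K, K⁆) with h | h
    · exfalso
      have h1 : K ≤ ⁅K, K⁆ := by
        intro k hk
        have h2 : k ∈ A ⊔ ⁅K, K⁆ := by rw [h]; trivial
        obtain ⟨a, ha, r, hr, rfl⟩ := Subgroup.mem_sup_of_normal_right.mp h2
        have hrK : r ∈ K := Subgroup.commutator_le_self K hr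
        have h4 : a ∈ K ⊓ A := ⟨by
          have := K.mul_mem hk (K.inv_mem hrK)
          simpa using this, ha⟩
        rw [hKA, Subgroup.mem_bot] at h4
        rw [h4, one_mul]; exact hr
      have hKnt' : Nontrivial K := (Subgroup.nontrivial_iff_ne_bot K).mpr hKb
      have hsolK : Group.IsSolvable K := inferInstance
      have h5 : commutator K < ⊤ := Group.IsSolvable.commutator_lt_top_of_nontrivial K
      apply h5.ne
      have h2 := Subgroup.map_subtype_commutator K
      rw [le_antisymm (Subgroup.commutator_le_self K) h1] at h2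
      have h3 : (commutator K).map K.subtype = (⊤ : Subgroup K).map K.subtype := by
        rw [h2, ← MonoidHom.range_eq_map, Subgroup.range_subtype]
      exact Subgroup.map_injective K.subtype_injective h3
    · have h1 : ⁅K, K⁆ ≤ A := le_sup_right.trans h.le
      rw [eq_bot_iff, ← hKA]
      exact le_inf (Subgroup.commutator_le_self K) h1
  rw [eq_bot_iff, ← hKder]
  show derivedSeries G 2 ≤ _
  rw [derivedSeries_succ, derivedSeries_one]
  exact Subgroup.commutator_mono hquot hquot

/-- If a finite group has a maximal subgroup that is abelian, then the third term of its derived series is trivial (so the group is solvable of derived length at most three). -/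
theorem result {G : Type*} [Group G] [Finite G] (A : Subgroup G) (hA : IsCoatom A) [IsMulCommutative A] : derivedSeries G 3 = ⊥ := by
  have hcomm : ∀ a ∈ A, ∀ b ∈ A, a * b = b * a := fun a ha b hb =>
    congrArg Subtype.val (mul_comm' (⟨a, ha⟩ : A) ⟨b, hb⟩)
  have hAA : ⁅A, A⁆ = ⊥ := Subgroup.commutator_self_eq_bot_iff.mpr inferInstance
  by_cases hn : A.Normal
  · -- `G / A` is cyclic
    have h1 : commutator G ≤ A := by
      obtain ⟨x, hx⟩ : ∃ x : G, x ∉ A := by
        by_contra hcon
        push Not at hcon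
        exact hA.1 (by rw [eq_top_iff]; exact fun y _ => hcon y)
      have htop : A ⊔ Subgroup.zpowers x = ⊤ := by
        rcases hA.le_iff.mp (le_sup_left : A ≤ A ⊔ Subgroup.zpowers x) with h | h
        · exact h
        · exfalso
          apply hx
          rw [← h]
          exact Subgroup.mem_sup_right (Subgroup.mem_zpowers x)
      have key : ∀ g : G, ∃ n : ℤ, (g : G ⧸ A) = (x : G ⧸ A) ^ n := by
        intro g
        have hg : g ∈ A ⊔ Subgroup.zpowers x := by rw [htop]; trivial
        obtain ⟨a, ha, y, hy, rfl⟩ := Subgroup.mem_sup_of_normal_left.mp hg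
        obtain ⟨n, rfl⟩ := Subgroup.mem_zpowers_iff.mp hy
        refine ⟨n, ?_⟩
        rw [QuotientGroup.mk_mul, (QuotientGroup.eq_one_iff a).mpr ha, one_mul, QuotientGroup.mk_zpow]
      rw [commutator_def, Subgroup.commutator_le]
      intro g₁ _ g₂ _
      obtain ⟨m, hm⟩ := key g₁
      obtain ⟨n, hn⟩ := key g₂
      rw [← QuotientGroup.eq_one_iff, commutatorElement_def, QuotientGroup.mk_mul, QuotientGroup.mk_mul, QuotientGroup.mk_mul,
        QuotientGroup.mk_inv, QuotientGroup.mk_inv, hm, hn, ← zpow_neg, ← zpow_neg, ← zpow_add, ← zpow_add, ← zpow_add]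
      have : m + n + -m + -n = 0 := by ring
      rw [this, zpow_zero]
    have h2 : derivedSeries G 2 = ⊥ := by
      rw [derivedSeries_succ, derivedSeries_one, eq_bot_iff, ← hAA]
      exact Subgroup.commutator_mono h1 h1
    rw [derivedSeries_succ, h2, Subgroup.commutator_bot_left]
  · have hN : Subgroup.normalizer (A : Set G) = A := by
      rcases hA.le_iff.mp (Subgroup.le_normalizer : A ≤ Subgroup.normalizer (A : Set G)) with h | h
      · exact absurd (Subgroup.normalizer_eq_top_iff.mp h) hn
      · exact h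
    set Z := Subgroup.center G with hZ
    have hZA : Z ≤ A := by
      intro z hz
      rw [← hN, Subgroup.mem_normalizer_iff]
      intro y
      have h1 := (Subgroup.mem_center_iff.mp hz) y
      rw [← h1, mul_inv_cancel_right]
    have hTI : ∀ g : G, g ∉ A → ∀ x ∈ A, g * x * g⁻¹ ∈ A → x ∈ Z := by
      intro g hg x hx hgx
      -- the centralizer of `x` contains `A` and `g⁻¹ A g`
      have hCA : A ≤ Subgroup.centralizer {x} := by
        intro a ha
        rw [Subgroup.mem_centralizer_singleton_iff]
        exact hcomm a ha x hx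
      rcases hA.le_iff.mp hCA with h | h
      · rw [hZ, Subgroup.mem_center_iff]
        intro y
        have : y ∈ Subgroup.centralizer {x} := by rw [h]; trivial
        exact Subgroup.mem_centralizer_singleton_iff.mp this
      · exfalso
        -- `g⁻¹ A g ≤ A`
        apply hg
        rw [← hN]
        have hsub : ∀ a ∈ A, g⁻¹ * a * g ∈ A := by
          intro a ha
          rw [← h, Subgroup.mem_centralizer_singleton_iff]
          have h1 := hcomm a ha _ hgx
          calc g⁻¹ * a * g * x = g⁻¹ * (a * (g * x * g⁻¹)) * g := by group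
            _ = g⁻¹ * ((g * x * g⁻¹) * a) * g := by rw [h1]
            _ = x * (g⁻¹ * a * g) := by group
        have h2 : g⁻¹ ∈ Subgroup.normalizer (A : Set G) := by
          apply Subgroup.mem_normalizer_fintype
          intro a ha
          simpa using hsub a ha
        have := (Subgroup.normalizer (A : Set G)).inv_mem h2
        simpa using this
    have hker : (QuotientGroup.mk' Z).ker = Z := QuotientGroup.ker_mk' Z
    have hcoatom : IsCoatom (A.map (QuotientGroup.mk' Z)) := by
      constructor
      · intro h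
        have h1 := congrArg (Subgroup.comap (QuotientGroup.mk' Z)) h
        rw [Subgroup.comap_map_eq, hker, sup_eq_left.mpr hZA, Subgroup.comap_top] at h1
        exact hA.1 h1
      · intro B hB
        have h1 : A < B.comap (QuotientGroup.mk' Z) := by
          apply lt_of_le_of_ne
          · exact (Subgroup.le_comap_map _ _).trans (Subgroup.comap_mono hB.le)
          · intro h
            apply hB.ne
            rw [h, Subgroup.map_comap_eq_self_of_surjective (QuotientGroup.mk'_surjective Z)]
        have h2 := hA.2 _ h1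
        rw [← Subgroup.map_comap_eq_self_of_surjective (QuotientGroup.mk'_surjective Z) B, h2,
          Subgroup.map_top_of_surjective _ (QuotientGroup.mk'_surjective Z)]
    have hmem : ∀ x : G, (x : G ⧸ Z) ∈ A.map (QuotientGroup.mk' Z) ↔ x ∈ A := by
      intro x
      constructor
      · rintro ⟨a, ha, hax⟩
        have h1 : a⁻¹ * x ∈ Z := QuotientGroup.eq.mp hax
        have := A.mul_mem ha (hZA h1)
        simpa using this
      · intro hx
        exact ⟨x, hx, rfl⟩
    have hbar : derivedSeries (G ⧸ Z) 2 = ⊥ := by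
      apply core (A.map (QuotientGroup.mk' Z)) hcoatom
      · constructor
        constructor
        rintro ⟨_, a, ha, rfl⟩ ⟨_, b, hb, rfl⟩
        apply Subtype.ext
        show (QuotientGroup.mk' Z) a * (QuotientGroup.mk' Z) b = (QuotientGroup.mk' Z) b * (QuotientGroup.mk' Z) a
        rw [← map_mul, ← map_mul, hcomm a ha b hb]
      · intro g hg x hx hgx
        obtain ⟨g, rfl⟩ := QuotientGroup.mk_surjective g
        obtain ⟨x, rfl⟩ := QuotientGroup.mk_surjective x
        rw [hmem] at hg hx
        rw [← QuotientGroup.mk_inv, ← QuotientGroup.mk_mul, ← QuotientGroup.mk_mul, hmem] at hgx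
        exact (QuotientGroup.eq_one_iff x).mpr (hTI g hg x hx hgx)
    have h1 : derivedSeries G 2 ≤ Z := by
      have h2 := map_derivedSeries_le_derivedSeries (QuotientGroup.mk' Z) 2
      rw [hbar, le_bot_iff, Subgroup.map_eq_bot_iff, hker] at h2
      exact h2
    rw [derivedSeries_succ, eq_bot_iff]
    refine (Subgroup.commutator_mono h1 h1).trans ?_
    rw [← hAA]
    exact Subgroup.commutator_mono hZA hZA

end Cfsg.Agent.S0556
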