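import Cfsg.Statements.S0557
import Cfsg.Agent.H10.HallBasic
import Cfsg.Agent.H10.Factor

set_option autoImplicit false
open Cfsg

namespace Cfsg.Agent.S0557

universe u

open scoped commutatorElement

theorem focal_mono {G : Type*} [Group G] {A B : Subgroup G} (h : A ≤ B) :
    A.focalSubgroup ≤ B.focalSubgroup := by
  rw [Subgroup.focalSubgroup_def, Subgroup.focalSubgroup_def]
  apply Subgroup.closure_mono
  rintro g ⟨hg, x, hx, u, rfl⟩
  exact ⟨h hg, x, h hx, u, rfl⟩

theorem map_focal_le {G : Type*} [Group G] (K : Subgroup G) (A : Subgroup K) :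
    A.focalSubgroup.map K.subtype ≤ (A.map K.subtype).focalSubgroup := by
  rw [Subgroup.focalSubgroup_def, Subgroup.focalSubgroup_def, MonoidHom.map_closure]
  apply Subgroup.closure_mono
  rintro _ ⟨g, ⟨hg, x, hx, u, rfl⟩, rfl⟩
  exact ⟨⟨_, hg, rfl⟩, x, ⟨x, hx, rfl⟩, u, rfl⟩

theorem iterate_map_focal_le {G : Type*} [Group G] (K : Subgroup G) (A : Subgroup K) (n : ℕ) :
    ((fun X : Subgroup K => Subgroup.focalSubgroup X)^[n] A).map K.subtype ≤
      (fun X : Subgroup G => Subgroup.focalSubgroup X)^[n] (A.map K.subtype) := by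
  induction n with
  | zero => exact le_rfl
  | succ n ih =>
    rw [Function.iterate_succ_apply', Function.iterate_succ_apply']
    exact (map_focal_le K _).trans (focal_mono ih)

open Cfsg.Agent.H10 in
theorem aux : ∀ (n : ℕ) (G : Type u) [Group G] [Finite G] (H : Subgroup G)
    (_ : (Nat.card H).Coprime H.index)
    (_ : (fun K : Subgroup G => Subgroup.focalSubgroup K)^[n] H = ⊥),
    ∃ N : Subgroup G, N.Normal ∧ Subgroup.IsComplement' N H := by
  intro n
  induction n with
  | zero =>
    intro G _ _ H _ h
    have hH : H = ⊥ := h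
    exact ⟨⊤, inferInstance, by rw [hH]; exact Subgroup.isComplement'_top_bot⟩
  | succ n ih =>
    intro G _ _ H hHall hfoc
    rw [Function.iterate_succ_apply] at hfoc
    set V := H.transferFocal with hV
    have hVpow : ∀ x : H, V x = (x : H ⧸ H.focalSubgroupOf) ^ H.index := H.transferFocal_eq_pow
    have hcop : (Nat.card (H ⧸ H.focalSubgroupOf)).Coprime H.index :=
      Nat.Coprime.coprime_dvd_left (Subgroup.card_quotient_dvd_card _) hHall
    -- surjectivity on H
    have hsurj : ∀ q : H ⧸ H.focalSubgroupOf, ∃ x : H, V x = q := by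
      intro q
      obtain ⟨y, hy⟩ := (powCoprime hcop).surjective q
      obtain ⟨x, rfl⟩ := QuotientGroup.mk_surjective y
      exact ⟨x, by rw [hVpow]; exact hy⟩
    have hVs : Function.Surjective V := fun q => by
      obtain ⟨x, hx⟩ := hsurj q
      exact ⟨x, hx⟩
    set K := V.ker with hK
    have hKH : ∀ x ∈ H, x ∈ K → x ∈ H.focalSubgroup := by
      intro x hx hxK
      have h1 : V x = 1 := hxK
      rw [hVpow ⟨x, hx⟩] at h1
      have h2 : powCoprime hcop ((⟨x, hx⟩ : H) : H ⧸ H.focalSubgroupOf) = powCoprime hcop 1 := by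
        rw [powCoprime_apply, powCoprime_apply, one_pow]
        exact h1
      have h3 := (powCoprime hcop).injective h2
      rw [QuotientGroup.eq_one_iff, Subgroup.focalSubgroupOf_def, Subgroup.mem_subgroupOf] at h3
      exact h3
    have hFK : H.focalSubgroup ≤ K := by
      intro x hx
      have hxH := H.focalSubgroup_le hx
      rw [hK, MonoidHom.mem_ker, hVpow ⟨x, hxH⟩]
      have : ((⟨x, hxH⟩ : H) : H ⧸ H.focalSubgroupOf) = 1 := by
        rw [QuotientGroup.eq_one_iff, Subgroup.focalSubgroupOf_def, Subgroup.mem_subgroupOf]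
        exact hx
      rw [this, one_pow]
    -- cardinalities
    set F := H.focalSubgroup with hF
    have hFH : F ≤ H := H.focalSubgroup_le
    have c1 : Nat.card K * Nat.card (H ⧸ H.focalSubgroupOf) = Nat.card G := by
      rw [← K.card_mul_index, Subgroup.index_eq_card]
      congr 1
      exact (Nat.card_congr (QuotientGroup.quotientKerEquivOfSurjective V hVs).toEquiv).symm
    have c2 : Nat.card F * Nat.card (H ⧸ H.focalSubgroupOf) = Nat.card H := by
      have := H.focalSubgroupOf.card_mul_index
      rw [Subgroup.index_eq_card] at this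
      rw [← this]
      congr 1
      exact (Nat.card_congr (Subgroup.subgroupOfEquivOfLe hFH).toEquiv).symm
    have c3 : Nat.card H * H.index = Nat.card G := H.card_mul_index
    have c4 : Nat.card K = Nat.card F * H.index := by
      have h0 : 0 < Nat.card (H ⧸ H.focalSubgroupOf) := Nat.card_pos
      apply Nat.eq_of_mul_eq_mul_right h0
      rw [c1, ← c3, ← c2]; ring
    have c5 : Nat.card (F.subgroupOf K) = Nat.card F :=
      Nat.card_congr (Subgroup.subgroupOfEquivOfLe hFK).toEquiv
    have c6 : (F.subgroupOf K).index = H.index := by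
      have h1 := (F.subgroupOf K).card_mul_index
      rw [c5, c4] at h1
      exact Nat.eq_of_mul_eq_mul_left Nat.card_pos h1
    have hF' : (Nat.card (F.subgroupOf K)).Coprime (F.subgroupOf K).index := by
      rw [c5, c6]
      exact Nat.Coprime.coprime_dvd_left (Subgroup.card_dvd_of_le hFH) hHall
    have hfoc' : (fun X : Subgroup K => Subgroup.focalSubgroup X)^[n] (F.subgroupOf K) = ⊥ := by
      have h1 := iterate_map_focal_le K (F.subgroupOf K) n
      rw [Subgroup.map_subgroupOf_eq_of_le hFK, hfoc, le_bot_iff] at h1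
      exact (Subgroup.map_eq_bot_iff_of_injective _ K.subtype_injective).mp h1
    obtain ⟨N', hN'n, hN'c⟩ := ih K (F.subgroupOf K) hF' hfoc'
    have c7 := hN'c.card_mul_card
    have c8 : Nat.card N' = H.index := by
      rw [c5, c4, mul_comm] at c7
      exact Nat.eq_of_mul_eq_mul_left Nat.card_pos c7
    have c9 : N'.index = Nat.card F := by
      have := N'.card_mul_index
      rw [c8, c4, mul_comm] at this
      exact Nat.eq_of_mul_eq_mul_right (Nat.pos_of_ne_zero Subgroup.index_ne_zero_of_finite) this
    have hchar : N'.Characteristic := by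
      apply characteristic_of_normal_hall
      rw [c8, c9]
      exact (Nat.Coprime.coprime_dvd_left (Subgroup.card_dvd_of_le hFH) hHall).symm
    have hKn : K.Normal := inferInstance
    refine ⟨N'.map K.subtype, inferInstance, ?_⟩
    apply Subgroup.isComplement'_of_card_mul_and_disjoint
    · rw [Subgroup.card_map_of_injective K.subtype_injective, c8, mul_comm]
      exact c3
    · rw [Subgroup.disjoint_def]
      rintro _ ⟨x, hx, rfl⟩ hxH
      have h1 : (x : G) ∈ F := hKH _ hxH x.2
      have h2 : x ∈ F.subgroupOf K := h1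
      have h3 := Subgroup.disjoint_def.mp hN'c.disjoint hx h2
      rw [h3]; rfl

theorem result {G : Type*} [Group G] [Finite G] (H : Subgroup G) (hHall : (Nat.card H).Coprime H.index) (n : ℕ) (hfoc : (fun K : Subgroup G => Subgroup.focalSubgroup K)^[n] H = ⊥) : ∃ N : Subgroup G, N.Normal ∧ Subgroup.IsComplement' N H :=
  aux n G H hHall hfoc

end Cfsg.Agent.S0557
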