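import Cfsg.Statements.S0560
import Cfsg.Agent.H10.Factor

set_option autoImplicit false
open Pointwise
open Cfsg

namespace Cfsg.Agent.S0560

open Cfsg.Agent.H10 in
theorem mul_eq_of_sylow {G : Type*} [Group G] [Finite G] (H K : Subgroup G)
    (hHK : ∀ g : G, ∃ h ∈ H, ∃ k ∈ K, g = h * k) (p : ℕ) [hp : Fact p.Prime]
    (P : Sylow p H) (Q : Sylow p K) (R : Sylow p G)
    (hP : (P : Subgroup H).map H.subtype ≤ R) (hQ : (Q : Subgroup K).map K.subtype ≤ R) :
    ((R : Subgroup G) : Set G) = (((P : Subgroup H).map H.subtype : Subgroup G) : Set G) * (((Q : Subgroup K).map K.subtype : Subgroup G) : Set G) := by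
  set P' : Subgroup G := (P : Subgroup H).map H.subtype with hP'
  set Q' : Subgroup G := (Q : Subgroup K).map K.subtype with hQ'
  have cP : Nat.card P' = p ^ (Nat.card H).factorization p := by
    rw [hP', Subgroup.card_map_of_injective H.subtype_injective]
    exact P.card_eq_multiplicity
  have cQ : Nat.card Q' = p ^ (Nat.card K).factorization p := by
    rw [hQ', Subgroup.card_map_of_injective K.subtype_injective]
    exact Q.card_eq_multiplicity
  have cR : Nat.card (R : Subgroup G) = p ^ (Nat.card G).factorization p := R.card_eq_multiplicity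
  have e1 := relIndex_eq_index_iff.mpr hHK
  have e2 : Nat.card H * H.relIndex K = Nat.card G := by rw [e1]; exact H.card_mul_index
  have e3 := card_inf_mul_relIndex H K
  have e4 := card_mul_relIndex P' (R : Subgroup G) hP
  have e5 := card_inf_mul_relIndex P' Q'
  have hw0 : H.relIndex K ≠ 0 := Subgroup.index_ne_zero_of_finite
  have f2 : (Nat.card G).factorization p = (Nat.card H).factorization p + (H.relIndex K).factorization p := by
    rw [← e2, Nat.factorization_mul Nat.card_pos.ne' hw0]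
    rfl
  have f3 : (Nat.card K).factorization p = (Nat.card ↥(H ⊓ K)).factorization p + (H.relIndex K).factorization p := by
    rw [← e3, Nat.factorization_mul Nat.card_pos.ne' hw0]
    rfl
  have g1 : P'.relIndex R = p ^ (H.relIndex K).factorization p := by
    rw [cP, cR, f2, pow_add] at e4
    exact Nat.eq_of_mul_eq_mul_left (pow_pos hp.out.pos _) e4
  have hc : IsPGroup p ↥(P' ⊓ Q') := (R.isPGroup'.to_le hP).to_le inf_le_left
  obtain ⟨c, hc⟩ := (IsPGroup.iff_card (p := p)).mp hc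
  have hcle : c ≤ (Nat.card ↥(H ⊓ K)).factorization p := by
    have h1 : P' ⊓ Q' ≤ H ⊓ K := inf_le_inf (Subgroup.map_subtype_le _) (Subgroup.map_subtype_le _)
    have h2 := Subgroup.card_dvd_of_le h1
    rw [hc] at h2
    exact (hp.out.pow_dvd_iff_le_factorization Nat.card_pos.ne').mp h2
  have g2 : P'.relIndex Q' = p ^ ((Nat.card K).factorization p - c) := by
    rw [hc, cQ] at e5
    have h1 : (Nat.card K).factorization p = c + ((Nat.card K).factorization p - c) := by omega
    rw [h1, pow_add] at e5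
    have := Nat.eq_of_mul_eq_mul_left (pow_pos hp.out.pos _) e5
    rw [this]
  have hle : P'.relIndex R ≤ P'.relIndex Q' := by
    rw [g1, g2]
    apply Nat.pow_le_pow_right hp.out.pos
    omega
  have hprod := (le_relIndex_iff hQ).mp hle
  ext x
  rw [Set.mem_mul]
  constructor
  · intro hx
    obtain ⟨k, hk, h, hh, hx'⟩ := hprod x⁻¹ (Subgroup.inv_mem _ hx)
    exact ⟨h⁻¹, P'.inv_mem hh, k⁻¹, Q'.inv_mem hk, by rw [← mul_inv_rev, ← hx', inv_inv]⟩
  · rintro ⟨a, ha, b, hb, rfl⟩
    exact Subgroup.mul_mem _ (hP ha) (hQ hb)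

theorem result {G : Type*} [Group G] [Finite G] (H K : Subgroup G) (hHK : ∀ g : G, ∃ h ∈ H, ∃ k ∈ K, g = h * k) (p : ℕ) [Fact p.Prime] : ∃ (P : Sylow p H) (Q : Sylow p K) (R : Sylow p G), ((R : Subgroup G) : Set G) = (((P : Subgroup H).map H.subtype : Subgroup G) : Set G) * (((Q : Subgroup K).map K.subtype : Subgroup G) : Set G) := by
  obtain ⟨P0⟩ := (inferInstance : Nonempty (Sylow p H))
  obtain ⟨Q0⟩ := (inferInstance : Nonempty (Sylow p K))
  obtain ⟨R1, hR1⟩ := (P0.isPGroup'.map H.subtype).exists_le_sylow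
  obtain ⟨R2, hR2⟩ := (Q0.isPGroup'.map K.subtype).exists_le_sylow
  obtain ⟨x, hx⟩ := MulAction.exists_smul_eq G R1 R2
  obtain ⟨h, hh, k, hk, hxe⟩ := hHK x⁻¹
  -- R = h⁻¹ R1 h = k R2 k⁻¹
  refine ⟨(⟨h, hh⟩ : H)⁻¹ • P0, (⟨k, hk⟩ : K) • Q0, k • R2, ?_⟩
  have hR : k • R2 = h⁻¹ • R1 := by
    rw [← hx, smul_smul]
    congr 1
    have : x = (h * k)⁻¹ := by rw [← hxe, inv_inv]
    rw [this]; group
  apply mul_eq_of_sylow H K hHK
  · rw [hR]
    rintro _ ⟨y, hy, rfl⟩
    have hy' : y ∈ MulAut.conj (⟨h, hh⟩ : H)⁻¹ • (P0 : Subgroup H) := hy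
    rw [Subgroup.mem_pointwise_smul_iff_inv_smul_mem] at hy'
    change H.subtype y ∈ MulAut.conj h⁻¹ • (R1 : Subgroup G)
    rw [Subgroup.mem_pointwise_smul_iff_inv_smul_mem]
    exact hR1 ⟨_, hy', rfl⟩
  · rintro _ ⟨y, hy, rfl⟩
    have hy' : y ∈ MulAut.conj (⟨k, hk⟩ : K) • (Q0 : Subgroup K) := hy
    rw [Subgroup.mem_pointwise_smul_iff_inv_smul_mem] at hy'
    change K.subtype y ∈ MulAut.conj k • (R2 : Subgroup G)
    rw [Subgroup.mem_pointwise_smul_iff_inv_smul_mem]
    exact hR2 ⟨_, hy', rfl⟩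

end Cfsg.Agent.S0560
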