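import Cfsg.Statements.S0561
import Cfsg.Agent.S0003
import Cfsg.Agent.S0004
import Cfsg.Agent.S0005
import Cfsg.Agent.H10.Factor

set_option autoImplicit false
open Pointwise
open Cfsg

namespace Cfsg.Agent.S0561

theorem lcm_unitary {N a b : ℕ} (hN : N ≠ 0) (ha : a ∣ N) (hb : b ∣ N) (ha' : a.Coprime (N / a))
    (hb' : b.Coprime (N / b)) : (a.lcm b).Coprime (N / a.lcm b) := by
  rw [Nat.coprime_iff_gcd_eq_one]
  by_contra h
  obtain ⟨p, hp, hpd⟩ := Nat.exists_prime_and_dvd h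
  have h1 : p ∣ a.lcm b := hpd.trans (Nat.gcd_dvd_left _ _)
  have h2 : p ∣ N / a.lcm b := hpd.trans (Nat.gcd_dvd_right _ _)
  have hl : a.lcm b ∣ N := Nat.lcm_dvd ha hb
  have h3 : p ∣ N / a := h2.trans (Nat.div_dvd_div_left hl (Nat.dvd_lcm_left a b))
  have h4 : p ∣ N / b := h2.trans (Nat.div_dvd_div_left hl (Nat.dvd_lcm_right a b))
  have h5 : p ∣ a * b := h1.trans (Nat.lcm_dvd_mul a b)
  rcases (Nat.Prime.dvd_mul hp).mp h5 with h6 | h6
  · exact Nat.not_coprime_of_dvd_of_dvd hp.one_lt h6 h3 ha'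
  · exact Nat.not_coprime_of_dvd_of_dvd hp.one_lt h6 h4 hb'

theorem gcd_unitary {N a b : ℕ} (hN : N ≠ 0) (ha : a ∣ N) (hb : b ∣ N) (ha' : a.Coprime (N / a))
    (hb' : b.Coprime (N / b)) : (a.gcd b).Coprime (N / a.gcd b) := by
  rw [Nat.coprime_iff_gcd_eq_one]
  by_contra h
  obtain ⟨p, hp, hpd⟩ := Nat.exists_prime_and_dvd h
  have h1 : p ∣ a.gcd b := hpd.trans (Nat.gcd_dvd_left _ _)
  have h2 : p ∣ N / a.gcd b := hpd.trans (Nat.gcd_dvd_right _ _)
  have ha0 : a ≠ 0 := fun h => hN (by rw [h] at ha; exact zero_dvd_iff.mp ha)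
  have hd0 : 0 < a.gcd b := Nat.gcd_pos_of_pos_left _ (Nat.pos_of_ne_zero ha0)
  have e1 : N / a.gcd b = (a / a.gcd b) * (N / a) := by
    obtain ⟨a₁, ha₁⟩ := Nat.gcd_dvd_left a b
    obtain ⟨c, hc⟩ := ha
    have e : a / a.gcd b = a₁ := by
      conv_lhs => rw [ha₁]
      rw [← ha₁]; exact Nat.div_eq_of_eq_mul_right hd0 ha₁
    rw [e, hc, Nat.mul_div_cancel_left _ (Nat.pos_of_ne_zero ha0)]
    apply Nat.div_eq_of_eq_mul_right hd0
    rw [← mul_assoc, ← ha₁]
  have hb0 : b ≠ 0 := fun h => hN (by rw [h] at hb; exact zero_dvd_iff.mp hb)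
  have e2 : N / a.gcd b = (b / a.gcd b) * (N / b) := by
    obtain ⟨b₁, hb₁⟩ := Nat.gcd_dvd_right a b
    obtain ⟨c, hc⟩ := hb
    have e : b / a.gcd b = b₁ := Nat.div_eq_of_eq_mul_right hd0 hb₁
    rw [e, hc, Nat.mul_div_cancel_left _ (Nat.pos_of_ne_zero hb0)]
    apply Nat.div_eq_of_eq_mul_right hd0
    rw [← mul_assoc, ← hb₁]
  have h3 : p ∣ a / a.gcd b := by
    rw [e1] at h2
    rcases (Nat.Prime.dvd_mul hp).mp h2 with h | h
    · exact h
    · exact absurd ha' (Nat.not_coprime_of_dvd_of_dvd hp.one_lt (h1.trans (Nat.gcd_dvd_left _ _)) h)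
  have h4 : p ∣ b / a.gcd b := by
    rw [e2] at h2
    rcases (Nat.Prime.dvd_mul hp).mp h2 with h | h
    · exact h
    · exact absurd hb' (Nat.not_coprime_of_dvd_of_dvd hp.one_lt (h1.trans (Nat.gcd_dvd_right _ _)) h)
  exact Nat.not_coprime_of_dvd_of_dvd hp.one_lt h3 h4 (Nat.coprime_div_gcd_div_gcd hd0)

theorem index_eq {G : Type*} [Group G] [Finite G] (A : Subgroup G) : Nat.card G / Nat.card A = A.index := by
  rw [← A.card_mul_index, Nat.mul_div_cancel_left _ Nat.card_pos]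

/-- In a finite solvable group, some conjugates of two Hall subgroups permute. -/
theorem exists_permute {G : Type*} [Group G] [Finite G] [Group.IsSolvable G] (A B : Subgroup G)
    (hAh : (Nat.card A).Coprime A.index) (hBh : (Nat.card B).Coprime B.index) :
    ∃ g : G, ∃ L : Subgroup G, (L : Set G) = (A : Set G) * ((MulAut.conj g • B : Subgroup G) : Set G) := by
  set N := Nat.card G with hN
  set a := Nat.card A with ha
  set b := Nat.card B with hb
  have hN0 : N ≠ 0 := Nat.card_pos.ne'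
  have haN : a ∣ N := Subgroup.card_subgroup_dvd_card A
  have hbN : b ∣ N := Subgroup.card_subgroup_dvd_card B
  have ha0 : 0 < a := Nat.card_pos
  have hb0 : 0 < b := Nat.card_pos
  rw [← index_eq] at hAh hBh
  set l := a.lcm b with hl
  set d := a.gcd b with hd
  have hlN : l ∣ N := Nat.lcm_dvd haN hbN
  have hal : a ∣ l := Nat.dvd_lcm_left a b
  have hbl : b ∣ l := Nat.dvd_lcm_right a b
  have hda : d ∣ a := Nat.gcd_dvd_left a b
  have hdb : d ∣ b := Nat.gcd_dvd_right a b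
  have hlu : l.Coprime (N / l) := lcm_unitary hN0 haN hbN hAh hBh
  have hdu : d.Coprime (N / d) := gcd_unitary hN0 haN hbN hAh hBh
  obtain ⟨L, hLc, hAL⟩ := Cfsg.Agent.S0005.result l (N / l) (Nat.mul_div_cancel' hlN).symm hlu A
    (Nat.Coprime.coprime_dvd_left hal hlu)
  obtain ⟨D, hD⟩ := Cfsg.Agent.S0003.result (G := A) d (a / d) (Nat.mul_div_cancel' hda).symm
    (Nat.Coprime.coprime_dvd_right (Nat.div_dvd_div hda haN) hdu)
  set D₁ := D.map A.subtype with hD₁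
  have hD₁c : Nat.card D₁ = d := by
    rw [hD₁, Subgroup.card_map_of_injective A.subtype_injective, hD]
  have hD₁A : D₁ ≤ A := Subgroup.map_subtype_le D
  have hbu : b.Coprime (l / b) :=
    Nat.Coprime.coprime_dvd_right (Nat.div_dvd_div hbl hlN) hBh
  obtain ⟨B₁, hB₁c, hDB₁⟩ := Cfsg.Agent.S0005.result (G := L) b (l / b)
    (by rw [hLc]; exact (Nat.mul_div_cancel' hbl).symm) hbu (D₁.subgroupOf L)
    (by
      rw [Nat.card_congr (Subgroup.subgroupOfEquivOfLe (hD₁A.trans hAL)).toEquiv, hD₁c]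
      exact Nat.Coprime.coprime_dvd_left hdb hbu)
  have hB₂c : Nat.card (B₁.map L.subtype) = b := by
    rw [Subgroup.card_map_of_injective L.subtype_injective, hB₁c]
  obtain ⟨g, hg⟩ := Cfsg.Agent.S0004.result b (N / b) (Nat.mul_div_cancel' hbN).symm hBh B (B₁.map L.subtype) rfl hB₂c
  refine ⟨g, L, ?_⟩
  rw [hg]
  -- the intersection
  have hAc : Nat.card (A.subgroupOf L) = a := Nat.card_congr (Subgroup.subgroupOfEquivOfLe hAL).toEquiv
  have hint : Nat.card ↥(A.subgroupOf L ⊓ B₁) = d := by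
    apply Nat.dvd_antisymm
    · apply Nat.dvd_gcd
      · rw [← hAc]; exact Subgroup.card_dvd_of_le inf_le_left
      · rw [← hB₁c]; exact Subgroup.card_dvd_of_le inf_le_right
    · have h1 : D₁.subgroupOf L ≤ A.subgroupOf L ⊓ B₁ :=
        le_inf (Subgroup.comap_mono hD₁A) hDB₁
      have h2 := Subgroup.card_dvd_of_le h1
      rwa [Nat.card_congr (Subgroup.subgroupOfEquivOfLe (hD₁A.trans hAL)).toEquiv, hD₁c] at h2
  have e1 := Cfsg.Agent.H10.card_inf_mul_relIndex (A.subgroupOf L) B₁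
  have e2 := (A.subgroupOf L).card_mul_index
  rw [hint, hB₁c] at e1
  rw [hAc, hLc] at e2
  have e3 : a * b = d * l := (Nat.gcd_mul_lcm a b).symm
  have e4 : (A.subgroupOf L).relIndex B₁ = (A.subgroupOf L).index := by
    have hd0 : 0 < d := Nat.gcd_pos_of_pos_left _ ha0
    apply Nat.eq_of_mul_eq_mul_left (Nat.mul_pos ha0 hd0)
    calc a * d * (A.subgroupOf L).relIndex B₁ = a * (d * (A.subgroupOf L).relIndex B₁) := by ring
      _ = d * l := by rw [e1, e3]
      _ = a * d * (A.subgroupOf L).index := by rw [← e2]; ring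
  have e5 := Cfsg.Agent.H10.relIndex_eq_index_iff.mp e4
  ext x
  constructor
  · intro hx
    obtain ⟨u, hu, v, hv, huv⟩ := e5 ⟨x, hx⟩
    exact ⟨u, hu, v, ⟨v, hv, rfl⟩, (congrArg Subtype.val huv).symm⟩
  · rintro ⟨u, hu, _, ⟨v, hv, rfl⟩, rfl⟩
    exact L.mul_mem (hAL hu) v.2

theorem conj_smul_of_normal {G : Type*} [Group G] {H A : Subgroup G} (hA : A ≤ H)
    (hAn : (A.subgroupOf H).Normal) {h : G} (hh : h ∈ H) : MulAut.conj h • A = A := by
  have key : ∀ {h : G}, h ∈ H → ∀ {x : G}, x ∈ A → h * x * h⁻¹ ∈ A := by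
    intro h hh x hx
    exact hAn.conj_mem ⟨x, hA hx⟩ hx ⟨h, hh⟩
  ext x
  rw [Subgroup.mem_pointwise_smul_iff_inv_smul_mem, ← map_inv, MulAut.smul_def, MulAut.conj_apply, inv_inv]
  constructor
  · intro hx
    have := key hh hx
    have e : h * (h⁻¹ * x * h) * h⁻¹ = x := by group
    rwa [e] at this
  · intro hx
    have := key (H.inv_mem hh) hx
    rwa [inv_inv] at this

/-- Let the finite solvable group G be the product HK of subgroups, and let A be normal in H and B normal in K, where A and B are Hall subgroups of G (order coprime to index). Then for all x, y the product set of xAx⁻¹ and yBy⁻¹ is a subgroup of G. -/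
theorem result {G : Type*} [Group G] [Finite G] [Group.IsSolvable G] (H K A B : Subgroup G) (hHK : ∀ g : G, ∃ h ∈ H, ∃ k ∈ K, g = h * k) (hA : A ≤ H) (hAn : (A.subgroupOf H).Normal) (hB : B ≤ K) (hBn : (B.subgroupOf K).Normal) (hAh : (Nat.card A).Coprime A.index) (hBh : (Nat.card B).Coprime B.index) (x y : G) : ∃ S : Subgroup G, (S : Set G) = ((MulAut.conj x • A : Subgroup G) : Set G) * ((MulAut.conj y • B : Subgroup G) : Set G) := by
  obtain ⟨g, L, hL⟩ := exists_permute A B hAh hBh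
  have hKH : ∀ g : G, ∃ k ∈ K, ∃ h ∈ H, g = k * h := by
    intro g
    obtain ⟨h, hh, k, hk, hg⟩ := hHK g⁻¹
    exact ⟨k⁻¹, K.inv_mem hk, h⁻¹, H.inv_mem hh, by rw [← mul_inv_rev, ← hg, inv_inv]⟩
  obtain ⟨k₀, hk₀, h₀, hh₀, hg⟩ := hKH g⁻¹
  obtain ⟨k₁, hk₁, h₁, hh₁, hyx⟩ := hKH (y⁻¹ * x)
  refine ⟨MulAut.conj (x * (h₁⁻¹ * h₀)) • L, ?_⟩
  have e1 : MulAut.conj (x * (h₁⁻¹ * h₀)) • A = MulAut.conj x • A := by
    rw [map_mul, mul_smul, conj_smul_of_normal hA hAn (H.mul_mem (H.inv_mem hh₁) hh₀)]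
  have e2 : MulAut.conj (x * (h₁⁻¹ * h₀)) • (MulAut.conj g • B) = MulAut.conj y • B := by
    have e3 : x * (h₁⁻¹ * h₀) * g = y * (k₁ * k₀⁻¹) := by
      have hx : x = y * (k₁ * h₁) := by rw [← hyx]; group
      have hg' : g = h₀⁻¹ * k₀⁻¹ := by rw [← mul_inv_rev, ← hg, inv_inv]
      rw [hx, hg']; group
    rw [smul_smul, ← map_mul, e3, map_mul, mul_smul, conj_smul_of_normal hB hBn (K.mul_mem hk₁ (K.inv_mem hk₀))]
  rw [Subgroup.coe_pointwise_smul, hL, smul_mul', ← Subgroup.coe_pointwise_smul, ← Subgroup.coe_pointwise_smul, e1, e2]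

end Cfsg.Agent.S0561
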