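import Cfsg.Statements.S0562
import Cfsg.Agent.H10.Imports

set_option autoImplicit false
open Cfsg

namespace Cfsg.Agent.S0562

theorem result {G : Type*} [Group G] [Finite G] (H K A B : Subgroup G) (hHK : ∀ g : G, ∃ h ∈ H, ∃ k ∈ K, g = h * k) (hA : A ≤ H) (hAn : (A.subgroupOf H).Normal) (hB : B ≤ K) (hBn : (B.subgroupOf K).Normal) : ∀ g ∈ Subgroup.normalizer ((A ⊔ B : Subgroup G) : Set G), ∃ h ∈ Subgroup.normalizer ((A ⊔ B : Subgroup G) : Set G) ⊓ H, ∃ k ∈ Subgroup.normalizer ((A ⊔ B : Subgroup G) : Set G) ⊓ K, g = h * k := by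
  intro g hg
  obtain ⟨h, hh, k, hk, rfl⟩ := hHK g
  have hAh : ∀ x ∈ H, ∀ a ∈ A, x * a * x⁻¹ ∈ A := by
    intro x hx a ha
    exact hAn.conj_mem ⟨a, hA ha⟩ ha ⟨x, hx⟩
  have hBk : ∀ x ∈ K, ∀ b ∈ B, x * b * x⁻¹ ∈ B := by
    intro x hx b hb
    exact hBn.conj_mem ⟨b, hB hb⟩ hb ⟨x, hx⟩
  -- the group J^(k)
  set J : Subgroup G := A ⊔ B with hJ
  have hkJ : k ∈ Subgroup.normalizer (J : Set G) := by
    -- k J k⁻¹ contains B and A
    have h1 : J ≤ J.map (MulAut.conj k).toMonoidHom := by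
      rw [hJ]
      refine sup_le ?_ ?_
      · intro a ha
        -- a = h⁻¹ (h a h⁻¹) h ; h a h⁻¹ ∈ A ≤ J ; g normalizes J
        have h2 : h * a * h⁻¹ ∈ J := (le_sup_left : A ≤ A ⊔ B) (hAh h hh a ha)
        rw [Subgroup.mem_map]
        have h3 := (Subgroup.mem_normalizer_iff''.mp hg (h * a * h⁻¹)).mp h2
        refine ⟨(h * k)⁻¹ * (h * a * h⁻¹) * (h * k), h3, ?_⟩
        simp [MulAut.conj_apply]
        group
      · intro b hb
        rw [Subgroup.mem_map]
        refine ⟨k⁻¹ * b * k, (le_sup_right : B ≤ A ⊔ B) ?_, ?_⟩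
        · simpa using hBk k⁻¹ (K.inv_mem hk) b hb
        · simp [MulAut.conj_apply]
          group
    have h2 : J = J.map (MulAut.conj k).toMonoidHom := by
      apply Subgroup.eq_of_le_of_card_ge h1
      rw [Subgroup.card_map_of_injective]
      exact (MulAut.conj k).injective
    rw [Subgroup.mem_normalizer_iff]
    intro x
    constructor
    · intro hx
      rw [h2]
      exact ⟨x, hx, rfl⟩
    · intro hx
      rw [h2] at hx
      obtain ⟨y, hy, hyx⟩ := hx
      have : y = x := by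
        have h5 : k * y * k⁻¹ = k * x * k⁻¹ := hyx
        simpa using h5
      rwa [← this]
  have hhJ : h ∈ Subgroup.normalizer (J : Set G) := by
    have := Subgroup.mul_mem _ hg (Subgroup.inv_mem _ hkJ)
    simpa using this
  exact ⟨h, ⟨hhJ, hh⟩, k, ⟨hkJ, hk⟩, rfl⟩

end Cfsg.Agent.S0562
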