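import Cfsg.Statements.S0567
import Cfsg.Agent.H10.Imports

set_option autoImplicit false
open Cfsg

namespace Cfsg.Agent.S0567

open scoped commutatorElement in
theorem sup_commutator_aux {G : Type*} [Group G] (H L : Subgroup G) :
    H ⊔ L ≤ Subgroup.normalizer ((H ⊔ ⁅L, H⁆ : Subgroup G) : Set G) := by
  refine sup_le ?_ ?_
  · exact le_sup_left.trans Subgroup.le_normalizer
  · rw [Subgroup.sup_eq_closure, Subgroup.le_normalizer_closure_iff]
    rintro l hl k (hk | hk)
    · have h1 : l * k * l⁻¹ = ⁅l, k⁆ * k := by rw [commutatorElement_def]; group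
      rw [h1]
      refine Subgroup.mul_mem _ (Subgroup.subset_closure (Or.inr ?_)) (Subgroup.subset_closure (Or.inl hk))
      exact Subgroup.commutator_mem_commutator hl hk
    · refine Subgroup.subset_closure (Or.inr ?_)
      exact Subgroup.le_normalizer_iff.mp (Subgroup.normalizer_commutator_ge_left L H) l hl k hk

theorem result {G : Type*} [Group G] (H : Subgroup G) : H.IsSubnormal ↔ ∃ m : ℕ, (fun K : Subgroup G => ⁅K, H⁆)^[m] ⊤ ≤ H := by
  constructor
  · intro h
    induction h with
    | top => exact ⟨0, le_top⟩
    | step H K h_le _ hN ih =>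
      obtain ⟨m, hm⟩ := ih
      refine ⟨m + 1, ?_⟩
      have hmono : ∀ n : ℕ, (fun X : Subgroup G => ⁅X, H⁆)^[n] ⊤ ≤ (fun X : Subgroup G => ⁅X, K⁆)^[n] ⊤ := by
        intro n
        induction n with
        | zero => exact le_rfl
        | succ n ihn =>
          rw [Function.iterate_succ_apply', Function.iterate_succ_apply']
          exact Subgroup.commutator_mono ihn h_le
      rw [Function.iterate_succ_apply']
      have h1 : ⁅K, H⁆ ≤ H := by
        rw [← Subgroup.le_normalizer_iff_commutator_le_right]
        exact (Subgroup.normal_subgroupOf_iff_le_normalizer h_le).mp hN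
      exact (Subgroup.commutator_mono ((hmono m).trans hm) le_rfl).trans h1
  · rintro ⟨m, hm⟩
    have key : ∀ n : ℕ, (H ⊔ (fun X : Subgroup G => ⁅X, H⁆)^[n] ⊤).IsSubnormal := by
      intro n
      induction n with
      | zero => simp
      | succ n ih =>
        rw [Function.iterate_succ_apply']
        set L := (fun X : Subgroup G => ⁅X, H⁆)^[n] ⊤ with hL
        have hle : H ⊔ ⁅L, H⁆ ≤ H ⊔ L := by
          refine sup_le le_sup_left ?_
          exact (Subgroup.commutator_le_sup _ _).trans (sup_le le_sup_right le_sup_left)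
        refine Subgroup.IsSubnormal.step _ (H ⊔ L) hle ih ?_
        rw [Subgroup.normal_subgroupOf_iff_le_normalizer hle]
        exact sup_commutator_aux H L
    have := key m
    rwa [sup_eq_left.mpr hm] at this

end Cfsg.Agent.S0567
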