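import Cfsg.Statements.S0572
import Cfsg.Agent.H10.Ito

set_option autoImplicit false
open Cfsg

namespace Cfsg.Agent.S0572

theorem result {G : Type*} [Group G] (A B : Subgroup G) [IsMulCommutative A] [IsMulCommutative B] (hAB : ∀ g : G, ∃ a ∈ A, ∃ b ∈ B, g = a * b) : derivedSeries G 2 = ⊥ := by
  rw [derivedSeries_succ, derivedSeries_one, Subgroup.commutator_self_eq_bot_iff]
  exact Cfsg.Agent.H10.ito A B hAB

end Cfsg.Agent.S0572
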