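import Cfsg.Statements.S0573
import Cfsg.Agent.S0572
import Cfsg.Agent.Transfer.Residual

set_option autoImplicit false
open Cfsg

namespace Cfsg.Agent.S0573

section
variable {G : Type*} [Group G]

theorem comm_of_mem (A : Subgroup G) [h : IsMulCommutative A] {x y : G} (hx : x ∈ A) (hy : y ∈ A) :
    x * y = y * x := by
  have := h.is_comm.comm ⟨x, hx⟩ ⟨y, hy⟩
  exact congrArg Subtype.val this

theorem dedekind (P A M : Subgroup G) [P.Normal] (hPM : P ≤ M) : (P ⊔ A) ⊓ M = P ⊔ (A ⊓ M) := by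
  apply le_antisymm
  · rintro x ⟨hx, hxM⟩
    have hx' : x ∈ P ⊔ A := hx
    rw [← SetLike.mem_coe, Subgroup.normal_mul] at hx'
    obtain ⟨u, hu, v, hv, rfl⟩ := hx'
    have hvM : v ∈ M := by
      have : v = u⁻¹ * (u * v) := by group
      rw [this]
      exact M.mul_mem (M.inv_mem (hPM hu)) hxM
    exact Subgroup.mul_mem _ ((le_sup_left : P ≤ _) hu) ((le_sup_right : A ⊓ M ≤ _) ⟨hv, hvM⟩)
  · exact sup_le (le_inf le_sup_left hPM) (inf_le_inf_right M le_sup_right)

theorem card_of_factor [Finite G] (M A B : Subgroup G) (hA : A ≤ M) (hB : B ≤ M) (hdis : A ⊓ B = ⊥)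
    (h : ∀ m ∈ M, ∃ a ∈ A, ∃ b ∈ B, m = a * b) : Nat.card M = Nat.card A * Nat.card B := by
  have hc : Subgroup.IsComplement' (A.subgroupOf M) (B.subgroupOf M) := by
    apply Subgroup.isComplement'_of_disjoint_and_mul_eq_univ
    · rw [disjoint_iff, eq_bot_iff]
      rintro ⟨x, hx⟩ ⟨h1, h2⟩
      have : x ∈ A ⊓ B := ⟨h1, h2⟩
      rw [hdis, Subgroup.mem_bot] at this
      exact Subtype.ext this
    · rw [Set.eq_univ_iff_forall]
      rintro ⟨x, hx⟩
      obtain ⟨a, ha, b, hb, hab⟩ := h x hx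
      exact ⟨⟨a, hA ha⟩, ha, ⟨b, hB hb⟩, hb, Subtype.ext hab.symm⟩
  have := hc.card_mul_card
  rw [Nat.card_congr (Subgroup.subgroupOfEquivOfLe hA).toEquiv,
    Nat.card_congr (Subgroup.subgroupOfEquivOfLe hB).toEquiv] at this
  exact this.symm

/-- Factorisation of the centre of a product of two abelian subgroups. -/
theorem center_factor (A B : Subgroup G) [IsMulCommutative A] [IsMulCommutative B]
    (hAB : ∀ g : G, ∃ a ∈ A, ∃ b ∈ B, g = a * b) {a b : G} (ha : a ∈ A) (hb : b ∈ B)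
    (hz : a * b ∈ Subgroup.center G) : a ∈ Subgroup.center G := by
  have hz' : ∀ x, x * (a * b) = (a * b) * x := fun x => Subgroup.mem_center_iff.mp hz x
  -- a commutes with A, and with B
  have haA : ∀ x ∈ A, x * a = a * x := fun x hx => comm_of_mem A hx ha
  have haB : ∀ x ∈ B, x * a = a * x := by
    intro x hx
    have h1 : x * b = b * x := comm_of_mem B hx hb
    have h2 := hz' x
    have h3 : a = (a * b) * b⁻¹ := by group
    rw [h3]
    calc x * (a * b * b⁻¹) = (x * (a * b)) * b⁻¹ := by group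
      _ = (a * b) * x * b⁻¹ := by rw [h2]
      _ = (a * b) * (b⁻¹ * (b * x)) * b⁻¹ := by group
      _ = (a * b) * (b⁻¹ * (x * b)) * b⁻¹ := by rw [h1]
      _ = a * b * b⁻¹ * x := by group
  rw [Subgroup.mem_center_iff]
  intro g
  obtain ⟨x, hx, y, hy, rfl⟩ := hAB g
  calc x * y * a = x * (y * a) := by group
    _ = x * (a * y) := by rw [haB y hy]
    _ = (x * a) * y := by group
    _ = (a * x) * y := by rw [haA x hx]
    _ = a * (x * y) := by group

/-- If `Z(G) = 1` then `C_G(A) = A`. -/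
theorem centralizer_le (A B : Subgroup G) [IsMulCommutative A] [IsMulCommutative B]
    (hAB : ∀ g : G, ∃ a ∈ A, ∃ b ∈ B, g = a * b) (hZ : Subgroup.center G = ⊥) {c : G}
    (hc : ∀ x ∈ A, x * c = c * x) : c ∈ A := by
  obtain ⟨a, ha, b, hb, rfl⟩ := hAB c
  have hbA : ∀ x ∈ A, x * b = b * x := by
    intro x hx
    have h1 := hc x hx
    have h2 : x * a = a * x := comm_of_mem A hx ha
    have h3 : a * (x * b) = a * (b * x) := by
      calc a * (x * b) = (a * x) * b := by group
        _ = (x * a) * b := by rw [h2]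
        _ = x * (a * b) := by group
        _ = a * b * x := h1
        _ = a * (b * x) := by group
    exact mul_left_cancel h3
  have hbz : b ∈ Subgroup.center G := by
    rw [Subgroup.mem_center_iff]
    intro g
    obtain ⟨x, hx, y, hy, rfl⟩ := hAB g
    calc x * y * b = x * (y * b) := by group
      _ = x * (b * y) := by rw [comm_of_mem B hy hb]
      _ = (x * b) * y := by group
      _ = (b * x) * y := by rw [hbA x hx]
      _ = b * (x * y) := by group
  rw [hZ, Subgroup.mem_bot] at hbz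
  rw [hbz, mul_one]; exact ha

/-- the centre of `A K` (`K` the derived subgroup), as a subgroup of `G` -/
theorem step3 (A B : Subgroup G) [IsMulCommutative A] [IsMulCommutative B]
    (hAB : ∀ g : G, ∃ a ∈ A, ∃ b ∈ B, g = a * b) (hZ : Subgroup.center G = ⊥)
    {z : G} (hz1 : z ≠ 1) (hzA : z ∈ A) (hzK : ∀ k ∈ commutator G, k * z = z * k) :
    ∃ N : Subgroup G, N.Normal ∧ N ≠ ⊥ ∧ N ≤ A := by
  -- N = centralizer of A K inside A K
  have hn : (A ⊔ commutator G).Normal := by
    have : commutator G ≤ A ⊔ commutator G := le_sup_right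
    constructor
    intro x hx g
    have h1 : g * x * g⁻¹ * x⁻¹ ∈ commutator G := by
      rw [commutator_def]
      exact Subgroup.commutator_mem_commutator (Subgroup.mem_top g) (Subgroup.mem_top x)
    have h2 : g * x * g⁻¹ = (g * x * g⁻¹ * x⁻¹) * x := by group
    rw [h2]
    exact Subgroup.mul_mem _ (this h1) hx
  refine ⟨(A ⊔ commutator G) ⊓ Subgroup.centralizer ((A ⊔ commutator G : Subgroup G) : Set G), ?_, ?_, ?_⟩
  · have := Subgroup.normal_centralizer (H := A ⊔ commutator G)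
    infer_instance
  · intro h
    apply hz1
    rw [← Subgroup.mem_bot, ← h]
    refine ⟨(le_sup_left : A ≤ A ⊔ commutator G) hzA, ?_⟩
    change z ∈ Subgroup.centralizer ((A ⊔ commutator G : Subgroup G) : Set G)
    have h2 : A ⊔ commutator G ≤ Subgroup.centralizer ({z} : Set G) := by
      apply sup_le
      · intro x hx
        exact Subgroup.mem_centralizer_singleton_iff.mpr (comm_of_mem A hx hzA)
      · intro x hx
        exact Subgroup.mem_centralizer_singleton_iff.mpr (hzK x hx)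
    rw [Subgroup.mem_centralizer_iff]
    intro x hx
    exact Subgroup.mem_centralizer_singleton_iff.mp (h2 hx)
  · rintro c ⟨-, hc⟩
    apply centralizer_le A B hAB hZ
    intro x hx
    exact Subgroup.mem_centralizer_iff.mp hc x ((le_sup_left : A ≤ A ⊔ commutator G) hx)

end


/-- If a nontrivial finite group G is the product AB of abelian subgroups A and B, then some nontrivial normal subgroup of G is contained in A or in B. -/
theorem result {G : Type*} [Group G] [Finite G] [Nontrivial G] (A B : Subgroup G) [IsMulCommutative A] [IsMulCommutative B] (hAB : ∀ g : G, ∃ a ∈ A, ∃ b ∈ B, g = a * b) : ∃ N : Subgroup G, N.Normal ∧ N ≠ ⊥ ∧ (N ≤ A ∨ N ≤ B) := by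
  classical
  have hBA : ∀ g : G, ∃ b ∈ B, ∃ a ∈ A, g = b * a := by
    intro g
    obtain ⟨a, ha, b, hb, h⟩ := hAB g⁻¹
    exact ⟨b⁻¹, B.inv_mem hb, a⁻¹, A.inv_mem ha, by rw [← mul_inv_rev, ← h, inv_inv]⟩
  by_cases hZ : Subgroup.center G = ⊥
  swap
  · -- nontrivial centre
    obtain ⟨z, hz, hz1⟩ : ∃ z : G, z ∈ Subgroup.center G ∧ z ≠ 1 := by
      obtain ⟨a, ha⟩ := (Subgroup.ne_bot_iff_exists_ne_one).mp hZ
      exact ⟨(a : G), a.2, fun h => ha (Subtype.ext h)⟩
    have hcent : ∀ c ∈ Subgroup.center G, c ≠ 1 → (Subgroup.zpowers c).Normal ∧ Subgroup.zpowers c ≠ ⊥ := by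
      intro c hc hc1
      refine ⟨⟨?_⟩, ?_⟩
      · intro n hn g
        have hn' : n ∈ Subgroup.center G := (Subgroup.zpowers_le.mpr hc) hn
        rw [Subgroup.mem_center_iff.mp hn' g]
        simpa using hn
      · rwa [Ne, Subgroup.zpowers_eq_bot]
    obtain ⟨a, ha, b, hb, rfl⟩ := hAB z
    have haZ := center_factor A B hAB ha hb hz
    by_cases ha1 : a = 1
    · rw [ha1, one_mul] at hz hz1
      exact ⟨_, (hcent b hz hz1).1, (hcent b hz hz1).2, Or.inr (Subgroup.zpowers_le.mpr hb)⟩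
    · exact ⟨_, (hcent a haZ ha1).1, (hcent a haZ ha1).2, Or.inl (Subgroup.zpowers_le.mpr ha)⟩
  -- trivial centre
  set K := commutator G with hK
  have hKab : ∀ x ∈ K, ∀ y ∈ K, x * y = y * x := by
    have h := Cfsg.Agent.S0572.result A B hAB
    intro x hx y hy
    have h2 : ⁅K, K⁆ = ⊥ := by
      rw [hK]
      simpa [derivedSeries_succ, derivedSeries_zero, commutator_def] using h
    rw [Subgroup.commutator_eq_bot_iff_le_centralizer] at h2
    exact (Subgroup.mem_centralizer_iff.mp (h2 hx) y hy).symm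
  by_contra hcon
  have hnoA : ∀ z ∈ A, (∀ k ∈ K, k * z = z * k) → z = 1 := by
    intro z hz hzK
    by_contra hz1
    obtain ⟨N, h1, h2, h3⟩ := step3 A B hAB hZ hz1 hz hzK
    exact hcon ⟨N, h1, h2, Or.inl h3⟩
  have hnoB : ∀ z ∈ B, (∀ k ∈ K, k * z = z * k) → z = 1 := by
    intro z hz hzK
    by_contra hz1
    obtain ⟨N, h1, h2, h3⟩ := step3 B A hBA hZ hz1 hz hzK
    exact hcon ⟨N, h1, h2, Or.inr h3⟩
  have hKne : K ≠ ⊥ := by
    intro h
    have h1 : Subgroup.center G = ⊤ := by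
      rw [eq_top_iff]
      intro x _
      rw [Subgroup.mem_center_iff]
      intro y
      have h2 : ⁅(⊤ : Subgroup G), (⊤ : Subgroup G)⁆ = ⊥ := by rw [← h, hK, commutator_def]
      rw [Subgroup.commutator_eq_bot_iff_le_centralizer] at h2
      exact Subgroup.mem_centralizer_iff.mp (h2 (Subgroup.mem_top x)) y (Subgroup.mem_top y)
    rw [hZ] at h1
    exact bot_ne_top h1
  -- a prime divisor of |K|
  have hcardK : Nat.card K ≠ 1 := by
    intro h
    exact hKne (Subgroup.card_eq_one.mp h)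
  obtain ⟨p, hp, hpK⟩ := Nat.exists_prime_and_dvd hcardK
  have : Fact p.Prime := ⟨hp⟩
  have hKn : K.Normal := by rw [hK]; infer_instance
  let P : Subgroup G :=
    { carrier := {x | x ∈ K ∧ ∃ n : ℕ, x ^ p ^ n = 1}
      one_mem' := ⟨K.one_mem, 0, by simp⟩
      mul_mem' := by
        rintro x y ⟨hx, n, hn⟩ ⟨hy, m, hm⟩
        refine ⟨K.mul_mem hx hy, n + m, ?_⟩
        rw [Commute.mul_pow (hKab x hx y hy), pow_add, pow_mul, hn, one_pow, one_mul, mul_comm, pow_mul, hm, one_pow]
      inv_mem' := by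
        rintro x ⟨hx, n, hn⟩
        exact ⟨K.inv_mem hx, n, by rw [inv_pow, hn, inv_one]⟩ }
  have hPK : P ≤ K := fun x hx => hx.1
  have hPp : IsPGroup p P := by
    rintro ⟨x, hx, n, hn⟩
    exact ⟨n, by ext; simpa using hn⟩
  have hPn : P.Normal := by
    constructor
    rintro x ⟨hx, n, hn⟩ g
    refine ⟨hKn.conj_mem x hx g, n, ?_⟩
    rw [conj_pow, hn]; group
  have hPne : P ≠ ⊥ := by
    obtain ⟨x, hx⟩ := exists_prime_orderOf_dvd_card' p hpK
    intro h
    have : (x : G) ∈ P := ⟨x.2, 1, by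
      have := pow_orderOf_eq_one x
      rw [hx] at this
      simpa using congrArg Subtype.val this⟩
    rw [h, Subgroup.mem_bot] at this
    have h1 : x = 1 := Subtype.ext this
    rw [h1, orderOf_one] at hx
    exact hp.one_lt.ne hx
  -- trivial intersections
  have hPA : P ⊓ A = ⊥ := by
    rw [eq_bot_iff]
    rintro z ⟨hz, hzA⟩
    exact hnoA z hzA (fun k hk => hKab k hk z hz.1)
  have hPB : P ⊓ B = ⊥ := by
    rw [eq_bot_iff]
    rintro z ⟨hz, hzB⟩
    exact hnoB z hzB (fun k hk => hKab k hk z hz.1)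
  have hABi : ∀ z ∈ A, z ∈ B → z = 1 := by
    intro z hzA hzB
    rw [← Subgroup.mem_bot, ← hZ, Subgroup.mem_center_iff]
    intro g
    obtain ⟨x, hx, y, hy, rfl⟩ := hAB g
    calc x * y * z = x * (y * z) := by group
      _ = x * (z * y) := by rw [comm_of_mem B hy hzB]
      _ = (x * z) * y := by group
      _ = (z * x) * y := by rw [comm_of_mem A hx hzA]
      _ = z * (x * y) := by group
  -- the subgroup X
  set X := (P ⊔ A) ⊓ (P ⊔ B) with hX
  have hXA : X = P ⊔ (A ⊓ (P ⊔ B)) := by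
    rw [hX]; exact dedekind P A (P ⊔ B) le_sup_left
  have hXB : X = P ⊔ (B ⊓ (P ⊔ A)) := by
    rw [hX, inf_comm]; exact dedekind P B (P ⊔ A) le_sup_left
  have hXnA : A ≤ Subgroup.normalizer (X : Set G) := by
    intro a ha
    rw [Subgroup.mem_normalizer_iff]
    have key : ∀ a ∈ A, ∀ x ∈ X, a * x * a⁻¹ ∈ X := by
      intro a ha x hx
      rw [hXA] at hx ⊢
      rw [← SetLike.mem_coe, Subgroup.normal_mul] at hx
      obtain ⟨u, hu, v, hv, rfl⟩ := hx
      have h1 : a * v * a⁻¹ = v := by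
        rw [comm_of_mem A ha hv.1]; group
      have h2 : a * (u * v) * a⁻¹ = (a * u * a⁻¹) * (a * v * a⁻¹) := by group
      rw [h2, h1]
      exact Subgroup.mul_mem _ ((le_sup_left : P ≤ _) (hPn.conj_mem u hu a)) ((le_sup_right : A ⊓ (P ⊔ B) ≤ _) hv)
    intro x
    refine ⟨key a ha x, fun h => ?_⟩
    have := key a⁻¹ (A.inv_mem ha) _ h
    simpa [mul_assoc] using this
  have hXnB : B ≤ Subgroup.normalizer (X : Set G) := by
    intro b hb
    rw [Subgroup.mem_normalizer_iff]
    have key : ∀ b ∈ B, ∀ x ∈ X, b * x * b⁻¹ ∈ X := by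
      intro b hb x hx
      rw [hXB] at hx ⊢
      rw [← SetLike.mem_coe, Subgroup.normal_mul] at hx
      obtain ⟨u, hu, v, hv, rfl⟩ := hx
      have h1 : b * v * b⁻¹ = v := by
        rw [comm_of_mem B hb hv.1]; group
      have h2 : b * (u * v) * b⁻¹ = (b * u * b⁻¹) * (b * v * b⁻¹) := by group
      rw [h2, h1]
      exact Subgroup.mul_mem _ ((le_sup_left : P ≤ _) (hPn.conj_mem u hu b)) ((le_sup_right : B ⊓ (P ⊔ A) ≤ _) hv)
    intro x
    refine ⟨key b hb x, fun h => ?_⟩
    have := key b⁻¹ (B.inv_mem hb) _ h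
    simpa [mul_assoc] using this
  have hXn : X.Normal := by
    rw [← Subgroup.normalizer_eq_top_iff, eq_top_iff]
    intro g _
    obtain ⟨a, ha, b, hb, rfl⟩ := hAB g
    exact Subgroup.mul_mem _ (hXnA ha) (hXnB hb)
  -- X is a p-group
  have hB1card : Nat.card ↥(B ⊓ (P ⊔ A)) = Nat.card P := by
    have e1 : A ⊔ (B ⊓ (P ⊔ A)) = P ⊔ A := by
      apply le_antisymm (sup_le le_sup_right inf_le_right)
      intro x hx
      obtain ⟨a, ha, b, hb, rfl⟩ := hAB x
      have hb' : b ∈ P ⊔ A := by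
        have : b = a⁻¹ * (a * b) := by group
        rw [this]
        exact Subgroup.mul_mem _ (Subgroup.inv_mem _ ((le_sup_right : A ≤ P ⊔ A) ha)) hx
      exact Subgroup.mul_mem _ ((le_sup_left : A ≤ _) ha) ((le_sup_right : B ⊓ (P ⊔ A) ≤ _) ⟨hb, hb'⟩)
    have c1 : Nat.card ↥(P ⊔ A) = Nat.card P * Nat.card A := by
      apply card_of_factor (P ⊔ A) P A le_sup_left le_sup_right hPA
      intro m hm
      rw [← SetLike.mem_coe, Subgroup.normal_mul] at hm
      obtain ⟨u, hu, v, hv, rfl⟩ := hm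
      exact ⟨u, hu, v, hv, rfl⟩
    have c2 : Nat.card ↥(P ⊔ A) = Nat.card ↥(B ⊓ (P ⊔ A)) * Nat.card A := by
      rw [mul_comm]
      apply card_of_factor (P ⊔ A) A (B ⊓ (P ⊔ A)) le_sup_right inf_le_right
      · rw [eq_bot_iff]
        rintro z ⟨h1, h2, -⟩
        exact hABi z h1 h2
      · intro m hm
        obtain ⟨a, ha, b, hb, rfl⟩ := hAB m
        refine ⟨a, ha, b, ⟨hb, ?_⟩, rfl⟩
        have : b = a⁻¹ * (a * b) := by group
        rw [this]
        exact Subgroup.mul_mem _ (Subgroup.inv_mem _ ((le_sup_right : A ≤ P ⊔ A) ha)) hm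
    rw [c1] at c2
    exact (Nat.eq_of_mul_eq_mul_right (Nat.card_pos) c2).symm
  have hXp : IsPGroup p X := by
    rw [hXB]
    apply IsPGroup.to_sup_of_normal_left hPp
    obtain ⟨n, hn⟩ := IsPGroup.iff_card.mp hPp
    exact IsPGroup.of_card (hB1card.trans hn)
  have hXfac : ∀ x ∈ X, ∃ a ∈ A, a ∈ X ∧ ∃ b ∈ B, b ∈ X ∧ x = a * b := by
    rintro x hx
    obtain ⟨a, ha, b, hb, rfl⟩ := hAB x
    have hb1 : b ∈ P ⊔ A := by
      have : b = a⁻¹ * (a * b) := by group
      rw [this]
      exact Subgroup.mul_mem _ (Subgroup.inv_mem _ ((le_sup_right : A ≤ P ⊔ A) ha)) hx.1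
    have hb2 : b ∈ X := ⟨hb1, (le_sup_right : B ≤ P ⊔ B) hb⟩
    have ha2 : a ∈ X := by
      have : a = (a * b) * b⁻¹ := by group
      rw [this]
      exact X.mul_mem hx (X.inv_mem hb2)
    exact ⟨a, ha, ha2, b, hb, hb2, rfl⟩
  have hPX : P ≤ X := by rw [hXA]; exact le_sup_left
  have hXnt : Nontrivial X := by
    rw [Subgroup.nontrivial_iff_ne_bot]
    intro h
    rw [h] at hPX
    exact hPne (le_bot_iff.mp hPX)
  have := hXp.center_nontrivial
  obtain ⟨z, hz1⟩ := exists_ne (1 : Subgroup.center X)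
  have hzc : ∀ x ∈ X, x * ((z : X) : G) = ((z : X) : G) * x := by
    intro x hx
    have := Subgroup.mem_center_iff.mp z.2 ⟨x, hx⟩
    exact congrArg Subtype.val this
  have hz1' : ((z : X) : G) ≠ 1 := by
    intro h; exact hz1 (Subtype.ext (Subtype.ext h))
  obtain ⟨a, ha, haX, b, hb, hbX, hzab⟩ := hXfac _ (z : X).2
  -- a is central in X
  have haC : ∀ x ∈ X, x * a = a * x := by
    intro x hx
    obtain ⟨a', ha', haX', b', hb', hbX', rfl⟩ := hXfac x hx
    have h1 : b' * a = a * b' := by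
      have h2 := hzc b' hbX'
      rw [hzab] at h2
      have h3 : b' * b = b * b' := comm_of_mem B hb' hb
      have h4 : (b' * a) * b = (a * b') * b := by
        calc (b' * a) * b = b' * (a * b) := by group
          _ = a * b * b' := h2
          _ = a * (b * b') := by group
          _ = a * (b' * b) := by rw [h3]
          _ = (a * b') * b := by group
      exact mul_right_cancel h4
    calc a' * b' * a = a' * (b' * a) := by group
      _ = a' * (a * b') := by rw [h1]
      _ = (a' * a) * b' := by group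
      _ = (a * a') * b' := by rw [comm_of_mem A ha' ha]
      _ = a * (a' * b') := by group
  have hbC : ∀ x ∈ X, x * b = b * x := by
    intro x hx
    have h1 := hzc x hx
    rw [hzab] at h1
    have h2 := haC x hx
    have h3 : a * (x * b) = a * (b * x) := by
      calc a * (x * b) = (a * x) * b := by group
        _ = (x * a) * b := by rw [h2]
        _ = x * (a * b) := by group
        _ = a * b * x := h1
        _ = a * (b * x) := by group
    exact mul_left_cancel h3
  -- elements central in X centralise K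
  have hCK : ∀ c ∈ X, (∀ x ∈ X, x * c = c * x) → ∀ k ∈ K, k * c = c * k := by
    intro c hc hcX k hk
    obtain ⟨i, j, hij, ⟨n, hn⟩, hj⟩ := Cfsg.Agent.Transfer.exists_pow_decomp p k (orderOf_pos k).ne'
    have h1 : k ^ i ∈ X := by
      apply hPX
      exact ⟨K.pow_mem hk i, n, by rw [← hn]; exact pow_orderOf_eq_one _⟩
    have h2 : (k ^ j) * c = c * (k ^ j) := by
      -- the commutator lies in X and in the p'-part of K
      have h3 : (k ^ j) * c * (k ^ j)⁻¹ * c⁻¹ ∈ X := X.mul_mem (hXn.conj_mem c hc _) (X.inv_mem hc)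
      have h4 : (k ^ j) * (c * (k ^ j)⁻¹ * c⁻¹) ∈ K :=
        K.mul_mem (K.pow_mem hk j) (hKn.conj_mem _ (K.inv_mem (K.pow_mem hk j)) c)
      have e : (k ^ j) * c * (k ^ j)⁻¹ * c⁻¹ = (k ^ j) * (c * (k ^ j)⁻¹ * c⁻¹) := by group
      -- order of second form is prime to p
      have h5 : ((k ^ j) * (c * (k ^ j)⁻¹ * c⁻¹)) ^ (orderOf (k ^ j)) = 1 := by
        rw [Commute.mul_pow (hKab _ (K.pow_mem hk j) _ (hKn.conj_mem _ (K.inv_mem (K.pow_mem hk j)) c)),
          pow_orderOf_eq_one, conj_pow, inv_pow, pow_orderOf_eq_one]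
        group
      have h6 : orderOf ((k ^ j) * (c * (k ^ j)⁻¹ * c⁻¹)) ∣ orderOf (k ^ j) := orderOf_dvd_of_pow_eq_one h5
      obtain ⟨m, hm⟩ := hXp ⟨_, h3⟩
      have hm' : ((k ^ j) * c * (k ^ j)⁻¹ * c⁻¹) ^ p ^ m = 1 := by
        simpa using congrArg Subtype.val hm
      rw [e] at hm'
      have h7 : orderOf ((k ^ j) * (c * (k ^ j)⁻¹ * c⁻¹)) ∣ p ^ m := orderOf_dvd_of_pow_eq_one hm'
      have h8 : orderOf ((k ^ j) * (c * (k ^ j)⁻¹ * c⁻¹)) = 1 :=
        Nat.eq_one_of_dvd_coprimes (Nat.Coprime.pow_right m hj) h6 h7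
      have h9 := orderOf_eq_one_iff.mp h8
      rw [← e] at h9
      have h10 : (k ^ j) * c * (k ^ j)⁻¹ = c := by rwa [mul_inv_eq_one] at h9
      rwa [mul_inv_eq_iff_eq_mul] at h10
    have h3 := hcX _ h1
    rw [hij]
    calc k ^ i * k ^ j * c = k ^ i * (k ^ j * c) := by group
      _ = k ^ i * (c * k ^ j) := by rw [h2]
      _ = (k ^ i * c) * k ^ j := by group
      _ = (c * k ^ i) * k ^ j := by rw [h3]
      _ = c * (k ^ i * k ^ j) := by group
  have ha1 := hnoA a ha (hCK a haX haC)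
  have hb1 := hnoB b hb (hCK b hbX hbC)
  apply hz1'
  rw [hzab, ha1, hb1, one_mul]

end Cfsg.Agent.S0573
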