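import Cfsg.Statements.S0571
import Cfsg.Agent.S0573
import Cfsg.Agent.Supersolvable.Basic

set_option autoImplicit false
open Cfsg

namespace Cfsg.Agent.S0571

theorem aux (n : ℕ) : ∀ {G : Type*} [Group G] [Finite G] (A B : Subgroup G) [IsCyclic A] [IsCyclic B]
    (_ : ∀ g : G, ∃ a ∈ A, ∃ b ∈ B, g = a * b) (_ : Nat.card G = n), Cfsg.IsSupersolvable G := by
  induction n using Nat.strong_induction_on with
  | _ n ih =>
    intro G _ _ A B hA hB hAB hn
    rcases subsingleton_or_nontrivial G with hs | hnt
    · exact Cfsg.Agent.Supersolvable.of_subsingleton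
    have hAc : IsMulCommutative A := inferInstance
    have hBc : IsMulCommutative B := inferInstance
    obtain ⟨N, hN, hN1, hNAB⟩ := Cfsg.Agent.S0573.result A B hAB
    have hNcyc : IsCyclic N := by
      rcases hNAB with h | h
      · exact isCyclic_of_injective (Subgroup.inclusion h) (Subgroup.inclusion_injective h)
      · exact isCyclic_of_injective (Subgroup.inclusion h) (Subgroup.inclusion_injective h)
    apply Cfsg.Agent.Supersolvable.of_isCyclic_normal N hNcyc
    have hcard : Nat.card (G ⧸ N) < n := by
      have h1 := Subgroup.card_eq_card_quotient_mul_card_subgroup N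
      have h2 : 1 < Nat.card N := by
        rw [Subgroup.one_lt_card_iff_ne_bot]; exact hN1
      have h3 : 0 < Nat.card (G ⧸ N) := Nat.card_pos
      rw [← hn, h1]
      exact lt_mul_of_one_lt_right h3 h2
    have hAm : IsCyclic (A.map (QuotientGroup.mk' N)) :=
      isCyclic_of_surjective ((QuotientGroup.mk' N).subgroupMap A) ((QuotientGroup.mk' N).subgroupMap_surjective A)
    have hBm : IsCyclic (B.map (QuotientGroup.mk' N)) :=
      isCyclic_of_surjective ((QuotientGroup.mk' N).subgroupMap B) ((QuotientGroup.mk' N).subgroupMap_surjective B)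
    refine ih _ hcard (A.map (QuotientGroup.mk' N)) (B.map (QuotientGroup.mk' N)) ?_ rfl
    intro g
    obtain ⟨g, rfl⟩ := QuotientGroup.mk'_surjective N g
    obtain ⟨a, ha, b, hb, rfl⟩ := hAB g
    exact ⟨_, ⟨a, ha, rfl⟩, _, ⟨b, hb, rfl⟩, by rw [map_mul]⟩


/-- If a finite group G is the product AB of two cyclic subgroups (every element is a product ab), then G is supersolvable. -/
theorem result {G : Type*} [Group G] [Finite G] (A B : Subgroup G) [IsCyclic A] [IsCyclic B] (hAB : ∀ g : G, ∃ a ∈ A, ∃ b ∈ B, g = a * b) : Cfsg.IsSupersolvable G := by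
  exact aux _ A B hAB rfl

end Cfsg.Agent.S0571
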