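import Cfsg.Statements.S0576
import Cfsg.Agent.H10.Frat

set_option autoImplicit false
open Cfsg

namespace Cfsg.Agent.S0576

theorem result {G : Type*} [Group G] [Finite G] (H : Subgroup G) [H.Normal] (hH : H ≤ frattini G) : (MulAut.conj : ↥H →* MulAut ↥H).range ≤ frattini (MulAut ↥H) := by
  have : Finite (MulAut ↥H) := inferInstance
  set φ : G →* MulAut ↥H := MulAut.conjNormal with hφ
  have hnorm : ((MulAut.conj : ↥H →* MulAut ↥H).range).Normal := by
    constructor
    rintro _ ⟨h, rfl⟩ g
    refine ⟨g h, ?_⟩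
    ext x
    simp [MulAut.conj_apply]
  refine Cfsg.Agent.H10.le_frattini_of_le_map_frattini φ.range _ ?_
  rintro _ ⟨h, rfl⟩
  have h1 : (h : G) ∈ frattini G := hH h.2
  have h2 := frattini_le_comap_frattini_of_surjective (φ := φ.rangeRestrict) φ.rangeRestrict_surjective h1
  refine ⟨φ.rangeRestrict (h : G), h2, ?_⟩
  ext x
  simp [hφ, MulAut.conj_apply, MulAut.conjNormal_apply]

end Cfsg.Agent.S0576
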