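import Cfsg.Statements.S0577
import Cfsg.Agent.S0536
import Cfsg.Agent.S0575
import Cfsg.Agent.H10.Frat
import Cfsg.Agent.Solv.Frattini
import Cfsg.Agent.Solv.Core

set_option autoImplicit false
open Cfsg

namespace Cfsg.Agent.S0577

theorem nilp_of_comm (H : Type*) [Group H] (h : IsMulCommutative H) : Group.IsNilpotent H := by
  open scoped IsMulCommutative in
  infer_instance

/-- If `w = [u,v]` commutes with `u`, `u ^ n = 1` and `w ^ m = 1` with `n, m` coprime, then `w = 1`. -/
theorem comm_eq_one {G : Type*} [Group G] {u v : G} {n m : ℕ} (hu : u ^ n = 1)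
    (hc : (u * v * u⁻¹ * v⁻¹) * u = u * (u * v * u⁻¹ * v⁻¹)) (hw : (u * v * u⁻¹ * v⁻¹) ^ m = 1)
    (hnm : n.Coprime m) : u * v * u⁻¹ * v⁻¹ = 1 := by
  obtain ⟨w, hwdef⟩ : ∃ w, w = u * v * u⁻¹ * v⁻¹ := ⟨_, rfl⟩
  rw [← hwdef] at hc hw ⊢
  have h1 : v * u * v⁻¹ = w⁻¹ * u := by rw [hwdef]; group
  have h2 : (w⁻¹ * u) ^ n = w⁻¹ ^ n * u ^ n := by
    apply Commute.mul_pow
    exact (show Commute w u from hc).inv_left
  have h3 : w⁻¹ ^ n = 1 := by
    have h5 : (v * u * v⁻¹) ^ n = (w⁻¹ * u) ^ n := by rw [h1]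
    rw [h2, conj_pow, hu, mul_one, mul_one, mul_inv_cancel] at h5
    exact h5.symm
  have h4 : w ^ n = 1 := by rw [inv_pow] at h3; exact inv_eq_one.mp h3
  have h5 := orderOf_dvd_of_pow_eq_one h4
  have h6 := orderOf_dvd_of_pow_eq_one hw
  exact orderOf_eq_one_iff.mp (Nat.eq_one_of_dvd_coprimes hnm h5 h6)

/-- Let G be a finite minimal non-nilpotent group and Q a normal Sylow q-subgroup of G, and let D be the commutator subgroup of Q regarded in G (a normal subgroup). Then G modulo D is non-abelian and all its proper subgroups are abelian. -/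
theorem result {G : Type*} [Group G] [Finite G] (hG : Cfsg.IsMinimalNonNilpotent G) (q : ℕ) [Fact q.Prime] (hq : q ∣ Nat.card G) (Q : Sylow q G) (hQ : (Q : Subgroup G).Normal) (D : Subgroup G) [D.Normal] (hD : D = (commutator ↥(Q : Subgroup G)).map (Q : Subgroup G).subtype) : ¬ IsMulCommutative (G ⧸ D) ∧ ∀ K : Subgroup (G ⧸ D), K ≠ ⊤ → IsMulCommutative K := by
  classical
  obtain ⟨p₀, q₀, hp₀, hq₀, hpq, P₀, Q₀, hPc, hQ₀n, htop⟩ := Cfsg.Agent.S0536.result hG
  have hpf : Fact p₀.Prime := ⟨hp₀⟩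
  have hqf : Fact q₀.Prime := ⟨hq₀⟩
  have hq' : q.Prime := Fact.out
  -- if `P₀` is normal then `G` is nilpotent
  have hPnn : ¬ (P₀ : Subgroup G).Normal := by
    intro hPn
    apply hG.1
    have h1 : (P₀ : Subgroup G) ≤ Cfsg.fittingSubgroup G :=
      Cfsg.Agent.Solv.le_fitting hPn (IsPGroup.isNilpotent P₀.2)
    have h2 : (Q₀ : Subgroup G) ≤ Cfsg.fittingSubgroup G :=
      Cfsg.Agent.Solv.le_fitting hQ₀n (IsPGroup.isNilpotent Q₀.2)
    have h3 : Cfsg.fittingSubgroup G = ⊤ := by
      rw [eq_top_iff, ← htop]; exact sup_le h1 h2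
    have h4 : Group.IsNilpotent (Cfsg.fittingSubgroup G) := Cfsg.Agent.Solv.fitting_isNilpotent
    rw [h3] at h4
    exact Group.nilpotent_of_mulEquiv Subgroup.topEquiv
  -- index of Q₀
  have hQi : (Q₀ : Subgroup G).index ∣ Nat.card (P₀ : Subgroup G) := by
    rw [← Subgroup.relIndex_top_right, ← htop, Subgroup.relIndex_sup_right]
    exact Subgroup.relIndex_dvd_card _ _
  obtain ⟨k, hk⟩ := IsPGroup.iff_card.mp P₀.2
  obtain ⟨m, hm⟩ := IsPGroup.iff_card.mp Q₀.2
  have hcases : q = q₀ := by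
    have h1 : q ∣ Nat.card (Q₀ : Subgroup G) * (Q₀ : Subgroup G).index := by
      rw [Subgroup.card_mul_index]; exact hq
    rcases hq'.dvd_mul.mp h1 with h | h
    · rw [hm] at h
      exact (Nat.prime_dvd_prime_iff_eq hq' hq₀).mp (hq'.dvd_of_dvd_pow h)
    · exfalso
      have h2 := h.trans hQi
      rw [hk] at h2
      have h3 := (Nat.prime_dvd_prime_iff_eq hq' hp₀).mp (hq'.dvd_of_dvd_pow h2)
      subst h3
      apply hPnn
      have : P₀ = Q := by
        have hsub : Subsingleton (Sylow q G) := @Unique.instSubsingleton _ (Sylow.unique_of_normal Q hQ)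
        exact Subsingleton.elim _ _
      rw [this]; exact hQ
  subst hcases
  have hQQ : Q₀ = Q := by
    have hsub : Subsingleton (Sylow q G) := @Unique.instSubsingleton _ (Sylow.unique_of_normal Q hQ)
    exact Subsingleton.elim _ _
  subst hQQ
  -- q-elements lie in Q
  have hmemQ : ∀ x : G, (∃ n, orderOf x = q ^ n) → x ∈ (Q₀ : Subgroup G) := by
    rintro x ⟨n, hn⟩
    have h1 : IsPGroup q (Subgroup.zpowers x) := IsPGroup.of_card (n := n) (by rw [Nat.card_zpowers, hn])
    obtain ⟨R, hR⟩ := h1.exists_le_sylow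
    have hsub : Subsingleton (Sylow q G) := @Unique.instSubsingleton _ (Sylow.unique_of_normal Q₀ hQ)
    have : R = Q₀ := Subsingleton.elim _ _
    rw [← this]
    exact hR (Subgroup.mem_zpowers x)
  -- G / Q₀ is commutative
  have hcomQ : commutator G ≤ (Q₀ : Subgroup G) := by
    have : IsMulCommutative (P₀ : Subgroup G) := inferInstance
    apply Subgroup.Normal.commutator_le_of_self_sup_commutative_eq_top (H := (P₀ : Subgroup G)) _ this
    rw [sup_comm]; exact htop
  have hDQ : D ≤ (Q₀ : Subgroup G) := by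
    rw [hD]; rintro _ ⟨y, _, rfl⟩; exact y.2
  constructor
  · intro hcomm
    apply hG.1
    have h1 : commutator G ≤ D := Subgroup.Normal.quotient_commutative_iff_commutator_le.mp hcomm
    have h2 : D ≤ frattini G := by
      rw [hD]
      refine le_trans (Subgroup.map_mono ?_) (Cfsg.Agent.S0575.result (Q₀ : Subgroup G))
      exact Cfsg.Agent.Solv.commutator_le_frattini_of_pGroup Q₀.2
    apply Cfsg.Agent.Solv.nilpotent_of_quotient_frattini
    have h3 : IsMulCommutative (G ⧸ frattini G) :=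
      Subgroup.Normal.quotient_commutative_iff_commutator_le.mpr (h1.trans h2)
    exact nilp_of_comm _ h3
  · intro K hK
    set K' := K.comap (QuotientGroup.mk' D) with hK'
    have hK'ne : K' ≠ ⊤ := by
      intro h
      apply hK
      have := congrArg (Subgroup.map (QuotientGroup.mk' D)) h
      rwa [hK', Subgroup.map_comap_eq_self_of_surjective (QuotientGroup.mk'_surjective D),
        Subgroup.map_top_of_surjective _ (QuotientGroup.mk'_surjective D)] at this
    have hnil := hG.2 _ hK'ne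
    -- commuting of q- and q'-elements of K'
    have hcop : ∀ x ∈ K', ∀ y ∈ K', (orderOf x).Coprime (orderOf y) → x * y = y * x := by
      intro x hx y hy hxy
      have := Cfsg.Agent.H52.commute_of_isNilpotent_of_coprime hnil (x := ⟨x, hx⟩) (y := ⟨y, hy⟩)
        (by rw [Subgroup.orderOf_mk, Subgroup.orderOf_mk]; exact hxy)
      exact congrArg Subtype.val this
    have hcop1 : ∀ u v : G, (∃ n, orderOf u = q ^ n) → (orderOf v).Coprime q → (orderOf u).Coprime (orderOf v) := by
      rintro u v ⟨n, hn⟩ hv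
      rw [hn]; exact (Nat.Coprime.pow_right n hv).symm
    have key : ∀ x ∈ K', ∀ y ∈ K', (x * y) * (y * x)⁻¹ ∈ D := by
      intro x hx y hy
      obtain ⟨a, b, hab, hxa, hxb⟩ := Cfsg.Agent.Transfer.exists_pow_decomp q x (orderOf_pos x).ne'
      obtain ⟨c, d, hcd, hyc, hyd⟩ := Cfsg.Agent.Transfer.exists_pow_decomp q y (orderOf_pos y).ne'
      have hxbK := K'.pow_mem hx b
      have hxaK := K'.pow_mem hx a
      have hycK := K'.pow_mem hy c
      have hydK := K'.pow_mem hy d
      generalize x ^ a = xa at *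
      generalize x ^ b = xb at *
      generalize y ^ c = yc at *
      generalize y ^ d = yd at *
      have e1 : xb * yc = yc * xb := (hcop yc hycK xb hxbK (hcop1 yc xb hyc hxb)).symm
      have e2 : xa * yd = yd * xa := hcop xa hxaK yd hydK (hcop1 xa yd hxa hyd)
      -- [xb, yd] = 1
      have hwQ : xb * yd * xb⁻¹ * yd⁻¹ ∈ (Q₀ : Subgroup G) := by
        apply hcomQ
        rw [commutator_def]
        exact Subgroup.commutator_mem_commutator (Subgroup.mem_top xb) (Subgroup.mem_top yd)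
      have hwK : xb * yd * xb⁻¹ * yd⁻¹ ∈ K' :=
        K'.mul_mem (K'.mul_mem (K'.mul_mem hxbK hydK) (K'.inv_mem hxbK)) (K'.inv_mem hydK)
      obtain ⟨n, hn⟩ := IsPGroup.iff_orderOf.mp Q₀.2 ⟨_, hwQ⟩
      rw [Subgroup.orderOf_mk] at hn
      have e3 : xb * yd * xb⁻¹ * yd⁻¹ = 1 := by
        apply comm_eq_one (pow_orderOf_eq_one xb) _ (pow_orderOf_eq_one _)
        · exact (hcop1 _ _ ⟨n, hn⟩ hxb).symm
        · exact hcop _ hwK _ hxbK (hcop1 _ _ ⟨n, hn⟩ hxb)
      have e4 : xb * yd = yd * xb := by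
        have : xb * yd = (xb * yd * xb⁻¹ * yd⁻¹) * (yd * xb) := by group
        rw [this, e3, one_mul]
      have hDmem : xa * yc * xa⁻¹ * yc⁻¹ ∈ D := by
        rw [hD]
        refine ⟨⟨xa, hmemQ xa hxa⟩ * ⟨yc, hmemQ yc hyc⟩ * ⟨xa, hmemQ xa hxa⟩⁻¹ * ⟨yc, hmemQ yc hyc⟩⁻¹, ?_, rfl⟩
        rw [commutator_def]
        exact Subgroup.commutator_mem_commutator (Subgroup.mem_top _) (Subgroup.mem_top _)
      have e5 : (x * y) * (y * x)⁻¹ = xa * yc * xa⁻¹ * yc⁻¹ := by
        rw [hab, hcd]
        have h1 : xa * xb * (yc * yd) = xa * yc * (xb * yd) := by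
          calc xa * xb * (yc * yd) = xa * (xb * yc) * yd := by group
            _ = xa * (yc * xb) * yd := by rw [e1]
            _ = _ := by group
        have h2 : yc * yd * (xa * xb) = yc * xa * (xb * yd) := by
          calc yc * yd * (xa * xb) = yc * (yd * xa) * xb := by group
            _ = yc * (xa * yd) * xb := by rw [e2]
            _ = yc * xa * (yd * xb) := by group
            _ = _ := by rw [e4]
        rw [h1, h2]; group
      rw [e5]; exact hDmem
    refine ⟨⟨?_⟩⟩
    rintro ⟨u, hu⟩ ⟨v, hv⟩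
    obtain ⟨x, rfl⟩ := QuotientGroup.mk'_surjective D u
    obtain ⟨y, rfl⟩ := QuotientGroup.mk'_surjective D v
    ext
    change QuotientGroup.mk' D x * QuotientGroup.mk' D y = QuotientGroup.mk' D y * QuotientGroup.mk' D x
    rw [← map_mul, ← map_mul, ← mul_inv_eq_one, ← map_inv, ← map_mul]
    exact (QuotientGroup.eq_one_iff _).mpr (key x hu y hv)

end Cfsg.Agent.S0577
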