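import Cfsg.Statements.S0578
import Cfsg.Agent.H10.Imports

set_option autoImplicit false
open Cfsg

namespace Cfsg.Agent.S0578

open scoped commutatorElement

theorem comm_of_nilpotent {P : Type*} [Group P] [Group.IsNilpotent P]
    (h : ∀ A : Subgroup P, IsMulCommutative A → Subgroup.normalizer (A : Set P) ≤ Subgroup.centralizer (A : Set P)) :
    Subgroup.center P = ⊤ := by
  by_contra hne
  have hnt : Nontrivial (P ⧸ Subgroup.center P) := QuotientGroup.nontrivial_iff.mpr hne
  have hc := Group.IsNilpotent.center_ne_bot (G := P ⧸ Subgroup.center P)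
  obtain ⟨⟨x', hx'⟩, hx1⟩ := Subgroup.ne_bot_iff_exists_ne_one.mp hc
  obtain ⟨x, hx⟩ := QuotientGroup.mk_surjective x'
  have hxZ : x ∉ Subgroup.center P := by
    intro hxc
    apply hx1
    apply Subtype.ext
    change x' = 1
    rw [← hx]
    exact (QuotientGroup.eq_one_iff x).mpr hxc
  have hcomm : ∀ g : P, ⁅g, x⁆ ∈ Subgroup.center P := by
    intro g
    rw [← QuotientGroup.eq_one_iff, commutatorElement_def]
    have := Subgroup.mem_center_iff.mp hx' (QuotientGroup.mk g)
    rw [← hx] at this
    rw [QuotientGroup.mk_mul, QuotientGroup.mk_mul, QuotientGroup.mk_mul, this, QuotientGroup.mk_inv, QuotientGroup.mk_inv]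
    group
  set A : Subgroup P := Subgroup.closure (insert x (Subgroup.center P : Set P)) with hA
  have hxA : x ∈ A := Subgroup.subset_closure (Set.mem_insert _ _)
  have hZA : Subgroup.center P ≤ A := fun z hz => Subgroup.subset_closure (Set.mem_insert_of_mem _ hz)
  have hAc : IsMulCommutative A := by
    apply Subgroup.isMulCommutative_closure
    rintro a (rfl | ha) b (rfl | hb)
    · rfl
    · exact Subgroup.mem_center_iff.mp hb _
    · exact (Subgroup.mem_center_iff.mp ha _).symm
    · exact Subgroup.mem_center_iff.mp hb _
  have hAn : (⊤ : Subgroup P) ≤ Subgroup.normalizer (A : Set P) := by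
    rw [hA, Subgroup.le_normalizer_closure_iff]
    rintro g - k (rfl | hk)
    · have : g * k * g⁻¹ = ⁅g, k⁆ * k := by rw [commutatorElement_def]; group
      rw [this]
      exact A.mul_mem (hZA (hcomm g)) hxA
    · have : g * k * g⁻¹ = k := by rw [Subgroup.mem_center_iff.mp hk g]; group
      rw [this]
      exact hZA hk
  apply hxZ
  rw [Subgroup.mem_center_iff]
  intro g
  have := h A hAc (hAn (Subgroup.mem_top g))
  exact (Subgroup.mem_centralizer_iff.mp this x hxA).symm

theorem result {G : Type*} [Group G] [Finite G] (h : ∀ A : Subgroup G, IsMulCommutative A → Subgroup.normalizer (A : Set G) = Subgroup.centralizer (A : Set G)) : IsMulCommutative G := by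
  have hsyl : ∀ p : ℕ, p.Prime → ¬ p ∣ Nat.card (commutator G) := by
    intro p hp
    have : Fact p.Prime := ⟨hp⟩
    obtain ⟨P⟩ := (inferInstance : Nonempty (Sylow p G))
    have hPnil : Group.IsNilpotent (P : Subgroup G) := P.isPGroup'.isNilpotent
    have hcen : Subgroup.center (P : Subgroup G) = ⊤ := by
      apply comm_of_nilpotent
      intro A hA x hx
      have hA' : IsMulCommutative (A.map (P : Subgroup G).subtype) := inferInstance
      have hx' : (x : G) ∈ Subgroup.normalizer ((A.map (P : Subgroup G).subtype : Subgroup G) : Set G) :=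
        Subgroup.le_normalizer_map _ (Subgroup.mem_map_of_mem _ hx)
      rw [h _ hA'] at hx'
      rw [Subgroup.mem_centralizer_iff]
      intro a ha
      have := Subgroup.mem_centralizer_iff.mp hx' (a : G) ⟨a, ha, rfl⟩
      exact Subtype.ext this
    have hPc : IsMulCommutative (P : Subgroup G) := by
      rw [← Subgroup.center_eq_top_iff]
      exact hcen
    have hN : Subgroup.normalizer (P : Set G) ≤ Subgroup.centralizer (P : Set G) := (h _ hPc).le
    have hker : commutator G ≤ (MonoidHom.transferSylow P hN).ker := by
      rw [commutator_def, Subgroup.commutator_le]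
      intro a _ b _
      rw [MonoidHom.mem_ker, map_commutatorElement, commutatorElement_eq_one_iff_mul_comm]
      exact hPc.1.comm _ _
    intro hdvd
    exact MonoidHom.not_dvd_card_ker_transferSylow P hN (hdvd.trans (Subgroup.card_dvd_of_le hker))
  have hone : Nat.card (commutator G) = 1 := by
    by_contra hne
    obtain ⟨p, hp, hpd⟩ := Nat.exists_prime_and_dvd hne
    exact hsyl p hp hpd
  rw [← commutator_eq_bot_iff]
  exact Subgroup.card_eq_one.mp hone

end Cfsg.Agent.S0578
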