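import Cfsg.Statements.S0582
import Cfsg.Agent.H10.SupHall

set_option autoImplicit false
open Pointwise
open Cfsg

namespace Cfsg.Agent.S0582

theorem result {G : Type*} [Group G] [Finite G] (H K : Subgroup G) (hH : Cfsg.IsSupersolvable H) (hK : Cfsg.IsSupersolvable K) (hcard : Nat.card H = Nat.card K) (hHall : (Nat.card H).Coprime H.index) : ∃ x : G, MulAut.conj x • H = K :=
  Cfsg.Agent.H10.supersolvable_hall_conj _ rfl H K hH hK hcard hHall

end Cfsg.Agent.S0582
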