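import Cfsg.Statements.S0585
import Cfsg.Agent.H10.Frat2

set_option autoImplicit false
open Cfsg

namespace Cfsg.Agent.S0585

theorem result {G : Type*} [Group G] [Finite G] (hΦ : frattini G = ⊥) (A : Subgroup G) [A.Normal] [IsMulCommutative A] : ∃ H : Subgroup G, Subgroup.IsComplement' A H :=
  Cfsg.Agent.H10.exists_complement_of_inf_frattini_eq_bot A (by rw [hΦ, inf_bot_eq])

end Cfsg.Agent.S0585
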