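import Cfsg.Statements.S0586
import Cfsg.Agent.H10.Frat
import Cfsg.Agent.H10.Frat2
import Cfsg.Agent.H10.MinNormal
import Cfsg.Agent.Solv.Core

set_option autoImplicit false
open Cfsg

namespace Cfsg.Agent.S0586

open Subgroup

theorem commutator_le_frattini_of_nilpotent {G : Type*} [Group G] [Finite G]
    (h : Group.IsNilpotent G) : commutator G ≤ frattini G := by
  rw [frattini, Order.radical]
  refine le_iInf₂ fun M hM => ?_
  have hn : M.Normal :=
    Subgroup.NormalizerCondition.normal_of_coatom _ Group.normalizerCondition_of_isNilpotent hM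
  by_contra hcon
  have h1 : commutator G ⊔ M = ⊤ := hM.2 _ (by
    refine lt_of_le_of_ne le_sup_right ?_
    intro h2
    exact hcon (h2 ▸ le_sup_left))
  have hnt : Nontrivial (G ⧸ M) := by
    rw [QuotientGroup.nontrivial_iff]
    exact hM.1
  have h2 : commutator (G ⧸ M) = ⊤ := by
    have h3 : (commutator G).map (QuotientGroup.mk' M) = commutator (G ⧸ M) := by
      rw [commutator_def, commutator_def, Subgroup.map_commutator,
        Subgroup.map_top_of_surjective _ (QuotientGroup.mk'_surjective M)]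
    rw [← h3]
    have h4 : (commutator G ⊔ M).map (QuotientGroup.mk' M) = ⊤ := by
      rw [h1, Subgroup.map_top_of_surjective _ (QuotientGroup.mk'_surjective M)]
    rw [Subgroup.map_sup, (Subgroup.map_eq_bot_iff M).mpr (by rw [QuotientGroup.ker_mk']), sup_bot_eq] at h4
    exact h4
  have h5 : Group.IsSolvable (G ⧸ M) := inferInstance
  exact absurd h2 (Group.IsSolvable.commutator_lt_top_of_nontrivial (G ⧸ M)).ne

theorem result {G : Type*} [Group G] [Finite G] (hΦ : frattini G = ⊥) : Cfsg.fittingSubgroup G = sSup {N : Subgroup G | N.Normal ∧ N ≠ ⊥ ∧ IsMulCommutative N ∧ ∀ K : Subgroup G, K.Normal → K ≤ N → K = ⊥ ∨ K = N} := by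
  set A := sSup {N : Subgroup G | N.Normal ∧ N ≠ ⊥ ∧ IsMulCommutative N ∧ ∀ K : Subgroup G, K.Normal → K ≤ N → K = ⊥ ∨ K = N} with hA
  set F := Cfsg.fittingSubgroup G with hF
  have hFnil : Group.IsNilpotent F := Cfsg.Agent.Solv.fitting_isNilpotent
  have hFn : F.Normal := Cfsg.Agent.Solv.fitting_normal
  have hFab : ∀ a ∈ F, ∀ b ∈ F, a * b = b * a := by
    have h1 := commutator_le_frattini_of_nilpotent hFnil
    have h2 := Cfsg.Agent.H10.map_frattini_le_frattini F
    rw [hΦ, le_bot_iff, Subgroup.map_eq_bot_iff_of_injective _ F.subtype_injective] at h2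
    rw [h2, le_bot_iff, commutator_def, Subgroup.commutator_eq_bot_iff_le_centralizer] at h1
    intro a ha b hb
    have h3 := Subgroup.mem_centralizer_iff.mp (h1 (Subgroup.mem_top (⟨a, ha⟩ : F))) ⟨b, hb⟩ trivial
    exact (congrArg Subtype.val h3).symm
  have hAF : A ≤ F := by
    apply sSup_le
    rintro N ⟨hN, -, hN2, -⟩
    apply le_sSup
    refine ⟨hN, ?_⟩
    let _ : CommGroup N := { (inferInstance : Group N) with mul_comm := hN2.is_comm.comm }
    infer_instance
  have hAn : A.Normal := Subgroup.sSup_normal _ fun N hN => hN.1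
  have hAab : IsMulCommutative A := ⟨⟨fun a b => Subtype.ext (hFab a (hAF a.2) b (hAF b.2))⟩⟩
  obtain ⟨K, hK⟩ := Cfsg.Agent.H10.exists_complement_of_inf_frattini_eq_bot A (by rw [hΦ, inf_bot_eq])
  have hAK : A ⊔ K = ⊤ := hK.sup_eq_top
  have hAK' : A ⊓ K = ⊥ := hK.disjoint.eq_bot
  have hFKn : (F ⊓ K).Normal := by
    rw [← Subgroup.normalizer_eq_top_iff, eq_top_iff, ← hAK]
    apply sup_le
    · apply Cfsg.Agent.H10.le_normalizer_of_conj_mem
      intro a ha x hx
      have h1 : a * x * a⁻¹ = x := by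
        rw [hFab a (hAF ha) x hx.1]; group
      rwa [h1]
    · apply Cfsg.Agent.H10.le_normalizer_of_conj_mem
      intro a ha x hx
      exact ⟨hFn.conj_mem x hx.1 a, K.mul_mem (K.mul_mem ha hx.2) (K.inv_mem ha)⟩
  have hFK : F ⊓ K = ⊥ := by
    by_contra hne
    obtain ⟨M, hM, hMle⟩ := Cfsg.Agent.H10.exists_isMinNormal_le (F ⊓ K) hne
    have hMA : M ≤ A := by
      apply le_sSup
      refine ⟨hM.1, hM.2.1, ⟨⟨fun a b => Subtype.ext ?_⟩⟩, hM.2.2⟩
      exact hFab a (hMle a.2).1 b (hMle b.2).1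
    have h1 : M ≤ A ⊓ K := le_inf hMA (hMle.trans inf_le_right)
    rw [hAK', le_bot_iff] at h1
    exact hM.2.1 h1
  apply le_antisymm _ hAF
  intro x hx
  have h1 : x ∈ A ⊔ K := by rw [hAK]; trivial
  obtain ⟨a, ha, k, hk, rfl⟩ := Subgroup.mem_sup_of_normal_left.mp h1
  have h2 : k ∈ F ⊓ K := by
    refine ⟨?_, hk⟩
    have := mul_mem (inv_mem (hAF ha)) hx
    simpa using this
  rw [hFK, Subgroup.mem_bot] at h2
  rw [h2, mul_one]
  exact ha

end Cfsg.Agent.S0586
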