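import Cfsg.Statements.S0587
import Cfsg.Agent.Solv.Core
import Cfsg.Agent.H10.PrimAct
import Cfsg.Agent.H10.Nilp

set_option autoImplicit false
open Cfsg

namespace Cfsg.Agent.S0587

open Cfsg.Agent.H10 in
theorem result {G : Type*} [Group G] [Finite G] (p : ℕ) [Fact p.Prime] (hL : Cfsg.pCore p G ≠ ⊥) (M : Subgroup G) (hM : IsCoatom M) (hcore : M.normalCore = ⊥) : Cfsg.IsElementaryAbelian p (Cfsg.pCore p G) ∧ Subgroup.IsComplement' (Cfsg.pCore p G) M ∧ (∀ K : Subgroup G, K.Normal → K ≤ Cfsg.pCore p G → K = ⊥ ∨ K = Cfsg.pCore p G) ∧ Subgroup.centralizer ((Cfsg.pCore p G : Subgroup G) : Set G) = Cfsg.pCore p G ∧ ∀ (q : ℕ) [Fact q.Prime], Cfsg.pCore q ↥M ≠ ⊥ → Nat.card (Cfsg.pCore p G) % q = 1 % q ∧ q ≠ p := by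
  have hLn : (Cfsg.pCore p G).Normal := inferInstance
  have hLp : IsPGroup p (Cfsg.pCore p G) := Cfsg.Agent.Solv.pCore_isPGroup p
  have hLnil : Group.IsNilpotent (Cfsg.pCore p G) := hLp.isNilpotent
  obtain ⟨N, hN, hNL⟩ := exists_isMinNormal_le (Cfsg.pCore p G) hL
  have hNn := hN.1
  have hLC : Cfsg.pCore p G ≤ Subgroup.centralizer (N : Set G) :=
    nilpotent_normal_le_centralizer_minimal_normal N _ hLnil hN.2.2
  have hCM : Subgroup.centralizer (N : Set G) ⊓ M = ⊥ :=
    centralizer_inf_eq_bot_of_corefree hM hcore hN.2.1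
  have hNC : N = Subgroup.centralizer (N : Set G) :=
    eq_of_normal_le_of_inf_eq_bot hM hcore hN.2.1 (hNL.trans hLC) hCM
  have hLN : Cfsg.pCore p G = N := le_antisymm (hLC.trans hNC.ge) hNL
  have hsolv : Group.IsSolvable N := by
    rw [← hLN]; infer_instance
  rw [hLN] at hLp hLn ⊢
  have hab : IsMulCommutative N := hN.isMulCommutative hsolv
  obtain ⟨p', hp', hel, hpg, d, hd0, hd⟩ := hN.elementary hsolv
  have hpp : p' = p := by
    obtain ⟨e, he⟩ := (IsPGroup.iff_card (p := p)).mp hLp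
    have h1 : p' ∣ p ^ e := by
      rw [← he, hd]
      exact dvd_pow_self _ hd0.ne'
    exact (Nat.prime_dvd_prime_iff_eq hp' (Fact.out : p.Prime)).mp (hp'.dvd_of_dvd_pow h1)
  subst hpp
  obtain ⟨h1, h2, h3⟩ := corefree_complement_of_comm hM hcore N hN.2.1
  refine ⟨hel, h3, hN.2.2, hNC.symm, ?_⟩
  intro q hq hQ
  -- the `q`-core of `M`
  set Q : Subgroup G := (Cfsg.pCore q M).map M.subtype with hQdef
  have hQM : Q ≤ M := Subgroup.map_subtype_le _
  have hQn : M ≤ Subgroup.normalizer (Q : Set G) := by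
    refine le_normalizer_of_conj_mem fun m hm x hx => ?_
    obtain ⟨y, hy, rfl⟩ := hx
    exact ⟨⟨m, hm⟩ * y * ⟨m, hm⟩⁻¹,
      (Cfsg.Agent.Solv.pCore_normal (G := M) q).conj_mem y hy ⟨m, hm⟩, rfl⟩
  have hQbot : Q ≠ ⊥ := by
    intro h
    apply hQ
    exact (Subgroup.map_eq_bot_iff_of_injective _ M.subtype_injective).mp h
  have hQp : IsPGroup q Q := (Cfsg.Agent.Solv.pCore_isPGroup (G := M) q).map _
  -- the centralizer of `Q` in `N` is trivial
  have hCQ : N ⊓ Subgroup.centralizer (Q : Set G) = ⊥ := by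
    have hnorm : (N ⊓ Subgroup.centralizer (Q : Set G)).Normal := by
      refine normal_of_normalizer_ge h2 ?_ ?_
      · exact le_normalizer_of_le_centralizer (inf_le_left.trans (Subgroup.le_centralizer N))
      · refine le_normalizer_of_conj_mem fun m hm x hx => ⟨hNn.conj_mem x hx.1 m, ?_⟩
        change m * x * m⁻¹ ∈ Subgroup.centralizer (Q : Set G)
        rw [Subgroup.mem_centralizer_iff]
        intro y hy
        have hy' : m⁻¹ * y * m ∈ Q := by
          have := (Subgroup.mem_normalizer_iff''.mp (hQn hm) y).mp hy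
          exact this
        have := Subgroup.mem_centralizer_iff.mp hx.2 _ hy'
        calc y * (m * x * m⁻¹) = m * ((m⁻¹ * y * m) * x) * m⁻¹ := by group
          _ = m * (x * (m⁻¹ * y * m)) * m⁻¹ := by rw [this]
          _ = m * x * m⁻¹ * y := by group
    rcases hN.2.2 _ hnorm inf_le_left with h | h
    · exact h
    · exfalso
      apply hQbot
      rw [eq_bot_iff, ← h1]
      refine le_inf ?_ hQM
      rw [hNC]
      have h5 : N ≤ Subgroup.centralizer (Q : Set G) := by rw [← h]; exact inf_le_right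
      exact Subgroup.le_centralizer_iff.mp h5
  -- count fixed points of the action of `Q` on `N`
  have hact : Nat.card N ≡ 1 [MOD q] := by
    let _ : MulAction Q N := MulAction.compHom N ((MulAut.conjNormal : G →* MulAut N).comp Q.subtype)
    have h5 := hQp.card_modEq_card_fixedPoints N
    have h6 : MulAction.fixedPoints Q N = {1} := by
      ext x
      constructor
      · intro hx
        have : (x : G) ∈ N ⊓ Subgroup.centralizer (Q : Set G) := by
          refine ⟨x.2, ?_⟩
          change (x : G) ∈ Subgroup.centralizer (Q : Set G)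
          rw [Subgroup.mem_centralizer_iff]
          intro y hy
          have h7 := congrArg Subtype.val (hx ⟨y, hy⟩)
          have h8 : y * (x : G) * y⁻¹ = x := h7
          calc y * (x : G) = (y * (x : G) * y⁻¹) * y := by group
            _ = x * y := by rw [h8]
        rw [hCQ, Subgroup.mem_bot] at this
        exact Subtype.ext this
      · rintro rfl y
        exact map_one (MulAut.conjNormal (y : G) : MulAut N)
    rw [h6, Nat.card_coe_set_eq, Set.ncard_singleton] at h5
    exact h5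
  refine ⟨hact, ?_⟩
  rintro rfl
  have h7 : q ∣ Nat.card N := by
    rw [hd]; exact dvd_pow_self _ hd0.ne'
  have h8 : Nat.card N ≡ 0 [MOD q] := (Nat.modEq_zero_iff_dvd).mpr h7
  have h9 : 1 ≡ 0 [MOD q] := hact.symm.trans h8
  have h10 := (Nat.modEq_zero_iff_dvd).mp h9
  exact hq.out.one_lt.ne' (Nat.dvd_one.mp h10)

end Cfsg.Agent.S0587
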