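import Cfsg.Statements.S0588
import Cfsg.Agent.H10.Imports

set_option autoImplicit false
open Cfsg

namespace Cfsg.Agent.S0588

theorem result {G : Type*} [Group G] [Finite G] (H : Subgroup G) (h : ∀ x ∈ H, x ≠ 1 → Subgroup.centralizer ({x} : Set G) ≤ H) : (Nat.card H).Coprime H.index := by
  by_contra hnc
  obtain ⟨p, hp, hpc, hpi⟩ := Nat.Prime.not_coprime_iff_dvd.mp hnc
  have : Fact p.Prime := ⟨hp⟩
  obtain ⟨x, hx⟩ := exists_prime_orderOf_dvd_card' p hpc
  have hx1 : (x : G) ≠ 1 := by
    intro h1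
    have : x = 1 := Subtype.ext h1
    rw [this, orderOf_one] at hx
    exact hp.one_lt.ne hx
  -- the subgroup generated by x is a p-group
  have hxp : IsPGroup p (Subgroup.zpowers (x : G)) := by
    apply IsPGroup.of_card (n := 1)
    rw [Nat.card_zpowers, Subgroup.orderOf_coe, hx, pow_one]
  obtain ⟨S, hS⟩ := hxp.exists_le_sylow
  have hxS : (x : G) ∈ (S : Subgroup G) := hS (Subgroup.mem_zpowers _)
  have : Nontrivial (S : Subgroup G) := ⟨⟨(x : G), hxS⟩, 1, fun hc => hx1 (congrArg Subtype.val hc)⟩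
  have hnt : Nontrivial (Subgroup.center (S : Subgroup G)) := IsPGroup.center_nontrivial S.isPGroup'
  obtain ⟨⟨z, hz⟩, hz1⟩ := exists_ne (1 : Subgroup.center (S : Subgroup G))
  have hzG : (z : G) ≠ 1 := by
    intro h1
    apply hz1
    apply Subtype.ext
    apply Subtype.ext
    exact h1
  have hzH : (z : G) ∈ H := by
    apply h x x.2 hx1
    rw [Subgroup.mem_centralizer_singleton_iff]
    have := (Subgroup.mem_center_iff.mp hz) ⟨x, hxS⟩
    simpa using (congrArg Subtype.val this).symm
  have hSH : (S : Subgroup G) ≤ H := by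
    intro s hs
    apply h z hzH hzG
    rw [Subgroup.mem_centralizer_singleton_iff]
    have := (Subgroup.mem_center_iff.mp hz) ⟨s, hs⟩
    simpa using (congrArg Subtype.val this)
  exact S.not_dvd_index (hpi.trans (Subgroup.index_dvd_of_le hSH))

end Cfsg.Agent.S0588
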