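import Cfsg.Statements.S0589
import Cfsg.Agent.H10.Imports
import Cfsg.Agent.Frob.Basic
import Mathlib.GroupTheory.GroupAction.CardCommute

set_option autoImplicit false
open Pointwise
open Cfsg

namespace Cfsg.Agent.S0589

/-- If each non-identity element of a finite group fixes exactly one point, there is a global
fixed point. -/
theorem exists_fixed_of_unique_fixed {L X : Type*} [Group L] [Finite L] [MulAction L X] [Finite X]
    [Nonempty X] (h : ∀ x : L, x ≠ 1 → Nat.card (MulAction.fixedBy X x) = 1) :
    ∃ a : X, ∀ x : L, x • a = a := by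
  classical
  have : Fintype L := Fintype.ofFinite L
  have : Fintype X := Fintype.ofFinite X
  have : Fintype (Quotient (MulAction.orbitRel L X)) := Fintype.ofFinite _
  have hb := MulAction.sum_card_fixedBy_eq_card_orbits_mul_card_group L X
  have hc := MulAction.card_eq_sum_card_group_div_card_stabilizer L X
  set n := Fintype.card L with hn
  have hnpos : 0 < n := Fintype.card_pos
  have h1 : (∑ g : L, Fintype.card (MulAction.fixedBy X g)) = Fintype.card X + (n - 1) := by
    rw [← Finset.add_sum_erase Finset.univ _ (Finset.mem_univ (1 : L))]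
    congr 1
    · apply Fintype.card_congr
      refine ⟨fun x => x.1, fun x => ⟨x, by simp [MulAction.fixedBy]⟩, fun x => by simp, fun x => by simp⟩
    · rw [Finset.sum_congr rfl (g := fun _ => 1)]
      · rw [Finset.sum_const, Finset.card_erase_of_mem (Finset.mem_univ _), Finset.card_univ]
        simp [hn]
      · intro x hx
        rw [← Nat.card_eq_fintype_card]
        exact h x (Finset.ne_of_mem_erase hx)
  set c : Quotient (MulAction.orbitRel L X) → ℕ := fun ω => Fintype.card (MulAction.stabilizer L ω.out) with hcdef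
  have hcd : ∀ ω, c ω ∣ n := by
    intro ω
    have := Subgroup.card_subgroup_dvd_card (MulAction.stabilizer L ω.out)
    rwa [Nat.card_eq_fintype_card, Nat.card_eq_fintype_card] at this
  have hcpos : ∀ ω, 0 < c ω := fun ω => Fintype.card_pos
  have h2 : ∑ ω, (n - n / c ω) = n - 1 := by
    have h3 : ∑ ω, (n / c ω) + ∑ ω, (n - n / c ω) = ∑ ω : Quotient (MulAction.orbitRel L X), n := by
      rw [← Finset.sum_add_distrib]
      apply Finset.sum_congr rfl
      intro ω _
      have : n / c ω ≤ n := Nat.div_le_self _ _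
      omega
    have hc' : Fintype.card X = ∑ ω, n / c ω := hc
    rw [Finset.sum_const, Finset.card_univ, smul_eq_mul, ← hb, h1, hc'] at h3
    omega
  by_contra hno
  push Not at hno
  have hcn : ∀ ω, n / c ω ≠ 1 := by
    intro ω hω
    have h3 : c ω = n := by
      have := Nat.div_mul_cancel (hcd ω)
      rw [hω, one_mul] at this
      exact this
    obtain ⟨x, hx⟩ := hno ω.out
    apply hx
    have h4 : MulAction.stabilizer L ω.out = ⊤ := by
      apply Subgroup.eq_top_of_card_eq
      rw [Nat.card_eq_fintype_card, Nat.card_eq_fintype_card]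
      exact h3
    have : x ∈ MulAction.stabilizer L ω.out := by rw [h4]; trivial
    exact this
  have hhalf : ∀ ω, n - n / c ω ≠ 0 → n ≤ 2 * (n - n / c ω) := by
    intro ω hω
    have h3 : c ω ≠ 1 := by
      intro h; rw [h, Nat.div_one] at hω; omega
    have h4 : 2 ≤ c ω := by have := hcpos ω; omega
    have h5 : n / c ω ≤ n / 2 := Nat.div_le_div_left h4 (by norm_num)
    have h6 : n / 2 * 2 ≤ n := Nat.div_mul_le_self n 2
    omega
  by_cases hn1 : n = 1
  · -- the group is trivial
    obtain ⟨a⟩ := (inferInstance : Nonempty X)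
    obtain ⟨x, hx⟩ := hno a
    have : Subsingleton L := Fintype.card_le_one_iff_subsingleton.mp (by rw [← hn]; omega)
    exact hx (by rw [Subsingleton.elim x 1, one_smul])
  · have hex : ∃ ω0 : Quotient (MulAction.orbitRel L X), n - n / c ω0 ≠ 0 := by
      by_contra hall
      push Not at hall
      rw [Finset.sum_eq_zero (fun ω _ => hall ω)] at h2
      omega
    obtain ⟨ω0, hω0⟩ := hex
    have hsplit := Finset.add_sum_erase Finset.univ (fun ω => n - n / c ω) (Finset.mem_univ ω0)
    rw [h2] at hsplit
    have hrest : ∑ ω ∈ Finset.univ.erase ω0, (n - n / c ω) ≠ 0 := by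
      intro h0
      rw [h0] at hsplit
      have h3 := hcn ω0
      have h4 : n / c ω0 ≠ 0 := by
        have := Nat.div_mul_cancel (hcd ω0)
        intro h5
        rw [h5] at this
        omega
      have : n / c ω0 ≤ n := Nat.div_le_self _ _
      simp only [add_zero] at hsplit
      omega
    have hex1 : ∃ ω1 ∈ Finset.univ.erase ω0, n - n / c ω1 ≠ 0 := by
      by_contra hall
      push Not at hall
      exact hrest (Finset.sum_eq_zero hall)
    obtain ⟨ω1, hω1m, hω1⟩ := hex1
    have h5 : n - n / c ω1 ≤ ∑ ω ∈ Finset.univ.erase ω0, (n - n / c ω) :=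
      Finset.single_le_sum (f := fun ω => n - n / c ω) (fun _ _ => Nat.zero_le _) hω1m
    have h6 := hhalf ω0 hω0
    have h7 := hhalf ω1 hω1
    omega

theorem result {G : Type*} [Group G] [Finite G] (H : Subgroup G) (hH : Cfsg.IsFrobeniusComplement H) (L : Subgroup G) (hL : Nat.card L ∣ Nat.card H) : ∃ x : G, L ≤ MulAut.conj x • H := by
  have hcop := Cfsg.Agent.Frob.index_modEq_one hH
  have hidx : 0 < H.index := Nat.pos_of_ne_zero Subgroup.index_ne_zero_of_finite
  -- each non-identity element fixes at most one point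
  have huniq : ∀ g : G, g ≠ 1 → ∀ a b : G ⧸ H, g • a = a → g • b = b → a = b := by
    intro g hg a b ha hb
    obtain ⟨x, rfl⟩ := QuotientGroup.mk_surjective a
    obtain ⟨y, rfl⟩ := QuotientGroup.mk_surjective b
    have h1 : x⁻¹ * (g * x) ∈ H := QuotientGroup.eq.mp ha.symm
    have h2 : y⁻¹ * (g * y) ∈ H := QuotientGroup.eq.mp hb.symm
    rw [QuotientGroup.eq]
    rw [← inv_mem_iff]
    apply Cfsg.Agent.Frob.mem_of_conj_mem hH h1
    · intro h
      apply hg
      have : g = x * (x⁻¹ * (g * x)) * x⁻¹ := by group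
      rw [this, h]; group
    · have : (x⁻¹ * y)⁻¹ * (x⁻¹ * (g * x)) * ((x⁻¹ * y)⁻¹)⁻¹ = y⁻¹ * (g * y) := by group
      rw [this]; exact h2
  have hfix : ∀ x : L, x ≠ 1 → Nat.card (MulAction.fixedBy (G ⧸ H) x) = 1 := by
    intro x hx
    have hxo : orderOf x ≠ 1 := by rwa [Ne, orderOf_eq_one_iff]
    obtain ⟨q, hq, hqd⟩ := Nat.exists_prime_and_dvd hxo
    have : Fact q.Prime := ⟨hq⟩
    set y : L := x ^ (orderOf x / q) with hy
    have hyo : orderOf y = q := orderOf_pow_orderOf_div (orderOf_pos x).ne' hqd
    have hyz : IsPGroup q (Subgroup.zpowers y) := by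
      apply IsPGroup.of_card (n := 1)
      rw [Nat.card_zpowers, hyo, pow_one]
    have hcount := hyz.card_modEq_card_fixedPoints (G ⧸ H)
    have hqH : q ∣ Nat.card H := (hqd.trans (orderOf_dvd_natCard x)).trans hL
    have hne : (MulAction.fixedPoints (Subgroup.zpowers y) (G ⧸ H)).Nonempty := by
      by_contra hemp
      rw [Set.not_nonempty_iff_eq_empty] at hemp
      rw [hemp, Nat.card_coe_set_eq, Set.ncard_empty] at hcount
      have h1 : q ∣ Nat.card (G ⧸ H) := (Nat.modEq_zero_iff_dvd).mp hcount
      rw [← Subgroup.index_eq_card] at h1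
      have h2 : q ∣ H.index - 1 := hqH.trans hcop
      have h3 := (Nat.dvd_sub h1 h2)
      have h4 : H.index - (H.index - 1) = 1 := by omega
      rw [h4] at h3
      exact hq.one_lt.ne' (Nat.dvd_one.mp h3)
    obtain ⟨a, ha⟩ := hne
    have hya : (y : G) • a = a := ha ⟨y, Subgroup.mem_zpowers y⟩
    have hy1 : (y : G) ≠ 1 := by
      intro h
      have : y = 1 := Subtype.ext h
      rw [this, orderOf_one] at hyo
      exact hq.one_lt.ne hyo
    have hxa : (x : G) • a = a := by
      refine huniq (y : G) hy1 _ _ ?_ hya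
      rw [smul_smul]
      have hcomm : (y : G) * x = x * y := by
        have : y * x = x * y := by rw [hy]; exact (Commute.refl x).pow_left _
        exact congrArg Subtype.val this
      rw [hcomm, ← smul_smul, hya]
    have hx1 : (x : G) ≠ 1 := fun h => hx (Subtype.ext h)
    have hset : MulAction.fixedBy (G ⧸ H) x = {a} := by
      ext b
      constructor
      · intro hb
        exact huniq (x : G) hx1 _ _ hb hxa
      · rintro rfl
        exact hxa
    rw [hset, Nat.card_coe_set_eq, Set.ncard_singleton]
  obtain ⟨a, ha⟩ := exists_fixed_of_unique_fixed (L := L) (X := G ⧸ H) hfix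
  obtain ⟨x, rfl⟩ := QuotientGroup.mk_surjective a
  refine ⟨x, fun l hl => ?_⟩
  have h1 := ha ⟨l, hl⟩
  rw [Cfsg.Agent.Frob.mem_conj_smul]
  have h2 : x⁻¹ * (l * x) ∈ H := QuotientGroup.eq.mp h1.symm
  rwa [← mul_assoc] at h2

end Cfsg.Agent.S0589
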