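import Cfsg.Statements.S0591
import Cfsg.Agent.H10.Quad

set_option autoImplicit false
open Cfsg

namespace Cfsg.Agent.S0591

open Cfsg.Agent.H10 Cfsg.Agent.H11 in
theorem result {G : Type*} [Group G] [Finite G] {p : ℕ} [Fact p.Prime] (V : Subgroup G) (hV : Cfsg.IsElementaryAbelian p V) (a : G) (ha : a ∈ Subgroup.normalizer (V : Set G)) (hq : ⁅⁅V, Subgroup.zpowers a⁆, Subgroup.zpowers a⁆ = ⊥) : Nat.card V ≤ Nat.card ↥(V ⊓ Subgroup.centralizer (Subgroup.zpowers a : Set G)) ^ 2 := by
  set f := commHom V hV.1 a ha with hf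
  set C := V ⊓ Subgroup.centralizer (Subgroup.zpowers a : Set G) with hC
  have hcz : ∀ x : G, x ∈ Subgroup.centralizer ({a} : Set G) → x ∈ Subgroup.centralizer (Subgroup.zpowers a : Set G) := by
    intro x hx
    rw [Subgroup.mem_centralizer_iff]
    rintro _ ⟨n, rfl⟩
    rw [Subgroup.mem_centralizer_singleton_iff] at hx
    have hx' : Commute x a := hx
    exact (hx'.zpow_right n).symm.eq
  have h1 : Nat.card f.ker ≤ Nat.card C := by
    rw [hf, ker_commHom, ← Subgroup.card_map_of_injective V.subtype_injective]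
    apply Nat.card_le_card_of_injective (Subgroup.inclusion ?_) (Subgroup.inclusion_injective _)
    rintro _ ⟨x, hx, rfl⟩
    exact ⟨x.2, hcz _ hx⟩
  have h2 : Nat.card f.range ≤ Nat.card C := by
    rw [← Subgroup.card_map_of_injective V.subtype_injective]
    apply Nat.card_le_card_of_injective (Subgroup.inclusion ?_) (Subgroup.inclusion_injective _)
    rintro _ ⟨_, ⟨x, rfl⟩, rfl⟩
    refine ⟨(f x).2, ?_⟩
    have h3 := Subgroup.commutator_eq_bot_iff_le_centralizer.mp hq
    apply h3
    rw [Subgroup.commutator_comm]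
    exact Subgroup.commutator_mem_commutator (Subgroup.mem_zpowers a) x.2
  rw [← card_range_mul_card_ker f, pow_two]
  exact Nat.mul_le_mul h2 h1

end Cfsg.Agent.S0591
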