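import Cfsg.Statements.S0592
import Cfsg.Agent.H10.QuadSL

set_option autoImplicit false
open Cfsg

namespace Cfsg.Agent.S0592

open Cfsg.Agent.H10 in
theorem result {K : Type*} [Field K] [Fintype K] {p : ℕ} [Fact p.Prime] [CharP K p] {W : Type*} [AddCommGroup W] [Module K W] [FiniteDimensional K W] [Finite W] [Nontrivial W] (H : Subgroup (W ≃ₗ[K] W)) (a b : W ≃ₗ[K] W) (hH : H = Subgroup.closure {a, b}) (ha : ∀ w : W, a (a w - w) = a w - w) (hb : ∀ w : W, b (b w - w) = b w - w) (hnp : ¬ IsPGroup p H) (hk : ∃ e k : ℕ, orderOf (a * b) = p ^ e * k ∧ k ∣ Fintype.card K - 1) : ∃ φ : H →* Matrix.SpecialLinearGroup (Fin 2) K, ¬ IsPGroup p φ.range := by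
  obtain ⟨e, k, hord, hkd⟩ := hk
  have haH : a ∈ H := by rw [hH]; exact Subgroup.subset_closure (by simp)
  have hbH : b ∈ H := by rw [hH]; exact Subgroup.subset_closure (by simp)
  let ρ : H →* Module.End K W :=
    { toFun := fun g => ((g : W ≃ₗ[K] W) : W →ₗ[K] W)
      map_one' := rfl
      map_mul' := fun x y => rfl }
  have hρ : ∀ (g : H) (w : W), ρ g w = (g : W ≃ₗ[K] W) w := fun g w => rfl
  have hgen : Subgroup.closure {(⟨a, haH⟩ : H), ⟨b, hbH⟩} = ⊤ := by
    apply Subgroup.map_injective H.subtype_injective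
    rw [MonoidHom.map_closure, ← MonoidHom.range_eq_map, Subgroup.range_subtype]
    rw [Set.image_pair]
    exact hH.symm
  have hquad : ∀ x : H, (∀ w : W, (x : W ≃ₗ[K] W) ((x : W ≃ₗ[K] W) w - w) = (x : W ≃ₗ[K] W) w - w) →
      (ρ x - 1) * (ρ x - 1) = 0 := by
    intro x hx
    apply LinearMap.ext
    intro w
    simp only [Module.End.mul_apply, LinearMap.sub_apply, Module.End.one_apply, LinearMap.zero_apply, hρ]
    rw [hx w, sub_self]
  have hz : ((⟨a, haH⟩ : H) * ⟨b, hbH⟩) ^ (p ^ e * k) = 1 := by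
    apply Subtype.ext
    show (a * b) ^ (p ^ e * k) = 1
    rw [← hord, pow_orderOf_eq_one]
  rcases unip_or_sl_two (K := K) (p := p) (⟨a, haH⟩ : H) ⟨b, hbH⟩ hgen hz
    (by rwa [Nat.card_eq_fintype_card]) _ W rfl ρ (hquad _ ha) (hquad _ hb) with h | h
  · exfalso
    apply hnp
    intro g
    obtain ⟨n, hn⟩ := h g
    refine ⟨n, ?_⟩
    apply Subtype.ext
    apply LinearEquiv.ext
    intro w
    have h1 := LinearMap.congr_fun hn w
    rw [← map_pow, hρ] at h1
    exact h1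
  · exact h

end Cfsg.Agent.S0592
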