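import Cfsg.Statements.S0594
import Cfsg.Agent.H10.QuadMain
import Cfsg.Agent.H10.Factor

set_option autoImplicit false
open Cfsg

namespace Cfsg.Agent.S0594

open scoped commutatorElement in
open Subgroup in
theorem result {G : Type*} [Group G] [Finite G] {p : ℕ} [Fact p.Prime] (hp : p ≠ 2) (V H : Subgroup G) (hV : Cfsg.IsElementaryAbelian p V) (hHV : H ≤ Subgroup.normalizer (V : Set G)) (hf : H ⊓ Subgroup.centralizer (V : Set G) = ⊥) (a b : G) (hab : H = Subgroup.closure {a, b}) (ha : ⁅⁅V, Subgroup.zpowers a⁆, Subgroup.zpowers a⁆ = ⊥) (hb : ⁅⁅V, Subgroup.zpowers b⁆, Subgroup.zpowers b⁆ = ⊥) (hnp : ¬ IsPGroup p H) (Q : Subgroup G) (hQH : Q ≤ H) (hQn : H ≤ Subgroup.normalizer (Q : Set G)) (hQ : (Nat.card Q).Coprime p) (hQa : ⁅Q, Subgroup.zpowers a⁆ ≠ ⊥) : p = 3 ∧ ∃ (K L : Subgroup G) (hL : (L.subgroupOf K).Normal), K ≤ H ∧ Nonempty ((K ⧸ L.subgroupOf K) ≃* Matrix.SpecialLinearGroup (Fin 2) (ZMod 3)) := by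
  have hpp : p.Prime := Fact.out
  have haH : a ∈ H := by rw [hab]; exact Subgroup.subset_closure (by simp)
  have hap : a ^ p = 1 := by
    have h6 : a ^ p ∈ H ⊓ Subgroup.centralizer (V : Set G) :=
      ⟨pow_mem haH p, Cfsg.Agent.H10.pow_mem_centralizer_of_quadratic hV
        (by rw [Subgroup.zpowers_le]; exact hHV haH) ha (Subgroup.mem_zpowers a)⟩
    rw [hf] at h6
    exact h6
  -- an element of Q not commuting with a
  obtain ⟨x, hx, hxa⟩ : ∃ x ∈ Q, ⁅x, a⁆ ≠ 1 := by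
    by_contra hcon
    push Not at hcon
    apply hQa
    rw [Subgroup.commutator_eq_bot_iff_le_centralizer]
    intro x hx
    rw [Subgroup.mem_centralizer_iff]
    rintro _ ⟨n, rfl⟩
    have h1 : Commute x a := commutatorElement_eq_one_iff_mul_comm.mp (hcon x hx)
    exact (h1.zpow_right n).symm.eq
  have hxH : x ∈ H := hQH hx
  set H₀ : Subgroup G := Subgroup.closure {a, x * a * x⁻¹} with hH₀
  have haH₀ : a ∈ H₀ := Subgroup.subset_closure (by simp)
  have hbH₀ : x * a * x⁻¹ ∈ H₀ := Subgroup.subset_closure (by simp)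
  have hle : H₀ ≤ H := by
    rw [hH₀, Subgroup.closure_le]
    rintro y (rfl | rfl)
    · exact haH
    · exact mul_mem (mul_mem hxH haH) (inv_mem hxH)
  have hcm : ⁅x, a⁆ ∈ Q := by
    have h1 : a * x⁻¹ * a⁻¹ ∈ Q := (Subgroup.mem_normalizer_iff.mp (hQn haH) _).mp (inv_mem hx)
    have h2 : ⁅x, a⁆ = x * (a * x⁻¹ * a⁻¹) := by rw [commutatorElement_def]; group
    rw [h2]
    exact mul_mem hx h1
  have hcH : ⁅x, a⁆ ∈ H₀ := mul_mem hbH₀ (inv_mem haH₀)
  have hnp₀ : ¬ IsPGroup p H₀ := by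
    intro h
    obtain ⟨k, hk⟩ := h ⟨_, hcH⟩
    have hk' : ⁅x, a⁆ ^ p ^ k = 1 := congrArg Subtype.val hk
    apply hxa
    rw [← orderOf_eq_one_iff]
    apply Nat.eq_one_of_dvd_coprimes (a := Nat.card Q) (b := p ^ k) (hQ.pow_right k)
    · rw [← Subgroup.orderOf_mk _ hcm]
      exact orderOf_dvd_natCard _
    · exact orderOf_dvd_of_pow_eq_one hk'
  obtain ⟨-, h2, h3⟩ := Cfsg.Agent.H10.quad_elem_main hp V H hV hHV hf a x haH hxH ha hnp₀
  refine ⟨h3 ?_, h2⟩
  -- Q ⊔ ⟨a⟩ is p-solvable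
  set Y : Subgroup G := Q ⊔ zpowers a with hY
  have hQY : Q ≤ Y := le_sup_left
  have hH₀Y : H₀ ≤ Y := by
    rw [hH₀, Subgroup.closure_le]
    have haY : a ∈ Y := Subgroup.mem_sup_right (mem_zpowers a)
    rintro y (rfl | rfl)
    · exact haY
    · exact mul_mem (mul_mem (hQY hx) haY) (inv_mem (hQY hx))
  have hYQ : Y ≤ normalizer (Q : Set G) :=
    sup_le Subgroup.le_normalizer (by rw [zpowers_le]; exact hQn haH)
  have hQn' : (Q.subgroupOf Y).Normal := (Subgroup.normal_subgroupOf_iff_le_normalizer hQY).mpr hYQ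
  have hidx : Q.relIndex Y ∣ p := by
    have h1 := Cfsg.Agent.H10.card_sup_mul_card_inf (H := Subgroup.zpowers a) (K := Q)
      (by rw [Subgroup.zpowers_le]; exact hQn haH)
    rw [sup_comm, ← hY, ← Cfsg.Agent.H10.card_mul_relIndex Q Y hQY, mul_assoc, mul_comm (Nat.card (zpowers a))] at h1
    have h4 := Nat.eq_of_mul_eq_mul_left Nat.card_pos h1
    have h5 : Q.relIndex Y ∣ Nat.card (zpowers a) := Dvd.intro _ h4
    refine h5.trans ?_
    rw [Nat.card_zpowers]
    exact orderOf_dvd_of_pow_eq_one hap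
  have hYs : Cfsg.IsPSolvable p Y := by
    refine ⟨2, ![⊥, Q.subgroupOf Y, ⊤], rfl, rfl, ?_, ?_, ?_⟩
    · intro i j hij
      fin_cases i <;> fin_cases j <;> simp at hij ⊢
    · intro i
      fin_cases i
      · exact Subgroup.normal_bot
      · exact hQn'
      · exact Subgroup.normal_top
    · intro i
      fin_cases i
      · right
        show ((⊥ : Subgroup Y).relIndex (Q.subgroupOf Y)).Coprime p
        rw [Subgroup.relIndex_bot_left, Nat.card_congr (Subgroup.subgroupOfEquivOfLe hQY).toEquiv]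
        exact hQ
      · left
        show ∃ m, (Q.subgroupOf Y).relIndex ⊤ = p ^ m
        rw [Subgroup.relIndex_top_right]
        rcases (Nat.dvd_prime hpp).mp hidx with h | h
        · exact ⟨0, by rw [pow_zero]; exact h⟩
        · exact ⟨1, by rw [pow_one]; exact h⟩
  exact Cfsg.Agent.H76.isPSolvable_of_injective (Subgroup.inclusion hH₀Y)
    (Subgroup.inclusion_injective hH₀Y) hYs

end Cfsg.Agent.S0594
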