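import Cfsg.Statements.S0595
import Cfsg.Agent.H10.QuadMain

set_option autoImplicit false
open Cfsg

namespace Cfsg.Agent.S0595

theorem result {G : Type*} [Group G] [Finite G] {p : ℕ} [Fact p.Prime] (hp : p ≠ 2) (V H : Subgroup G) (hV : Cfsg.IsElementaryAbelian p V) (hHV : H ≤ Subgroup.normalizer (V : Set G)) (hf : H ⊓ Subgroup.centralizer (V : Set G) = ⊥) (a : G) (haH : a ∈ H) (hq : ⁅⁅V, Subgroup.zpowers a⁆, Subgroup.zpowers a⁆ = ⊥) (hna : a ∉ (Cfsg.pCore p H).map H.subtype) (T : Sylow 2 H) : ¬ IsMulCommutative T := by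
  obtain ⟨g, hg, hnp⟩ := Cfsg.Agent.H10.exists_conj_not_pGroup H a haH hna
  exact (Cfsg.Agent.H10.quad_elem_main hp V H hV hHV hf a g haH hg hq hnp).1 T

end Cfsg.Agent.S0595
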