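import Cfsg.Statements.S0596
import Cfsg.Agent.H10.QuadMain

set_option autoImplicit false
open Cfsg

namespace Cfsg.Agent.S0596

theorem result {G : Type*} [Group G] [Finite G] {p : ℕ} [Fact p.Prime] (hp : p ≠ 2) (V H : Subgroup G) (hV : Cfsg.IsElementaryAbelian p V) (hHV : H ≤ Subgroup.normalizer (V : Set G)) (hf : H ⊓ Subgroup.centralizer (V : Set G) = ⊥) (hsep : Cfsg.IsPSolvable p H) (a : G) (haH : a ∈ H) (hq : ⁅⁅V, Subgroup.zpowers a⁆, Subgroup.zpowers a⁆ = ⊥) (hna : a ∉ (Cfsg.pCore p H).map H.subtype) : p = 3 ∧ ∃ (K L : Subgroup G) (hL : (L.subgroupOf K).Normal), K ≤ H ∧ Nonempty ((K ⧸ L.subgroupOf K) ≃* Matrix.SpecialLinearGroup (Fin 2) (ZMod 3)) := by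
  obtain ⟨g, hg, hnp⟩ := Cfsg.Agent.H10.exists_conj_not_pGroup H a haH hna
  obtain ⟨-, h2, h3⟩ := Cfsg.Agent.H10.quad_elem_main hp V H hV hHV hf a g haH hg hq hnp
  refine ⟨h3 ?_, h2⟩
  have hle : Subgroup.closure {a, g * a * g⁻¹} ≤ H := by
    rw [Subgroup.closure_le]
    rintro x (rfl | rfl)
    · exact haH
    · exact mul_mem (mul_mem hg haH) (inv_mem hg)
  exact Cfsg.Agent.H76.isPSolvable_of_injective (Subgroup.inclusion hle)
    (Subgroup.inclusion_injective hle) hsep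

end Cfsg.Agent.S0596
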