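import Cfsg.Statements.S0597
import Cfsg.Agent.H10.Quad
import Cfsg.Agent.H47.Cop
import Cfsg.Agent.H49.Core
import Cfsg.Agent.H62.Subnormal

set_option autoImplicit false
open Cfsg

namespace Cfsg.Agent.S0597

open Cfsg.Agent.H10 Cfsg.Agent.H47 Subgroup in
open scoped commutatorElement in
theorem result {G : Type*} [Group G] [Finite G] {p : ℕ} [Fact p.Prime] (V H : Subgroup G) (hV : Cfsg.IsElementaryAbelian p V) (hHV : H ≤ Subgroup.normalizer (V : Set G)) (hf : H ⊓ Subgroup.centralizer (V : Set G) = ⊥) (E₁ E₂ : Subgroup G) (h₁ : E₁ ≤ H) (h₂ : E₂ ≤ H) (hs₁ : (E₁.subgroupOf H).IsSubnormal) (hs₂ : (E₂.subgroupOf H).IsSubnormal) (hc : ⁅⁅V, E₁⁆, E₂⁆ = ⊥) : ⁅E₁, E₂⁆ ≤ (Cfsg.pCore p H).map H.subtype := by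
  set W := ⁅V, E₁⁆ with hW
  have hE₁W : E₁ ≤ normalizer (W : Set G) := normalizer_commutator_ge_right _ _
  have hE₂C : E₂ ≤ centralizer (W : Set G) := by
    rw [Subgroup.le_centralizer_iff]
    exact Subgroup.commutator_eq_bot_iff_le_centralizer.mp hc
  have hE₂W : E₂ ≤ normalizer (W : Set G) := by
    intro x hx
    exact Cfsg.Agent.H49.centralizer_le_normalizer' W (hE₂C hx)
  -- E₁ ≤ cmod V W
  have h1 : E₁ ≤ cmod V W := le_cmod_iff.mpr ⟨hE₁W, le_rfl⟩
  have hWV : W ≤ V := by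
    rw [hW]
    exact le_normalizer_iff_commutator_le_left.1 (h₁.trans hHV)
  -- every element of the commutator is quadratic
  have h2 : ⁅E₁, E₂⁆ ≤ cmod V W := by
    rw [Subgroup.commutator_le]
    intro x hx y hy
    have hy1 : y ∈ normalizer (W : Set G) := hE₂W hy
    have hy2 : y ∈ normalizer (V : Set G) := hHV (h₂ hy)
    have h3 : y * x⁻¹ * y⁻¹ ∈ cmod V W := by
      have hx' := (cmod V W).inv_mem (h1 hx)
      rw [mem_cmod] at hx' ⊢
      refine ⟨mul_mem (mul_mem hy1 hx'.1) (inv_mem hy1), fun v hv => ?_⟩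
      have h4 : y⁻¹ * v * y ∈ V := by
        have := (mem_normalizer_iff.mp (inv_mem hy2) v).mp hv
        simpa using this
      have h5 := (mem_normalizer_iff.mp hy1 _).mp (hx'.2 _ h4)
      have e : y * ⁅x⁻¹, y⁻¹ * v * y⁆ * y⁻¹ = ⁅y * x⁻¹ * y⁻¹, v⁆ := by
        simp only [commutatorElement_def]; group
      rwa [← e]
    have e2 : ⁅x, y⁆ = x * (y * x⁻¹ * y⁻¹) := by
      simp only [commutatorElement_def]; group
    rw [e2]
    exact mul_mem (h1 hx) h3
  have h3 : ⁅E₁, E₂⁆ ≤ centralizer (W : Set G) := by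
    rw [Subgroup.commutator_le]
    intro x hx y hy
    have hx1 := hE₁W hx
    have e2 : ⁅x, y⁆ = (x * y * x⁻¹) * y⁻¹ := rfl
    rw [e2]
    refine mul_mem ?_ (inv_mem (hE₂C hy))
    rw [mem_centralizer_iff]
    intro w hw
    have h4 : x⁻¹ * w * x ∈ W := by
      have := (mem_normalizer_iff.mp (inv_mem hx1) w).mp hw
      simpa using this
    have h5 := mem_centralizer_iff.mp (hE₂C hy) _ h4
    calc w * (x * y * x⁻¹) = x * ((x⁻¹ * w * x) * y) * x⁻¹ := by group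
      _ = x * (y * (x⁻¹ * w * x)) * x⁻¹ := by rw [h5]
      _ = (x * y * x⁻¹) * w := by group
  have h4 : ⁅E₁, E₂⁆ ≤ H := by
    rw [Subgroup.commutator_le]
    intro x hx y hy
    exact mul_mem (mul_mem (mul_mem (h₁ hx) (h₂ hy)) (inv_mem (h₁ hx))) (inv_mem (h₂ hy))
  have h5 : ∀ x ∈ ⁅E₁, E₂⁆, x ^ p = 1 := by
    intro x hx
    have hxV : x ∈ normalizer (V : Set G) := hHV (h4 hx)
    have hq : ⁅⁅V, zpowers x⁆, zpowers x⁆ = ⊥ := by
      have e1 : zpowers x ≤ cmod V W := by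
        rw [zpowers_le]
        exact h2 hx
      rw [Subgroup.commutator_eq_bot_iff_le_centralizer]
      refine (le_cmod_iff.mp e1).2.trans ?_
      rw [Subgroup.le_centralizer_iff, zpowers_le]
      exact h3 hx
    have h6 : x ^ p ∈ H ⊓ centralizer (V : Set G) :=
      ⟨pow_mem (h4 hx) p, pow_mem_centralizer_of_quadratic hV (by rwa [zpowers_le]) hq (mem_zpowers x)⟩
    rw [hf] at h6
    exact h6
  -- subnormality
  set A := E₁.subgroupOf H with hA
  set B := E₂.subgroupOf H with hB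
  have hmap : ⁅A, B⁆.map H.subtype = ⁅E₁, E₂⁆ := by
    rw [Subgroup.map_commutator, hA, hB, Subgroup.map_subgroupOf_eq_of_le h₁, Subgroup.map_subgroupOf_eq_of_le h₂]
  rw [← hmap]
  apply Subgroup.map_mono
  have hL : (A ⊔ B).IsSubnormal := Cfsg.Agent.H62.isSubnormal_sup hs₁ hs₂
  have hle : ⁅A, B⁆ ≤ A ⊔ B := by
    rw [Subgroup.commutator_le]
    intro x hx y hy
    have hx' : x ∈ A ⊔ B := Subgroup.mem_sup_left hx
    have hy' : y ∈ A ⊔ B := Subgroup.mem_sup_right hy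
    exact mul_mem (mul_mem (mul_mem hx' hy') (inv_mem hx')) (inv_mem hy')
  have hn : (⁅A, B⁆.subgroupOf (A ⊔ B)).Normal := by
    rw [Subgroup.normal_subgroupOf_iff_le_normalizer hle]
    exact sup_le (normalizer_commutator_ge_left _ _) (normalizer_commutator_ge_right _ _)
  have hsub : (⁅A, B⁆).IsSubnormal := Subgroup.IsSubnormal.trans hle hn.isSubnormal hL
  apply Cfsg.Agent.H49.le_pCore_of_isSubnormal hsub
  rintro ⟨x, hx⟩
  refine ⟨1, Subtype.ext (Subtype.ext ?_)⟩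
  have h7 : (x : G) ∈ ⁅E₁, E₂⁆ := by
    rw [← hmap]
    exact ⟨x, hx, rfl⟩
  simpa using h5 _ h7

end Cfsg.Agent.S0597
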