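import Cfsg.Statements.S0600
import Cfsg.Agent.H10.SylFix

set_option autoImplicit false
open Cfsg

namespace Cfsg.Agent.S0600

open Cfsg.Agent.H10 in
theorem result {G : Type*} [Group G] [Finite G] {p : ℕ} [Fact p.Prime] (V : Subgroup G) [V.Normal] (hV : Cfsg.IsElementaryAbelian p V) (hgen : V = ⨆ S : Sylow p G, V ⊓ Subgroup.centralizer ((S : Subgroup G) : Set G)) : Cfsg.pCore p (G ⧸ Subgroup.centralizer (V : Set G)) = ⊥ := by
  have hn := Cfsg.Agent.H49.pCore_normal' (G := G ⧸ Subgroup.centralizer (V : Set G)) p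
  set D := (Cfsg.pCore p (G ⧸ Subgroup.centralizer (V : Set G))).comap (QuotientGroup.mk' _) with hD
  have hDn : D.Normal := Subgroup.Normal.comap hn _
  have hCD : Subgroup.centralizer (V : Set G) ≤ D := by
    intro x hx
    rw [hD, Subgroup.mem_comap]
    have : QuotientGroup.mk' (Subgroup.centralizer (V : Set G)) x = 1 := by
      rwa [QuotientGroup.mk'_apply, QuotientGroup.eq_one_iff]
    rw [this]
    exact one_mem _
  have hp := Cfsg.Agent.H49.pCore_isPGroup (G := G ⧸ Subgroup.centralizer (V : Set G)) p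
  obtain ⟨k, hk⟩ := IsPGroup.iff_card.mp hp
  have e1 := Subgroup.relIndex_ker (f := QuotientGroup.mk' (Subgroup.centralizer (V : Set G))) (K := D)
  have hmap : D.map (QuotientGroup.mk' (Subgroup.centralizer (V : Set G))) = Cfsg.pCore p (G ⧸ Subgroup.centralizer (V : Set G)) :=
    Subgroup.map_comap_eq_self_of_surjective (QuotientGroup.mk'_surjective _) _
  rw [QuotientGroup.ker_mk', hmap, hk] at e1
  have h2 := eq_centralizer_of_generated (p := p) (fun S : Sylow p G => V ⊓ Subgroup.centralizer ((S : Subgroup G) : Set G)) V hgen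
    (fun S => by
      rw [Subgroup.le_centralizer_iff]
      exact inf_le_right) D hCD e1
  rw [← hmap, h2]
  exact (Subgroup.map_eq_bot_iff _).mpr (by rw [QuotientGroup.ker_mk'])

end Cfsg.Agent.S0600
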