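import Cfsg.Statements.S0603
import Cfsg.Agent.H10.Thompson

set_option autoImplicit false
open Cfsg

namespace Cfsg.Agent.S0603

open Cfsg.Agent.H10 Cfsg.Agent.H11 in
theorem result {G : Type*} [Group G] [Finite G] {p : ℕ} [Fact p.Prime] (U : Subgroup G) (hU : Cfsg.thompsonSubgroup p G ≤ U) : Cfsg.thompsonSubgroupOf p U = Cfsg.thompsonSubgroup p G := by
  obtain ⟨B, hB⟩ := exists_max_elem (G := G) p
  refine le_antisymm (thompsonSubgroupOf_le hB ((max_le_thompson hB).trans hU)) ?_
  refine sSup_le fun A hA => ?_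
  exact max_le_thompsonSubgroupOf hA ((max_le_thompson hA).trans hU)

end Cfsg.Agent.S0603
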