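import Cfsg.Statements.S0604
import Cfsg.Agent.H10.Thompson

set_option autoImplicit false
open Cfsg

namespace Cfsg.Agent.S0604

open Cfsg.Agent.H10 Cfsg.Agent.H11 Pointwise in
theorem result {G : Type*} [Group G] [Finite G] {p : ℕ} [Fact p.Prime] : Cfsg.thompsonSubgroup p G = ⨆ S : Sylow p G, Cfsg.thompsonSubgroupOf p (S : Subgroup G) := by
  apply le_antisymm
  · refine sSup_le fun A hA => ?_
    obtain ⟨S, hS⟩ := (elem_isPGroup hA.1).exists_le_sylow
    exact (max_le_thompsonSubgroupOf hA hS).trans (le_iSup (fun S : Sylow p G => thompsonSubgroupOf p (S : Subgroup G)) S)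
  · refine iSup_le fun S => ?_
    obtain ⟨B, hB⟩ := exists_max_elem (G := G) p
    obtain ⟨S', hS'⟩ := (elem_isPGroup hB.1).exists_le_sylow
    obtain ⟨g, hg⟩ := MulAction.exists_smul_eq G S' S
    have h1 := max_elem_map_equiv (MulAut.conj g) hB
    refine thompsonSubgroupOf_le h1 ?_
    rw [← hg]
    rintro _ ⟨b, hb, rfl⟩
    change MulAut.conj g b ∈ MulAut.conj g • (S' : Subgroup G)
    exact Subgroup.smul_mem_pointwise_smul _ _ _ (hS' hb)

end Cfsg.Agent.S0604
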