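import Cfsg.Statements.S0605
import Cfsg.Agent.H10.Thompson

set_option autoImplicit false
open Cfsg

namespace Cfsg.Agent.S0605

open Cfsg.Agent.H10 Cfsg.Agent.H11 in
theorem result {G : Type*} [Group G] [Finite G] {p : ℕ} [Fact p.Prime] (x : G) (hx : x ∈ Subgroup.centralizer (Cfsg.thompsonSubgroup p G : Set G)) (ho : orderOf x = p) : x ∈ Cfsg.thompsonSubgroup p G := by
  obtain ⟨A, hA⟩ := exists_max_elem (G := G) p
  apply max_le_thompson hA
  apply mem_of_max_elem hA
  · rw [← ho]; exact pow_orderOf_eq_one x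
  · exact Subgroup.centralizer_le (SetLike.coe_subset_coe.2 (max_le_thompson hA)) hx

end Cfsg.Agent.S0605
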