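import Cfsg.Statements.S0609
import Cfsg.Agent.Solv.Core
import Cfsg.Agent.H36.PQuot
import Cfsg.Agent.H36.Omega
-- import your own Cfsg.Agent.* helpers here

set_option autoImplicit false
open Cfsg

namespace Cfsg.Agent.S0609

/-- Thompson factorizability passes to and from the quotient by the largest normal subgroup of order prime to p. -/
theorem result {G : Type*} [Group G] [Finite G] {p : ℕ} [Fact p.Prime] : Cfsg.IsThompsonFactorizable p G ↔ Cfsg.IsThompsonFactorizable p (G ⧸ Cfsg.pPrimeCore p G) := by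
  have hN : (Nat.card (Cfsg.pPrimeCore p G)).Coprime p := Solv.pPrimeCore_card_coprime (G := G) p
  have hcore : Cfsg.pPrimeCore p (G ⧸ Cfsg.pPrimeCore p G) = ⊥ :=
    Solv.pPrimeCore_quotient_pPrimeCore p
  have hinj : ∀ S : Sylow p G, ∀ x ∈ (S : Subgroup G),
      QuotientGroup.mk' (Cfsg.pPrimeCore p G) x = 1 → x = 1 := by
    intro S x hx h1
    exact H36.PQuot.eq_one_of_mem hN S.2 ((QuotientGroup.eq_one_iff x).1 h1) hx
  have hJ : ∀ S : Sylow p G, IsPGroup p (Cfsg.thompsonSubgroupOf p (S : Subgroup G)) :=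
    fun S => S.2.to_le (Subgroup.map_subtype_le _)
  have hZ : ∀ S : Sylow p G, IsPGroup p (Cfsg.omegaOne p ((S : Subgroup G) ⊓
      Subgroup.centralizer ((S : Subgroup G) : Set G))) :=
    fun S => S.2.to_le ((H36.Omega.omegaOne_le _).trans inf_le_left)
  constructor
  · intro h T
    obtain ⟨S, hS⟩ := H36.PQuot.exists_sylow_lift (Cfsg.pPrimeCore p G) T
    intro y
    obtain ⟨g, rfl⟩ := QuotientGroup.mk'_surjective _ y
    obtain ⟨x, hx, c, hc, n, hn, rfl⟩ := h S g
    refine ⟨1, one_mem _, QuotientGroup.mk' _ c, ?_, QuotientGroup.mk' _ n, ?_, ?_⟩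
    · rw [hS, ← H36.Omega.omegaCenter_map _ _ (hinj S), ← H36.PQuot.map_centralizer hN (hZ S)]
      exact ⟨c, hc, rfl⟩
    · rw [hS, ← H34.thompsonSubgroupOf_map p _ _ (hinj S), ← H36.PQuot.map_normalizer hN (hJ S)]
      exact ⟨n, hn, rfl⟩
    · have : QuotientGroup.mk' (Cfsg.pPrimeCore p G) x = 1 := (QuotientGroup.eq_one_iff x).2 hx
      rw [map_mul, map_mul, this]
  · intro h S g
    obtain ⟨T, hT⟩ := H36.PQuot.map_sylow (Cfsg.pPrimeCore p G) S
    obtain ⟨x, hx, c, hc, n, hn, hg⟩ := h T (QuotientGroup.mk' _ g)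
    rw [hcore, Subgroup.mem_bot] at hx
    rw [hT, ← H36.Omega.omegaCenter_map _ _ (hinj S), ← H36.PQuot.map_centralizer hN (hZ S)] at hc
    rw [hT, ← H34.thompsonSubgroupOf_map p _ _ (hinj S), ← H36.PQuot.map_normalizer hN (hJ S)] at hn
    obtain ⟨c, hc, rfl⟩ := hc
    obtain ⟨n, hn, rfl⟩ := hn
    rw [hx, one_mul, ← map_mul] at hg
    refine ⟨g * (c * n)⁻¹, ?_, c, hc, n, hn, by group⟩
    rw [← QuotientGroup.eq_one_iff]
    have : QuotientGroup.mk' (Cfsg.pPrimeCore p G) (g * (c * n)⁻¹) = 1 := by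
      rw [map_mul, hg, ← map_mul, mul_inv_cancel, map_one]
    exact this

end Cfsg.Agent.S0609
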