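import Cfsg.Statements.S0614
import Cfsg.Agent.H11.FF5
import Cfsg.Agent.H81.SL2Card
-- import your own Cfsg.Agent.* helpers here

set_option autoImplicit false
open Cfsg

namespace Cfsg.Agent.S0614

theorem sl3_elts : ∃ a b : Matrix.SpecialLinearGroup (Fin 2) (ZMod 3),
    a ^ 4 = 1 ∧ b ^ 4 = 1 ∧ a * b ≠ b * a := by
  refine ⟨⟨!![0, -1; 1, 0], by decide⟩, ⟨!![1, 1; 1, -1], by decide⟩, ?_, ?_, ?_⟩
  · decide
  · decide
  · decide

/-- The commutator of the p'-core with a minimal nontrivially-acting best offender is a 3-group (when p = 2) or a non-abelian 2-group (when p = 3). -/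
theorem result {G : Type*} [Group G] [Finite G] {p : ℕ} [Fact p.Prime] (V H : Subgroup G) (hV : Cfsg.IsElementaryAbelian p V) (hHV : H ≤ Subgroup.normalizer (V : Set G)) (hf : H ⊓ Subgroup.centralizer (V : Set G) = ⊥) (hS1 : Subgroup.centralizer (Cfsg.pPrimeCore p ↥H : Set ↥H) ≤ Cfsg.pPrimeCore p ↥H) (hS3 : H = ⨆ A : {A : Subgroup G // A ≤ H ∧ Cfsg.IsBestOffenderOn p V A}, (A : Subgroup G)) (hH1 : H ≠ ⊥) (A : Subgroup G) (hAH : A ≤ H) (hA : Cfsg.IsBestOffenderOn p V A) (hAV : ⁅V, A⁆ ≠ ⊥) (hmin : ∀ B : Subgroup G, B ≤ A → Cfsg.IsBestOffenderOn p V B → ⁅V, B⁆ ≠ ⊥ → B = A) : (p = 2 ∧ IsPGroup 3 ↥(⁅((Cfsg.pPrimeCore p ↥H).map H.subtype), A⁆)) ∨ (p = 3 ∧ IsPGroup 2 ↥(⁅((Cfsg.pPrimeCore p ↥H).map H.subtype), A⁆) ∧ ¬ IsMulCommutative ↥(⁅((Cfsg.pPrimeCore p ↥H).map H.subtype), A⁆)) := by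
  have S := H11.Setup.of_core hV hHV hf hS1
  have h := S.isTv_of_minimal hAH hA hAV hmin
  set Q := (Cfsg.pPrimeCore p ↥H).map H.subtype with hQ
  obtain ⟨x, hx, hxA⟩ := h.exists_not_comm S
  have hE0 := S.ne_bot_of_conj hAH hx hxA
  have hB := h.conj S (S.hQH hx)
  obtain ⟨f0, -⟩ := S.pair_sl2 h hB hE0
  have hEE : H11.EE Q A = _ := S.EE_eq h hx hxA
  let f : ↥(H11.EE Q A) ≃* Matrix.SpecialLinearGroup (Fin 2) (ZMod p) :=
    (MulEquiv.subgroupCongr hEE).trans f0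
  have hcardE : Nat.card ↥(H11.EE Q A) = p * ((p - 1) * (p + 1)) := by
    rw [Nat.card_congr f.toEquiv, H81.card_sl2, ZMod.card]
  have hDA : ⁅Q, A⁆ ⊓ A = ⊥ := by
    rw [eq_bot_iff, ← h.inf_Q S, inf_comm]
    exact inf_le_inf le_rfl (h.comm_le_Q S)
  have hcardE' : Nat.card ↥(H11.EE Q A) = Nat.card ↥(⁅Q, A⁆) * p := by
    have h1 : Nat.card ↥(A ⊔ ⁅Q, A⁆) = Nat.card A * Nat.card ↥(⁅Q, A⁆) :=
      H11.card_sup_of_disjoint (Subgroup.normalizer_commutator_ge_right Q A)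
        (by rw [inf_comm]; exact hDA)
    rw [sup_comm, h.card, mul_comm] at h1
    exact h1
  have hcardD : Nat.card ↥(⁅Q, A⁆) = (p - 1) * (p + 1) := by
    have hp : 0 < p := (Fact.out : p.Prime).pos
    apply Nat.eq_of_mul_eq_mul_left hp
    rw [← hcardE, hcardE', mul_comm]
  rcases S.prime_le_three h hx hxA with h2 | h3
  · left
    refine ⟨h2, ?_⟩
    have h4 : Nat.card ↥(⁅Q, A⁆) = 3 ^ 1 := by norm_num [hcardD, h2]
    exact IsPGroup.of_card h4
  · right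
    refine ⟨h3, ?_, ?_⟩
    · have h4 : Nat.card ↥(⁅Q, A⁆) = 2 ^ 3 := by norm_num [hcardD, h3]
      exact IsPGroup.of_card h4
    · intro hcomm
      subst h3
      have hDn : H11.EE Q A ≤ Subgroup.normalizer ((⁅Q, A⁆ : Subgroup G) : Set G) :=
        sup_le Subgroup.le_normalizer (Subgroup.normalizer_commutator_ge_right Q A)
      have hDE : ⁅Q, A⁆ ≤ H11.EE Q A := le_sup_left
      have hn : ((⁅Q, A⁆).subgroupOf (H11.EE Q A)).Normal :=
        (Subgroup.normal_subgroupOf_iff_le_normalizer hDE).2 hDn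
      have hidx : ((⁅Q, A⁆).subgroupOf (H11.EE Q A)).index = 3 := by
        have h5 := H11.card_mul_relIndex hDE
        rw [hcardE'] at h5
        exact Nat.eq_of_mul_eq_mul_left Nat.card_pos h5
      have hmem : ∀ z : ↥(H11.EE Q A), z ^ 4 = 1 → (z : G) ∈ ⁅Q, A⁆ := by
        intro z hz
        have h6 : (z ^ 3) ^ 3 ∈ (⁅Q, A⁆).subgroupOf (H11.EE Q A) := by
          apply pow_mem
          have := Subgroup.pow_index_mem ((⁅Q, A⁆).subgroupOf (H11.EE Q A)) z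
          rwa [hidx] at this
        have h7 : (z ^ 3) ^ 3 = z := by
          rw [← pow_mul, show 3 * 3 = 4 + 4 + 1 by norm_num, pow_add, pow_add, hz, one_mul,
            one_mul, pow_one]
        rw [h7] at h6
        exact Subgroup.mem_subgroupOf.1 h6
      obtain ⟨a, b, ha, hb, hab⟩ := sl3_elts
      apply hab
      apply f.symm.injective
      rw [map_mul, map_mul]
      apply Subtype.ext
      have h8 := hmem (f.symm a) (by rw [← map_pow, ha, map_one])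
      have h9 := hmem (f.symm b) (by rw [← map_pow, hb, map_one])
      exact (H11.comm_iff _).1 hcomm _ h8 _ h9

end Cfsg.Agent.S0614
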