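import Cfsg.Statements.S0615
import Cfsg.Agent.H11.SubPair
-- import your own Cfsg.Agent.* helpers here

set_option autoImplicit false
open Cfsg

namespace Cfsg.Agent.S0615

/-- Two subnormal subgroups acting irreducibly on their incomparable commutator modules, in a faithful group with trivial largest normal p-subgroup, generate their direct product, and the commutator module splits accordingly. -/
theorem result {G : Type*} [Group G] [Finite G] {p : ℕ} [Fact p.Prime] (V E E₁ E₂ : Subgroup G) (hV : Cfsg.IsElementaryAbelian p V) (hEV : E ≤ Subgroup.normalizer (V : Set G)) (hf : E ⊓ Subgroup.centralizer (V : Set G) = ⊥) (hgen : E = E₁ ⊔ E₂) (hs₁ : (E₁.subgroupOf E).IsSubnormal) (hs₂ : (E₂.subgroupOf E).IsSubnormal) (hOp : Cfsg.pCore p ↥E = ⊥) (hirr₁ : (∀ U : Subgroup G, U ≤ ⁅V, E₁⁆ → E₁ ≤ Subgroup.normalizer (U : Set G) → U = ⊥ ∨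 U = ⁅V, E₁⁆)) (hirr₂ : (∀ U : Subgroup G, U ≤ ⁅V, E₂⁆ → E₂ ≤ Subgroup.normalizer (U : Set G) → U = ⊥ ∨ U = ⁅V, E₂⁆)) (h12 : ¬ ⁅V, E₁⁆ ≤ ⁅V, E₂⁆) (h21 : ¬ ⁅V, E₂⁆ ≤ ⁅V, E₁⁆) (hc₁ : 2 < Nat.card E₁) (hc₂ : 2 < Nat.card E₂) : ⁅E₁, E₂⁆ = ⊥ ∧ E₁ ⊓ E₂ = ⊥ ∧ ⁅V, E₁⁆ ⊓ ⁅V, E₂⁆ = ⊥ ∧ ⁅V, E⁆ = ⁅V, E₁⁆ ⊔ ⁅V, E₂⁆ := by
  subst hgen
  have h1V : E₁ ≤ Subgroup.normalizer (V : Set G) := le_sup_left.trans hEV
  have h2V : E₂ ≤ Subgroup.normalizer (V : Set G) := le_sup_right.trans hEV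
  have h₁ : H11.Half p V E₁ := ⟨h1V, by
    rw [eq_bot_iff, ← hf]
    exact inf_le_inf le_sup_left le_rfl, H11.noP_of_subnormal le_sup_left hs₁ hOp, hirr₁, hc₁⟩
  have h₂ : H11.Half p V E₂ := ⟨h2V, by
    rw [eq_bot_iff, ← hf]
    exact inf_le_inf le_sup_right le_rfl, H11.noP_of_subnormal le_sup_right hs₂ hOp, hirr₂, hc₂⟩
  obtain ⟨hd, hc1, hc2⟩ := H11.pairStmt hV _ E₁ E₂ le_rfl h₁ h₂ hs₁ hs₂ h12 h21
  refine ⟨H11.comm_of_cent hf hc1 hc2, ?_, hd, H11.commutator_sup_right h1V h2V⟩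
  rw [eq_bot_iff, ← h₂.noP.faithful hV h2V h₂.faithful]
  exact le_inf inf_le_right (inf_le_left.trans hc1)

end Cfsg.Agent.S0615
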