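import Cfsg.Statements.S0620
import Cfsg.Agent.H11.CopFF3

set_option autoImplicit false
open Cfsg

namespace Cfsg.Agent.S0620

/-- Under coprime action of an elementary abelian q-group X on a p-separable group K with trivial p'-core, K is generated by the normalizer of J(S), the centralizer of Ω₁(Z(S)) and the fixed points of X. -/
theorem result {G : Type*} [Group G] [Finite G] {p : ℕ} [Fact p.Prime] {q : ℕ} [Fact q.Prime] (K X : Subgroup G) (hXK : X ≤ Subgroup.normalizer (K : Set G)) (hX : Cfsg.IsElementaryAbelian q X) (hq : ¬ q ∣ Nat.card K) (hsep : Cfsg.IsPSolvable p ↥K) (hO : Cfsg.pPrimeCore p ↥K = ⊥) (S : Sylow p ↥K) : (Subgroup.normalizer (Cfsg.thompsonSubgroupOf p (S : Subgroup ↥K) : Set ↥K) ⊔ Subgroup.centralizer (Cfsg.omegaOne p ((S : Subgroup ↥K) ⊓ Subgroup.centralizer ((S : Subgroup ↥K) : Set ↥K)) : Set ↥K) ⊔ (Subgroup.centralizer (X : Set G)).subgroupOf K) = ⊤ := by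
  classical
  obtain ⟨M, hMdef⟩ : ∃ M : Subgroup ↥K, M = (Subgroup.normalizer (Cfsg.thompsonSubgroupOf p (S : Subgroup ↥K) : Set ↥K) ⊔ Subgroup.centralizer (Cfsg.omegaOne p ((S : Subgroup ↥K) ⊓ Subgroup.centralizer ((S : Subgroup ↥K) : Set ↥K)) : Set ↥K) ⊔ (Subgroup.centralizer (X : Set G)).subgroupOf K) := ⟨_, rfl⟩
  rw [← hMdef]
  have hM1 : Subgroup.normalizer (Cfsg.thompsonSubgroupOf p (S : Subgroup ↥K) : Set ↥K) ≤ M := by
    rw [hMdef]; exact le_sup_left.trans le_sup_left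
  have hM2 : Subgroup.centralizer (Cfsg.omegaOne p ((S : Subgroup ↥K) ⊓
      Subgroup.centralizer ((S : Subgroup ↥K) : Set ↥K)) : Set ↥K) ≤ M := by
    rw [hMdef]; exact le_sup_right.trans le_sup_left
  have hM3 : (Subgroup.centralizer (X : Set G)).subgroupOf K ≤ M := by
    rw [hMdef]; exact le_sup_right
  by_cases hnf : Cfsg.IsThompsonFactorizable p ↥K
  · rw [eq_top_iff]
    intro g _
    obtain ⟨y, hy, c, hc, n, hn, rfl⟩ := hnf S g
    rw [hO, Subgroup.mem_bot] at hy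
    rw [hy, one_mul]
    exact mul_mem (hM2 hc) (hM1 hn)
  obtain ⟨V, hVdef⟩ : ∃ V : Subgroup ↥K, V = ⨆ S : Sylow p ↥K, Cfsg.omegaOne p
      ((S : Subgroup ↥K) ⊓ Subgroup.centralizer ((S : Subgroup ↥K) : Set ↥K)) := ⟨_, rfl⟩
  have hVc : V.Characteristic := by rw [hVdef]; exact H11.V_char
  have hVn : V.Normal := Subgroup.normal_of_characteristic V
  obtain ⟨hV, SS, hS3, hH1⟩ := H11.ff_setup hsep hO hnf V hVdef
  have hfin : Finite (H11.HolL V) := H11.finite_hol V
  obtain ⟨J, hJdef⟩ : ∃ J : Subgroup ↥K, J = Cfsg.thompsonSubgroup p ↥K := ⟨_, rfl⟩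
  have hJc : J.Characteristic := by rw [hJdef]; exact (S0602.result (G := ↥K) (p := p)).1
  have hJn : J.Normal := Subgroup.normal_of_characteristic J
  rw [← hJdef] at SS hS3 hH1
  let c : ↥X →* MulAut ↥K := K.normalizerMonoidHom.comp (Subgroup.inclusion hXK)
  have hXp : IsPGroup q X := fun x => ⟨1, by
    have := hX.2 x x.2
    rw [pow_one]; exact Subtype.ext this⟩
  have C := H11.hcop (p := p) c V hJc hXp hq
  have hfixK : ∀ k : ↥K, (k : G) ∈ Subgroup.centralizer (X : Set G) ↔ ∀ x, c x k = k := by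
    intro k
    rw [H11.mem_centralizer_iff_conj]
    constructor
    · intro h x
      exact Subtype.ext (h x x.2)
    · intro h x hx
      exact congrArg Subtype.val (h ⟨x, hx⟩)
  -- the kernel
  have hker : (H11.hrho V).ker ≤ M := by
    rw [H11.hker]
    refine le_trans (Subgroup.centralizer_le ?_) hM2
    rw [hVdef]
    exact le_iSup (fun S : Sylow p ↥K => Cfsg.omegaOne p
      ((S : Subgroup ↥K) ⊓ Subgroup.centralizer ((S : Subgroup ↥K) : Set ↥K))) S
  have hSM : (S : Subgroup ↥K) ≤ M :=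
    (Subgroup.le_normalizer.trans (H34.normalizer_le_normalizer_thompson p _)).trans hM1
  have hT := H47.SylIn.inf_normal (H47.sylIn_top S) (N := J) le_top
    (by rw [Subgroup.normalizer_eq_top])
  have hfixM : ∀ h ∈ J.map (H11.hrho V),
      h ∈ Subgroup.centralizer ((H11.hX c V).range : Set (H11.HolL V)) → h ∈ M.map (H11.hrho V) := by
    intro h hh hhX
    obtain ⟨k, -, hkh, hfix⟩ := H11.hlift c V hJc hXp hq hh hhX
    exact ⟨k, hM3 (Subgroup.mem_subgroupOf.2 ((hfixK k).2 hfix)), hkh⟩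
  have hH : J.map (H11.hrho V) ≤ M.map (H11.hrho V) := by
    conv_lhs => rw [SS.gen hS3]
    refine iSup_le ?_
    rintro ⟨A, hA⟩
    -- a conjugate of `A` lies in the image of `S`
    have hAp : IsPGroup p A := H11.elem_isPGroup hA.elem
    obtain ⟨a, ha, ha1⟩ := H11.exists_ne_one_of_card (p := p) hA.card
    obtain ⟨j0, hj0, hj0a⟩ := hA.le ha
    obtain ⟨k, m, hm, hkm⟩ := Nat.exists_eq_pow_mul_and_not_dvd (orderOf_pos j0).ne' p
      (Fact.out : p.Prime).ne_one
    obtain ⟨R, hRdef⟩ : ∃ R : Subgroup ↥K, R = Subgroup.zpowers (j0 ^ m) := ⟨_, rfl⟩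
    have hRp : IsPGroup p R := by
      rw [hRdef]
      have h1 : (j0 ^ m) ^ p ^ k = 1 := by
        rw [← pow_mul, mul_comm m, ← hkm, pow_orderOf_eq_one]
      intro x
      refine ⟨k, ?_⟩
      obtain ⟨z, hz⟩ := Subgroup.mem_zpowers_iff.1 x.2
      apply Subtype.ext
      rw [Subgroup.coe_pow, ← hz, ← zpow_natCast, ← zpow_mul, mul_comm z, zpow_mul,
        zpow_natCast, h1, one_zpow]
      rfl
    have hRJ : R ≤ J := by
      rw [hRdef, Subgroup.zpowers_le]
      exact pow_mem hj0 m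
    have hRA : R.map (H11.hrho V) = A := by
      rw [hRdef, MonoidHom.map_zpowers, map_pow, hj0a]
      apply H11.exists_zpowers_of_card (p := p) hA.card _ (pow_mem ha m)
      intro h
      apply hm
      have h2 := orderOf_dvd_of_pow_eq_one h
      rwa [orderOf_eq_prime (hA.elem.2 a ha) ha1] at h2
    obtain ⟨j, hj, hjR⟩ := hT.exists_conj_le hRJ hRp
    set h := H11.hrho V j with hh
    have hhH : h ∈ J.map (H11.hrho V) := ⟨j, hj, rfl⟩
    have hA' := hA.conj SS hhH
    have hA'M : A.map (MulAut.conj h).toMonoidHom ≤ M.map (H11.hrho V) := by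
      rw [← hRA]
      rintro _ ⟨_, ⟨r, hr, rfl⟩, rfl⟩
      have h1 : j * r * j⁻¹ ∈ (S : Subgroup ↥K) := (Subgroup.mem_inf.1 (hjR ⟨r, hr, rfl⟩)).1
      refine ⟨j * r * j⁻¹, hSM h1, ?_⟩
      rw [map_mul, map_mul, map_inv]
      rfl
    have hE : H11.EE ((Cfsg.pPrimeCore p ↥(J.map (H11.hrho V))).map
        (J.map (H11.hrho V)).subtype) (A.map (MulAut.conj h).toMonoidHom) =
        H11.EE ((Cfsg.pPrimeCore p ↥(J.map (H11.hrho V))).map
        (J.map (H11.hrho V)).subtype) A := by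
      rw [H11.EE_conjX A (SS.hQn hhH), H11.map_conj_eq_self (hA.norm SS hS3 hhH)]
    have := C.EE_le_of hS3 SS hA' hA'M hfixM
    rw [hE] at this
    exact this
  have hJM : J ≤ M := by
    intro j hj
    obtain ⟨m, hm, hmj⟩ := hH ⟨j, hj, rfl⟩
    have h1 : m⁻¹ * j ∈ (H11.hrho V).ker := by
      rw [MonoidHom.mem_ker, map_mul, map_inv, hmj, inv_mul_cancel]
    have h2 : j = m * (m⁻¹ * j) := by group
    rw [h2]
    exact mul_mem hm (hker h1)
  have hTJ : Cfsg.thompsonSubgroupOf p ((S : Subgroup ↥K) ⊓ J) =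
      Cfsg.thompsonSubgroupOf p (S : Subgroup ↥K) := by
    apply H34.thompsonSubgroupOf_eq_of_le p inf_le_left
    intro A hA
    refine le_inf hA.1 ?_
    rw [hJdef]
    exact le_sSup (S0608.maxEA_mem S hA)
  rw [eq_top_iff]
  intro g _
  obtain ⟨m, -, hm, n, hn, rfl⟩ := hT.frattini (L := ⊤) le_top
    (by rw [Subgroup.normalizer_eq_top]) (Subgroup.mem_top g)
  refine mul_mem (hJM hn) (hM1 ?_)
  rw [← hTJ]
  exact H34.normalizer_le_normalizer_thompson p _ hm

end Cfsg.Agent.S0620
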