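import Cfsg.Statements.S0621
import Cfsg.Agent.H11.CopFF3

set_option autoImplicit false
open Cfsg

namespace Cfsg.Agent.S0621

/-- Let K be p-separable with O_p'(K) = 1, normalized by an elementary abelian q-group X for a prime q not dividing the order of K. If the Thompson factorization fails in K, then p is 2 or 3 and the fixed points of X contain a plane W of order p² and a subgroup inducing SL(2, p) on it. -/
theorem result {G : Type*} [Group G] [Finite G] {p : ℕ} [Fact p.Prime] {q : ℕ} [Fact q.Prime] (K X : Subgroup G) (hXK : X ≤ Subgroup.normalizer (K : Set G)) (hX : Cfsg.IsElementaryAbelian q X) (hq : ¬ q ∣ Nat.card K) (hsep : Cfsg.IsPSolvable p ↥K) (hO : Cfsg.pPrimeCore p ↥K = ⊥) (hnf : ¬ Cfsg.IsThompsonFactorizable p ↥K) : (p = 2 ∨ p = 3) ∧ ∃ W D : Subgroup G, W ≤ K ⊓ Subgroup.centralizer (X : Set G) ∧ D ≤ K ⊓ Subgroup.centralizer (X : Set G) ∧ Cfsg.IsElementaryAbelian p W ∧ Nat.card W = p ^ 2 ∧ D ≤ Subgroup.normalizer (W : Set G)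 ∧ ∃ hn : ((Subgroup.centralizer (W : Set G)).subgroupOf D).Normal, Nonempty ((↥D ⧸ (Subgroup.centralizer (W : Set G)).subgroupOf D) ≃* Matrix.SpecialLinearGroup (Fin 2) (ZMod p)) := by
  classical
  obtain ⟨V, hVdef⟩ : ∃ V : Subgroup ↥K, V = ⨆ S : Sylow p ↥K, Cfsg.omegaOne p
      ((S : Subgroup ↥K) ⊓ Subgroup.centralizer ((S : Subgroup ↥K) : Set ↥K)) := ⟨_, rfl⟩
  have hVc : V.Characteristic := by rw [hVdef]; exact H11.V_char
  have hVn : V.Normal := Subgroup.normal_of_characteristic V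
  obtain ⟨hV, S, hS3, hH1⟩ := H11.ff_setup hsep hO hnf V hVdef
  have hfin : Finite (H11.HolL V) := H11.finite_hol V
  obtain ⟨J, hJdef⟩ : ∃ J : Subgroup ↥K, J = Cfsg.thompsonSubgroup p ↥K := ⟨_, rfl⟩
  have hJc : J.Characteristic := by rw [hJdef]; exact (S0602.result (G := ↥K) (p := p)).1
  rw [← hJdef] at S hS3 hH1
  let c : ↥X →* MulAut ↥K := K.normalizerMonoidHom.comp (Subgroup.inclusion hXK)
  have hcv : ∀ (x : ↥X) (k : ↥K), ((c x k : ↥K) : G) = x * k * (x : G)⁻¹ := fun x k => rfl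
  have hXp : IsPGroup q X := fun x => ⟨1, by
    have := hX.2 x x.2
    rw [pow_one]; exact Subtype.ext this⟩
  have C := H11.hcop (p := p) c V hJc hXp hq
  obtain ⟨A, hA⟩ := H11.exists_isTv S hS3 hH1
  obtain ⟨x, hx, hxA⟩ := hA.exists_not_comm S
  refine ⟨S.prime_le_three hA hx hxA, ?_⟩
  obtain ⟨f, hf, hfk⟩ := C.exists_hom hS3 S hA
  have hWcard := C.card_W0 S hA
  have hWle := C.W0_le S hA
  have hnorm := fun (h : H11.HolL V) (hh : h ∈ J.map (H11.hrho V)) hX =>
    C.norm_W0 hS3 S hA hh (h := h) hX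
  obtain ⟨W, hW⟩ : ∃ W : Subgroup (H11.HolL V), W = H11.W0 (H11.hV' V)
    ((Cfsg.pPrimeCore p ↥(J.map (H11.hrho V))).map (J.map (H11.hrho V)).subtype)
    (H11.hX c V).range A := ⟨_, rfl⟩
  have hWX : W ≤ Subgroup.centralizer ((H11.hX c V).range : Set (H11.HolL V)) := by
    rw [hW]; exact inf_le_right
  rw [← hW] at hWcard hWle
  simp only [← hW] at hnorm hfk
  -- fixed points
  have hfixK : ∀ k : ↥K, (k : G) ∈ Subgroup.centralizer (X : Set G) ↔ ∀ x, c x k = k := by
    intro k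
    rw [H11.mem_centralizer_iff_conj]
    constructor
    · intro h x
      exact Subtype.ext (h x x.2)
    · intro h x hx
      exact congrArg Subtype.val (h ⟨x, hx⟩)
  have hfixH : ∀ k : ↥K, (k : G) ∈ Subgroup.centralizer (X : Set G) →
      H11.hrho V k ∈ Subgroup.centralizer ((H11.hX c V).range : Set (H11.HolL V)) := by
    intro k hk
    rw [H11.mem_centralizer_iff_conj]
    rintro _ ⟨x, rfl⟩
    rw [H11.hX_rho, (hfixK k).1 hk x]
  -- the plane in `G`
  let WG : Subgroup G := (W.comap (H11.hiota V)).map (K.subtype.comp V.subtype)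
  let DG : Subgroup G := J.map K.subtype ⊓ Subgroup.centralizer (X : Set G)
  have hWGmem : ∀ g, g ∈ WG ↔ ∃ v : ↥V, H11.hiota V v ∈ W ∧ ((v : ↥K) : G) = g := by
    intro g
    constructor
    · rintro ⟨v, hv, rfl⟩
      exact ⟨v, hv, rfl⟩
    · rintro ⟨v, hv, rfl⟩
      exact ⟨v, hv, rfl⟩
  have hDnorm : DG ≤ Subgroup.normalizer (WG : Set G) := by
    apply H11.le_normalizer_of_conj
    rintro _ ⟨⟨k, hk, rfl⟩, hkX⟩ g hg
    rw [hWGmem] at hg ⊢
    obtain ⟨v, hv, rfl⟩ := hg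
    refine ⟨MulAut.conjNormal k v, ?_, rfl⟩
    rw [← H11.hconj]
    exact (Subgroup.mem_normalizer_iff.1 (hnorm _ ⟨k, hk, rfl⟩ (hfixH k hkX)) _).1 hv
  have hcent : ∀ k : ↥K, (k : G) ∈ Subgroup.centralizer (WG : Set G) ↔
      H11.hrho V k ∈ Subgroup.centralizer (W : Set (H11.HolL V)) := by
    intro k
    rw [H11.mem_centralizer_iff'', H11.mem_centralizer_iff'']
    constructor
    · intro h w hw
      obtain ⟨v, rfl⟩ : w ∈ (H11.hiota V).range := hWle hw
      have h1 := h ((v : ↥K) : G) ((hWGmem _).2 ⟨v, hw, rfl⟩)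
      exact (H11.hcommute k v).2 (Subtype.ext h1)
    · intro h g hg
      rw [hWGmem] at hg
      obtain ⟨v, hv, rfl⟩ := hg
      have h1 := (H11.hcommute k v).1 (h _ hv)
      exact congrArg Subtype.val h1.eq
  have hnn : ((Subgroup.centralizer (WG : Set G)).subgroupOf DG).Normal :=
    Subgroup.normal_subgroupOf_of_le_normalizer (H11.le_normalizer_centralizer hDnorm)
  refine ⟨WG, DG, ?_, ?_, ⟨?_, ?_⟩, ?_, hDnorm, hnn, ?_⟩
  · rintro g hg
    rw [hWGmem] at hg
    obtain ⟨v, hv, rfl⟩ := hg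
    refine Subgroup.mem_inf.2 ⟨(v : ↥K).2, ?_⟩
    rw [hfixK]
    intro x
    have h1 := (H11.mem_centralizer_iff_conj (X := (H11.hX c V).range)).1 (hWX hv)
      (H11.hX c V x) ⟨x, rfl⟩
    rw [H11.hX_iota] at h1
    exact congrArg Subtype.val (H11.hiota_inj V h1)
  · refine inf_le_inf ?_ le_rfl
    rintro _ ⟨k, _, rfl⟩
    exact k.2
  · rw [H11.comm_iff]
    rintro a ha b hb
    rw [hWGmem] at ha hb
    obtain ⟨v, _, rfl⟩ := ha
    obtain ⟨w, _, rfl⟩ := hb
    have h1 := (H11.comm_iff V).1 hV.1 v v.2 w w.2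
    exact congrArg Subtype.val h1
  · intro a ha
    rw [hWGmem] at ha
    obtain ⟨v, _, rfl⟩ := ha
    exact congrArg Subtype.val (hV.2 v v.2)
  · have hinj : Function.Injective (K.subtype.comp V.subtype) := by
      intro a b h
      exact Subtype.ext (Subtype.ext h)
    rw [Subgroup.card_map_of_injective hinj]
    have h1 : (W.comap (H11.hiota V)).map (H11.hiota V) = W := by
      rw [Subgroup.map_comap_eq, inf_eq_right]
      exact hWle
    rw [← Subgroup.card_map_of_injective (H11.hiota_inj V), h1, hWcard]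
  · have hDK : DG ≤ K := by
      refine inf_le_left.trans ?_
      rintro _ ⟨k, _, rfl⟩
      exact k.2
    have hmemD : ∀ d : ↥DG, H11.hrho V (Subgroup.inclusion hDK d) ∈ J.map (H11.hrho V) ⊓
        Subgroup.centralizer ((H11.hX c V).range : Set (H11.HolL V)) := by
      rintro ⟨d, hd⟩
      obtain ⟨⟨k, hk, hkd⟩, hX⟩ := id hd
      have e : Subgroup.inclusion hDK ⟨d, hd⟩ = k := Subtype.ext hkd.symm
      rw [e]
      refine Subgroup.mem_inf.2 ⟨⟨k, hk, rfl⟩, hfixH _ ?_⟩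
      have hkd' : (k : G) = d := hkd
      rw [hkd']
      exact hX
    let g : ↥DG →* ↥(J.map (H11.hrho V) ⊓
        Subgroup.centralizer ((H11.hX c V).range : Set (H11.HolL V))) :=
      ((H11.hrho V).comp (Subgroup.inclusion hDK)).codRestrict _ hmemD
    have hg : Function.Surjective g := by
      rintro ⟨h, hh⟩
      rw [Subgroup.mem_inf] at hh
      obtain ⟨k, hk, hkh, hfix⟩ := H11.hlift c V hJc hXp hq hh.1 hh.2
      exact ⟨⟨k, Subgroup.mem_inf.2 ⟨⟨k, hk, rfl⟩, (hfixK k).2 hfix⟩⟩, Subtype.ext hkh⟩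
    have hk : (f.comp g).ker = (Subgroup.centralizer (WG : Set G)).subgroupOf DG := by
      ext d
      rw [MonoidHom.mem_ker, Subgroup.mem_subgroupOf, MonoidHom.comp_apply, hfk]
      exact (hcent ⟨d, _⟩).symm
    exact ⟨(QuotientGroup.quotientMulEquivOfEq hk.symm).trans
      (QuotientGroup.quotientKerEquivOfSurjective (f.comp g) (hf.comp hg))⟩

end Cfsg.Agent.S0621
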