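import Cfsg.Statements.S0627
import Cfsg.Agent.H36.ActStab
import Cfsg.Agent.H36.WNormal
import Cfsg.Agent.H36.PQuot
import Cfsg.Agent.H76.PSolvable
-- import your own Cfsg.Agent.* helpers here

set_option autoImplicit false
open Cfsg

namespace Cfsg.Agent.S0627

universe u

theorem map_W {G H : Type u} [Group G] [Group H] {p : ℕ} (f : G →* H) (S : Subgroup G)
    (hf : ∀ x ∈ S, f x = 1 → x = 1) :
    ((Cfsg.stableNormalClosure p ↥S).map S.subtype).map f =
      (Cfsg.stableNormalClosure p ↥(S.map f)).map (S.map f).subtype := by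
  have hinj : Function.Injective (f.subgroupMap S) := by
    rw [injective_iff_map_eq_one]
    rintro ⟨x, hx⟩ h
    exact Subtype.ext (hf x hx (congrArg Subtype.val h))
  let η : ↥S ≃* ↥(S.map f) := MulEquiv.ofBijective (f.subgroupMap S)
    ⟨hinj, MonoidHom.subgroupMap_surjective f S⟩
  rw [← H36.WS.map_equiv p η, Subgroup.map_map, Subgroup.map_map]
  rfl

/-- In a p-separable group with p at least 5, the normalizer of W(S) supplements the largest normal subgroup of order prime to p. -/
theorem result {G : Type*} [Group G] [Finite G] {p : ℕ} [Fact p.Prime] (hp : 5 ≤ p) (hsep : Cfsg.IsPSolvable p G) (S : Sylow p G) : Cfsg.pPrimeCore p G ⊔ Subgroup.normalizer (((Cfsg.stableNormalClosure p ↥(S : Subgroup G)).map (S : Subgroup G).subtype) : Set G) = ⊤ := by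
  have hN : (Nat.card (Cfsg.pPrimeCore p G)).Coprime p := Solv.pPrimeCore_card_coprime (G := G) p
  have hcore : Cfsg.pPrimeCore p (G ⧸ Cfsg.pPrimeCore p G) = ⊥ :=
    Solv.pPrimeCore_quotient_pPrimeCore p
  have hsep' := H76.isPSolvable_quotient (Cfsg.pPrimeCore p G) hsep
  have hst : Cfsg.IsActionPStable p (G ⧸ Cfsg.pPrimeCore p G) :=
    H36.ActStab.isActionPStable (by omega) (H36.NoSL2.not_hasSL2Section_of_isPSolvable hp hsep')
  have hc := H76.centralizer_pCore_le hsep' hcore
  obtain ⟨T, hT⟩ := H36.PQuot.map_sylow (Cfsg.pPrimeCore p G) S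
  have h1 := H36.WNormal.W_normal hst hc T
  rw [hT, ← map_W _ _ (fun x hx h => H36.PQuot.eq_one_of_mem hN S.2 ((QuotientGroup.eq_one_iff x).1 h) hx)] at h1
  have hWp : IsPGroup p ((Cfsg.stableNormalClosure p ↥(S : Subgroup G)).map (S : Subgroup G).subtype) :=
    S.2.to_le (Subgroup.map_subtype_le _)
  have h2 := H36.PQuot.map_normalizer hN hWp
  rw [Subgroup.normalizer_eq_top_iff.2 h1] at h2
  rw [eq_top_iff]
  intro g _
  have h3 : QuotientGroup.mk' (Cfsg.pPrimeCore p G) g ∈
      (Subgroup.normalizer (((Cfsg.stableNormalClosure p ↥(S : Subgroup G)).map (S : Subgroup G).subtype) : Set G)).map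
        (QuotientGroup.mk' (Cfsg.pPrimeCore p G)) := by
    rw [h2]; trivial
  obtain ⟨m, hm, hmg⟩ := h3
  have h4 : g * m⁻¹ ∈ Cfsg.pPrimeCore p G := by
    rw [← QuotientGroup.eq_one_iff]
    have : QuotientGroup.mk' (Cfsg.pPrimeCore p G) (g * m⁻¹) = 1 := by
      rw [map_mul, ← hmg, ← map_mul, mul_inv_cancel, map_one]
    exact this
  have h5 : g = (g * m⁻¹) * m := by group
  rw [h5]
  exact Subgroup.mul_mem_sup h4 hm

end Cfsg.Agent.S0627
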