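import Cfsg.Statements.S0629
import Cfsg.Agent.H36.PConstr
-- import your own Cfsg.Agent.* helpers here

set_option autoImplicit false
open Cfsg

namespace Cfsg.Agent.S0629

/-- A group in which the centralizer of a Sylow p-subgroup of O_{p',p}(G) is p-solvable is p-constrained. -/
theorem result {G : Type*} [Group G] [Finite G] {p : ℕ} [Fact p.Prime] (P : Sylow p ↥(Cfsg.pPrimePCore p G)) (hsol : Cfsg.IsPSolvable p ↥(Subgroup.centralizer (((P : Subgroup ↥(Cfsg.pPrimePCore p G)).map (Cfsg.pPrimePCore p G).subtype : Subgroup G) : Set G))) : Cfsg.IsPConstrained p G := by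
  rw [H36.PConstr.isPConstrained_iff]
  have hN := Solv.pPrimeCore_card_coprime (G := G) p
  set H := G ⧸ Cfsg.pPrimeCore p G with hH
  have hcore : Cfsg.pPrimeCore p H = ⊥ := Solv.pPrimeCore_quotient_pPrimeCore p
  -- the centralizer `C` of `O_p(H)` is `p`-solvable
  have hPp : IsPGroup p ((P : Subgroup ↥(Cfsg.pPrimePCore p G)).map (Cfsg.pPrimePCore p G).subtype) :=
    P.2.map _
  have h1 := H36.PQuot.map_centralizer hN hPp
  rw [H36.PConstr.map_sylow_pPrimePCore P] at h1
  have h2 : Cfsg.IsPSolvable p ↥(Subgroup.centralizer (Cfsg.pCore p H : Set H)) := by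
    rw [← h1]
    exact H76.isPSolvable_of_surjective _ (MonoidHom.subgroupMap_surjective _ _) hsol
  obtain ⟨C, hC⟩ : ∃ C : Subgroup H, C = Subgroup.centralizer (Cfsg.pCore p H : Set H) := ⟨_, rfl⟩
  have hCn : C.Normal := by rw [hC]; infer_instance
  rw [← hC] at h2
  have h3 : Cfsg.pPrimeCore p ↥C = ⊥ := by
    have := Solv.map_subtype_pPrimeCore_le p C
    rw [hcore, le_bot_iff, Subgroup.map_eq_bot_iff_of_injective _ C.subtype_injective] at this
    exact this
  have h4 := H76.centralizer_pCore_le h2 h3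
  have h5 : (Cfsg.pCore p ↥C).map C.subtype ≤ Cfsg.pCore p H := Solv.map_subtype_pCore_le p C
  have h6 : (⊤ : Subgroup ↥C) ≤ Cfsg.pCore p ↥C := by
    refine le_trans ?_ h4
    intro x _
    rw [Subgroup.mem_centralizer_iff]
    intro y hy
    have h7 : (y : H) ∈ Cfsg.pCore p H := h5 ⟨y, hy, rfl⟩
    have h8 : (x : H) ∈ Subgroup.centralizer (Cfsg.pCore p H : Set H) := hC ▸ x.2
    exact Subtype.ext (Subgroup.mem_centralizer_iff.1 h8 _ h7)
  unfold H36.PConstr.CharP
  rw [← hC]
  intro x hx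
  exact h5 ⟨⟨x, hx⟩, h6 (Subgroup.mem_top _), rfl⟩

end Cfsg.Agent.S0629
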