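import Cfsg.Statements.S0630
import Cfsg.Agent.H36.PConstr
-- import your own Cfsg.Agent.* helpers here

set_option autoImplicit false
open Cfsg

namespace Cfsg.Agent.S0630

/-- p-constraint passes to and from the quotient by the largest normal subgroup of order prime to p. -/
theorem result {G : Type*} [Group G] [Finite G] {p : ℕ} [Fact p.Prime] : Cfsg.IsPConstrained p G ↔ Cfsg.IsPConstrained p (G ⧸ Cfsg.pPrimeCore p G) := by
  apply H36.PConstr.isPConstrained_iff_of_coprime_ker (QuotientGroup.mk' (Cfsg.pPrimeCore p G))
    (QuotientGroup.mk'_surjective _)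
  rw [QuotientGroup.ker_mk']
  exact Solv.pPrimeCore_card_coprime p

end Cfsg.Agent.S0630
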