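import Cfsg.Statements.S0634
import Cfsg.Agent.H36.PConstr
-- import your own Cfsg.Agent.* helpers here

set_option autoImplicit false
open Cfsg

namespace Cfsg.Agent.S0634

theorem upper_odd_core {G : Type*} [Group G] [Finite G] {p : ℕ} [Fact p.Prime] (M : Subgroup G)
    [M.Normal] :
    Cfsg.pPrimeCore p (G ⧸ (Cfsg.pPrimeCore p (G ⧸ M)).comap (QuotientGroup.mk' M)) = ⊥ := by
  obtain ⟨e⟩ := H36.PConstr.nonempty_equiv_of_ker
    ((QuotientGroup.mk' (Cfsg.pPrimeCore p (G ⧸ M))).comp (QuotientGroup.mk' M))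
    ((QuotientGroup.mk'_surjective _).comp (QuotientGroup.mk'_surjective _))
    ((Cfsg.pPrimeCore p (G ⧸ M)).comap (QuotientGroup.mk' M)) (by
      ext x
      simp [MonoidHom.mem_ker, Subgroup.mem_comap])
  have h1 : Cfsg.pPrimeCore p ((G ⧸ M) ⧸ Cfsg.pPrimeCore p (G ⧸ M)) = ⊥ :=
    Solv.pPrimeCore_quotient_pPrimeCore p
  have h2 := Solv.map_pPrimeCore p e
  rw [h1] at h2
  exact (Subgroup.map_eq_bot_iff_of_injective _ e.injective).1 h2

/-- In a p-soluble group each p-factor of the upper p-series contains its own centralizer in the corresponding quotient. -/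
theorem result {G : Type*} [Group G] [Finite G] {p : ℕ} [Fact p.Prime] (hsol : Cfsg.IsPSolvable p G) (k : ℕ) : Subgroup.centralizer ((((Cfsg.upperPSeries p G (2 * k + 2)).1.map (QuotientGroup.mk' (Cfsg.upperPSeries p G (2 * k + 1)).1)) : Subgroup (G ⧸ (Cfsg.upperPSeries p G (2 * k + 1)).1)) : Set (G ⧸ (Cfsg.upperPSeries p G (2 * k + 1)).1)) ≤ (Cfsg.upperPSeries p G (2 * k + 2)).1.map (QuotientGroup.mk' (Cfsg.upperPSeries p G (2 * k + 1)).1) := by
  obtain ⟨U, hU⟩ : ∃ U, U = Cfsg.upperPSeries p G (2 * k + 1) := ⟨_, rfl⟩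
  have hUn : U.1.Normal := U.2
  have h1 : (Cfsg.upperPSeries p G (2 * k + 2)).1 = (Cfsg.pCore p (G ⧸ U.1)).comap (QuotientGroup.mk' U.1) := by
    subst hU
    have : ¬ Even (2 * k + 1) := by
      rw [Nat.not_even_iff_odd]; exact ⟨k, rfl⟩
    rw [Cfsg.upperPSeries, if_neg this]
  have h2 : Cfsg.pPrimeCore p (G ⧸ U.1) = ⊥ := by
    have h3 : U.1 = (Cfsg.pPrimeCore p (G ⧸ (Cfsg.upperPSeries p G (2 * k)).1)).comap
        (QuotientGroup.mk' (Cfsg.upperPSeries p G (2 * k)).1) := by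
      subst hU
      have : Even (2 * k) := even_two_mul k
      rw [Cfsg.upperPSeries, if_pos this]
    obtain ⟨K, hK⟩ : ∃ K, K = U.1 := ⟨_, rfl⟩
    have hKn : K.Normal := by rw [hK]; exact hUn
    have h4 : Cfsg.pPrimeCore p (G ⧸ K) = ⊥ := by
      rw [← hK] at h3
      subst h3
      exact upper_odd_core _
    subst hK
    exact h4
  subst hU
  rw [h1, Subgroup.map_comap_eq_self_of_surjective (QuotientGroup.mk'_surjective _)]
  exact H76.centralizer_pCore_le (H76.isPSolvable_quotient _ hsol) h2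

end Cfsg.Agent.S0634
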