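-- statement S0638
import Cfsg.Statements.S0638
import Cfsg.Agent.BG.MetaOmega

set_option autoImplicit false
open Cfsg

namespace Cfsg.Agent.S0638

open Cfsg.Agent.BG

/-- For odd p, in a non-cyclic metacyclic p-group the elements of order dividing p generate an elementary abelian subgroup of order p². -/
theorem result {R : Type*} [Group R] [Finite R] {p : ℕ} [Fact p.Prime] (hp : p ≠ 2) (hR : IsPGroup p R) (hm : Cfsg.IsMetacyclic R) (hnc : ¬ IsCyclic R) : Cfsg.IsElementaryAbelian p (Cfsg.omegaOne p (⊤ : Subgroup R)) ∧ Nat.card ↥(Cfsg.omegaOne p (⊤ : Subgroup R)) = p ^ 2 := by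
  have hpf : p.Prime := Fact.out
  set O := omegaOne p (⊤ : Subgroup R) with hO
  have hOp : ∀ x ∈ O, x ^ p = 1 := by
    intro x hx
    refine Subgroup.closure_induction (p := fun x _ => x ^ p = 1) ?_ ?_ ?_ ?_ hx
    · intro x hx; exact hx.2
    · exact one_pow p
    · intro x y _ _ hx hy; exact mul_pow_eq_one_of_metacyclic hp hR hm hx hy
    · intro x _ hx; rw [inv_pow, hx, inv_one]
  have h1 : Nat.card O ≤ p ^ 2 :=
    card_le_of_metacyclic (isMetacyclic_of_injective O.subtype O.subtype_injective hm) fun x => Subtype.ext (hOp x x.2)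
  have h2 : Nat.card O = p ^ 2 := by
    refine le_antisymm h1 ?_
    have h3 : ¬ PRankLE p 1 R := fun h => hnc (isCyclic_of_rank_one hp hR h)
    unfold PRankLE at h3
    push Not at h3
    obtain ⟨E, hE1, hE2, hE3⟩ := h3
    rw [pow_one] at hE3
    have h4 : E ≤ O := fun x hx => Subgroup.subset_closure ⟨Subgroup.mem_top x, hE2 x hx⟩
    have h5 := card_le_of_le h4
    obtain ⟨n, hn⟩ := IsPGroup.iff_card.mp (hR.to_subgroup O)
    rw [hn] at h5 ⊢
    refine Nat.pow_le_pow_right hpf.pos ?_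
    by_contra hlt
    push Not at hlt
    have : p ^ n ≤ p ^ 1 := Nat.pow_le_pow_right hpf.pos (by omega)
    rw [pow_one] at this
    omega
  refine ⟨⟨⟨⟨fun a b => ?_⟩⟩, hOp⟩, h2⟩
  exact (IsPGroup.commGroupOfCardEqPrimeSq (p := p) h2).mul_comm a b

end Cfsg.Agent.S0638
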