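import Cfsg.Statements.S0641
-- import your own Cfsg.Agent.* helpers here

set_option autoImplicit false
open Cfsg

namespace Cfsg.Agent.S0641

/-- Regularity of a p-group passes to quotient groups. -/
theorem result {G : Type*} [Group G] {p : ℕ} [Fact p.Prime] (hG : Cfsg.IsRegularPGroup p G) (N : Subgroup G) [N.Normal] : Cfsg.IsRegularPGroup p (G ⧸ N) := by
  refine ⟨hG.1.to_quotient N, ?_⟩
  intro a b n
  obtain ⟨a, rfl⟩ := QuotientGroup.mk'_surjective N a
  obtain ⟨b, rfl⟩ := QuotientGroup.mk'_surjective N b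
  obtain ⟨c, hc, h⟩ := hG.2 a b n
  refine ⟨QuotientGroup.mk' N c, ?_, ?_⟩
  · have h1 : Subgroup.closure ({QuotientGroup.mk' N a, QuotientGroup.mk' N b} : Set (G ⧸ N))
        = (Subgroup.closure ({a, b} : Set G)).map (QuotientGroup.mk' N) := by
      rw [MonoidHom.map_closure, Set.image_pair]
    rw [h1, ← Subgroup.map_commutator]
    have h2 := Subgroup.mem_map_of_mem (QuotientGroup.mk' N) hc
    revert h2
    generalize ⁅Subgroup.closure ({a, b} : Set G), Subgroup.closure ({a, b} : Set G)⁆ = K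
    intro h2
    unfold powerClosure at h2 ⊢
    rw [MonoidHom.map_closure] at h2
    refine (Subgroup.closure_mono ?_) h2
    rintro _ ⟨y, ⟨x, hx, rfl⟩, rfl⟩
    exact ⟨QuotientGroup.mk' N x, Subgroup.mem_map_of_mem _ hx, by simp⟩
  · rw [← map_mul, ← map_pow, h]
    simp

end Cfsg.Agent.S0641
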