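import Cfsg.Statements.S0642
import Cfsg.Agent.H11.Regular
-- import your own Cfsg.Agent.* helpers here

set_option autoImplicit false
open Cfsg

namespace Cfsg.Agent.S0642

open scoped commutatorElement

theorem commutator_closure_le {G : Type*} [Group G] {S : Set G} {M : Subgroup G}
    (hM : ∀ x ∈ Subgroup.closure S, ∀ m ∈ M, x * m * x⁻¹ ∈ M)
    (h : ∀ x ∈ S, ∀ y ∈ S, ⁅x, y⁆ ∈ M) : ⁅Subgroup.closure S, Subgroup.closure S⁆ ≤ M := by
  have h1 : ∀ y ∈ S, ∀ x ∈ Subgroup.closure S, ⁅x, y⁆ ∈ M := by
    intro y hy x hx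
    induction hx using Subgroup.closure_induction with
    | mem x hx => exact h x hx y hy
    | one => rw [commutatorElement_one_left]; exact one_mem _
    | mul x z hx hz h1 h2 =>
      rw [commutatorElement_mul_left_eq_conj_mul]
      exact mul_mem (hM x hx _ h2) h1
    | inv x hx h1 =>
      rw [commutatorElement_inv_left, ← commutatorElement_inv x y]
      have := hM x⁻¹ (inv_mem hx) _ (inv_mem h1)
      rwa [inv_inv] at this
  rw [Subgroup.commutator_le]
  intro x hx y hy
  induction hy using Subgroup.closure_induction with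
  | mem y hy => exact h1 y hy x hx
  | one => rw [commutatorElement_one_right]; exact one_mem _
  | mul y z hy hz h1 h2 =>
    rw [commutatorElement_mul_right_eq_mul_conj]
    rw [mul_assoc, mul_assoc]
    apply mul_mem h1
    rw [← mul_assoc]
    exact hM y hy _ h2
  | inv y hy h1 =>
    rw [commutatorElement_inv_right, ← commutatorElement_inv x y]
    have := hM y⁻¹ (inv_mem hy) _ (inv_mem h1)
    rwa [inv_inv] at this

theorem eq_bot_of_le_squares {G : Type*} [Group G] [Finite G] {D : Subgroup G}
    (hD : IsPGroup 2 D) (h : D ≤ powerClosure 2 1 D) : D = ⊥ := by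
  have hf : Fact (Nat.Prime 2) := ⟨Nat.prime_two⟩
  obtain ⟨k, hk⟩ := (IsPGroup.iff_card).1 hD
  rcases Nat.eq_zero_or_pos k with rfl | hkpos
  · rw [pow_zero] at hk
    exact Subgroup.card_eq_one.1 hk
  · exfalso
    obtain ⟨N, hN⟩ := Sylow.exists_subgroup_card_pow_prime (G := D) 2 (n := k - 1)
      (by rw [hk]; exact pow_dvd_pow 2 (Nat.sub_le k 1))
    have hidx : N.index = 2 := by
      have h1 := N.card_mul_index
      rw [hN, hk] at h1
      have h2 : 2 ^ k = 2 ^ (k - 1) * 2 := by
        rw [← pow_succ]; congr 1; omega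
      rw [h2] at h1
      exact Nat.eq_of_mul_eq_mul_left (by positivity) h1
    have h2 : powerClosure 2 1 D ≤ N.map D.subtype := by
      unfold powerClosure
      rw [Subgroup.closure_le]
      rintro _ ⟨x, hx, rfl⟩
      refine ⟨⟨x, hx⟩ ^ 2, Subgroup.sq_mem_of_index_two hidx _, by simp⟩
    have h3 := h.trans h2
    have h4 : N = ⊤ := by
      rw [eq_top_iff]
      intro x _
      obtain ⟨y, hy, hxy⟩ := h3 x.2
      have : y = x := Subtype.ext hxy
      rwa [← this]
    rw [h4, Subgroup.index_top] at hidx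
    omega

/-- Among finite 2-groups the regular ones are exactly the abelian ones. -/
theorem result {G : Type*} [Group G] [Finite G] (hG : IsPGroup 2 G) : Cfsg.IsRegularPGroup 2 G ↔ ∀ a b : G, a * b = b * a := by
  constructor
  · intro hr a b
    have hf : Fact (Nat.Prime 2) := ⟨Nat.prime_two⟩
    rw [H11.isRegularPGroup_iff] at hr
    set K := Subgroup.closure ({a, b} : Set G) with hK
    have haK : a ∈ K := Subgroup.subset_closure (by simp)
    have hbK : b ∈ K := Subgroup.subset_closure (by simp)
    obtain ⟨c, hc, h1⟩ := hr.2 1 a (Subgroup.mem_top _) b (Subgroup.mem_top _)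
    rw [← hK] at hc
    have hnor : ∀ x ∈ K, ∀ m ∈ powerClosure 2 1 ⁅K, K⁆, x * m * x⁻¹ ∈ powerClosure 2 1 ⁅K, K⁆ :=
      fun x hx m hm => H11.powerClosure_normalized hx hm
    -- `c` is conjugate to the commutator
    have h2 : ⁅b, a⁆ ∈ powerClosure 2 1 ⁅K, K⁆ := by
      have h3 : ⁅b, a⁆ = (a * b ^ 2) * c * (a * b ^ 2)⁻¹ := by
        rw [commutatorElement_def]
        have h4 : c = (b ^ 2 ^ 1)⁻¹ * (a ^ 2 ^ 1)⁻¹ * (a * b) ^ 2 ^ 1 := by rw [h1]; group
        rw [h4]
        simp only [pow_one, pow_two]
        group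
      rw [h3]
      exact hnor _ (mul_mem haK (pow_mem hbK 2)) _ hc
    -- so the derived subgroup is contained in its subgroup generated by squares
    have h5 : ⁅K, K⁆ ≤ powerClosure 2 1 ⁅K, K⁆ := by
      conv_lhs => rw [hK]
      apply commutator_closure_le
      · rw [← hK]; exact hnor
      · rintro x (rfl | rfl) y (rfl | rfl)
        · rw [commutatorElement_self]; exact one_mem _
        · rw [← commutatorElement_inv]; exact inv_mem h2
        · exact h2
        · rw [commutatorElement_self]; exact one_mem _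
    have h6 := eq_bot_of_le_squares (hG.to_subgroup _) h5
    exact (H11.comm_iff K).1 ((H11.comm_iff_commutator K).2 h6) a haK b hbK
  · intro h
    refine ⟨hG, fun a b n => ⟨1, one_mem _, ?_⟩⟩
    rw [mul_one]
    exact (show Commute a b from h a b).mul_pow _

end Cfsg.Agent.S0642
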