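import Cfsg.Statements.S0643
import Cfsg.Agent.H11.Regular2
-- import your own Cfsg.Agent.* helpers here

set_option autoImplicit false
open Cfsg

namespace Cfsg.Agent.S0643

/-- Kemhadze's criterion: a finite p-group is regular exactly when (ab)^p = a^p b^p c^p always holds for some c in the derived subgroup of the subgroup generated by a and b. -/
theorem result {G : Type*} [Group G] [Finite G] {p : ℕ} [Fact p.Prime] (hG : IsPGroup p G) : Cfsg.IsRegularPGroup p G ↔ ∀ a b : G, ∃ c ∈ ⁅Subgroup.closure ({a, b} : Set G), Subgroup.closure ({a, b} : Set G)⁆, (a * b) ^ p = a ^ p * b ^ p * c ^ p := by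
  rw [H11.isRegularPGroup_iff]
  constructor
  · rintro ⟨_, h⟩ a b
    obtain ⟨c', hc', h1⟩ := h 1 a (Subgroup.mem_top _) b (Subgroup.mem_top _)
    obtain ⟨c, hc, rfl⟩ := (H11.mem_powerClosure_iff (hG.to_subgroup _) ((h 1).mono le_top) c').1 hc'
    refine ⟨c, hc, ?_⟩
    simpa using h1
  · intro h
    refine ⟨hG, H11.powCond_of_one hG ?_⟩
    intro a _ b _
    obtain ⟨c, hc, h1⟩ := h a b
    refine ⟨c ^ p ^ 1, H11.pow_mem_powerClosure hc, ?_⟩
    simpa using h1

end Cfsg.Agent.S0643
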