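import Cfsg.Statements.S0656
import Cfsg.Agent.H36.QuadStab
-- import your own Cfsg.Agent.* helpers here

set_option autoImplicit false
open Cfsg

namespace Cfsg.Agent.S0656

/-- For odd p, a faithful group on an elementary abelian p-group with no nontrivial normal p-subgroup in which some nontrivial p-element acts quadratically has a section isomorphic to SL(2, p). -/
theorem result {G : Type*} [Group G] [Finite G] {p : ℕ} [Fact p.Prime] (hp : p ≠ 2) (V H : Subgroup G) (hV : Cfsg.IsElementaryAbelian p V) (hHV : H ≤ Subgroup.normalizer (V : Set G)) (hf : H ⊓ Subgroup.centralizer (V : Set G) = ⊥) (hO : Cfsg.pCore p ↥H = ⊥) (x : G) (hxH : x ∈ H) (hx1 : x ≠ 1) (hxp : ∃ k : ℕ, orderOf x = p ^ k) (hq : ⁅⁅V, Subgroup.zpowers x⁆, Subgroup.zpowers x⁆ = ⊥) : ∃ (K L : Subgroup G) (hL : (L.subgroupOf K).Normal), K ≤ H ∧ Nonempty ((K ⧸ L.subgroupOf K) ≃* Matrix.SpecialLinearGroup (Fin 2) (ZMod p)) := by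
  apply H36.QuadSL2.HasSL2Section.exists_quotient
  have hV' := (H34.isElementaryAbelian_iff p V).1 hV
  letI : CommGroup ↥V := { (inferInstance : Group ↥V) with
    mul_comm := fun x y => Subtype.ext (hV'.1 x x.2 y y.2) }
  refine H36.QuadStab.key_mulAut hp (W := ↥V) (fun w => Subtype.ext (hV'.2 w w.2))
    (V.normalizerMonoidHom.comp (Subgroup.inclusion hHV)) ?_ (x := ⟨x, hxH⟩) ?_ ?_
  · intro g hg
    have h1 : (g : G) ∈ H ⊓ Subgroup.centralizer (V : Set G) := by
      refine ⟨g.2, ?_⟩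
      show (g : G) ∈ Subgroup.centralizer (V : Set G)
      rw [Subgroup.mem_centralizer_iff]
      intro v hv
      have h2 : (g : G) * v * (g : G)⁻¹ = v :=
        congrArg (fun f : MulAut ↥V => ((f ⟨v, hv⟩ : ↥V) : G)) hg
      rw [mul_inv_eq_iff_eq_mul] at h2
      exact h2.symm
    rw [hf, Subgroup.mem_bot] at h1
    exact Subtype.ext h1
  · rintro ⟨v, hv⟩
    apply Subtype.ext
    have h1 := (show H36.QuadOn.Quad V x from hq).commute hv
    show x * (x * v * x⁻¹ * v⁻¹) * x⁻¹ = x * v * x⁻¹ * v⁻¹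
    rw [commutatorElement_def] at h1
    rw [h1.eq]; group
  · rw [hO, Subgroup.mem_bot]
    intro h
    exact hx1 (congrArg Subtype.val h)

end Cfsg.Agent.S0656
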