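import Cfsg.Statements.S0662
import Mathlib
import Cfsg.Agent.MaxClass.Count

set_option autoImplicit false
open Cfsg

namespace Cfsg.Agent.S0662

/-- In a p-group of maximal class of order at least p³ the normal subgroups of index at least p² are exactly the terms of the lower central series, and there are exactly p + 1 normal subgroups of index p. -/
theorem result {G : Type*} [Group G] [Finite G] {p : ℕ} [Fact p.Prime] (n : ℕ) (hG : Nat.card G = p ^ n) (hcl : Group.nilpotencyClass G = n - 1) (hn : 3 ≤ n) : (∀ (N : Subgroup G) [N.Normal] (r : ℕ), 2 ≤ r → N.index = p ^ r → N = (⊤ : Subgroup G).lowerCentralSeries (r - 1)) ∧ Nat.card {N : Subgroup G // N.Normal ∧ N.index = p} = p + 1 := by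
  have hnil : Group.IsNilpotent G := (IsPGroup.of_card hG).isNilpotent
  refine ⟨fun N _ r hr hN => Cfsg.Agent.MaxClass.normal_eq_lcs_of_maxClass hG hcl N r hr hN, ?_⟩
  have hidx : (commutator G).index = p ^ 2 := by
    have := Cfsg.Agent.MaxClass.index_lcs_of_maxClass hG hcl 1 le_rfl (by omega)
    rwa [Subgroup.top_lowerCentralSeries_one] at this
  apply Cfsg.Agent.MaxClass.card_normal_index_prime hidx
  intro h
  have h1 := Cfsg.Agent.MaxClass.commutator_eq_bot_of_isCyclic_quotient h
  rw [h1, Subgroup.index_bot, hG] at hidx
  have := Nat.pow_right_injective (Fact.out : p.Prime).two_le hidx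
  omega

end Cfsg.Agent.S0662
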