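import Cfsg.Statements.S0663
-- import your own Cfsg.Agent.* helpers here

set_option autoImplicit false
open Cfsg

namespace Cfsg.Agent.S0663

open scoped commutatorElement

theorem eq_bot_of_le_commutator {G : Type*} [Group G] {P H : Subgroup G} [Group.IsNilpotent P]
    (hHP : H ≤ P) (h : H ≤ ⁅H, P⁆) : H = ⊥ := by
  obtain ⟨n, hn⟩ := (Subgroup.isNilpotent_iff_lowerCentralSeries P).1 inferInstance
  have key : ∀ n, H ≤ P.lowerCentralSeries n := by
    intro n
    induction n with
    | zero => exact hHP
    | succ n ih => exact h.trans (Subgroup.commutator_mono ih le_rfl)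
  rw [eq_bot_iff, ← hn]
  exact key n

theorem iter_le_normalizer {L : Type*} [Group L] {N G : Subgroup L}
    (hGN : G ≤ Subgroup.normalizer (N : Set L)) (i : ℕ) :
    G ≤ Subgroup.normalizer (iterCommutator N G i : Set L) := by
  cases i with
  | zero => exact hGN
  | succ i => exact Subgroup.normalizer_commutator_ge_right _ _

theorem iter_succ_le {L : Type*} [Group L] {N G : Subgroup L}
    (hGN : G ≤ Subgroup.normalizer (N : Set L)) (i : ℕ) :
    iterCommutator N G (i + 1) ≤ iterCommutator N G i := by
  show ⁅iterCommutator N G i, G⁆ ≤ iterCommutator N G i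
  rw [← Subgroup.le_normalizer_iff_commutator_le_left]
  exact iter_le_normalizer hGN i

theorem iter_le {L : Type*} [Group L] {N G : Subgroup L}
    (hGN : G ≤ Subgroup.normalizer (N : Set L)) (i : ℕ) :
    iterCommutator N G i ≤ N := by
  induction i with
  | zero => exact le_rfl
  | succ i ih => exact (iter_succ_le hGN i).trans ih

/-- The cardinalities of the chain. -/
def Q {L : Type*} [Group L] (p n : ℕ) (N G : Subgroup L) : Prop :=
  ∀ i ≤ n, Nat.card (iterCommutator N G i) = p ^ (n - i)

theorem card_mul_relIndex {L : Type*} [Group L] {H K : Subgroup L} (h : H ≤ K) :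
    Nat.card H * H.relIndex K = Nat.card K := by
  have := Subgroup.relIndex_mul_relIndex ⊥ H K bot_le h
  rwa [Subgroup.relIndex_bot_left, Subgroup.relIndex_bot_left] at this

theorem Q_relIndex {L : Type*} [Group L] [Finite L] {p n : ℕ} [hp : Fact p.Prime] {N G : Subgroup L}
    (hGN : G ≤ Subgroup.normalizer (N : Set L)) (hQ : Q p n N G) {i : ℕ} (hi : i < n) :
    (iterCommutator N G (i + 1)).relIndex (iterCommutator N G i) = p := by
  have h1 := card_mul_relIndex (iter_succ_le hGN i)
  rw [hQ i hi.le, hQ (i + 1) hi] at h1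
  have h2 : p ^ (n - i) = p ^ (n - (i + 1)) * p := by
    rw [← pow_succ]; congr 1; omega
  rw [h2] at h1
  exact Nat.eq_of_mul_eq_mul_left (pow_pos hp.out.pos _) h1

/-- proper inclusion in a `p`-group multiplies the order by at least `p` -/
theorem card_mul_le {L : Type*} [Group L] [Finite L] {p : ℕ} [hp : Fact p.Prime] {H K : Subgroup L}
    (hK : IsPGroup p K) (h : H < K) : Nat.card H * p ≤ Nat.card K := by
  obtain ⟨k, hk⟩ := (IsPGroup.iff_card).1 hK
  have h1 := card_mul_relIndex h.le
  have h2 : H.relIndex K ∣ p ^ k := hk ▸ (Dvd.intro_left _ h1)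
  obtain ⟨j, _, hj⟩ := (Nat.dvd_prime_pow hp.out).1 h2
  have h3 : j ≠ 0 := by
    rintro rfl
    rw [pow_zero] at hj
    rw [Subgroup.relIndex_eq_one] at hj
    exact h.not_ge hj
  rw [← h1, hj]
  apply Nat.mul_le_mul_left
  calc p = p ^ 1 := (pow_one p).symm
    _ ≤ p ^ j := Nat.pow_le_pow_right hp.out.pos (by omega)

theorem Q_of_uniserial {L : Type*} [Group L] [Finite L] {p n : ℕ} [hp : Fact p.Prime]
    {N G : Subgroup L} (hGN : G ≤ Subgroup.normalizer (N : Set L)) (hn : Nat.card N = p ^ n)
    (hU : ∀ H : Subgroup L, H ≤ N → G ≤ Subgroup.normalizer (H : Set L) → H ≠ ⊥ →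
      (⁅H, G⁆).relIndex H = p) : Q p n N G := by
  intro i hi
  induction i with
  | zero => rw [Nat.sub_zero]; exact hn
  | succ i ih =>
    have h1 := ih (by omega)
    have h2 : iterCommutator N G i ≠ ⊥ := by
      intro h
      rw [h, Subgroup.card_bot] at h1
      have : 1 < p ^ (n - i) := Nat.one_lt_pow (by omega) hp.out.one_lt
      omega
    have h3 := hU _ (iter_le hGN i) (iter_le_normalizer hGN i) h2
    have h4 := card_mul_relIndex (iter_succ_le hGN i)
    change _ * (⁅iterCommutator N G i, G⁆).relIndex _ = _ at h4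
    rw [h3, h1] at h4
    have h5 : p ^ (n - i) = p ^ (n - (i + 1)) * p := by
      rw [← pow_succ]; congr 1; omega
    rw [h5] at h4
    exact Nat.eq_of_mul_eq_mul_right hp.out.pos h4

section
variable {L : Type*} [Group L] [Finite L] {p n : ℕ} [hp : Fact p.Prime]
    {N G : Subgroup L} (hN : IsPGroup p N) (hG : IsPGroup p G)
    (hGN : G ≤ Subgroup.normalizer (N : Set L))
include hN hG hGN

theorem nilp_sup : Group.IsNilpotent ↥(N ⊔ G) := by
  have := hN.to_sup_of_normal_left' hG hGN
  exact this.isNilpotent

theorem iter_lt {i : ℕ} (h : iterCommutator N G i ≠ ⊥) :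
    iterCommutator N G (i + 1) < iterCommutator N G i := by
  have := nilp_sup hN hG hGN
  apply lt_of_le_of_ne (iter_succ_le hGN i)
  intro h1
  apply h
  apply eq_bot_of_le_commutator (P := N ⊔ G) ((iter_le hGN i).trans le_sup_left)
  calc iterCommutator N G i = iterCommutator N G (i + 1) := h1.symm
    _ = ⁅iterCommutator N G i, G⁆ := rfl
    _ ≤ ⁅iterCommutator N G i, N ⊔ G⁆ := Subgroup.commutator_mono le_rfl le_sup_right

theorem Q_of_ne_bot (hn : Nat.card N = p ^ n)
    (hU : iterCommutator N G (n - 1) ≠ ⊥ ∨ n = 0) : Q p n N G := by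
  rcases Nat.eq_zero_or_pos n with rfl | hnpos
  · intro i hi
    have : i = 0 := by omega
    subst this
    exact hn
  have hU : iterCommutator N G (n - 1) ≠ ⊥ := by
    rcases hU with h | h
    · exact h
    · omega
  have hne : ∀ i ≤ n - 1, iterCommutator N G i ≠ ⊥ := by
    intro i hi h
    apply hU
    rw [eq_bot_iff, ← h]
    exact antitone_nat_of_succ_le (f := iterCommutator N G) (iter_succ_le hGN) hi
  have h1 : ∀ i ≤ n, Nat.card (iterCommutator N G i) * p ^ i ≤ p ^ n := by
    intro i
    induction i with
    | zero =>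
      intro _
      rw [← hn]
      simp [iterCommutator]
    | succ i ih =>
      intro hi
      have h2 := ih (by omega)
      have h3 := card_mul_le (hN.to_le (iter_le hGN i)) (iter_lt hN hG hGN (hne i (by omega)))
      calc _ = (Nat.card (iterCommutator N G (i + 1)) * p) * p ^ i := by rw [pow_succ]; ring
        _ ≤ Nat.card (iterCommutator N G i) * p ^ i := Nat.mul_le_mul_right _ h3
        _ ≤ p ^ n := h2
  have h2 : ∀ j, j ≤ n → p ^ j ≤ Nat.card (iterCommutator N G (n - j)) := by
    intro j
    induction j with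
    | zero =>
      intro _
      rw [pow_zero]
      exact Nat.card_pos
    | succ j ih =>
      intro hj
      have h3 := ih (by omega)
      have h4 := card_mul_le (hN.to_le (iter_le hGN (n - (j + 1))))
        (iter_lt hN hG hGN (hne (n - (j + 1)) (by omega)))
      have h5 : n - (j + 1) + 1 = n - j := by omega
      rw [h5] at h4
      calc p ^ (j + 1) = p ^ j * p := pow_succ _ _
        _ ≤ _ := (Nat.mul_le_mul_right _ h3).trans h4
  intro i hi
  apply le_antisymm
  · have h3 := h1 i hi
    have h4 : p ^ n = p ^ (n - i) * p ^ i := by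
      rw [← pow_add]; congr 1; omega
    rw [h4] at h3
    exact Nat.le_of_mul_le_mul_right h3 (pow_pos hp.out.pos _)
  · have h3 := h2 (n - i) (by omega)
    have h4 : n - (n - i) = i := by omega
    rwa [h4] at h3

theorem Q_normal (hQ : Q p n N G) : ∀ i ≤ n,
    N ⊔ G ≤ Subgroup.normalizer (iterCommutator N G i : Set L) := by
  have := nilp_sup hN hG hGN
  intro i
  induction i with
  | zero =>
    intro _
    exact sup_le Subgroup.le_normalizer hGN
  | succ i ih =>
    intro hi
    have h1 := ih (by omega)
    have h2 : ⁅iterCommutator N G i, N ⊔ G⁆ ≤ iterCommutator N G i := by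
      rwa [← Subgroup.le_normalizer_iff_commutator_le_left]
    have h3 : ⁅iterCommutator N G i, N ⊔ G⁆ ≠ iterCommutator N G i := by
      intro h
      have h4 := eq_bot_of_le_commutator (P := N ⊔ G) ((iter_le hGN i).trans le_sup_left) h.ge
      have h5 := hQ i (by omega)
      rw [h4, Subgroup.card_bot] at h5
      have : 1 < p ^ (n - i) := Nat.one_lt_pow (by omega) hp.out.one_lt
      omega
    have h4 : iterCommutator N G (i + 1) ≤ ⁅iterCommutator N G i, N ⊔ G⁆ :=
      Subgroup.commutator_mono le_rfl le_sup_right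
    have h5 : iterCommutator N G (i + 1) = ⁅iterCommutator N G i, N ⊔ G⁆ := by
      apply Subgroup.eq_of_le_of_card_ge h4
      have h6 := card_mul_le (hN.to_le (iter_le hGN i)) (lt_of_le_of_ne h2 h3)
      rw [hQ i (by omega)] at h6
      rw [hQ (i + 1) (by omega)]
      have h7 : p ^ (n - i) = p ^ (n - (i + 1)) * p := by
        rw [← pow_succ]; congr 1; omega
      rw [h7] at h6
      exact Nat.le_of_mul_le_mul_right h6 hp.out.pos
    rw [h5]
    exact Subgroup.normalizer_commutator_ge_right _ _

theorem Q_classify (hQ : Q p n N G) (H : Subgroup L) (hHN : H ≤ N)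
    (hGH : G ≤ Subgroup.normalizer (H : Set L)) : ∃ i ≤ n, H = iterCommutator N G i := by
  classical
  have hbot : iterCommutator N G n = ⊥ := by
    have := hQ n le_rfl
    rw [Nat.sub_self, pow_zero] at this
    exact Subgroup.card_eq_one.1 this
  by_cases hH : H = ⊥
  · exact ⟨n, le_rfl, by rw [hH, hbot]⟩
  -- the last index containing `H`
  have hex : ∃ i, ¬ H ≤ iterCommutator N G (i + 1) ∧ i < n := by
    by_contra hcon
    push Not at hcon
    have : ∀ i ≤ n, H ≤ iterCommutator N G i := by
      intro i
      induction i with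
      | zero => intro _; exact hHN
      | succ i ih =>
        intro hi
        by_contra h
        have := hcon i h
        omega
    apply hH
    rw [eq_bot_iff, ← hbot]
    exact this n le_rfl
  obtain ⟨h1, h2⟩ := Nat.find_spec hex
  set i := Nat.find hex with hi
  have h3 : H ≤ iterCommutator N G i := by
    rcases Nat.eq_zero_or_pos i with h0 | h0
    · rw [h0]; exact hHN
    · by_contra h4
      have h5 := Nat.find_min hex (m := i - 1) (by omega)
      apply h5
      have h6 : i - 1 + 1 = i := by omega
      rw [h6]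
      exact ⟨h4, by omega⟩
  refine ⟨i, h2.le, le_antisymm h3 ?_⟩
  have hnorm := Q_normal hN hG hGN hQ
  have key0 : iterCommutator N G i ≤ H ⊔ iterCommutator N G (i + 1) := by
    have h4 : iterCommutator N G (i + 1) < H ⊔ iterCommutator N G (i + 1) := by
      refine lt_of_le_of_ne le_sup_right ?_
      intro h
      exact h1 (le_sup_left.trans h.ge)
    have h5 : H ⊔ iterCommutator N G (i + 1) ≤ iterCommutator N G i :=
      sup_le h3 (iter_succ_le hGN i)
    have h6 : H ⊔ iterCommutator N G (i + 1) = iterCommutator N G i := by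
      apply Subgroup.eq_of_le_of_card_ge h5
      have h7 := card_mul_le (hN.to_le (h5.trans (iter_le hGN i))) h4
      rw [hQ (i + 1) (by omega)] at h7
      rw [hQ i h2.le]
      have h8 : p ^ (n - i) = p ^ (n - (i + 1)) * p := by
        rw [← pow_succ]; congr 1; omega
      rw [h8]
      exact h7
    exact h6.ge
  have key : ∀ j, i + 1 + j ≤ n → iterCommutator N G i ≤ H ⊔ iterCommutator N G (i + 1 + j) := by
    intro j
    induction j with
    | zero =>
      intro _
      exact key0
    | succ j ih =>
      intro hj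
      have h4 := ih (by omega)
      -- `N_{i+1} ≤ [H ⊔ N_{i+1+j}, G] ≤ H ⊔ N_{i+2+j}`
      have h5 : iterCommutator N G (i + 1) ≤ H ⊔ iterCommutator N G (i + 1 + j + 1) := by
        show ⁅iterCommutator N G i, G⁆ ≤ _
        rw [Subgroup.commutator_le]
        intro x hx g hg
        have hx' := h4 hx
        have hHn : H ≤ Subgroup.normalizer (iterCommutator N G (i + 1 + j) : Set L) :=
          (hHN.trans le_sup_left).trans (hnorm _ (by omega))
        have hHn' : H ≤ Subgroup.normalizer (iterCommutator N G (i + 1 + j + 1) : Set L) :=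
          (hHN.trans le_sup_left).trans (hnorm _ (by omega))
        rw [← SetLike.mem_coe, Subgroup.coe_mul_of_left_le_normalizer_right _ _ hHn] at hx'
        obtain ⟨h, hh, m, hm, rfl⟩ := hx'
        simp only
        rw [commutatorElement_mul_left_eq_conj_mul]
        refine mul_mem (Subgroup.mem_sup_right ?_) (Subgroup.mem_sup_left ?_)
        · exact (Subgroup.mem_normalizer_iff.1 (hHn' hh) _).1
            (Subgroup.commutator_mem_commutator hm hg)
        · exact (Subgroup.le_normalizer_iff_commutator_le_left.1 hGH)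
            (Subgroup.commutator_mem_commutator hh hg)
      exact key0.trans (sup_le le_sup_left h5)
  have := key (n - (i + 1)) (by omega)
  have h7 : i + 1 + (n - (i + 1)) = n := by omega
  rw [h7, hbot, sup_bot_eq] at this
  exact this

end

/-- A p-group acts uniserially on a p-group N of order p^n exactly when the iterated commutator chain from N has length n; in that case the chain terms are all the invariant subgroups of N and they are normal in N. -/
theorem result {L : Type*} [Group L] [Finite L] {p : ℕ} [Fact p.Prime] (N G : Subgroup L) (hN : IsPGroup p N) (hG : IsPGroup p G) (hGN : G ≤ Subgroup.normalizer (N : Set L)) (n : ℕ) (hn : Nat.card N = p ^ n) : ((∀ H : Subgroup L, H ≤ N → G ≤ Subgroup.normalizer (H : Set L) → H ≠ ⊥ → (⁅H, G⁆).relIndex H = p) ↔ Cfsg.iterCommutator N G (n - 1) ≠ ⊥ ∨ n = 0) ∧ ((∀ H : Subgroup L, H ≤ N → G ≤ Subgroup.normalizer (H : Set L) → H ≠ ⊥ → (⁅H, G⁆).relIndex H = p) → ∀ H : Subgroup L, H ≤ N → G ≤ Subgroup.normalizer (H : Set L) → (∃ i ≤ n, H = Cfsg.iterCommutator N G i) ∧ N ≤ Subgroup.normalizer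 (H : Set L)) := by
  have hQU : Q p n N G → (∀ H : Subgroup L, H ≤ N → G ≤ Subgroup.normalizer (H : Set L) → H ≠ ⊥ →
      (⁅H, G⁆).relIndex H = p) := by
    intro hQ H hHN hGH hH
    obtain ⟨i, hi, rfl⟩ := Q_classify hN hG hGN hQ H hHN hGH
    have hi' : i < n := by
      rcases hi.lt_or_eq with h | h
      · exact h
      · exfalso
        subst h
        apply hH
        have := hQ i le_rfl
        rw [Nat.sub_self, pow_zero] at this
        exact Subgroup.card_eq_one.1 this
    exact Q_relIndex hGN hQ hi'
  refine ⟨⟨?_, ?_⟩, ?_⟩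
  · intro hU
    have hQ := Q_of_uniserial hGN hn hU
    rcases Nat.eq_zero_or_pos n with h | h
    · exact Or.inr h
    · left
      intro h1
      have h2 := hQ (n - 1) (by omega)
      rw [h1, Subgroup.card_bot] at h2
      have h3 : n - (n - 1) = 1 := by omega
      rw [h3, pow_one] at h2
      exact (Fact.out : p.Prime).one_lt.ne h2
  · intro h
    exact hQU (Q_of_ne_bot hN hG hGN hn h)
  · intro hU H hHN hGH
    have hQ := Q_of_uniserial hGN hn hU
    obtain ⟨i, hi, h⟩ := Q_classify hN hG hGN hQ H hHN hGH
    refine ⟨⟨i, hi, h⟩, ?_⟩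
    rw [h]
    exact le_sup_left.trans (Q_normal hN hG hGN hQ i hi)

end Cfsg.Agent.S0663
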