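import Cfsg.Statements.S0666
import Cfsg.Agent.S0035
import Cfsg.Agent.H11.Basic
-- import your own Cfsg.Agent.* helpers here

set_option autoImplicit false
open Cfsg

namespace Cfsg.Agent.S0666

open scoped Pointwise

theorem main {V F : Type*} [CommGroup V] [Group F] [Finite F] (φ : F →* MulAut V)
    (H N : Subgroup F) (hN : N.Normal)
    (hinj : ∀ h ∈ H, h ≠ 1 → ∀ k ∈ N, ∀ k' ∈ N, k * h * k⁻¹ = k' * h * k'⁻¹ → k = k')
    (hCN : ∀ v : V, (∀ n ∈ N, φ n v = v) → v = 1)
    (hCH : ∀ v : V, (∀ h ∈ H, φ h v = v) → v = 1) (v : V) : v ^ Nat.card N = 1 := by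
  classical
  have := Fintype.ofFinite F
  -- norms over subgroups are fixed
  have hfix : ∀ (T : Subgroup F) (w : V), ∀ s ∈ T, φ s (∏ t : T, φ t w) = ∏ t : T, φ t w := by
    intro T w s hs
    rw [map_prod]
    refine Fintype.prod_equiv (Equiv.mulLeft ⟨s, hs⟩) _ _ ?_
    intro t
    simp only [Equiv.coe_mulLeft, Subgroup.coe_mul, map_mul, MulAut.mul_apply]
  have h1 : ∀ k : F, ∏ h : H, φ (k * h * k⁻¹) v = 1 := by
    intro k
    have h2 : ∏ h : H, φ (k * h * k⁻¹) v = φ k (∏ h : H, φ h (φ k⁻¹ v)) := by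
      rw [map_prod]
      simp only [map_mul, MulAut.mul_apply]
    rw [h2, hCH (∏ h : H, φ h (φ k⁻¹ v)) (fun s hs => hfix H _ s hs), map_one]
  have h2 : ∏ k : N, ∏ h : H, φ (k * h * (k : F)⁻¹) v = 1 := by
    apply Finset.prod_eq_one
    intro k _
    exact h1 k
  rw [Finset.prod_comm] at h2
  have h3 : ∀ h : H, h ≠ 1 → ∏ k : N, φ (k * h * (k : F)⁻¹) v = 1 := by
    intro h hh
    have hh' : (h : F) ≠ 1 := fun h0 => hh (Subtype.ext h0)
    -- the map `k ↦ k h k⁻¹ h⁻¹`
    let g : N → N := fun k => ⟨k * h * (k : F)⁻¹ * (h : F)⁻¹, by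
      rw [mul_assoc, mul_assoc]
      refine N.mul_mem k.2 ?_
      rw [← mul_assoc]
      exact hN.conj_mem _ (N.inv_mem k.2) _⟩
    have hg : Function.Injective g := by
      intro k k' hkk
      apply Subtype.ext
      apply hinj h h.2 hh' k k.2 k' k'.2
      have := congrArg Subtype.val hkk
      simp only [g] at this
      exact mul_right_cancel this
    have hg' : Function.Bijective g := Finite.injective_iff_bijective.1 hg
    have h4 : ∏ k : N, φ (k * h * (k : F)⁻¹) v = ∏ k : N, φ k (φ h v) := by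
      refine Fintype.prod_bijective g hg' _ _ ?_
      intro k
      simp only [g]
      rw [← MulAut.mul_apply, ← map_mul]
      congr 2
      group
    rw [h4]
    apply hCN
    intro n hn
    exact hfix N _ n hn
  rw [Fintype.prod_eq_single (1 : H) h3] at h2
  simp only [Subgroup.coe_one, mul_one, mul_inv_cancel, map_one, MulAut.one_apply,
    Finset.prod_const, Finset.card_univ] at h2
  rwa [Nat.card_eq_fintype_card]

/-- A Frobenius group acting on a nontrivial abelian group of order prime to that of its kernel, with the kernel acting without nontrivial fixed points, has a complement with a nontrivial fixed point. -/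
theorem result {G : Type*} [Group G] [Finite G] (V F : Subgroup G) (hVab : IsMulCommutative V) (hV1 : V ≠ ⊥) (hFV : F ≤ Subgroup.normalizer (V : Set G)) (H : Subgroup ↥F) (hH : Cfsg.IsFrobeniusComplement H) (hcop : (Nat.card V).Coprime (Nat.card (Cfsg.frobeniusKernel H))) (hCK : V ⊓ Subgroup.centralizer (Subtype.val '' Cfsg.frobeniusKernel H : Set G) = ⊥) : V ⊓ Subgroup.centralizer ((H.map F.subtype : Subgroup G) : Set G) ≠ ⊥ := by
  intro hcon
  obtain ⟨N, hNK, hN, hNH⟩ := Cfsg.Agent.S0035.result H hH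
  letI : CommGroup V := { (inferInstance : Group V) with
    mul_comm := fun a b => Subtype.ext ((H11.comm_iff V).1 hVab a a.2 b b.2) }
  let φ : F →* MulAut V := (Subgroup.normalizerMonoidHom V).comp (Subgroup.inclusion hFV)
  have hφ : ∀ (f : F) (v : V), ((φ f v : V) : G) = f * v * (f : G)⁻¹ := fun f v => rfl
  have key := main φ H N hN ?_ ?_ ?_
  · apply hV1
    rw [eq_bot_iff]
    intro v hv
    have h1 := key ⟨v, hv⟩
    have h2 : orderOf (⟨v, hv⟩ : V) ∣ Nat.card N := orderOf_dvd_of_pow_eq_one h1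
    have h3 : orderOf (⟨v, hv⟩ : V) ∣ Nat.card V := orderOf_dvd_natCard _
    have h4 : Nat.card N = Nat.card (frobeniusKernel H) := by rw [← hNK]; rfl
    rw [h4] at h2
    have h5 := Nat.eq_one_of_dvd_coprimes hcop h3 h2
    rw [orderOf_eq_one_iff] at h5
    rw [Subgroup.mem_bot]
    exact congrArg Subtype.val h5
  · intro h hh h1 k hk k' hk' hkk
    -- `x = k'⁻¹ k` commutes with `h`
    have hx : (k'⁻¹ * k) * h * (k'⁻¹ * k)⁻¹ = h := by
      calc (k'⁻¹ * k) * h * (k'⁻¹ * k)⁻¹ = k'⁻¹ * (k * h * k⁻¹) * k' := by group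
        _ = k'⁻¹ * (k' * h * k'⁻¹) * k' := by rw [hkk]
        _ = h := by group
    by_contra hne
    have hxN : k'⁻¹ * k ∈ N := N.mul_mem (N.inv_mem hk') hk
    have hxH : k'⁻¹ * k ∉ H := by
      intro hxH
      have : k'⁻¹ * k ∈ N ⊓ H := ⟨hxN, hxH⟩
      rw [hNH.disjoint.eq_bot, Subgroup.mem_bot] at this
      apply hne
      rw [inv_mul_eq_one] at this
      exact this.symm
    have h2 := hH.2.2 _ hxH
    have h3 : h ∈ H ⊓ (MulAut.conj (k'⁻¹ * k) • H) := by
      refine Subgroup.mem_inf.2 ⟨hh, ?_⟩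
      rw [Subgroup.mem_pointwise_smul_iff_inv_smul_mem]
      have : (MulAut.conj (k'⁻¹ * k))⁻¹ • h = h := by
        rw [inv_smul_eq_iff, MulAut.smul_def, MulAut.conj_apply, hx]
      rwa [this]
    rw [h2, Subgroup.mem_bot] at h3
    exact h1 h3
  · intro v hv
    have h1 : (v : G) ∈ V ⊓ Subgroup.centralizer (Subtype.val '' Cfsg.frobeniusKernel H : Set G) := by
      refine Subgroup.mem_inf.2 ⟨v.2, ?_⟩
      rw [Subgroup.mem_centralizer_iff]
      rintro _ ⟨f, hf, rfl⟩
      rw [← hNK] at hf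
      have h2 := congrArg Subtype.val (hv f hf)
      rw [hφ] at h2
      rwa [mul_inv_eq_iff_eq_mul] at h2
    rw [hCK, Subgroup.mem_bot] at h1
    exact Subtype.ext h1
  · intro v hv
    have h1 : (v : G) ∈ V ⊓ Subgroup.centralizer ((H.map F.subtype : Subgroup G) : Set G) := by
      refine Subgroup.mem_inf.2 ⟨v.2, ?_⟩
      rw [Subgroup.mem_centralizer_iff]
      rintro _ ⟨f, hf, rfl⟩
      have h2 := congrArg Subtype.val (hv f hf)
      rw [hφ] at h2
      rwa [mul_inv_eq_iff_eq_mul] at h2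
    rw [hcon, Subgroup.mem_bot] at h1
    exact Subtype.ext h1

end Cfsg.Agent.S0666
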