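import Cfsg.Statements.S0679
import Cfsg.Agent.H41.DegElevenD

set_option autoImplicit false
open Cfsg

namespace Cfsg.Agent.S0679



/-- A non-solvable transitive permutation group on 11 points that does not contain the alternating group is either sharply 4-transitive (of order 7920) or isomorphic to the projective special linear group of degree 2 over the field with 11 elements. -/
theorem result {α : Type*} [Fintype α] [DecidableEq α] (hα : Fintype.card α = 11) (G : Subgroup (Equiv.Perm α)) [MulAction.IsPretransitive G α] (hG : ¬ Group.IsSolvable G) (hA : ¬ alternatingGroup α ≤ G) : (MulAction.IsMultiplyPretransitive G α 4 ∧ ∀ x : Fin 4 ↪ α, MulAction.stabilizer G x = ⊥) ∨ Nonempty (G ≃* Matrix.ProjectiveSpecialLinearGroup (Fin 2) (ZMod 11)) := by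
  have hE := H41.D11.is_even hα G hG hA
  rcases H41.D11.eq_cases hα G hG hA hE with h | h
  · exact Or.inr (H41.D11.order660 hα G hG hE h)
  · exact Or.inl (H41.D11.order7920 hα G hG hA hE h)

end Cfsg.Agent.S0679
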