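import Cfsg.Statements.S0681
import Cfsg.Agent.H34.NearField

set_option autoImplicit false
open Cfsg

namespace Cfsg.Agent.S0681

/-- The affine maps `x ↦ x * a + b`, `a ≠ 0`, of a near-field form a sharply doubly transitive permutation group. -/
theorem result {F : Type*} [Cfsg.NearField F] : ∃ H : Subgroup (Equiv.Perm F), (∀ σ : Equiv.Perm F, σ ∈ H ↔ ∃ a b : F, a ≠ 0 ∧ ∀ x : F, σ x = x * a + b) ∧ MulAction.IsMultiplyPretransitive H F 2 ∧ ∀ x : Fin 2 ↪ F, MulAction.stabilizer H x = ⊥ := by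
  refine ⟨Cfsg.Agent.H34.nfAffine F, Cfsg.Agent.H34.mem_nfAffine, ?_, ?_⟩
  · rw [MulAction.is_two_pretransitive_iff]
    intro a b c d hab hcd
    exact Cfsg.Agent.H34.nfAffine_sharp2.trans hab hcd
  · intro x
    rw [Subgroup.eq_bot_iff_forall]
    intro g hg
    rw [MulAction.mem_stabilizer_iff] at hg
    have h0 : g • x 0 = x 0 := by
      conv_rhs => rw [← hg]
      rfl
    have h1 : g • x 1 = x 1 := by
      conv_rhs => rw [← hg]
      rfl
    exact Cfsg.Agent.H34.nfAffine_sharp2.sharp g (fun h => by simpa using x.injective h) h0 h1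

end Cfsg.Agent.S0681
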