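import Cfsg.Statements.S0683
import Cfsg.Agent.H34.NearField

set_option autoImplicit false
open Cfsg

namespace Cfsg.Agent.S0683

/-- A finite sharply doubly transitive permutation group is the affine group of a near-field: the permuted set carries a near-field structure for which the group consists exactly of the maps `x ↦ x * a + b` with `a ≠ 0`. -/
theorem result {α : Type*} [Fintype α] [DecidableEq α] (H : Subgroup (Equiv.Perm α)) [MulAction.IsMultiplyPretransitive H α 2] (hsharp : ∀ x : Fin 2 ↪ α, MulAction.stabilizer H x = ⊥) (h2 : 2 ≤ Fintype.card α) : ∃ _ : Cfsg.NearField α, ∀ σ : Equiv.Perm α, σ ∈ H ↔ ∃ a b : α, a ≠ 0 ∧ ∀ x : α, σ x = x * a + b := by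
  classical
  have hS := Cfsg.Agent.H34.sharp2_of hsharp
  have h2' : 2 ≤ Nat.card α := by rwa [Nat.card_eq_fintype_card]
  have hnt : Nontrivial α := (Finite.one_lt_card_iff_nontrivial).mp (by omega)
  obtain ⟨z, e, hze⟩ := exists_pair_ne α
  obtain ⟨I, hz, he, h1, h3⟩ := hS.nearField h2' z e hze
  refine ⟨I, fun σ => ⟨fun hσ => ?_, ?_⟩⟩
  · obtain ⟨a, b, ha, hab⟩ := h1 ⟨σ, hσ⟩
    refine ⟨a, b, ?_, fun x => hab x⟩
    intro h0
    exact ha (h0.trans hz)
  · rintro ⟨a, b, ha, hab⟩
    obtain ⟨g, hg⟩ := h3 a b (fun h0 => ha (h0.trans hz.symm))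
    have : σ = g := by
      ext x
      rw [hab]
      exact (hg x).symm
    rw [this]
    exact g.2

end Cfsg.Agent.S0683
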