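import Cfsg.Statements.S0684
import Cfsg.Agent.H34.RegLin

set_option autoImplicit false
open Cfsg

namespace Cfsg.Agent.S0684

/-- Point stabiliser of a sharply doubly transitive group not of semilinear type: a maximal normal abelian subgroup `A` of a linear group `H` that is regular on non-zero vectors and has no irreducible cyclic normal subgroup is cyclic and reducible, and the order of `A` divides `p ^ k - 1` for `k` the dimension of a minimal `A`-invariant subspace. -/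
theorem result {p : ℕ} [Fact p.Prime] {V : Type*} [AddCommGroup V] [Module (ZMod p) V] [Finite V] (H : Subgroup (V ≃ₗ[ZMod p] V)) (hreg : ∀ v w : V, v ≠ 0 → w ≠ 0 → ∃! h : H, (h : V ≃ₗ[ZMod p] V) v = w) (hI : ∀ A : Subgroup H, A.Normal → IsCyclic A → ∃ W : Submodule (ZMod p) V, W ≠ ⊥ ∧ W ≠ ⊤ ∧ ∀ a ∈ A, ∀ v ∈ W, ((a : H) : V ≃ₗ[ZMod p] V) v ∈ W) (A : Subgroup H) (hAn : A.Normal) (hAc : IsMulCommutative A) (hAmax : ∀ B : Subgroup H, B.Normal → IsMulCommutative B → A ≤ B → B = A) : IsCyclic A ∧ ∃ W : Submodule (ZMod p) V, W ≠ ⊥ ∧ W ≠ ⊤ ∧ (∀ a ∈ A, ∀ v ∈ W, ((a : H) : V ≃ₗ[ZMod p] V) v ∈ W) ∧ (∀ W' : Submodule (ZMod p) V, W' ≤ W → (∀ a ∈ A, ∀ v ∈ W', ((a : H) : V ≃ₗ[ZMod p] V) v ∈ W') → W' = ⊥ ∨ W' = W) ∧ Nat.card A ∣ p ^ Module.finrank (ZMod p) W - 1 := by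
  classical
  have hA : ∀ a ∈ A, ∀ b ∈ A, a * b = b * a := fun a ha b hb =>
    congrArg Subtype.val (hAc.is_comm.comm (⟨a, ha⟩ : A) ⟨b, hb⟩)
  have hnt : Nontrivial V := by
    obtain ⟨W, hW, -, -⟩ := hI ⊥ inferInstance inferInstance
    obtain ⟨v, -, hv⟩ := Submodule.exists_mem_ne_zero_of_ne_bot hW
    exact ⟨⟨v, 0, hv⟩⟩
  have hcyc := Cfsg.Agent.H34.reg_abelian_cyclic H hreg A hA
  refine ⟨hcyc, ?_⟩
  obtain ⟨W1, hb, ht, hW1⟩ := hI A hAn hcyc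
  obtain ⟨v0, hv0W, hv0⟩ := Submodule.exists_mem_ne_zero_of_ne_bot hb
  obtain ⟨k, hk, hmin, hW⟩ := Cfsg.Agent.H34.exists_irr H hreg A
  obtain ⟨W0, hW0, hv0W0, hk0⟩ := hW v0 hv0
  have hfin : FiniteDimensional (ZMod p) V := inferInstance
  have hirr : ∀ W U : Submodule (ZMod p) V, Cfsg.Agent.H34.LInv A W → Module.finrank (ZMod p) W = k →
      Cfsg.Agent.H34.LInv A U → ∀ x ∈ W, x ∈ U → x ≠ 0 → W ≤ U := by
    intro W U hWi hWk hUi x hxW hxU hx0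
    have h1 : Cfsg.Agent.H34.LInv A (W ⊓ U) := fun a ha v hv => ⟨hWi a ha v hv.1, hUi a ha v hv.2⟩
    have h2 : W ⊓ U ≠ ⊥ := by
      intro h
      have : x ∈ (⊥ : Submodule (ZMod p) V) := h ▸ (⟨hxW, hxU⟩ : x ∈ W ⊓ U)
      exact hx0 ((Submodule.mem_bot _).mp this)
    have h3 := hmin _ h1 h2
    rw [← hWk] at h3
    have h4 := Submodule.eq_of_le_of_finrank_le inf_le_left h3
    rw [← h4]; exact inf_le_right
  have hW01 : W0 ≤ W1 := hirr W0 W1 hW0 hk0 hW1 v0 hv0W0 hv0W hv0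
  refine ⟨W0, ?_, ?_, hW0, ?_, Cfsg.Agent.H34.reg_abelian_card_dvd H hreg A hA W0 hW0⟩
  · intro h
    rw [h, Submodule.mem_bot] at hv0W0
    exact hv0 hv0W0
  · intro h
    apply ht
    rw [eq_top_iff, ← h]
    exact hW01
  · intro W' hW'le hW'
    by_cases hb' : W' = ⊥
    · exact Or.inl hb'
    · right
      obtain ⟨x, hx, hx0⟩ := Submodule.exists_mem_ne_zero_of_ne_bot hb'
      exact le_antisymm hW'le (hirr W0 W' hW0 hk0 hW' x (hW'le hx) hx hx0)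

end Cfsg.Agent.S0684
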