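import Cfsg.Statements.S0688
import Cfsg.Agent.FC.Near4

set_option autoImplicit false
open Cfsg

namespace Cfsg.Agent.S0688

/-- Degrees of the soluble exceptional sharply doubly transitive groups: if a solvable linear group over the prime field is regular on the non-zero vectors of `V` and has no irreducible cyclic normal subgroup, then `V` has 25, 49, 121 or 529 elements. -/
theorem result {p : ℕ} [Fact p.Prime] {V : Type*} [AddCommGroup V] [Module (ZMod p) V] [Finite V] (H : Subgroup (V ≃ₗ[ZMod p] V)) (hreg : ∀ v w : V, v ≠ 0 → w ≠ 0 → ∃! h : H, (h : V ≃ₗ[ZMod p] V) v = w) (hI : ∀ A : Subgroup H, A.Normal → IsCyclic A → ∃ W : Submodule (ZMod p) V, W ≠ ⊥ ∧ W ≠ ⊤ ∧ ∀ a ∈ A, ∀ v ∈ W, ((a : H) : V ≃ₗ[ZMod p] V) v ∈ W) (hsolv : Group.IsSolvable H) : Nat.card V = 25 ∨ Nat.card V = 49 ∨ Nat.card V = 121 ∨ Nat.card V = 529 := by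
  have hV : Nontrivial V := by
    obtain ⟨W, h0, h1, -⟩ := hI ⊥ inferInstance inferInstance
    by_contra hcon
    rw [not_nontrivial_iff_subsingleton] at hcon
    apply h0
    rw [Submodule.eq_bot_iff]
    intro x _
    exact Subsingleton.elim _ _
  obtain ⟨A, hAn, hAc, hAmax⟩ := FC.exists_max_abelian (G := H)
  haveI := hAn
  have hC := FC.near_centralizer hreg hI A hAn hAc hAmax
  obtain ⟨N, hNn, hNle, hNna, hNmin⟩ := FC.exists_min_nonabelian _ hC
  have hN : Nonempty (N ≃* QuaternionGroup 2) := by
    rcases FC.near_min (FC.Reg.hasFPFModule hreg) A hAn hAc hAmax N hNn hNle hNna hNmin with h | ⟨h, -⟩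
    · exact h
    · exfalso
      apply h
      haveI := hsolv
      infer_instance
  obtain ⟨q, hq, hVq, hq24, hirr, -⟩ := FC.near_irred hreg A hAn hAmax N hNn hNle hNna (Or.inl hN)
  have h24 := hq24 hN
  obtain ⟨e⟩ := hN
  have hN8 : Nat.card N = 8 := by
    rw [Nat.card_congr e.toEquiv, Nat.card_eq_fintype_card, QuaternionGroup.card]
  have h8 : 8 ∣ Nat.card H := by rw [← hN8]; exact Subgroup.card_subgroup_dvd_card N
  have hcard := FC.Reg.card hreg
  have hlist : ∀ m ∈ Finset.range 24, m + 1 ∣ 24 → 8 ∣ m * m - 1 → m ∈ ({0, 1, 3, 5, 7, 11, 23} : Finset ℕ) := by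
    decide +kernel
  have hlt := Nat.le_of_dvd (by norm_num) h24
  have h1 := hlist q (Finset.mem_range.mpr (by omega)) h24 (by
    have : q * q - 1 = Nat.card H := by omega
    rw [this]; exact h8)
  simp only [Finset.mem_insert, Finset.mem_singleton] at h1
  have hq2 := hq.two_le
  have h1 : q = 3 ∨ q = 5 ∨ q = 7 ∨ q = 11 ∨ q = 23 := by omega
  rcases h1 with h | h | h | h | h
  · exfalso
    rw [h] at hVq
    have hH8 : Nat.card H = 8 := by omega
    -- a cyclic normal subgroup of order 4
    let x : N := e.symm (QuaternionGroup.a 1)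
    have hx : orderOf x = 4 := by
      show orderOf (e.symm (QuaternionGroup.a 1)) = 4
      rw [MulEquiv.orderOf_eq, QuaternionGroup.orderOf_a_one]
    have hx4 : Nat.card (Subgroup.zpowers (x : H)) = 4 := by
      rw [Nat.card_zpowers, Subgroup.orderOf_coe, hx]
    have hidx : (Subgroup.zpowers (x : H)).index = 2 := by
      have h2 := (Subgroup.zpowers (x : H)).card_mul_index
      rw [hx4, hH8] at h2
      omega
    have hn : (Subgroup.zpowers (x : H)).Normal := Subgroup.normal_of_index_eq_two hidx
    obtain ⟨W, hW0, hW1, hWx⟩ := hI _ hn inferInstance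
    have hW3 : Nat.card W = 3 := by
      have h2 : Nat.card W ∣ 3 * 3 := by
        rw [← hVq]
        exact AddSubgroup.card_addSubgroup_dvd_card W.toAddSubgroup
      have h3 : Nat.card W ∈ Nat.divisors 9 := Nat.mem_divisors.mpr ⟨h2, by norm_num⟩
      have h4 : ∀ m ∈ Nat.divisors 9, m = 1 ∨ m = 3 ∨ m = 9 := by decide +kernel
      rcases h4 _ h3 with h5 | h5 | h5
      · exfalso
        apply hW0
        rw [Submodule.eq_bot_iff]
        intro x hx
        have h6 : Subsingleton W := (Nat.card_eq_one_iff_unique.mp h5).1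
        exact congrArg Subtype.val (Subsingleton.elim (⟨x, hx⟩ : W) 0)
      · exact h5
      · exfalso
        apply hW1
        have h6 : W.toAddSubgroup = ⊤ := by
          apply AddSubgroup.eq_top_of_card_eq
          have h7 : Nat.card W = Nat.card V := by rw [h5, hVq]
          exact h7
        rw [eq_top_iff]
        intro x _
        have h7 : x ∈ W.toAddSubgroup := by rw [h6]; trivial
        exact h7
    have h2 := FC.Reg.card_dvd hreg _ W hWx
    rw [hx4, hW3] at h2
    omega
  · left; rw [hVq, h]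
  · right; left; rw [hVq, h]
  · right; right; left; rw [hVq, h]
  · right; right; right; rw [hVq, h]

end Cfsg.Agent.S0688
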