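import Cfsg.Statements.S3359
import Cfsg.Agent.FC.Struct5

set_option autoImplicit false
open Cfsg

namespace Cfsg.Agent.S3359

/-- Structure of non-solvable Frobenius complements. Let G be a finite non-solvable group that occurs as a Frobenius complement. Then G has a normal subgroup G₀ of index 1 or 2 which is the direct product of a subgroup isomorphic to SL(2,5) and a subgroup M of order prime to 30 all of whose Sylow subgroups are cyclic. -/
theorem result {G : Type*} [Group G] [Finite G] (hns : ¬ Group.IsSolvable G)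
    (hFC : ∃ (L : Type) (_ : Group L) (_ : Finite L) (H : Subgroup L), Cfsg.IsFrobeniusComplement H ∧ Nonempty (G ≃* H)) :
    ∃ G₀ : Subgroup G, G₀.Normal ∧ (G₀.index = 1 ∨ G₀.index = 2) ∧
      ∃ S M : Subgroup G, S ⊔ M = G₀ ∧ S ⊓ M = ⊥ ∧ (∀ s ∈ S, ∀ x ∈ M, s * x = x * s) ∧
        Nonempty (S ≃* Matrix.SpecialLinearGroup (Fin 2) (ZMod 5)) ∧
        (∀ (p : ℕ) [Fact p.Prime] (P : Sylow p M), IsCyclic P) ∧ (Nat.card M).Coprime 30 := by
  have h := FC.hasFPFModule_of_FC hFC
  obtain ⟨e⟩ := FC.K3_iso_of_not_solvable h hns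
  obtain ⟨Ψ, hker, hmap⟩ := FC.exists_hom_perm5 (FC.K3 G) e
  obtain ⟨M, hMC, hCM, hM30⟩ := FC.exists_odd_part h e
  have hoddM : Odd (Nat.card M) := by
    have h1 : (Nat.card M).Coprime 2 := Nat.Coprime.coprime_dvd_right (by norm_num : 2 ∣ 30) hM30
    exact (Nat.coprime_two_right).mp h1
  have hG0 : FC.K3 G ⊔ M = (Equiv.Perm.sign.comp Ψ).ker := by
    apply le_antisymm
    · rw [sup_le_iff]
      constructor
      · intro k hk
        have h1 : Ψ k ∈ (FC.K3 G).map Ψ := ⟨k, hk, rfl⟩
        rw [hmap] at h1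
        exact h1
      · intro m hm
        have h1 : m ∈ Ψ.ker := by rw [hker]; exact hMC hm
        rw [MonoidHom.mem_ker, MonoidHom.comp_apply, MonoidHom.mem_ker.mp h1, map_one]
    · intro g hg
      have h1 : Ψ g ∈ (FC.K3 G).map Ψ := by
        rw [hmap]; exact hg
      obtain ⟨k, hk, hkg⟩ := h1
      have h2 : k⁻¹ * g ∈ Subgroup.centralizer ((FC.K3 G : Subgroup G) : Set G) := by
        rw [← hker, MonoidHom.mem_ker, map_mul, map_inv, hkg, inv_mul_cancel]
      have h3 : g = k * (k⁻¹ * g) := by group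
      rw [h3]
      exact mul_mem (Subgroup.mem_sup_left hk) (hCM h2)
  refine ⟨(Equiv.Perm.sign.comp Ψ).ker, inferInstance, ?_, FC.K3 G, M, hG0, ?_, ?_, ⟨e⟩, ?_, hM30⟩
  · have h1 : (Equiv.Perm.sign.comp Ψ).ker.index ∣ 2 := by
      rw [Subgroup.index_ker]
      have h2 := Subgroup.card_subgroup_dvd_card (Equiv.Perm.sign.comp Ψ).range
      have h3 : Nat.card ℤˣ = 2 := by rw [Nat.card_eq_fintype_card]; rfl
      rwa [h3] at h2
    exact (Nat.dvd_prime Nat.prime_two).mp h1
  · -- trivial intersection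
    have hcop : (Nat.card (FC.K3 G)).Coprime (Nat.card M) := by
      have h1 : Nat.card (FC.K3 G) = 120 := by
        rw [Nat.card_congr e.toEquiv]; exact S3378.card_SL5
      rw [h1]
      have h2 : (120 : ℕ) = 30 * 4 := by norm_num
      rw [h2]
      apply Nat.Coprime.mul_left hM30.symm
      have h3 : (4 : ℕ) = 2 ^ 2 := by norm_num
      rw [h3]
      exact Nat.Coprime.pow_left 2 ((Nat.coprime_two_left).mpr hoddM)
    exact Subgroup.inf_eq_bot_of_coprime hcop
  · intro s hs x hx
    exact Subgroup.mem_centralizer_iff.mp (hMC hx) s hs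
  · intro p hp P
    exact (FC.zgroup_of_odd (h.subgroup M) hoddM).isZGroup p hp.out P

end Cfsg.Agent.S3359
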