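import Cfsg.Statements.S0689
import Cfsg.Agent.FC.Near3
import Cfsg.Agent.FC.Red2
import Cfsg.Agent.S3359

set_option autoImplicit false
open Cfsg

namespace Cfsg.Agent.S0689

/-- The insoluble sharply doubly transitive groups: a non-solvable linear group over the prime field that is regular on the non-zero vectors of `V` occurs only for `|V| = 11², 29², 59²`, and is `SL(2,5) × C_m` with `m = 1, 7, 29` respectively. -/
theorem result {p : ℕ} [Fact p.Prime] {V : Type*} [AddCommGroup V] [Module (ZMod p) V] [Finite V] (H : Subgroup (V ≃ₗ[ZMod p] V)) (hreg : ∀ v w : V, v ≠ 0 → w ≠ 0 → ∃! h : H, (h : V ≃ₗ[ZMod p] V) v = w) (hsolv : ¬ Group.IsSolvable H) : (Nat.card V = 121 ∧ Nonempty (H ≃* Matrix.SpecialLinearGroup (Fin 2) (ZMod 5))) ∨ (Nat.card V = 841 ∧ Nonempty (H ≃* Matrix.SpecialLinearGroup (Fin 2) (ZMod 5) × Multiplicative (ZMod 7))) ∨ (Nat.card V = 3481 ∧ Nonempty (H ≃* Matrix.SpecialLinearGroup (Fin 2) (ZMod 5) × Multiplicative (ZMod 29))) := by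
  have hV : Nontrivial V := by
    by_contra hcon
    rw [not_nontrivial_iff_subsingleton] at hcon
    apply hsolv
    apply Group.isSolvable_of_comm
    intro a b
    apply Subtype.ext
    apply LinearEquiv.ext
    intro v
    exact Subsingleton.elim _ _
  haveI : Nontrivial H := by
    by_contra hcon
    rw [not_nontrivial_iff_subsingleton] at hcon
    apply hsolv
    apply Group.isSolvable_of_comm
    intro a b
    exact Subsingleton.elim _ _
  have hFPF := FC.Reg.hasFPFModule hreg
  have hFC : FC.FC H := FC.fc_of_hasMat (FC.hasMat_of_hasFPFModule hFPF)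
  obtain ⟨G₀, hG₀n, hG₀i, S, M, hSM, hSMb, hcomm, ⟨e⟩, -, hM30⟩ := S3359.result hsolv hFC
  -- the half space
  obtain ⟨i, j, hi2, hi4, hjj, hij⟩ := FC.quat_rels_of_equiv e FC.quat_rels_sl5
  obtain ⟨U, hU, hU1, hUC, hcard, hidx⟩ := FC.Reg.half_of_normal hreg S i.2 j.2 (fun h => hi2 (Subtype.ext h))
    (congrArg Subtype.val hi4) (congrArg Subtype.val hjj) (congrArg Subtype.val hij)
  have hMC : M ≤ Subgroup.centralizer (S : Set H) := by
    intro m hm
    rw [Subgroup.mem_centralizer_iff]
    intro s hs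
    exact hcomm s hs m hm
  have hidxM := hidx M hMC
  -- the product map
  have hcomm' : ∀ (s : S) (m : M), Commute (S.subtype s) (M.subtype m) := fun s m => hcomm s s.2 m m.2
  let f : S × M →* H := MonoidHom.noncommCoprod S.subtype M.subtype hcomm'
  have hfinj : Function.Injective f := by
    rw [injective_iff_map_eq_one]
    rintro ⟨s, m⟩ h
    have h1 : (s : H) * (m : H) = 1 := h
    have h2 : (s : H) = (m : H)⁻¹ := eq_inv_of_mul_eq_one_left h1
    have h3 : (s : H) ∈ S ⊓ M := ⟨s.2, by rw [h2]; exact M.inv_mem m.2⟩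
    rw [hSMb, Subgroup.mem_bot] at h3
    have h4 : (m : H) = 1 := by
      rw [h3, one_mul] at h1
      exact h1
    exact Prod.ext (Subtype.ext h3) (Subtype.ext h4)
  have hfrange : f.range = G₀ := by
    rw [← hSM]
    show (MonoidHom.noncommCoprod S.subtype M.subtype hcomm').range = _
    rw [MonoidHom.noncommCoprod_range, Subgroup.range_subtype, Subgroup.range_subtype]
  have hS120 : Nat.card S = 120 := by rw [Nat.card_congr e.toEquiv]; exact S3378.card_SL5
  have hG₀card : Nat.card G₀ = 120 * Nat.card M := by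
    rw [← hfrange, ← hS120, ← Nat.card_prod]
    exact (Nat.card_congr (MonoidHom.ofInjective hfinj).toEquiv).symm
  have hHcard : Nat.card H = 120 * Nat.card M * G₀.index := by
    rw [← hG₀card, Subgroup.card_mul_index]
  have hMidx : M.index = 120 * G₀.index := by
    have h1 := M.card_mul_index
    have h2 : 0 < Nat.card M := Nat.card_pos
    apply Nat.eq_of_mul_eq_mul_left h2
    rw [h1, hHcard]
    ring
  have h240 : Nat.card U + 1 ∣ 240 := by
    rw [hMidx] at hidxM
    rcases hG₀i with h | h <;> rw [h] at hidxM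
    · exact hidxM.trans (by norm_num)
    · exact hidxM
  obtain ⟨k, hk⟩ := FC.card_submodule U
  have h120 : 120 ∣ Nat.card U * Nat.card U - 1 := by
    rw [← hcard, hHcard, mul_assoc]
    exact Dvd.intro _ rfl
  have hquot : (Nat.card U * Nat.card U - 1) / 120 = Nat.card M * G₀.index := by
    rw [← hcard, hHcard, mul_assoc]
    exact Nat.mul_div_cancel_left _ (by norm_num)
  have hMpos : 0 < Nat.card M := Nat.card_pos
  have hM2 : ¬ 2 ∣ Nat.card M := by
    intro h
    have h1 := Nat.dvd_gcd h (by norm_num : 2 ∣ 30)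
    rw [hM30] at h1
    omega
  have hM3 : ¬ 3 ∣ Nat.card M := by
    intro h
    have h1 := Nat.dvd_gcd h (by norm_num : 3 ∣ 30)
    rw [hM30] at h1
    omega
  have h4 : ¬ 4 ∣ (Nat.card U * Nat.card U - 1) / 120 := by
    rw [hquot]
    intro h
    rcases hG₀i with h1 | h1 <;> rw [h1] at h
    · exact hM2 (by omega)
    · exact hM2 (by omega)
  have hq := FC.num120 (Fact.out : p.Prime) hk hU1 h240 h120 h4
  -- when the index is one
  have hiso : G₀.index = 1 → Nonempty (H ≃* S × M) := by
    intro h1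
    have h2 : G₀ = ⊤ := Subgroup.index_eq_one.mp h1
    rw [h2] at hfrange
    exact ⟨(MulEquiv.ofBijective f ⟨hfinj, MonoidHom.range_eq_top.mp hfrange⟩).symm⟩
  have hcyc : ∀ r : ℕ, r.Prime → Nat.card M = r → Nonempty (M ≃* Multiplicative (ZMod r)) := by
    intro r hr hMr
    haveI : Fact r.Prime := ⟨hr⟩
    have hc : IsCyclic M := isCyclic_of_prime_card hMr
    have h1 := zmodCyclicMulEquiv hc
    rw [hMr] at h1
    exact ⟨h1.symm⟩
  rcases hq with h | h | h | h
  · left
    rw [h] at hquot hU
    have h1 : Nat.card M * G₀.index = 1 := by rw [← hquot]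
    have hM1 : Nat.card M = 1 := Nat.eq_one_of_mul_eq_one_right h1
    have hi1 : G₀.index = 1 := Nat.eq_one_of_mul_eq_one_left h1
    refine ⟨by rw [hU], ?_⟩
    obtain ⟨e1⟩ := hiso hi1
    haveI : Unique M := by
      have := (Nat.card_eq_one_iff_unique.mp hM1)
      exact (this.2.some |> fun x => @Unique.mk' _ ⟨x⟩ this.1)
    exact ⟨(e1.trans MulEquiv.prodUnique).trans e⟩
  · exfalso
    rw [h] at hquot
    have h1 : Nat.card M * G₀.index = 3 := by rw [← hquot]
    rcases hG₀i with h2 | h2 <;> rw [h2] at h1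
    · exact hM3 (by omega)
    · omega
  · right; left
    rw [h] at hquot hU
    have h1 : Nat.card M * G₀.index = 7 := by rw [← hquot]
    refine ⟨by rw [hU], ?_⟩
    rcases hG₀i with h2 | h2
    · rw [h2, mul_one] at h1
      obtain ⟨e1⟩ := hiso h2
      obtain ⟨e2⟩ := hcyc 7 (by norm_num) h1
      exact ⟨e1.trans (MulEquiv.prodCongr e e2)⟩
    · rw [h2] at h1
      omega
  · right; right
    rw [h] at hquot hU
    have h1 : Nat.card M * G₀.index = 29 := by rw [← hquot]
    refine ⟨by rw [hU], ?_⟩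
    rcases hG₀i with h2 | h2
    · rw [h2, mul_one] at h1
      obtain ⟨e1⟩ := hiso h2
      obtain ⟨e2⟩ := hcyc 29 (by norm_num) h1
      exact ⟨e1.trans (MulEquiv.prodCongr e e2)⟩
    · rw [h2] at h1
      omega

end Cfsg.Agent.S0689
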