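import Cfsg.Statements.S0691
import Cfsg.Agent.H34.GL2Code

set_option autoImplicit false
open Cfsg

namespace Cfsg.Agent.S0691

open Cfsg.Agent.H34

def gcodes : Fin 3 → ℕ := ![377, 45, 411]

def wordList : List (List (Fin 3)) := [[], [0], [1], [2], [0, 0], [0, 1], [0, 2], [1, 0], [1, 2], [2, 0], [2, 2], [0, 0, 0], [0, 0, 1], [0, 0, 2], [0, 1, 2], [0, 2, 2], [1, 2, 0], [1, 2, 2], [2, 0, 1], [2, 0, 2], [0, 0, 2, 2], [0, 1, 2, 2], [1, 2, 0, 2], [2, 0, 1, 2]]

theorem check_ok : check2 5 gcodes wordList = true := by decide +kernel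

theorem det_ok : ∀ i : Fin 3, (dec2 5 (gcodes i)).det = 1 := by decide +kernel

theorem fact5 : Fact (Nat.Prime 5) := ⟨by norm_num⟩

/-- An exceptional sharply doubly transitive group of degree 5^2: the listed matrices generate a subgroup of GL(2,5) of order 24 acting regularly on the non-zero vectors. -/
theorem result (A : Matrix.GeneralLinearGroup (Fin 2) (ZMod 5)) (B : Matrix.GeneralLinearGroup (Fin 2) (ZMod 5)) (C : Matrix.GeneralLinearGroup (Fin 2) (ZMod 5)) (hA : (A : Matrix (Fin 2) (Fin 2) (ZMod 5)) = !![2, 0; 0, -2]) (hB : (B : Matrix (Fin 2) (Fin 2) (ZMod 5)) = !![0, -1; 1, 0]) (hC : (C : Matrix (Fin 2) (Fin 2) (ZMod 5)) = !![1, 2; 1, -2]) : Nat.card (Subgroup.closure ({A, B, C} : Set (Matrix.GeneralLinearGroup (Fin 2) (ZMod 5)))) = 24 ∧ ∀ v w : Fin 2 → ZMod 5, v ≠ 0 → w ≠ 0 → ∃! h : Subgroup.closure ({A, B, C} : Set (Matrix.GeneralLinearGroup (Fin 2) (ZMod 5))), Matrix.mulVec ((h : Matrix.GeneralLinearGroup (Fin 2) (ZMod 5)) : Matrix (Fin 2) (Fin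 2) (ZMod 5)) v = w := by
  have hf := fact5
  let g : Fin 3 → Matrix.GeneralLinearGroup (Fin 2) (ZMod 5) := ![A, B, C]
  have hr : ({A, B, C} : Set (Matrix.GeneralLinearGroup (Fin 2) (ZMod 5))) = Set.range g := by
    ext x
    simp only [Set.mem_insert_iff, Set.mem_singleton_iff, Set.mem_range, g]
    constructor
    · rintro (rfl | rfl | rfl)
      · exact ⟨0, rfl⟩
      · exact ⟨1, rfl⟩
      · exact ⟨2, rfl⟩
    · rintro ⟨i, rfl⟩
      fin_cases i <;> simp
  have hg : ∀ i, (g i : Matrix (Fin 2) (Fin 2) (ZMod 5)) = dec2 5 (gcodes i) := by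
    intro i
    fin_cases i
    · show (A : Matrix (Fin 2) (Fin 2) (ZMod 5)) = _
      rw [hA]; decide
    · show (B : Matrix (Fin 2) (Fin 2) (ZMod 5)) = _
      rw [hB]; decide
    · show (C : Matrix (Fin 2) (Fin 2) (ZMod 5)) = _
      rw [hC]; decide
  have hcard := card_closure_gl2 5 g gcodes hg wordList check_ok
  rw [hr]
  have hlen : wordList.length = 24 := by decide
  rw [hlen] at hcard
  have hdet : ∀ h ∈ Subgroup.closure (Set.range g), (h : Matrix (Fin 2) (Fin 2) (ZMod 5)).det = 1 := by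
    intro h hh
    have hle : Subgroup.closure (Set.range g) ≤ (Matrix.GeneralLinearGroup.det (n := Fin 2) (R := ZMod 5)).ker := by
      rw [Subgroup.closure_le]
      rintro _ ⟨i, rfl⟩
      rw [SetLike.mem_coe, MonoidHom.mem_ker]
      apply Units.ext
      show ((g i : Matrix (Fin 2) (Fin 2) (ZMod 5))).det = 1
      rw [hg]
      exact det_ok i
    have := hle hh
    rw [MonoidHom.mem_ker] at this
    exact congrArg Units.val this
  have hsr := semiregular_sl2 5 (Subgroup.closure (Set.range g)) hdet (by rw [hcard]; decide)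
  exact ⟨hcard, (regular_of_semiregular 5 _ (by rw [hcard]; decide) hsr).2⟩

end Cfsg.Agent.S0691
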