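import Cfsg.Statements.S0694
import Mathlib

set_option autoImplicit false
open Cfsg

namespace Cfsg.Agent.S0694


lemma order_dvd_iff {q : ℕ} (hq : 2 ≤ q) {m i : ℕ} : orderOf (q : ZMod m) ∣ i ↔ m ∣ q ^ i - 1 := by
  rw [orderOf_dvd_iff_pow_eq_one, ← Nat.cast_pow, ← Nat.cast_one, ZMod.natCast_eq_natCast_iff,
    Nat.ModEq.comm, Nat.modEq_iff_dvd' (Nat.one_le_pow _ _ (by omega))]

lemma order_dvd_pow {q : ℕ} (hq : 2 ≤ q) {s k : ℕ} (hs : s.Prime) (hk : 0 < k) (hsq : s ∣ q - 1) :
    orderOf (q : ZMod (s ^ k)) ∣ s ^ (k - 1) := by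
  rw [order_dvd_iff hq]
  have h1 : (s : ℤ) ∣ (q : ℤ) - 1 := by
    have := Int.natCast_dvd_natCast.2 hsq
    rwa [Nat.cast_sub (by omega), Nat.cast_one] at this
  have h2 := dvd_sub_pow_of_dvd_sub h1 (k - 1)
  rw [one_pow, show k - 1 + 1 = k by omega] at h2
  have h3 : ((s ^ k : ℕ) : ℤ) ∣ ((q ^ s ^ (k - 1) - 1 : ℕ) : ℤ) := by
    rw [Nat.cast_sub (Nat.one_le_pow _ _ (by omega))]
    push_cast
    exact h2
  exact Int.natCast_dvd_natCast.1 h3

lemma lte {q : ℕ} (hq : 2 ≤ q) {r : ℕ} (hr : r.Prime) (hrq : r ∣ q - 1) (hgood : r ≠ 2 ∨ 4 ∣ q - 1)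
    {i : ℕ} (hi : 0 < i) : padicValNat r (q ^ i - 1) = padicValNat r (q - 1) + padicValNat r i := by
  have : Fact r.Prime := ⟨hr⟩
  have hrq' : ¬ r ∣ q := by
    intro h
    have h6 := (Nat.dvd_sub_iff_right (by omega : 1 ≤ q) h).1 hrq
    exact hr.one_lt.ne' (Nat.dvd_one.1 h6)
  by_cases h2 : r = 2
  · subst h2
    have h4 : 4 ∣ q - 1 := hgood.resolve_left (fun h => h rfl)
    have h5 : (4 : ℤ) ∣ (q : ℤ) - 1 := by
      have := Int.natCast_dvd_natCast.2 h4
      rwa [Nat.cast_sub (by omega), Nat.cast_one] at this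
    have h6 := Int.two_pow_sub_pow' i h5 (by omega)
    rw [one_pow] at h6
    have h7 : ((q : ℤ) ^ i - 1) = ((q ^ i - 1 : ℕ) : ℤ) := by
      rw [Nat.cast_sub (Nat.one_le_pow _ _ (by omega))]; push_cast; ring
    have h8 : ((q : ℤ) - 1) = ((q - 1 : ℕ) : ℤ) := by
      rw [Nat.cast_sub (by omega)]; push_cast; ring
    rw [h7, h8, show (2 : ℤ) = ((2 : ℕ) : ℤ) from rfl, Int.natCast_emultiplicity,
      Int.natCast_emultiplicity, Int.natCast_emultiplicity] at h6
    have hne : q ^ i - 1 ≠ 0 := by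
      have : 2 ^ 1 ≤ q ^ i := (Nat.pow_le_pow_left hq 1).trans (Nat.pow_le_pow_right (by omega) hi)
      omega
    rw [← padicValNat_eq_emultiplicity hne, ← padicValNat_eq_emultiplicity (by omega),
      ← padicValNat_eq_emultiplicity (by omega)] at h6
    exact_mod_cast h6
  · have := padicValNat.pow_sub_pow (hr.odd_of_ne_two h2) (y := 1) (x := q) (by omega) hrq hrq' (n := i) (by omega)
    rwa [one_pow] at this

lemma pow_sub_one_ne {q : ℕ} (hq : 2 ≤ q) {i : ℕ} (hi : 0 < i) : q ^ i - 1 ≠ 0 := by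
  have : 2 ^ 1 ≤ q ^ i := (Nat.pow_le_pow_left hq 1).trans (Nat.pow_le_pow_right (by omega) hi)
  omega

lemma dvd_of_cond {q n : ℕ} (hq : 2 ≤ q) (hn : 1 < n) (h1 : ∀ r : ℕ, r.Prime → r ∣ n → r ∣ q - 1)
    (h2 : 4 ∣ n → 4 ∣ q - 1) : n * (q - 1) ∣ q ^ n - 1 := by
  rw [Nat.dvd_iff_prime_pow_dvd_dvd]
  intro s k hs hsk
  have : Fact s.Prime := ⟨hs⟩
  rw [padicValNat_dvd_iff_le (pow_sub_one_ne hq (by omega))]
  rw [padicValNat_dvd_iff_le (Nat.mul_ne_zero (by omega) (by omega)),
    padicValNat.mul (by omega) (by omega)] at hsk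
  by_cases hsq : s ∣ q - 1
  · by_cases hgood : s ≠ 2 ∨ 4 ∣ q - 1
    · rw [lte hq hs hsq hgood (by omega)]; omega
    · push Not at hgood
      obtain ⟨rfl, h4⟩ := hgood
      have hv : padicValNat 2 (q - 1) ≤ 1 := by
        by_contra h
        push Not at h
        apply h4
        exact (padicValNat_dvd_iff_le (p := 2) (n := 2) (a := q - 1) (by omega)).2 (by omega)
      by_cases hev : Even n
      · have hge := padicValNat.pow_two_sub_one_ge (x := q) (n := n) (by omega) (by omega) (by omega) hev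
        omega
      · have h0 : padicValNat 2 n = 0 := padicValNat.eq_zero_of_not_dvd (by
          rw [← even_iff_two_dvd]; exact hev)
        have h5 : q - 1 ∣ q ^ n - 1 := by simpa using Nat.sub_dvd_pow_sub_pow q 1 n
        have h6 := padicValNat_dvd_iff_le (p := 2) (n := padicValNat 2 (q - 1)) (pow_sub_one_ne hq (by omega : 0 < n))
        have h7 := h6.1 (pow_padicValNat_dvd.trans h5)
        omega
  · have hsn : ¬ s ∣ n := fun h => hsq (h1 s hs h)
    have h3 : padicValNat s n = 0 := padicValNat.eq_zero_of_not_dvd hsn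
    have h4 : padicValNat s (q - 1) = 0 := padicValNat.eq_zero_of_not_dvd hsq
    omega

lemma cond_dvd {q n : ℕ} (hq : 2 ≤ q) (hn : 1 < n) (h1 : ∀ r : ℕ, r.Prime → r ∣ n → r ∣ q - 1)
    (h2 : 4 ∣ n → 4 ∣ q - 1) {i : ℕ} (hi : 0 < i) (h : n * (q - 1) ∣ q ^ i - 1) : n ∣ i := by
  rw [Nat.dvd_iff_prime_pow_dvd_dvd]
  intro r k hr hrk
  rcases Nat.eq_zero_or_pos k with rfl | hk
  · rw [pow_zero]; exact one_dvd _
  have hrn : r ∣ n := (dvd_pow_self r hk.ne').trans hrk
  have hrq := h1 r hr hrn
  have : Fact r.Prime := ⟨hr⟩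
  by_cases hgood : r ≠ 2 ∨ 4 ∣ q - 1
  · have h3 : r ^ (padicValNat r (n * (q - 1))) ∣ q ^ i - 1 := pow_padicValNat_dvd.trans h
    rw [padicValNat_dvd_iff_le (pow_sub_one_ne hq hi), padicValNat.mul (by omega) (by omega),
      lte hq hr hrq hgood hi] at h3
    rw [padicValNat_dvd_iff_le (by omega)] at hrk ⊢
    omega
  · push Not at hgood
    obtain ⟨rfl, h4⟩ := hgood
    have h4n : ¬ 4 ∣ n := fun h => h4 (h2 h)
    have hk1 : k = 1 := by
      by_contra hk1
      apply h4n
      exact (pow_dvd_pow 2 (by omega : 2 ≤ k)).trans hrk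
    subst hk1
    rw [pow_one]
    by_contra hodd
    have hodd' : Odd i := by rw [← Nat.not_even_iff_odd, even_iff_two_dvd]; exact hodd
    have h5 : 4 ∣ q ^ i - 1 := by
      refine dvd_trans ?_ h
      exact (mul_dvd_mul hrn hrq : 2 * 2 ∣ n * (q - 1))
    have hq3 : q % 4 = 3 := by omega
    have h6 : q ^ i % 4 = 3 := by
      obtain ⟨j, rfl⟩ := hodd'
      have hqq : q ^ 2 % 4 = 1 := by rw [Nat.pow_mod, hq3]
      rw [pow_succ, pow_mul, Nat.mul_mod, Nat.pow_mod, hqq, one_pow, hq3]
      norm_num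
    omega

/-- The Dickson pair condition: for a prime power `q` and `n > 1`, (every prime factor of `n` divides `q - 1`, and `4 ∣ n → 4 ∣ q - 1`) holds exactly when `q ^ n ≡ 1` modulo `n * (q - 1)` but `q ^ i` is not, for `0 < i < n`. -/
theorem result (q n : ℕ) (hq : IsPrimePow q) (hn : 1 < n) : ((∀ r : ℕ, r.Prime → r ∣ n → r ∣ q - 1) ∧ (4 ∣ n → 4 ∣ q - 1)) ↔ (q ^ n ≡ 1 [MOD n * (q - 1)] ∧ ∀ i : ℕ, 0 < i → i < n → ¬ q ^ i ≡ 1 [MOD n * (q - 1)]) := by
  have hq2 : 2 ≤ q := hq.two_le
  have hM : ∀ i : ℕ, q ^ i ≡ 1 [MOD n * (q - 1)] ↔ n * (q - 1) ∣ q ^ i - 1 := by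
    intro i
    rw [Nat.ModEq.comm, Nat.modEq_iff_dvd' (Nat.one_le_pow _ _ (by omega))]
  simp only [hM]
  constructor
  · rintro ⟨h1, h2⟩
    exact ⟨dvd_of_cond hq2 hn h1 h2, fun i hi hin h =>
      absurd (Nat.le_of_dvd hi (cond_dvd hq2 hn h1 h2 hi h)) (by omega)⟩
  · rintro ⟨h1, h2⟩
    have key : ∀ r : ℕ, r.Prime → r ∣ n → r ∣ q - 1 := by
      by_contra hcon
      push Not at hcon
      -- largest bad prime
      let S : Finset ℕ := n.primeFactors.filter (fun r => ¬ r ∣ q - 1)
      have hS : S.Nonempty := by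
        obtain ⟨r, hr, hrn, hrq⟩ := hcon
        exact ⟨r, Finset.mem_filter.2 ⟨Nat.mem_primeFactors.2 ⟨hr, hrn, by omega⟩, hrq⟩⟩
      obtain ⟨r, hrS, hrmax⟩ := S.exists_max_image id hS
      obtain ⟨hr', hrq⟩ := Finset.mem_filter.1 hrS
      obtain ⟨hr, hrn, -⟩ := Nat.mem_primeFactors.1 hr'
      obtain ⟨i, hi⟩ := hrn
      have hi0 : 0 < i := by
        rcases Nat.eq_zero_or_pos i with h | h
        · rw [h] at hi; omega
        · exact h
      refine h2 i hi0 (by rw [hi]; exact lt_mul_of_one_lt_left hi0 hr.one_lt) ?_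
      rw [Nat.dvd_iff_prime_pow_dvd_dvd]
      intro s k hs hsk
      rcases Nat.eq_zero_or_pos k with rfl | hk
      · rw [pow_zero]; exact one_dvd _
      have hsn : s ^ k ∣ q ^ n - 1 := hsk.trans h1
      rw [← order_dvd_iff hq2] at hsn ⊢
      set o := orderOf (q : ZMod (s ^ k)) with ho
      have hsM : s ∣ n * (q - 1) := (dvd_pow_self s hk.ne').trans hsk
      by_cases hsq : s ∣ q - 1
      · have h3 : o ∣ s ^ (k - 1) := order_dvd_pow hq2 hs hk hsq
        have hsr : s ≠ r := by rintro rfl; exact hrq hsq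
        have hcop : Nat.Coprime o r := by
          apply Nat.Coprime.coprime_dvd_left h3
          exact Nat.Coprime.pow_left _ ((Nat.coprime_primes hs hr).2 hsr)
        rw [hi] at hsn
        exact hcop.dvd_of_dvd_mul_left hsn
      · have hsn' : s ∣ n := (hs.dvd_mul.1 hsM).resolve_right hsq
        have hsS : s ∈ S := Finset.mem_filter.2 ⟨Nat.mem_primeFactors.2 ⟨hs, hsn', by omega⟩, hsq⟩
        have hle : s ≤ r := hrmax s hsS
        have h3 : o ∣ s ^ (k - 1) * (s - 1) := by
          have hcop : Nat.Coprime q (s ^ k) := by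
            apply Nat.Coprime.pow_right
            rw [Nat.coprime_comm, hs.coprime_iff_not_dvd]
            intro h
            have h4 : s ∣ q ^ n - 1 := hsM.trans h1
            have h5 : s ∣ q ^ n := dvd_pow h (by omega)
            have h6 := (Nat.dvd_sub_iff_right (Nat.one_le_pow _ _ (by omega)) h5).1 h4
            exact hs.one_lt.ne' (Nat.dvd_one.1 h6)
          rw [← Nat.totient_prime_pow hs hk]
          apply orderOf_dvd_of_pow_eq_one
          have := ZMod.pow_totient (ZMod.unitOfCoprime q hcop)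
          have h4 := congrArg Units.val this
          rw [Units.val_pow_eq_pow_val, ZMod.coe_unitOfCoprime, Units.val_one] at h4
          exact h4
        rcases eq_or_lt_of_le hle with rfl | hlt
        · -- s = r
          have hkn : s ^ k ∣ n := by
            have : Nat.Coprime (s ^ k) (q - 1) := Nat.Coprime.pow_left _ ((hs.coprime_iff_not_dvd).2 hrq)
            exact this.dvd_of_dvd_mul_right hsk
          have hki : s ^ (k - 1) ∣ i := by
            rw [hi, show k = (k - 1) + 1 by omega, pow_succ'] at hkn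
            exact Nat.dvd_of_mul_dvd_mul_left hs.pos hkn
          rw [Nat.dvd_iff_prime_pow_dvd_dvd]
          intro t j ht htj
          by_cases hts : t = s
          · subst hts
            have h4 : t ^ j ∣ t ^ (k - 1) * (t - 1) := htj.trans h3
            have hcop : Nat.Coprime (t ^ j) (t - 1) := by
              apply Nat.Coprime.pow_left
              rw [ht.coprime_iff_not_dvd]
              intro h
              have := Nat.le_of_dvd (by have := ht.two_le; omega) h
              have := ht.two_le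
              omega
            exact (hcop.dvd_of_dvd_mul_right h4).trans hki
          · have hcop : Nat.Coprime (t ^ j) s := Nat.Coprime.pow_left _ ((Nat.coprime_primes ht hs).2 hts)
            have h4 := htj.trans hsn
            rw [hi] at h4
            exact hcop.dvd_of_dvd_mul_left h4
        · have hcop : Nat.Coprime o r := by
            apply Nat.Coprime.coprime_dvd_left h3
            apply Nat.Coprime.mul_left
            · exact Nat.Coprime.pow_left _ ((Nat.coprime_primes hs hr).2 hlt.ne)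
            · rw [Nat.coprime_comm, hr.coprime_iff_not_dvd]
              intro h
              have := Nat.le_of_dvd (by have := hs.two_le; omega) h
              omega
          rw [hi] at hsn
          exact hcop.dvd_of_dvd_mul_left hsn
    refine ⟨key, fun h4n => ?_⟩
    by_contra h4q
    have h2n : 2 ∣ n := (by decide : 2 ∣ 4).trans h4n
    have h2q := key 2 Nat.prime_two h2n
    obtain ⟨i, hi⟩ := h2n
    have hi0 : 0 < i := by omega
    refine h2 i hi0 (by omega) ?_
    rw [Nat.dvd_iff_prime_pow_dvd_dvd]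
    intro s k hs hsk
    rcases Nat.eq_zero_or_pos k with rfl | hk
    · rw [pow_zero]; exact one_dvd _
    by_cases hs2 : s = 2
    · subst hs2
      have : Fact (Nat.Prime 2) := ⟨Nat.prime_two⟩
      have hieven : Even i := by rw [even_iff_two_dvd]; omega
      have hge := padicValNat.pow_two_sub_one_ge (x := q) (n := i) (by omega) (by omega) (by omega) hieven
      have hne : q ^ i - 1 ≠ 0 := by
        have : 2 ^ 1 ≤ q ^ i := (Nat.pow_le_pow_left hq2 1).trans (Nat.pow_le_pow_right (by omega) hi0)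
        omega
      rw [padicValNat_dvd_iff_le hne]
      rw [padicValNat_dvd_iff_le (Nat.mul_ne_zero (by omega) (by omega)),
        padicValNat.mul (by omega) (by omega), hi, padicValNat.mul (by omega) (by omega),
        padicValNat.self (by omega)] at hsk
      have hv : padicValNat 2 (q - 1) ≤ 1 := by
        by_contra h
        push Not at h
        apply h4q
        have := (padicValNat_dvd_iff_le (p := 2) (n := 2) (a := q - 1) (by omega)).2 (by omega)
        exact this
      omega
    · have hsM : s ∣ n * (q - 1) := (dvd_pow_self s hk.ne').trans hsk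
      have hsq : s ∣ q - 1 := by
        rcases hs.dvd_mul.1 hsM with h | h
        · exact key s hs h
        · exact h
      have hsn : s ^ k ∣ q ^ n - 1 := hsk.trans h1
      rw [← order_dvd_iff hq2] at hsn ⊢
      have h3 : orderOf (q : ZMod (s ^ k)) ∣ s ^ (k - 1) := order_dvd_pow hq2 hs hk hsq
      have hcop : Nat.Coprime (orderOf (q : ZMod (s ^ k))) 2 := by
        apply Nat.Coprime.coprime_dvd_left h3
        exact Nat.Coprime.pow_left _ ((Nat.coprime_primes hs Nat.prime_two).2 hs2)
      rw [hi] at hsn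
      exact hcop.dvd_of_dvd_mul_left hsn

end Cfsg.Agent.S0694
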