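import Cfsg.Statements.S0706
import Cfsg.Agent.H37.Generous

set_option autoImplicit false
open Cfsg

namespace Cfsg.Agent.S0706

/-- In a generously `k`-transitive permutation group, for a prime `p ≤ k` and a `k`-set `Γ`, there are no `p` points outside `Γ` lying in distinct orbits of the pointwise stabiliser of `Γ` all of length prime to `p` (at most `p - 1` such orbits). -/
theorem result {α : Type*} [Fintype α] [DecidableEq α] (G : Subgroup (Equiv.Perm α)) {k : ℕ} (hk : k < Fintype.card α) (hgen : ∀ s : Finset α, s.card = k + 1 → ∀ σ : Equiv.Perm ↥s, ∃ g ∈ G, ∀ x : ↥s, g (x : α) = σ x) {p : ℕ} (hp : p.Prime) (hpk : p ≤ k) (Γ : Finset α) (hΓ : Γ.card = k) (f : Fin p → α) (hf : ∀ i, f i ∉ Γ) (hdist : ∀ i j, i ≠ j → f j ∉ MulAction.orbit (fixingSubgroup G (Γ : Set α)) (f i)) : ∃ i, p ∣ Nat.card (MulAction.orbit (fixingSubgroup G (Γ : Set α)) (f i)) := by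
  classical
  by_contra hcon
  push Not at hcon
  have : Fact p.Prime := ⟨hp⟩
  have hgen' : H37.Generous G k := hgen
  -- the pointwise stabiliser
  let H : Subgroup G := fixingSubgroup G (Γ : Set α)
  have hH : ∀ g : G, g ∈ H ↔ ∀ x ∈ Γ, (g : Equiv.Perm α) x = x := fun g =>
    mem_fixingSubgroup_iff G
  -- a p-cycle on a p-subset of Γ
  obtain ⟨Γ₀, hΓ₀, hΓ₀c⟩ := Finset.exists_subset_card_eq (s := Γ) (n := p) (by omega)
  obtain ⟨c, hc1, hc2, hc3⟩ : ∃ c : Equiv.Perm α, (∀ x, x ∉ Γ₀ → c x = x) ∧ orderOf c = p ∧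
      (∀ x ∈ Γ, c x ∈ Γ) := by
    obtain ⟨x₀, hx₀⟩ : Γ₀.Nonempty := by rw [← Finset.card_pos, hΓ₀c]; exact hp.pos
    have hl := Γ₀.nodup_toList
    refine ⟨Γ₀.toList.formPerm, ?_, ?_, ?_⟩
    · intro x hx
      apply List.formPerm_apply_of_notMem
      simpa using hx
    · have h2 : 2 ≤ Γ₀.toList.length := by rw [Finset.length_toList, hΓ₀c]; exact hp.two_le
      have hcyc := List.isCycle_formPerm hl h2
      rw [hcyc.orderOf, List.support_formPerm_of_nodup _ hl (by
        intro x h; rw [h] at h2; simp at h2)]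
      simp [hΓ₀c]
    · intro x hx
      by_cases hx0 : x ∈ Γ₀
      · apply hΓ₀
        have := List.formPerm_apply_mem_of_mem (l := Γ₀.toList) (x := x) (by simpa using hx0)
        exact Finset.mem_toList.1 this
      · rw [List.formPerm_apply_of_notMem (by simpa using hx0)]; exact hx
  have hcz : ∀ n : ℤ, ∀ x ∈ Γ, (c ^ n) x ∈ Γ := by
    have hperm : ∀ x, x ∈ Γ ↔ c x ∈ Γ := by
      intro x
      refine ⟨hc3 x, fun h => ?_⟩
      have himg : Γ.image c = Γ := by
        apply Finset.eq_of_subset_of_card_le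
        · intro y hy
          obtain ⟨z, hz, rfl⟩ := Finset.mem_image.1 hy
          exact hc3 z hz
        · rw [Finset.card_image_of_injective _ c.injective]
      rw [← himg] at h
      obtain ⟨z, hz, hzx⟩ := Finset.mem_image.1 h
      rwa [← c.injective hzx]
    have hinv : ∀ x ∈ Γ, c⁻¹ x ∈ Γ := fun x hx => by rw [hperm]; simpa using hx
    intro n
    induction n using Int.induction_on with
    | zero => intro x hx; simpa using hx
    | succ n ih => intro x hx; rw [zpow_add_one, Equiv.Perm.mul_apply]; exact ih _ (hc3 x hx)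
    | pred n ih => intro x hx; rw [zpow_sub_one, Equiv.Perm.mul_apply]; exact ih _ (hinv x hx)
  -- the group L
  let L : Subgroup G :=
    { carrier := {g | ∃ n : ℤ, ∀ x ∈ Γ, (g : Equiv.Perm α) x = (c ^ n) x}
      one_mem' := ⟨0, fun x _ => by simp⟩
      mul_mem' := by
        rintro g h ⟨n, hn⟩ ⟨m, hm⟩
        refine ⟨n + m, fun x hx => ?_⟩
        rw [Subgroup.coe_mul, Equiv.Perm.mul_apply, hm x hx, hn _ (hcz m x hx), zpow_add,
          Equiv.Perm.mul_apply]
      inv_mem' := by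
        rintro g ⟨n, hn⟩
        refine ⟨-n, fun x hx => ?_⟩
        rw [InvMemClass.coe_inv, Equiv.Perm.inv_eq_iff_eq, hn _ (hcz (-n) x hx), ← Equiv.Perm.mul_apply,
          ← zpow_add]
        simp }
  have hHL : H ≤ L := fun g hg => ⟨0, fun x hx => by simpa using (hH g).1 hg x hx⟩
  -- elements g_i
  have hgi : ∀ i, ∃ g : G, (∀ x ∈ Γ, (g : Equiv.Perm α) x = c x) ∧ (g : Equiv.Perm α) (f i) = f i := by
    intro i
    have hs : (insert (f i) Γ).card = k + 1 := by rw [Finset.card_insert_of_notMem (hf i), hΓ]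
    have hcf : c (f i) = f i := hc1 _ (fun h => hf i (hΓ₀ h))
    have hmem : ∀ x, x ∈ insert (f i) Γ ↔ c x ∈ insert (f i) Γ := by
      intro x
      have hone : ∀ x, x ∈ insert (f i) Γ → c x ∈ insert (f i) Γ := by
        intro x hx
        rcases Finset.mem_insert.1 hx with rfl | hx
        · rw [hcf]; exact Finset.mem_insert_self _ _
        · exact Finset.mem_insert_of_mem (hc3 x hx)
      refine ⟨hone x, fun h => ?_⟩
      have himg : (insert (f i) Γ).image c = insert (f i) Γ := by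
        apply Finset.eq_of_subset_of_card_le
        · intro y hy
          obtain ⟨z, hz, rfl⟩ := Finset.mem_image.1 hy
          exact hone z hz
        · rw [Finset.card_image_of_injective _ c.injective]
      rw [← himg] at h
      obtain ⟨z, hz, hzx⟩ := Finset.mem_image.1 h
      rwa [← c.injective hzx]
    obtain ⟨g, hg, hgσ⟩ := hgen _ hs (c.subtypePerm (fun x => (hmem x).symm))
    refine ⟨⟨g, hg⟩, fun x hx => ?_, ?_⟩
    · exact hgσ ⟨x, Finset.mem_insert_of_mem hx⟩
    · rw [show ((⟨g, hg⟩ : G) : Equiv.Perm α) (f i) = g (f i) from rfl,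
        show g (f i) = c (f i) from hgσ ⟨f i, Finset.mem_insert_self _ _⟩, hcf]
  choose gi hgi1 hgi2 using hgi
  have hgiL : ∀ i, gi i ∈ L := fun i => ⟨1, fun x hx => by rw [zpow_one]; exact hgi1 i x hx⟩
  have hgz : ∀ i (n : ℤ), (∀ x ∈ Γ, ((gi i ^ n : G) : Equiv.Perm α) x = (c ^ n) x) ∧
      ((gi i ^ n : G) : Equiv.Perm α) (f i) = f i := by
    intro i n
    have hinv1 : ∀ x ∈ Γ, (((gi i)⁻¹ : G) : Equiv.Perm α) x = c⁻¹ x := by
      intro x hx
      rw [InvMemClass.coe_inv, Equiv.Perm.inv_eq_iff_eq]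
      have : c⁻¹ x ∈ Γ := by simpa using hcz (-1) x hx
      rw [hgi1 i _ this]; simp
    have hinv2 : (((gi i)⁻¹ : G) : Equiv.Perm α) (f i) = f i := by
      rw [InvMemClass.coe_inv, Equiv.Perm.inv_eq_iff_eq, hgi2]
    induction n using Int.induction_on with
    | zero => exact ⟨fun x _ => by simp, by simp⟩
    | succ n ih =>
      refine ⟨fun x hx => ?_, ?_⟩
      · rw [zpow_add_one, zpow_add_one, Subgroup.coe_mul, Equiv.Perm.mul_apply, Equiv.Perm.mul_apply,
          hgi1 i x hx]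
        exact ih.1 _ (hc3 x hx)
      · rw [zpow_add_one, Subgroup.coe_mul, Equiv.Perm.mul_apply, hgi2]; exact ih.2
    | pred n ih =>
      refine ⟨fun x hx => ?_, ?_⟩
      · rw [zpow_sub_one, zpow_sub_one, Subgroup.coe_mul, Equiv.Perm.mul_apply, Equiv.Perm.mul_apply,
          hinv1 x hx]
        exact ih.1 _ (by simpa using hcz (-1) x hx)
      · rw [zpow_sub_one, Subgroup.coe_mul, Equiv.Perm.mul_apply, hinv2]; exact ih.2
  -- H is normal in L
  have hnorm : ∀ l ∈ L, ∀ h ∈ H, l * h * l⁻¹ ∈ H := by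
    rintro l ⟨n, hn⟩ h hh
    rw [hH]
    intro x hx
    have hx' : (c ^ (-n)) x ∈ Γ := hcz (-n) x hx
    have h1 : ((l⁻¹ : G) : Equiv.Perm α) x = (c ^ (-n)) x := by
      rw [InvMemClass.coe_inv, Equiv.Perm.inv_eq_iff_eq, hn _ hx', ← Equiv.Perm.mul_apply, ← zpow_add]
      simp
    rw [Subgroup.coe_mul, Subgroup.coe_mul, Equiv.Perm.mul_apply, Equiv.Perm.mul_apply, h1,
      (hH h).1 hh _ hx', ← h1]
    simp
  have hi0 : 0 < p := hp.pos
  let i₀ : Fin p := ⟨0, hi0⟩
  -- p |H| divides |L|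
  have hdvd : p * Nat.card H ∣ Nat.card L := by
    have hN : (H.subgroupOf L).Normal := by
      refine ⟨fun h hh l => ?_⟩
      rw [Subgroup.mem_subgroupOf] at hh ⊢
      exact hnorm l l.2 h hh
    have h1 : orderOf (QuotientGroup.mk (s := H.subgroupOf L) (⟨gi i₀, hgiL i₀⟩ : L)) = p := by
      apply orderOf_eq_prime
      · rw [← QuotientGroup.mk_pow, QuotientGroup.eq_one_iff, Subgroup.mem_subgroupOf, hH]
        intro x hx
        have := (hgz i₀ p).1 x hx
        rw [zpow_natCast, zpow_natCast, ← hc2, pow_orderOf_eq_one] at this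
        rw [← hc2]
        exact this
      · rw [Ne, QuotientGroup.eq_one_iff, Subgroup.mem_subgroupOf, hH]
        intro h
        apply hp.one_lt.ne'
        rw [← hc2, orderOf_eq_one_iff]
        ext x
        by_cases hx : x ∈ Γ₀
        · rw [← hgi1 i₀ x (hΓ₀ hx)]; exact h x (hΓ₀ hx)
        · rw [hc1 x hx]; rfl
    have h2 : p ∣ Nat.card (L ⧸ H.subgroupOf L) := by
      rw [← h1]; exact orderOf_dvd_natCard _
    have h3 := Subgroup.card_eq_card_quotient_mul_card_subgroup (H.subgroupOf L)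
    rw [h3, Nat.card_congr (Subgroup.subgroupOfEquivOfLe hHL).toEquiv]
    exact mul_dvd_mul_right h2 _
  -- orbits are L-invariant
  have horb : ∀ i, ∀ l ∈ L, ∀ y ∈ MulAction.orbit H (f i), (l : Equiv.Perm α) y ∈ MulAction.orbit H (f i) := by
    rintro i l ⟨n, hn⟩ y ⟨h, rfl⟩
    -- l h = (l h g^{-n}) g^n
    have hgi' : gi i ^ (-n) ∈ L := L.zpow_mem (hgiL i) _
    have hl : l ∈ L := ⟨n, hn⟩
    refine ⟨⟨l * h * gi i ^ (-n), ?_⟩, ?_⟩
    · rw [hH]
      intro x hx
      rw [Subgroup.coe_mul, Subgroup.coe_mul, Equiv.Perm.mul_apply, Equiv.Perm.mul_apply,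
        (hgz i (-n)).1 x hx, (hH h).1 h.2 _ (hcz _ x hx), hn _ (hcz _ x hx), ← Equiv.Perm.mul_apply,
        ← zpow_add]
      simp
    · change ((l * h * gi i ^ (-n) : G) : Equiv.Perm α) (f i) = (l : Equiv.Perm α) (((h : G) : Equiv.Perm α) (f i))
      rw [Subgroup.coe_mul, Subgroup.coe_mul, Equiv.Perm.mul_apply, Equiv.Perm.mul_apply, (hgz i (-n)).2]
  -- Sylow subgroup of L
  obtain ⟨R⟩ : Nonempty (Sylow p L) := inferInstance
  let R' : Subgroup G := (R : Subgroup L).map L.subtype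
  have hR'L : R' ≤ L := Subgroup.map_subtype_le _
  have hR'p : IsPGroup p R' := R.2.map _
  have hfixO : ∀ i, ∃ y ∈ MulAction.orbit H (f i), ∀ r ∈ R', (r : Equiv.Perm α) y = y := by
    intro i
    let act : MulAction R' (MulAction.orbit H (f i)) :=
      { smul := fun r y => ⟨((r : G) : Equiv.Perm α) y, horb i r (hR'L r.2) y y.2⟩
        one_smul := fun y => Subtype.ext rfl
        mul_smul := fun r s y => Subtype.ext rfl }
    obtain ⟨y, hy⟩ := hR'p.nonempty_fixed_point_of_prime_not_dvd_card (MulAction.orbit H (f i)) (hcon i)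
    exact ⟨y, y.2, fun r hr => congrArg Subtype.val (hy ⟨r, hr⟩)⟩
  choose δ hδ1 hδ2 using hfixO
  have hδinj : Function.Injective δ := by
    intro i j hij
    by_contra hne
    apply hdist i j hne
    have h1 := hδ1 i
    have h2 := hδ1 j
    rw [← hij] at h2
    rw [← MulAction.orbit_eq_iff] at h1 h2
    rw [h1] at h2
    change f j ∈ MulAction.orbit H (f i)
    rw [h2]
    exact MulAction.mem_orbit_self _
  have hδΓ : ∀ i, δ i ∉ Γ := by
    intro i h
    obtain ⟨h', hh'⟩ := hδ1 i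
    have h1 : ((h' : G) : Equiv.Perm α) (f i) = δ i := hh'
    have h2 : ((h' : G) : Equiv.Perm α) (δ i) = δ i := (hH h').1 h'.2 _ h
    have h3 : f i = δ i := by
      apply ((h' : G) : Equiv.Perm α).injective
      rw [h1, h2]
    exact hf i (h3 ▸ h)
  -- k-set fixed by R'
  let Δ : Finset α := (Γ \ Γ₀) ∪ Finset.univ.image δ
  have hΔc : Δ.card = k := by
    rw [Finset.card_union_of_disjoint, Finset.card_sdiff_of_subset hΓ₀, Finset.card_image_of_injective _ hδinj, hΓ, hΓ₀c,
      Finset.card_univ, Fintype.card_fin]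
    · omega
    · rw [Finset.disjoint_left]
      intro x hx hx'
      obtain ⟨i, -, rfl⟩ := Finset.mem_image.1 hx'
      exact hδΓ i (Finset.mem_sdiff.1 hx).1
  have hR'Δ : ∀ r ∈ R', ∀ x ∈ Δ, (r : Equiv.Perm α) x = x := by
    intro r hr x hx
    rcases Finset.mem_union.1 hx with hx | hx
    · obtain ⟨n, hn⟩ := hR'L hr
      rw [Finset.mem_sdiff] at hx
      rw [hn x hx.1]
      have hcx : c x = x := hc1 x hx.2
      exact Equiv.Perm.zpow_apply_eq_self_of_apply_eq_self hcx n
    · obtain ⟨i, -, rfl⟩ := Finset.mem_image.1 hx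
      exact hδ2 i r hr
  -- conjugate into H
  obtain ⟨g₀, hg₀⟩ : ∃ g₀ : G, ∀ x ∈ Γ, (g₀ : Equiv.Perm α) x ∈ Δ := by
    have htr := hgen'.isMultiplyPretransitive hk
    let eΓ : Fin k ≃ Γ := (Finset.equivFinOfCardEq hΓ).symm
    let eΔ : Fin k ≃ Δ := (Finset.equivFinOfCardEq hΔc).symm
    obtain ⟨g, hg⟩ := htr.exists_smul_eq
      (⟨fun i => (eΓ i : α), fun i j h => eΓ.injective (Subtype.ext h)⟩ : Fin k ↪ α)
      (⟨fun i => (eΔ i : α), fun i j h => eΔ.injective (Subtype.ext h)⟩ : Fin k ↪ α)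
    refine ⟨g, fun x hx => ?_⟩
    have h1 : (g : Equiv.Perm α) (eΓ (eΓ.symm ⟨x, hx⟩)) = eΔ (eΓ.symm ⟨x, hx⟩) :=
      congrArg (fun e : Fin k ↪ α => e (eΓ.symm ⟨x, hx⟩)) hg
    rw [Equiv.apply_symm_apply] at h1
    change (g : Equiv.Perm α) x = _ at h1
    rw [h1]
    exact (eΔ _).2
  have hle : R'.map (MulAut.conj g₀⁻¹).toMonoidHom ≤ H := by
    rintro _ ⟨r, hr, rfl⟩
    rw [hH]
    intro x hx
    change ((g₀⁻¹ * r * (g₀⁻¹)⁻¹ : G) : Equiv.Perm α) x = x
    rw [inv_inv, Subgroup.coe_mul, Subgroup.coe_mul, Equiv.Perm.mul_apply, Equiv.Perm.mul_apply,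
      hR'Δ r hr _ (hg₀ x hx)]
    simp
  have hcardR : Nat.card R' = p ^ (Nat.card L).factorization p := by
    rw [Subgroup.card_map_of_injective L.subtype_injective, R.card_eq_multiplicity]
  have h1 : p ^ (Nat.card L).factorization p ∣ Nat.card H := by
    rw [← hcardR, ← Subgroup.card_map_of_injective (f := (MulAut.conj g₀⁻¹).toMonoidHom)
      (MulAut.conj g₀⁻¹).injective]
    exact Subgroup.card_dvd_of_le hle
  have hH0 : Nat.card H ≠ 0 := Nat.card_pos.ne'
  have hL0 : Nat.card L ≠ 0 := Nat.card_pos.ne'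
  have h2 : (Nat.card L).factorization p ≤ (Nat.card H).factorization p :=
    (hp.pow_dvd_iff_le_factorization hH0).1 h1
  have h3 : (p * Nat.card H).factorization p ≤ (Nat.card L).factorization p :=
    (Nat.factorization_le_iff_dvd (mul_ne_zero hp.ne_zero hH0) hL0).2 hdvd p
  rw [Nat.factorization_mul hp.ne_zero hH0] at h3
  simp only [Finsupp.coe_add, Pi.add_apply, hp.factorization_self] at h3
  omega

end Cfsg.Agent.S0706
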