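import Cfsg.Statements.S0699
import Mathlib
import Cfsg.Agent.H37.JordanNormal
import Cfsg.Agent.S0706

set_option autoImplicit false
open Cfsg

namespace Cfsg.Agent.S0699


/-- elementary form of 3-transitivity -/
lemma three_trans {α : Type*} {G : Subgroup (Equiv.Perm α)}
    (h : MulAction.IsMultiplyPretransitive G α 3) {a b c a' b' c' : α} (hab : a ≠ b) (hac : a ≠ c)
    (hbc : b ≠ c) (hab' : a' ≠ b') (hac' : a' ≠ c') (hbc' : b' ≠ c') :
    ∃ g ∈ G, g a = a' ∧ g b = b' ∧ g c = c' := by
  obtain ⟨g, hg⟩ := h.exists_smul_eq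
    (⟨![a, b, c], by intro i j h; fin_cases i <;> fin_cases j <;> simp_all⟩ : Fin 3 ↪ α)
    (⟨![a', b', c'], by intro i j h; fin_cases i <;> fin_cases j <;> simp_all⟩ : Fin 3 ↪ α)
  refine ⟨g, g.2, ?_, ?_, ?_⟩
  · exact congrArg (fun e : Fin 3 ↪ α => e 0) hg
  · exact congrArg (fun e : Fin 3 ↪ α => e 1) hg
  · exact congrArg (fun e : Fin 3 ↪ α => e 2) hg

/-- an odd set has a point fixed by a power of `g` swapping `a` and `b` -/
lemma exists_swap_fix {α : Type*} [Fintype α] [DecidableEq α] (hodd : Odd (Fintype.card α))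
    (h3 : 3 ≤ Fintype.card α) {a b : α} (hab : a ≠ b) {g : Equiv.Perm α} (h1 : g a = b) (h2 : g b = a) :
    ∃ (j : ℕ) (c : α), (g ^ j) a = b ∧ (g ^ j) b = a ∧ c ≠ a ∧ c ≠ b ∧ (g ^ j) c = c := by
  -- odd part of the order
  obtain ⟨k, m, hm, hkm⟩ := Nat.exists_eq_two_pow_mul_odd (n := orderOf g) (orderOf_pos g).ne'
  have hpow : ∀ j : ℕ, Odd j → (g ^ j) a = b ∧ (g ^ j) b = a := by
    have h4 : ∀ i : ℕ, (g ^ (2 * i)) a = a ∧ (g ^ (2 * i)) b = b := by
      intro i
      induction i with
      | zero => simp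
      | succ i ih =>
        rw [Nat.mul_succ, pow_add, Equiv.Perm.mul_apply, Equiv.Perm.mul_apply, pow_two,
          Equiv.Perm.mul_apply, Equiv.Perm.mul_apply, h1, h2, h1]
        exact ih
    rintro j ⟨i, rfl⟩
    rw [pow_succ, Equiv.Perm.mul_apply, Equiv.Perm.mul_apply, h1, h2]
    exact ⟨(h4 i).2, (h4 i).1⟩
  obtain ⟨hga, hgb⟩ := hpow m hm
  let s := g ^ m
  have hs : IsPGroup 2 (Subgroup.zpowers s) := by
    rw [IsPGroup.iff_card]
    refine ⟨k, ?_⟩
    rw [Nat.card_zpowers, orderOf_pow_of_dvd hm.pos.ne' (by rw [hkm]; exact dvd_mul_left _ _), hkm,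
      Nat.mul_div_cancel _ hm.pos]
  have hinv : ∀ t ∈ Subgroup.zpowers s, ∀ x : α, x ≠ a → x ≠ b → t x ≠ a ∧ t x ≠ b := by
    have hmem : ∀ t ∈ Subgroup.zpowers s, (t a = a ∧ t b = b) ∨ (t a = b ∧ t b = a) := by
      intro t ht
      have hle : Subgroup.zpowers s ≤
          { carrier := {t : Equiv.Perm α | (t a = a ∧ t b = b) ∨ (t a = b ∧ t b = a)}
            one_mem' := Or.inl ⟨rfl, rfl⟩
            mul_mem' := by
              rintro x y (⟨hx1, hx2⟩ | ⟨hx1, hx2⟩) (⟨hy1, hy2⟩ | ⟨hy1, hy2⟩)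
              · left; simp [hx1, hx2, hy1, hy2]
              · right; simp [hx1, hx2, hy1, hy2]
              · right; simp [hx1, hx2, hy1, hy2]
              · left; simp [hx1, hx2, hy1, hy2]
            inv_mem' := by
              rintro x (⟨hx1, hx2⟩ | ⟨hx1, hx2⟩)
              · left; exact ⟨by rw [Equiv.Perm.inv_eq_iff_eq, hx1], by rw [Equiv.Perm.inv_eq_iff_eq, hx2]⟩
              · right; exact ⟨by rw [Equiv.Perm.inv_eq_iff_eq, hx2], by rw [Equiv.Perm.inv_eq_iff_eq, hx1]⟩ } := by
        rw [Subgroup.zpowers_le]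
        exact Or.inr ⟨hga, hgb⟩
      exact hle ht
    intro t ht x hxa hxb
    rcases hmem t ht with ⟨h, h'⟩ | ⟨h, h'⟩
    · exact ⟨fun e => hxa (t.injective (e.trans h.symm)), fun e => hxb (t.injective (e.trans h'.symm))⟩
    · exact ⟨fun e => hxb (t.injective (e.trans h'.symm)), fun e => hxa (t.injective (e.trans h.symm))⟩
  let act : MulAction (Subgroup.zpowers s) {x : α // x ≠ a ∧ x ≠ b} :=
    { smul := fun t x => ⟨(t : Equiv.Perm α) x, hinv t t.2 x x.2.1 x.2.2⟩
      one_smul := fun x => Subtype.ext rfl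
      mul_smul := fun s t x => Subtype.ext rfl }
  have hcard : ¬ 2 ∣ Nat.card {x : α // x ≠ a ∧ x ≠ b} := by
    have h5 : Fintype.card {x : α // x ≠ a ∧ x ≠ b} = Fintype.card α - 2 := by
      rw [Fintype.card_subtype]
      have : (Finset.univ.filter (fun x : α => x ≠ a ∧ x ≠ b)) = ({a, b} : Finset α)ᶜ := by
        ext x; simp
      rw [this, Finset.card_compl, Finset.card_pair hab]
    rw [Nat.card_eq_fintype_card, h5]
    obtain ⟨r, hr⟩ := hodd
    omega
  obtain ⟨c, hc⟩ := hs.nonempty_fixed_point_of_prime_not_dvd_card {x : α // x ≠ a ∧ x ≠ b} hcard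
  exact ⟨m, c.1, hga, hgb, c.2.1, c.2.2, congrArg Subtype.val (hc ⟨s, Subgroup.mem_zpowers s⟩)⟩

theorem wagner_aux {α : Type*} [Fintype α] [DecidableEq α] (G N : Subgroup (Equiv.Perm α))
    (hnorm : ∀ g ∈ G, ∀ n ∈ N, g * n * g⁻¹ ∈ N) (hodd : Odd (Fintype.card α))
    (h5 : 5 ≤ Fintype.card α) (hG : MulAction.IsMultiplyPretransitive G α 3)
    (h2 : MulAction.IsMultiplyPretransitive N α 2) : MulAction.IsMultiplyPretransitive N α 3 := by
  -- swaps fixing a point
  have hswap : ∀ a b c : α, a ≠ b → a ≠ c → b ≠ c → ∃ n ∈ N, n a = b ∧ n b = a ∧ n c = c := by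
    intro a b c hab hac hbc
    obtain ⟨⟨g, hg⟩, hga, hgb⟩ := (MulAction.is_two_pretransitive_iff.1 h2) hab hab.symm
    obtain ⟨j, d, h1, h2, h3, h4, h5⟩ := exists_swap_fix hodd (by omega) hab (g := g) hga hgb
    obtain ⟨h, hh, h6, h7, h8⟩ := three_trans hG hab h3.symm h4.symm hab hac hbc
    refine ⟨h * g ^ j * h⁻¹, hnorm h hh _ (N.pow_mem hg j), ?_, ?_, ?_⟩
    · rw [Equiv.Perm.mul_apply, Equiv.Perm.mul_apply, show h⁻¹ a = a by rw [Equiv.Perm.inv_eq_iff_eq, h6],
        h1, h7]
    · rw [Equiv.Perm.mul_apply, Equiv.Perm.mul_apply, show h⁻¹ b = b by rw [Equiv.Perm.inv_eq_iff_eq, h7],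
        h2, h6]
    · rw [Equiv.Perm.mul_apply, Equiv.Perm.mul_apply, show h⁻¹ c = d by rw [Equiv.Perm.inv_eq_iff_eq, h8],
        h5, h8]
  -- generous 2-transitivity
  have hgen : ∀ s : Finset α, s.card = 2 + 1 → ∀ σ : Equiv.Perm ↥s, ∃ g ∈ N, ∀ x : ↥s, g (x : α) = σ x := by
    intro s hs
    let M : Subgroup (Equiv.Perm ↥s) :=
      { carrier := {σ | ∃ g ∈ N, ∀ x : ↥s, g (x : α) = σ x}
        one_mem' := ⟨1, N.one_mem, fun x => rfl⟩
        mul_mem' := by
          rintro σ τ ⟨g, hg, hg'⟩ ⟨h, hh, hh'⟩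
          exact ⟨g * h, N.mul_mem hg hh, fun x => by
            rw [Equiv.Perm.mul_apply, Equiv.Perm.mul_apply, hh', hg']⟩
        inv_mem' := by
          rintro σ ⟨g, hg, hg'⟩
          exact ⟨g⁻¹, N.inv_mem hg, fun x => by
            rw [Equiv.Perm.inv_eq_iff_eq, hg']; simp⟩ }
    have hM : M = ⊤ := by
      rw [eq_top_iff, ← Equiv.Perm.closure_isSwap, Subgroup.closure_le]
      rintro _ ⟨x, y, hxy, rfl⟩
      -- third point
      obtain ⟨z, hz⟩ : ∃ z : ↥s, z ≠ x ∧ z ≠ y := by
        have h1 : ({x, y} : Finset ↥s).card < (Finset.univ : Finset ↥s).card := by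
          rw [Finset.card_univ, Fintype.card_coe, hs, Finset.card_pair hxy]; omega
        obtain ⟨z, -, hz⟩ := Finset.exists_mem_notMem_of_card_lt_card h1
        exact ⟨z, by simpa [not_or] using hz⟩
      obtain ⟨n, hn, h1, h2, h3⟩ := hswap x y z (fun h => hxy (Subtype.ext h))
        (fun h => hz.1 (Subtype.ext h.symm)) (fun h => hz.2 (Subtype.ext h.symm))
      have hall : ∀ w : ↥s, w = x ∨ w = y ∨ w = z := by
        intro w
        by_contra hw
        push Not at hw
        have h4 : ({w, x, y, z} : Finset ↥s).card = 4 := by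
          rw [Finset.card_insert_of_notMem, Finset.card_insert_of_notMem, Finset.card_insert_of_notMem,
            Finset.card_singleton]
          all_goals simp [hw, hxy, hz.1.symm, hz.2.symm]
        have h5 := Finset.card_le_univ ({w, x, y, z} : Finset ↥s)
        rw [h4, Fintype.card_coe, hs] at h5
        omega
      refine ⟨n, hn, fun w => ?_⟩
      rcases hall w with rfl | rfl | rfl
      · rw [h1, Equiv.swap_apply_left]
      · rw [h2, Equiv.swap_apply_right]
      · rw [h3, Equiv.swap_apply_of_ne_of_ne hz.1 hz.2]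
    intro σ
    have : σ ∈ M := by rw [hM]; trivial
    exact this
  -- two point stabilizers are transitive
  have key : ∀ a b c d : α, a ≠ b → c ≠ a → c ≠ b → d ≠ a → d ≠ b → ∃ n ∈ N, n a = a ∧ n b = b ∧ n c = d := by
    intro a b c d hab hca hcb hda hdb
    by_contra hcon
    push Not at hcon
    let Γ : Finset α := {a, b}
    have hΓ : Γ.card = 2 := Finset.card_pair hab
    let D : Subgroup N := fixingSubgroup N (Γ : Set α)
    have hD : ∀ n : N, n ∈ D ↔ (n : Equiv.Perm α) a = a ∧ (n : Equiv.Perm α) b = b := by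
      intro n
      rw [mem_fixingSubgroup_iff]
      constructor
      · intro h
        exact ⟨h a (by simp [Γ]), h b (by simp [Γ])⟩
      · rintro ⟨h1, h2⟩ x hx
        have : x = a ∨ x = b := by simpa [Γ] using hx
        rcases this with rfl | rfl
        · exact h1
        · exact h2
    have hDY : ∀ n ∈ D, ∀ x : α, x ≠ a → x ≠ b → (n : Equiv.Perm α) x ≠ a ∧ (n : Equiv.Perm α) x ≠ b := by
      intro n hn x hxa hxb
      obtain ⟨h1, h2⟩ := (hD n).1 hn
      exact ⟨fun e => hxa ((n : Equiv.Perm α).injective (e.trans h1.symm)),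
        fun e => hxb ((n : Equiv.Perm α).injective (e.trans h2.symm))⟩
    -- an odd orbit
    obtain ⟨P⟩ : Nonempty (Sylow 2 D) := inferInstance
    let act : MulAction (P : Subgroup D) {x : α // x ≠ a ∧ x ≠ b} :=
      { smul := fun t x => ⟨((t : D) : N) • (x : α), hDY t.1.1 t.1.2 x x.2.1 x.2.2⟩
        one_smul := fun x => Subtype.ext rfl
        mul_smul := fun s t x => Subtype.ext rfl }
    have hcard : ¬ 2 ∣ Nat.card {x : α // x ≠ a ∧ x ≠ b} := by
      have h5' : Fintype.card {x : α // x ≠ a ∧ x ≠ b} = Fintype.card α - 2 := by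
        rw [Fintype.card_subtype]
        have : (Finset.univ.filter (fun x : α => x ≠ a ∧ x ≠ b)) = ({a, b} : Finset α)ᶜ := by
          ext x; simp
        rw [this, Finset.card_compl, Finset.card_pair hab]
      rw [Nat.card_eq_fintype_card, h5']
      obtain ⟨r, hr⟩ := hodd
      omega
    obtain ⟨y, hy⟩ := P.2.nonempty_fixed_point_of_prime_not_dvd_card {x : α // x ≠ a ∧ x ≠ b} hcard
    have hyodd : ¬ 2 ∣ Nat.card (MulAction.orbit D y.1) := by
      have h1 : (P : Subgroup D) ≤ MulAction.stabilizer D y.1 := by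
        intro t ht
        exact congrArg Subtype.val (hy ⟨t, ht⟩)
      have h2 : Nat.card (MulAction.orbit D y.1) = (MulAction.stabilizer D y.1).index :=
        (MulAction.index_stabilizer D y.1).symm
      rw [h2]
      have h3 := Subgroup.index_dvd_of_le h1
      intro h4
      exact P.not_dvd_index (h4.trans h3)
    -- all orbits are conjugate
    have hodd' : ∀ z : α, z ≠ a → z ≠ b → ¬ 2 ∣ Nat.card (MulAction.orbit D z) := by
      intro z hza hzb
      obtain ⟨g, hg, h1, h2, h3⟩ := three_trans hG hab y.2.1.symm y.2.2.symm hab hza.symm hzb.symm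
      have hg1 : g⁻¹ a = a := by rw [Equiv.Perm.inv_eq_iff_eq, h1]
      have hg2 : g⁻¹ b = b := by rw [Equiv.Perm.inv_eq_iff_eq, h2]
      have hg3 : g⁻¹ z = y.1 := by rw [Equiv.Perm.inv_eq_iff_eq, h3]
      have : Nat.card (MulAction.orbit D z) = Nat.card (MulAction.orbit D y.1) := by
        have himg : (MulAction.orbit D z) = g '' (MulAction.orbit D y.1) := by
          ext w
          constructor
          · rintro ⟨n, rfl⟩
            refine ⟨g⁻¹ ((n : N) • z), ⟨⟨⟨g⁻¹ * (n : N) * g, ?_⟩, ?_⟩, ?_⟩, by simp; rfl⟩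
            · have := hnorm g⁻¹ (G.inv_mem hg) (n : N) (n : N).2
              simpa using this
            · rw [hD]
              obtain ⟨h4, h5⟩ := (hD n).1 n.2
              constructor
              · change (g⁻¹ * ((n : N) : Equiv.Perm α) * g) a = a
                rw [Equiv.Perm.mul_apply, Equiv.Perm.mul_apply, h1, h4, hg1]
              · change (g⁻¹ * ((n : N) : Equiv.Perm α) * g) b = b
                rw [Equiv.Perm.mul_apply, Equiv.Perm.mul_apply, h2, h5, hg2]
            · change (g⁻¹ * ((n : N) : Equiv.Perm α) * g) y.1 = g⁻¹ (((n : N) : Equiv.Perm α) z)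
              rw [Equiv.Perm.mul_apply, Equiv.Perm.mul_apply, h3]
          · rintro ⟨_, ⟨n, rfl⟩, rfl⟩
            refine ⟨⟨⟨g * (n : N) * g⁻¹, hnorm g hg (n : N) (n : N).2⟩, ?_⟩, ?_⟩
            · rw [hD]
              obtain ⟨h4, h5⟩ := (hD n).1 n.2
              constructor
              · change (g * ((n : N) : Equiv.Perm α) * g⁻¹) a = a
                rw [Equiv.Perm.mul_apply, Equiv.Perm.mul_apply, hg1, h4, h1]
              · change (g * ((n : N) : Equiv.Perm α) * g⁻¹) b = b
                rw [Equiv.Perm.mul_apply, Equiv.Perm.mul_apply, hg2, h5, h2]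
            · change (g * ((n : N) : Equiv.Perm α) * g⁻¹) z = g (((n : N) : Equiv.Perm α) y.1)
              rw [Equiv.Perm.mul_apply, Equiv.Perm.mul_apply, hg3]
        rw [himg]
        exact Nat.card_image_of_injective g.injective _
      rw [this]; exact hyodd
    obtain ⟨i, hi⟩ := Cfsg.Agent.S0706.result N (k := 2) (by omega) hgen Nat.prime_two le_rfl Γ hΓ
      ![c, d] (by
        intro i
        fin_cases i
        · simp [Γ, hca, hcb]
        · simp [Γ, hda, hdb]) (by
        have hd1 : d ∉ MulAction.orbit D c := by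
          rintro ⟨n, hn⟩
          obtain ⟨h4, h5⟩ := (hD n).1 n.2
          exact hcon n (n : N).2 h4 h5 hn
        have hd2 : c ∉ MulAction.orbit D d := by
          intro h
          exact hd1 (MulAction.mem_orbit_symm.1 h)
        intro i j hij
        fin_cases i <;> fin_cases j
        · exact absurd rfl hij
        · exact hd1
        · exact hd2
        · exact absurd rfl hij)
    fin_cases i
    · exact hodd' c hca hcb hi
    · exact hodd' d hda hdb hi
  -- conclude
  rw [MulAction.isMultiplyPretransitive_iff]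
  intro x y
  have hx : ∀ i j, i ≠ j → x i ≠ x j := fun i j h h' => h (x.injective h')
  have hy : ∀ i j, i ≠ j → y i ≠ y j := fun i j h h' => h (y.injective h')
  obtain ⟨⟨g, hg⟩, hg0, hg1⟩ := (MulAction.is_two_pretransitive_iff.1 h2) (hx 0 1 (by decide)) (hy 0 1 (by decide))
  have hg0' : g (x 0) = y 0 := hg0
  have hg1' : g (x 1) = y 1 := hg1
  obtain ⟨n, hn, hn0, hn1, hn2⟩ := key (y 0) (y 1) (g (x 2)) (y 2) (hy 0 1 (by decide))
    (fun h => hx 2 0 (by decide) (g.injective (h.trans hg0'.symm)))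
    (fun h => hx 2 1 (by decide) (g.injective (h.trans hg1'.symm))) (hy 2 0 (by decide)) (hy 2 1 (by decide))
  refine ⟨⟨n * g, N.mul_mem hn hg⟩, ?_⟩
  ext i
  change n (g (x i)) = y i
  fin_cases i
  · change n (g (x 0)) = y 0
    rw [hg0', hn0]
  · change n (g (x 1)) = y 1
    rw [hg1', hn1]
  · exact hn2

/-- Wagner's Theorem: a non-trivial normal subgroup of a triply transitive permutation group of odd degree at least 5 is triply transitive. -/
theorem result {α : Type*} [Fintype α] [DecidableEq α] (G : Subgroup (Equiv.Perm α)) (hodd : Odd (Fintype.card α)) (h5 : 5 ≤ Fintype.card α) (hG : MulAction.IsMultiplyPretransitive G α 3) (N : Subgroup G) [N.Normal] (hN : N ≠ ⊥) : MulAction.IsMultiplyPretransitive N α 3 := by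
  classical
  rcases H37.jordan_normal G (k := 3) (by omega) (by omega) hG N hN with h | ⟨-, -, hsq⟩
  · -- pass to the image in the symmetric group
    have hN' := wagner_aux G (N.map G.subtype) (by
      rintro g hg _ ⟨n, hn, rfl⟩
      exact ⟨⟨g, hg⟩ * n * ⟨g, hg⟩⁻¹, (inferInstance : N.Normal).conj_mem n hn _, rfl⟩)
      hodd h5 hG (by
        rw [MulAction.isMultiplyPretransitive_iff] at h ⊢
        intro x y
        obtain ⟨n, hn⟩ := h x y
        exact ⟨⟨(n : G), ⟨n, n.2, rfl⟩⟩, hn⟩)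
    rw [MulAction.isMultiplyPretransitive_iff] at hN' ⊢
    intro x y
    obtain ⟨⟨_, ⟨n, hn, rfl⟩⟩, h'⟩ := hN' x y
    exact ⟨⟨n, hn⟩, h'⟩
  · exfalso
    have hprim : MulAction.IsPreprimitive G α := by
      have h2 : MulAction.IsMultiplyPretransitive G α 2 :=
        MulAction.isMultiplyPretransitive_of_le (n := 3) (by omega) (by
          rw [Nat.card_eq_fintype_card]; omega)
      exact MulAction.isPreprimitive_of_is_two_pretransitive h2
    have htr : MulAction.IsPretransitive N α := H37.normal_isPretransitive N hN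
    obtain ⟨m, hm⟩ := H37.card_of_sq hsq
    have hne : Nonempty α := by rw [← Fintype.card_pos_iff]; omega
    obtain ⟨a⟩ := hne
    have h1 := MulAction.index_stabilizer_of_transitive N a
    have h2 : Nat.card α ∣ Nat.card N := by
      rw [← h1]; exact Subgroup.index_dvd_card _
    rw [hm, Nat.card_eq_fintype_card, Nat.dvd_prime_pow Nat.prime_two] at h2
    obtain ⟨j, -, hj⟩ := h2
    rcases Nat.eq_zero_or_pos j with rfl | hj0
    · rw [pow_zero] at hj; omega
    · rw [hj] at hodd
      have : Even (2 ^ j) := (Nat.even_pow' (by omega)).2 (by decide)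
      exact (Nat.not_even_iff_odd.2 hodd) this

end Cfsg.Agent.S0699
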