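import Cfsg.Statements.S0700
import Mathlib
import Cfsg.Agent.H37.BurnsideTwo

set_option autoImplicit false
open Cfsg

namespace Cfsg.Agent.S0700

/-- Burnside's Theorem on doubly transitive groups: a minimal normal subgroup of a finite doubly transitive permutation group is elementary abelian and regular, or simple and primitive. -/
theorem result {α : Type*} [Fintype α] [DecidableEq α] (G : Subgroup (Equiv.Perm α)) (hG : MulAction.IsMultiplyPretransitive G α 2) (N : Subgroup G) [N.Normal] (hN : N ≠ ⊥) (hmin : ∀ M : Subgroup G, M.Normal → M ≤ N → M = ⊥ ∨ M = N) : (IsMulCommutative N ∧ (∃ p : ℕ, p.Prime ∧ ∀ n ∈ N, n ^ p = 1) ∧ ∀ a : α, MulAction.stabilizer N a = ⊥) ∨ (IsSimpleGroup N ∧ MulAction.IsPreprimitive N α) := by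
  have hG1 : Nontrivial G := by
    by_contra h
    rw [not_nontrivial_iff_subsingleton] at h
    exact hN (Subsingleton.elim _ _)
  have hX : 2 ≤ Nat.card α := by
    have h1 : Nontrivial α := by
      by_contra h
      rw [not_nontrivial_iff_subsingleton] at h
      obtain ⟨g, h', hne⟩ := hG1
      exact hne (Subtype.ext (Equiv.ext (fun x => Subsingleton.elim _ _)))
    exact Finite.one_lt_card_iff_nontrivial.2 h1
  exact H37.burnside_two_trans hX hG N hN hmin

end Cfsg.Agent.S0700
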