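import Cfsg.Statements.S0702
import Mathlib

set_option autoImplicit false
open Cfsg

namespace Cfsg.Agent.S0702

/-- For a transitive permutation group `G` on a finite set, the centraliser of `G` in the symmetric group is isomorphic to `N_G(G_ω)/G_ω`, and its orbit of `ω` is the set of fixed points of `G_ω`. -/
theorem result {α : Type*} [Finite α] (G : Subgroup (Equiv.Perm α)) [MulAction.IsPretransitive G α] (a : α) : Nonempty (Subgroup.centralizer (G : Set (Equiv.Perm α)) ≃* Subgroup.normalizer ((MulAction.stabilizer G a : Subgroup G) : Set G) ⧸ (MulAction.stabilizer G a).subgroupOf (Subgroup.normalizer ((MulAction.stabilizer G a : Subgroup G) : Set G))) ∧ MulAction.orbit (Subgroup.centralizer (G : Set (Equiv.Perm α))) a = MulAction.fixedPoints (MulAction.stabilizer G a) α := by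
  classical
  set S : Subgroup G := MulAction.stabilizer G a with hS
  have hsur : ∀ x : α, ∃ g : G, g • a = x := fun x => MulAction.exists_smul_eq G a x
  choose r hr using hsur
  -- normalizing elements
  have hnorm : ∀ n ∈ Subgroup.normalizer (S : Set G), ∀ s ∈ S, n * s * n⁻¹ ∈ S := fun n hn s hs =>
    (Subgroup.mem_normalizer_iff.1 hn s).1 hs
  have hwd : ∀ n ∈ Subgroup.normalizer (S : Set G), ∀ g h : G, g • a = h • a →
      g • n⁻¹ • a = h • n⁻¹ • a := by
    intro n hn g h hgh
    have h1 : h⁻¹ * g ∈ S := by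
      rw [hS, MulAction.mem_stabilizer_iff, mul_smul, hgh, inv_smul_smul]
    have h2 := hnorm n hn _ h1
    rw [hS, MulAction.mem_stabilizer_iff] at h2
    have h3 : h • n⁻¹ • (n * (h⁻¹ * g) * n⁻¹) • a = g • n⁻¹ • a := by
      rw [← mul_smul, ← mul_smul, ← mul_smul]
      congr 1; group
    rw [← h3, h2]
  let F : Subgroup.normalizer (S : Set G) →* Function.End α :=
    { toFun := fun n x => r x • (n : G)⁻¹ • a
      map_one' := by
        funext x
        change r x • ((1 : G))⁻¹ • a = x
        rw [inv_one, one_smul, hr]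
      map_mul' := by
        intro n m
        funext x
        change r x • ((n : G) * (m : G))⁻¹ • a = r (r x • (m : G)⁻¹ • a) • (n : G)⁻¹ • a
        have := hwd n n.2 (r (r x • (m : G)⁻¹ • a)) (r x * (m : G)⁻¹) (by rw [hr, mul_smul])
        rw [this, mul_inv_rev, mul_smul, mul_smul] }
  have hF : ∀ (n : Subgroup.normalizer (S : Set G)) (h : G), F n (h • a) = h • (n : G)⁻¹ • a := by
    intro n h
    exact hwd n n.2 _ _ (hr _)
  let P : Subgroup.normalizer (S : Set G) →* Equiv.Perm α := F.toHomPerm
  have hP : ∀ (n : Subgroup.normalizer (S : Set G)) (h : G), P n (h • a) = h • (n : G)⁻¹ • a := hF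
  have hPC : ∀ n, P n ∈ Subgroup.centralizer (G : Set (Equiv.Perm α)) := by
    intro n
    rw [Subgroup.mem_centralizer_iff]
    intro g hg
    ext x
    obtain ⟨h, rfl⟩ : ∃ h : G, h • a = x := ⟨r x, hr x⟩
    change g (P n (h • a)) = P n (g (h • a))
    rw [hP]
    have h1 : g (h • a) = ((⟨g, hg⟩ : G) * h) • a := rfl
    rw [h1, hP, mul_smul]
    rfl
  let Q : Subgroup.normalizer (S : Set G) →* Subgroup.centralizer (G : Set (Equiv.Perm α)) :=
    P.codRestrict _ hPC
  have hcomm : ∀ c ∈ Subgroup.centralizer (G : Set (Equiv.Perm α)), ∀ (g : G) (x : α),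
      c (g • x) = g • c x := by
    intro c hc g x
    have := Subgroup.mem_centralizer_iff.1 hc g g.2
    exact (congrArg (fun p : Equiv.Perm α => p x) this).symm
  have hnormof : ∀ g : G, (∀ s ∈ S, s • g • a = g • a) → g ∈ Subgroup.normalizer (S : Set G) := by
    intro g hg
    have h1 : g⁻¹ ∈ Subgroup.normalizer (S : Set G) := by
      apply Subgroup.mem_normalizer_fintype
      intro s hs
      change _ ∈ S
      rw [hS, MulAction.mem_stabilizer_iff, inv_inv, mul_smul, mul_smul, hg s hs, inv_smul_smul]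
    simpa using (Subgroup.normalizer (S : Set G)).inv_mem h1
  have hQsur : Function.Surjective Q := by
    rintro ⟨c, hc⟩
    obtain ⟨g, hg⟩ : ∃ g : G, g • a = c a := ⟨r (c a), hr _⟩
    have hgN : g ∈ Subgroup.normalizer (S : Set G) := by
      apply hnormof
      intro s hs
      rw [hg, ← hcomm c hc, MulAction.mem_stabilizer_iff.1 hs]
    refine ⟨⟨g, hgN⟩⁻¹, ?_⟩
    apply Subtype.ext
    ext x
    obtain ⟨h, rfl⟩ : ∃ h : G, h • a = x := ⟨r x, hr x⟩
    change P (⟨g, hgN⟩⁻¹) (h • a) = c (h • a)
    rw [hP, hcomm c hc, ← hg]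
    change h • (g⁻¹)⁻¹ • a = _
    rw [inv_inv]
  have hker : Q.ker = S.subgroupOf (Subgroup.normalizer (S : Set G)) := by
    ext n
    rw [MonoidHom.mem_ker, Subgroup.mem_subgroupOf]
    constructor
    · intro h
      have h1 : P n a = a := by
        have := congrArg (fun p : Subgroup.centralizer (G : Set (Equiv.Perm α)) => (p : Equiv.Perm α) a) h
        exact this
      have h2 := hP n 1
      rw [one_smul, one_smul, h1] at h2
      change (n : G) ∈ MulAction.stabilizer G a
      rw [MulAction.mem_stabilizer_iff]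
      nth_rewrite 1 [h2]
      rw [smul_inv_smul]
    · intro h
      apply Subtype.ext
      ext x
      obtain ⟨k, rfl⟩ : ∃ h : G, h • a = x := ⟨r x, hr x⟩
      change P n (k • a) = k • a
      rw [hP]
      have : (n : G)⁻¹ ∈ S := S.inv_mem h
      rw [MulAction.mem_stabilizer_iff.1 this]
  refine ⟨⟨?_⟩, ?_⟩
  · exact ((QuotientGroup.quotientMulEquivOfEq hker).symm.trans
      (QuotientGroup.quotientKerEquivOfSurjective Q hQsur)).symm
  · ext x
    constructor
    · rintro ⟨⟨c, hc⟩, rfl⟩
      intro s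
      have h1 : (s : G) • (c • a) = c • a := by
        change (s : G) • (c a) = c a
        rw [← hcomm c hc, MulAction.mem_stabilizer_iff.1 s.2]
      exact h1
    · intro hx
      obtain ⟨g, rfl⟩ : ∃ h : G, h • a = x := ⟨r x, hr x⟩
      have hgN : g ∈ Subgroup.normalizer (S : Set G) := by
        apply hnormof
        intro s hs
        exact hx ⟨s, hs⟩
      refine ⟨Q ⟨g, hgN⟩⁻¹, ?_⟩
      have h2 := hP (⟨g, hgN⟩⁻¹) 1
      rw [one_smul, one_smul] at h2
      change P (⟨g, hgN⟩⁻¹) a = _
      rw [h2]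
      change (g⁻¹)⁻¹ • a = _
      rw [inv_inv]

end Cfsg.Agent.S0702
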