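import Cfsg.Statements.S0703
import Cfsg.Agent.H37.PermBasic

set_option autoImplicit false
open Cfsg

namespace Cfsg.Agent.S0703

/-- An abelian transitive minimal normal subgroup `M` of a permutation group on a finite set is self-centralising in the symmetric group, regular, elementary abelian, and is the unique minimal normal subgroup. -/
theorem result {α : Type*} [Finite α] (G : Subgroup (Equiv.Perm α)) (M : Subgroup G) [M.Normal] (hM : M ≠ ⊥) (hmin : ∀ L : Subgroup G, L.Normal → L ≤ M → L = ⊥ ∨ L = M) (hab : IsMulCommutative M) (htrans : MulAction.IsPretransitive M α) : Subgroup.centralizer ((M.map G.subtype : Subgroup (Equiv.Perm α)) : Set (Equiv.Perm α)) = M.map G.subtype ∧ (∀ a : α, MulAction.stabilizer M a = ⊥) ∧ (∃ p : ℕ, p.Prime ∧ ∀ m ∈ M, m ^ p = 1) ∧ ∀ L : Subgroup G, L.Normal → L ≠ ⊥ → (∀ L' : Subgroup G, L'.Normal → L' ≤ L → L' = ⊥ ∨ L' = L) → L = M := by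
  classical
  have hMt : MulAction.IsPretransitive (M.map G.subtype : Subgroup (Equiv.Perm α)) α := by
    refine ⟨fun a b => ?_⟩
    obtain ⟨m, hm⟩ := htrans.exists_smul_eq a b
    exact ⟨⟨((m : G) : Equiv.Perm α), ⟨m, m.2, rfl⟩⟩, hm⟩
  have hne : Nonempty α := by
    by_contra h
    rw [not_nonempty_iff] at h
    apply hM
    rw [Subgroup.eq_bot_iff_forall]
    intro x _
    apply Subtype.ext
    ext y
    exact h.elim y
  have hab' : ∀ x ∈ M, ∀ y ∈ M, x * y = y * x := fun x hx y hy =>
    congrArg Subtype.val (hab.is_comm.comm ⟨x, hx⟩ ⟨y, hy⟩)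
  have hle : (M.map G.subtype : Subgroup (Equiv.Perm α)) ≤
      Subgroup.centralizer ((M.map G.subtype : Subgroup (Equiv.Perm α)) : Set (Equiv.Perm α)) := by
    rintro _ ⟨x, hx, rfl⟩
    rw [Subgroup.mem_centralizer_iff]
    rintro _ ⟨y, hy, rfl⟩
    rw [← map_mul, ← map_mul, hab' x hx y hy]
  have hcent := H37.centralizer_eq_of_transitive hMt hMt hle
  refine ⟨hcent, ?_, ?_, ?_⟩
  · intro a
    rw [Subgroup.eq_bot_iff_forall]
    intro m hm
    have hm' : ((m : G) : Equiv.Perm α) a = a := hm
    have := H37.centralizer_semiregular hMt (hle ⟨m, m.2, rfl⟩) hm'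
    exact Subtype.ext (Subtype.ext this)
  · -- exponent p
    obtain ⟨⟨x, hx⟩, hx'⟩ := (Subgroup.ne_bot_iff_exists_ne_one (H := M)).1 hM
    have hx1 : x ≠ 1 := fun h => hx' (Subtype.ext h)
    have hfin : IsOfFinOrder x := isOfFinOrder_of_finite x
    obtain ⟨p, hp, hpx⟩ := Nat.exists_prime_and_dvd (n := orderOf x)
      (fun h => hx1 (orderOf_eq_one_iff.1 h))
    refine ⟨p, hp, ?_⟩
    let Ω : Subgroup G :=
      { carrier := {m | m ∈ M ∧ m ^ p = 1}
        one_mem' := ⟨M.one_mem, one_pow p⟩
        mul_mem' := by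
          rintro a b ⟨ha, ha'⟩ ⟨hb, hb'⟩
          refine ⟨M.mul_mem ha hb, ?_⟩
          have hcomm : Commute a b := hab' a ha b hb
          rw [hcomm.mul_pow, ha', hb', one_mul]
        inv_mem' := by
          rintro a ⟨ha, ha'⟩
          exact ⟨M.inv_mem ha, by rw [inv_pow, ha', inv_one]⟩ }
    have hΩn : Ω.Normal := by
      refine ⟨fun m hm g => ⟨?_, ?_⟩⟩
      · exact Subgroup.Normal.conj_mem inferInstance m hm.1 g
      · rw [conj_pow, hm.2]; group
    have hΩ : Ω = M := by
      rcases hmin Ω hΩn (fun m hm => hm.1) with h | h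
      · exfalso
        have hmem : x ^ (orderOf x / p) ∈ Ω := by
          refine ⟨M.pow_mem hx _, ?_⟩
          rw [← pow_mul, Nat.div_mul_cancel hpx, pow_orderOf_eq_one]
        rw [h, Subgroup.mem_bot] at hmem
        have h1 := orderOf_dvd_of_pow_eq_one hmem
        have h2 : orderOf x / p < orderOf x := Nat.div_lt_self hfin.orderOf_pos hp.one_lt
        have h3 : 0 < orderOf x / p := Nat.div_pos (Nat.le_of_dvd hfin.orderOf_pos hpx) hp.pos
        exact absurd (Nat.le_of_dvd h3 h1) (not_le.2 h2)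
      · exact h
    intro m hm
    rw [← hΩ] at hm
    exact hm.2
  · intro L hL hLb hLmin
    by_contra hne'
    have := H37.inf_eq_bot_of_minimal hLmin hmin hne'
    have hLle : L ≤ M := by
      intro l hl
      have h1 : (l : Equiv.Perm α) ∈
          Subgroup.centralizer ((M.map G.subtype : Subgroup (Equiv.Perm α)) : Set (Equiv.Perm α)) := by
        rw [Subgroup.mem_centralizer_iff]
        rintro _ ⟨m, hm, rfl⟩
        exact (congrArg Subtype.val (H37.commute_of_inf_eq_bot this hl hm)).symm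
      rw [hcent] at h1
      obtain ⟨m, hm, hml⟩ := h1
      rwa [show l = m from Subtype.ext hml.symm]
    apply hLb
    rw [← this]
    exact (inf_eq_left.2 hLle).symm

end Cfsg.Agent.S0703
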