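import Cfsg.Statements.S0704
import Cfsg.Agent.H37.PermBasic

set_option autoImplicit false
open Cfsg

namespace Cfsg.Agent.S0704

/-- Two distinct transitive minimal normal subgroups `M`, `N` of a permutation group are regular, non-abelian, isomorphic, each other's centraliser in the symmetric group, and the only minimal normal subgroups. -/
theorem result {α : Type*} (G : Subgroup (Equiv.Perm α)) (M N : Subgroup G) [M.Normal] [N.Normal] (hM : M ≠ ⊥) (hN : N ≠ ⊥) (hMmin : ∀ L : Subgroup G, L.Normal → L ≤ M → L = ⊥ ∨ L = M) (hNmin : ∀ L : Subgroup G, L.Normal → L ≤ N → L = ⊥ ∨ L = N) (hMN : M ≠ N) (hMt : MulAction.IsPretransitive M α) (hNt : MulAction.IsPretransitive N α) : (∀ a : α, MulAction.stabilizer M a = ⊥) ∧ (∀ a : α, MulAction.stabilizer N a = ⊥) ∧ ¬ IsMulCommutative M ∧ Nonempty (M ≃* N) ∧ Subgroup.centralizer ((M.map G.subtype : Subgroup (Equiv.Perm α)) : Set (Equiv.Perm α)) = N.map G.subtype ∧ Subgroup.centralizer ((N.map G.subtype : Subgroup (Equiv.Perm α)) : Set (Equiv.Perm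 α)) = M.map G.subtype ∧ ∀ L : Subgroup G, L.Normal → L ≠ ⊥ → (∀ L' : Subgroup G, L'.Normal → L' ≤ L → L' = ⊥ ∨ L' = L) → L = M ∨ L = N := by
  classical
  have hne : Nonempty α := by
    by_contra h
    rw [not_nonempty_iff] at h
    apply hM
    rw [Subgroup.eq_bot_iff_forall]
    intro x _
    apply Subtype.ext
    ext y
    exact h.elim y
  have tr : ∀ K : Subgroup G, MulAction.IsPretransitive K α →
      MulAction.IsPretransitive (K.map G.subtype : Subgroup (Equiv.Perm α)) α := by
    intro K hK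
    refine ⟨fun a b => ?_⟩
    obtain ⟨m, hm⟩ := hK.exists_smul_eq a b
    exact ⟨⟨((m : G) : Equiv.Perm α), ⟨m, m.2, rfl⟩⟩, hm⟩
  have cent : ∀ K L : Subgroup G, K.Normal → L.Normal → K ⊓ L = ⊥ →
      (L.map G.subtype : Subgroup (Equiv.Perm α)) ≤
        Subgroup.centralizer ((K.map G.subtype : Subgroup (Equiv.Perm α)) : Set (Equiv.Perm α)) := by
    intro K L hK hL h
    rintro _ ⟨l, hl, rfl⟩
    rw [Subgroup.mem_centralizer_iff]
    rintro _ ⟨k, hk, rfl⟩
    exact congrArg Subtype.val (H37.commute_of_inf_eq_bot h hk hl)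
  have hinf : M ⊓ N = ⊥ := H37.inf_eq_bot_of_minimal hMmin hNmin hMN
  have hinf' : N ⊓ M = ⊥ := by rw [inf_comm]; exact hinf
  have c1 := H37.centralizer_eq_of_transitive (tr M hMt) (tr N hNt) (cent M N inferInstance inferInstance hinf)
  have c2 := H37.centralizer_eq_of_transitive (tr N hNt) (tr M hMt) (cent N M inferInstance inferInstance hinf')
  have reg : ∀ K L : Subgroup G, MulAction.IsPretransitive K α →
      (L.map G.subtype : Subgroup (Equiv.Perm α)) ≤
        Subgroup.centralizer ((K.map G.subtype : Subgroup (Equiv.Perm α)) : Set (Equiv.Perm α)) →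
      ∀ a : α, MulAction.stabilizer L a = ⊥ := by
    intro K L hK hKL a
    rw [Subgroup.eq_bot_iff_forall]
    intro m hm
    have hm' : ((m : G) : Equiv.Perm α) a = a := hm
    have := H37.centralizer_semiregular (tr K hK) (hKL ⟨m, m.2, rfl⟩) hm'
    exact Subtype.ext (Subtype.ext this)
  have rM := reg N M hNt (le_of_eq c2.symm)
  have rN := reg M N hMt (le_of_eq c1.symm)
  refine ⟨rM, rN, ?_, ?_, c1, c2, ?_⟩
  · intro hab
    apply hM
    rw [← hinf]
    symm
    rw [inf_eq_left]
    intro m hm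
    have h1 : (m : Equiv.Perm α) ∈
        Subgroup.centralizer ((M.map G.subtype : Subgroup (Equiv.Perm α)) : Set (Equiv.Perm α)) := by
      rw [Subgroup.mem_centralizer_iff]
      rintro _ ⟨x, hx, rfl⟩
      exact congrArg (fun y : M => ((y : G) : Equiv.Perm α)) (hab.is_comm.comm ⟨x, hx⟩ ⟨m, hm⟩)
    rw [c1] at h1
    obtain ⟨n, hn, hnm⟩ := h1
    rwa [show m = n from Subtype.ext hnm.symm]
  · obtain ⟨a⟩ := hne
    have hex : ∀ m : M, ∃ n : N, ((n : G) : Equiv.Perm α) a = (((m : G) : Equiv.Perm α))⁻¹ a := by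
      intro m
      obtain ⟨n, hn⟩ := hNt.exists_smul_eq a ((((m : G) : Equiv.Perm α))⁻¹ a)
      exact ⟨n, hn⟩
    choose f hf using hex
    have uniq : ∀ K : Subgroup G, (∀ a : α, MulAction.stabilizer K a = ⊥) → ∀ x y : K,
        ((x : G) : Equiv.Perm α) a = ((y : G) : Equiv.Perm α) a → x = y := by
      intro K hK x y hxy
      have : x⁻¹ * y ∈ MulAction.stabilizer K a := by
        change (((x⁻¹ * y : K) : G) : Equiv.Perm α) a = a
        simp only [Subgroup.coe_mul, InvMemClass.coe_inv, Equiv.Perm.mul_apply]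
        rw [← hxy]; simp
      rw [hK a, Subgroup.mem_bot] at this
      exact inv_mul_eq_one.1 this
    have hcomm : ∀ (m : M) (n : N) (x : α), ((m : G) : Equiv.Perm α) (((n : G) : Equiv.Perm α) x) =
        ((n : G) : Equiv.Perm α) (((m : G) : Equiv.Perm α) x) := by
      intro m n x
      have := H37.commute_of_inf_eq_bot hinf m.2 n.2
      exact congrArg (fun y : G => (y : Equiv.Perm α) x) this
    have hcomm' : ∀ (m : M) (n : N) (x : α), (((m : G) : Equiv.Perm α))⁻¹ (((n : G) : Equiv.Perm α) x) =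
        ((n : G) : Equiv.Perm α) ((((m : G) : Equiv.Perm α))⁻¹ x) := by
      intro m n x
      have := hcomm m⁻¹ n x
      simpa using this
    let F : M →* N := MonoidHom.mk' f (by
      intro x y
      apply uniq N rN
      rw [hf]
      simp only [Subgroup.coe_mul, Equiv.Perm.mul_apply, mul_inv_rev]
      rw [hf y, ← hcomm', hf x])
    refine ⟨MulEquiv.ofBijective F ⟨?_, ?_⟩⟩
    · intro x y hxy
      have h1 : f x = f y := hxy
      have h2 : (((x : G) : Equiv.Perm α))⁻¹ a = (((y : G) : Equiv.Perm α))⁻¹ a := by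
        rw [← hf x, ← hf y, h1]
      have h3 : x⁻¹ = y⁻¹ := by
        apply uniq M rM
        simpa using h2
      exact inv_injective h3
    · intro n
      obtain ⟨m, hm⟩ := hMt.exists_smul_eq a (((n : G) : Equiv.Perm α) a)
      refine ⟨m⁻¹, ?_⟩
      apply uniq N rN
      change ((f m⁻¹ : G) : Equiv.Perm α) a = _
      rw [hf]
      simp only [InvMemClass.coe_inv, inv_inv]
      exact hm
  · intro L hL hLb hLmin
    by_contra hcon
    push Not at hcon
    have h1 := H37.inf_eq_bot_of_minimal hMmin hLmin hcon.1.symm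
    have h2 := H37.inf_eq_bot_of_minimal hNmin hLmin hcon.2.symm
    have h3 := cent M L inferInstance hL h1
    rw [c1] at h3
    apply hLb
    rw [← h2]
    symm
    rw [inf_eq_right]
    intro l hl
    obtain ⟨n, hn, hnl⟩ := h3 ⟨l, hl, rfl⟩
    rwa [show l = n from Subtype.ext hnl.symm]

end Cfsg.Agent.S0704
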