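import Cfsg.Statements.S0707
import Cfsg.Agent.H37.PermBasic

set_option autoImplicit false
open Cfsg

namespace Cfsg.Agent.S0707

open scoped Pointwise in
/-- In a primitive permutation group, distinct points have distinct stabilisers unless the group is regular of prime degree. -/
theorem result {α : Type*} (G : Subgroup (Equiv.Perm α)) [MulAction.IsPreprimitive G α] (h : ¬ (Nat.card α).Prime ∨ ∃ a : α, MulAction.stabilizer G a ≠ ⊥) {a b : α} (hab : a ≠ b) : MulAction.stabilizer G a ≠ MulAction.stabilizer G b := by
  intro heq
  let B : Set α := {x | MulAction.stabilizer G x = MulAction.stabilizer G a}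
  have conj : ∀ (g : G) (x : α), MulAction.stabilizer G (g • x) =
      (MulAction.stabilizer G x).map (MulAut.conj g).toMonoidHom :=
    fun g x => MulAction.stabilizer_smul_eq_stabilizer_map_conj g x
  have hsub : ∀ g : G, (∃ x ∈ B, g • x ∈ B) → g • B ⊆ B := by
    rintro g ⟨x, hx, hgx⟩
    rintro _ ⟨y, hy, rfl⟩
    change MulAction.stabilizer G (g • y) = _
    rw [conj, show MulAction.stabilizer G y = MulAction.stabilizer G x from
      (show MulAction.stabilizer G y = MulAction.stabilizer G a from hy).trans
      (show MulAction.stabilizer G x = MulAction.stabilizer G a from hx).symm, ← conj]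
    exact hgx
  have hB : MulAction.IsBlock G B := by
    rw [MulAction.isBlock_iff_smul_eq_of_mem]
    intro g x hx hgx
    apply Set.Subset.antisymm (hsub g ⟨x, hx, hgx⟩)
    rw [Set.subset_smul_set_iff]
    exact hsub g⁻¹ ⟨g • x, hgx, by rwa [inv_smul_smul]⟩
  have huniv : B = Set.univ := by
    rcases MulAction.IsPreprimitive.isTrivialBlock_of_isBlock hB with h' | h'
    · exact absurd (h' (show a ∈ B from rfl) (show b ∈ B from heq.symm)) hab
    · exact h'
  have hreg : ∀ x : α, MulAction.stabilizer G x = ⊥ := by
    intro x
    rw [Subgroup.eq_bot_iff_forall]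
    intro g hg
    apply Subtype.ext
    ext y
    have hxB : x ∈ B := by rw [huniv]; trivial
    have hyB : y ∈ B := by rw [huniv]; trivial
    have : g ∈ MulAction.stabilizer G y := by
      rw [show MulAction.stabilizer G y = MulAction.stabilizer G x from
        (show MulAction.stabilizer G y = MulAction.stabilizer G a from hyB).trans
        (show MulAction.stabilizer G x = MulAction.stabilizer G a from hxB).symm]
      exact hg
    exact this
  rcases h with h | ⟨x, hx⟩
  · apply h
    have hnt : Nontrivial α := ⟨a, b, hab⟩
    have hco := MulAction.IsPreprimitive.isCoatom_stabilizer_of_isPreprimitive (G := G) a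
    rw [hreg a] at hco
    have htr : MulAction.IsPretransitive G α := inferInstance
    have hcard : Nat.card G = Nat.card α := by
      apply Nat.card_congr
      refine Equiv.ofBijective (fun g : G => g • a) ⟨?_, ?_⟩
      · intro g g' hgg
        have : g⁻¹ * g' ∈ MulAction.stabilizer G a := by
          rw [MulAction.mem_stabilizer_iff, mul_smul, inv_smul_eq_iff]; exact hgg.symm
        rw [hreg a, Subgroup.mem_bot] at this
        exact inv_mul_eq_one.1 this
      · intro y; exact htr.exists_smul_eq a y
    rw [← hcard]
    obtain ⟨g, hg⟩ := htr.exists_smul_eq a b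
    have hg1 : g ≠ 1 := by rintro rfl; rw [one_smul] at hg; exact hab hg
    have hz : Subgroup.zpowers g = ⊤ := by
      apply hco.2
      rw [bot_lt_iff_ne_bot]
      intro h'
      exact hg1 (Subgroup.zpowers_eq_bot.1 h')
    have hcyc : IsCyclic G := isCyclic_iff_exists_zpowers_eq_top.2 ⟨g, hz⟩
    let _ : CommGroup G := IsCyclic.commGroup
    have hsimple : IsSimpleGroup G := by
      have : Nontrivial G := ⟨g, 1, hg1⟩
      refine ⟨fun H _ => ?_⟩
      by_cases hH : H = ⊥
      · exact Or.inl hH
      · exact Or.inr (hco.2 H (bot_lt_iff_ne_bot.2 hH))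
    exact IsSimpleGroup.prime_card
  · exact hx (hreg x)

end Cfsg.Agent.S0707
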