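import Cfsg.Statements.S0708

import Cfsg.Agent.H7.SharpTrans

set_option autoImplicit false
open Cfsg

namespace Cfsg.Agent.S0708

open MulAction Cfsg.Agent.H7

/-- Tits' argument: a sharply 4-transitive group (no finiteness assumed) has finite degree at most 11, and at most 6 when the degree is even. -/
theorem result {G : Type*} [Group G] {Ω : Type*} [MulAction G Ω] (h4 : MulAction.IsMultiplyPretransitive G Ω 4) (hsharp : ∀ x : Fin 4 ↪ Ω, MulAction.stabilizer G x = ⊥) (hne : Nonempty (Fin 4 ↪ Ω)) : Finite Ω ∧ Nat.card Ω ≤ 11 ∧ (Even (Nat.card Ω) → Nat.card Ω ≤ 6) := by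
  classical
  have h : Sharp G Ω 4 := by
    constructor
    · intro x y hx hy
      obtain ⟨g, hg⟩ := h4.exists_smul_eq ⟨x, hx⟩ ⟨y, hy⟩
      exact ⟨g, fun i => DFunLike.congr_fun hg i⟩
    · intro x hx g hg
      have h1 : g ∈ stabilizer G (⟨x, hx⟩ : Fin 4 ↪ Ω) := by
        rw [mem_stabilizer_iff]
        ext i
        exact hg i
      rw [hsharp, Subgroup.mem_bot] at h1
      exact h1
  have ex : ∀ a b c d a' b' c' d' : Ω, a ≠ b → a ≠ c → a ≠ d → b ≠ c → b ≠ d → c ≠ d →
      a' ≠ b' → a' ≠ c' → a' ≠ d' → b' ≠ c' → b' ≠ d' → c' ≠ d' →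
      ∃ g : G, g • a = a' ∧ g • b = b' ∧ g • c = c' ∧ g • d = d' := by
    intro a b c d a' b' c' d' h1 h2 h3 h4 h5 h6 h1' h2' h3' h4' h5' h6'
    obtain ⟨g, hg⟩ := h.ex ![a, b, c, d] ![a', b', c', d'] (inj4 h1 h2 h3 h4 h5 h6)
      (inj4 h1' h2' h3' h4' h5' h6')
    exact ⟨g, hg 0, hg 1, hg 2, hg 3⟩
  have un : ∀ (a b c d : Ω) (g g' : G), a ≠ b → a ≠ c → a ≠ d → b ≠ c → b ≠ d → c ≠ d →
      g • a = g' • a → g • b = g' • b → g • c = g' • c → g • d = g' • d → g = g' := by
    intro a b c d g g' h1 h2 h3 h4 h5 h6 e1 e2 e3 e4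
    apply h.eq_of_agree ![a, b, c, d] (inj4 h1 h2 h3 h4 h5 h6)
    intro i
    fin_cases i
    · exact e1
    · exact e2
    · exact e3
    · exact e4
  obtain ⟨x0⟩ := hne
  have hx0 : ∀ i j : Fin 4, i ≠ j → x0 i ≠ x0 j := fun i j hij h => hij (x0.injective h)
  generalize hp : x0 0 = p at *
  generalize hq : x0 1 = q at *
  generalize ha : x0 2 = a at *
  generalize hb : x0 3 = b at *
  have hpq : p ≠ q := by rw [← hp, ← hq]; exact hx0 0 1 (by decide)
  have hpa : p ≠ a := by rw [← hp, ← ha]; exact hx0 0 2 (by decide)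
  have hpb : p ≠ b := by rw [← hp, ← hb]; exact hx0 0 3 (by decide)
  have hqa : q ≠ a := by rw [← hq, ← ha]; exact hx0 1 2 (by decide)
  have hqb : q ≠ b := by rw [← hq, ← hb]; exact hx0 1 3 (by decide)
  have hab : a ≠ b := by rw [← ha, ← hb]; exact hx0 2 3 (by decide)
  obtain ⟨z, zp, zq, za, zb⟩ := ex p q a b p q b a hpq hpa hpb hqa hqb hab hpq hpb hpa hqb hqa
    hab.symm
  have hzz : z * z = 1 := by
    apply un p q a b _ _ hpq hpa hpb hqa hqb hab
    · rw [mul_smul, zp, zp, one_smul]
    · rw [mul_smul, zq, zq, one_smul]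
    · rw [mul_smul, za, zb, one_smul]
    · rw [mul_smul, zb, za, one_smul]
  have zz : ∀ x : Ω, z • z • x = x := fun x => by rw [← mul_smul, hzz, one_smul]
  -- the involutions `w c`
  have exw : ∀ c : Ω, z • c ≠ c → c ≠ a → c ≠ b → ∃ w : G, w • a = a ∧ w • b = b ∧ w • c = z • c ∧
      w • z • c = c ∧ (∀ x : Ω, w • w • x = x) ∧ (∀ x : Ω, z • w • x = w • z • x) := by
    intro c hc hca hcb
    have h1 : a ≠ z • c := fun h => hcb (by rw [← zz c, ← h, za])
    have h2 : b ≠ z • c := fun h => hca (by rw [← zz c, ← h, zb])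
    obtain ⟨w, wa, wb, wc, wzc⟩ := ex a b c (z • c) a b (z • c) c hab hca.symm h1 hcb.symm h2 hc.symm
      hab h1 hca.symm h2 hcb.symm hc
    have hww : w * w = 1 := by
      apply un a b c (z • c) _ _ hab hca.symm h1 hcb.symm h2 hc.symm
      · rw [mul_smul, wa, wa, one_smul]
      · rw [mul_smul, wb, wb, one_smul]
      · rw [mul_smul, wc, wzc, one_smul]
      · rw [mul_smul, wzc, wc, one_smul]
    have hzw : z * w = w * z := by
      apply un a b c (z • c) _ _ hab hca.symm h1 hcb.symm h2 hc.symm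
      · rw [mul_smul, mul_smul, wa, za, wb]
      · rw [mul_smul, mul_smul, wb, zb, wa]
      · rw [mul_smul, mul_smul, wc, zz, wzc]
      · rw [mul_smul, mul_smul, wzc, zz, wc]
    exact ⟨w, wa, wb, wc, wzc, fun x => by rw [← mul_smul, hww, one_smul],
      fun x => by rw [← mul_smul, hzw, mul_smul]⟩
  have exw' : ∀ c : Ω, ∃ w : G, z • c ≠ c → c ≠ a → c ≠ b → w • a = a ∧ w • b = b ∧
      w • c = z • c ∧
      w • z • c = c ∧ (∀ x : Ω, w • w • x = x) ∧ (∀ x : Ω, z • w • x = w • z • x) := by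
    intro c
    by_cases hc : z • c ≠ c ∧ c ≠ a ∧ c ≠ b
    · obtain ⟨w, hw⟩ := exw c hc.1 hc.2.1 hc.2.2
      exact ⟨w, fun _ _ _ => hw⟩
    · exact ⟨1, fun h1 h2 h3 => absurd ⟨h1, h2, h3⟩ hc⟩
  choose w hw using exw'
  -- `w c` is not trivial on `{p, q}`
  have hnt : ∀ c : Ω, z • c ≠ c → c ≠ a → c ≠ b → w c • p = p → w c • q = q → False := by
    intro c hc hca hcb h1 h2
    obtain ⟨wa, wb, wc, wzc, ww, zw⟩ := hw c hc hca hcb
    have : w c = 1 := un p q a b _ _ hpq hpa hpb hqa hqb hab (by rw [h1, one_smul])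
      (by rw [h2, one_smul]) (by rw [wa, one_smul]) (by rw [wb, one_smul])
    rw [this, one_smul] at wc
    exact hc wc.symm
  -- fibres
  have hfib : ∀ c c' : Ω, z • c ≠ c → c ≠ a → c ≠ b → z • c' ≠ c' → c' ≠ a → c' ≠ b →
      w c • p = w c' • p → w c • q = w c' • q → c' = c ∨ c' = z • c := by
    intro c c' hc hca hcb hc' hca' hcb' h1 h2
    obtain ⟨wa, wb, wc, wzc, ww, zw⟩ := hw c hc hca hcb
    obtain ⟨wa', wb', wc', wzc', ww', zw'⟩ := hw c' hc' hca' hcb'
    have he : w c = w c' := un p q a b _ _ hpq hpa hpb hqa hqb hab h1 h2 (by rw [wa, wa'])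
      (by rw [wb, wb'])
    by_contra hcon
    push Not at hcon
    rw [← he] at wc' wzc'
    have h3 : z * w c = 1 := by
      apply un c (z • c) c' (z • c') _ _ hc.symm hcon.1.symm ?_ hcon.2.symm ?_ hc'.symm
      · rw [mul_smul, wc, zz, one_smul]
      · rw [mul_smul, wzc, one_smul]
      · rw [mul_smul, wc', zz, one_smul]
      · rw [mul_smul, wzc', one_smul]
      · intro h
        exact hcon.2 (by rw [h, zz])
      · intro h
        exact hcon.1 (MulAction.injective z h).symm
    have h4 : (z * w c) • a = a := by rw [h3, one_smul]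
    rw [mul_smul, wa, za] at h4
    exact hab h4.symm
  have hFw : ∀ c : Ω, z • c ≠ c → c ≠ a → c ≠ b → ∀ x : Ω, z • x = x → z • w c • x = w c • x := by
    intro c hc hca hcb x hx
    obtain ⟨wa, wb, wc, wzc, ww, zw⟩ := hw c hc hca hcb
    rw [zw, hx]
  by_cases hF : ∀ x : Ω, z • x = x → x = p ∨ x = q
  · -- exactly two fixed points
    have hcov : ∃ c0 : Ω, (Set.univ : Set Ω) ⊆ ({p, q, a, b, c0, z • c0} : Finset Ω) := by
      have hval : ∀ c : Ω, z • c ≠ c → c ≠ a → c ≠ b → w c • p = q ∧ w c • q = p := by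
        intro c hc hca hcb
        obtain ⟨wa, wb, wc, wzc, ww, zw⟩ := hw c hc hca hcb
        rcases hF _ (hFw c hc hca hcb p zp) with h1 | h1
        · exfalso
          rcases hF _ (hFw c hc hca hcb q zq) with h2 | h2
          · exact hpq (smul_left_cancel (w c) (by rw [h1, h2]))
          · exact hnt c hc hca hcb h1 h2
        · refine ⟨h1, ?_⟩
          rw [← h1, ww]
      by_cases hex : ∃ c : Ω, z • c ≠ c ∧ c ≠ a ∧ c ≠ b
      · obtain ⟨c, hc, hca, hcb⟩ := hex
        refine ⟨c, fun x _ => ?_⟩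
        by_cases hx : z • x = x
        · rcases hF x hx with rfl | rfl <;> simp
        · by_cases hxa : x = a
          · subst hxa; simp
          · by_cases hxb : x = b
            · subst hxb; simp
            · have h1 := hval c hc hca hcb
              have h2 := hval x hx hxa hxb
              rcases hfib c x hc hca hcb hx hxa hxb (by rw [h1.1, h2.1]) (by rw [h1.2, h2.2]) with
                rfl | rfl <;> simp
      · push Not at hex
        refine ⟨p, fun x _ => ?_⟩
        by_cases hx : z • x = x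
        · rcases hF x hx with rfl | rfl <;> simp
        · by_cases hxa : x = a
          · subst hxa; simp
          · have := hex x hx hxa
            subst this; simp
    obtain ⟨c0, hc0⟩ := hcov
    have hfin : Finite Ω := Set.finite_univ_iff.1 ((Finset.finite_toSet _).subset hc0)
    have hcard : Nat.card Ω ≤ 6 := by
      rw [← Set.ncard_univ]
      refine (Set.ncard_le_ncard hc0 (Finset.finite_toSet _)).trans ?_
      rw [Set.ncard_coe_finset]
      exact Finset.card_le_six
    exact ⟨hfin, by omega, fun _ => hcard⟩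
  · push Not at hF
    obtain ⟨r, zr, hrp, hrq⟩ := hF
    have hra : r ≠ a := fun h => hab (by rw [← h, ← zr, h, za])
    have hrb : r ≠ b := fun h => hab (by rw [← h, ← zr, h, zb])
    have hz1 : z ≠ 1 := fun h => hab (by rw [← za, h, one_smul])
    have hF3 : ∀ x : Ω, z • x = x → x = p ∨ x = q ∨ x = r := by
      intro x hx
      by_contra hcon
      push Not at hcon
      exact hz1 (un p q r x _ _ hpq hrp.symm hcon.1.symm hrq.symm hcon.2.1.symm hcon.2.2.symm
        (by rw [zp, one_smul]) (by rw [zq, one_smul]) (by rw [zr, one_smul])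
        (by rw [hx, one_smul]))
    have hval : ∀ c : Ω, z • c ≠ c → c ≠ a → c ≠ b → (w c • p = p ∧ w c • q = r) ∨
        (w c • p = q ∧ w c • q = p) ∨ (w c • p = r ∧ w c • q = q) := by
      intro c hc hca hcb
      obtain ⟨wa, wb, wc, wzc, ww, zw⟩ := hw c hc hca hcb
      have hq' := hF3 _ (hFw c hc hca hcb q zq)
      rcases hF3 _ (hFw c hc hca hcb p zp) with h1 | h1 | h1
      · left
        refine ⟨h1, ?_⟩
        rcases hq' with h2 | h2 | h2
        · exact absurd (smul_left_cancel (w c) (by rw [h1, h2])) hpq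
        · exact (hnt c hc hca hcb h1 h2).elim
        · exact h2
      · right; left
        refine ⟨h1, ?_⟩
        rw [← h1, ww]
      · right; right
        refine ⟨h1, ?_⟩
        have h3 : w c • r = p := by rw [← h1, ww]
        rcases hq' with h2 | h2 | h2
        · exact absurd (smul_left_cancel (w c) (by rw [h3, h2])) hrq
        · exact h2
        · exact absurd (smul_left_cancel (w c) (by rw [h1, h2])) hpq
    have hfibre : ∀ v v' : Ω, ∃ d : Ω, ∀ c, z • c ≠ c → c ≠ a → c ≠ b → w c • p = v →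
        w c • q = v' → c = d ∨ c = z • d := by
      intro v v'
      by_cases hex : ∃ c : Ω, z • c ≠ c ∧ c ≠ a ∧ c ≠ b ∧ w c • p = v ∧ w c • q = v'
      · obtain ⟨c, hc, hca, hcb, h1, h2⟩ := hex
        refine ⟨c, fun x hx hxa hxb h3 h4 => ?_⟩
        exact hfib c x hc hca hcb hx hxa hxb (by rw [h1, h3]) (by rw [h2, h4])
      · push Not at hex
        exact ⟨p, fun c hc hca hcb h3 h4 => absurd h4 (hex c hc hca hcb h3)⟩
    obtain ⟨d1, hd1⟩ := hfibre p r
    obtain ⟨d2, hd2⟩ := hfibre q p
    obtain ⟨d3, hd3⟩ := hfibre r q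
    have hcov : (Set.univ : Set Ω) ⊆
        (({p, q, r, a, b} ∪ {d1, z • d1, d2, z • d2, d3, z • d3} : Finset Ω) : Set Ω) := by
      intro x _
      by_cases hx : z • x = x
      · rcases hF3 x hx with rfl | rfl | rfl <;> simp
      · by_cases hxa : x = a
        · subst hxa; simp
        · by_cases hxb : x = b
          · subst hxb; simp
          · rcases hval x hx hxa hxb with ⟨h1, h2⟩ | ⟨h1, h2⟩ | ⟨h1, h2⟩
            · rcases hd1 x hx hxa hxb h1 h2 with rfl | rfl <;> simp
            · rcases hd2 x hx hxa hxb h1 h2 with rfl | rfl <;> simp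
            · rcases hd3 x hx hxa hxb h1 h2 with rfl | rfl <;> simp
    have hfin : Finite Ω := Set.finite_univ_iff.1 ((Finset.finite_toSet _).subset hcov)
    have hcard : Nat.card Ω ≤ 11 := by
      rw [← Set.ncard_univ]
      refine (Set.ncard_le_ncard hcov (Finset.finite_toSet _)).trans ?_
      rw [Set.ncard_coe_finset]
      refine (Finset.card_union_le _ _).trans ?_
      have h5 : ({p, q, r, a, b} : Finset Ω).card ≤ 5 := Finset.card_le_five
      have h6 : ({d1, z • d1, d2, z • d2, d3, z • d3} : Finset Ω).card ≤ 6 := Finset.card_le_six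
      omega
    refine ⟨hfin, hcard, fun heven => ?_⟩
    exfalso
    have := Fintype.ofFinite Ω
    have h7 := card_fx_add_mv (α := Ω) z
    have h8 := even_card_mv (α := Ω) hzz
    have h9 : fx (α := Ω) z = {p, q, r} := by
      ext x
      rw [mem_fx]
      simp only [Finset.mem_insert, Finset.mem_singleton]
      constructor
      · exact hF3 x
      · rintro (rfl | rfl | rfl)
        · exact zp
        · exact zq
        · exact zr
    rw [h9, Finset.card_eq_three.2 ⟨p, q, r, hpq, hrp.symm, hrq.symm, rfl⟩,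
      ← Nat.card_eq_fintype_card] at h7
    rw [Nat.even_iff] at heven h8
    omega

end Cfsg.Agent.S0708
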