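import Cfsg.Statements.S0721
import Cfsg.Agent.H37.MinNormal

set_option autoImplicit false
open Cfsg

namespace Cfsg.Agent.S0721

/-- A minimal normal subgroup of a finite group is isomorphic to a direct power `T ^ m` of a simple group `T` (possibly of prime order). -/
theorem result {H : Type*} [Group H] [Finite H] (N : Subgroup H) [N.Normal] (hN : N ≠ ⊥) (hmin : ∀ M : Subgroup H, M.Normal → M ≤ N → M = ⊥ ∨ M = N) : ∃ (T : Type) (_ : Group T) (m : ℕ), IsSimpleGroup T ∧ 0 < m ∧ Nonempty (N ≃* (Fin m → T)) := by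
  obtain ⟨T, m, hTN, -, hsimple, hm, ⟨e⟩⟩ := Cfsg.Agent.H37.minNormal_structure N inferInstance hN hmin
  obtain ⟨T', hg, ⟨f⟩⟩ := Cfsg.Agent.H37.exists_small_copy T
  have := hsimple
  refine ⟨T', hg, m, ?_, hm, ⟨e.trans (MulEquiv.piCongrRight (fun _ => f))⟩⟩
  have hnt : Nontrivial T' := f.toEquiv.nontrivial_congr.1 inferInstance
  exact IsSimpleGroup.isSimpleGroup_of_surjective f.toMonoidHom f.surjective

end Cfsg.Agent.S0721
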