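import Cfsg.Statements.S0723
import Cfsg.Agent.H48.ONanScott

set_option autoImplicit false
open Cfsg

namespace Cfsg.Agent.S0723

/-- The core of the O'Nan–Scott Theorem. Let `H` be a primitive permutation group on a finite set whose unique minimal normal subgroup `N` is non-abelian, and `K` a point stabiliser. Then there are a non-abelian simple group `T` and an isomorphism `N ≃* T^m` (`m ≥ 1`) under which `K ⊓ N` becomes either a product `∏ K_i` of proper subgroups `K_i < T`, or the set of functions constant on each block of a partition of the index set into blocks of one common size `k ≥ 2`. -/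
theorem result {α : Type*} [Finite α] (H : Subgroup (Equiv.Perm α)) [MulAction.IsPreprimitive H α] (N : Subgroup H) [N.Normal] (hN : N ≠ ⊥) (hmin : ∀ M : Subgroup H, M.Normal → M ≤ N → M = ⊥ ∨ M = N) (huniq : ∀ L : Subgroup H, L.Normal → L ≠ ⊥ → (∀ M : Subgroup H, M.Normal → M ≤ L → M = ⊥ ∨ M = L) → L = N) (hnab : ¬ IsMulCommutative N) (a : α) : ∃ (T : Type) (_ : Group T) (m : ℕ) (e : N ≃* (Fin m → T)), IsSimpleGroup T ∧ ¬ IsMulCommutative T ∧ 0 < m ∧ ((∃ K : Fin m → Subgroup T, (∀ i, K i ≠ ⊤) ∧ ∀ n : N, (n : H) ∈ MulAction.stabilizer H a ↔ ∀ i, e n i ∈ K i) ∨ (∃ (k : ℕ) (c : Fin m → Fin m), 2 ≤ k ∧ (∀ j : Fin m, Nat.card {i : Fin m // c i = j} = k ∨ Nat.card {i : Fin m // c i = j} = 0) ∧ ∀ n : N, (n : H) ∈ MulAction.stabilizer H a ↔ ∀ i j : Fin m, c i = c j → e n i = e n j)) := by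
  classical
  have htr : MulAction.IsPretransitive H α := inferInstance
  have hα : Nontrivial α := by
    by_contra hc
    rw [not_nontrivial_iff_subsingleton] at hc
    apply hN
    rw [eq_bot_iff]
    intro x _
    rw [Subgroup.mem_bot]
    exact Subtype.ext (Equiv.ext fun _ => Subsingleton.elim _ _)
  obtain ⟨k, L, hL⟩ := Cfsg.Agent.H48.exists_sys N hN hmin hnab
  have hco : IsCoatom (MulAction.stabilizer H a) :=
    (MulAction.isCoatom_stabilizer_iff_preprimitive H a).mpr inferInstance
  have hmax : ∀ X : Subgroup H, MulAction.stabilizer H a < X → X = ⊤ := hco.2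
  have hNA : ¬ N ≤ MulAction.stabilizer H a := by
    intro hle
    apply hN
    rw [eq_bot_iff]
    intro x hx
    rw [Subgroup.mem_bot]
    apply FaithfulSMul.eq_of_smul_eq_smul (α := α)
    intro ω
    rw [one_smul]
    obtain ⟨g, rfl⟩ := MulAction.exists_smul_eq H a ω
    have := hle ((inferInstance : N.Normal).conj_mem x hx g⁻¹)
    rw [MulAction.mem_stabilizer_iff, mul_smul, mul_smul, inv_inv, inv_smul_eq_iff] at this
    exact this
  have hAN : MulAction.stabilizer H a ⊔ N = ⊤ := by
    apply hmax
    refine lt_of_le_of_ne le_sup_left ?_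
    intro he
    exact hNA (le_trans le_sup_right he.ge)
  exact hL.core _ hAN hmax hNA

end Cfsg.Agent.S0723
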