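import Cfsg.Statements.S0724
import Mathlib

set_option autoImplicit false
open Cfsg

namespace Cfsg.Agent.S0724

/-- Blichfeldt's Theorem: if a finite set `L` of natural numbers contains the number of fixed points of every non-identity element of a permutation group `G` of degree `n`, then the order of `G` divides `∏ (n - l)` over `l ∈ L`. -/
theorem result {α : Type*} [Fintype α] [DecidableEq α] (G : Subgroup (Equiv.Perm α)) (L : Finset ℕ) (hL : ∀ g ∈ G, g ≠ 1 → Nat.card (MulAction.fixedBy α g) ∈ L) : Nat.card G ∣ ∏ l ∈ L, (Fintype.card α - l) := by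
  classical
  by_cases hLn : ∃ l ∈ L, Fintype.card α < l
  · obtain ⟨l, hl, hlt⟩ := hLn
    rw [Finset.prod_eq_zero hl (by omega)]
    exact dvd_zero _
  · push Not at hLn
    -- the number of fixed points
    let π : G → ℕ := fun g => Nat.card (MulAction.fixedBy α (g : Equiv.Perm α))
    have burnside : ∀ j : ℕ, ∃ c : ℕ, ∑ g : G, (π g) ^ j = c * Nat.card G := by
      intro j
      haveI : ∀ g : G, Fintype (MulAction.fixedBy (Fin j → α) g) := fun g => Fintype.ofFinite _
      haveI : Fintype (MulAction.orbitRel.Quotient G (Fin j → α)) := Fintype.ofFinite _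
      refine ⟨Fintype.card (MulAction.orbitRel.Quotient G (Fin j → α)), ?_⟩
      rw [Nat.card_eq_fintype_card]
      rw [← MulAction.sum_card_fixedBy_eq_card_orbits_mul_card_group G (Fin j → α)]
      apply Finset.sum_congr rfl
      intro g _
      have e : MulAction.fixedBy (Fin j → α) g ≃ (Fin j → MulAction.fixedBy α (g : Equiv.Perm α)) :=
        { toFun := fun f i => ⟨f.1 i, congrFun f.2 i⟩
          invFun := fun f => ⟨fun i => (f i).1, funext fun i => (f i).2⟩
          left_inv := fun f => rfl
          right_inv := fun f => rfl }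
      rw [← Nat.card_eq_fintype_card, Nat.card_congr e, Nat.card_fun]
      simp [π]
    have key : ((Nat.card G : ℕ) : ℤ) ∣ ∏ l ∈ L, ((Fintype.card α : ℤ) - l) := by
      let f : Polynomial ℤ := ∏ l ∈ L, (Polynomial.X - Polynomial.C (l : ℤ))
      have hev : ∀ x : ℤ, f.eval x = ∏ l ∈ L, (x - l) := by
        intro x
        simp [f, Polynomial.eval_prod]
      have hsum : ∑ g : G, f.eval ((π g : ℕ) : ℤ) = ∏ l ∈ L, ((Fintype.card α : ℤ) - l) := by
        rw [Finset.sum_eq_single (1 : G)]
        · rw [hev]
          have : π 1 = Fintype.card α := by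
            simp only [π, OneMemClass.coe_one]
            have : MulAction.fixedBy α (1 : Equiv.Perm α) = Set.univ := by
              ext x; simp
            rw [this, Nat.card_univ, Nat.card_eq_fintype_card]
          rw [this]
        · intro g _ hg
          rw [hev]
          apply Finset.prod_eq_zero (hL g g.2 (fun h => hg (Subtype.ext h)))
          simp [π]
        · intro h; exact absurd (Finset.mem_univ _) h
      rw [← hsum]
      simp_rw [Polynomial.eval_eq_sum_range]
      rw [Finset.sum_comm]
      apply Finset.dvd_sum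
      intro i _
      rw [← Finset.mul_sum]
      apply Dvd.dvd.mul_left
      obtain ⟨c, hc⟩ := burnside i
      have : (∑ g : G, ((π g : ℕ) : ℤ) ^ i) = ((∑ g : G, (π g) ^ i : ℕ) : ℤ) := by push_cast; rfl
      rw [this, hc]
      push_cast
      exact Dvd.intro_left _ rfl
    have hcast : ((∏ l ∈ L, (Fintype.card α - l) : ℕ) : ℤ) = ∏ l ∈ L, ((Fintype.card α : ℤ) - l) := by
      rw [Nat.cast_prod]
      apply Finset.prod_congr rfl
      intro l hl
      rw [Nat.cast_sub (hLn l hl)]
    rw [← hcast] at key
    exact_mod_cast key

end Cfsg.Agent.S0724
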