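import Cfsg.Statements.S0728
import Cfsg.Agent.H34.NFS

set_option autoImplicit false
open Cfsg

namespace Cfsg.Agent.S0728

/-- In a sharply triply transitive group of even degree at least 6 (degree `q + 1`, `q` odd), a two-point stabiliser has at most one subgroup of order 3. -/
theorem result {α : Type*} [Fintype α] [DecidableEq α] (heven : Even (Fintype.card α)) (h6 : 6 ≤ Fintype.card α) (G : Subgroup (Equiv.Perm α)) (h3 : MulAction.IsMultiplyPretransitive G α 3) (hsharp : ∀ x : Fin 3 ↪ α, MulAction.stabilizer G x = ⊥) {a b : α} (hab : a ≠ b) (A B : Subgroup G) (hA : A ≤ MulAction.stabilizer G a ⊓ MulAction.stabilizer G b) (hB : B ≤ MulAction.stabilizer G a ⊓ MulAction.stabilizer G b) (hA3 : Nat.card A = 3) (hB3 : Nat.card B = 3) : A = B := by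
  classical
  have hS := Cfsg.Agent.H34.sharp3_of h3 hsharp
  obtain ⟨c, hc⟩ : ∃ c : α, c ∉ ({a, b} : Finset α) := by
    by_contra hcon
    push Not at hcon
    have h1 : (Finset.univ : Finset α) ⊆ {a, b} := fun x _ => hcon x
    have h2 := Finset.card_le_card h1
    rw [Finset.card_univ] at h2
    have h3 := Finset.card_le_two (a := a) (b := b)
    omega
  simp only [Finset.mem_insert, Finset.mem_singleton, not_or] at hc
  have hpr : Fact (Nat.Prime 3) := ⟨Nat.prime_three⟩
  obtain ⟨x, hx⟩ := exists_prime_orderOf_dvd_card' (G := A) 3 (by rw [hA3])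
  obtain ⟨y, hy⟩ := exists_prime_orderOf_dvd_card' (G := B) 3 (by rw [hB3])
  rw [← Subgroup.orderOf_coe] at hx hy
  have hxx : (x : G) * x * x = 1 := by
    have := pow_orderOf_eq_one (x : G)
    rw [hx] at this
    rw [← this, pow_succ, pow_two]
  have hyy : (y : G) * y * y = 1 := by
    have := pow_orderOf_eq_one (y : G)
    rw [hy] at this
    rw [← this, pow_succ, pow_two]
  have hx1 : (x : G) ≠ 1 := by
    intro h
    rw [h, orderOf_one] at hx
    norm_num at hx
  have hy1 : (y : G) ≠ 1 := by
    intro h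
    rw [h, orderOf_one] at hy
    norm_num at hy
  have hxm := Subgroup.mem_inf.mp (hA x.2)
  have hym := Subgroup.mem_inf.mp (hB y.2)
  have hyA : (y : G) ∈ A := by
    rcases hS.order_three hab (Ne.symm hc.2) (Ne.symm hc.1) hxm.1 hxm.2 hym.1 hym.2 hxx hx1 hyy hy1 with h | h
    · rw [h]; exact x.2
    · rw [h]; exact A.mul_mem x.2 x.2
  have hz : Subgroup.zpowers (y : G) ≤ A := by
    rw [Subgroup.zpowers_le]; exact hyA
  have hz' : Subgroup.zpowers (y : G) ≤ B := by
    rw [Subgroup.zpowers_le]; exact y.2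
  have hcz : Nat.card (Subgroup.zpowers (y : G)) = 3 := by rw [Nat.card_zpowers, hy]
  have e1 : Subgroup.zpowers (y : G) = A := Subgroup.eq_of_le_of_card_ge hz (by rw [hcz, hA3])
  have e2 : Subgroup.zpowers (y : G) = B := Subgroup.eq_of_le_of_card_ge hz' (by rw [hcz, hB3])
  exact e1.symm.trans e2

end Cfsg.Agent.S0728
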