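import Cfsg.Statements.S0729
import Mathlib
import Cfsg.Agent.H37.ZTwo
import Cfsg.Agent.H34.Sharp3PGL

set_option autoImplicit false
open Cfsg

namespace Cfsg.Agent.S0729

/-- In a sharply triply transitive group of even degree at least 6, the two-point stabiliser `H = G_{a,b}` has a normal subgroup of index 2 that is normalised by the element `s` interchanging `a, b` and fixing a third point `c`. -/
theorem result {α : Type*} [Fintype α] [DecidableEq α] (heven : Even (Fintype.card α)) (h6 : 6 ≤ Fintype.card α) (G : Subgroup (Equiv.Perm α)) (h3 : MulAction.IsMultiplyPretransitive G α 3) (hsharp : ∀ x : Fin 3 ↪ α, MulAction.stabilizer G x = ⊥) {a b c : α} (hab : a ≠ b) (hac : a ≠ c) (hbc : b ≠ c) (s : G) (hsa : s • a = b) (hsb : s • b = a) (hsc : s • c = c) : ∃ N : Subgroup G, N ≤ MulAction.stabilizer G a ⊓ MulAction.stabilizer G b ∧ (N.subgroupOf (MulAction.stabilizer G a ⊓ MulAction.stabilizer G b)).Normal ∧ N.relIndex (MulAction.stabilizer G a ⊓ MulAction.stabilizer G b) = 2 ∧ ∀ n ∈ N, s * n * s⁻¹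 ∈ N := by
  classical
  have hS := Cfsg.Agent.H34.sharp3_of h3 hsharp
  have hZ : Cfsg.Agent.H34.ZGp G α := by
    refine ⟨?_, ?_, fun g a b c h1 h2 h3 => hS.sharp g h1 h2 h3⟩
    · intro g hg
      apply Subtype.ext
      ext x
      exact hg x
    · intro x y x' y' hxy hxy'
      have hex : ∀ x y : α, ∃ z : α, z ≠ x ∧ z ≠ y := by
        intro x y
        by_contra hcon
        push Not at hcon
        have h4 : (Finset.univ : Finset α) ⊆ {x, y} := by
          intro w _
          by_cases hw : w = x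
          · rw [hw]; simp
          · rw [hcon w hw]; simp
        have := (Finset.card_le_card h4).trans Finset.card_le_two
        rw [Finset.card_univ] at this
        omega
      obtain ⟨z, hzx, hzy⟩ := hex x y
      obtain ⟨z', hzx', hzy'⟩ := hex x' y'
      obtain ⟨g, h1, h2, -⟩ := hS.trans hxy (Ne.symm hzy) (Ne.symm hzx) hxy' (Ne.symm hzy') (Ne.symm hzx')
      exact ⟨g, h1, h2⟩
  have hcard : Nat.card (Cfsg.Agent.H34.stab2 G a b) = Nat.card α - 2 := by
    have h1 := hZ.card hab
    have h2 := hS.card hab hbc hac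
    rw [h2] at h1
    have h4 : 6 ≤ Nat.card α := by rw [Nat.card_eq_fintype_card]; exact h6
    have h5 := Nat.eq_of_mul_eq_mul_left (by omega) h1
    exact (Nat.eq_of_mul_eq_mul_left (by omega) h5).symm
  obtain ⟨N, hN1, hN2, hN3⟩ := Cfsg.Agent.H37.ZT.exists_inv_index_two hZ hab
    (by rw [Nat.card_eq_fintype_card]; exact heven) (by rw [Nat.card_eq_fintype_card]; omega) hcard
  refine ⟨N, hN1, ?_, hN2, hN3 s (Or.inr ⟨hsa, hsb⟩)⟩
  constructor
  intro n hn g
  exact hN3 (g : G) (Or.inl g.2) _ hn

end Cfsg.Agent.S0729
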