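import Cfsg.Statements.S0733
import Mathlib.Algebra.Module.ZMod

set_option autoImplicit false
open Cfsg

namespace Cfsg.Agent.S0733

open scoped Pointwise

/-- A permutation group of affine type — generated by the translations of a finite vector space `V` over `ZMod p` together with a group `G₀` of linear automorphisms — is primitive on `V` if and only if `G₀` is irreducible on `V`. -/
theorem result {p : ℕ} [Fact p.Prime] {V : Type*} [AddCommGroup V] [Module (ZMod p) V] [Finite V] [Nontrivial V] (G₀ : Subgroup (V ≃ₗ[ZMod p] V)) (G : Subgroup (Equiv.Perm V)) (hG : ∀ σ : Equiv.Perm V, σ ∈ G ↔ ∃ g ∈ G₀, ∃ b : V, ∀ x : V, σ x = (g : V ≃ₗ[ZMod p] V) x + b) : MulAction.IsPreprimitive G V ↔ ∀ W : Submodule (ZMod p) V, (∀ g ∈ G₀, ∀ v ∈ W, (g : V ≃ₗ[ZMod p] V) v ∈ W) → W = ⊥ ∨ W = ⊤ := by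
  have htrans : ∀ b : V, ∃ σ : G, ∀ x : V, σ • x = x + b := by
    intro b
    refine ⟨⟨Equiv.addRight b, (hG _).2 ⟨1, one_mem _, b, fun x => rfl⟩⟩, fun x => rfl⟩
  constructor
  · intro hprim W hW
    have hWg : ∀ g ∈ G₀, ∀ v : V, (g : V ≃ₗ[ZMod p] V) v ∈ W → v ∈ W := by
      intro g hg v hv
      have h1 := hW g⁻¹ (inv_mem hg) _ hv
      have e : (g⁻¹ : V ≃ₗ[ZMod p] V) (g v) = v := by
        rw [← LinearEquiv.mul_apply, inv_mul_cancel]; rfl
      rwa [e] at h1
    have hB : MulAction.IsBlock G (W : Set V) := by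
      rw [MulAction.isBlock_iff_smul_eq_of_nonempty]
      rintro ⟨σ, hσ⟩ ⟨x, ⟨y, hy, hyx⟩, hx⟩
      obtain ⟨g, hg, b, hgb⟩ := (hG σ).1 hσ
      have hyx' : σ y = x := hyx
      rw [hgb] at hyx'
      have hb : b ∈ W := by
        have : b = x - g y := by rw [← hyx']; abel
        rw [this]
        exact W.sub_mem hx (hW g hg y hy)
      ext z
      constructor
      · rintro ⟨w, hw, rfl⟩
        change σ w ∈ W
        rw [hgb]
        exact W.add_mem (hW g hg w hw) hb
      · intro hz
        refine ⟨σ.symm z, ?_, σ.apply_symm_apply z⟩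
        apply hWg g hg
        have : g (σ.symm z) = z - b := by
          have h1 := hgb (σ.symm z)
          rw [σ.apply_symm_apply] at h1
          exact (sub_eq_of_eq_add h1).symm
        rw [this]
        exact W.sub_mem hz hb
    rcases hprim.isTrivialBlock_of_isBlock hB with h | h
    · left
      rw [Submodule.eq_bot_iff]
      intro x hx
      exact h hx W.zero_mem
    · right
      exact SetLike.coe_injective h
  · intro hirr
    have htr : MulAction.IsPretransitive G V := by
      refine ⟨fun a b => ?_⟩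
      obtain ⟨σ, hσ⟩ := htrans (b - a)
      exact ⟨σ, by rw [hσ]; abel⟩
    refine MulAction.IsPreprimitive.mk ?_
    intro B hB
    by_cases hs : B.Subsingleton
    · exact Or.inl hs
    right
    rw [Set.not_subsingleton_iff] at hs
    obtain ⟨a, ha, b, hb, hab⟩ := hs
    -- translate the block to contain 0
    obtain ⟨τ, hτ⟩ := htrans (-a)
    have hC : MulAction.IsBlock G (τ • B) := hB.translate τ
    set C : Set V := τ • B with hCdef
    have h0 : (0 : V) ∈ C := ⟨a, ha, by change τ • a = 0; rw [hτ]; abel⟩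
    have heqC : ∀ (σ : G) (x : V), x ∈ C → σ • x ∈ C → σ • C = C := by
      intro σ x hx hσx
      by_contra hne
      have := (MulAction.isBlock_iff_smul_eq_or_disjoint.1 hC σ).resolve_left hne
      exact Set.disjoint_left.1 this ⟨x, hx, rfl⟩ hσx
    have hadd : ∀ x ∈ C, ∀ y ∈ C, x + y ∈ C := by
      intro x hx y hy
      obtain ⟨σ, hσ⟩ := htrans y
      have h1 := heqC σ 0 h0 (by rw [hσ, zero_add]; exact hy)
      rw [← h1]
      exact ⟨x, hx, hσ x⟩
    have hneg : ∀ x ∈ C, -x ∈ C := by
      intro x hx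
      obtain ⟨σ, hσ⟩ := htrans x
      have h1 := heqC σ 0 h0 (by rw [hσ, zero_add]; exact hx)
      rw [← h1] at h0
      obtain ⟨y, hy, hy0⟩ := h0
      have hy0' : y + x = 0 := by rw [← hσ]; exact hy0
      rw [← eq_neg_of_add_eq_zero_left hy0']
      exact hy
    let W₀ : AddSubgroup V :=
      { carrier := C
        zero_mem' := h0
        add_mem' := fun {x y} hx hy => hadd x hx y hy
        neg_mem' := fun {x} hx => hneg x hx }
    let W : Submodule (ZMod p) V := AddSubgroup.toZModSubmodule p W₀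
    have hWC : ∀ x : V, x ∈ W ↔ x ∈ C := fun x => Iff.rfl
    have hW : ∀ g ∈ G₀, ∀ v ∈ W, (g : V ≃ₗ[ZMod p] V) v ∈ W := by
      intro g hg v hv
      let σ : G := ⟨g.toEquiv, (hG _).2 ⟨g, hg, 0, fun x => (add_zero _).symm⟩⟩
      have hσ : ∀ x : V, σ • x = g x := fun x => rfl
      have h1 := heqC σ 0 h0 (by rw [hσ, map_zero]; exact h0)
      rw [hWC] at hv ⊢
      rw [← h1]
      exact ⟨v, hv, hσ v⟩
    have hCuniv : C = Set.univ := by
      rcases hirr W hW with h | h
      · exfalso
        apply hab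
        have h2 : τ • b ∈ W := ⟨b, hb, rfl⟩
        rw [h, Submodule.mem_bot, hτ] at h2
        have : b = a := by
          have h3 : b - a = 0 := by rw [← h2]; abel
          exact sub_eq_zero.1 h3
        exact this.symm
      · rw [Set.eq_univ_iff_forall]
        intro x
        rw [← hWC, h]; trivial
    rw [hCdef, Set.smul_set_eq_univ] at hCuniv
    exact hCuniv

end Cfsg.Agent.S0733
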