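import Cfsg.Statements.S0734


set_option autoImplicit false
open Cfsg

namespace Cfsg.Agent.S0734

open scoped Pointwise

/-- Higman's criterion for primitivity: a transitive action on a finite set is primitive if and only if every non-trivial orbital graph (edges = images of a fixed pair of distinct points) is connected. -/
theorem result {G : Type*} [Group G] {Ω : Type*} [Finite Ω] [MulAction G Ω] [MulAction.IsPretransitive G Ω] [Nontrivial Ω] : MulAction.IsPreprimitive G Ω ↔ ∀ a b : Ω, a ≠ b → (SimpleGraph.fromRel fun x y : Ω => ∃ g : G, g • a = x ∧ g • b = y).Connected := by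
  constructor
  · intro hprim a b hab
    set Γ := SimpleGraph.fromRel (fun x y : Ω => ∃ g : G, g • a = x ∧ g • b = y) with hΓ
    -- invariance of adjacency and reachability
    have hadj : ∀ (g : G) (x y : Ω), Γ.Adj x y → Γ.Adj (g • x) (g • y) := by
      intro g x y h
      rw [hΓ, SimpleGraph.fromRel_adj] at h ⊢
      refine ⟨fun h1 => h.1 (smul_left_cancel g h1), ?_⟩
      rcases h.2 with ⟨k, h1, h2⟩ | ⟨k, h1, h2⟩
      · exact Or.inl ⟨g * k, by rw [mul_smul, h1], by rw [mul_smul, h2]⟩
      · exact Or.inr ⟨g * k, by rw [mul_smul, h1], by rw [mul_smul, h2]⟩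
    have hreach : ∀ (g : G) (x y : Ω), Γ.Reachable x y → Γ.Reachable (g • x) (g • y) := by
      intro g x y ⟨w⟩
      induction w with
      | nil => exact SimpleGraph.Reachable.refl _
      | cons h _ ih => exact (hadj g _ _ h).reachable.trans ih
    let B : Set Ω := {x | Γ.Reachable a x}
    have hB : MulAction.IsBlock G B := by
      rw [MulAction.isBlock_iff_smul_eq_of_nonempty]
      intro g ⟨x, ⟨y, hy, hyx⟩, hx⟩
      -- g a ~ g y = x ~ a
      have hyx' : g • y = x := hyx
      have h1 : Γ.Reachable (g • a) a := by
        have h2 := hreach g a y hy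
        rw [hyx'] at h2
        exact h2.trans (SimpleGraph.Reachable.symm hx)
      ext z
      constructor
      · rintro ⟨w, hw, rfl⟩
        exact h1.symm.trans (hreach g a w hw)
      · intro hz
        refine ⟨g⁻¹ • z, ?_, smul_inv_smul g z⟩
        have h3 := hreach g⁻¹ (g • a) z (h1.trans hz)
        rwa [inv_smul_smul] at h3
    have hbB : b ∈ B := by
      apply SimpleGraph.Adj.reachable
      rw [hΓ, SimpleGraph.fromRel_adj]
      exact ⟨hab, Or.inl ⟨1, one_smul _ _, one_smul _ _⟩⟩
    have huniv : B = Set.univ := by
      rcases hprim.isTrivialBlock_of_isBlock hB with h | h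
      · exact absurd (h (SimpleGraph.Reachable.refl a) hbB) hab
      · exact h
    rw [SimpleGraph.connected_iff]
    refine ⟨fun x y => ?_, inferInstance⟩
    have hx : x ∈ B := by rw [huniv]; trivial
    have hy : y ∈ B := by rw [huniv]; trivial
    exact (SimpleGraph.Reachable.symm hx).trans hy
  · intro h
    refine MulAction.IsPreprimitive.mk ?_
    intro B hB
    by_cases hs : B.Subsingleton
    · exact Or.inl hs
    right
    rw [Set.not_subsingleton_iff] at hs
    obtain ⟨a, ha, b, hb, hab⟩ := hs
    have hconn := h a b hab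
    set Γ := SimpleGraph.fromRel (fun x y : Ω => ∃ g : G, g • a = x ∧ g • b = y) with hΓ
    have hstep : ∀ x y : Ω, Γ.Adj x y → x ∈ B → y ∈ B := by
      intro x y hxy hx
      rw [hΓ, SimpleGraph.fromRel_adj] at hxy
      have key : ∀ g : G, ((g • a = x ∧ g • b = y) ∨ (g • a = y ∧ g • b = x)) → y ∈ B := by
        intro g hg
        have hxm : x ∈ g • B := by
          rcases hg with hg | hg
          · exact ⟨a, ha, hg.1⟩
          · exact ⟨b, hb, hg.2⟩
        have hym : y ∈ g • B := by
          rcases hg with hg | hg
          · exact ⟨b, hb, hg.2⟩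
          · exact ⟨a, ha, hg.1⟩
        have heq : g • B = B := by
          by_contra hne
          have := (MulAction.isBlock_iff_smul_eq_or_disjoint.1 hB g).resolve_left hne
          exact Set.disjoint_left.1 this hxm hx
        rwa [heq] at hym
      rcases hxy.2 with ⟨g, hg⟩ | ⟨g, hg⟩
      · exact key g (Or.inl hg)
      · exact key g (Or.inr hg)
    rw [Set.eq_univ_iff_forall]
    intro c
    obtain ⟨w⟩ := hconn.preconnected a c
    have : ∀ x y : Ω, Γ.Walk x y → x ∈ B → y ∈ B := by
      intro x y w
      induction w with
      | nil => exact id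
      | cons h _ ih => exact fun hx => ih (hstep _ _ h hx)
    exact this a c w ha

end Cfsg.Agent.S0734
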