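import Cfsg.Statements.S0735


set_option autoImplicit false
open Cfsg

namespace Cfsg.Agent.S0735

open scoped Pointwise

/-- A 2-homogeneous permutation group (transitive on 2-subsets) of even order is doubly transitive; a non-trivial 2-homogeneous group is primitive. -/
theorem result {α : Type*} [Fintype α] [DecidableEq α] (G : Subgroup (Equiv.Perm α)) (h2 : MulAction.IsPretransitive G (Set.powersetCard α 2)) (hα : 3 ≤ Fintype.card α) : (Even (Nat.card G) → MulAction.IsMultiplyPretransitive G α 2) ∧ (G ≠ ⊥ → MulAction.IsPreprimitive G α) := by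
  classical
  -- transport of pairs
  have pair : ∀ a b c d : α, a ≠ b → c ≠ d → ∃ g : G, (g • a = c ∧ g • b = d) ∨ (g • a = d ∧ g • b = c) := by
    intro a b c d hab hcd
    let s : Set.powersetCard α 2 := ⟨{a, b}, Finset.card_pair hab⟩
    let t : Set.powersetCard α 2 := ⟨{c, d}, Finset.card_pair hcd⟩
    obtain ⟨g, hg⟩ := MulAction.exists_smul_eq G s t
    have h1 : (g • ({a, b} : Finset α)) = {c, d} := congrArg Subtype.val hg
    have ha : g • a ∈ ({c, d} : Finset α) := by
      rw [← h1]; exact Finset.smul_mem_smul_finset (by simp)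
    have hb : g • b ∈ ({c, d} : Finset α) := by
      rw [← h1]; exact Finset.smul_mem_smul_finset (by simp)
    have hne : g • a ≠ g • b := fun h => hab (smul_left_cancel g h)
    simp only [Finset.mem_insert, Finset.mem_singleton] at ha hb
    refine ⟨g, ?_⟩
    rcases ha with ha | ha <;> rcases hb with hb | hb
    · exact absurd (ha.trans hb.symm) hne
    · exact Or.inl ⟨ha, hb⟩
    · exact Or.inr ⟨ha, hb⟩
    · exact absurd (ha.trans hb.symm) hne
  have third : ∀ a b : α, ∃ c, c ≠ a ∧ c ≠ b := by
    intro a b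
    by_contra hcon
    push Not at hcon
    have h1 : (Finset.univ : Finset α) ⊆ {a, b} := by
      intro c _
      simp only [Finset.mem_insert, Finset.mem_singleton]
      by_cases h : c = a
      · exact Or.inl h
      · exact Or.inr (hcon c h)
    have h2 := Finset.card_le_card h1
    rw [Finset.card_univ] at h2
    have h3 := Finset.card_le_two (a := a) (b := b)
    omega
  refine ⟨fun he => ?_, fun _ => ?_⟩
  · rw [MulAction.is_two_pretransitive_iff]
    intro a b c d hab hcd
    -- an involution
    obtain ⟨σ, hσ⟩ := exists_prime_orderOf_dvd_card' (G := G) 2 he.two_dvd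
    have hσ1 : σ ≠ 1 := by
      intro h; rw [h, orderOf_one] at hσ; omega
    have hσ2 : σ * σ = 1 := by
      have := pow_orderOf_eq_one σ
      rwa [hσ, pow_two] at this
    obtain ⟨x, hx⟩ : ∃ x : α, σ • x ≠ x := by
      by_contra hcon
      push Not at hcon
      exact hσ1 (FaithfulSMul.eq_of_smul_eq_smul (α := α) (fun x => by rw [hcon x, one_smul]))
    have hσx : σ • σ • x = x := by rw [smul_smul, hσ2, one_smul]
    -- swap of c and d
    obtain ⟨k, hk⟩ : ∃ k : G, k • d = c ∧ k • c = d := by
      obtain ⟨g, hg | hg⟩ := pair x (σ • x) c d hx.symm hcd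
      · refine ⟨g * σ * g⁻¹, ?_, ?_⟩
        · rw [mul_smul, mul_smul, ← hg.2, inv_smul_smul, hσx, hg.1]
        · rw [mul_smul, mul_smul, ← hg.1, inv_smul_smul, hg.2]
      · refine ⟨g * σ * g⁻¹, ?_, ?_⟩
        · rw [mul_smul, mul_smul, ← hg.1, inv_smul_smul, hg.2]
        · rw [mul_smul, mul_smul, ← hg.2, inv_smul_smul, hσx, hg.1]
    obtain ⟨g, hg | hg⟩ := pair a b c d hab hcd
    · exact ⟨g, hg⟩
    · refine ⟨k * g, ?_, ?_⟩
      · rw [mul_smul, hg.1, hk.1]
      · rw [mul_smul, hg.2, hk.2]
  · have htr : MulAction.IsPretransitive G α := by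
      refine ⟨fun a b => ?_⟩
      by_cases hab : a = b
      · exact ⟨1, by rw [one_smul, hab]⟩
      obtain ⟨c, hca, hcb⟩ := third a b
      obtain ⟨g, hg | hg⟩ := pair a c b c (Ne.symm hca) (Ne.symm hcb)
      · exact ⟨g, hg.1⟩
      · refine ⟨g * g, ?_⟩
        rw [mul_smul, hg.1, hg.2]
    refine MulAction.IsPreprimitive.mk ?_
    intro B hB
    by_cases hs : B.Subsingleton
    · exact Or.inl hs
    right
    rw [Set.not_subsingleton_iff] at hs
    obtain ⟨a, ha, b, hb, hab⟩ := hs
    rw [Set.eq_univ_iff_forall]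
    intro c
    by_cases hca : c = a
    · rw [hca]; exact ha
    obtain ⟨g, hg⟩ := pair a b a c hab (Ne.symm hca)
    have hmem : a ∈ g • B := by
      rcases hg with hg | hg
      · exact ⟨a, ha, hg.1⟩
      · exact ⟨b, hb, hg.2⟩
    have hc : c ∈ g • B := by
      rcases hg with hg | hg
      · exact ⟨b, hb, hg.2⟩
      · exact ⟨a, ha, hg.1⟩
    have heq : g • B = B := by
      by_contra hne
      have := (MulAction.isBlock_iff_smul_eq_or_disjoint.1 hB g).resolve_left hne
      exact Set.disjoint_left.1 this hmem ha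
    rwa [heq] at hc

end Cfsg.Agent.S0735
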