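import Cfsg.Statements.S0736
import Mathlib

set_option autoImplicit false
open Cfsg

namespace Cfsg.Agent.S0736
open Finset
open scoped Pointwise

theorem not_dvd_choose {p a m : ℕ} (hp : p.Prime) : ¬ p ∣ (p ^ a * m + (p ^ a - 1)).choose (p ^ a - 1) := by
  have hf : Fact p.Prime := ⟨hp⟩
  set k := p ^ a - 1 with hk
  have hpa : 0 < p ^ a := pow_pos hp.pos a
  have h1 : (p ^ a * m + k).choose k ≡ ((p ^ a * m + k) / p ^ a).choose (k / p ^ a) *
      ∏ i ∈ range a, ((p ^ a * m + k) / p ^ i % p).choose (k / p ^ i % p) [MOD p] := by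
    rw [← Int.natCast_modEq_iff]
    exact_mod_cast Choose.choose_modEq_choose_mul_prod_range_choose (n := p ^ a * m + k) (k := k) (p := p) a
  have h2 : k / p ^ a = 0 := Nat.div_eq_of_lt (by omega)
  have h3 : ∀ i ∈ range a, ((p ^ a * m + k) / p ^ i % p).choose (k / p ^ i % p) = 1 := by
    intro i hi
    rw [mem_range] at hi
    have h4 : (p ^ a * m + k) / p ^ i % p = k / p ^ i % p := by
      obtain ⟨b, rfl⟩ : ∃ b, a = i + 1 + b := ⟨a - i - 1, by omega⟩
      have h5 : p ^ (i + 1 + b) * m + k = p ^ i * (p * (p ^ b * m)) + k := by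
        rw [pow_add, pow_add]; ring
      rw [h5, Nat.mul_add_div (pow_pos hp.pos i), Nat.mul_add_mod]
    rw [h4, Nat.choose_self]
  rw [h2, Nat.choose_zero_right, one_mul, prod_congr rfl h3, prod_const_one] at h1
  intro h4
  have h5 := (Nat.modEq_zero_iff_dvd.2 h4).symm.trans h1
  have h6 : p ∣ 1 := (Nat.modEq_zero_iff_dvd.1 h5.symm)
  exact hp.one_lt.ne' (Nat.dvd_one.1 h6)


/-- A `k`-homogeneous permutation group of degree `n`, `k ≥ 2`, with `k + q - 1 ≤ n` for every prime power `q` dividing `k`, is `(k-1)`-homogeneous. -/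
theorem result {α : Type*} [Fintype α] [DecidableEq α] (G : Subgroup (Equiv.Perm α)) {k : ℕ} (hk : 2 ≤ k) (hG : MulAction.IsPretransitive G (Set.powersetCard α k)) (hq : ∀ q : ℕ, IsPrimePow q → q ∣ k → k + q - 1 ≤ Fintype.card α) : MulAction.IsPretransitive G (Set.powersetCard α (k - 1)) := by
  classical
  have hn : k + 1 ≤ Fintype.card α := by
    have h1 := Nat.minFac_prime (n := k) (by omega)
    have h2 := hq k.minFac h1.isPrimePow (Nat.minFac_dvd k)
    have h3 := h1.two_le
    omega
  refine ⟨fun A B => ?_⟩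
  have hA : (A : Finset α).card = k - 1 := A.2
  have hB : (B : Finset α).card = k - 1 := B.2
  set O : Finset (Finset α) := univ.filter (fun s => ∃ g : G, g • (A : Finset α) = s) with hO
  have hOmem : ∀ s, s ∈ O ↔ ∃ g : G, g • (A : Finset α) = s := by
    intro s; simp [hO]
  have hOcard : ∀ s ∈ O, s.card = k - 1 := by
    intro s hs
    obtain ⟨g, rfl⟩ := (hOmem s).1 hs
    rw [Finset.card_smul_finset, hA]
  have hOsmul : ∀ (g : G) s, s ∈ O → g • s ∈ O := by
    intro g s hs
    obtain ⟨h, rfl⟩ := (hOmem s).1 hs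
    exact (hOmem _).2 ⟨g * h, by rw [mul_smul]⟩
  -- the number of members of `O` in a `k`-set is constant
  have hconst : ∀ K L : Finset α, K.card = k → L.card = k →
      (O.filter (· ⊆ K)).card ≤ (O.filter (· ⊆ L)).card := by
    intro K L hK hL
    obtain ⟨g, hg⟩ := hG.exists_smul_eq (⟨K, hK⟩ : Set.powersetCard α k) ⟨L, hL⟩
    have hg' : g • K = L := congrArg Subtype.val hg
    apply Finset.card_le_card_of_injOn (fun s => g • s)
    · intro s hs
      rw [Finset.mem_coe, Finset.mem_filter] at hs ⊢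
      refine ⟨hOsmul g s hs.1, ?_⟩
      rw [← hg']
      exact Finset.smul_finset_subset_smul_finset hs.2
    · intro s _ t _ hst
      exact smul_left_cancel g hst
  obtain ⟨K₀, hAK, hK₀⟩ : ∃ K : Finset α, (A : Finset α) ⊆ K ∧ K.card = k := by
    obtain ⟨K, h1, _, h2⟩ := Finset.exists_subsuperset_card_eq (Finset.subset_univ (A : Finset α)) (n := k)
      (by omega) (by rw [Finset.card_univ]; omega)
    exact ⟨K, h1, h2⟩
  set l := (O.filter (· ⊆ K₀)).card with hl
  have hl' : ∀ K : Finset α, K.card = k → (O.filter (· ⊆ K)).card = l := fun K hK =>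
    le_antisymm (hconst K K₀ hK hK₀) (hconst K₀ K hK₀ hK)
  have hlpos : 0 < l := by
    rw [hl, Finset.card_pos]
    exact ⟨(A : Finset α), Finset.mem_filter.2 ⟨(hOmem _).2 ⟨1, one_smul _ _⟩, hAK⟩⟩
  have hsub : ∀ K : Finset α, O.filter (· ⊆ K) ⊆ K.powersetCard (k - 1) := by
    intro K s hs
    rw [Finset.mem_filter] at hs
    exact Finset.mem_powersetCard.2 ⟨hs.2, hOcard s hs.1⟩
  have hckK : ∀ K : Finset α, K.card = k → (K.powersetCard (k - 1)).card = k := by
    intro K hK
    rw [Finset.card_powersetCard, hK]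
    obtain ⟨j, rfl⟩ : ∃ j, k = j + 1 := ⟨k - 1, by omega⟩
    simp
  have hlk : l ≤ k := by
    rw [← hckK K₀ hK₀]
    exact Finset.card_le_card (hsub K₀)
  -- the main count
  have hcount : ∀ q : ℕ, 0 < q → k + q - 1 ≤ Fintype.card α → q ∣ l * (k + q - 1).choose k := by
    intro q hq0 hqn
    obtain ⟨X, _, hX⟩ := Finset.exists_subset_card_eq (s := (Finset.univ : Finset α)) (n := k + q - 1)
      (by rw [Finset.card_univ]; exact hqn)
    have h1 := Finset.sum_card_bipartiteAbove_eq_sum_card_bipartiteBelow (s := X.powersetCard k)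
      (t := O.filter (· ⊆ X)) (fun K s => s ⊆ K)
    have h2 : ∀ K ∈ X.powersetCard k, (Finset.bipartiteAbove (fun K s => s ⊆ K) (O.filter (· ⊆ X)) K).card = l := by
      intro K hK
      rw [Finset.mem_powersetCard] at hK
      rw [← hl' K hK.2]
      congr 1
      ext s
      simp only [Finset.bipartiteAbove, Finset.mem_filter]
      constructor
      · rintro ⟨⟨a, _⟩, b⟩; exact ⟨a, b⟩
      · rintro ⟨a, b⟩; exact ⟨⟨a, b.trans hK.1⟩, b⟩
    have h3 : ∀ s ∈ O.filter (· ⊆ X), (Finset.bipartiteBelow (fun K s => s ⊆ K) (X.powersetCard k) s).card = q := by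
      intro s hs
      rw [Finset.mem_filter] at hs
      have hsc := hOcard s hs.1
      have h4 : ((X \ s).powersetCard 1).card = q := by
        rw [Finset.card_powersetCard, Nat.choose_one_right, Finset.card_sdiff_of_subset hs.2, hX, hsc]
        omega
      rw [← h4]
      apply Finset.card_nbij' (fun K => K \ s) (fun T => T ∪ s)
      · intro K hK
        simp only [Finset.bipartiteBelow, Finset.coe_filter, Set.mem_ofPred_eq, Finset.mem_powersetCard] at hK
        rw [Finset.mem_coe, Finset.mem_powersetCard]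
        refine ⟨Finset.sdiff_subset_sdiff hK.1.1 (le_refl s), ?_⟩
        rw [Finset.card_sdiff_of_subset hK.2, hK.1.2, hsc]
        omega
      · intro T hT
        rw [Finset.mem_coe, Finset.mem_powersetCard] at hT
        simp only [Finset.bipartiteBelow, Finset.coe_filter, Set.mem_ofPred_eq, Finset.mem_powersetCard]
        have hd : Disjoint T s := by
          rw [Finset.disjoint_left]
          intro x hx
          exact (Finset.mem_sdiff.1 (hT.1 hx)).2
        refine ⟨⟨Finset.union_subset (hT.1.trans Finset.sdiff_subset) hs.2, ?_⟩, Finset.subset_union_right⟩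
        rw [Finset.card_union_of_disjoint hd, hT.2, hsc]
        omega
      · intro K hK
        simp only [Finset.bipartiteBelow, Finset.coe_filter, Set.mem_ofPred_eq] at hK
        exact Finset.sdiff_union_of_subset hK.2
      · intro T hT
        rw [Finset.mem_coe, Finset.mem_powersetCard] at hT
        show (T ∪ s) \ s = T
        have hd : Disjoint T s := by
          rw [Finset.disjoint_left]
          intro x hx
          exact (Finset.mem_sdiff.1 (hT.1 hx)).2
        rw [Finset.union_sdiff_right, Finset.sdiff_eq_self_of_disjoint hd]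
    rw [Finset.sum_congr rfl h2, Finset.sum_congr rfl h3, Finset.sum_const, Finset.sum_const,
      Finset.card_powersetCard, hX, smul_eq_mul, smul_eq_mul] at h1
    rw [mul_comm l, h1]
    exact Dvd.intro_left _ rfl
  have hkl : k ∣ l := by
    rw [Nat.dvd_iff_prime_pow_dvd_dvd]
    intro p j hp hpj
    rcases Nat.eq_zero_or_pos j with hj | hj
    · rw [hj, pow_zero]; exact one_dvd _
    have h1 := hcount (p ^ j) (pow_pos hp.pos j) (hq _ (hp.isPrimePow.pow hj.ne') hpj)
    have hcop : Nat.Coprime (p ^ j) ((k + p ^ j - 1).choose k) := by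
      apply Nat.Coprime.pow_left
      rw [Nat.Prime.coprime_iff_not_dvd hp]
      obtain ⟨m, hm⟩ := hpj
      have h2 := not_dvd_choose (p := p) (a := j) (m := m) hp
      have hpos := pow_pos hp.pos j
      have h3 : k + p ^ j - 1 = p ^ j * m + (p ^ j - 1) := by omega
      rw [h3]
      have h4 : (p ^ j * m + (p ^ j - 1)).choose k = (p ^ j * m + (p ^ j - 1)).choose (p ^ j - 1) := by
        rw [← Nat.choose_symm_of_eq_add (n := p ^ j * m + (p ^ j - 1)) (a := k) (b := p ^ j - 1) (by omega)]
      rw [h4]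
      exact h2
    exact hcop.dvd_of_dvd_mul_right h1
  have hlk' : l = k := le_antisymm hlk (Nat.le_of_dvd hlpos hkl)
  obtain ⟨K₁, hBK, hK₁⟩ : ∃ K : Finset α, (B : Finset α) ⊆ K ∧ K.card = k := by
    obtain ⟨K, h1, _, h2⟩ := Finset.exists_subsuperset_card_eq (Finset.subset_univ (B : Finset α)) (n := k)
      (by omega) (by rw [Finset.card_univ]; omega)
    exact ⟨K, h1, h2⟩
  have hfull : O.filter (· ⊆ K₁) = K₁.powersetCard (k - 1) := by
    apply Finset.eq_of_subset_of_card_le (hsub K₁)
    rw [hckK K₁ hK₁, hl' K₁ hK₁, hlk']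
  have hBO : (B : Finset α) ∈ O.filter (· ⊆ K₁) := by
    rw [hfull, Finset.mem_powersetCard]
    exact ⟨hBK, hB⟩
  obtain ⟨g, hg⟩ := (hOmem _).1 (Finset.mem_filter.1 hBO).1
  exact ⟨g, Subtype.ext hg⟩

end Cfsg.Agent.S0736
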