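import Cfsg.Statements.S0739
import Cfsg.Agent.H34.ZassOdd

set_option autoImplicit false
open Cfsg

namespace Cfsg.Agent.S0739

/-- In a finite Zassenhaus group whose two-point stabiliser `H = G_{a,b}` has odd order `d`, and which has no normal `q`-complement for any prime `q ∣ d`, `H` is cyclic, `C_G(H) = H`, and every element swapping `a` and `b` inverts each element of `H`. -/
theorem result {G Ω : Type*} [Group G] [Finite G] [MulAction G Ω] [Fintype Ω] (hZ : Cfsg.IsZassenhausGroup G Ω) {a b : Ω} (hab : a ≠ b) (hodd : Odd (Nat.card ↥(MulAction.stabilizer G a ⊓ MulAction.stabilizer G b))) (hnil : ∀ q : ℕ, q.Prime → q ∣ Nat.card ↥(MulAction.stabilizer G a ⊓ MulAction.stabilizer G b) → ¬ ∃ N : Subgroup G, N.Normal ∧ N.index = q ^ (Nat.card G).factorization q) : IsCyclic ↥(MulAction.stabilizer G a ⊓ MulAction.stabilizer G b) ∧ Subgroup.centralizer ((MulAction.stabilizer G a ⊓ MulAction.stabilizer G b : Subgroup G) : Set G) = MulAction.stabilizer G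 a ⊓ MulAction.stabilizer G b ∧ ∀ s : G, s • a = b → s • b = a → ∀ h ∈ MulAction.stabilizer G a ⊓ MulAction.stabilizer G b, s * h * s⁻¹ = h⁻¹ := by
  classical
  have h := Cfsg.Agent.H34.zgp_of hZ
  have hH : Cfsg.Agent.H34.stab2 G a b ≠ ⊥ := by
    obtain ⟨-, -, -, ⟨g, hg1, c, d, hcd, hgc, hgd⟩, -⟩ := hZ
    obtain ⟨k, hk1, hk2⟩ := h.trans hcd hab
    intro hbot
    have h1 : g ∈ Cfsg.Agent.H34.stab2 G c d := Cfsg.Agent.H34.mem_stab2.mpr ⟨hgc, hgd⟩
    have h2 := Cfsg.Agent.H34.smul_stab2 (g := k) h1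
    rw [hk1, hk2, hbot, Subgroup.mem_bot] at h2
    apply hg1
    have h3 : k * g * k⁻¹ = 1 := h2
    rw [mul_inv_eq_one] at h3
    exact mul_eq_left.mp h3
  exact h.odd_stab2 hab hH hodd hnil

end Cfsg.Agent.S0739
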