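import Cfsg.Statements.S0740
import Cfsg.Agent.H34.Zass

set_option autoImplicit false
open Cfsg

namespace Cfsg.Agent.S0740

/-- In a finite Zassenhaus group any two points `a ≠ b` are swapped by an involution; every such involution has exactly one fixed point when the degree is odd and 0 or 2 fixed points when the degree is even; and if the two-point stabiliser has even order, some such involution has exactly 2 fixed points. -/
theorem result {G Ω : Type*} [Group G] [Finite G] [MulAction G Ω] [Fintype Ω] (hZ : Cfsg.IsZassenhausGroup G Ω) {a b : Ω} (hab : a ≠ b) : (∃ s : G, orderOf s = 2 ∧ s • a = b ∧ s • b = a) ∧ (∀ s : G, orderOf s = 2 → s • a = b → s • b = a → (Odd (Fintype.card Ω) → Nat.card (MulAction.fixedBy Ω s) = 1) ∧ (Even (Fintype.card Ω) → Nat.card (MulAction.fixedBy Ω s) = 0 ∨ Nat.card (MulAction.fixedBy Ω s) = 2)) ∧ (Even (Fintype.card Ω) → Even (Nat.card ↥(MulAction.stabilizer G a ⊓ MulAction.stabilizer G b)) → ∃ s : G, orderOf s = 2 ∧ s • a = b ∧ s • b = a ∧ Nat.card (MulAction.fixedBy Ω s) = 2) :=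 by
  classical
  have h := Cfsg.Agent.H34.zgp_of hZ
  obtain ⟨t, ht⟩ := h.even_card hab
  refine ⟨?_, ?_, ?_⟩
  · obtain ⟨s, hs, h1, h2, -⟩ := h.exists_involution_swap hab t ht
    exact ⟨s, hs, h1, h2⟩
  · intro s hs h1 h2
    have hs1 : s ≠ 1 := by rintro rfl; rw [orderOf_one] at hs; omega
    have hss : s * s = 1 := by rw [← sq, ← hs, pow_orderOf_eq_one]
    have hle := h.card_fixed_le hs1
    have hpar := Cfsg.Agent.H34.card_fixed_parity (Ω := Ω) s hss
    rw [Nat.card_eq_fintype_card (α := Ω)] at hpar
    constructor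
    · intro hodd
      rw [Nat.odd_iff] at hodd
      omega
    · intro heven
      rw [Nat.even_iff] at heven
      omega
  · intro _ hH
    obtain ⟨x, hx⟩ := exists_prime_orderOf_dvd_card' (G := ↥(MulAction.stabilizer G a ⊓ MulAction.stabilizer G b)) 2
      (even_iff_two_dvd.mp hH)
    have hx' : orderOf (x : G) = 2 := by rw [Subgroup.orderOf_coe]; exact hx
    obtain ⟨s, hs, h1, h2, g, hg⟩ := h.exists_involution_swap hab (x : G) hx'
    refine ⟨s, hs, h1, h2, ?_⟩
    have hs1 : s ≠ 1 := by rintro rfl; rw [orderOf_one] at hs; omega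
    have hle := h.card_fixed_le hs1
    obtain ⟨hxa, hxb⟩ := Cfsg.Agent.H34.mem_stab2.mp x.2
    have hsub : ({g • a, g • b} : Set Ω) ⊆ MulAction.fixedBy Ω s := by
      rintro y (rfl | rfl)
      · show s • g • a = g • a
        rw [hg, mul_smul, mul_smul, inv_smul_smul, hxa]
      · show s • g • b = g • b
        rw [hg, mul_smul, mul_smul, inv_smul_smul, hxb]
    have h3 := Set.ncard_le_ncard hsub (Set.toFinite _)
    rw [Set.ncard_pair (fun he => hab (smul_left_cancel g he))] at h3
    exact le_antisymm hle h3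

end Cfsg.Agent.S0740
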