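import Cfsg.Statements.S0741
import Cfsg.Agent.H34.Zass2

set_option autoImplicit false
open Cfsg

namespace Cfsg.Agent.S0741

/-- If the two-point stabilisers of a finite Zassenhaus group of degree `n + 1` have even order `d`, then `2d ≥ n - 1`. -/
theorem result {G Ω : Type*} [Group G] [Finite G] [MulAction G Ω] [Fintype Ω] (hZ : Cfsg.IsZassenhausGroup G Ω) {a b : Ω} (hab : a ≠ b) (heven : Even (Nat.card ↥(MulAction.stabilizer G a ⊓ MulAction.stabilizer G b))) : Fintype.card Ω - 2 ≤ 2 * Nat.card ↥(MulAction.stabilizer G a ⊓ MulAction.stabilizer G b) := by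
  classical
  have h := Cfsg.Agent.H34.zgp_of hZ
  obtain ⟨x, hx⟩ := exists_prime_orderOf_dvd_card' (G := ↥(MulAction.stabilizer G a ⊓ MulAction.stabilizer G b)) 2
    (even_iff_two_dvd.mp heven)
  have hx' : orderOf (x : G) = 2 := by rw [Subgroup.orderOf_coe]; exact hx
  have h1 : (x : G) ≠ 1 := by intro h0; rw [h0, orderOf_one] at hx'; omega
  have h2 : (x : G) * (x : G) = 1 := by rw [← sq, ← hx', pow_orderOf_eq_one]
  have := h.even_bound hab (x : G) x.2 h2 h1
  rwa [Nat.card_eq_fintype_card (α := Ω)] at this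

end Cfsg.Agent.S0741
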