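import Cfsg.Statements.S0743
import Cfsg.Agent.H20.Gleason

set_option autoImplicit false
open Cfsg

namespace Cfsg.Agent.S0743

open Cfsg.Agent.H20

/-- Gleason's Lemma: let `p` be a prime and `1 ≤ k < n`; if every `k`-subset of the `n` points is exactly the fixed-point set of some `p`-subgroup of `G`, then `G` is `k`-transitive. -/
theorem result {α : Type*} [Fintype α] [DecidableEq α] (G : Subgroup (Equiv.Perm α)) {p k : ℕ} (hp : p.Prime) (hk : 1 ≤ k) (hkn : k < Fintype.card α) (h : ∀ s : Finset α, s.card = k → ∃ P : Subgroup G, IsPGroup p P ∧ MulAction.fixedPoints P α = (s : Set α)) : MulAction.IsMultiplyPretransitive G α k := by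
  classical
  have : Fact p.Prime := ⟨hp⟩
  refine unif_multiply hp.one_lt k G α hk (by rw [Nat.card_eq_fintype_card]; exact hkn) ?_
  intro s hs
  obtain ⟨P, hP, hfix⟩ := h s hs
  refine ⟨P, ?_, ?_⟩
  · intro a ha g hg
    have h1 : a ∈ MulAction.fixedPoints P α := by rw [hfix]; exact ha
    exact h1 ⟨g, hg⟩
  · intro x hx
    obtain ⟨n, hn⟩ := hP.card_orbit x
    rw [hn]
    rcases Nat.eq_zero_or_pos n with rfl | hn0
    · exfalso
      apply hx
      have h1 : x ∈ MulAction.fixedPoints P α := by
        rw [MulAction.mem_fixedPoints_iff_card_orbit_eq_one, ← Nat.card_eq_fintype_card, hn, pow_zero]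
      rw [hfix] at h1
      exact h1
    · exact dvd_pow_self p hn0.ne'

end Cfsg.Agent.S0743
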