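import Cfsg.Statements.S0745

import Cfsg.Agent.H74.LW13

set_option autoImplicit false
open Cfsg

namespace Cfsg.Agent.S0745

open MulAction Cfsg.Agent.H74 Cfsg.Agent.H74.LW

/-- Let `G` have degree `n` and `3 ≤ k ≤ n`; suppose `G` is `(k-2)`-transitive but not `(k-1)`-transitive, and is `(k-1)`-homogeneous and `k`-homogeneous. Then `k = n` and `G` is the alternating group, or `n = 5, k = 4, |G| = 20`, or `n = 6, k = 5, |G| = 120`, or `n = 9, k = 5, |G| ∈ {504, 1512}`. -/
theorem result {α : Type*} [Fintype α] [DecidableEq α] (G : Subgroup (Equiv.Perm α)) {k : ℕ} (hk : 3 ≤ k) (hkn : k ≤ Fintype.card α) (ht : MulAction.IsMultiplyPretransitive G α (k - 2)) (hnt : ¬ MulAction.IsMultiplyPretransitive G α (k - 1)) (hh1 : MulAction.IsPretransitive G (Set.powersetCard α (k - 1))) (hh : MulAction.IsPretransitive G (Set.powersetCard α k)) : (k = Fintype.card α ∧ G = alternatingGroup α) ∨ (Fintype.card α = 5 ∧ k = 4 ∧ Nat.card G = 20) ∨ (Fintype.card α = 6 ∧ k = 5 ∧ Nat.card G = 120)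 ∨ (Fintype.card α = 9 ∧ k = 5 ∧ (Nat.card G = 504 ∨ Nat.card G = 1512)) := by
  classical
  obtain ⟨s, rfl⟩ : ∃ s, k = s + 3 := ⟨k - 3, by omega⟩
  have ht' : IsMultiplyPretransitive G α (s + 1) := ht
  have hnt' : ¬ IsMultiplyPretransitive G α (s + 2) := hnt
  have hh' : Homog G α (s + 2) := homog_of_powersetCard G hh1
  have hh1' : Homog G α (s + 3) := homog_of_powersetCard G hh
  have hbot : ∀ w : Fin (s + 2) ↪ α, AN.ptStab G w = ⊥ :=
    ptStab_bot G (by omega) hkn hh' hh1' hnt'
  by_cases hn : Fintype.card α = s + 3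
  · exact Or.inl ⟨hn.symm, eq_alternating G hn ht' hnt'⟩
  have hcard : Nat.card α = Fintype.card α := Nat.card_eq_fintype_card
  by_cases hs : 3 ≤ s
  · exact (false_of_trivial G hs ht' hh' hnt' (by omega) hbot).elim
  interval_cases s
  · have := small0 (by omega) ht' hh' hh1' hnt' hbot
    omega
  · rcases small1 (by omega) ht' hh' hh1' hnt' hbot with h | ⟨h, h'⟩
    · omega
    · right; left
      exact ⟨by omega, rfl, h'⟩
  · rcases small2 (by omega) ht' hh' hh1' hnt' hbot with h | ⟨h, h'⟩ | ⟨h, h'⟩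
    · omega
    · right; right; left
      exact ⟨by omega, rfl, h'⟩
    · right; right; right
      exact ⟨by omega, rfl, h'⟩

end Cfsg.Agent.S0745
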