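import Cfsg.Statements.S0746

import Cfsg.Agent.S0736
import Cfsg.Agent.S0745

set_option autoImplicit false
open Cfsg

namespace Cfsg.Agent.S0746

open Cfsg.Agent.H74.LW

/-- The Livingstone–Wagner Theorem, first form: a `k`-homogeneous group of degree `n` with `4 ≤ 2k ≤ n` is `(k-1)`-transitive. -/
theorem result {α : Type*} [Fintype α] [DecidableEq α] (G : Subgroup (Equiv.Perm α)) {k : ℕ} (hk : 2 ≤ k) (hkn : 2 * k ≤ Fintype.card α) (hh : MulAction.IsPretransitive G (Set.powersetCard α k)) : MulAction.IsMultiplyPretransitive G α (k - 1) := by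
  classical
  have key : ∀ j : ℕ, 2 * (j + 2) ≤ Fintype.card α →
      MulAction.IsPretransitive G (Set.powersetCard α (j + 2)) →
      MulAction.IsMultiplyPretransitive G α (j + 1) := by
    intro j
    induction j with
    | zero =>
      intro hn hh
      have h1 := Cfsg.Agent.S0736.result G (k := 2) le_rfl hh (by
        intro q _ hqd
        have := Nat.le_of_dvd (by norm_num) hqd
        omega)
      have h2 : Homog G α 1 := homog_of_powersetCard G h1
      rw [zero_add, MulAction.is_one_pretransitive_iff]
      constructor
      intro x y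
      obtain ⟨g, σ, hg⟩ := h2 ⟨fun _ => x, fun i j _ => Subsingleton.elim i j⟩
        ⟨fun _ => y, fun i j _ => Subsingleton.elim i j⟩
      exact ⟨g, hg 0⟩
    | succ j ih =>
      intro hn hh
      have h1 : MulAction.IsPretransitive G (Set.powersetCard α (j + 2)) :=
        Cfsg.Agent.S0736.result G (k := j + 3) (by omega) hh (by
          intro q _ hqd
          have := Nat.le_of_dvd (by omega) hqd
          omega)
      have h2 := ih (by omega) h1
      by_contra hnt
      have h3 := Cfsg.Agent.S0745.result G (k := j + 3) (by omega) (by omega) h2 hnt h1 hh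
      omega
  obtain ⟨j, rfl⟩ : ∃ j, k = j + 2 := ⟨k - 2, by omega⟩
  exact key j hkn hh

end Cfsg.Agent.S0746
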