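import Cfsg.Statements.S0747

import Cfsg.Agent.H74.LW7

set_option autoImplicit false
open scoped Pointwise
open Cfsg

namespace Cfsg.Agent.S0747

open Cfsg

/-- In a `k`-transitive permutation group with `4 ≤ k < n`, some `(k+1)`-subset `Δ` has the property that every even permutation of `Δ` is induced by an element of the group stabilising `Δ`. -/
theorem result {α : Type*} [Fintype α] [DecidableEq α] (G : Subgroup (Equiv.Perm α)) {k : ℕ} (hk : 4 ≤ k) (hkn : k < Fintype.card α) (hG : MulAction.IsMultiplyPretransitive G α k) : ∃ Δ : Finset α, Δ.card = k + 1 ∧ ∀ σ : Equiv.Perm ↥Δ, σ ∈ alternatingGroup ↥Δ → ∃ g ∈ G, ∀ x : ↥Δ, g (x : α) = σ x := by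
  classical
  obtain ⟨δ, hδ⟩ := H74.LW.altInd (Nat.card α) G α k rfl hk hG (by
    rw [Nat.card_eq_fintype_card]; exact hkn)
  refine ⟨Finset.univ.map δ, by rw [Finset.card_map, Finset.card_univ, Fintype.card_fin], ?_⟩
  intro σ hσ
  let f : Fin (k + 1) → ↥(Finset.univ.map δ) := fun i =>
    ⟨δ i, Finset.mem_map.2 ⟨i, Finset.mem_univ _, rfl⟩⟩
  have hf : Function.Bijective f := by
    constructor
    · intro i j hij
      exact δ.injective (congrArg Subtype.val hij)
    · rintro ⟨x, hx⟩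
      obtain ⟨i, -, rfl⟩ := Finset.mem_map.1 hx
      exact ⟨i, rfl⟩
  let e : Fin (k + 1) ≃ ↥(Finset.univ.map δ) := Equiv.ofBijective f hf
  have he : ∀ i, ((e i : ↥(Finset.univ.map δ)) : α) = δ i := fun i => rfl
  obtain ⟨g, hg⟩ := hδ (e.symm.permCongr σ) (by
    rw [Equiv.Perm.mem_alternatingGroup, Equiv.Perm.sign_permCongr]
    exact Equiv.Perm.mem_alternatingGroup.1 hσ)
  refine ⟨(g : Equiv.Perm α), g.2, fun x => ?_⟩
  obtain ⟨i, rfl⟩ := e.surjective x
  have h1 : (g : Equiv.Perm α) (δ i) = δ ((e.symm.permCongr σ) i) := hg i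
  rw [he, h1, ← he]
  simp [Equiv.permCongr_apply]

end Cfsg.Agent.S0747
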