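import Cfsg.Statements.S0757


set_option autoImplicit false
open Cfsg

namespace Cfsg.Agent.S0757

/-- The two diagonal forms Σ x_i^2 and Σ_(i<n) x_i^2 + α x_n^2 on F^(n+1), with α a non-square and 2 ≠ 0 in F, are inequivalent quadratic forms (so over a finite field of odd order there are exactly two classes of non-singular symmetric bilinear forms in each dimension). -/
theorem result {F : Type*} [Field F] (h2 : (2 : F) ≠ 0) (n : ℕ) (α : F) (hα : ¬ IsSquare α) : ¬ (QuadraticMap.weightedSumSquares F (fun _ : Fin (n + 1) => (1 : F))).Equivalent (QuadraticMap.weightedSumSquares F (fun i : Fin (n + 1) => if i = Fin.last n then α else (1 : F))) := by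
  rintro ⟨e⟩
  have : Invertible (2 : F) := invertibleOfNonzero h2
  have hw : ∀ w : Fin (n + 1) → F, QuadraticForm.discr' (QuadraticMap.weightedSumSquares F w) = ∏ i, w i := by
    intro w
    have hm : QuadraticForm.toMatrix' (QuadraticMap.weightedSumSquares F w) = Matrix.diagonal w := by
      ext i j
      unfold QuadraticForm.toMatrix'
      rw [LinearMap.toMatrix₂'_apply, QuadraticMap.associated_apply]
      simp only [QuadraticMap.weightedSumSquares_apply, smul_eq_mul, Pi.add_apply]
      rw [← Finset.sum_sub_distrib, ← Finset.sum_sub_distrib]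
      rw [Matrix.diagonal_apply]
      have hterm : ∀ x : Fin (n+1), w x * (((Pi.single i 1 : Fin (n+1) → F) x + (Pi.single j 1 : Fin (n+1) → F) x) * ((Pi.single i 1 : Fin (n+1) → F) x + (Pi.single j 1 : Fin (n+1) → F) x)) - w x * ((Pi.single i 1 : Fin (n+1) → F) x * (Pi.single i 1 : Fin (n+1) → F) x) - w x * ((Pi.single j 1 : Fin (n+1) → F) x * (Pi.single j 1 : Fin (n+1) → F) x) = if x = i then (if i = j then 2 * w i else 0) else 0 := by
        intro x
        simp only [Pi.single_apply]
        by_cases h1 : x = i
        · subst h1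
          by_cases h3 : x = j
          · simp [h3]; ring
          · simp [h3]
        · simp [h1]
      rw [Finset.sum_congr rfl fun x _ => hterm x]
      simp only [Finset.sum_ite_eq', Finset.mem_univ, if_true]
      split_ifs
      · simp
        rw [inv_mul_cancel_left₀ h2]
      · simp
    rw [QuadraticForm.discr', hm, Matrix.det_diagonal]
  have h1 : (QuadraticMap.weightedSumSquares F (fun i : Fin (n + 1) => if i = Fin.last n then α else (1 : F))).comp (e.toLinearEquiv : (Fin (n+1) → F) →ₗ[F] (Fin (n+1) → F)) = QuadraticMap.weightedSumSquares F (fun _ : Fin (n + 1) => (1 : F)) := by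
    ext x
    exact e.map_app x
  have h3 := QuadraticForm.discr'_comp (Q := QuadraticMap.weightedSumSquares F (fun i : Fin (n + 1) => if i = Fin.last n then α else (1 : F))) (e.toLinearEquiv : (Fin (n+1) → F) →ₗ[F] (Fin (n+1) → F))
  rw [h1, hw, hw, Finset.prod_const_one, Finset.prod_ite_eq' Finset.univ (Fin.last n) (fun _ => α)] at h3
  simp only [Finset.mem_univ, if_true] at h3
  apply hα
  set d := (LinearMap.toMatrix' (e.toLinearEquiv : (Fin (n+1) → F) →ₗ[F] (Fin (n+1) → F))).det
  have hd : d ≠ 0 := by
    intro h
    rw [h] at h3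
    simp at h3
  refine ⟨d⁻¹, ?_⟩
  field_simp
  linear_combination -h3

end Cfsg.Agent.S0757
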