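import Cfsg.Statements.S0758
import Cfsg.Agent.ClGeo.FinField

set_option autoImplicit false
open Cfsg

namespace Cfsg.Agent.S0758

/-- For a finite field F of odd order q and a non-square α: the form x² + y² is isotropic iff q ≡ 1 mod 4, and the form x² + α y² is isotropic iff q ≡ 3 mod 4. -/
theorem result {F : Type*} [Field F] [Fintype F] (h2 : (2 : F) ≠ 0) (α : F) (hα : ¬ IsSquare α) : ((∃ x y : F, (x ≠ 0 ∨ y ≠ 0) ∧ x ^ 2 + y ^ 2 = 0) ↔ Fintype.card F % 4 = 1) ∧ ((∃ x y : F, (x ≠ 0 ∨ y ≠ 0) ∧ x ^ 2 + α * y ^ 2 = 0) ↔ Fintype.card F % 4 = 3) := by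
  have hodd : Fintype.card F % 2 = 1 :=
    FiniteField.odd_card_of_char_ne_two (Cfsg.Agent.ClGeo.ringChar_ne_two_of_two_ne_zero h2)
  have hiff : IsSquare (-1 : F) ↔ Fintype.card F % 4 ≠ 3 := FiniteField.isSquare_neg_one_iff
  have h1 : (∃ x y : F, (x ≠ 0 ∨ y ≠ 0) ∧ x ^ 2 + y ^ 2 = 0) ↔ IsSquare (-1 : F) := by
    constructor
    · rintro ⟨x, y, hxy, h⟩
      have hy : y ≠ 0 := by
        rintro rfl
        have : x ^ 2 = 0 := by simpa using h
        have := pow_eq_zero_iff (two_ne_zero) |>.1 this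
        simp [this] at hxy
      refine ⟨x / y, ?_⟩
      field_simp
      linear_combination -h
    · rintro ⟨t, ht⟩
      exact ⟨t, 1, Or.inr one_ne_zero, by rw [one_pow, sq, ← ht]; ring⟩
  have h3 : (∃ x y : F, (x ≠ 0 ∨ y ≠ 0) ∧ x ^ 2 + α * y ^ 2 = 0) ↔ ¬ IsSquare (-1 : F) := by
    have hα0 : α ≠ 0 := by rintro rfl; exact hα ⟨0, by simp⟩
    constructor
    · rintro ⟨x, y, hxy, h⟩ ⟨t, ht⟩
      have hy : y ≠ 0 := by
        rintro rfl
        have : x ^ 2 = 0 := by simpa using h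
        have := pow_eq_zero_iff (two_ne_zero) |>.1 this
        simp [this] at hxy
      apply hα
      refine ⟨t * x / y, ?_⟩
      field_simp
      linear_combination h + x^2 * ht
    · intro hn
      have : IsSquare (-α) := by
        rw [← neg_one_mul]
        exact Cfsg.Agent.ClGeo.isSquare_mul_of_not hn hα
      obtain ⟨t, ht⟩ := this
      exact ⟨t, 1, Or.inr one_ne_zero, by rw [one_pow, sq, ← ht]; ring⟩
  rw [h1, h3, hiff]
  omega

end Cfsg.Agent.S0758
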