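import Cfsg.Statements.S0759
import Cfsg.Agent.ClGeo.FinField
import Cfsg.Agent.Witt.Ortho

set_option autoImplicit false
open Cfsg

namespace Cfsg.Agent.S0759

/-- Type of the orthonormal form: over a finite field of odd order q and for m ≥ 1, the quadratic form Σ_(i<2m) x_i² on F^(2m) admits an m-dimensional subspace on which it vanishes identically if and only if it is not the case that q ≡ 3 (mod 4) and m is odd. -/
theorem result {F : Type*} [Field F] [Fintype F] (h2 : (2 : F) ≠ 0) (m : ℕ) (hm : 1 ≤ m) : (∃ W : Submodule F (Fin (2 * m) → F), Module.finrank F W = m ∧ ∀ w ∈ W, ∑ i, w i ^ 2 = 0) ↔ ¬ (Fintype.card F % 4 = 3 ∧ Odd m) := by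
  classical
  have hiff : IsSquare (-1 : F) ↔ Fintype.card F % 4 ≠ 3 := FiniteField.isSquare_neg_one_iff
  obtain ⟨e⟩ : Nonempty (Fin m ⊕ Fin m ≃ Fin (2 * m)) := ⟨Fintype.equivOfCardEq (by simp; ring)⟩
  constructor
  · rintro ⟨W, hWm, hW⟩ ⟨hq3, hmodd⟩
    have hns : ¬ IsSquare (-1 : F) := by rw [hiff]; simpa using hq3
    apply hns
    -- orthogonality inside W
    have hWo : ∀ w ∈ W, ∀ w' ∈ W, ∑ i, w i * w' i = 0 := by
      intro w hw w' hw'
      have h1 := hW _ (W.add_mem hw hw')
      have h3 := hW _ hw
      have h4 := hW _ hw'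
      have h5 : ∑ i, (w + w') i ^ 2 = ∑ i, w i ^ 2 + 2 * ∑ i, w i * w' i + ∑ i, w' i ^ 2 := by
        rw [Finset.mul_sum, ← Finset.sum_add_distrib, ← Finset.sum_add_distrib]
        refine Finset.sum_congr rfl fun i _ => ?_
        rw [Pi.add_apply]; ring
      rw [h5, h3, h4, zero_add, add_zero] at h1
      exact (mul_eq_zero.1 h1).resolve_left h2
    obtain ⟨U, hU⟩ := Submodule.exists_isCompl W
    have hUm : Module.finrank F U = m := by
      have := Submodule.finrank_add_eq_of_isCompl hU
      rw [hWm, Module.finrank_fin_fun] at this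
      omega
    let bW : Module.Basis (Fin m) F W := (Module.finBasis F W).reindex (finCongr hWm)
    let bU : Module.Basis (Fin m) F U := (Module.finBasis F U).reindex (finCongr hUm)
    let b : Module.Basis (Fin m ⊕ Fin m) F (Fin (2 * m) → F) :=
      (bW.prod bU).map (Submodule.prodEquivOfIsCompl W U hU)
    have hbl : ∀ i, b (Sum.inl i) ∈ W := by
      intro i
      simp [b]
    let e0 : Module.Basis (Fin m ⊕ Fin m) F (Fin (2 * m) → F) := (Pi.basisFun F (Fin (2 * m))).reindex e.symm
    have he0 : ∀ (v : Fin (2 * m) → F) (x : Fin m ⊕ Fin m), e0.repr v x = v (e x) := by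
      intro v x
      simp [e0]
    set P := e0.toMatrix b with hP
    have hdet : P.det ≠ 0 := by
      have h1 : P * b.toMatrix e0 = 1 := e0.toMatrix_mul_toMatrix_flip b
      have h2 := congrArg Matrix.det h1
      rw [Matrix.det_mul, Matrix.det_one] at h2
      exact left_ne_zero_of_mul_eq_one h2
    set G := P.transpose * P with hG
    have hG11 : G.toBlocks₁₁ = 0 := by
      ext i j
      rw [Matrix.toBlocks₁₁, Matrix.of_apply, hG, Matrix.mul_apply, Matrix.zero_apply]
      have h1 := hWo _ (hbl i) _ (hbl j)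
      rw [← e.sum_comp] at h1
      rw [← h1]
      refine Finset.sum_congr rfl fun x _ => ?_
      rw [Matrix.transpose_apply, hP, Module.Basis.toMatrix_apply, Module.Basis.toMatrix_apply, he0, he0]
    have hGsym : G.transpose = G := by
      rw [hG, Matrix.transpose_mul, Matrix.transpose_transpose]
    have hG21 : G.toBlocks₂₁ = G.toBlocks₁₂.transpose := by
      ext i j
      rw [Matrix.toBlocks₂₁, Matrix.of_apply, Matrix.transpose_apply, Matrix.toBlocks₁₂, Matrix.of_apply]
      conv_lhs => rw [← hGsym, Matrix.transpose_apply]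
    have hGJ : G * Matrix.J (Fin m) F = Matrix.fromBlocks G.toBlocks₁₂ 0 G.toBlocks₂₂ (-G.toBlocks₁₂.transpose) := by
      conv_lhs => rw [← Matrix.fromBlocks_toBlocks G, hG11, hG21, Matrix.J, Matrix.fromBlocks_multiply]
      simp
    have hdJ : (Matrix.J (Fin m) F).det = 1 := SymplecticGroup.det_eq_one (SymplecticGroup.J_mem _ _)
    have h1 := congrArg Matrix.det hGJ
    rw [Matrix.det_mul, hdJ, mul_one, Matrix.det_fromBlocks_zero₁₂, Matrix.det_neg, Matrix.det_transpose,
      Fintype.card_fin, hmodd.neg_one_pow, hG, Matrix.det_mul, Matrix.det_transpose] at h1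
    have hC : G.toBlocks₁₂.det ≠ 0 := by
      intro h0
      rw [← hG, h0] at h1
      have : P.det * P.det = 0 := by rw [h1]; ring
      exact hdet (mul_self_eq_zero.1 this)
    refine ⟨P.det / G.toBlocks₁₂.det, ?_⟩
    rw [← hG] at h1
    field_simp
    linear_combination -h1
  · intro hcond
    obtain ⟨M, hM⟩ : ∃ M : Matrix (Fin m) (Fin m) F, M.transpose * M = -1 := by
      by_cases hsq : IsSquare (-1 : F)
      · obtain ⟨t, ht⟩ := hsq
        refine ⟨Matrix.diagonal fun _ => t, ?_⟩
        rw [Matrix.diagonal_transpose, Matrix.diagonal_mul_diagonal, ← ht]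
        ext i j
        by_cases hij : i = j
        · subst hij; simp
        · simp [hij]
      · have hq3 : Fintype.card F % 4 = 3 := by
          by_contra h; exact hsq (hiff.2 h)
        have hme : Even m := by
          rw [← Nat.not_odd_iff_even]
          intro h; exact hcond ⟨hq3, h⟩
        obtain ⟨r, hr⟩ := hme
        obtain ⟨a, c, hac⟩ := Cfsg.Agent.Witt.exists_sq_add_sq_eq (1 : F) 1 (-1) one_ne_zero one_ne_zero
        obtain ⟨e'⟩ : Nonempty (Fin r ⊕ Fin r ≃ Fin m) := ⟨Fintype.equivOfCardEq (by simp; omega)⟩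
        let N : Matrix (Fin r ⊕ Fin r) (Fin r ⊕ Fin r) F :=
          Matrix.fromBlocks (a • 1) (-c • 1) (c • 1) (a • 1)
        have hN : N.transpose * N = -1 := by
          simp only [N, Matrix.fromBlocks_transpose, Matrix.fromBlocks_multiply, Matrix.transpose_smul,
            Matrix.transpose_one, Matrix.smul_mul, Matrix.mul_smul, Matrix.one_mul, smul_smul, ← add_smul]
          have e1 : a * a + c * c = -1 := by linear_combination hac
          have e2 : -c * -c + a * a = -1 := by linear_combination hac
          have e3 : a * -c + c * a = 0 := by ring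
          have e4 : -c * a + a * c = 0 := by ring
          rw [e1, e2, e3, e4, zero_smul, neg_one_smul, ← Matrix.fromBlocks_one]
          rw [Matrix.fromBlocks_neg, neg_zero]
        refine ⟨Matrix.reindex e' e' N, ?_⟩
        rw [Matrix.transpose_reindex, Matrix.reindex_apply, Matrix.reindex_apply, Matrix.submatrix_mul_equiv, hN]
        ext i j
        simp [Matrix.one_apply]
    let f : (Fin m → F) →ₗ[F] (Fin (2 * m) → F) :=
      (LinearMap.funLeft F F e.symm) ∘ₗ
        ((LinearEquiv.sumArrowLequivProdArrow (Fin m) (Fin m) F F).symm : _ →ₗ[F] _) ∘ₗ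
        (LinearMap.prod LinearMap.id (Matrix.mulVecLin M))
    have hf : ∀ x i, f x (e i) = Sum.elim x (M.mulVec x) i := by
      intro x i
      simp only [f, LinearMap.comp_apply, LinearMap.funLeft_apply, Equiv.symm_apply_apply]
      rcases i with i | i <;> rfl
    have hinj : Function.Injective f := by
      intro x y hxy
      funext i
      have := congrFun hxy (e (Sum.inl i))
      rwa [hf, hf] at this
    refine ⟨LinearMap.range f, ?_, ?_⟩
    · rw [LinearMap.finrank_range_of_inj hinj, Module.finrank_fin_fun]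
    · rintro _ ⟨x, rfl⟩
      rw [← e.sum_comp]
      simp only [hf]
      rw [Fintype.sum_sum_type]
      simp only [Sum.elim_inl, Sum.elim_inr]
      have h5 : ∑ i, M.mulVec x i ^ 2 = (M.mulVec x) ⬝ᵥ (M.mulVec x) := by
        rw [dotProduct]
        exact Finset.sum_congr rfl fun i _ => sq _
      have h6 : ∑ i, x i ^ 2 = x ⬝ᵥ x := by
        rw [dotProduct]
        exact Finset.sum_congr rfl fun i _ => sq _
      rw [h5, h6, Matrix.dotProduct_mulVec, Matrix.vecMul_mulVec, hM, Matrix.vecMul_neg,
        Matrix.vecMul_one, neg_dotProduct, add_neg_cancel]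

end Cfsg.Agent.S0759
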