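import Cfsg.Statements.S0760
import Cfsg.Agent.Orth.Witt

set_option autoImplicit false
open Cfsg

namespace Cfsg.Agent.S0760

/-- Witt index is well defined: if Q is a quadratic form on a finite-dimensional space V over a finite field with non-degenerate polar form, and W₁, W₂ are subspaces on which Q vanishes that are maximal with this property, then W₁ and W₂ have the same dimension, and twice this dimension is at most dim V. -/
theorem result {F V : Type*} [Field F] [Finite F] [AddCommGroup V] [Module F V] [FiniteDimensional F V] (Q : QuadraticForm F V) (hQ : (QuadraticMap.polarBilin Q).Nondegenerate) (W₁ W₂ : Submodule F V) (h₁ : ∀ w ∈ W₁, Q w = 0) (h₂ : ∀ w ∈ W₂, Q w = 0) (hmax₁ : ∀ W : Submodule F V, W₁ ≤ W → (∀ w ∈ W, Q w = 0) → W = W₁) (hmax₂ : ∀ W : Submodule F V, W₂ ≤ W → (∀ w ∈ W, Q w = 0) → W = W₂) : Module.finrank F W₁ = Module.finrank F W₂ ∧ 2 * Module.finrank F W₁ ≤ Module.finrank F V := by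
  have key : ∀ (W W' : Submodule F V), (∀ w ∈ W, Q w = 0) → (∀ w ∈ W', Q w = 0) →
      (∀ U : Submodule F V, W ≤ U → (∀ w ∈ U, Q w = 0) → U = W) →
      Module.finrank F W ≤ Module.finrank F W' → Module.finrank F W = Module.finrank F W' := by
    intro W W' hW hW' hmax hle
    obtain ⟨f, hf⟩ := finrank_le_iff_exists_linearMap.1 hle
    obtain ⟨g, hg⟩ := Cfsg.Agent.Orth.witt hQ W (W'.subtype ∘ₗ f)
      (W'.injective_subtype.comp hf) (fun u => by
        rw [hW _ u.2]
        exact hW' _ (f u).2)
    -- `g⁻¹ W'` contains `W`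
    have h1 := hmax (W'.comap ((g : V ≃ₗ[F] V) : V →ₗ[F] V)) (by
        intro w hw
        rw [Submodule.mem_comap]
        have := hg ⟨w, hw⟩
        change (g : V ≃ₗ[F] V) w ∈ W'
        rw [this]
        exact (f ⟨w, hw⟩).2) (by
        intro w hw
        rw [Submodule.mem_comap] at hw
        have := hW' _ hw
        have h2 := Cfsg.Agent.Orth.OGrp_q g w
        rw [← h2]
        exact this)
    have h2 : Module.finrank F (W'.comap ((g : V ≃ₗ[F] V) : V →ₗ[F] V)) = Module.finrank F W' := by
      rw [Submodule.comap_equiv_eq_map_symm]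
      exact LinearEquiv.finrank_map_eq _ _
    rw [← h2, h1]
  constructor
  · rcases le_total (Module.finrank F W₁) (Module.finrank F W₂) with h | h
    · exact key W₁ W₂ h₁ h₂ hmax₁ h
    · exact (key W₂ W₁ h₂ h₁ hmax₂ h).symm
  · have h3 := Submodule.finrank_mono (Cfsg.Agent.Orth.le_perp_of_singular h₁)
    have h4 := Cfsg.Agent.Orth.finrank_perp hQ W₁
    omega

end Cfsg.Agent.S0760
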