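import Cfsg.Statements.S0761


set_option autoImplicit false
open Cfsg

namespace Cfsg.Agent.S0761

/-- Hyperbolic partners: let B be a non-degenerate bilinear form on a finite-dimensional space, either alternating, or symmetric with 2 ≠ 0. If Z is a subspace on which B vanishes, x ∉ Z is isotropic and orthogonal to Z, then there is an isotropic y with B x y = 1 which is orthogonal to Z. -/
theorem result {F V : Type*} [Field F] [AddCommGroup V] [Module F V] [FiniteDimensional F V] (B : LinearMap.BilinForm F V) (hB : B.Nondegenerate) (hform : B.IsAlt ∨ (B.IsSymm ∧ (2 : F) ≠ 0)) (x : V) (Z : Submodule F V) (hxZ : x ∉ Z) (hx : B x x = 0) (hxz : ∀ z ∈ Z, B x z = 0) (hZ : ∀ z ∈ Z, ∀ z' ∈ Z, B z z' = 0) : ∃ y : V, B y y = 0 ∧ B x y = 1 ∧ ∀ z ∈ Z, B z y = 0 := by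
  obtain ⟨f, hfx, hfZ⟩ : ∃ f : Module.Dual F V, f x = 1 ∧ ∀ z ∈ Z, f z = 0 := by
    obtain ⟨f, hf, hfZ⟩ := Submodule.exists_dual_map_eq_bot_of_notMem hxZ inferInstance
    refine ⟨(f x)⁻¹ • f, ?_, ?_⟩
    · simp [hf]
    · intro z hz
      have : f z ∈ Submodule.map f Z := ⟨z, hz, rfl⟩
      rw [hfZ, Submodule.mem_bot] at this
      simp [this]
  obtain ⟨y, hy⟩ : ∃ y : V, ∀ v, B v y = f v := by
    obtain ⟨y, hy⟩ := (LinearMap.BilinForm.toDual B.flip hB.flip).surjective f
    refine ⟨y, fun v => ?_⟩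
    rw [← hy]
    rfl
  rcases hform with hA | ⟨hS, h2⟩
  · exact ⟨y, hA y, by rw [hy, hfx], fun z hz => by rw [hy, hfZ z hz]⟩
  · refine ⟨y - (B y y / 2) • x, ?_, ?_, ?_⟩
    · have h1' : B x y = 1 := by rw [hy, hfx]
      have h1 : B y x = 1 := by rw [← h1']; exact hS.eq y x
      simp only [map_sub, LinearMap.sub_apply, map_smul, LinearMap.smul_apply, smul_eq_mul, hx, h1, h1']
      field_simp
      ring
    · simp [hx, hy, hfx]
    · intro z hz
      have : B z x = 0 := by rw [← hxz z hz]; exact hS.eq z x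
      simp [hy, hfZ z hz, this]

end Cfsg.Agent.S0761
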