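import Cfsg.Statements.S0762


set_option autoImplicit false
open Cfsg

namespace Cfsg.Agent.S0762

/-- In characteristic two over a finite field, a quadratic form on a space of dimension at least 3 vanishes on some non-zero vector. -/
theorem result {F V : Type*} [Field F] [Finite F] [CharP F 2] [AddCommGroup V] [Module F V] [FiniteDimensional F V] (Q : QuadraticForm F V) (h3 : 3 ≤ Module.finrank F V) : ∃ v : V, v ≠ 0 ∧ Q v = 0 := by
  classical
  have := Fintype.ofFinite F
  have hnt : Nontrivial V := Module.finrank_pos_iff.1 (by omega : 0 < Module.finrank F V)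
  obtain ⟨v, hv0⟩ := exists_ne (0 : V)
  by_cases hQv : Q v = 0
  · exact ⟨v, hv0, hQv⟩
  · obtain ⟨w, hw, hwv⟩ : ∃ w : V, QuadraticMap.polar Q v w = 0 ∧ w ∉ Submodule.span F {v} := by
      by_contra hcon
      push Not at hcon
      have hle : LinearMap.ker (QuadraticMap.polarBilin Q v) ≤ Submodule.span F {v} := by
        intro w hw
        exact hcon w hw
      have h0 := Submodule.finrank_mono hle
      have h1 := finrank_span_singleton (K := F) hv0
      have h2 := LinearMap.finrank_range_add_finrank_ker (QuadraticMap.polarBilin Q v)
      have h4 := Submodule.finrank_le (LinearMap.range (QuadraticMap.polarBilin Q v))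
      rw [Module.finrank_self] at h4
      omega
    obtain ⟨t, ht⟩ : IsSquare (Q w / Q v) := FiniteField.isSquare_of_char_two (ringChar.eq F 2 ▸ rfl) _
    refine ⟨w + t • v, ?_, ?_⟩
    · intro h
      apply hwv
      rw [Submodule.mem_span_singleton]
      exact ⟨-t, by rw [neg_smul]; exact (eq_neg_of_add_eq_zero_left h).symm⟩
    · have h4 : Q (w + t • v) = Q w + t * t * Q v + QuadraticMap.polar Q w (t • v) := by
        have := QuadraticMap.map_smul Q t v
        rw [smul_eq_mul] at this
        rw [← this, QuadraticMap.polar]; ring
      rw [h4, QuadraticMap.polar_comm, QuadraticMap.polar_smul_left, hw, ← ht,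
        div_mul_cancel₀ _ hQv, smul_zero, add_zero]
      exact CharTwo.add_self_eq_zero _

end Cfsg.Agent.S0762
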