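import Cfsg.Statements.S0763


set_option autoImplicit false
open Cfsg

namespace Cfsg.Agent.S0763

/-- Binary quadratic forms in characteristic two over a finite field: if Q is a quadratic form on a 2-dimensional space whose polar form is non-degenerate, then either there are vectors v, w with Q v = Q w = 0 and polar value 1 (Q is xy in these coordinates), or there are v, w and μ with Q v = 1, Q w = μ, polar value 1 and x² + x + μ without roots in F (Q is x² + xy + μy²). -/
theorem result {F V : Type*} [Field F] [Finite F] [CharP F 2] [AddCommGroup V] [Module F V] (Q : QuadraticForm F V) (h2 : Module.finrank F V = 2) (hQ : (QuadraticMap.polarBilin Q).Nondegenerate) : (∃ v w : V, LinearIndependent F ![v, w] ∧ Q v = 0 ∧ Q w = 0 ∧ QuadraticMap.polar Q v w = 1) ∨ (∃ (v w : V) (μ : F), LinearIndependent F ![v, w] ∧ (∀ x : F, x ^ 2 + x + μ ≠ 0) ∧ Q v = 1 ∧ Q w = μ ∧ QuadraticMap.polar Q v w = 1) := by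
  have hindep : ∀ v w : V, QuadraticMap.polar (⇑Q) v w = 1 → LinearIndependent F ![v, w] := by
    intro v w h
    have hpv : ∀ x : V, QuadraticMap.polar (⇑Q) x x = 0 := by
      intro x
      rw [QuadraticMap.polar_self]
      simp [CharTwo.two_eq_zero]
    rw [LinearIndependent.pair_iff]
    intro s t hst
    have h1 : QuadraticMap.polar (⇑Q) v (s • v + t • w) = 0 := by rw [hst]; simp
    have h2' : QuadraticMap.polar (⇑Q) w (s • v + t • w) = 0 := by rw [hst]; simp
    rw [QuadraticMap.polar_add_right, QuadraticMap.polar_smul_right, QuadraticMap.polar_smul_right,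
      hpv, h] at h1
    rw [QuadraticMap.polar_add_right, QuadraticMap.polar_smul_right, QuadraticMap.polar_smul_right,
      hpv, QuadraticMap.polar_comm, h] at h2'
    simp at h1 h2'
    exact ⟨h2', h1⟩
  have hpartner : ∀ v : V, v ≠ 0 → ∃ w, QuadraticMap.polar (⇑Q) v w = 1 := by
    intro v hv
    obtain ⟨w, hw⟩ : ∃ w, QuadraticMap.polar (⇑Q) v w ≠ 0 := by
      by_contra hcon
      push Not at hcon
      exact hv (hQ.1 v hcon)
    refine ⟨(QuadraticMap.polar (⇑Q) v w)⁻¹ • w, ?_⟩
    rw [QuadraticMap.polar_smul_right, smul_eq_mul, inv_mul_cancel₀ hw]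
  have hadd : ∀ (v w : V) (t : F), Q (w + t • v) = Q w + t * t * Q v + t * QuadraticMap.polar (⇑Q) v w := by
    intro v w t
    have h1 := QuadraticMap.map_smul Q t v
    have h2 := QuadraticMap.polar_smul_right Q t w v
    rw [smul_eq_mul] at h1 h2
    rw [QuadraticMap.polar_comm (⇑Q) v w, ← h1, ← h2, QuadraticMap.polar]
    ring
  by_cases hex : ∃ v : V, v ≠ 0 ∧ Q v = 0
  · left
    obtain ⟨v, hv, hQv⟩ := hex
    obtain ⟨w, hw⟩ := hpartner v hv
    have hw' : QuadraticMap.polar (⇑Q) v (w + Q w • v) = 1 := by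
      rw [QuadraticMap.polar_add_right, hw, QuadraticMap.polar_smul_right, QuadraticMap.polar_self, hQv]
      simp
    refine ⟨v, w + Q w • v, hindep _ _ hw', hQv, ?_, hw'⟩
    rw [hadd, hQv, hw, mul_zero, add_zero, mul_one]
    exact CharTwo.add_self_eq_zero _
  · right
    push Not at hex
    have hfin : Module.Finite F V := Module.finite_of_finrank_pos (by omega)
    have hnt : Nontrivial V := Module.finrank_pos_iff.1 (by omega : 0 < Module.finrank F V)
    obtain ⟨v0, hv0⟩ := exists_ne (0 : V)
    have hQ0 := hex v0 hv0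
    have := Fintype.ofFinite F
    obtain ⟨t, ht⟩ : IsSquare ((Q v0)⁻¹) := FiniteField.isSquare_of_char_two (ringChar.eq F 2 ▸ rfl) _
    have ht0 : t ≠ 0 := by
      rintro rfl
      rw [mul_zero] at ht
      exact hQ0 (inv_eq_zero.1 ht)
    have hv1 : Q (t • v0) = 1 := by
      rw [QuadraticMap.map_smul, smul_eq_mul, ← ht, inv_mul_cancel₀ hQ0]
    obtain ⟨w, hw⟩ := hpartner (t • v0) (smul_ne_zero ht0 hv0)
    refine ⟨t • v0, w, Q w, hindep _ _ hw, ?_, hv1, rfl, hw⟩
    intro x hx
    have h3 := hadd (t • v0) w x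
    rw [hv1, hw] at h3
    have h4 : Q (w + x • (t • v0)) = 0 := by rw [h3]; linear_combination hx
    by_contra
    have h5 : w + x • (t • v0) = 0 := by
      by_contra hne
      exact hex _ hne h4
    have h6 : QuadraticMap.polar (⇑Q) (t • v0) (w + x • (t • v0)) = 0 := by rw [h5]; simp
    rw [QuadraticMap.polar_add_right, hw, QuadraticMap.polar_smul_right, QuadraticMap.polar_self, hv1] at h6
    simp [CharTwo.two_eq_zero] at h6

end Cfsg.Agent.S0763
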