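import Cfsg.Statements.S0768
import Cfsg.Agent.Witt.Basic
import Cfsg.Agent.ClGeo.Symp

set_option autoImplicit false
open scoped LinearAlgebra.Projectivization
open Cfsg

namespace Cfsg.Agent.S0768

/-- Primitivity: for m ≥ 1 and F finite, the symplectic group of the form sympForm (as a subgroup of the general linear group) acts primitively on the projective space of F^(2m). -/
theorem result {F : Type*} [Field F] [Finite F] (m : ℕ) (hm : 1 ≤ m) : MulAction.IsPreprimitive ↥(Cfsg.spGL m F) (ℙ F (Fin m ⊕ Fin m → F)) := by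
  have hW := Cfsg.Agent.Witt.isWittForm_of_isAlt (Cfsg.Agent.ClGeo.sB F m)
    (Cfsg.Agent.ClGeo.sB_nondegenerate m) (Cfsg.Agent.ClGeo.sB_isAlt m)
  -- lifting isometries to the group
  have hlift : ∀ g : (Fin m ⊕ Fin m → F) ≃ₗ[F] (Fin m ⊕ Fin m → F),
      (∀ u v, Cfsg.Agent.ClGeo.sB F m (g u) (g v) = Cfsg.Agent.ClGeo.sB F m u v) →
      ∃ A : ↥(Cfsg.spGL m F), ∀ v : Fin m ⊕ Fin m → F, A • v = g v := by
    intro g hg
    let A : Matrix.GeneralLinearGroup (Fin m ⊕ Fin m) F :=
      ⟨LinearMap.toMatrix' (g : (Fin m ⊕ Fin m → F) →ₗ[F] (Fin m ⊕ Fin m → F)),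
        LinearMap.toMatrix' (g.symm : (Fin m ⊕ Fin m → F) →ₗ[F] (Fin m ⊕ Fin m → F)),
        by rw [← LinearMap.toMatrix'_comp]; simp,
        by rw [← LinearMap.toMatrix'_comp]; simp⟩
    have hA : ∀ v, (A : Matrix (Fin m ⊕ Fin m) (Fin m ⊕ Fin m) F).mulVec v = g v := by
      intro v
      exact LinearMap.toMatrix'_mulVec _ v
    refine ⟨⟨A, ?_⟩, fun v => ?_⟩
    · intro u v
      change Cfsg.sympForm m F ((A : Matrix (Fin m ⊕ Fin m) (Fin m ⊕ Fin m) F).mulVec u)
        ((A : Matrix (Fin m ⊕ Fin m) (Fin m ⊕ Fin m) F).mulVec v) = _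
      rw [hA, hA, ← Cfsg.Agent.ClGeo.sB_apply, hg, Cfsg.Agent.ClGeo.sB_apply]
    · exact hA v
  set B := Cfsg.Agent.ClGeo.sB F m with hBdef
  have hBs : ∀ u, B u u = 0 := Cfsg.Agent.ClGeo.sB_isAlt m
  have hBn : ∀ u v, B u v = - B v u := by
    intro u v
    rw [hBdef, Cfsg.Agent.ClGeo.sB_apply, Cfsg.Agent.ClGeo.sB_apply]
    exact Cfsg.Agent.ClGeo.sympForm_neg_swap m u v
  have hpair : ∀ v₁ v₂ w₁ w₂ : Fin m ⊕ Fin m → F, LinearIndependent F ![v₁, v₂] →
      LinearIndependent F ![w₁, w₂] → B v₁ v₂ = B w₁ w₂ →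
      ∃ A : ↥(Cfsg.spGL m F), A • v₁ = w₁ ∧ A • v₂ = w₂ := by
    intro v₁ v₂ w₁ w₂ hv hw h
    obtain ⟨g, hg, hgx⟩ := hW.family 2 ![v₁, v₂] ![w₁, w₂] hv hw (by
      intro i j
      fin_cases i <;> fin_cases j
      · simp [hBs]
      · simpa using h
      · simp only [Fin.mk_one, Matrix.cons_val_one, Fin.zero_eta, Matrix.cons_val_zero]
        rw [hBn v₂, hBn w₂, h]
      · simp [hBs])
    obtain ⟨A, hA⟩ := hlift g hg
    exact ⟨A, by rw [hA]; exact hgx 0, by rw [hA]; exact hgx 1⟩
  have hsingle : ∀ v w : Fin m ⊕ Fin m → F, v ≠ 0 → w ≠ 0 → ∃ A : ↥(Cfsg.spGL m F), A • v = w := by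
    intro v w hv hw
    obtain ⟨g, hg, hgx⟩ := hW.family 1 ![v] ![w] (by simpa [linearIndependent_unique_iff] using hv)
      (by simpa [linearIndependent_unique_iff] using hw) (by
      intro i j
      fin_cases i; fin_cases j
      simp [hBs])
    obtain ⟨A, hA⟩ := hlift g hg
    exact ⟨A, by rw [hA]; exact hgx 0⟩
  -- nonorthogonal pairs are independent
  have hindep : ∀ v w : Fin m ⊕ Fin m → F, B v w ≠ 0 → LinearIndependent F ![v, w] := by
    intro v w h
    have hv : v ≠ 0 := by rintro rfl; exact h (by rw [map_zero, LinearMap.zero_apply])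
    rw [LinearIndependent.pair_iff' hv]
    rintro a rfl
    exact h (by rw [map_smul, hBs, smul_zero])
  have hmk : ∀ (A : ↥(Cfsg.spGL m F)) (v w : Fin m ⊕ Fin m → F) (hv : v ≠ 0) (hw : w ≠ 0) (a : F),
      A • v = a • w → A • Projectivization.mk F v hv = Projectivization.mk F w hw := by
    intro A v w hv hw a h
    have h1 : A • Projectivization.mk F v hv = Projectivization.mk F ((A : Matrix.GeneralLinearGroup (Fin m ⊕ Fin m) F) • v)
        ((smul_ne_zero_iff_ne (A : Matrix.GeneralLinearGroup (Fin m ⊕ Fin m) F)).mpr hv) := rfl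
    rw [h1, Projectivization.mk_eq_mk_iff']
    exact ⟨a, h.symm⟩
  have htrans : MulAction.IsPretransitive ↥(Cfsg.spGL m F) (ℙ F (Fin m ⊕ Fin m → F)) := by
    refine ⟨fun P Q => ?_⟩
    induction P using Projectivization.ind with | h v hv =>
    induction Q using Projectivization.ind with | h w hw =>
    obtain ⟨A, hA⟩ := hsingle v w hv hw
    exact ⟨A, hmk A v w hv hw 1 (by rw [hA, one_smul])⟩
  refine { toIsPretransitive := htrans, isTrivialBlock_of_isBlock := ?_ }
  intro S hS
  by_cases hsub : S.Subsingleton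
  · exact Or.inl hsub
  right
  have hstab : ∀ (A : ↥(Cfsg.spGL m F)) (P R : ℙ F (Fin m ⊕ Fin m → F)), P ∈ S → A • P = P → R ∈ S → A • R ∈ S := by
    intro A P R hP hAP hR
    have h1 := hS.smul_eq_of_mem (g := A) hP (by rw [hAP]; exact hP)
    rw [← h1]
    exact Set.smul_mem_smul_set hR
  have prop1 : ∀ (p r x : Fin m ⊕ Fin m → F) (hp : p ≠ 0) (hr : r ≠ 0) (hx : x ≠ 0),
      Projectivization.mk F p hp ∈ S → Projectivization.mk F r hr ∈ S → B p r ≠ 0 → B p x ≠ 0 →
      Projectivization.mk F x hx ∈ S := by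
    intro p r x hp hr hx hpS hrS hpr hpx
    have hc : B p r / B p x ≠ 0 := div_ne_zero hpr hpx
    obtain ⟨A, hA1, hA2⟩ := hpair p r p ((B p r / B p x) • x) (hindep _ _ hpr)
      (hindep _ _ (by rw [map_smul, smul_eq_mul, div_mul_cancel₀ _ hpx]; exact hpr))
      (by rw [map_smul, smul_eq_mul, div_mul_cancel₀ _ hpx])
    have h1 := hstab A _ _ hpS (hmk A p p hp hp 1 (by rw [hA1, one_smul])) hrS
    have h2 : A • Projectivization.mk F r hr = Projectivization.mk F x hx := hmk A r x hr hx _ hA2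
    rwa [h2] at h1
  have prop2 : ∀ (p r x : Fin m ⊕ Fin m → F) (hp : p ≠ 0) (hr : r ≠ 0) (hx : x ≠ 0),
      Projectivization.mk F p hp ∈ S → Projectivization.mk F r hr ∈ S → LinearIndependent F ![p, r] →
      LinearIndependent F ![p, x] → B p r = 0 → B p x = 0 → Projectivization.mk F x hx ∈ S := by
    intro p r x hp hr hx hpS hrS hpri hpxi hpr hpx
    obtain ⟨A, hA1, hA2⟩ := hpair p r p x hpri hpxi (by rw [hpr, hpx])
    have h1 := hstab A _ _ hpS (hmk A p p hp hp 1 (by rw [hA1, one_smul])) hrS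
    have h2 : A • Projectivization.mk F r hr = Projectivization.mk F x hx :=
      hmk A r x hr hx 1 (by rw [hA2, one_smul])
    rwa [h2] at h1
  have hex : ∀ v : Fin m ⊕ Fin m → F, v ≠ 0 → ∃ w, B v w ≠ 0 := by
    intro v hv
    by_contra hcon
    push Not at hcon
    exact hv (hW.nondeg v hcon)
  rw [Set.not_subsingleton_iff] at hsub
  obtain ⟨P, hPS, R, hRS, hPR⟩ := hsub
  induction P using Projectivization.ind with | h p hp =>
  induction R using Projectivization.ind with | h r hr =>
  rw [Set.eq_univ_iff_forall]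
  intro X
  induction X using Projectivization.ind with | h x hx =>
  have hind : LinearIndependent F ![p, r] := by
    rw [LinearIndependent.pair_iff' hp]
    intro a ha
    apply hPR
    rw [eq_comm, Projectivization.mk_eq_mk_iff']
    exact ⟨a, ha⟩
  by_cases hpr : B p r = 0
  · by_cases hpx : B p x = 0
    · by_cases hpxi : LinearIndependent F ![p, x]
      · exact prop2 p r x hp hr hx hPS hRS hind hpxi hpr hpx
      · rw [LinearIndependent.pair_iff' hp] at hpxi
        push Not at hpxi
        obtain ⟨a, ha⟩ := hpxi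
        have h1 : Projectivization.mk F x hx = Projectivization.mk F p hp := by
          rw [Projectivization.mk_eq_mk_iff']
          exact ⟨a, ha⟩
        rw [h1]; exact hPS
    · -- intermediate point
      set s := r - (B r x / B p x) • p with hs
      have hsx : B s x = 0 := by
        rw [hs, map_sub, LinearMap.sub_apply, map_smul, LinearMap.smul_apply, smul_eq_mul,
          div_mul_cancel₀ _ hpx, sub_self]
      have hps : B p s = 0 := by
        rw [hs, map_sub, map_smul, hBs, hpr, smul_zero, sub_zero]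
      have hs0 : s ≠ 0 := by
        intro h0
        rw [LinearIndependent.pair_iff' hp] at hind
        exact hind _ (sub_eq_zero.1 h0).symm
      have hpsi : LinearIndependent F ![p, s] := by
        rw [LinearIndependent.pair_iff' hp]
        intro a ha
        rw [LinearIndependent.pair_iff' hp] at hind
        apply hind (a + B r x / B p x)
        rw [add_smul, ha, hs]; abel
      have hsxi : LinearIndependent F ![s, x] := by
        rw [LinearIndependent.pair_iff' hs0]
        rintro a ha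
        apply hpx
        rw [← ha, map_smul, hps, smul_zero]
      have hspi : LinearIndependent F ![s, p] := by
        rw [LinearIndependent.pair_symm_iff]; exact hpsi
      have h1 := prop2 p r s hp hr hs0 hPS hRS hind hpsi hpr hps
      exact prop2 s p x hs0 hp hx h1 hPS hspi hsxi (by rw [hBn, hps, neg_zero]) hsx
  · by_cases hpx : B p x = 0
    · obtain ⟨s, hs1, hs2⟩ : ∃ s, B p s ≠ 0 ∧ B s x ≠ 0 := by
        obtain ⟨a, ha⟩ := hex p hp
        obtain ⟨b, hb⟩ := hex x hx
        by_cases h1 : B x a = 0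
        · by_cases h2 : B p b = 0
          · refine ⟨a + b, ?_, ?_⟩
            · rw [map_add, h2, add_zero]; exact ha
            · rw [hBn, map_add, h1, zero_add]; exact neg_ne_zero.2 hb
          · exact ⟨b, h2, by rw [hBn]; exact neg_ne_zero.2 hb⟩
        · exact ⟨a, ha, by rw [hBn]; exact neg_ne_zero.2 h1⟩
      have hs0 : s ≠ 0 := by rintro rfl; exact hs1 (map_zero _)
      have h1 := prop1 p r s hp hr hs0 hPS hRS hpr hs1
      exact prop1 s p x hs0 hp hx h1 hPS (by rw [hBn]; exact neg_ne_zero.2 hs1) hs2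
    · exact prop1 p r x hp hr hx hPS hRS hpr hpx

end Cfsg.Agent.S0768
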