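import Cfsg.Statements.S0770
import Cfsg.Agent.ClGeo.Monomial

set_option autoImplicit false
open Cfsg

namespace Cfsg.Agent.S0770

/-- For a field with at least 3 elements, an invertible matrix normalises the subgroup of invertible diagonal matrices of GL_n if and only if it is monomial (exactly one non-zero entry in each row). -/
theorem result {F : Type*} [Field F] (hF : ∃ a : F, a ≠ 0 ∧ a ≠ 1) (n : ℕ) (g : Matrix.GeneralLinearGroup (Fin n) F) : g ∈ Subgroup.normalizer ((Units.map (Matrix.diagonalRingHom (Fin n) F).toMonoidHom).range : Subgroup (Matrix.GeneralLinearGroup (Fin n) F)) ↔ ∀ i : Fin n, ∃! j : Fin n, (g : Matrix (Fin n) (Fin n) F) i j ≠ 0 := by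
  classical
  obtain ⟨a, ha0, ha1⟩ := hF
  set T := ((Units.map (Matrix.diagonalRingHom (Fin n) F).toMonoidHom).range : Subgroup (Matrix.GeneralLinearGroup (Fin n) F)) with hT
  have hmemT : ∀ x : Matrix.GeneralLinearGroup (Fin n) F, x ∈ T ↔ ∃ t : Fin n → F, (x : Matrix (Fin n) (Fin n) F) = Matrix.diagonal t := by
    intro x
    constructor
    · rintro ⟨t, rfl⟩
      exact ⟨t, rfl⟩
    · rintro ⟨t, ht⟩
      have hdet : (x : Matrix (Fin n) (Fin n) F).det ≠ 0 := x.det.ne_zero
      rw [ht, Matrix.det_diagonal, Finset.prod_ne_zero_iff] at hdet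
      refine ⟨⟨t, fun i => (t i)⁻¹, ?_, ?_⟩, ?_⟩
      · funext i; exact mul_inv_cancel₀ (hdet i (Finset.mem_univ _))
      · funext i; exact inv_mul_cancel₀ (hdet i (Finset.mem_univ _))
      · apply Units.ext
        exact ht.symm
  have hgg : (g : Matrix (Fin n) (Fin n) F) * ((g⁻¹ : Matrix.GeneralLinearGroup (Fin n) F) : Matrix (Fin n) (Fin n) F) = 1 := by
    rw [← Units.val_mul, mul_inv_cancel, Units.val_one]
  rw [Subgroup.mem_normalizer_iff]
  constructor
  · intro h i
    obtain ⟨j, hj⟩ := Cfsg.Agent.ClGeo.exists_row_ne_zero _ _ hgg i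
    refine ⟨j, hj, fun j' hj' => ?_⟩
    refine Cfsg.Agent.ClGeo.row_unique_of_conj (g : Matrix (Fin n) (Fin n) F) ?_ i j' j hj' hj
    intro b b' hb
    -- the diagonal element
    let t : Fin n → F := fun l => if l = b then a else 1
    have ht0 : ∀ l, t l ≠ 0 := by
      intro l
      simp only [t]
      split_ifs
      · exact ha0
      · exact one_ne_zero
    let x : Matrix.GeneralLinearGroup (Fin n) F := ⟨Matrix.diagonal t, Matrix.diagonal fun l => (t l)⁻¹,
      by rw [Matrix.diagonal_mul_diagonal, ← Matrix.diagonal_one]; congr 1; funext l; exact mul_inv_cancel₀ (ht0 l),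
      by rw [Matrix.diagonal_mul_diagonal, ← Matrix.diagonal_one]; congr 1; funext l; exact inv_mul_cancel₀ (ht0 l)⟩
    have hx : x ∈ T := (hmemT x).2 ⟨t, rfl⟩
    have h1 := (h x).1 hx
    obtain ⟨t', ht'⟩ := (hmemT _).1 h1
    refine ⟨t, t', ?_, ?_⟩
    · simp only [t, if_true, if_neg (Ne.symm hb)]
      exact ha1
    · rw [← ht', ← Units.val_mul, inv_mul_cancel_right, Units.val_mul]
  · intro h
    choose π hπ hπ' using h
    have hπ2 : ∀ i j, (g : Matrix (Fin n) (Fin n) F) i j ≠ 0 ↔ j = π i :=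
      fun i j => ⟨fun hj => hπ' i j hj, fun hj => hj ▸ hπ i⟩
    have hinj := Cfsg.Agent.ClGeo.col_injective _ _ hgg π hπ2
    have hg0 : ∀ i j, j ≠ π i → (g : Matrix (Fin n) (Fin n) F) i j = 0 := by
      intro i j hij
      by_contra hcon
      exact hij ((hπ2 i j).1 hcon)
    -- g * diag (t) = diag (t ∘ π) * g
    have key : ∀ t : Fin n → F, (g : Matrix (Fin n) (Fin n) F) * Matrix.diagonal t = Matrix.diagonal (t ∘ π) * (g : Matrix (Fin n) (Fin n) F) := by
      intro t
      ext i j
      rw [Matrix.mul_diagonal, Matrix.diagonal_mul]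
      by_cases hj : j = π i
      · subst hj; rw [mul_comm]; rfl
      · rw [hg0 i j hj, zero_mul, mul_zero]
    intro x
    rw [hmemT, hmemT]
    constructor
    · rintro ⟨t, ht⟩
      refine ⟨t ∘ π, ?_⟩
      rw [Units.val_mul, Units.val_mul, ht, key, mul_assoc, hgg, mul_one]
    · rintro ⟨t', ht'⟩
      have hbij : Function.Bijective π := Finite.injective_iff_bijective.1 hinj
      obtain ⟨e, he⟩ : ∃ e : Fin n ≃ Fin n, ∀ i, e i = π i := ⟨Equiv.ofBijective π hbij, fun i => rfl⟩
      refine ⟨t' ∘ e.symm, ?_⟩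
      have h1 := key (t' ∘ e.symm)
      have h2 : (t' ∘ e.symm) ∘ π = t' := by
        funext i
        simp [← he]
      rw [h2] at h1
      have h3 : (g : Matrix (Fin n) (Fin n) F) * (x : Matrix (Fin n) (Fin n) F) = Matrix.diagonal t' * (g : Matrix (Fin n) (Fin n) F) := by
        rw [← ht', ← Units.val_mul, ← Units.val_mul, inv_mul_cancel_right]
      have h4 : (g : Matrix (Fin n) (Fin n) F) * (x : Matrix (Fin n) (Fin n) F) = (g : Matrix (Fin n) (Fin n) F) * Matrix.diagonal (t' ∘ e.symm) := by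
        rw [h3, h1]
      have h5 := congrArg (fun y => ((g⁻¹ : Matrix.GeneralLinearGroup (Fin n) F) : Matrix (Fin n) (Fin n) F) * y) h4
      simp only [← mul_assoc] at h5
      have h6 : ((g⁻¹ : Matrix.GeneralLinearGroup (Fin n) F) : Matrix (Fin n) (Fin n) F) * (g : Matrix (Fin n) (Fin n) F) = 1 := by
        rw [← Units.val_mul, inv_mul_cancel, Units.val_one]
      rw [h6, one_mul, one_mul] at h5
      exact h5

end Cfsg.Agent.S0770
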