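import Cfsg.Statements.S0773
import Cfsg.Agent.ClGeo.Parab2

set_option autoImplicit false
open Cfsg

namespace Cfsg.Agent.S0773

/-- The stabilisers in GL_n(F), F finite, of the coordinate subspaces of dimensions k and n − k are isomorphic groups, but when 2k ≠ n (and 0 < k < n) no element of GL_n conjugates one onto the other. -/
theorem result {F : Type*} [Field F] [Finite F] (n k : ℕ) (hk0 : 0 < k) (hkn : k < n) (h2 : 2 * k ≠ n) : Nonempty (↥(Cfsg.stabilizing (Cfsg.glToMat (Fin n) F) {v : Fin n → F | ∀ i : Fin n, k ≤ (i : ℕ) → v i = 0}) ≃* ↥(Cfsg.stabilizing (Cfsg.glToMat (Fin n) F) {v : Fin n → F | ∀ i : Fin n, n - k ≤ (i : ℕ) → v i = 0})) ∧ ∀ g : Matrix.GeneralLinearGroup (Fin n) F, (Cfsg.stabilizing (Cfsg.glToMat (Fin n) F) {v : Fin n → F | ∀ i : Fin n, k ≤ (i : ℕ) → v i = 0}).map (MulAut.conj g).toMonoidHom ≠ Cfsg.stabilizing (Cfsg.glToMat (Fin n) F) {v : Fin n → F | ∀ i : Fin n, n - k ≤ (i : ℕ) → v i = 0} := by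
  constructor
  · have h := Cfsg.Agent.ClGeo.map_dualGL_par (F := F) hkn.le
    exact ⟨((Cfsg.Agent.ClGeo.dualGL n F).subgroupMap _).trans (MulEquiv.subgroupCongr h)⟩
  · intro g hg
    have hinv : ∀ h ∈ Cfsg.Agent.ClGeo.par F n (n - k), ∀ u ∈ (Cfsg.Agent.ClGeo.coordSub F n k).map
        (Matrix.mulVecLin (g : Matrix (Fin n) (Fin n) F)), (h : Matrix (Fin n) (Fin n) F).mulVec u ∈
        (Cfsg.Agent.ClGeo.coordSub F n k).map (Matrix.mulVecLin (g : Matrix (Fin n) (Fin n) F)) := by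
      intro h hh u hu
      have hh' : h ∈ (Cfsg.stabilizing (Cfsg.glToMat (Fin n) F) {v : Fin n → F | ∀ i : Fin n, k ≤ (i : ℕ) → v i = 0}).map (MulAut.conj g).toMonoidHom := by
        rw [hg]; exact hh
      obtain ⟨p, hp, rfl⟩ := hh'
      obtain ⟨w, hw, rfl⟩ := hu
      refine ⟨(p : Matrix (Fin n) (Fin n) F).mulVec w, (Cfsg.Agent.ClGeo.mem_par_iff p).1 hp w hw, ?_⟩
      change (g : Matrix (Fin n) (Fin n) F).mulVec ((p : Matrix (Fin n) (Fin n) F).mulVec w) =
        ((g * p * g⁻¹ : Matrix.GeneralLinearGroup (Fin n) F) : Matrix (Fin n) (Fin n) F).mulVec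
          ((g : Matrix (Fin n) (Fin n) F).mulVec w)
      rw [← Cfsg.Agent.ClGeo.gl_mul_mulVec, ← Cfsg.Agent.ClGeo.gl_mul_mulVec, inv_mul_cancel_right]
    have hfr : Module.finrank F ((Cfsg.Agent.ClGeo.coordSub F n k).map
        (Matrix.mulVecLin (g : Matrix (Fin n) (Fin n) F))) = k := by
      rw [LinearEquiv.finrank_eq (Submodule.equivMapOfInjective _ (Cfsg.Agent.ClGeo.mulVec_gl_injective g) _).symm,
        Cfsg.Agent.ClGeo.finrank_coordSub hkn.le]
    rcases Cfsg.Agent.ClGeo.par_invariant _ hinv with h | h | h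
    · rw [h, finrank_bot] at hfr; omega
    · rw [h, Cfsg.Agent.ClGeo.finrank_coordSub (Nat.sub_le n k)] at hfr; omega
    · rw [h, finrank_top, Module.finrank_fin_fun] at hfr; omega

end Cfsg.Agent.S0773
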