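import Cfsg.Statements.S0774
import Cfsg.Agent.ClGeo.Count
import Cfsg.Agent.ClGeo.SpBlocks

set_option autoImplicit false
open Cfsg

namespace Cfsg.Agent.S0774

/-- Borel subgroup of the symplectic group: the elements of Sp_2m(q) stabilising each of the totally isotropic coordinate subspaces ⟨e_0, ..., e_k⟩ (k < m) form a subgroup of order q^(m²) (q − 1)^m. -/
theorem result {F : Type*} [Field F] [Fintype F] {q : ℕ} (hF : Fintype.card F = q) (m : ℕ) : Nat.card ↥(⨅ k : Fin m, Cfsg.stabilizing (Cfsg.spToMat m F) {v : Fin m ⊕ Fin m → F | (∀ i : Fin m, (k : ℕ) < (i : ℕ) → v (Sum.inl i) = 0) ∧ ∀ i : Fin m, v (Sum.inr i) = 0}) = q ^ (m ^ 2) * (q - 1) ^ m := by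
  classical
  set P := (⨅ k : Fin m, Cfsg.stabilizing (Cfsg.spToMat m F) {v : Fin m ⊕ Fin m → F | (∀ i : Fin m, (k : ℕ) < (i : ℕ) → v (Sum.inl i) = 0) ∧ ∀ i : Fin m, v (Sum.inr i) = 0}) with hP
  let L := {g : Matrix.GeneralLinearGroup (Fin m) F // ∀ i j : Fin m, i < j → (g : Matrix (Fin m) (Fin m) F) i j = 0}
  let S := {M : Matrix (Fin m) (Fin m) F // M.transpose = M}
  -- the symplectic matrix attached to `(g, s)`
  have hsymp : ∀ (g : L) (s : S), Matrix.fromBlocks (g.1 : Matrix (Fin m) (Fin m) F).transpose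
      ((g.1 : Matrix (Fin m) (Fin m) F).transpose * s.1) 0
      ((g.1⁻¹ : Matrix.GeneralLinearGroup (Fin m) F) : Matrix (Fin m) (Fin m) F) ∈ Matrix.symplecticGroup (Fin m) F := by
    intro g s
    have h1 : (g.1 : Matrix (Fin m) (Fin m) F) * ((g.1⁻¹ : Matrix.GeneralLinearGroup (Fin m) F) : Matrix (Fin m) (Fin m) F) = 1 := by
      rw [← Units.val_mul, mul_inv_cancel, Units.val_one]
    have h2 : ((g.1⁻¹ : Matrix.GeneralLinearGroup (Fin m) F) : Matrix (Fin m) (Fin m) F).transpose * (g.1 : Matrix (Fin m) (Fin m) F).transpose = 1 := by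
      rw [← Matrix.transpose_mul, h1, Matrix.transpose_one]
    rw [SymplecticGroup.fromBlocks_mem_iff]
    refine ⟨by simp, ?_, ?_⟩
    · rw [Matrix.transpose_mul, Matrix.transpose_transpose, s.2, Matrix.mul_assoc, h1, Matrix.mul_one,
        ← Matrix.mul_assoc, h2, Matrix.one_mul]
    · rw [Matrix.transpose_transpose, h1, Matrix.transpose_zero, Matrix.zero_mul, sub_zero]
  have hmem : ∀ (g : L) (s : S), (⟨_, hsymp g s⟩ : Matrix.symplecticGroup (Fin m) F) ∈ P := by
    intro g s
    rw [hP, Subgroup.mem_iInf]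
    intro k
    let W : Submodule F (Fin m ⊕ Fin m → F) :=
      { carrier := {v : Fin m ⊕ Fin m → F | (∀ i : Fin m, (k : ℕ) < (i : ℕ) → v (Sum.inl i) = 0) ∧ ∀ i : Fin m, v (Sum.inr i) = 0}
        add_mem' := fun {a b} ha hb => ⟨fun i hi => by rw [Pi.add_apply, ha.1 i hi, hb.1 i hi, add_zero],
          fun i => by rw [Pi.add_apply, ha.2 i, hb.2 i, add_zero]⟩
        zero_mem' := ⟨fun _ _ => rfl, fun _ => rfl⟩
        smul_mem' := fun c a ha => ⟨fun i hi => by rw [Pi.smul_apply, ha.1 i hi, smul_zero],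
          fun i => by rw [Pi.smul_apply, ha.2 i, smul_zero]⟩ }
    have hinj : Function.Injective (Matrix.mulVecLin (Matrix.fromBlocks (g.1 : Matrix (Fin m) (Fin m) F).transpose
      ((g.1 : Matrix (Fin m) (Fin m) F).transpose * s.1) 0
      ((g.1⁻¹ : Matrix.GeneralLinearGroup (Fin m) F) : Matrix (Fin m) (Fin m) F))) := by
      intro x y hxy
      have h3 := congrArg (fun z => (((⟨_, hsymp g s⟩ : Matrix.symplecticGroup (Fin m) F)⁻¹ : Matrix.symplecticGroup (Fin m) F) : Matrix (Fin m ⊕ Fin m) (Fin m ⊕ Fin m) F).mulVec z) hxy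
      simp only [Matrix.mulVecLin_apply, Matrix.mulVec_mulVec] at h3
      have h4 : (((⟨_, hsymp g s⟩ : Matrix.symplecticGroup (Fin m) F)⁻¹ : Matrix.symplecticGroup (Fin m) F) : Matrix (Fin m ⊕ Fin m) (Fin m ⊕ Fin m) F) * (Matrix.fromBlocks (g.1 : Matrix (Fin m) (Fin m) F).transpose
          ((g.1 : Matrix (Fin m) (Fin m) F).transpose * s.1) 0
          ((g.1⁻¹ : Matrix.GeneralLinearGroup (Fin m) F) : Matrix (Fin m) (Fin m) F)) = 1 :=
        congrArg Subtype.val (inv_mul_cancel (⟨_, hsymp g s⟩ : Matrix.symplecticGroup (Fin m) F))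
      rw [h4, Matrix.one_mulVec, Matrix.one_mulVec] at h3
      exact h3
    intro v
    refine Cfsg.Agent.ClGeo.mem_iff_of_map_le _ hinj W ?_ v
    intro w hw
    have hw2 : w ∘ Sum.inr = 0 := funext hw.2
    rw [Matrix.mulVecLin_apply, Matrix.fromBlocks_mulVec]
    refine ⟨fun i hi => ?_, fun i => ?_⟩
    · rw [Sum.elim_inl, Pi.add_apply, hw2, Matrix.mulVec_zero, Pi.zero_apply, add_zero]
      rw [Matrix.mulVec, dotProduct]
      apply Finset.sum_eq_zero
      intro j _
      by_cases hj : (k : ℕ) < j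
      · have : (w ∘ Sum.inl) j = 0 := hw.1 j hj
        rw [this, mul_zero]
      · have : (g.1 : Matrix (Fin m) (Fin m) F) j i = 0 := g.2 j i (by
          rw [Fin.lt_def]; omega)
        rw [Matrix.transpose_apply, this, zero_mul]
    · rw [Sum.elim_inr, Pi.add_apply, hw2, Matrix.mulVec_zero, Matrix.zero_mulVec]
      simp
  let f : L × S → P := fun p => ⟨_, hmem p.1 p.2⟩
  have hf : Function.Bijective f := by
    constructor
    · rintro ⟨g, s⟩ ⟨g', s'⟩ h
      have h1 := congrArg (fun x : P => ((x : Matrix.symplecticGroup (Fin m) F) : Matrix (Fin m ⊕ Fin m) (Fin m ⊕ Fin m) F)) h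
      simp only [f, Matrix.fromBlocks_inj] at h1
      have hg : g = g' := by
        apply Subtype.ext
        apply Units.ext
        have := congrArg Matrix.transpose h1.1
        simpa using this
      subst hg
      have hs : s = s' := by
        apply Subtype.ext
        have h2 := congrArg (fun x => ((g.1⁻¹ : Matrix.GeneralLinearGroup (Fin m) F) : Matrix (Fin m) (Fin m) F).transpose * x) h1.2.1
        have h3 : ((g.1⁻¹ : Matrix.GeneralLinearGroup (Fin m) F) : Matrix (Fin m) (Fin m) F).transpose * (g.1 : Matrix (Fin m) (Fin m) F).transpose = 1 := by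
          rw [← Matrix.transpose_mul, ← Units.val_mul, mul_inv_cancel, Units.val_one, Matrix.transpose_one]
        simp only [← Matrix.mul_assoc, h3, Matrix.one_mul] at h2
        exact h2
      rw [hs]
    · rintro ⟨M, hM⟩
      have hM' := hM
      rw [hP, Subgroup.mem_iInf] at hM'
      have hC : (M : Matrix (Fin m ⊕ Fin m) (Fin m ⊕ Fin m) F).toBlocks₂₁ = 0 := by
        ext i j
        have h1 := ((hM' j (Pi.single (Sum.inl j) 1)).1 ⟨fun i hi => by
          rw [Pi.single_apply, if_neg]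
          intro h; rw [Sum.inl.inj h] at hi; exact lt_irrefl _ hi, by intro i; simp⟩).2 i
        rw [Matrix.toBlocks₂₁, Matrix.of_apply]
        simpa using h1
      have hA : ∀ i j : Fin m, j < i → (M : Matrix (Fin m ⊕ Fin m) (Fin m ⊕ Fin m) F).toBlocks₁₁ i j = 0 := by
        intro i j hij
        have h1 := ((hM' j (Pi.single (Sum.inl j) 1)).1 ⟨fun i hi => by
          rw [Pi.single_apply, if_neg]
          intro h; rw [Sum.inl.inj h] at hi; exact lt_irrefl _ hi, by intro i; simp⟩).1 i hij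
        rw [Matrix.toBlocks₁₁, Matrix.of_apply]
        simpa using h1
      have hM2 := M.2
      rw [← Matrix.fromBlocks_toBlocks (M : Matrix (Fin m ⊕ Fin m) (Fin m ⊕ Fin m) F), hC] at hM2
      obtain ⟨hAD, hBD⟩ := Cfsg.Agent.ClGeo.symp_blocks_of_zero hM2
      set A := (M : Matrix (Fin m ⊕ Fin m) (Fin m ⊕ Fin m) F).toBlocks₁₁ with hAdef
      set D := (M : Matrix (Fin m ⊕ Fin m) (Fin m ⊕ Fin m) F).toBlocks₂₂ with hDdef
      set B := (M : Matrix (Fin m ⊕ Fin m) (Fin m ⊕ Fin m) F).toBlocks₁₂ with hBdef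
      have hDA : D * A.transpose = 1 := mul_eq_one_comm.1 hAD
      have hAD' : A * D.transpose = 1 := by
        have := congrArg Matrix.transpose hDA
        rwa [Matrix.transpose_mul, Matrix.transpose_transpose, Matrix.transpose_one] at this
      refine ⟨(⟨⟨A.transpose, D, hAD, hDA⟩, fun i j hij => hA j i hij⟩, ⟨D.transpose * B, ?_⟩), ?_⟩
      · rw [Matrix.transpose_mul, Matrix.transpose_transpose, hBD]
      · apply Subtype.ext
        apply Subtype.ext
        conv_rhs => rw [← Matrix.fromBlocks_toBlocks (M : Matrix (Fin m ⊕ Fin m) (Fin m ⊕ Fin m) F), hC]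
        simp only [f]
        rw [Matrix.fromBlocks_inj]
        refine ⟨?_, ?_, rfl, rfl⟩
        · exact Matrix.transpose_transpose A
        · change A.transpose.transpose * (D.transpose * B) = B
          rw [Matrix.transpose_transpose, ← Matrix.mul_assoc, hAD', Matrix.one_mul]
  rw [← Nat.card_congr (Equiv.ofBijective f hf), Nat.card_prod, Cfsg.Agent.ClGeo.card_lower_gl,
    Cfsg.Agent.ClGeo.card_sym, hF]
  have hexp : m * (m - 1) / 2 + m * (m + 1) / 2 = m ^ 2 := by
    rcases m with _ | k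
    · rfl
    · have e1 : (k + 1) * (k + 1 - 1) = k * (k + 1) := by rw [Nat.add_sub_cancel, mul_comm]
      have e2 : (k + 1) * (k + 1 + 1) = k * (k + 1) + 2 * (k + 1) := by ring
      rw [e1, e2, Nat.add_mul_div_left _ _ (by norm_num)]
      have e3 : 2 ∣ k * (k + 1) := (Nat.even_mul_succ_self k).two_dvd
      obtain ⟨c, hc⟩ := e3
      rw [hc, Nat.mul_div_cancel_left _ (by norm_num)]
      nlinarith
  rw [← hexp, pow_add]
  ring

end Cfsg.Agent.S0774
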