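import Cfsg.Statements.S0776
import Cfsg.Agent.ClGeo.SpDecomp

set_option autoImplicit false
open Cfsg

namespace Cfsg.Agent.S0776

/-- If W ≤ F^(2m) is a 2k-dimensional subspace on which the symplectic form is non-degenerate, then the stabiliser of W in Sp_2m(F) is isomorphic to Sp_2k(F) × Sp_(2m−2k)(F). -/
theorem result {F : Type*} [Field F] (m k : ℕ) (hk : k ≤ m) (W : Submodule F (Fin m ⊕ Fin m → F)) (hWk : Module.finrank F W = 2 * k) (hW : ∀ u ∈ W, (∀ v ∈ W, Cfsg.sympForm m F u v = 0) → u = 0) : Nonempty (↥(Cfsg.stabilizing (Cfsg.spToMat m F) (W : Set (Fin m ⊕ Fin m → F))) ≃* Matrix.symplecticGroup (Fin k) F × Matrix.symplecticGroup (Fin (m - k)) F) := by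
  classical
  have hsf : ∀ u v : Fin m ⊕ Fin m → F, Cfsg.Agent.ClassSp.sf u v = - Cfsg.sympForm m F u v :=
    fun u v => Cfsg.Agent.ClassSp.sf_eq_dotProduct u v
  set B := Cfsg.Agent.ClGeo.sfB F (Fin m) with hB
  have hBA : B.IsAlt := Cfsg.Agent.ClGeo.sfB_isAlt
  have hBN : B.Nondegenerate := Cfsg.Agent.ClGeo.sfB_nondegenerate
  have hBapp : ∀ u v, B u v = Cfsg.Agent.ClassSp.sf u v := fun u v => rfl
  -- the restriction to `W`
  let BW : LinearMap.BilinForm F W := B.restrict W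
  have hBWapp : ∀ u v : W, BW u v = B u v := fun u v => rfl
  have hBWA : BW.IsAlt := fun u => hBA u
  have hBWN : BW.Nondegenerate := by
    have h1 : ∀ u : W, (∀ v, BW u v = 0) → u = 0 := by
      intro u hu
      apply Subtype.ext
      apply hW u u.2
      intro v hv
      have := hu ⟨v, hv⟩
      rw [hBWapp, hBapp, hsf, neg_eq_zero] at this
      exact this
    refine ⟨h1, fun v hv => h1 v fun u => ?_⟩
    rw [← LinearMap.BilinForm.IsAlt.neg_eq hBWA, hv, neg_zero]
  obtain ⟨k1, e, f, bW, hef, hbe, hbf, hk1⟩ := Cfsg.Agent.Witt.exists_darboux BW hBWA hBWN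
  obtain rfl : k1 = k := by rw [hWk] at hk1; omega
  -- extend to the whole space
  have h0 : Cfsg.Agent.Witt.IsHyp B (fun i => (e i : Fin m ⊕ Fin m → F)) (fun i => (f i : Fin m ⊕ Fin m → F)) :=
    ⟨fun i j => hef.ef i j, fun i j => hef.ee i j, fun i j => hef.ff i j⟩
  obtain ⟨l, e', f', b, hef', he', hf', hbe', hbf', hl⟩ := Cfsg.Agent.Witt.exists_darboux_extend B hBA hBN h0
  have hlm : k1 + l = m := by
    rw [Module.finrank_fintype_fun_eq_card] at hl
    simp only [Fintype.card_sum, Fintype.card_fin] at hl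
    omega
  have hml : m - k1 = l := by omega
  rw [hml]
  -- reindexed basis
  let σ : Fin (k1 + l) ≃ Fin k1 ⊕ Fin l := finSumFinEquiv.symm
  let c : Module.Basis ((Fin k1 ⊕ Fin l) ⊕ (Fin k1 ⊕ Fin l)) F (Fin m ⊕ Fin m → F) :=
    b.reindex (Equiv.sumCongr σ σ)
  have hcl : ∀ x, c (Sum.inl x) = e' (σ.symm x) := by
    intro x
    rw [Module.Basis.reindex_apply, ← hbe']
    rfl
  have hcr : ∀ x, c (Sum.inr x) = f' (σ.symm x) := by
    intro x
    rw [Module.Basis.reindex_apply, ← hbf']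
    rfl
  have hσl : ∀ i : Fin k1, σ.symm (Sum.inl i) = Fin.castAdd l i := fun i => rfl
  have hform := Cfsg.Agent.ClGeo.form_eq_sf_repr B hBA c
    (by
      intro i j
      rw [hcl, hcr, hef'.ef]
      simp only [EmbeddingLike.apply_eq_iff_eq])
    (by intro i j; rw [hcl, hcl, hef'.ee])
    (by intro i j; rw [hcr, hcr, hef'.ff])
  set Φ := c.equivFun with hΦ
  -- membership in W
  have hcW : ∀ i : Fin k1, c (Sum.inl (Sum.inl i)) ∈ W ∧ c (Sum.inr (Sum.inl i)) ∈ W := by
    intro i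
    rw [hcl, hcr, hσl, he', hf']
    exact ⟨(e i).2, (f i).2⟩
  have hmemW : ∀ v, v ∈ W ↔ Cfsg.Agent.ClGeo.pr2 (Φ v) = 0 := by
    -- the submodule of the right-hand side
    let W' : Submodule F (Fin m ⊕ Fin m → F) :=
      { carrier := {v | Cfsg.Agent.ClGeo.pr2 (Φ v) = 0}
        add_mem' := fun {u v} hu hv => by
          rw [Set.mem_setOf_eq] at *
          rw [map_add, Cfsg.Agent.ClGeo.pr2_add, hu, hv, add_zero]
        zero_mem' := by
          rw [Set.mem_setOf_eq, map_zero]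
          funext x; rcases x with x | x <;> rfl
        smul_mem' := fun a v hv => by
          rw [Set.mem_setOf_eq] at *
          rw [map_smul, Cfsg.Agent.ClGeo.pr2_smul, hv, smul_zero] }
    have hW'W : W' ≤ W := by
      intro v hv
      have hv' : Cfsg.Agent.ClGeo.pr2 (Φ v) = 0 := hv
      rw [← c.sum_equivFun v, Fintype.sum_sum_type, Fintype.sum_sum_type, Fintype.sum_sum_type]
      have h1 : ∀ x : Fin l, c.equivFun v (Sum.inl (Sum.inr x)) = 0 := fun x => congrFun hv' (Sum.inl x)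
      have h2 : ∀ x : Fin l, c.equivFun v (Sum.inr (Sum.inr x)) = 0 := fun x => congrFun hv' (Sum.inr x)
      simp only [h1, h2, zero_smul, Finset.sum_const_zero, add_zero]
      refine W.add_mem (W.sum_mem fun i _ => W.smul_mem _ (hcW i).1) (W.sum_mem fun i _ => W.smul_mem _ (hcW i).2)
    have hWW' : W ≤ W' := by
      intro v hv
      have h1 : (⟨v, hv⟩ : W) ∈ Submodule.span F (Set.range bW) := by rw [bW.span_eq]; trivial
      have h2 := Submodule.mem_map_of_mem (f := W.subtype) h1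
      rw [Submodule.map_span] at h2
      refine (Submodule.span_le.2 ?_) h2
      rintro _ ⟨_, ⟨x, rfl⟩, rfl⟩
      change Cfsg.Agent.ClGeo.pr2 (Φ (bW x : Fin m ⊕ Fin m → F)) = 0
      rcases x with x | x
      · rw [hbe, ← he' x, ← hσl, ← hcl, hΦ]
        funext y
        rcases y with y | y
        · simp [Cfsg.Agent.ClGeo.pr2, Module.Basis.equivFun_self]
        · simp [Cfsg.Agent.ClGeo.pr2, Module.Basis.equivFun_self]
      · rw [hbf, ← hf' x, ← hσl, ← hcr, hΦ]
        funext y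
        rcases y with y | y
        · simp [Cfsg.Agent.ClGeo.pr2, Module.Basis.equivFun_self]
        · simp [Cfsg.Agent.ClGeo.pr2, Module.Basis.equivFun_self]
    intro v
    exact ⟨fun h => hWW' h, fun h => hW'W h⟩
  -- the conjugation isomorphism
  have hsfΦ : ∀ u v, Cfsg.Agent.ClassSp.sf (Φ u) (Φ v) = Cfsg.Agent.ClassSp.sf u v := fun u v => (hform u v).symm
  have hsfΦ' : ∀ u v, Cfsg.Agent.ClassSp.sf (Φ.symm u) (Φ.symm v) = Cfsg.Agent.ClassSp.sf u v := by
    intro u v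
    rw [← hsfΦ, LinearEquiv.apply_symm_apply, LinearEquiv.apply_symm_apply]
  let C : Matrix.symplecticGroup (Fin m) F →* Matrix.symplecticGroup (Fin k1 ⊕ Fin l) F :=
    { toFun := fun M => Cfsg.Agent.ClassSp.ofLin ((Φ : (Fin m ⊕ Fin m → F) →ₗ[F] _) ∘ₗ
        Matrix.mulVecLin (M : Matrix (Fin m ⊕ Fin m) (Fin m ⊕ Fin m) F) ∘ₗ (Φ.symm : _ →ₗ[F] (Fin m ⊕ Fin m → F))) (by
          intro u v
          change Cfsg.Agent.ClassSp.sf (Φ (M.1.mulVec (Φ.symm u))) (Φ (M.1.mulVec (Φ.symm v))) = _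
          rw [hsfΦ, Cfsg.Agent.ClassSp.sf_mulVec, hsfΦ'])
      map_one' := by
        apply Cfsg.Agent.ClassSp.ext_vec
        intro v
        rw [Cfsg.Agent.ClassSp.ofLin_mulVec, Cfsg.Agent.ClassSp.one_mulVec']
        change Φ ((1 : Matrix.symplecticGroup (Fin m) F).1.mulVec (Φ.symm v)) = v
        rw [Cfsg.Agent.ClassSp.one_mulVec', LinearEquiv.apply_symm_apply]
      map_mul' := fun M N => by
        apply Cfsg.Agent.ClassSp.ext_vec
        intro v
        rw [Cfsg.Agent.ClassSp.mul_mulVec, Cfsg.Agent.ClassSp.ofLin_mulVec, Cfsg.Agent.ClassSp.ofLin_mulVec,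
          Cfsg.Agent.ClassSp.ofLin_mulVec]
        change Φ ((M * N).1.mulVec (Φ.symm v)) = Φ (M.1.mulVec (Φ.symm (Φ (N.1.mulVec (Φ.symm v)))))
        rw [Cfsg.Agent.ClassSp.mul_mulVec, LinearEquiv.symm_apply_apply] }
  have hC : ∀ (M : Matrix.symplecticGroup (Fin m) F) v, (C M).1.mulVec v = Φ (M.1.mulVec (Φ.symm v)) := by
    intro M v
    exact LinearMap.toMatrix'_mulVec _ v
  have hCinj : Function.Injective C := by
    intro M N h
    apply Cfsg.Agent.ClassSp.ext_vec
    intro v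
    have h1 := hC M (Φ v)
    rw [h, hC N, LinearEquiv.symm_apply_apply] at h1
    exact (Φ.injective h1).symm
  -- the image of the stabiliser
  have himg : (Cfsg.stabilizing (Cfsg.spToMat m F) (W : Set (Fin m ⊕ Fin m → F))).map C =
      (Cfsg.Agent.ClGeo.bsHom (Fin k1) (Fin l) F).range := by
    apply le_antisymm
    · rintro _ ⟨M, hM, rfl⟩
      apply Cfsg.Agent.ClGeo.mem_range_bsHom
      intro u
      rw [hC, ← hmemW]
      refine (hM _).1 ?_
      change Φ.symm _ ∈ W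
      rw [hmemW, LinearEquiv.apply_symm_apply, Cfsg.Agent.ClGeo.pr2_jn]
    · rintro _ ⟨N, rfl⟩
      -- preimage
      obtain ⟨P, hP⟩ : ∃ P : Matrix.symplecticGroup (Fin m) F, ∀ v, P.1.mulVec v =
          Φ.symm ((Cfsg.Agent.ClGeo.bsHom (Fin k1) (Fin l) F N).1.mulVec (Φ v)) := by
        refine ⟨Cfsg.Agent.ClassSp.ofLin ((Φ.symm : _ →ₗ[F] (Fin m ⊕ Fin m → F)) ∘ₗ
          Matrix.mulVecLin (Cfsg.Agent.ClGeo.bsHom (Fin k1) (Fin l) F N).1 ∘ₗ (Φ : (Fin m ⊕ Fin m → F) →ₗ[F] _)) (by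
            intro u v
            change Cfsg.Agent.ClassSp.sf (Φ.symm ((Cfsg.Agent.ClGeo.bsHom (Fin k1) (Fin l) F N).1.mulVec (Φ u)))
              (Φ.symm ((Cfsg.Agent.ClGeo.bsHom (Fin k1) (Fin l) F N).1.mulVec (Φ v))) = _
            rw [hsfΦ', Cfsg.Agent.ClassSp.sf_mulVec, hsfΦ]), fun v => ?_⟩
        rw [Cfsg.Agent.ClassSp.ofLin_mulVec]
        rfl
      refine ⟨P, ?_, ?_⟩
      · intro v
        change v ∈ W ↔ P.1.mulVec v ∈ W
        rw [hP, hmemW, hmemW, LinearEquiv.apply_symm_apply, Cfsg.Agent.ClGeo.bsHom_mulVec,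
          Cfsg.Agent.ClGeo.pr2_jn]
        constructor
        · intro h; rw [h, Matrix.mulVec_zero]
        · intro h
          have h1 := congrArg (fun z => (N.2⁻¹).1.mulVec z) h
          simp only [Matrix.mulVec_zero] at h1
          rwa [Cfsg.Agent.ClassSp.inv_mulVec_mulVec] at h1
      · apply Cfsg.Agent.ClassSp.ext_vec
        intro v
        rw [hC, hP, LinearEquiv.apply_symm_apply, LinearEquiv.apply_symm_apply]
  exact ⟨((Subgroup.equivMapOfInjective _ C hCinj).trans (MulEquiv.subgroupCongr himg)).trans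
    (MonoidHom.ofInjective Cfsg.Agent.ClGeo.bsHom_injective).symm⟩

end Cfsg.Agent.S0776
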