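import Cfsg.Statements.S0778
import Cfsg.Agent.ClGeo.SpBlocks

set_option autoImplicit false
open Cfsg

namespace Cfsg.Agent.S0778

/-- The elements of Sp_2m(F) stabilising both W = ⟨e_1..e_m⟩ and U = ⟨f_1..f_m⟩ form a subgroup isomorphic to GL_m(F) (block-diagonal matrices diag(X, X^(−ᵀ)) up to the sign convention of J), for m ≥ 1 or m = 0 alike. -/
theorem result {F : Type*} [Field F] (m : ℕ) : Nonempty (↥(Cfsg.stabilizing (Cfsg.spToMat m F) {v : Fin m ⊕ Fin m → F | ∀ i : Fin m, v (Sum.inr i) = 0} ⊓ Cfsg.stabilizing (Cfsg.spToMat m F) {v : Fin m ⊕ Fin m → F | ∀ i : Fin m, v (Sum.inl i) = 0}) ≃* Matrix.GeneralLinearGroup (Fin m) F) := by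
  have h := Cfsg.Agent.ClGeo.range_leviHom (F := F) (m := m)
  exact ⟨((MonoidHom.ofInjective (Cfsg.Agent.ClGeo.leviHom_injective (F := F) (m := m))).trans
    (MulEquiv.subgroupCongr h)).symm⟩

end Cfsg.Agent.S0778
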