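import Cfsg.Statements.S0779
import Cfsg.Agent.ClGeo.Herm

set_option autoImplicit false
open Cfsg

namespace Cfsg.Agent.S0779

/-- Unitary transvections: let |F| = q², h the standard Hermitian form Σ x_i y_i^q and v ≠ 0 with h(v, v) = 0. The linear map x ↦ x + c h(x, v) v is an isometry of h if and only if c = 0 or c^(q−1) = −1. -/
theorem result {F : Type*} [Field F] [Fintype F] {q : ℕ} (hF : Fintype.card F = q ^ 2) (n : ℕ) (v : Fin n → F) (hv : v ≠ 0) (hv0 : Cfsg.hermForm n F q v v = 0) (c : F) : (∀ x y : Fin n → F, Cfsg.hermForm n F q ((Cfsg.unitaryTransvection n q v c).mulVec x) ((Cfsg.unitaryTransvection n q v c).mulVec y) = Cfsg.hermForm n F q x y) ↔ (c = 0 ∨ c ^ (q - 1) = -1) := by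
  have hq1 := Cfsg.Agent.ClGeo.one_lt_of_card_eq_sq hF
  have key : ∀ x y : Fin n → F, Cfsg.hermForm n F q ((Cfsg.unitaryTransvection n q v c).mulVec x)
      ((Cfsg.unitaryTransvection n q v c).mulVec y) = Cfsg.hermForm n F q x y +
        (c + c ^ q) * (Cfsg.hermForm n F q x v * Cfsg.hermForm n F q v y) := by
    intro x y
    rw [Cfsg.Agent.ClGeo.unitaryTransvection_mulVec, Cfsg.Agent.ClGeo.unitaryTransvection_mulVec]
    simp only [Cfsg.Agent.ClGeo.hermForm_add_left, Cfsg.Agent.ClGeo.hermForm_add_right hF,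
      Cfsg.Agent.ClGeo.hermForm_smul_left, Cfsg.Agent.ClGeo.hermForm_smul_right hF, hv0, mul_pow,
      Cfsg.Agent.ClGeo.hermForm_pow hF]
    ring
  have hc : c + c ^ q = 0 ↔ (c = 0 ∨ c ^ (q - 1) = -1) := by
    have hqq : c ^ q = c ^ (q - 1) * c := by
      rw [← pow_succ, Nat.sub_add_cancel hq1.le]
    rw [hqq]
    constructor
    · intro h
      by_cases h0 : c = 0
      · exact Or.inl h0
      · right
        have : c * (1 + c ^ (q - 1)) = 0 := by linear_combination h
        rcases mul_eq_zero.1 this with h1 | h1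
        · exact absurd h1 h0
        · linear_combination h1
    · rintro (h | h)
      · rw [h, mul_zero, add_zero]
      · rw [h]; ring
  rw [← hc]
  constructor
  · intro h
    obtain ⟨x, hx⟩ : ∃ x, Cfsg.hermForm n F q x v ≠ 0 := by
      by_contra hcon
      push Not at hcon
      exact hv (Cfsg.Agent.ClGeo.hermForm_nondeg_right hF v hcon)
    have h1 := h x x
    rw [key, ← Cfsg.Agent.ClGeo.hermForm_pow hF x v] at h1
    have h2 : (c + c ^ q) * (Cfsg.hermForm n F q x v * Cfsg.hermForm n F q x v ^ q) = 0 := by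
      linear_combination h1
    rcases mul_eq_zero.1 h2 with h3 | h3
    · exact h3
    · rcases mul_eq_zero.1 h3 with h4 | h4
      · exact absurd h4 hx
      · exact absurd (pow_eq_zero_iff (by omega) |>.1 h4) hx
  · intro h x y
    rw [key, h, zero_mul, add_zero]

end Cfsg.Agent.S0779
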