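import Cfsg.Statements.S0783
import Cfsg.Agent.Uni.SU

set_option autoImplicit false
open Cfsg

namespace Cfsg.Agent.S0783

/-- PGU_n(q)/PSU_n(q) is cyclic of order (n, q+1): for n ≥ 2 and |F| = q² there is a surjective homomorphism from GU_n(q) onto the cyclic group of order gcd(n, q + 1) whose kernel is generated by the determinant-one elements together with the centre. -/
theorem result {F : Type*} [Field F] [Fintype F] {q : ℕ} (hF : Fintype.card F = q ^ 2) (n : ℕ) (hn : 2 ≤ n) : ∃ φ : ↥(Cfsg.GU n F q) →* Multiplicative (ZMod (Nat.gcd n (q + 1))), Function.Surjective φ ∧ φ.ker = (Matrix.GeneralLinearGroup.det : Matrix.GeneralLinearGroup (Fin n) F →* Fˣ).ker.subgroupOf (Cfsg.GU n F q) ⊔ Subgroup.center ↥(Cfsg.GU n F q) := by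
  classical
  have hq2 := Cfsg.Agent.Uni.two_le_q hF
  obtain ⟨U, hU⟩ : ∃ U : Subgroup Fˣ, U = (powMonoidHom (q + 1) : Fˣ →* Fˣ).ker := ⟨_, rfl⟩
  obtain ⟨R, hR⟩ : ∃ R : Subgroup (powMonoidHom (q + 1) : Fˣ →* Fˣ).ker,
    R = (powMonoidHom n : (powMonoidHom (q + 1) : Fˣ →* Fˣ).ker →* _).range := ⟨_, rfl⟩
  have hUc := Cfsg.Agent.Uni.card_norm_ker hF
  have hcard : Nat.card ((powMonoidHom (q + 1) : Fˣ →* Fˣ).ker ⧸ R) = Nat.gcd n (q + 1) := by
    have h1 := Subgroup.card_eq_card_quotient_mul_card_subgroup R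
    have h2 := Subgroup.card_mul_index
      (powMonoidHom n : (powMonoidHom (q + 1) : Fˣ →* Fˣ).ker →* _).ker
    rw [Subgroup.index_ker, ← hR, IsCyclic.card_powMonoidHom_ker, hUc] at h2
    rw [hUc] at h1
    have h3 : 0 < Nat.card R := Nat.card_pos
    rw [Nat.gcd_comm]
    refine Nat.eq_of_mul_eq_mul_right h3 ?_
    rw [← h1, h2]
  haveI : IsCyclic ((powMonoidHom (q + 1) : Fˣ →* Fˣ).ker ⧸ R) :=
    isCyclic_of_surjective (QuotientGroup.mk' R) (QuotientGroup.mk'_surjective R)
  have e : Multiplicative (ZMod (Nat.gcd n (q + 1))) ≃*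
      ((powMonoidHom (q + 1) : Fˣ →* Fˣ).ker ⧸ R) := by
    rw [← hcard]
    exact zmodCyclicMulEquiv inferInstance
  refine ⟨(e.symm.toMonoidHom.comp (QuotientGroup.mk' R)).comp (Cfsg.Agent.Uni.detHom hF n),
    ?_, ?_⟩
  · exact (e.symm.surjective.comp (QuotientGroup.mk'_surjective R)).comp
      (Cfsg.Agent.Uni.detHom_surjective hF (by omega))
  · have hker : ∀ g : Cfsg.GU n F q,
        g ∈ ((e.symm.toMonoidHom.comp (QuotientGroup.mk' R)).comp
          (Cfsg.Agent.Uni.detHom hF n)).ker ↔ Cfsg.Agent.Uni.detHom hF n g ∈ R := by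
      intro g
      rw [MonoidHom.mem_ker]
      simp
    apply le_antisymm
    · intro g hg
      rw [hker, hR] at hg
      obtain ⟨z, hz⟩ := hg
      have hz1 : ((z : Fˣ) : F) ^ (q + 1) = 1 := by
        have := z.2
        rw [MonoidHom.mem_ker] at this
        simpa using congrArg Units.val this
      let s : Cfsg.GU n F q := Cfsg.Agent.Uni.mkGU hF (Matrix.diagonal (fun _ => ((z : Fˣ) : F)))
        ((Cfsg.Agent.Uni.pres_scalar_iff (by omega) _).2 hz1)
      have hs : s ∈ Subgroup.center (Cfsg.GU n F q) := by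
        rw [Subgroup.mem_center_iff]
        intro k
        apply Cfsg.Agent.Uni.GU_ext
        show ((k : GL (Fin n) F) : Matrix (Fin n) (Fin n) F) * Matrix.diagonal (fun _ => ((z : Fˣ) : F))
          = Matrix.diagonal (fun _ => ((z : Fˣ) : F)) * ((k : GL (Fin n) F) : Matrix (Fin n) (Fin n) F)
        ext i j
        rw [Matrix.mul_diagonal, Matrix.diagonal_mul, mul_comm]
      have hds : Cfsg.Agent.Uni.detHom hF n s = Cfsg.Agent.Uni.detHom hF n g := by
        rw [← hz]
        apply Subtype.ext
        apply Units.ext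
        rw [Cfsg.Agent.Uni.detHom_coe]
        show (Matrix.diagonal (fun _ => ((z : Fˣ) : F))).det = _
        rw [Matrix.det_diagonal, Finset.prod_const, Finset.card_univ, Fintype.card_fin]
        simp
      have hgs : g = (g * s⁻¹) * s := by group
      rw [hgs]
      refine Subgroup.mul_mem_sup ?_ hs
      rw [Subgroup.mem_subgroupOf, MonoidHom.mem_ker]
      have h1 : Cfsg.Agent.Uni.detHom hF n (g * s⁻¹) = 1 := by
        rw [map_mul, map_inv, hds, mul_inv_cancel]
      have := congrArg (fun x : (powMonoidHom (q + 1) : Fˣ →* Fˣ).ker => (x : Fˣ)) h1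
      exact this
    · apply sup_le
      · intro g hg
        rw [hker]
        have h1 : Cfsg.Agent.Uni.detHom hF n g = 1 := by
          apply Subtype.ext
          rw [Subgroup.mem_subgroupOf, MonoidHom.mem_ker] at hg
          exact hg
        rw [h1]
        exact R.one_mem
      · intro g hg
        rw [hker, hR]
        rw [Subgroup.mem_center_iff] at hg
        obtain ⟨c, hc⟩ := Cfsg.Agent.Uni.eq_scalar_of_commute hF hn
          ((g : GL (Fin n) F) : Matrix (Fin n) (Fin n) F) (by
            intro k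
            have := congrArg (fun x : Cfsg.GU n F q => ((x : GL (Fin n) F) : Matrix (Fin n) (Fin n) F))
              (hg (Cfsg.Agent.Uni.suToGU hF n k))
            exact this)
        have hp := Cfsg.Agent.Uni.GU_pres g
        rw [hc, Cfsg.Agent.Uni.pres_scalar_iff (by omega)] at hp
        have hc0 : c ≠ 0 := by
          rintro rfl
          rw [zero_pow (by omega)] at hp
          exact zero_ne_one hp
        refine ⟨⟨Units.mk0 c hc0, ?_⟩, ?_⟩
        · rw [MonoidHom.mem_ker]
          ext
          simpa using hp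
        · apply Subtype.ext
          apply Units.ext
          rw [Cfsg.Agent.Uni.detHom_coe, hc, Matrix.det_diagonal, Finset.prod_const,
            Finset.card_univ, Fintype.card_fin]
          simp

end Cfsg.Agent.S0783
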