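import Cfsg.Statements.S0785
import Cfsg.Agent.ClGeo.Refl

set_option autoImplicit false
open Cfsg

namespace Cfsg.Agent.S0785

/-- det(I) = {±1}: for a quadratic form on F^n whose polar form is non-degenerate, every element of the isometry group has determinant 1 or −1, and as soon as Q takes a non-zero value some isometry has determinant −1. -/
theorem result {F : Type*} [Field F] {n : ℕ} (Q : QuadraticForm F (Fin n → F)) (hQ : (QuadraticMap.polarBilin Q).Nondegenerate) : (∀ g : ↥(Cfsg.isometryGroup F ⇑Q), ((g : Matrix.GeneralLinearGroup (Fin n) F) : Matrix (Fin n) (Fin n) F).det = 1 ∨ ((g : Matrix.GeneralLinearGroup (Fin n) F) : Matrix (Fin n) (Fin n) F).det = -1) ∧ ((∃ v, Q v ≠ 0) → ∃ g : ↥(Cfsg.isometryGroup F ⇑Q), ((g : Matrix.GeneralLinearGroup (Fin n) F) : Matrix (Fin n) (Fin n) F).det = -1) := by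
  constructor
  · rintro ⟨g, hg⟩
    have hpol : ∀ u v : Fin n → F, QuadraticMap.polar (⇑Q) ((g : Matrix (Fin n) (Fin n) F).mulVec u)
        ((g : Matrix (Fin n) (Fin n) F).mulVec v) = QuadraticMap.polar (⇑Q) u v := by
      have hg' : ∀ u : Fin n → F, Q ((g : Matrix (Fin n) (Fin n) F).mulVec u) = Q u := fun u => hg u u
      intro u v
      simp only [QuadraticMap.polar]
      rw [← Matrix.mulVec_add, hg', hg', hg']
    set M := LinearMap.toMatrix₂' F (QuadraticMap.polarBilin Q) with hM
    have hdet : M.det ≠ 0 := by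
      rw [hM]
      exact (LinearMap.BilinForm.nondegenerate_iff_det_ne_zero (Pi.basisFun F (Fin n))).1 hQ
    have hMM : (g : Matrix (Fin n) (Fin n) F).transpose * M * (g : Matrix (Fin n) (Fin n) F) = M := by
      have hc : (QuadraticMap.polarBilin Q).compl₁₂ (Matrix.mulVecLin (g : Matrix (Fin n) (Fin n) F))
          (Matrix.mulVecLin (g : Matrix (Fin n) (Fin n) F)) = QuadraticMap.polarBilin Q := by
        apply LinearMap.ext₂
        intro u v
        rw [LinearMap.compl₁₂_apply]
        exact hpol u v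
      have h1 := LinearMap.toMatrix₂'_compl₁₂ (QuadraticMap.polarBilin Q)
        (Matrix.mulVecLin (g : Matrix (Fin n) (Fin n) F))
        (Matrix.mulVecLin (g : Matrix (Fin n) (Fin n) F))
      rw [hc, ← Matrix.toLin'_apply', LinearMap.toMatrix'_toLin'] at h1
      exact h1.symm
    have h1 := congrArg Matrix.det hMM
    rw [Matrix.det_mul, Matrix.det_mul, Matrix.det_transpose] at h1
    have h2 : (g : Matrix (Fin n) (Fin n) F).det ^ 2 = 1 := by
      have : M.det * ((g : Matrix (Fin n) (Fin n) F).det ^ 2 - 1) = 0 := by linear_combination h1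
      rcases mul_eq_zero.1 this with h | h
      · exact absurd h hdet
      · linear_combination h
    exact sq_eq_one_iff.1 h2
  · rintro ⟨v, hv⟩
    have hd := Cfsg.Agent.ClGeo.det_reflectionMatrix Q v hv
    refine ⟨⟨Matrix.GeneralLinearGroup.mkOfDetNeZero (Cfsg.reflectionMatrix (⇑Q) v) ?_, ?_⟩, ?_⟩
    · rw [hd]; exact neg_ne_zero.2 one_ne_zero
    · intro u w
      exact Cfsg.Agent.ClGeo.reflectionMatrix_map Q v u hv
    · exact hd

end Cfsg.Agent.S0785
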