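import Cfsg.Statements.S0786
import Cfsg.Agent.Orth.Tools

set_option autoImplicit false
open Cfsg

namespace Cfsg.Agent.S0786

/-- Generation by reflections: if F is finite, Q is a quadratic form on F^n with non-degenerate polar form, and (|F|, n) ≠ (2, 4), then the isometry group of Q is generated by the reflections r_v, Q(v) ≠ 0. -/
theorem result {F : Type*} [Field F] [Fintype F] {n : ℕ} (Q : QuadraticForm F (Fin n → F)) (hQ : (QuadraticMap.polarBilin Q).Nondegenerate) (h : Fintype.card F ≠ 2 ∨ n ≠ 4) : Subgroup.closure {g : ↥(Cfsg.isometryGroup F ⇑Q) | ∃ v : Fin n → F, Q v ≠ 0 ∧ ((g : Matrix.GeneralLinearGroup (Fin n) F) : Matrix (Fin n) (Fin n) F) = Cfsg.reflectionMatrix ⇑Q v} = ⊤ := by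
  have hR : Cfsg.Agent.Orth.RGrp Q = ⊤ :=
    Cfsg.Agent.Orth.RGrp_top_of_card hQ (by rwa [Module.finrank_fin_fun])
  rw [eq_top_iff]
  intro g _
  obtain ⟨l, hl⟩ := Cfsg.Agent.Orth.exists_reflProd hR (Cfsg.Agent.Orth.bridge Q g)
  have hg : g = (Cfsg.Agent.Orth.bridge Q).symm (Cfsg.Agent.Orth.reflProd Q l) := by
    rw [hl, MulEquiv.symm_apply_apply]
  rw [hg]
  clear hg hl
  induction l with
  | nil =>
    rw [Cfsg.Agent.Orth.reflProd_nil, map_one]
    exact Subgroup.one_mem _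
  | cons v l ih =>
    rw [Cfsg.Agent.Orth.reflProd_cons, map_mul]
    refine Subgroup.mul_mem _ (Subgroup.subset_closure ⟨v.1, v.2, ?_⟩) ih
    rw [← Cfsg.Agent.Orth.bridge_eq_refl_iff Q _ v.2, MulEquiv.apply_symm_apply]

end Cfsg.Agent.S0786
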