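import Cfsg.Statements.S0789
import Cfsg.Agent.Orth.Homs

set_option autoImplicit false
open Cfsg

namespace Cfsg.Agent.S0789

/-- Ω has index 2 in O for q even: if F is finite of characteristic two, n ≥ 2, Q is a quadratic form on F^n with non-degenerate polar form, and (|F|, n) ≠ (2, 4), then the commutator subgroup of the isometry group of Q has index 2 in it. -/
theorem result {F : Type*} [Field F] [Fintype F] [CharP F 2] {n : ℕ} (hn : 2 ≤ n) (Q : QuadraticForm F (Fin n → F)) (hQ : (QuadraticMap.polarBilin Q).Nondegenerate) (h : Fintype.card F ≠ 2 ∨ n ≠ 4) : (Cfsg.Omega F ⇑Q).index = 2 := by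
  rw [Cfsg.Agent.Orth.index_Omega]
  exact Cfsg.Agent.Orth.index_commutator_even hQ CharTwo.two_eq_zero
    (by rw [Module.finrank_fin_fun]; omega)
    (Cfsg.Agent.Orth.RGrp_top_of_card hQ (by rwa [Module.finrank_fin_fun]))

end Cfsg.Agent.S0789
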