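import Cfsg.Statements.S0792
import Cfsg.Agent.Orth.Pairs

set_option autoImplicit false
open Cfsg

namespace Cfsg.Agent.S0792

/-- For q odd and Q with non-degenerate polar form on F^n, the determinant-one isometries form the subgroup generated by all products r_u r_v of two reflections (Q(u), Q(v) ≠ 0). -/
theorem result {F : Type*} [Field F] [Fintype F] (h2 : (2 : F) ≠ 0) {n : ℕ} (Q : QuadraticForm F (Fin n → F)) (hQ : (QuadraticMap.polarBilin Q).Nondegenerate) : Cfsg.specialIsometryGroup F ⇑Q = Subgroup.closure {g : ↥(Cfsg.isometryGroup F ⇑Q) | ∃ u v : Fin n → F, Q u ≠ 0 ∧ Q v ≠ 0 ∧ ((g : Matrix.GeneralLinearGroup (Fin n) F) : Matrix (Fin n) (Fin n) F) = Cfsg.reflectionMatrix ⇑Q u * Cfsg.reflectionMatrix ⇑Q v} := by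
  have hR := Cfsg.Agent.Orth.RGrp_top_of_two hQ h2
  ext g
  rw [Cfsg.Agent.Orth.mem_closure_pairs_iff, Cfsg.specialIsometryGroup, MonoidHom.mem_ker]
  have key : ((Matrix.GeneralLinearGroup.det.comp (Cfsg.isometryGroup F ⇑Q).subtype) g = 1) ↔
      ((g : Matrix.GeneralLinearGroup (Fin n) F) : Matrix (Fin n) (Fin n) F).det = 1 := by
    rw [← Units.val_eq_one]
    rfl
  rw [key]
  constructor
  · intro h
    obtain ⟨l, hl⟩ := Cfsg.Agent.Orth.exists_reflProd hR (Cfsg.Agent.Orth.bridge Q g)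
    refine ⟨l, hl.symm, ?_⟩
    rw [Cfsg.Agent.Orth.det_of_reflProd Q g l hl.symm] at h
    by_contra hodd
    rw [Nat.not_even_iff_odd] at hodd
    rw [hodd.neg_one_pow] at h
    apply h2
    linear_combination -h
  · rintro ⟨l, hl, he⟩
    rw [Cfsg.Agent.Orth.det_of_reflProd Q g l hl, he.neg_one_pow]

end Cfsg.Agent.S0792
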