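import Cfsg.Statements.S0793
import Cfsg.Agent.H14.Ortho

set_option autoImplicit false

open Cfsg

namespace Cfsg.Agent.S0793

open Cfsg.Agent.H14.Ortho Matrix

theorem result {F : Type*} [Field F] {n : ℕ} (Q : QuadraticForm F (Fin n → F)) (u v : Fin n → F) (hu : Q u = 0) (hv : Q v = 0) (huv : QuadraticMap.polar ⇑Q u v = 0) : (∀ c x, Q ((Cfsg.siegelMatrix ⇑Q u v c).mulVec x) = Q x) ∧ (∀ c, (Cfsg.siegelMatrix ⇑Q u v c).mulVec u = u ∧ (Cfsg.siegelMatrix ⇑Q u v c).mulVec v = v) ∧ ∀ c d, Cfsg.siegelMatrix ⇑Q u v c * Cfsg.siegelMatrix ⇑Q u v d = Cfsg.siegelMatrix ⇑Q u v (c + d) := by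
  have hvu : QuadraticMap.polar ⇑Q v u = 0 := by rw [QuadraticMap.polar_comm, huv]
  have huu : QuadraticMap.polar ⇑Q u u = 0 := by
    rw [QuadraticMap.polar_self, hu]; simp
  have hvv : QuadraticMap.polar ⇑Q v v = 0 := by
    rw [QuadraticMap.polar_self, hv]; simp
  refine ⟨?_, ?_, ?_⟩
  · intro c x
    rw [siegelMatrix_mulVec]
    set a := QuadraticMap.polar ⇑Q u x with ha
    set b := QuadraticMap.polar ⇑Q v x with hb
    have h1 : Q (c • (a • v - b • u)) = 0 := by
      rw [QuadraticMap.map_smul, sub_eq_add_neg, QuadraticMap.map_add ⇑Q, QuadraticMap.map_neg,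
        QuadraticMap.map_smul, QuadraticMap.map_smul, hu, hv, QuadraticMap.polar_neg_right,
        QuadraticMap.polar_smul_left, QuadraticMap.polar_smul_right, hvu]
      simp
    have h2 : QuadraticMap.polar ⇑Q x (c • (a • v - b • u)) = 0 := by
      rw [QuadraticMap.polar_smul_right, sub_eq_add_neg, QuadraticMap.polar_add_right,
        QuadraticMap.polar_neg_right, QuadraticMap.polar_smul_right, QuadraticMap.polar_smul_right,
        QuadraticMap.polar_comm _ x v, QuadraticMap.polar_comm _ x u, ← ha, ← hb]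
      simp only [smul_eq_mul]; ring
    rw [QuadraticMap.map_add ⇑Q, h1, h2]; simp
  · intro c
    constructor
    · rw [siegelMatrix_mulVec, huu, hvu]; simp
    · rw [siegelMatrix_mulVec, huv, hvv]; simp
  · intro c d
    apply ext_mulVec
    intro x
    rw [← mulVec_mulVec, siegelMatrix_mulVec, siegelMatrix_mulVec, siegelMatrix_mulVec]
    set a := QuadraticMap.polar ⇑Q u x with ha
    set b := QuadraticMap.polar ⇑Q v x with hb
    have h1 : QuadraticMap.polar ⇑Q u (x + d • (a • v - b • u)) = a := by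
      rw [QuadraticMap.polar_add_right, QuadraticMap.polar_smul_right, sub_eq_add_neg,
        QuadraticMap.polar_add_right, QuadraticMap.polar_neg_right, QuadraticMap.polar_smul_right,
        QuadraticMap.polar_smul_right, huu, huv, ha]; simp
    have h2 : QuadraticMap.polar ⇑Q v (x + d • (a • v - b • u)) = b := by
      rw [QuadraticMap.polar_add_right, QuadraticMap.polar_smul_right, sub_eq_add_neg,
        QuadraticMap.polar_add_right, QuadraticMap.polar_neg_right, QuadraticMap.polar_smul_right,
        QuadraticMap.polar_smul_right, hvv, hvu, hb]; simp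
    rw [h1, h2, add_smul]
    abel

end Cfsg.Agent.S0793
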