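import Cfsg.Statements.S0794
import Cfsg.Agent.H14.Refl
import Cfsg.Agent.S0793

set_option autoImplicit false

open Cfsg
open scoped commutatorElement

namespace Cfsg.Agent.S0794

open Matrix Cfsg.Agent.H14.Ortho QuadraticMap

/-- for independent orthogonal singular `u, v` there is an isometry fixing `u` and doubling `v`. -/
theorem exists_double {F : Type*} [Field F] (h2 : (2 : F) ≠ 0) {n : ℕ}
    (Q : QuadraticForm F (Fin n → F)) (hQ : (QuadraticMap.polarBilin Q).Nondegenerate)
    (u v : Fin n → F) (hu : Q u = 0) (hv : Q v = 0) (huv : QuadraticMap.polar ⇑Q u v = 0)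
    (hind : ∀ c : F, v ≠ c • u) :
    ∃ h : ↥(Cfsg.isometryGroup F ⇑Q),
      ((h : GeneralLinearGroup (Fin n) F) : Matrix (Fin n) (Fin n) F) *ᵥ u = u ∧
      ((h : GeneralLinearGroup (Fin n) F) : Matrix (Fin n) (Fin n) F) *ᵥ v = (2 : F) • v := by
  obtain ⟨x, hx0, hx1⟩ := exists_polar_zero_one hQ hind
  set v' := x - Q x • v with hv'
  have hvv : polar ⇑Q v v = 0 := by rw [polar_self', hv, mul_zero]
  have huv' : polar ⇑Q u v' = 0 := by
    rw [hv', polar_sub_right, polar_smul_right, hx0, huv]; simp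
  have hvv' : polar ⇑Q v v' = 1 := by
    rw [hv', polar_sub_right, polar_smul_right, hx1, hvv]; simp
  have hv'v : polar ⇑Q v' v = 1 := by rw [polar_comm, hvv']
  have hQv' : Q v' = 0 := by
    rw [hv', sub_eq_add_neg, QuadraticMap.map_add ⇑Q, QuadraticMap.map_neg,
      QuadraticMap.map_smul, hv, polar_neg_right, polar_smul_right, polar_comm, hx1]
    simp
  have hv'v' : polar ⇑Q v' v' = 0 := by rw [polar_self', hQv', mul_zero]
  have hnorm : ∀ t : F, Q (v - t • v') = -t := by
    intro t
    rw [sub_eq_add_neg, QuadraticMap.map_add ⇑Q, QuadraticMap.map_neg,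
      QuadraticMap.map_smul, hQv', hv, polar_neg_right, polar_smul_right, hvv']
    simp
  have h1 : Q (v - (1 : F) • v') ≠ 0 := by rw [hnorm]; simp
  have h2' : Q (v - (2 : F) • v') ≠ 0 := by rw [hnorm]; simpa using h2
  refine ⟨refl Q _ h1 * refl Q _ h2', ?_, ?_⟩
  · have e : ∀ t : F, polar ⇑Q (v - t • v') u = 0 := by
      intro t
      rw [polar_sub_left, polar_smul_left, polar_comm _ v u, huv, polar_comm _ v' u, huv']; simp
    rw [coe_mul_mulVec, refl_mulVec, refl_mulVec, e, mul_zero, zero_smul, sub_zero, e, mul_zero,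
      zero_smul, sub_zero]
  · have e : ∀ t : F, polar ⇑Q (v - t • v') v = - t := by
      intro t
      rw [polar_sub_left, polar_smul_left, hvv, hv'v]; simp
    have e' : ∀ t s : F, polar ⇑Q (v - t • v') (s • v') = s := by
      intro t s
      rw [polar_sub_left, polar_smul_left, polar_smul_right, polar_smul_right, hvv', hv'v']; simp
    have e1 : v - ((Q (v - (2 : F) • v'))⁻¹ * polar ⇑Q (v - (2 : F) • v') v) • (v - (2 : F) • v') = (2 : F) • v' := by
      rw [e, hnorm]
      have : ((-2 : F))⁻¹ * (-2) = 1 := by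
        apply inv_mul_cancel₀; simpa using h2
      rw [this, one_smul]; abel
    rw [coe_mul_mulVec, refl_mulVec, refl_mulVec, e1, e', hnorm]
    simp only [one_smul]
    have : ((-1 : F))⁻¹ * 2 = -2 := by
      rw [inv_neg, inv_one]; ring
    rw [this]
    module

theorem result {F : Type*} [Field F] [Fintype F] (h2 : (2 : F) ≠ 0) {n : ℕ} (hn : 5 ≤ n) (Q : QuadraticForm F (Fin n → F)) (hQ : (QuadraticMap.polarBilin Q).Nondegenerate) (u v : Fin n → F) (hu : Q u = 0) (hv : Q v = 0) (huv : QuadraticMap.polar ⇑Q u v = 0) (c : F) (g : ↥(Cfsg.isometryGroup F ⇑Q)) (hg : ((g : Matrix.GeneralLinearGroup (Fin n) F) : Matrix (Fin n) (Fin n) F) = Cfsg.siegelMatrix ⇑Q u v c) : g ∈ commutatorSet ↥(Cfsg.isometryGroup F ⇑Q) ∧ g ∈ Cfsg.Omega F ⇑Q := by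
  have main : g ∈ commutatorSet ↥(Cfsg.isometryGroup F ⇑Q) := by
    by_cases hdep : ∃ d : F, v = d • u
    · obtain ⟨d, rfl⟩ := hdep
      have hg1 : g = 1 := by
        apply iso_ext
        intro x
        rw [hg, siegelMatrix_mulVec, polar_smul_left]
        have : ((1 : ↥(Cfsg.isometryGroup F ⇑Q)) : GeneralLinearGroup (Fin n) F) = 1 := rfl
        rw [this, Units.val_one, one_mulVec]
        simp only [smul_eq_mul]
        module
      rw [hg1]
      exact one_mem_commutatorSet _
    · push Not at hdep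
      obtain ⟨h, hhu, hhv⟩ := exists_double h2 Q hQ u v hu hv huv hdep
      refine ⟨h, g, ?_⟩
      have key : h * g = g * g * h := by
        apply iso_ext
        intro x
        rw [coe_mul_mulVec, coe_mul_mulVec]
        have hgg : (((g * g : ↥(Cfsg.isometryGroup F ⇑Q)) : GeneralLinearGroup (Fin n) F) :
            Matrix (Fin n) (Fin n) F) = Cfsg.siegelMatrix ⇑Q u v (c + c) := by
          have : (((g * g : ↥(Cfsg.isometryGroup F ⇑Q)) : GeneralLinearGroup (Fin n) F) :
            Matrix (Fin n) (Fin n) F) = ((g : GeneralLinearGroup (Fin n) F) : Matrix (Fin n) (Fin n) F) * ((g : GeneralLinearGroup (Fin n) F) : Matrix (Fin n) (Fin n) F) := rfl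
          rw [this, hg]
          exact (Cfsg.Agent.S0793.result Q u v hu hv huv).2.2 c c
        rw [hgg, hg, siegelMatrix_mulVec, siegelMatrix_mulVec]
        have e1 : polar ⇑Q u (((h : GeneralLinearGroup (Fin n) F) : Matrix (Fin n) (Fin n) F) *ᵥ x) = polar ⇑Q u x := by
          conv_lhs => rw [← hhu]
          rw [polar_mulVec]
        have e2 : 2 * polar ⇑Q v (((h : GeneralLinearGroup (Fin n) F) : Matrix (Fin n) (Fin n) F) *ᵥ x) = polar ⇑Q v x := by
          have := polar_mulVec Q h v x
          rw [hhv, polar_smul_left, smul_eq_mul] at this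
          exact this
        rw [e1, mulVec_add, mulVec_smul, mulVec_sub, mulVec_smul, mulVec_smul, hhu, hhv, ← e2]
        module
      rw [commutatorElement_def, key]
      group
  exact ⟨main, Subgroup.subset_closure (by
    obtain ⟨a, b, hab⟩ := main
    exact ⟨a, Subgroup.mem_top a, b, Subgroup.mem_top b, hab⟩)⟩

end Cfsg.Agent.S0794
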