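import Cfsg.Statements.S0795
import Cfsg.Agent.S0794
import Cfsg.Agent.H14.Split
import Cfsg.Agent.H14.Ortho

set_option autoImplicit false

open Cfsg

namespace Cfsg.Agent.S0795

open QuadraticMap Cfsg.Agent.Orth Cfsg.Agent.H14.Split

section general

variable {F V : Type*} [Field F] [AddCommGroup V] [Module F V]

/-- The subgroup generated by the long root elements. -/
def LR (Q : QuadraticForm F V) : Subgroup (OGrp Q) :=
  Subgroup.closure {g | ∃ (a b : V) (ha : Q a = 0) (_ : Q b = 0) (hab : polar Q a b = 0), g = eich Q a b ha hab}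

theorem conj_mem {Q : QuadraticForm F V} (g h : OGrp Q) (hh : h ∈ LR Q) : g * h * g⁻¹ ∈ LR Q := by
  have : LR Q ≤ (LR Q).comap (MulAut.conj g).toMonoidHom := by
    conv_lhs => rw [LR]
    rw [Subgroup.closure_le]
    rintro _ ⟨a, b, ha, hb, hab, rfl⟩
    change g * eich Q a b ha hab * g⁻¹ ∈ LR Q
    have ha' : Q ((g : V ≃ₗ[F] V) a) = 0 := by rw [OGrp_q, ha]
    have hb' : Q ((g : V ≃ₗ[F] V) b) = 0 := by rw [OGrp_q, hb]
    have hab' : polar Q ((g : V ≃ₗ[F] V) a) ((g : V ≃ₗ[F] V) b) = 0 := by rw [OGrp_polar, hab]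
    have : g * eich Q a b ha hab * g⁻¹ = eich Q _ _ ha' hab' := by
      apply OGrp_ext
      intro x
      have e : ∀ y, polar Q x ((g : V ≃ₗ[F] V) y) = polar Q (((g⁻¹ : OGrp Q) : V ≃ₗ[F] V) x) y := by
        intro y
        rw [← OGrp_polar g (((g⁻¹ : OGrp Q) : V ≃ₗ[F] V) x) y, coe_apply_inv_self]
      rw [coe_mul_apply, coe_mul_apply, eich_apply, eich_apply, e, e, OGrp_q]
      simp only [map_sub, map_add, map_smul, coe_apply_inv_self]
    rw [this]
    exact Subgroup.subset_closure ⟨_, _, ha', hb', hab', rfl⟩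
  exact this hh

variable [Finite F] [FiniteDimensional F V]

/-- Two vectors of the same norm with singular difference. -/
theorem step1 {Q : QuadraticForm F V} (hQ : (polarBilin Q).Nondegenerate) (h2 : (2 : F) ≠ 0)
    (hn : 5 ≤ Module.finrank F V) {x y : V} (hx : Q x ≠ 0) (hxy : Q y = Q x)
    (h : polar Q x y = 2 * Q x) : ∃ g ∈ LR Q, ((g : OGrp Q) : V ≃ₗ[F] V) x = y := by
  by_cases hu : y - x = 0
  · refine ⟨1, Subgroup.one_mem _, ?_⟩
    rw [coe_one_apply]
    exact (sub_eq_zero.1 hu).symm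
  have hQu : Q (y - x) = 0 := by
    rw [qsub, hxy, pc Q y x, h]; ring
  have hvu : polar Q x (y - x) = 0 := by
    rw [pdr, h, pself]; ring
  obtain ⟨u', hu'1, hu'2⟩ := exists_partner hQ h2 hu hx hvu
  have hg := gram_three h2 hx hQu hvu hu'1 hu'2
  have h4 : (4 : F) ≠ 0 := by
    have : (4 : F) = 2 * 2 := by norm_num
    rw [this]; exact mul_ne_zero h2 h2
  obtain ⟨u₀, hz1, hz2⟩ := exists_perp_q_eq hQ ![x, y - x, u'] hg hn (-(4 * Q x)⁻¹)
  have e0 : polar Q x u₀ = 0 := hz1 0
  have e1 : polar Q (y - x) u₀ = 0 := hz1 1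
  set u := (2 * Q x)⁻¹ • x + u₀ with hudef
  have hu1 : Q u = 0 := by
    rw [hudef, qadd, qsmul, psl, e0, hz2]
    field_simp
    ring
  have hu2 : polar Q u (y - x) = 0 := by
    rw [hudef, pal, psl, hvu, pc Q u₀, e1]; ring
  have hu3 : polar Q x u = 1 := by
    rw [hudef, par, psr, e0, pself]
    field_simp
    ring
  have hneg : Q (-(y - x)) = 0 := by
    have : -(y - x) = (-1 : F) • (y - x) := by simp
    rw [this, qsmul, hQu, mul_zero]
  have hneg2 : polar Q u (-(y - x)) = 0 := by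
    have : -(y - x) = (-1 : F) • (y - x) := by simp
    rw [this, psr, hu2, mul_zero]
  refine ⟨eich Q u (-(y - x)) hu1 hneg2, Subgroup.subset_closure ⟨_, _, hu1, hneg, hneg2, rfl⟩, ?_⟩
  have hneg3 : polar Q x (-(y - x)) = 0 := by
    have : -(y - x) = (-1 : F) • (y - x) := by simp
    rw [this, psr, hvu, mul_zero]
  rw [eich_apply, hneg3, hu3, hneg]
  simp

/-- Two vectors of the same norm spanning a non-degenerate plane. -/
theorem step2 {Q : QuadraticForm F V} (hQ : (polarBilin Q).Nondegenerate) (h2 : (2 : F) ≠ 0)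
    (hn : 5 ≤ Module.finrank F V) {x y : V} (hx : Q x ≠ 0) (hxy : Q y = Q x)
    (h : polar Q x y ^ 2 ≠ 4 * Q x ^ 2) : ∃ g ∈ LR Q, ((g : OGrp Q) : V ≃ₗ[F] V) x = y := by
  set f := polar Q x y with hf
  have hs : 2 * Q x + f ≠ 0 := by
    intro h0
    apply h
    linear_combination (f - 2 * Q x) * h0
  have hg : (gram Q ![x, y]).det ≠ 0 := gram_two (by
    rw [hxy, ← hf]
    intro h0
    apply h
    rw [← h0]; ring)
  set a := 2 * Q x / (2 * Q x + f) with ha
  obtain ⟨z', hz1, hz2⟩ := exists_perp_q_eq hQ ![x, y] hg (by omega) (Q x - 2 * Q x * a)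
  have e0 : polar Q x z' = 0 := hz1 0
  have e1 : polar Q y z' = 0 := hz1 1
  set z := a • (x + y) + z' with hz
  have haf : a * (2 * Q x + f) = 2 * Q x := by rw [ha]; field_simp
  have hQz : Q z = Q x := by
    rw [hz, qadd, qsmul, qadd, psl, pal, e0, e1, hz2, hxy, ← hf]
    linear_combination a * haf
  have hxz : polar Q x z = 2 * Q x := by
    rw [hz, par, psr, par, pself, e0, ← hf]; linear_combination haf
  have hzy : polar Q z y = 2 * Q z := by
    rw [hQz, pc, hz, par, psr, par, pself, e1, pc Q y x, ← hf, hxy]; linear_combination haf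
  obtain ⟨g1, hg1, hg1'⟩ := step1 hQ h2 hn hx hQz hxz
  obtain ⟨g2, hg2, hg2'⟩ := step1 hQ h2 hn (by rw [hQz]; exact hx) (hxy.trans hQz.symm) hzy
  refine ⟨g2 * g1, Subgroup.mul_mem _ hg2 hg1, ?_⟩
  rw [coe_mul_apply, hg1', hg2']

theorem step3 {Q : QuadraticForm F V} (hQ : (polarBilin Q).Nondegenerate) (h2 : (2 : F) ≠ 0)
    (hn : 5 ≤ Module.finrank F V) {x y : V} (hx : Q x ≠ 0) (hxy : Q y = Q x) :
    ∃ g ∈ LR Q, ((g : OGrp Q) : V ≃ₗ[F] V) x = y := by
  by_cases h : polar Q x y ^ 2 = 4 * Q x ^ 2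
  swap
  · exact step2 hQ h2 hn hx hxy h
  have h0 : (polar Q x y - 2 * Q x) * (polar Q x y + 2 * Q x) = 0 := by linear_combination h
  rcases mul_eq_zero.1 h0 with h' | h'
  · exact step1 hQ h2 hn hx hxy (by linear_combination h')
  · -- y = -x + w
    have h4 : (4 : F) ≠ 0 := by
      have : (4 : F) = 2 * 2 := by norm_num
      rw [this]; exact mul_ne_zero h2 h2
    obtain ⟨t, ht1, ht2, ht3⟩ : ∃ t, Q t = Q x ∧ polar Q x t = 0 ∧ polar Q t y = 0 := by
      by_cases hu : x + y = 0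
      · obtain ⟨t, hz1, hz2⟩ := exists_perp_q_eq hQ ![x] (gram_one h2 hx) (by omega) (Q x)
        have e0 : polar Q x t = 0 := hz1 0
        have hy : y = (-1 : F) • x := by
          rw [neg_one_smul]; exact (neg_eq_of_add_eq_zero_right hu).symm
        exact ⟨t, hz2, e0, by rw [hy, psr, pc, e0, mul_zero]⟩
      · have hQu : Q (x + y) = 0 := by
          rw [qadd, hxy]; linear_combination h'
        have hvu : polar Q x (x + y) = 0 := by
          rw [par, pself]; linear_combination h'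
        obtain ⟨u', hu'1, hu'2⟩ := exists_partner hQ h2 hu hx hvu
        have hg := gram_three h2 hx hQu hvu hu'1 hu'2
        obtain ⟨t, hz1, hz2⟩ := exists_perp_q_eq hQ ![x, x + y, u'] hg hn (Q x)
        have e0 : polar Q x t = 0 := hz1 0
        have e1 : polar Q (x + y) t = 0 := hz1 1
        refine ⟨t, hz2, e0, ?_⟩
        rw [pal, e0, zero_add] at e1
        rw [pc, e1]
    have hne : (0 : F) ^ 2 ≠ 4 * Q x ^ 2 := by
      rw [zero_pow two_ne_zero]
      exact (mul_ne_zero h4 (pow_ne_zero 2 hx)).symm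
    obtain ⟨g1, hg1, hg1'⟩ := step2 hQ h2 hn hx ht1 (by rw [ht2]; exact hne)
    obtain ⟨g2, hg2, hg2'⟩ := step2 hQ h2 hn (by rw [ht1]; exact hx) (hxy.trans ht1.symm)
      (by rw [ht3, ht1]; exact hne)
    refine ⟨g2 * g1, Subgroup.mul_mem _ hg2 hg1, ?_⟩
    rw [coe_mul_apply, hg1', hg2']

theorem commutator_le {Q : QuadraticForm F V} (hQ : (polarBilin Q).Nondegenerate) (h2 : (2 : F) ≠ 0)
    (hn : 5 ≤ Module.finrank F V) : commutator (OGrp Q) ≤ LR Q := by
  have hR := RGrp_top_of_two hQ h2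
  have hnorm : (LR Q).Normal := ⟨fun h hh g => conj_mem g h hh⟩
  -- reflections commute modulo LR
  have hcomm : ∀ (v w : V) (hv : Q v ≠ 0) (hw : Q w ≠ 0),
      (QuotientGroup.mk (Orth.refl Q v hv) : OGrp Q ⧸ LR Q) * QuotientGroup.mk (Orth.refl Q w hw)
        = QuotientGroup.mk (Orth.refl Q w hw) * QuotientGroup.mk (Orth.refl Q v hv) := by
    intro v w hv hw
    have h1 : Q ((Orth.refl Q v hv : V ≃ₗ[F] V) w) = Q w := OGrp_q _ _
    obtain ⟨g, hg, hg'⟩ := step3 hQ h2 hn hw h1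
    have h3 : Orth.refl Q v hv * Orth.refl Q w hw * (Orth.refl Q v hv)⁻¹ = g * Orth.refl Q w hw * g⁻¹ := by
      rw [refl_conj, refl_conj]
      congr 1
      exact hg'.symm
    have hg1 : (QuotientGroup.mk g : OGrp Q ⧸ LR Q) = 1 := (QuotientGroup.eq_one_iff g).2 hg
    have h4 := congrArg (QuotientGroup.mk (s := LR Q)) h3
    simp only [QuotientGroup.mk_mul, QuotientGroup.mk_inv, hg1, one_mul, inv_one, mul_one] at h4
    rw [mul_inv_eq_iff_eq_mul] at h4
    exact h4
  have hcomm2 : ∀ (l : List {v : V // Q v ≠ 0}) (w : V) (hw : Q w ≠ 0),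
      (QuotientGroup.mk (reflProd Q l) : OGrp Q ⧸ LR Q) * QuotientGroup.mk (Orth.refl Q w hw)
        = QuotientGroup.mk (Orth.refl Q w hw) * QuotientGroup.mk (reflProd Q l) := by
    intro l w hw
    induction l with
    | nil => rw [reflProd_nil, QuotientGroup.mk_one, one_mul, mul_one]
    | cons v l ih =>
      rw [reflProd_cons, QuotientGroup.mk_mul, mul_assoc, ih, ← mul_assoc, hcomm, mul_assoc]
  have hcomm3 : ∀ (l l' : List {v : V // Q v ≠ 0}),
      (QuotientGroup.mk (reflProd Q l) : OGrp Q ⧸ LR Q) * QuotientGroup.mk (reflProd Q l')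
        = QuotientGroup.mk (reflProd Q l') * QuotientGroup.mk (reflProd Q l) := by
    intro l l'
    induction l' with
    | nil => rw [reflProd_nil, QuotientGroup.mk_one, one_mul, mul_one]
    | cons v l' ih =>
      rw [reflProd_cons, QuotientGroup.mk_mul, ← mul_assoc, hcomm2, mul_assoc, ih, mul_assoc]
  rw [commutator_def, Subgroup.commutator_le]
  rintro g - h -
  obtain ⟨l, rfl⟩ := exists_reflProd hR g
  obtain ⟨l', rfl⟩ := exists_reflProd hR h
  rw [commutatorElement_def, ← QuotientGroup.eq_one_iff]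
  simp only [QuotientGroup.mk_mul, QuotientGroup.mk_inv]
  rw [hcomm3 l l']
  group

end general

/-- Generation of Ω by root elements: for q odd, n ≥ 5 and Q with non-degenerate polar form on F^n, the commutator subgroup of the isometry group equals the subgroup generated by the isometries whose matrices are Siegel transformations T_(u,v)(c) with u, v singular and orthogonal. -/
theorem result {F : Type*} [Field F] [Fintype F] (h2 : (2 : F) ≠ 0) {n : ℕ} (hn : 5 ≤ n) (Q : QuadraticForm F (Fin n → F)) (hQ : (QuadraticMap.polarBilin Q).Nondegenerate) : Cfsg.Omega F ⇑Q = Subgroup.closure {g : ↥(Cfsg.isometryGroup F ⇑Q) | ∃ (u v : Fin n → F) (c : F), Q u = 0 ∧ Q v = 0 ∧ QuadraticMap.polar ⇑Q u v = 0 ∧ ((g : Matrix.GeneralLinearGroup (Fin n) F) : Matrix (Fin n) (Fin n) F) = Cfsg.siegelMatrix ⇑Q u v c} := by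
  have hfr : Module.finrank F (Fin n → F) = n := by simp
  apply le_antisymm
  · intro g hg
    have h1 := commutator_le hQ h2 (by rw [hfr]; exact hn) ((mem_Omega_iff Q g).1 hg)
    set T := {g : ↥(Cfsg.isometryGroup F ⇑Q) | ∃ (u v : Fin n → F) (c : F), Q u = 0 ∧ Q v = 0 ∧ QuadraticMap.polar ⇑Q u v = 0 ∧ ((g : Matrix.GeneralLinearGroup (Fin n) F) : Matrix (Fin n) (Fin n) F) = Cfsg.siegelMatrix ⇑Q u v c}
    have h3 : LR Q ≤ (Subgroup.closure T).map (bridge Q : ↥(Cfsg.isometryGroup F ⇑Q) →* ↥(OGrp Q)) := by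
      rw [LR, Subgroup.closure_le]
      rintro _ ⟨a, b, ha, hb, hab, rfl⟩
      refine ⟨(bridge Q).symm (eich Q a b ha hab), Subgroup.subset_closure
        ⟨b, a, 1, hb, ha, by rw [pc]; exact hab, ?_⟩, (bridge Q).apply_symm_apply _⟩
      refine matrix_eq_of_mulVec fun x => ?_
      rw [bridge_symm_mulVec, H14.Ortho.siegelMatrix_mulVec, eich_apply, hb, one_smul,
        pc Q b x, pc Q a x]
      simp
      abel
    obtain ⟨h, hh, hhg⟩ := h3 h1
    have : h = g := (bridge Q).injective hhg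
    rwa [← this]
  · rw [Subgroup.closure_le]
    rintro g ⟨u, v, c, hu, hv, huv, hg⟩
    exact (S0794.result h2 hn Q hQ u v hu hv huv c g hg).2

end Cfsg.Agent.S0795
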