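import Cfsg.Statements.S0796
import Mathlib

set_option autoImplicit false

open Cfsg

namespace Cfsg.Agent.S0796

theorem result {G X : Type*} [Group G] [Finite G] [MulAction G X] [FaithfulSMul G X] (hprim : MulAction.IsPreprimitive G X) (x : X) (A : Subgroup G) (hA : A ≤ MulAction.stabilizer G x) (hAn : (A.subgroupOf (MulAction.stabilizer G x)).Normal) (hgen : Subgroup.normalClosure (A : Set G) = ⊤) (K : Subgroup G) [K.Normal] (hK : K ≠ ⊥) : ∃ (B : Subgroup A) (_ : B.Normal), Nonempty (G ⧸ K ≃* A ⧸ B) := by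
  classical
  have hfix : MulAction.fixedPoints K X ≠ Set.univ := by
    intro h
    apply hK
    rw [Subgroup.eq_bot_iff_forall]
    intro g hg
    apply FaithfulSMul.eq_of_smul_eq_smul (α := X)
    intro y
    rw [one_smul]
    exact Set.eq_univ_iff_forall.mp h y ⟨g, hg⟩
  have htrans : MulAction.IsPretransitive K X :=
    MulAction.IsQuasiPreprimitive.isPretransitive_of_normal (G := G) hfix
  -- conjugates of A are in K ⊔ A
  have hnorm : ∀ h ∈ MulAction.stabilizer G x, ∀ a ∈ A, h * a * h⁻¹ ∈ A := by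
    intro h hh a ha
    have := hAn.conj_mem ⟨a, hA ha⟩ (by simpa [Subgroup.mem_subgroupOf] using ha) ⟨h, hh⟩
    simpa [Subgroup.mem_subgroupOf] using this
  have hKA : K ⊔ A = ⊤ := by
    rw [eq_top_iff, ← hgen, Subgroup.normalClosure, Subgroup.closure_le]
    intro c hc
    rw [Group.mem_conjugatesOfSet_iff] at hc
    obtain ⟨a, ha, hac⟩ := hc
    rw [isConj_iff] at hac
    obtain ⟨g, rfl⟩ := hac
    obtain ⟨k, hk⟩ := MulAction.exists_smul_eq K x (g • x)
    have hh : (k : G)⁻¹ * g ∈ MulAction.stabilizer G x := by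
      rw [MulAction.mem_stabilizer_iff, mul_smul, ← hk]
      simp [Subgroup.smul_def]
    have h1 : ((k : G)⁻¹ * g) * a * ((k : G)⁻¹ * g)⁻¹ ∈ A := hnorm _ hh a ha
    have hk' : (k : G) ∈ K ⊔ A := Subgroup.mem_sup_left k.2
    have h2 := Subgroup.mem_sup_right (S := K) h1
    have h3 := (K ⊔ A).mul_mem ((K ⊔ A).mul_mem hk' h2) ((K ⊔ A).inv_mem hk')
    have : (k : G) * (((k : G)⁻¹ * g) * a * ((k : G)⁻¹ * g)⁻¹) * (k : G)⁻¹ = g * a * g⁻¹ := by group
    rw [this] at h3
    exact h3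
  let φ : A →* G ⧸ K := (QuotientGroup.mk' K).comp A.subtype
  have hφ : Function.Surjective φ := by
    intro y
    obtain ⟨g, rfl⟩ := QuotientGroup.mk'_surjective K y
    have hg : g ∈ K ⊔ A := by rw [hKA]; trivial
    rw [Subgroup.mem_sup_of_normal_left] at hg
    obtain ⟨k, hk, a, ha, rfl⟩ := hg
    refine ⟨⟨a, ha⟩, ?_⟩
    show QuotientGroup.mk' K a = _
    have hk1 : QuotientGroup.mk' K k = 1 := (QuotientGroup.eq_one_iff k).2 hk
    rw [map_mul, hk1, one_mul]
  exact ⟨φ.ker, inferInstance, ⟨(QuotientGroup.quotientKerEquivOfSurjective φ hφ).symm⟩⟩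

end Cfsg.Agent.S0796
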