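import Cfsg.Statements.S0797
import Cfsg.Agent.Orth.Homs

set_option autoImplicit false

open Cfsg

namespace Cfsg.Agent.S0797

open QuadraticMap Cfsg.Agent.Orth

theorem index_two_ker {G : Type*} [Group G] (f : G →* ℤˣ) {g : G} (hg : f g = -1) : f.ker.index = 2 := by
  rw [Subgroup.index_ker]
  have : f.range = ⊤ := by
    rw [MonoidHom.range_eq_top]
    intro a
    rcases Int.units_eq_one_or a with rfl | rfl
    · exact ⟨1, map_one f⟩
    · exact ⟨g, hg⟩
  rw [this]
  simp [Nat.card_eq_fintype_card]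

theorem commutator_le_of_index_two {G : Type*} [Group G] (H : Subgroup G) (hH : H.index = 2) :
    commutator G ≤ H := by
  rw [commutator_def, Subgroup.commutator_le]
  rintro a - b -
  rw [commutatorElement_def, Subgroup.mul_mem_iff_of_index_two hH, Subgroup.mul_mem_iff_of_index_two hH,
    Subgroup.mul_mem_iff_of_index_two hH, inv_mem_iff, inv_mem_iff]
  tauto

theorem main {G : Type*} [Group G] (p s : G →* ℤˣ) (r₁ r₂ : G) (hp1 : p r₁ = -1) (hp2 : p r₂ = -1)
    (hs1 : s r₁ = 1) (hs2 : s r₂ = -1) (hcomm : ∀ g, p g = 1 → s g = 1 → g ∈ commutator G) :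
    Nat.card {H : Subgroup G // H.index = 2} = 3 := by
  have hne : (-1 : ℤˣ) ≠ 1 := by decide
  have hsq : (-1 : ℤˣ) * (-1) = 1 := by decide
  have hset : {H : Subgroup G | H.index = 2} = {p.ker, s.ker, (p * s).ker} := by
    ext H
    simp only [Set.mem_ofPred_eq, Set.mem_insert_iff, Set.mem_singleton_iff]
    constructor
    · intro hH
      have hc := commutator_le_of_index_two H hH
      have hm : ∀ a b : G, a * b ∈ H ↔ (a ∈ H ↔ b ∈ H) := fun a b => Subgroup.mul_mem_iff_of_index_two hH
      have h11 : ∀ g, p g = 1 → s g = 1 → g ∈ H := fun g h1 h2 => hc (hcomm g h1 h2)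
      have h21 : ∀ g, p g = -1 → s g = 1 → (g ∈ H ↔ r₁ ∈ H) := by
        intro g h1 h2
        exact (hm g r₁).1 (h11 _ (by rw [map_mul, h1, hp1, hsq]) (by rw [map_mul, h2, hs1, mul_one]))
      have h22 : ∀ g, p g = -1 → s g = -1 → (g ∈ H ↔ r₂ ∈ H) := by
        intro g h1 h2
        exact (hm g r₂).1 (h11 _ (by rw [map_mul, h1, hp2, hsq]) (by rw [map_mul, h2, hs2, hsq]))
      have h12 : ∀ g, p g = 1 → s g = -1 → (g ∈ H ↔ (r₁ ∈ H ↔ r₂ ∈ H)) := by
        intro g h1 h2
        rw [← hm r₁ r₂]
        refine (hm g (r₁ * r₂)).1 (h11 _ ?_ ?_)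
        · rw [map_mul, map_mul, h1, hp1, hp2, hsq, mul_one]
        · rw [map_mul, map_mul, h2, hs1, hs2, one_mul, hsq]
      have htop : H ≠ ⊤ := by
        rintro rfl
        rw [Subgroup.index_top] at hH
        omega
      by_cases ha : r₁ ∈ H
      · by_cases hb : r₂ ∈ H
        · exfalso
          apply htop
          rw [eq_top_iff]
          intro g _
          rcases Int.units_eq_one_or (p g) with h1 | h1 <;> rcases Int.units_eq_one_or (s g) with h2 | h2
          · exact h11 g h1 h2
          · exact (h12 g h1 h2).2 (iff_of_true ha hb)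
          · exact (h21 g h1 h2).2 ha
          · exact (h22 g h1 h2).2 hb
        · right; left
          ext g
          rw [MonoidHom.mem_ker]
          rcases Int.units_eq_one_or (p g) with h1 | h1 <;> rcases Int.units_eq_one_or (s g) with h2 | h2
          · exact iff_of_true (h11 g h1 h2) h2
          · rw [h12 g h1 h2, h2]; tauto
          · rw [h21 g h1 h2, h2]; tauto
          · rw [h22 g h1 h2, h2]; tauto
      · by_cases hb : r₂ ∈ H
        · right; right
          ext g
          rw [MonoidHom.mem_ker, MonoidHom.mul_apply]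
          rcases Int.units_eq_one_or (p g) with h1 | h1 <;> rcases Int.units_eq_one_or (s g) with h2 | h2
          · rw [h1, h2]; exact iff_of_true (h11 g h1 h2) (mul_one _)
          · rw [h12 g h1 h2, h1, h2, one_mul]; tauto
          · rw [h21 g h1 h2, h1, h2, mul_one]; tauto
          · rw [h22 g h1 h2, h1, h2, hsq]; tauto
        · left
          ext g
          rw [MonoidHom.mem_ker]
          rcases Int.units_eq_one_or (p g) with h1 | h1 <;> rcases Int.units_eq_one_or (s g) with h2 | h2
          · exact iff_of_true (h11 g h1 h2) h1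
          · rw [h12 g h1 h2, h1]; tauto
          · rw [h21 g h1 h2, h1]; tauto
          · rw [h22 g h1 h2, h1]; tauto
    · rintro (rfl | rfl | rfl)
      · exact index_two_ker p hp1
      · exact index_two_ker s hs2
      · exact index_two_ker (p * s) (g := r₁) (by rw [MonoidHom.mul_apply, hp1, hs1, mul_one])
  have hd1 : p.ker ≠ s.ker := by
    intro h
    have : r₁ ∈ p.ker := by rw [h, MonoidHom.mem_ker, hs1]
    rw [MonoidHom.mem_ker, hp1] at this
    exact hne this
  have hd2 : p.ker ≠ (p * s).ker := by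
    intro h
    have : r₂ ∈ p.ker := by rw [h, MonoidHom.mem_ker, MonoidHom.mul_apply, hp2, hs2, hsq]
    rw [MonoidHom.mem_ker, hp2] at this
    exact hne this
  have hd3 : s.ker ≠ (p * s).ker := by
    intro h
    have : r₂ ∈ s.ker := by rw [h, MonoidHom.mem_ker, MonoidHom.mul_apply, hp2, hs2, hsq]
    rw [MonoidHom.mem_ker, hs2] at this
    exact hne this
  have : Nat.card {H : Subgroup G // H.index = 2} = Set.ncard {H : Subgroup G | H.index = 2} := rfl
  rw [this, hset, Set.ncard_eq_three]
  exact ⟨_, _, _, hd1, hd2, hd3, rfl⟩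

/-- O^ε_2m(q) ≅ Ω.2² for q odd: if F is finite of odd characteristic, n ≥ 2 is even and Q has non-degenerate polar form on F^n, the isometry group of Q has exactly three subgroups of index 2. -/
theorem result {F : Type*} [Field F] [Fintype F] (h2 : (2 : F) ≠ 0) {n : ℕ} (hn : 2 ≤ n) (heven : Even n) (Q : QuadraticForm F (Fin n → F)) (hQ : (QuadraticMap.polarBilin Q).Nondegenerate) : Nat.card {H : Subgroup ↥(Cfsg.isometryGroup F ⇑Q) // H.index = 2} = 3 := by
  have hR := RGrp_top_of_two hQ h2
  have hV : 2 ≤ Module.finrank F (Fin n → F) := by simpa using hn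
  obtain ⟨v, hv⟩ := exists_q_eq hQ hV 1
  have hv0 : Q v ≠ 0 := by rw [hv]; exact one_ne_zero
  obtain ⟨c, hc⟩ := FiniteField.exists_nonsquare (F := F) (by
    intro h
    have : CharP F 2 := by
      rw [← h]; exact ringChar.charP F
    exact h2 (CharTwo.two_eq_zero))
  obtain ⟨w, hw⟩ := exists_q_eq hQ hV c
  have hw0 : Q w ≠ 0 := by
    rw [hw]; rintro rfl; exact hc IsSquare.zero
  refine main ((parityHom hQ hR).comp (bridge Q : ↥(Cfsg.isometryGroup F ⇑Q) →* ↥(OGrp Q)))
    ((spinHom hQ hR).comp (bridge Q : ↥(Cfsg.isometryGroup F ⇑Q) →* ↥(OGrp Q)))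
    ((bridge Q).symm (Orth.refl Q v hv0)) ((bridge Q).symm (Orth.refl Q w hw0)) ?_ ?_ ?_ ?_ ?_
  · change parityHom hQ hR ((bridge Q) ((bridge Q).symm (Orth.refl Q v hv0))) = -1
    rw [MulEquiv.apply_symm_apply, parityHom_refl]
  · change parityHom hQ hR ((bridge Q) ((bridge Q).symm (Orth.refl Q w hw0))) = -1
    rw [MulEquiv.apply_symm_apply, parityHom_refl]
  · change spinHom hQ hR ((bridge Q) ((bridge Q).symm (Orth.refl Q v hv0))) = 1
    rw [MulEquiv.apply_symm_apply, spinHom_refl, hv, sqc, if_pos IsSquare.one]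
  · change spinHom hQ hR ((bridge Q) ((bridge Q).symm (Orth.refl Q w hw0))) = -1
    rw [MulEquiv.apply_symm_apply, spinHom_refl, hw, sqc, if_neg hc]
  · intro g h1 h3
    exact (mem_commutator_equiv (bridge Q) g).2 ((mem_commutator_iff_homs hQ hR (bridge Q g)).2 ⟨h1, h3⟩)

end Cfsg.Agent.S0797
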