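import Cfsg.Statements.S0798
import Cfsg.Agent.H14.Split

set_option autoImplicit false

open Cfsg

namespace Cfsg.Agent.S0798

open QuadraticMap Cfsg.Agent.Orth Cfsg.Agent.H14.Split

section general

variable {F V : Type*} [Field F] [AddCommGroup V] [Module F V] [Finite F] [FiniteDimensional F V]

theorem plane_mem {Q : QuadraticForm F V} (h2 : (2 : F) ≠ 0) (S : Subgroup (OGrp Q)) {c : F} (hc : c ≠ 0)
    (hS : ∀ (v : V) (hv : Q v ≠ 0) (t : F), t ≠ 0 → Q v = c * t ^ 2 → Orth.refl Q v hv ∈ S)
    {d : F} (hd : d ≠ 0) {v w : V} (hv : Q v = d) (hw : Q w = d) (hv0 : Q v ≠ 0) (hw0 : Q w ≠ 0)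
    (h : polar Q v w ^ 2 ≠ 4 * d ^ 2) : Orth.refl Q v hv0 * Orth.refl Q w hw0 ∈ S := by
  have h4 : (4 : F) ≠ 0 := by
    have : (4 : F) = 2 * 2 := by norm_num
    rw [this]; exact mul_ne_zero h2 h2
  set f := polar Q v w with hf
  have hcoef : d - f ^ 2 / (4 * d) ≠ 0 := by
    intro h0
    apply h
    field_simp at h0
    linear_combination -h0
  obtain ⟨x, y, hxy⟩ := exists_sum_sq hd hcoef c
  set α := x - f * y / (2 * d) with hα
  have hqa : Q (α • v + y • w) = c := by
    rw [qadd, qsmul, qsmul, psl, psr, hv, hw, ← hf, hα, ← hxy]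
    field_simp
    ring
  have hqa0 : Q (α • v + y • w) ≠ 0 := by rw [hqa]; exact hc
  obtain ⟨b, hb0, hb, hbe⟩ := refl_mul_refl_mul_refl hv0 hw0 rfl hqa0
  rw [hqa, hv, hw] at hb
  have hbS : Orth.refl Q b hb0 ∈ S := hS b hb0 d hd (by rw [hb]; ring)
  have haS : Orth.refl Q _ hqa0 ∈ S := hS _ hqa0 1 one_ne_zero (by rw [hqa]; ring)
  have := S.mul_mem (S.inv_mem haS) hbS
  rwa [← hbe, inv_mul_cancel_left] at this

theorem exists_t (h2 : (2 : F) ≠ 0) (h3 : Nat.card F ≠ 3) (d : F) : ∃ t : F, t ≠ 0 ∧ t ^ 2 ≠ 4 * d ^ 2 := by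
  classical
  cases nonempty_fintype F
  have hc : 3 < Fintype.card F := by
    rw [Nat.card_eq_fintype_card] at h3
    have h1 : 1 < Fintype.card F := Fintype.one_lt_card
    have h2' : Fintype.card F ≠ 2 := by
      intro h
      apply h2
      have := FiniteField.cast_card_eq_zero F
      rw [h] at this
      exact_mod_cast this
    omega
  obtain ⟨t, ht⟩ : ∃ t, t ∉ ({0, 2 * d, -(2 * d)} : Finset F) := by
    by_contra hcon
    push Not at hcon
    have : (Finset.univ : Finset F) ⊆ {0, 2 * d, -(2 * d)} := fun x _ => hcon x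
    have := Finset.card_le_card this
    rw [Finset.card_univ] at this
    have := this.trans Finset.card_le_three
    omega
  simp only [Finset.mem_insert, Finset.mem_singleton, not_or] at ht
  refine ⟨t, ht.1, fun h => ?_⟩
  have : (t - 2 * d) * (t + 2 * d) = 0 := by linear_combination h
  rcases mul_eq_zero.1 this with h' | h'
  · exact ht.2.1 (by linear_combination h')
  · exact ht.2.2 (by linear_combination h')

theorem pair_mem {Q : QuadraticForm F V} (hQ : (polarBilin Q).Nondegenerate) (h2 : (2 : F) ≠ 0)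
    (heven : Even (Module.finrank F V)) (h43 : ¬ (Module.finrank F V = 4 ∧ Nat.card F = 3))
    (S : Subgroup (OGrp Q)) {c : F} (hc : c ≠ 0)
    (hS : ∀ (v : V) (hv : Q v ≠ 0) (t : F), t ≠ 0 → Q v = c * t ^ 2 → Orth.refl Q v hv ∈ S)
    {d : F} (hd : d ≠ 0) {v w : V} (hv : Q v = d) (hw : Q w = d) (hv0 : Q v ≠ 0) (hw0 : Q w ≠ 0) :
    Orth.refl Q v hv0 * Orth.refl Q w hw0 ∈ S := by
  by_cases h : polar Q v w ^ 2 = 4 * d ^ 2
  swap
  · exact plane_mem h2 S hc hS hd hv hw hv0 hw0 h
  have h4d : (0 : F) ≠ 4 * d ^ 2 := by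
    have : (4 : F) * d ^ 2 = (2 * 2) * (d * d) := by ring
    rw [this]
    exact (mul_ne_zero (mul_ne_zero h2 h2) (mul_ne_zero hd hd)).symm
  -- reduce to polar v w = 2 d
  have key : ∀ w (hw : Q w = d) (hw0 : Q w ≠ 0), polar Q v w = 2 * d →
      Orth.refl Q v hv0 * Orth.refl Q w hw0 ∈ S := by
    intro w hw hw0 hvw
    by_cases hu : w - v = 0
    · have : w = v := by rwa [sub_eq_zero] at hu
      subst this
      rw [refl_mul_self]
      exact S.one_mem
    have hQu : Q (w - v) = 0 := by
      rw [qsub, hw, hv, pc Q w v, hvw]; ring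
    have hvu : polar Q v (w - v) = 0 := by
      rw [pdr, hvw, pself, hv]; ring
    obtain ⟨u', hu'1, hu'2⟩ := exists_partner hQ h2 hu hv0 hvu
    have hg := gram_three h2 hv0 hQu hvu hu'1 hu'2
    have h3 := card_le_finrank_of_gram _ hg
    obtain ⟨z, hz, hvz, hwz⟩ : ∃ z, Q z = d ∧ polar Q v z ^ 2 ≠ 4 * d ^ 2 ∧ polar Q z w ^ 2 ≠ 4 * d ^ 2 := by
      by_cases hn5 : 5 ≤ Module.finrank F V
      · obtain ⟨z, hz1, hz2⟩ := exists_perp_q_eq hQ ![v, w - v, u'] hg hn5 d
        have e0 : polar Q v z = 0 := hz1 0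
        have e1 : polar Q (w - v) z = 0 := hz1 1
        have e2 : polar Q z w = 0 := by
          rw [pc]
          have : w = (w - v) + v := by abel
          rw [this, pal, e0, e1, add_zero]
        refine ⟨z, hz2, ?_, ?_⟩
        · rw [e0, zero_pow two_ne_zero]; exact h4d
        · rw [e2, zero_pow two_ne_zero]; exact h4d
      · obtain ⟨t, ht0, ht⟩ := exists_t h2 (by
          intro h3'
          apply h43
          refine ⟨?_, h3'⟩
          obtain ⟨r, hr⟩ := heven
          omega) d
        refine ⟨t • u' + ((d - t ^ 2 * Q u') / t) • (w - v), ?_, ?_, ?_⟩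
        · rw [qadd, qsmul, qsmul, psl, psr, hQu, pc Q u' (w - v), hu'2]
          field_simp
          ring
        · rw [par, psr, psr, hvu, hu'1]
          have : (t * 0 + (d - t ^ 2 * Q u') / t * 0 : F) ^ 2 = 0 := by ring
          rw [this]
          exact h4d
        · have e2 : polar Q (t • u' + ((d - t ^ 2 * Q u') / t) • (w - v)) w = t := by
            have hw' : w = (w - v) + v := by abel
            rw [pc]
            conv_lhs => rw [hw']
            rw [add_sub_cancel_right, pal, par, par, psr, psr, psr, psr, hvu, hu'1, hu'2, pself, hQu]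
            ring
          rw [e2]
          exact ht
    have hz0 : Q z ≠ 0 := by rw [hz]; exact hd
    have h1 := plane_mem h2 S hc hS hd hv hz hv0 hz0 hvz
    have h2' := plane_mem h2 S hc hS hd hz hw hz0 hw0 hwz
    have := S.mul_mem h1 h2'
    rwa [mul_assoc, ← mul_assoc (Orth.refl Q z hz0), refl_mul_self, one_mul] at this
  have : (polar Q v w - 2 * d) * (polar Q v w + 2 * d) = 0 := by linear_combination h
  rcases mul_eq_zero.1 this with h' | h'
  · exact key w hw hw0 (by linear_combination h')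
  · have hnw : Q ((-1 : F) • w) = d := by rw [qsmul, hw]; ring
    have hnw0 : Q ((-1 : F) • w) ≠ 0 := by rw [hnw]; exact hd
    have := key _ hnw hnw0 (by rw [psr]; linear_combination -h')
    rwa [refl_smul hw0 (neg_ne_zero.2 one_ne_zero)] at this

theorem exists_char {Q : QuadraticForm F V} (hQ : (polarBilin Q).Nondegenerate) (hR : RGrp Q = ⊤) (c : F) :
    ∃ χ : OGrp Q →* ℤˣ, ∀ (v : V) (hv : Q v ≠ 0), χ (Orth.refl Q v hv) = sqc (Q v) * sqc c := by
  by_cases hc : IsSquare c
  · refine ⟨spinHom hQ hR, fun v hv => ?_⟩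
    rw [spinHom_refl, show sqc c = 1 from if_pos hc, mul_one]
  · refine ⟨parityHom hQ hR * spinHom hQ hR, fun v hv => ?_⟩
    rw [MonoidHom.mul_apply, spinHom_refl, parityHom_refl, show sqc c = -1 from if_neg hc, mul_comm]

end general

/-- For q odd, n ≥ 2 even, Q with non-degenerate polar form (n, |F|) ≠ (4, 3), and a fixed c ≠ 0: the subgroup of the isometry group generated by the reflections r_v with Q(v) ∈ c·(F^×)² has index 2. -/
theorem result {F : Type*} [Field F] [Fintype F] (h2 : (2 : F) ≠ 0) {n : ℕ} (hn : 2 ≤ n) (heven : Even n) (Q : QuadraticForm F (Fin n → F)) (hQ : (QuadraticMap.polarBilin Q).Nondegenerate) (h43 : ¬ (n = 4 ∧ Fintype.card F = 3)) (c : F) (hc : c ≠ 0) : (Subgroup.closure {g : ↥(Cfsg.isometryGroup F ⇑Q) | ∃ (v : Fin n → F) (t : F), t ≠ 0 ∧ Q v = c * t ^ 2 ∧ ((g : Matrix.GeneralLinearGroup (Fin n) F) : Matrix (Fin n) (Fin n) F) = Cfsg.reflectionMatrix ⇑Q v}).index = 2 := by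
  have hR := RGrp_top_of_two hQ h2
  have hfr : Module.finrank F (Fin n → F) = n := by simp
  set T := {g : ↥(Cfsg.isometryGroup F ⇑Q) | ∃ (v : Fin n → F) (t : F), t ≠ 0 ∧ Q v = c * t ^ 2 ∧ ((g : Matrix.GeneralLinearGroup (Fin n) F) : Matrix (Fin n) (Fin n) F) = Cfsg.reflectionMatrix ⇑Q v} with hT
  set S := (Subgroup.closure T).map (bridge Q : ↥(Cfsg.isometryGroup F ⇑Q) →* ↥(OGrp Q)) with hSdef
  have hS : ∀ (v : Fin n → F) (hv : Q v ≠ 0) (t : F), t ≠ 0 → Q v = c * t ^ 2 → Orth.refl Q v hv ∈ S := by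
    intro v hv t ht hvt
    refine ⟨(bridge Q).symm (Orth.refl Q v hv), Subgroup.subset_closure ⟨v, t, ht, hvt, ?_⟩, ?_⟩
    · rw [← bridge_eq_refl_iff Q _ hv, MulEquiv.apply_symm_apply]
    · exact (bridge Q).apply_symm_apply _
  have hmem : ∀ g, bridge Q g ∈ S ↔ g ∈ Subgroup.closure T := by
    intro g
    constructor
    · rintro ⟨h, hh, hhg⟩
      have : h = g := (bridge Q).injective hhg
      rwa [← this]
    · intro hg
      exact ⟨g, hg, rfl⟩
  obtain ⟨ν, hν⟩ := FiniteField.exists_nonsquare (F := F) (by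
    intro h
    have : CharP F 2 := by
      rw [← h]; exact ringChar.charP F
    exact h2 (CharTwo.two_eq_zero))
  have hν0 : ν ≠ 0 := by rintro rfl; exact hν IsSquare.zero
  obtain ⟨χ, hχ⟩ := exists_char hQ hR c
  obtain ⟨v0, hv0⟩ := exists_q_eq hQ (by rw [hfr]; exact hn) (c * ν)
  have hd : c * ν ≠ 0 := mul_ne_zero hc hν0
  have hv00 : Q v0 ≠ 0 := by rw [hv0]; exact hd
  have hsq : sqc c * sqc c = 1 := by
    rcases Int.units_eq_one_or (sqc c) with h | h <;> rw [h] <;> rfl
  have hSχ : S ≤ χ.ker := by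
    rw [hSdef, Subgroup.map_le_iff_le_comap, Subgroup.closure_le]
    rintro g ⟨v, t, ht, hvt, hg⟩
    have hv' : Q v ≠ 0 := by rw [hvt]; exact mul_ne_zero hc (pow_ne_zero 2 ht)
    have : bridge Q g = Orth.refl Q v hv' := (bridge_eq_refl_iff Q g hv').2 hg
    change χ (bridge Q g) = 1
    rw [this, hχ, hvt, sqc_mul hc (pow_ne_zero 2 ht)]
    have h1 : sqc (t ^ 2) = 1 := if_pos ⟨t, by ring⟩
    rw [h1, mul_one, hsq]
  have hχ0 : χ (Orth.refl Q v0 hv00) = -1 := by
    rw [hχ, hv0, sqc_mul hc hν0, show sqc ν = -1 from if_neg hν, mul_right_comm, hsq, one_mul]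
  -- reduction of arbitrary reflections
  have hpair : ∀ (w : Fin n → F) (hw : Q w ≠ 0), Orth.refl Q w hw ∈ S ∨
      Orth.refl Q v0 hv00 * Orth.refl Q w hw ∈ S := by
    intro w hw
    by_cases hsqr : IsSquare (Q w / c)
    · left
      obtain ⟨t, ht⟩ := hsqr
      have hwt : Q w = c * t ^ 2 := by
        field_simp at ht
        rw [ht]
      refine hS w hw t ?_ hwt
      rintro rfl
      apply hw
      rw [hwt]; ring
    · right
      obtain ⟨s, hs⟩ := isSquare_mul_of_not hsqr hν
      have hs0 : s ≠ 0 := by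
        rintro rfl
        rw [mul_zero, mul_eq_zero] at hs
        rcases hs with hs | hs
        · exact (div_ne_zero hw hc) hs
        · exact hν0 hs
      have hw1 : Q ((ν / s) • w) = c * ν := by
        rw [qsmul]
        field_simp at hs ⊢
        linear_combination hs
      have hw10 : Q ((ν / s) • w) ≠ 0 := by rw [hw1]; exact hd
      have := pair_mem hQ h2 (by rw [hfr]; exact heven) (by
        rw [hfr, Nat.card_eq_fintype_card]; exact h43) S hc hS hd hv0 hw1 hv00 hw10
      rwa [refl_smul hw (div_ne_zero hν0 hs0)] at this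
  have hprod : ∀ l, reflProd Q l ∈ S ∨ Orth.refl Q v0 hv00 * reflProd Q l ∈ S := by
    intro l
    induction l with
    | nil => left; rw [reflProd_nil]; exact S.one_mem
    | cons w l ih =>
      rw [reflProd_cons]
      rcases hpair w.1 w.2 with h | h
      · rcases ih with ih | ih
        · left; exact S.mul_mem h ih
        · right
          by_cases hh : Orth.refl Q v0 hv00 * Orth.refl Q w.1 w.2 * (Orth.refl Q v0 hv00)⁻¹ ∈ S
          · have := S.mul_mem hh ih
            rwa [refl_inv, mul_assoc, mul_assoc, ← mul_assoc (Orth.refl Q v0 hv00) (Orth.refl Q v0 hv00), refl_mul_self, one_mul] at this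
          · exfalso
            apply hh
            rw [refl_conj]
            have hc' : Q ((Orth.refl Q v0 hv00 : (Fin n → F) ≃ₗ[F] (Fin n → F)) w.1) = Q w.1 := OGrp_q _ _
            have hsqr : IsSquare (Q w.1 / c) := by
              by_contra hns
              have h1 := hSχ h
              rw [MonoidHom.mem_ker, hχ] at h1
              have h2' : Q w.1 = c * (Q w.1 / c) := by field_simp
              rw [h2', sqc_mul hc (div_ne_zero w.2 hc), show sqc (Q w.1 / c) = -1 from if_neg hns,
                mul_right_comm, hsq] at h1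
              exact absurd h1 (by decide)
            obtain ⟨t, ht⟩ := hsqr
            have hwt : Q w.1 = c * t ^ 2 := by
              field_simp at ht
              rw [ht]
            refine hS _ _ t ?_ (hc'.trans hwt)
            rintro rfl
            apply w.2
            rw [hwt]; ring
      · rcases ih with ih | ih
        · right
          rw [← mul_assoc]
          exact S.mul_mem h ih
        · left
          have := S.mul_mem (S.inv_mem h) ih
          rwa [mul_inv_rev, refl_inv, refl_inv, mul_assoc, ← mul_assoc (Orth.refl Q v0 hv00) (Orth.refl Q v0 hv00), refl_mul_self, one_mul] at this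
  rw [Subgroup.index_eq_two_iff_exists_notMem_and']
  refine ⟨(bridge Q).symm (Orth.refl Q v0 hv00), ?_, ?_⟩
  · rw [← hmem, MulEquiv.apply_symm_apply]
    intro h
    have := hSχ h
    rw [MonoidHom.mem_ker, hχ0] at this
    exact absurd this (by decide)
  · intro g
    obtain ⟨l, hl⟩ := exists_reflProd hR (bridge Q g)
    rw [← hmem, ← hmem, map_mul, MulEquiv.apply_symm_apply]
    rcases hprod l with h | h
    · right
      rwa [hl] at h
    · left
      rwa [hl] at h

end Cfsg.Agent.S0798
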