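import Cfsg.Statements.S0800
import Cfsg.Agent.H41.Torus

set_option autoImplicit false

open Cfsg

namespace Cfsg.Agent.S0800

open Cfsg.Agent.H41

/-- Tori of SL_2(q): if g ∈ SL_2(q) has order coprime to the characteristic p, then the order of g divides q − 1 or q + 1. -/
theorem result {F : Type*} [Field F] [Fintype F] {q : ℕ} (hF : Fintype.card F = q) (p : ℕ) [Fact p.Prime] [CharP F p] (g : Matrix.SpecialLinearGroup (Fin 2) F) (hg : Nat.Coprime (orderOf g) p) : orderOf g ∣ q - 1 ∨ orderOf g ∣ q + 1 := by
  by_cases h4 : tr g ^ 2 = 4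
  · left
    have hδ : ∃ δ : F, δ ^ 2 = 1 ∧ tr g = 2 * δ := by
      have : (tr g - 2) * (tr g + 2) = 0 := by linear_combination h4
      rcases mul_eq_zero.1 this with h | h
      · exact ⟨1, by ring, by linear_combination h⟩
      · exact ⟨-1, by ring, by linear_combination h⟩
    obtain ⟨δ, hδ1, hδ2⟩ := hδ
    have h1 := pow_char_of_tr g δ hδ1 hδ2
    have h2 : g ^ (p * 2) = 1 := by
      apply Subtype.ext
      change ((g ^ (p * 2) : Matrix.SpecialLinearGroup (Fin 2) F) : Matrix (Fin 2) (Fin 2) F) = 1
      rw [Matrix.SpecialLinearGroup.coe_pow, pow_mul, h1, smul_pow, one_pow, ← pow_mul, mul_comm p 2,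
        pow_mul, hδ1, one_pow, one_smul]
    have h3 : orderOf g ∣ p * 2 := orderOf_dvd_of_pow_eq_one h2
    have h5 : orderOf g ∣ 2 := hg.dvd_of_dvd_mul_left h3
    by_cases hp : p = 2
    · subst hp
      have : orderOf g = 1 := by
        have := Nat.eq_one_of_dvd_coprimes hg dvd_rfl h5
        exact this
      rw [this]
      exact one_dvd _
    · refine h5.trans ?_
      have hodd : Fintype.card F % 2 = 1 := by
        apply FiniteField.odd_card_of_char_ne_two
        intro h
        apply hp
        rw [← h]
        exact (ringChar.eq F p).symm ▸ rfl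
      rw [hF] at hodd
      omega
  · by_cases hE : ∃ a, a ^ 2 - tr g * a + 1 = 0
    · left
      obtain ⟨a, ha⟩ := hE
      obtain ⟨u, P, hP⟩ := exists_conj_spHom g h4 a ha
      apply orderOf_dvd_of_pow_eq_one
      rw [hP, conj_pow, ← map_pow]
      have : u ^ (q - 1) = 1 := by
        have h := pow_card_eq_one' (x := u)
        rwa [Nat.card_units, Nat.card_eq_fintype_card, hF] at h
      rw [this]
      simp
    · right
      push Not at hE
      apply orderOf_dvd_of_pow_eq_one
      have := pow_card_succ_of_noEig g hE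
      rwa [Nat.card_eq_fintype_card, hF] at this

end Cfsg.Agent.S0800
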