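import Cfsg.Statements.S0808
import Cfsg.Agent.H14.KleinPSL
import Cfsg.Agent.S0809

set_option autoImplicit false
open Cfsg

namespace Cfsg.Agent.S0808

open Cfsg.Agent.H14.Klein

theorem map_conj_one {G : Type*} [Group G] (V : Subgroup G) : V.map (MulAut.conj (1 : G)).toMonoidHom = V := by
  have : (MulAut.conj (1 : G)).toMonoidHom = MonoidHom.id G := MonoidHom.ext fun x => by simp
  rw [this, Subgroup.map_id]

/-- Conjugacy classes of four-groups in PSL_2(q), q odd: if q ≡ 3 or 5 (mod 8) all Klein four-subgroups are conjugate; if q ≡ 1 or 7 (mod 8) there are two Klein four-subgroups which are not conjugate, and every Klein four-subgroup is conjugate to one of them. -/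
theorem result {F : Type*} [Field F] [Fintype F] {q : ℕ} (hF : Fintype.card F = q) (hodd : Odd q) : ((q % 8 = 3 ∨ q % 8 = 5) → ∀ V W : Subgroup (Matrix.ProjectiveSpecialLinearGroup (Fin 2) F), IsKleinFour V → IsKleinFour W → ∃ g : Matrix.ProjectiveSpecialLinearGroup (Fin 2) F, W = V.map (MulAut.conj g).toMonoidHom) ∧ ((q % 8 = 1 ∨ q % 8 = 7) → ∃ V₁ V₂ : Subgroup (Matrix.ProjectiveSpecialLinearGroup (Fin 2) F), IsKleinFour V₁ ∧ IsKleinFour V₂ ∧ (¬ ∃ g : Matrix.ProjectiveSpecialLinearGroup (Fin 2) F, V₂ = V₁.map (MulAut.conj g).toMonoidHom) ∧ ∀ W : Subgroup (Matrix.ProjectiveSpecialLinearGroup (Fin 2) F), IsKleinFour W → (∃ g : Matrix.ProjectiveSpecialLinearGroup (Fin 2) F, W = V₁.map (MulAut.conj g).toMonoidHom) ∨ (∃ g : Matrix.ProjectiveSpecialLinearGroup (Fin 2) F, W = V₂.map (MulAut.conj g).toMonoidHom)) := by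
  classical
  have h2 : (2 : F) ≠ 0 := S0809.two_ne_zero_of_odd (by rw [hF]; exact hodd)
  have hfin := finite_psl (F := F)
  constructor
  · intro hq V W hV hW
    obtain ⟨h4, h8⟩ := dvd_four hF hq
    exact isConj_of_sylow h4 h8 hV hW
  · intro hq
    have h8 := dvd_eight hF hq
    set G := Matrix.ProjectiveSpecialLinearGroup (Fin 2) F with hG
    -- size of a class
    let cls : Subgroup G → Set (Subgroup G) := fun V => {W | ∃ g : G, W = V.map (MulAut.conj g).toMonoidHom}
    let kl : Set (Subgroup G) := {V | IsKleinFour V}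
    have h12 : 12 * kl.ncard = Nat.card G := twelve_mul h2
    have hcls : ∀ V : Subgroup G, IsKleinFour V → 24 * (cls V).ncard = Nat.card G := by
      intro V hV
      have h1 := card_conj_mul V
      rw [card_normalizer_24 h2 h8 hV, mul_comm] at h1
      exact h1
    have hsub : ∀ V : Subgroup G, IsKleinFour V → cls V ⊆ kl := by
      rintro V hV W ⟨g, rfl⟩
      exact isKleinFour_map hV g
    have hself : ∀ V : Subgroup G, V ∈ cls V := by
      intro V
      exact ⟨1, (map_conj_one V).symm⟩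
    have hdisj : ∀ V W X : Subgroup G, X ∈ cls V → X ∈ cls W → W ∈ cls V := by
      rintro V W X ⟨g, hg⟩ ⟨h, hh⟩
      refine ⟨h⁻¹ * g, ?_⟩
      rw [map_conj_mul, ← hg, hh, ← map_conj_mul, inv_mul_cancel, map_conj_one]
    have hpos : 0 < Nat.card G := Nat.card_pos
    obtain ⟨V₁, hV₁⟩ := exists_klein (F := F) h2
    have h1 := hcls V₁ hV₁
    obtain ⟨V₂, hV₂, hV₂'⟩ : ∃ V₂ ∈ kl, V₂ ∉ cls V₁ := by
      by_contra hcon
      push Not at hcon
      have : kl ⊆ cls V₁ := hcon
      have := Set.ncard_le_ncard this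
      omega
    refine ⟨V₁, V₂, hV₁, hV₂, hV₂', ?_⟩
    intro W hW
    by_contra hcon
    rw [not_or] at hcon
    have h3 := hcls V₂ hV₂
    have h4 := hcls W hW
    have d1 : Disjoint (cls V₁) (cls V₂) := by
      rw [Set.disjoint_left]
      intro X hX1 hX2
      exact hV₂' (hdisj V₁ V₂ X hX1 hX2)
    have d2 : Disjoint (cls V₁ ∪ cls V₂) (cls W) := by
      rw [Set.disjoint_left]
      rintro X (hX1 | hX1) hX2
      · exact hcon.1 (hdisj V₁ W X hX1 hX2)
      · exact hcon.2 (hdisj V₂ W X hX1 hX2)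
    have h5 : ((cls V₁ ∪ cls V₂) ∪ cls W).ncard ≤ kl.ncard :=
      Set.ncard_le_ncard (Set.union_subset (Set.union_subset (hsub _ hV₁) (hsub _ hV₂)) (hsub _ hW))
    rw [Set.ncard_union_eq d2, Set.ncard_union_eq d1] at h5
    omega

end Cfsg.Agent.S0808
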