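import Cfsg.Statements.S0810
import Cfsg.Agent.Dk.MinSimple
-- import your own Cfsg.Agent.* helpers here

set_option autoImplicit false
open Cfsg

namespace Cfsg.Agent.S0810

/-- PSL_2(q) is minimal simple iff q is 2^r (r prime), 3^r (r an odd prime), a prime greater than 5 congruent to 2 or 3 mod 5, or 5. -/
theorem result {F : Type*} [Field F] [Fintype F] {q : ℕ} (hF : Fintype.card F = q) : Cfsg.IsMinimalSimple (Matrix.ProjectiveSpecialLinearGroup (Fin 2) F) ↔ ((∃ r : ℕ, r.Prime ∧ q = 2 ^ r) ∨ (∃ r : ℕ, r.Prime ∧ r ≠ 2 ∧ q = 3 ^ r) ∨ (q.Prime ∧ 5 < q ∧ (q % 5 = 2 ∨ q % 5 = 3)) ∨ q = 5) := by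
  have hc : Nat.card F = q := by rw [Nat.card_eq_fintype_card, hF]
  obtain ⟨p, hp, hcp⟩ := Dk.exists_char (F := F)
  obtain ⟨n, -, hn⟩ := FiniteField.card F p
  have hcn : Nat.card F = p ^ (n : ℕ) := by rw [Nat.card_eq_fintype_card, hn]
  constructor
  · rintro ⟨h1, h2, h3⟩
    have h := Dk.minsimple_only hp hcn h1 h3
    rw [hc] at h
    exact h
  · intro h
    have hpow : ∀ (l r q1 m : ℕ), l.Prime → q1 ^ m = l ^ r → r.Prime → 2 ≤ m → q1 = l := by
      intro l r q1 m hl h1 hr hm
      have h2 : q1 ∣ l ^ r := by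
        rw [← h1]; exact dvd_pow_self _ (by omega)
      obtain ⟨k, -, hk⟩ := (Nat.dvd_prime_pow hl).1 h2
      rw [hk, ← pow_mul] at h1
      have h3 := Nat.pow_right_injective hl.two_le h1
      rcases Nat.prime_mul_iff.1 (h3 ▸ hr) with ⟨-, h4⟩ | ⟨-, h4⟩
      · omega
      · rw [hk, h4, pow_one]
    rcases h with ⟨r, hr, h⟩ | ⟨r, hr, hr2, h⟩ | ⟨h, h5, hmod⟩ | h
    · have hp2 : 2 = p := Dk.eq_char_of_prime (F := F) hp Nat.prime_two
        (by rw [hc, h]; exact dvd_pow_self _ hr.ne_zero)
      subst hp2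
      refine Dk.minsimple_of hp (n := r) (by rw [hc, h]) ?_ ?_ ?_
      · rw [hc, h]
        calc 4 = 2 ^ 2 := by norm_num
          _ ≤ 2 ^ r := Nat.pow_le_pow_right (by norm_num) hr.two_le
      · intro q1 m h1 h2 h3
        have := hpow 2 r q1 m Nat.prime_two h2 hr h3
        omega
      · rintro (h1 | h1)
        · exact absurd (by norm_num) h1
        · omega
    · have hp3 : 3 = p := Dk.eq_char_of_prime (F := F) hp Nat.prime_three
        (by rw [hc, h]; exact dvd_pow_self _ hr.ne_zero)
      subst hp3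
      have hodd : Odd r := hr.odd_of_ne_two hr2
      refine Dk.minsimple_of hp (n := r) (by rw [hc, h]) ?_ ?_ ?_
      · rw [hc, h]
        have : 3 ^ 2 ≤ 3 ^ r := Nat.pow_le_pow_right (by norm_num) hr.two_le
        omega
      · intro q1 m h1 h2 h3
        exact hpow 3 r q1 m Nat.prime_three h2 hr h3
      · intro _ h60
        have h2 := Dk.card_psl (F := F)
        have h4 : 60 ∣ Nat.card F * ((Nat.card F - 1) * (Nat.card F + 1)) := by
          rw [← h2]; exact Dvd.dvd.mul_left h60 _
        rw [hc, h] at h4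
        obtain ⟨s, hs⟩ := hodd
        have h5 : 3 ^ r % 5 = 3 ∨ 3 ^ r % 5 = 2 := by
          rw [hs, pow_succ, pow_mul]
          have h6 : (3 ^ 2) ^ s % 5 = 1 ∨ (3 ^ 2) ^ s % 5 = 4 := by
            clear * -
            induction s with
            | zero => left; norm_num
            | succ n ih => rw [pow_succ]; omega
          omega
        have h7 : 5 ∣ 3 ^ r * ((3 ^ r - 1) * (3 ^ r + 1)) := dvd_trans (by norm_num) h4
        clear h4
        generalize 3 ^ r = x at h5 h7
        rcases (Nat.prime_five.dvd_mul).1 h7 with h9 | h9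
        · omega
        · rcases (Nat.prime_five.dvd_mul).1 h9 with h10 | h10 <;> omega
    · have hpp : q = p := Dk.eq_char_of_prime (F := F) hp h (by rw [hc])
      subst hpp
      refine Dk.minsimple_of hp (n := 1) (by rw [hc, pow_one]) (by rw [hc]; omega) ?_ ?_
      · intro q1 m h1 h2 h3
        exfalso
        rw [pow_one] at h2
        have h4 : q1 ∣ q := by rw [← h2]; exact dvd_pow_self _ (by omega)
        rcases (Nat.dvd_prime hp).1 h4 with h6 | h6
        · omega
        · rw [h6] at h2
          have : q ^ 1 < q ^ m := Nat.pow_lt_pow_right hp.one_lt (by omega)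
          rw [h2, pow_one] at this
          omega
      · intro _ h60
        have h2 := Dk.card_psl (F := F)
        have h4 : 60 ∣ Nat.card F * ((Nat.card F - 1) * (Nat.card F + 1)) := by
          rw [← h2]; exact Dvd.dvd.mul_left h60 _
        rw [hc] at h4
        have h7 : 5 ∣ q * ((q - 1) * (q + 1)) := dvd_trans (by norm_num) h4
        rcases (Nat.prime_five.dvd_mul).1 h7 with h9 | h9
        · omega
        · rcases (Nat.prime_five.dvd_mul).1 h9 with h10 | h10 <;> omega
    · have hpp : 5 = p := Dk.eq_char_of_prime (F := F) hp Nat.prime_five (by rw [hc, h])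
      subst hpp
      refine Dk.minsimple_of hp (n := 1) (by rw [hc, pow_one, h]) (by rw [hc]; omega) ?_ ?_
      · intro q1 m h1 h2 h3
        exfalso
        rw [pow_one] at h2
        have h4 : q1 ∣ 5 := by rw [← h2]; exact dvd_pow_self _ (by omega)
        rcases (Nat.dvd_prime hp).1 h4 with h6 | h6
        · omega
        · rw [h6] at h2
          have : 5 ^ 1 < 5 ^ m := Nat.pow_lt_pow_right (by norm_num) (by omega)
          rw [h2, pow_one] at this
          omega
      · rintro (h1 | h1)
        · exact absurd (by norm_num) h1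
        · omega

end Cfsg.Agent.S0810
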