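import Cfsg.Statements.S0814
import Cfsg.Agent.AutSp.Order

set_option autoImplicit false
open Cfsg

namespace Cfsg.Agent.S0814

/-- |Aut(PSp_2m(q))| = gcd(2, q−1) · f · |PSp_2m(q)| for q = p^f, m ≥ 2, (m, q) ≠ (2, 2), with an extra factor 2 exactly when m = 2 and p = 2. -/
theorem result {F : Type*} [Field F] [Fintype F] (p f : ℕ) [Fact p.Prime] (hf : 1 ≤ f) (hF : Fintype.card F = p ^ f) (m : ℕ) (hm : 2 ≤ m) (h22 : m = 2 → 3 ≤ p ^ f) : Nat.card (MulAut (Cfsg.PSp m F)) = (if m = 2 ∧ p = 2 then 2 else 1) * Nat.gcd 2 (p ^ f - 1) * f * Nat.card (Cfsg.PSp m F) := by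
  by_cases h : m = 2 ∧ p = 2
  · obtain ⟨rfl, rfl⟩ := h
    have hcp : CharP F 2 := AutLie.charP_of_card hF
    rw [if_pos ⟨rfl, rfl⟩]
    obtain ⟨_, h1⟩ := AutSp.out_four (F := F) (f := f) (by rw [Nat.card_eq_fintype_card, hF]) hf
    have h2 := Subgroup.card_eq_card_quotient_mul_card_subgroup (Cfsg.Inn (AutSp.T (Fin 2) F))
    rw [AutSp.card_inn (by rw [Fintype.card_fin])] at h2
    change Nat.card (MulAut (AutSp.T (Fin 2) F)) = 2 * Nat.gcd 2 (2 ^ f - 1) * f * Nat.card (AutSp.T (Fin 2) F)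
    rw [h2, h1]
    have h3 : Nat.gcd 2 (2 ^ f - 1) = 1 := by
      have h4 : (2 ^ f - 1) % 2 = 1 := by
        obtain ⟨f', rfl⟩ : ∃ f', f = f' + 1 := ⟨f - 1, by omega⟩
        have : 0 < 2 ^ f' := pow_pos (by norm_num) f'
        rw [pow_succ]; omega
      rw [Nat.gcd_rec, h4]; rfl
    rw [h3, mul_one]
  · rw [if_neg h, one_mul]
    exact AutSp.card_aut hF hm (fun h1 h2 => h ⟨h1, h2⟩)

end Cfsg.Agent.S0814
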