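import Cfsg.Statements.S0816
import Cfsg.Agent.OAut.Count2

set_option autoImplicit false
open Cfsg

namespace Cfsg.Agent.S0816

/-- |Aut(PΩ_(2m+1)(q))| = 2 f · |PΩ_(2m+1)(q)| for q = p^f odd and m ≥ 3 (for the form quadFormOdd). -/
theorem result {F : Type*} [Field F] [Fintype F] (p f : ℕ) [Fact p.Prime] (hf : 1 ≤ f) (hF : Fintype.card F = p ^ f) (hodd : Odd p) (m : ℕ) (hm : 3 ≤ m) : Nat.card (MulAut (Cfsg.POmega F (Cfsg.quadFormOdd m F))) = 2 * f * Nat.card (Cfsg.POmega F (Cfsg.quadFormOdd m F)) := by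
  have hcard : Odd (Fintype.card F) := by rw [hF]; exact hodd.pow
  have h2 : (2 : F) ≠ 0 := Cfsg.Agent.Orth.two_ne_zero_of_odd hcard
  have h1 := Cfsg.Agent.OAut.card_aut_odd (f := f) hF (Cfsg.Agent.OAut.good_odd hcard hm)
    (Cfsg.Agent.OAut.notTri_odd hcard hm) h2 (by simp) (Cfsg.Agent.OAut.field_odd m)
  have h3 := Cfsg.Agent.ClassO.card_odd hcard m hm
  rw [Cfsg.Agent.Orth.coe_qfOdd, ← h3] at h1
  have h4 : Nat.card (MulAut (Cfsg.POmega F (Cfsg.quadFormOdd m F))) * 2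
    = (2 * f * Nat.card (Cfsg.POmega F (Cfsg.quadFormOdd m F))) * 2 := by rw [h1]; ring
  exact Nat.eq_of_mul_eq_mul_right (by norm_num) h4

end Cfsg.Agent.S0816
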