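import Cfsg.Statements.S0818
import Cfsg.Agent.OAut.Count2
import Cfsg.Agent.S0791

set_option autoImplicit false
open Cfsg

namespace Cfsg.Agent.S0818

/-- |Aut(PΩ⁻_2m(q))| for q = p^f, m ≥ 4 (form quadFormMinus (m−1) with anisotropic binary part): |PΩ⁻_2m(q)| times f, times 2 if p = 2, and times 4 or 8 if p is odd according as m(q−1)/2 is even or odd. -/
theorem result {F : Type*} [Field F] [Fintype F] (p f : ℕ) [Fact p.Prime] (hf : 1 ≤ f) (hF : Fintype.card F = p ^ f) (m : ℕ) (hm : 4 ≤ m) (a b : F) (hab : ∀ z₁ z₂ : F, z₁ ^ 2 + a * z₁ * z₂ + b * z₂ ^ 2 = 0 → z₁ = 0 ∧ z₂ = 0) : Nat.card (MulAut (Cfsg.POmega F (Cfsg.quadFormMinus (m - 1) F a b))) = (if p = 2 then 2 else (if Even (m * (p ^ f - 1) / 2) then 4 else 8)) * f * Nat.card (Cfsg.POmega F (Cfsg.quadFormMinus (m - 1) F a b)) := by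
  have hm' : 3 ≤ m - 1 := by omega
  have G := Cfsg.Agent.OAut.good_minus hm' hab
  have h1 := Cfsg.Agent.OAut.card_aut_even (f := f) hF G (Cfsg.Agent.OAut.notTri_minus hm' hab)
    (Cfsg.Agent.OAut.field_minus hab) (Cfsg.Agent.OAut.mult_minus hab)
  rw [Cfsg.Agent.Orth.coe_qfMinus] at h1
  rw [h1]
  have hH := Cfsg.Agent.ClassO.hyp_minus F (m - 1) a b (Fin.castLE hm') (Fin.castLE_injective hm')
  have hcard : 2 ≤ Fintype.card ((Fin (m - 1) ⊕ Fin (m - 1)) ⊕ Fin 2) := by simp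
  by_cases hp : p = 2
  · have h2 : (2 : F) = 0 := by
      have h3 : CharP F p := by
        obtain ⟨p', hp'⟩ := CharP.exists F
        have hpp : p'.Prime := CharP.char_is_prime F p'
        obtain ⟨n, -, hn⟩ := FiniteField.card F p'
        have h4 : p ∣ p' ^ (n : ℕ) := by rw [← hn, hF]; exact dvd_pow_self p (by omega)
        have h5 := (Nat.prime_dvd_prime_iff_eq (Fact.out : p.Prime) hpp).1
          ((Fact.out : p.Prime).dvd_of_dvd_pow h4)
        rw [h5]; exact hp'
      subst hp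
      have := CharP.cast_eq_zero F 2
      exact_mod_cast this
    have h3 := Cfsg.Agent.ClassO.card_even_gen G.nd G.R hH h2 (by omega)
    rw [Cfsg.Agent.Orth.coe_qfMinus] at h3
    rw [if_pos hp, ← h3]
    ring
  · have hodd : Odd (Fintype.card F) := by
      rw [hF]
      exact ((Fact.out : p.Prime).odd_of_ne_two hp).pow
    have h2 : (2 : F) ≠ 0 := Cfsg.Agent.Orth.two_ne_zero_of_odd hodd
    have hneg := Cfsg.Agent.S0791.result (F := F) rfl hodd m (by omega) a b hab
    have hev := Cfsg.Agent.OAut.even_iff_pow_mod (m := m) hodd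
    rw [if_neg hp]
    by_cases h4 : Fintype.card F ^ m % 4 = 3
    · have h3 := Cfsg.Agent.ClassO.card_odd_gen_two G.nd G.R hH h2 hcard
        (by rw [Cfsg.Agent.Orth.coe_qfMinus]; exact hneg.2 h4)
      rw [Cfsg.Agent.Orth.coe_qfMinus] at h3
      rw [if_neg (by rw [← hF, hev]; omega), ← h3]
      ring
    · have h3 := Cfsg.Agent.ClassO.card_odd_gen_one G.nd G.R hH h2 hcard
        (by rw [Cfsg.Agent.Orth.coe_qfMinus]; exact fun h => h4 (hneg.1 h))
      rw [Cfsg.Agent.Orth.coe_qfMinus] at h3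
      have h5 : Fintype.card F ^ m % 4 = 1 := by
        obtain ⟨k, hk⟩ := hodd.pow (n := m)
        omega
      rw [if_pos (by rw [← hF, hev]; exact h5), ← h3]
      ring

end Cfsg.Agent.S0818
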