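import Cfsg.Statements.S0819
import Mathlib

set_option autoImplicit false

open Cfsg

namespace Cfsg.Agent.S0819

open Matrix

abbrev K := ZMod 2 × ZMod 2

def kmul (x y : K) : K := (x.1 * y.1 + x.2 * y.2, x.1 * y.2 + x.2 * y.1 + x.2 * y.2)

def step (a b : K) (t : K × K × K) : K × K × K := (kmul a t.1 + t.2.1, kmul b t.1 + t.2.2, t.1)

def pw (a b : K) : ℕ → K × K × K
  | 0 => (0, 0, (1, 0))
  | n + 1 => step a b (pw a b n)

theorem pw_cases : ∀ a b : K, ((pw a b 5).1 = 0 ∧ (pw a b 5).2.1 = 0) ∨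
    (pw a b 21 = (0, 0, (1, 0))) ∨ (pw a b 12 = (0, 0, (1, 0))) := by
  decide +kernel

theorem result {F : Type*} [Field F] [Fintype F] (hF : Fintype.card F = 4) (g : Matrix.ProjectiveSpecialLinearGroup (Fin 3) F) : orderOf g ≠ 15 := by
  classical
  have h2 : (2 : F) = 0 := by
    have h4 : ((Fintype.card F : ℕ) : F) = 0 := Nat.cast_card_eq_zero F
    rw [hF] at h4
    have : (2 : F) * 2 = 0 := by
      have e : ((4 : ℕ) : F) = 2 * 2 := by norm_num
      rw [← e, h4]
    rcases mul_eq_zero.1 this with h | h <;> exact h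
  have : CharP F 2 := by
    rcases CharP.exists F with ⟨p, hp⟩
    have h2' : ((2 : ℕ) : F) = 0 := by simpa using h2
    have hd : p ∣ 2 := (CharP.cast_eq_zero_iff F p 2).1 h2'
    have hp1 : p ≠ 1 := CharP.char_ne_one F p
    have : p = 2 := by
      rcases (Nat.dvd_prime Nat.prime_two).1 hd with h | h
      · exact absurd h hp1
      · exact h
    rwa [this] at hp
  have hpow : ∀ c : F, c ^ 4 = c := by
    intro c
    have := FiniteField.pow_card c
    rwa [hF] at this
  obtain ⟨w, hw⟩ : ∃ w : F, w ^ 2 + w + 1 = 0 := by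
    obtain ⟨w, hw0, hw1⟩ : ∃ w : F, w ≠ 0 ∧ w ≠ 1 := by
      by_contra hcon
      push Not at hcon
      have : (Finset.univ : Finset F) ⊆ {0, 1} := by
        intro k _
        by_cases h : k = 0
        · simp [h]
        · simp [hcon k h]
      have h2 := Finset.card_le_card this
      have h3 : ({0, 1} : Finset F).card ≤ 2 := Finset.card_le_two
      rw [Finset.card_univ, hF] at h2
      omega
    refine ⟨w, ?_⟩
    have h := hpow w
    have h' : w * (w - 1) * (w ^ 2 + w + 1) = 0 := by linear_combination h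
    rcases mul_eq_zero.1 h' with h'' | h''
    · rcases mul_eq_zero.1 h'' with h3 | h3
      · exact absurd h3 hw0
      · exact absurd (sub_eq_zero.1 h3) hw1
    · exact h''
  let f : ZMod 2 →+* F := ZMod.castHom (dvd_refl 2) F
  let φ : K → F := fun x => f x.1 + f x.2 * w
  have φadd : ∀ x y, φ (x + y) = φ x + φ y := by
    intro x y
    simp only [φ, Prod.fst_add, Prod.snd_add, map_add]; ring
  have φmul : ∀ x y, φ (kmul x y) = φ x * φ y := by
    intro x y
    simp only [φ, kmul, map_add, map_mul]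
    linear_combination (f x.2 * f y.2 ) * (w + 1) * h2 - (f x.2 * f y.2) * hw
  have φ0 : φ 0 = 0 := by simp [φ]
  have φ1 : φ (1, 0) = 1 := by simp [φ]
  have φsurj : ∀ a : F, ∃ x : K, φ x = a := by
    intro a
    have h : a * (a - 1) * (a - w) * (a - (w + 1)) = 0 := by
      linear_combination hpow a + (-a^3*w - a^3 + a^2*w + a) * h2 + (a^2 - a) * hw
    rcases mul_eq_zero.1 h with h | h
    · rcases mul_eq_zero.1 h with h | h
      · rcases mul_eq_zero.1 h with h | h
        · exact ⟨0, by rw [φ0, h]⟩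
        · exact ⟨(1, 0), by rw [φ1]; exact (sub_eq_zero.1 h).symm⟩
      · exact ⟨(0, 1), by simp [φ, sub_eq_zero.1 h]⟩
    · exact ⟨(1, 1), by simp [φ, sub_eq_zero.1 h, add_comm]⟩
  obtain ⟨A, rfl⟩ := QuotientGroup.mk'_surjective _ g
  -- Cayley-Hamilton
  set M : Matrix (Fin 3) (Fin 3) F := A.1 with hM
  have hdet : M.det = 1 := A.2
  obtain ⟨a, b, hCH⟩ : ∃ a b : F, M * M ^ 2 = a • M ^ 2 + b • M + 1 := by
    have h1 := Matrix.aeval_self_charpoly M
    rw [Polynomial.aeval_eq_sum_range, Matrix.charpoly_natDegree_eq_dim] at h1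
    simp only [Fintype.card_fin, Finset.sum_range_succ, Finset.sum_range_zero, zero_add,
      pow_zero, pow_one] at h1
    have h3 : M.charpoly.coeff 3 = 1 := by
      have := (Matrix.charpoly_monic M).coeff_natDegree
      rwa [Matrix.charpoly_natDegree_eq_dim, Fintype.card_fin] at this
    have h0 : M.charpoly.coeff 0 = -1 := by
      have := Matrix.det_eq_sign_charpoly_coeff M
      rw [hdet, Fintype.card_fin] at this
      linear_combination this
    rw [h3, h0] at h1
    refine ⟨-M.charpoly.coeff 2, -M.charpoly.coeff 1, ?_⟩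
    have h4 : M * M ^ 2 = M ^ 3 := by rw [← pow_succ']
    rw [h4, neg_smul, neg_smul]
    rw [neg_smul, one_smul, one_smul] at h1
    have h5 : M ^ 3 - (-(M.charpoly.coeff 2 • M ^ 2) + -(M.charpoly.coeff 1 • M) + 1) = 0 := by
      rw [← h1]; abel
    exact sub_eq_zero.1 h5
  obtain ⟨x, rfl⟩ := φsurj a
  obtain ⟨y, rfl⟩ := φsurj b
  have hpowM : ∀ n : ℕ, M ^ n = φ (pw x y n).1 • M ^ 2 + φ (pw x y n).2.1 • M + φ (pw x y n).2.2 • 1 := by
    intro n
    induction n with
    | zero => simp [pw, φ0, φ1]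
    | succ n ih =>
      rw [pow_succ', ih, mul_add, mul_add, mul_smul_comm, mul_smul_comm, mul_smul_comm, hCH, mul_one]
      simp only [pw, step, φadd, φmul, add_smul, smul_add, mul_smul, ← pow_two]
      rw [smul_comm (φ x), smul_comm (φ y)]
      abel
  intro ho
  set π := QuotientGroup.mk' (Subgroup.center (SpecialLinearGroup (Fin 3) F)) with hπ
  have hscal : ∀ (n : ℕ) (c : F), M ^ n = c • 1 → (π A) ^ n = 1 := by
    intro n c h
    rw [← map_pow]
    refine (QuotientGroup.eq_one_iff _).2 (Matrix.SpecialLinearGroup.mem_center_iff.2 ⟨c, ?_, ?_⟩)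
    · have h5 := congrArg Matrix.det h
      rw [det_pow, hdet, one_pow, det_smul, det_one, mul_one] at h5
      exact h5.symm
    · have h6 : ((A ^ n : SpecialLinearGroup (Fin 3) F) : Matrix (Fin 3) (Fin 3) F) = M ^ n :=
        Matrix.SpecialLinearGroup.coe_pow A n
      rw [h6, h]
      ext i j
      simp [Matrix.smul_apply, Matrix.one_apply, diagonal_apply]
  rcases pw_cases x y with ⟨h, h'⟩ | h | h
  · have h5 := hpowM 5
    rw [h, h', φ0, zero_smul, zero_smul, zero_add, zero_add] at h5
    have h7 := orderOf_dvd_of_pow_eq_one (hscal 5 _ h5)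
    rw [ho] at h7
    omega
  · have h5 := hpowM 21
    rw [h, φ0, zero_smul, zero_smul, zero_add, zero_add] at h5
    have h7 := orderOf_dvd_of_pow_eq_one (hscal 21 _ h5)
    rw [ho] at h7
    omega
  · have h5 := hpowM 12
    rw [h, φ0, zero_smul, zero_smul, zero_add, zero_add] at h5
    have h7 := orderOf_dvd_of_pow_eq_one (hscal 12 _ h5)
    rw [ho] at h7
    omega

end Cfsg.Agent.S0819
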