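import Cfsg.Statements.S0821
import Cfsg.Agent.H14.SpClass
import Cfsg.Agent.H14.OmInv

set_option autoImplicit false
open Cfsg

namespace Cfsg.Agent.S0821

open QuadraticMap Cfsg.Agent.Orth Cfsg.Agent.ClassO Cfsg.Agent.H14.SpInv Cfsg.Agent.H14.OmInv

theorem center_eq_bot {F : Type*} [Field F] [Fintype F] (hodd : Odd (Fintype.card F)) (m : ℕ)
    (hm : 3 ≤ m) : Subgroup.center ↥(commutator (OGrp (qfOdd m F))) = ⊥ := by
  have h2 := Orth.two_ne_zero_of_odd hodd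
  have hQ := qfOdd_nondegenerate m F h2
  have hR := RGrp_top_of_two hQ h2
  have hH := hyp_odd F m (Fin.castLE hm) (Fin.castLE_injective hm)
  rw [← Subgroup.card_eq_one]
  apply card_center_one hQ hR hH _ (commutator_eq_EGrp hQ hR hH)
  right
  rw [exists_neg_iff]
  rintro ⟨g, hg, hg1⟩
  rw [mem_Omega_iff] at hg
  obtain ⟨l, hl, hl2, -⟩ := exists_of_mem_commutator hR hg
  have h3 := det_of_reflProd _ g l hl.symm
  rw [hl2.neg_one_pow, hg1, Matrix.det_neg, Matrix.det_one, mul_one] at h3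
  have h4 : (-1 : F) ^ Fintype.card (Unit ⊕ (Fin m ⊕ Fin m)) = -1 := by
    apply Odd.neg_one_pow
    simp
  rw [h4] at h3
  apply h2
  linear_combination -h3

/-- PSp_2m(q) ≇ PΩ_(2m+1)(q) for q odd and m ≥ 3 (they have the same order). -/
theorem result {F : Type*} [Field F] [Fintype F] (hodd : Odd (Fintype.card F)) (m : ℕ) (hm : 3 ≤ m) : IsEmpty (Cfsg.PSp m F ≃* Cfsg.POmega F (Cfsg.quadFormOdd m F)) := by
  refine ⟨fun φ => ?_⟩
  have h2 := Orth.two_ne_zero_of_odd hodd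
  have hQ := qfOdd_nondegenerate m F h2
  set W := commutator (OGrp (qfOdd m F)) with hW
  have hcen : Subgroup.center W = ⊥ := center_eq_bot hodd m hm
  let ψ : Cfsg.POmega F (Cfsg.quadFormOdd m F) ≃* (W ⧸ Subgroup.center W) := pomE (qfOdd m F)
  -- the involutions of Omega
  have hT : ∀ k : Fin m, ∃ t : W, t * t = 1 ∧ rk ((t : OGrp (qfOdd m F)) : (Unit ⊕ (Fin m ⊕ Fin m) → F) ≃ₗ[F] (Unit ⊕ (Fin m ⊕ Fin m) → F)) = 2 * (k + 1) := by
    intro k
    obtain ⟨t, ht, htt, hrk⟩ := exists_invols hQ h2 m (by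
      rw [Module.finrank_fintype_fun_eq_card]; simp; omega) (k + 1) k.2
    exact ⟨⟨t, ht⟩, Subtype.ext htt, hrk⟩
  choose t htt hrk using hT
  -- the corresponding elements of PSp
  let τ : Fin m → Cfsg.PSp m F := fun k => φ.symm (ψ.symm (t k : W ⧸ Subgroup.center W))
  have hτ : ∀ k, ψ (φ (τ k)) = (t k : W ⧸ Subgroup.center W) := by
    intro k
    simp only [τ, MulEquiv.apply_symm_apply]
  have hX : ∀ k, ∃ X : Matrix.symplecticGroup (Fin m) F, (X : Cfsg.PSp m F) = τ k :=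
    fun k => QuotientGroup.mk_surjective (τ k)
  choose X hX using hX
  have hcl : ∀ k, ∃ c ≤ m / 2, Cls (X k) c := by
    intro k
    apply exists_cls h2
    · intro hc
      rw [← QuotientGroup.eq_one_iff, hX k] at hc
      have h3 := hτ k
      rw [hc, map_one, map_one, eq_comm, QuotientGroup.eq_one_iff, hcen, Subgroup.mem_bot] at h3
      have h4 := hrk k
      rw [h3] at h4
      have h5 : rk ((1 : OGrp (qfOdd m F)) : (Unit ⊕ (Fin m ⊕ Fin m) → F) ≃ₗ[F] (Unit ⊕ (Fin m ⊕ Fin m) → F)) = 0 := by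
        unfold rk
        have : (((1 : OGrp (qfOdd m F)) : (Unit ⊕ (Fin m ⊕ Fin m) → F) ≃ₗ[F] (Unit ⊕ (Fin m ⊕ Fin m) → F)) : (Unit ⊕ (Fin m ⊕ Fin m) → F) →ₗ[F] (Unit ⊕ (Fin m ⊕ Fin m) → F)) - LinearMap.id = 0 := by
          ext1; simp
        rw [this, LinearMap.range_zero, finrank_bot]
      have h6 : (((1 : W) : OGrp (qfOdd m F))) = 1 := rfl
      rw [h6, h5] at h4
      omega
    · rw [← QuotientGroup.eq_one_iff, QuotientGroup.mk_mul, hX k]
      apply φ.injective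
      apply ψ.injective
      rw [_root_.map_mul, _root_.map_mul, hτ, map_one, map_one, ← QuotientGroup.mk_mul, htt, QuotientGroup.mk_one]
  choose c hc hcc using hcl
  have hinj : Function.Injective (fun k : Fin m => (⟨c k, by have := hc k; omega⟩ : Fin (m / 2 + 1))) := by
    intro k l hkl
    have h3 : c k = c l := congrArg Fin.val hkl
    have h4 := isConj_of_cls h2 (hcc k) (h3 ▸ hcc l)
    have h4' : IsConj (τ k) (τ l) := by
      have h5 : IsConj ((X k : Matrix.symplecticGroup (Fin m) F) : Cfsg.PSp m F) (X l : Cfsg.PSp m F) := h4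
      rwa [hX, hX] at h5
    obtain ⟨y, hy⟩ := isConj_iff.1 h4'
    have h5 := congrArg (fun z => ψ (φ z)) hy
    simp only [_root_.map_mul, map_inv, hτ] at h5
    obtain ⟨g, hg⟩ := QuotientGroup.mk_surjective (ψ (φ y))
    rw [← hg, ← QuotientGroup.mk_inv, ← QuotientGroup.mk_mul, ← QuotientGroup.mk_mul,
      QuotientGroup.eq, hcen, Subgroup.mem_bot, inv_mul_eq_one] at h5
    have h6 : rk (((g * t k * g⁻¹ : W) : OGrp (qfOdd m F)) : (Unit ⊕ (Fin m ⊕ Fin m) → F) ≃ₗ[F] (Unit ⊕ (Fin m ⊕ Fin m) → F)) = 2 * (k + 1) := by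
      have h7 : (((g * t k * g⁻¹ : W) : OGrp (qfOdd m F)) : (Unit ⊕ (Fin m ⊕ Fin m) → F) ≃ₗ[F] (Unit ⊕ (Fin m ⊕ Fin m) → F)) =
        ((g : OGrp (qfOdd m F)) : (Unit ⊕ (Fin m ⊕ Fin m) → F) ≃ₗ[F] (Unit ⊕ (Fin m ⊕ Fin m) → F)) * ((t k : OGrp (qfOdd m F)) : (Unit ⊕ (Fin m ⊕ Fin m) → F) ≃ₗ[F] (Unit ⊕ (Fin m ⊕ Fin m) → F)) * ((g : OGrp (qfOdd m F)) : (Unit ⊕ (Fin m ⊕ Fin m) → F) ≃ₗ[F] (Unit ⊕ (Fin m ⊕ Fin m) → F))⁻¹ := rfl
      rw [h7, rk_conj, hrk]
    rw [h5, hrk l] at h6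
    apply Fin.ext
    omega
  have h3 := Fintype.card_le_of_injective _ hinj
  simp only [Fintype.card_fin] at h3
  omega

end Cfsg.Agent.S0821
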