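import Cfsg.Statements.S0822
import Cfsg.Agent.H41.U4Tab
import Cfsg.Agent.S1077
import Cfsg.Agent.S1060
import Cfsg.Agent.S1056
import Cfsg.Agent.H43.Unitary2
import Cfsg.Agent.Uni.SU
import Cfsg.Agent.ClassSp.Order
import Cfsg.Agent.ClassSp.Simple

set_option autoImplicit false
open Cfsg

namespace Cfsg.Agent.S0822

open Cfsg.Lie Cfsg.Agent.H41 Cfsg.Agent.H41.SmallMat Matrix Cfsg.Agent.H41.U4Tab Cfsg.Agent.H41.StHom

/-- passing to the central quotient -/
theorem iso_quot {S G H : Type*} [Group S] [Group G] [Group H] (θ : S →* G) (hθ : Function.Surjective θ) (hker : θ.ker = Subgroup.center S)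
    (hG : IsSimpleGroup G) [Finite H] (hcard : Nat.card (H ⧸ Subgroup.center H) = Nat.card G) (ψ : S →* H) (a b d : S)
    (hnc : ψ a * ψ b * ψ d * ψ b * ψ a ≠ ψ b * ψ a * ψ d * ψ a * ψ b) : Nonempty (G ≃* (H ⧸ Subgroup.center H)) := by
  refine iso_of_card θ hθ hker hG hcard ((QuotientGroup.mk' (Subgroup.center H)).comp ψ) ⟨a, b, ?_⟩
  intro h
  apply hnc
  have h1 : (QuotientGroup.mk' (Subgroup.center H)) (ψ a * ψ b) = (QuotientGroup.mk' (Subgroup.center H)) (ψ b * ψ a) := by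
    rw [map_mul, map_mul]; exact h
  rw [QuotientGroup.mk'_eq_mk'] at h1
  obtain ⟨z, hz, hzz⟩ := h1
  have h2 : ∀ x : H, x * z = z * x := Subgroup.mem_center_iff.1 hz
  -- ψ a * ψ b * z = ψ b * ψ a
  calc ψ a * ψ b * ψ d * ψ b * ψ a = (ψ a * ψ b) * ψ d * (ψ b * ψ a) := by group
    _ = (ψ a * ψ b) * ψ d * (ψ a * ψ b * z) := by rw [hzz]
    _ = (ψ a * ψ b * z) * ψ d * (ψ a * ψ b) := by
        rw [mul_assoc (ψ a * ψ b) z, ← h2 (ψ d), mul_assoc (ψ a * ψ b) (ψ d), mul_assoc (ψ a * ψ b) (ψ d * z), mul_assoc (ψ d) z, ← h2 (ψ a * ψ b)]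
    _ = ψ b * ψ a * ψ d * ψ a * ψ b := by rw [hzz]; group

theorem exists_om {F : Type*} [Field F] [Fintype F] (hF : Fintype.card F = 4) : ∃ ω : F, ω ^ 2 + ω + 1 = 0 := by
  classical
  have h1 : ∃ x : F, x ≠ 0 ∧ x ≠ 1 := by
    by_contra h
    push Not at h
    have h3 : (Finset.univ : Finset F) ⊆ {0, 1} := by
      intro x _
      rcases eq_or_ne x 0 with h4 | h4
      · simp [h4]
      · simp [h x h4]
    have h4 : Fintype.card F ≤ 2 := (Finset.card_le_card h3).trans Finset.card_le_two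
    omega
  obtain ⟨x, hx0, hx1⟩ := h1
  refine ⟨x, ?_⟩
  have h2 : x ^ 4 = x := by rw [← hF]; exact FiniteField.pow_card x
  have h3 : x * ((x - 1) * (x ^ 2 + x + 1)) = 0 := by linear_combination h2
  rcases mul_eq_zero.1 h3 with h | h
  · exact absurd h hx0
  · rcases mul_eq_zero.1 h with h | h
    · exact absurd (sub_eq_zero.1 h) hx1
    · exact h

theorem V4_f_inj {T : Type*} [CommRing T] : Function.Injective (V4.f (T := T)) := by
  intro x y h
  have h0 := congrFun h 0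
  have h1 := congrFun h 1
  have h2 := congrFun h 2
  have h3 := congrFun h 3
  cases x; cases y
  simp only [V4.mk.injEq]
  exact ⟨h0, h1, h2, h3⟩

theorem prod_ne {T : Type*} [CommRing T] {l l' : List (M4 T)} (k : Fin 4) (h : wact l (e4 T k) ≠ wact l' (e4 T k)) : (l.map M4.f).prod ≠ (l'.map M4.f).prod := by
  intro h1
  apply h
  apply V4_f_inj
  rw [← f_wact, ← f_wact, h1]

section SpSide
variable {K : Type*} [Field K] [Fintype K] (hK : Fintype.card K = 3)

/-- matrices over the prime field to matrices over `K` -/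
noncomputable def PhiS (e : ZMod 3 ≃+* K) : Matrix (Fin 4) (Fin 4) (ZMod 3) →* Matrix (Fin 2 ⊕ Fin 2) (Fin 2 ⊕ Fin 2) K :=
  ((e : ZMod 3 →+* K).mapMatrix.toMonoidHom).comp
    { toFun := fun M => M.submatrix sig sig
      map_one' := Matrix.submatrix_one_equiv sig
      map_mul' := fun M N => (Matrix.submatrix_mul_equiv M N sig sig sig).symm }

theorem PhiS_inj (e : ZMod 3 ≃+* K) : Function.Injective (PhiS e) := by
  intro A B h
  ext i j
  have h1 := congrFun (congrFun h (sig.symm i)) (sig.symm j)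
  have h2 : e (A (sig (sig.symm i)) (sig (sig.symm j))) = e (B (sig (sig.symm i)) (sig (sig.symm j))) := h1
  rw [Equiv.apply_symm_apply, Equiv.apply_symm_apply] at h2
  exact e.injective h2

theorem map_J (e : ZMod 3 ≃+* K) : (e : ZMod 3 →+* K).mapMatrix (J (Fin 2) (ZMod 3)) = J (Fin 2) K := by
  ext i j
  rw [RingHom.mapMatrix_apply, Matrix.map_apply]
  rcases i with i | i <;> rcases j with j | j <;> simp [J, Matrix.one_apply, apply_ite e]

theorem PhiS_mem (e : ZMod 3 ≃+* K) (r : ℕ) (a : ZMod 3) : PhiS e (mS r a).f ∈ symplecticGroup (Fin 2) K := by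
  rw [SymplecticGroup.mem_iff]
  rcases Nat.lt_or_ge r 9 with hr | hr
  · have h1 := congrArg (e : ZMod 3 →+* K).mapMatrix (mS_sp r hr a)
    rw [map_mul, map_mul, map_J] at h1
    exact h1
  · rw [mS0 r (show 8 ≤ r by omega), map_one, one_mul, Matrix.transpose_one, mul_one]

include hK in
theorem psp_iso : Nonempty (↥(chevB2.group K) ≃* Cfsg.PSp 2 K) := by
  have : Fact (Nat.Prime 3) := ⟨Nat.prime_three⟩
  obtain ⟨θ, h1, h2, -⟩ := Cfsg.Agent.S1077.result (K := K) chevB2 (by simp)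
  have hs := (Cfsg.Agent.S1056.result (F := K) ⟨-1, neg_ne_zero.2 one_ne_zero, by
    intro h
    have h2 : (2 : K) = 0 := by linear_combination -h
    have h3 : ((Fintype.card K : ℕ) : K) = 0 := FiniteField.cast_card_eq_zero K
    rw [hK] at h3
    have h4 : (1 : K) = 0 := by
      have : ((3 : ℕ) : K) = 2 + 1 := by norm_num
      rw [this, h2, zero_add] at h3
      exact h3
    exact one_ne_zero h4⟩).1
  let e := ee hK
  let g : ℕ → ZMod 3 → symplecticGroup (Fin 2) K := fun r a => ⟨PhiS e (mS r a).f, PhiS_mem e r a⟩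
  obtain ⟨φ, hφ⟩ := exists_hom4 hK chevB2 mS (symplecticGroup (Fin 2) K).subtype Subtype.val_injective (PhiS e) g (fun r a => rfl) mS0 mS1 mS2 mS3
  have hcard : Nat.card (Cfsg.PSp 2 K) = Nat.card ↥(chevB2.group K) := by
    have h3 : Nat.card (symplecticGroup (Fin 2) K) = Nat.card (Cfsg.PSp 2 K) * Nat.card (Subgroup.center (symplecticGroup (Fin 2) K)) :=
      Subgroup.card_eq_card_quotient_mul_card_subgroup _
    rw [Cfsg.Agent.ClassSp.card_fin, Cfsg.Agent.ClassSp.card_center, hK] at h3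
    have h4 := Cfsg.Agent.S1060.result (F := K) hK
    norm_num [Finset.prod_range_succ] at h3 h4
    omega
  refine iso_quot θ h1 h2 hs hcard φ (chevB2.stGen K 4 (ee hK 1)) (chevB2.stGen K 5 (ee hK 1)) (chevB2.stGen K 3 (ee hK 1)) ?_
  rw [hφ, hφ, hφ]
  intro h
  have h5 := congrArg (symplecticGroup (Fin 2) K).subtype h
  rw [map_mul, map_mul, map_mul, map_mul, map_mul, map_mul, map_mul, map_mul] at h5
  have h6 : PhiS e (([mS 4 1, mS 5 1, mS 3 1, mS 5 1, mS 4 1].map M4.f).prod) = PhiS e (([mS 5 1, mS 4 1, mS 3 1, mS 4 1, mS 5 1].map M4.f).prod) := by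
    simp only [List.map_cons, List.map_nil, List.prod_cons, List.prod_nil, mul_one, map_mul]
    simp only [mul_assoc] at h5
    exact h5
  have h7 := PhiS_inj e h6
  rcases mS_nc with h8 | h8
  · exact prod_ne 0 h8 h7
  · exact prod_ne 1 h8 h7

end SpSide

section USide
variable {F : Type*} [Field F] [Fintype F] (hF : Fintype.card F = 4)

theorem ev_inj [CharP F 2] (ω : F) (hω : ω ^ 2 + ω + 1 = 0) : Function.Injective (E4.evHom ω hω) := by
  have h0 : ω ≠ 0 := by
    rintro rfl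
    have : (1 : F) = 0 := by linear_combination hω
    exact one_ne_zero this
  have h2 : (2 : F) = 0 := CharTwo.two_eq_zero
  have h1 : ω + 1 ≠ 0 := by
    intro h
    have h3 : ω = 1 := by linear_combination h - h2
    rw [h3] at hω
    have : (1 : F) = 0 := by linear_combination hω - h2
    exact one_ne_zero this
  have h3 : ω ≠ 1 := by
    rintro rfl
    apply h1
    linear_combination h2
  intro x y h
  have h' : E4.ev ω x = E4.ev ω y := h
  have h4 : (1 : F) ≠ 0 := one_ne_zero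
  have h5 : ω + 1 ≠ 1 := by intro h; apply h0; linear_combination h
  have h6 : ω + 1 ≠ ω := by intro h; apply h4; linear_combination h
  cases x <;> cases y <;> simp only [E4.ev] at h' <;> first
    | rfl
    | exact absurd h' h0
    | exact absurd h'.symm h0
    | exact absurd h' h1
    | exact absurd h'.symm h1
    | exact absurd h' h3
    | exact absurd h'.symm h3
    | exact absurd h' h4
    | exact absurd h'.symm h4
    | exact absurd h' h5
    | exact absurd h'.symm h5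
    | exact absurd h' h6
    | exact absurd h'.symm h6

theorem ev_conj [CharP F 2] (ω : F) (hω : ω ^ 2 + ω + 1 = 0) (x : E4) : E4.evHom ω hω (E4.conj x) = (E4.evHom ω hω x) ^ 2 := by
  have h2 : (2 : F) = 0 := CharTwo.two_eq_zero
  show E4.ev ω (E4.conj x) = (E4.ev ω x) ^ 2
  cases x <;> simp only [E4.conj, E4.ev] <;> grind

/-- matrices over the model to matrices over `F` -/
def PhiU [CharP F 2] (ω : F) (hω : ω ^ 2 + ω + 1 = 0) : Matrix (Fin 4) (Fin 4) E4 →* Matrix (Fin 4) (Fin 4) F :=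
  ((E4.evHom ω hω).mapMatrix.toMonoidHom)

theorem PhiU_apply [CharP F 2] (ω : F) (hω : ω ^ 2 + ω + 1 = 0) (A : Matrix (Fin 4) (Fin 4) E4) : PhiU ω hω A = A.map (E4.evHom ω hω) := rfl

theorem PhiU_inj [CharP F 2] (ω : F) (hω : ω ^ 2 + ω + 1 = 0) : Function.Injective (PhiU ω hω) := by
  intro A B h
  ext i j
  exact ev_inj ω hω (congrFun (congrFun h i) j)

include hF in
theorem PhiU_det [CharP F 2] (ω : F) (hω : ω ^ 2 + ω + 1 = 0) (r : ℕ) (a : ZMod 3) : (PhiU ω hω (mU r a).f).det = 1 := by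
  have h1 : (mU r a).f.det = 1 := by
    rcases Nat.lt_or_ge r 9 with hr | hr
    · exact mU_det r hr a
    · rw [mU0 r (show 8 ≤ r by omega), Matrix.det_one]
  have h2 := RingHom.map_det (E4.evHom ω hω) (mU r a).f
  rw [h1, map_one] at h2
  exact h2.symm

include hF in
theorem PhiU_pres [CharP F 2] (ω : F) (hω : ω ^ 2 + ω + 1 = 0) (r : ℕ) (a : ZMod 3) : Cfsg.Agent.Uni.Pres 2 (PhiU ω hω (mU r a).f) := by
  have hF' : Fintype.card F = 2 ^ 2 := by rw [hF]; norm_num
  have h1 : ((mU r a).f.map E4.conj)ᵀ * (mU r a).f = 1 := by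
    rcases Nat.lt_or_ge r 9 with hr | hr
    · exact mU_gu r hr a
    · rw [mU0 r (show 8 ≤ r by omega), mul_one]
      decide
  have h2 := congrArg (PhiU ω hω) h1
  rw [map_mul, map_one] at h2
  have h3 : PhiU ω hω (((mU r a).f.map E4.conj)ᵀ) = Cfsg.Agent.H43.stm (Cfsg.Agent.ClGeo.frob hF') (PhiU ω hω (mU r a).f) := by
    ext i j
    show E4.evHom ω hω (E4.conj ((mU r a).f j i)) = Cfsg.Agent.ClGeo.frob hF' (E4.evHom ω hω ((mU r a).f j i))
    rw [ev_conj, Cfsg.Agent.ClGeo.frob_apply]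
  rw [h3] at h2
  let A : GL (Fin 4) F := ⟨PhiU ω hω (mU r a).f, Cfsg.Agent.H43.stm (Cfsg.Agent.ClGeo.frob hF') (PhiU ω hω (mU r a).f), mul_eq_one_comm.1 h2, h2⟩
  exact (Cfsg.Agent.H43.mem_GU_iff hF' A).2 h2

include hF in
theorem psu_iso {K : Type*} [Field K] [Fintype K] (hK : Fintype.card K = 3) : Nonempty (↥(chevB2.group K) ≃* Cfsg.PSU 4 F 2) := by
  have : Fact (Nat.Prime 3) := ⟨Nat.prime_three⟩
  have : Fact (Nat.Prime 2) := ⟨Nat.prime_two⟩
  have hF' : Fintype.card F = 2 ^ 2 := by rw [hF]; norm_num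
  have : CharP F 2 := charP_of_card_eq_prime_pow (p := 2) (f := 2) hF'
  obtain ⟨ω, hω⟩ := exists_om hF
  obtain ⟨θ, h1, h2, -⟩ := Cfsg.Agent.S1077.result (K := K) chevB2 (by simp)
  have hs := (Cfsg.Agent.S1056.result (F := K) ⟨-1, neg_ne_zero.2 one_ne_zero, by
    intro h
    have h2 : (2 : K) = 0 := by linear_combination -h
    have h3 : ((Fintype.card K : ℕ) : K) = 0 := FiniteField.cast_card_eq_zero K
    rw [hK] at h3
    have h4 : (1 : K) = 0 := by
      have : ((3 : ℕ) : K) = 2 + 1 := by norm_num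
      rw [this, h2, zero_add] at h3
      exact h3
    exact one_ne_zero h4⟩).1
  let g : ℕ → ZMod 3 → Cfsg.SU 4 F 2 := fun r a => Cfsg.Agent.Uni.mkSU (PhiU ω hω (mU r a).f) (PhiU_pres hF ω hω r a) (PhiU_det hF ω hω r a)
  let ι : Cfsg.SU 4 F 2 →* Matrix (Fin 4) (Fin 4) F := (Cfsg.slToMat 4 F).comp (Cfsg.SU 4 F 2).subtype
  have hι : Function.Injective ι := fun x y h => Cfsg.Agent.Uni.SU_ext h
  obtain ⟨φ, hφ⟩ := exists_hom4 hK chevB2 mU ι hι (PhiU ω hω) g (fun r a => rfl) mU0 mU1 mU2 mU3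
  have hcard : Nat.card (Cfsg.PSU 4 F 2) = Nat.card ↥(chevB2.group K) := by
    have h3 := Cfsg.Agent.Uni.card_PSU (n := 4) hF' (by norm_num)
    have h4 := Cfsg.Agent.S1060.result (F := K) hK
    have e : (∏ i ∈ Finset.range 4, (if Even i then 2 ^ (i + 1) + 1 else 2 ^ (i + 1) - 1)) = 1215 := by decide
    rw [e] at h3
    norm_num at h3 h4
    omega
  refine iso_quot θ h1 h2 hs hcard φ (chevB2.stGen K 4 (ee hK 1)) (chevB2.stGen K 5 (ee hK 1)) (chevB2.stGen K 3 (ee hK 1)) ?_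
  rw [hφ, hφ, hφ]
  intro h
  have h5 := congrArg ι h
  rw [map_mul, map_mul, map_mul, map_mul, map_mul, map_mul, map_mul, map_mul] at h5
  have h6 : PhiU ω hω (([mU 4 1, mU 5 1, mU 3 1, mU 5 1, mU 4 1].map M4.f).prod) = PhiU ω hω (([mU 5 1, mU 4 1, mU 3 1, mU 4 1, mU 5 1].map M4.f).prod) := by
    simp only [List.map_cons, List.map_nil, List.prod_cons, List.prod_nil, mul_one, map_mul]
    simp only [mul_assoc] at h5
    exact h5
  have h7 := PhiU_inj ω hω h6
  rcases mU_nc with h8 | h8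
  · exact prod_ne 0 h8 h7
  · exact prod_ne 1 h8 h7

end USide

/-- PSU_4(2) ≅ PSp_4(3): with |F| = 4 and |K| = 3, the projective special unitary group of the standard Hermitian form on F^4 is isomorphic to PSp_4(K). -/
theorem result {F K : Type*} [Field F] [Fintype F] [Field K] [Fintype K] (hF : Fintype.card F = 4) (hK : Fintype.card K = 3) : Nonempty (Cfsg.PSU 4 F 2 ≃* Cfsg.PSp 2 K) := by
  obtain ⟨e1⟩ := psu_iso hF hK
  obtain ⟨e2⟩ := psp_iso hK
  exact ⟨e1.symm.trans e2⟩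

end Cfsg.Agent.S0822
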