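import Cfsg.Statements.S0824
import Cfsg.Agent.H14.Transport
import Cfsg.Agent.H14.Refl

set_option autoImplicit false

open Cfsg

namespace Cfsg.Agent.S0824

open Matrix Cfsg.Agent.H14.Ortho Cfsg.Agent.H14.Transport

abbrev K := ZMod 2
abbrev J := (Fin 1 ⊕ Fin 1) ⊕ Fin 2

/-- vector from coordinates -/
def vec (x y z w : K) : J → K := fun j => match j with
  | .inl (.inl _) => x
  | .inl (.inr _) => y
  | .inr 0 => z
  | .inr 1 => w

/-- the five singular vectors -/
def s : Fin 5 → (J → K)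
  | 0 => vec 1 0 0 0
  | 1 => vec 0 1 0 0
  | 2 => vec 1 1 0 1
  | 3 => vec 1 1 1 0
  | 4 => vec 1 1 1 1

def QK : (J → K) → K := fun v => v (.inl (.inl 0)) * v (.inl (.inr 0)) + (v (.inr 0) ^ 2 + v (.inr 0) * v (.inr 1) + v (.inr 1) ^ 2)

def M (π : Equiv.Perm (Fin 5)) : Matrix J J K := fun a b => match b with
  | .inl (.inl _) => s (π 0) a
  | .inl (.inr _) => s (π 1) a
  | .inr 0 => s (π 0) a + s (π 1) a + s (π 3) a
  | .inr 1 => s (π 0) a + s (π 1) a + s (π 2) a

theorem vec_eta (v : J → K) : v = vec (v (.inl (.inl 0))) (v (.inl (.inr 0))) (v (.inr 0)) (v (.inr 1)) := by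
  funext j
  rcases j with (j | j) | j
  · have : j = 0 := Subsingleton.elim _ _
    subst this; rfl
  · have : j = 0 := Subsingleton.elim _ _
    subst this; rfl
  · fin_cases j <;> rfl

theorem s_injective : Function.Injective s := by
  have : ∀ i j, s i = s j → i = j := by decide +kernel
  exact fun i j h => this i j h

theorem sing_iff : ∀ x y z w : K, vec x y z w ≠ 0 → QK (vec x y z w) = 0 → ∃ i, s i = vec x y z w := by
  decide +kernel

theorem s_sing : ∀ i, s i ≠ 0 ∧ QK (s i) = 0 := by decide +kernel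

theorem M_s : ∀ (π : Equiv.Perm (Fin 5)) (i : Fin 5), M π *ᵥ s i = s (π i) := by decide +kernel

theorem Q_M : ∀ (π : Equiv.Perm (Fin 5)) (x y z w : K), QK (M π *ᵥ vec x y z w) = QK (vec x y z w) := by
  decide +kernel

theorem vec_span (x y z w : K) : vec x y z w = x • s 0 + y • s 1 + z • (s 0 + s 1 + s 3) + w • (s 0 + s 1 + s 2) := by
  revert x y z w
  decide +kernel

/-- two matrices agreeing on the `s i` are equal -/
theorem eq_of_s {A B : Matrix J J K} (h : ∀ i, A *ᵥ s i = B *ᵥ s i) : A = B := by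
  apply ext_mulVec
  intro v
  rw [vec_eta v, vec_span]
  simp only [mulVec_add, mulVec_smul, h]

theorem M_mul_inv (π : Equiv.Perm (Fin 5)) : M π * M π⁻¹ = 1 := by
  apply eq_of_s
  intro i
  rw [← mulVec_mulVec, M_s, M_s, one_mulVec]
  simp

theorem M_inv_mul (π : Equiv.Perm (Fin 5)) : M π⁻¹ * M π = 1 := by
  have := M_mul_inv π⁻¹
  rwa [inv_inv] at this

noncomputable def Mg (π : Equiv.Perm (Fin 5)) : ↥(Cfsg.isometryGroup K QK) :=
  ⟨⟨M π, M π⁻¹, M_mul_inv π, M_inv_mul π⟩, mem_isometryGroup.2 (by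
    intro v
    rw [vec_eta v]
    exact Q_M π _ _ _ _)⟩

theorem exists_tau (g : ↥(Cfsg.isometryGroup K QK)) (i : Fin 5) :
    ∃ j, s j = ((g : GeneralLinearGroup J K) : Matrix J J K) *ᵥ s i := by
  set w := ((g : GeneralLinearGroup J K) : Matrix J J K) *ᵥ s i with hw
  have h1 : QK w = 0 := by
    exact (Q_mulVec (Q := QK) g (s i)).trans (s_sing i).2
  have h0 : w ≠ 0 := by
    intro h
    apply (s_sing i).1
    have h2 : (((g⁻¹ : ↥(Cfsg.isometryGroup K QK)) : GeneralLinearGroup J K) : Matrix J J K) *ᵥ w = s i := by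
      rw [hw, ← coe_mul_mulVec, inv_mul_cancel]
      change (1 : Matrix J J K) *ᵥ s i = s i
      rw [one_mulVec]
    rw [h, mulVec_zero] at h2
    exact h2.symm
  rw [vec_eta w] at h0 h1 ⊢
  exact sing_iff _ _ _ _ h0 h1

noncomputable def tau (g : ↥(Cfsg.isometryGroup K QK)) (i : Fin 5) : Fin 5 := (exists_tau g i).choose

theorem tau_spec (g : ↥(Cfsg.isometryGroup K QK)) (i : Fin 5) :
    s (tau g i) = ((g : GeneralLinearGroup J K) : Matrix J J K) *ᵥ s i := (exists_tau g i).choose_spec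

theorem tau_mul (g h : ↥(Cfsg.isometryGroup K QK)) (i : Fin 5) : tau (g * h) i = tau g (tau h i) := by
  apply s_injective
  rw [tau_spec, tau_spec, tau_spec, coe_mul_mulVec]

theorem tau_one (i : Fin 5) : tau 1 i = i := by
  apply s_injective
  rw [tau_spec]
  change (1 : Matrix J J K) *ᵥ s i = s i
  rw [one_mulVec]

noncomputable def Phi : ↥(Cfsg.isometryGroup K QK) →* Equiv.Perm (Fin 5) where
  toFun g := ⟨tau g, tau g⁻¹, fun i => by rw [← tau_mul, inv_mul_cancel, tau_one],
    fun i => by rw [← tau_mul, mul_inv_cancel, tau_one]⟩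
  map_one' := Equiv.ext tau_one
  map_mul' g h := Equiv.ext (tau_mul g h)

theorem Phi_bijective : Function.Bijective Phi := by
  constructor
  · rw [injective_iff_map_eq_one]
    intro g hg
    have h1 : ∀ i, tau g i = i := fun i => congrArg (fun σ : Equiv.Perm (Fin 5) => σ i) hg
    apply Subtype.ext
    apply Units.ext
    apply eq_of_s
    intro i
    rw [← tau_spec, h1]
    change s i = (1 : Matrix J J K) *ᵥ s i
    rw [one_mulVec]
  · intro π
    refine ⟨Mg π, Equiv.ext fun i => ?_⟩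
    apply s_injective
    change s (tau (Mg π) i) = _
    rw [tau_spec]
    exact M_s π i

theorem result {F : Type*} [Field F] [Fintype F] (hF : Fintype.card F = 2) : Nonempty (↥(Cfsg.isometryGroup F (Cfsg.quadFormMinus 1 F 1 1)) ≃* Equiv.Perm (Fin 5)) := by
  let e : F ≃+* K := (ZMod.ringEquivOfPrime F Nat.prime_two hF).symm
  have h : ∀ v, e (Cfsg.quadFormMinus 1 F 1 1 v) = QK (fun i => e (v i)) := by
    intro v
    simp [Cfsg.quadFormMinus, QK]
  exact ⟨(isometryEquiv e _ _ h).trans (MulEquiv.ofBijective Phi Phi_bijective)⟩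

end Cfsg.Agent.S0824
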