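import Cfsg.Statements.S0826
import Mathlib

set_option autoImplicit false

open Cfsg

namespace Cfsg.Agent.S0826

open Matrix

abbrev F2 := ZMod 2
abbrev X (k : ℕ) := (Fin k ⊕ Fin k) ⊕ Bool
abbrev I (k : ℕ) := Fin k ⊕ Fin k

variable {k : ℕ}

theorem two_eq (x : F2) : x + x = 0 := CharTwo.add_self_eq_zero x

/-- `E u` -/
def E : (I k → F2) →ₗ[F2] (X k → F2) where
  toFun u := fun x => match x with
    | .inl (.inl i) => u (.inl i) + ∑ j, if i < j then u (.inr j) else 0
    | .inl (.inr i) => u (.inl i) + u (.inr i) + ∑ j, if i < j then u (.inr j) else 0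
    | .inr true => ∑ j, u (.inr j)
    | .inr false => 0
  map_add' u v := by
    funext x
    rcases x with (i | i) | (_ | _)
    · simp only [Pi.add_apply, ite_add_zero, Finset.sum_add_distrib]; ring
    · simp only [Pi.add_apply, ite_add_zero, Finset.sum_add_distrib]; ring
    · simp
    · simp [Finset.sum_add_distrib]
  map_smul' c u := by
    funext x
    rcases x with (i | i) | (_ | _)
    · simp [Finset.mul_sum, mul_add]
    · simp [Finset.mul_sum, mul_add]
    · simp
    · simp [Finset.mul_sum]

def C : (X k → F2) →ₗ[F2] (I k → F2) where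
  toFun y := fun x => match x with
    | .inl i => y (.inl (.inr i)) + y (.inr true) + ∑ j, if j < i then (y (.inl (.inl j)) + y (.inl (.inr j))) else 0
    | .inr i => y (.inl (.inl i)) + y (.inl (.inr i))
  map_add' u v := by
    funext x
    rcases x with i | i
    · simp only [Pi.add_apply]
      have : (∑ j, if j < i then (u (.inl (.inl j)) + v (.inl (.inl j)) + (u (.inl (.inr j)) + v (.inl (.inr j)))) else 0) = (∑ j, if j < i then (u (.inl (.inl j)) + u (.inl (.inr j))) else 0) + (∑ j, if j < i then (v (.inl (.inl j)) + v (.inl (.inr j))) else 0) := by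
        rw [← Finset.sum_add_distrib]
        refine Finset.sum_congr rfl fun j _ => ?_
        split_ifs <;> ring
      rw [this]; ring
    · simp only [Pi.add_apply]; ring
  map_smul' c u := by
    funext x
    rcases x with i | i
    · simp [Finset.mul_sum, mul_add]
    · simp [mul_add]

theorem sum_split (f : Fin k → F2) (i : Fin k) :
    ∑ j, f j = (∑ j, if j < i then f j else 0) + f i + ∑ j, if i < j then f j else 0 := by
  have h : f i = ∑ j, if j = i then f j else 0 := by simp
  conv_rhs => rw [h]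
  rw [← Finset.sum_add_distrib, ← Finset.sum_add_distrib]
  refine Finset.sum_congr rfl fun j _ => ?_
  rcases lt_trichotomy j i with h | h | h
  · simp [h, h.ne, h.not_gt]
  · simp [h]
  · simp [h, h.ne', h.not_gt]

theorem C_E (u : I k → F2) : C (E u) = u := by
  funext x
  rcases x with i | i
  · simp only [C, E, LinearMap.coe_mk, AddHom.coe_mk]
    have h1 : ∀ j : Fin k, (u (.inl j) + ∑ l, (if j < l then u (.inr l) else 0)) + (u (.inl j) + u (.inr j) + ∑ l, if j < l then u (.inr l) else 0) = u (.inr j) := by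
      intro j
      linear_combination (two_eq (u (.inl j))) + (two_eq (∑ l, if j < l then u (.inr l) else 0))
    simp only [h1]
    have h2 := sum_split (fun j => u (.inr j)) i
    rw [h2]
    linear_combination (two_eq (u (.inr i))) + (two_eq (∑ l, if i < l then u (.inr l) else 0)) + (two_eq (∑ j, if j < i then u (.inr j) else 0))
  · simp only [C, E, LinearMap.coe_mk, AddHom.coe_mk]
    linear_combination (two_eq (u (.inl i))) + (two_eq (∑ l, if i < l then u (.inr l) else 0))

theorem sum_X (y : X k → F2) : ∑ x, y x = ∑ i, (y (.inl (.inl i)) + y (.inl (.inr i))) + (y (.inr true) + y (.inr false)) := by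
  rw [Fintype.sum_sum_type, Fintype.sum_sum_type, Finset.sum_add_distrib, Fintype.sum_bool]

theorem sum_E (u : I k → F2) : ∑ x, E u x = 0 := by
  rw [sum_X]
  have h1 : ∀ i : Fin k, E u (.inl (.inl i)) + E u (.inl (.inr i)) = u (.inr i) := by
    intro i
    have := congrFun (C_E u) (.inr i)
    exact this
  simp only [h1]
  simp only [E, LinearMap.coe_mk, AddHom.coe_mk]
  linear_combination two_eq (∑ j, u (.inr j))

/-- `E (C y) = y + const` for `y` with zero sum -/
theorem E_C (y : X k → F2) (hy : ∑ x, y x = 0) : ∃ c : F2, ∀ x, E (C y) x = y x + c := by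
  set z : X k → F2 := fun x => y x + E (C y) x with hz
  have hCz : C z = 0 := by
    have : z = y + E (C y) := rfl
    rw [this, map_add, C_E]
    funext x
    exact two_eq _
  have hsum : ∑ x, z x = 0 := by
    rw [hz, Finset.sum_add_distrib, hy, sum_E, add_zero]
  have h1 : ∀ i, z (.inl (.inl i)) + z (.inl (.inr i)) = 0 := fun i => congrFun hCz (.inr i)
  have h2 : ∀ i, z (.inl (.inr i)) + z (.inr true) = 0 := by
    intro i
    have := congrFun hCz (.inl i)
    simp only [C, LinearMap.coe_mk, AddHom.coe_mk, h1] at this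
    simpa using this
  have h3 : z (.inr true) + z (.inr false) = 0 := by
    rw [sum_X] at hsum
    simp only [h1] at hsum
    simpa using hsum
  have hadd : ∀ p q : F2, p + q = 0 → p = q := by decide
  have h4 : ∀ x, z x = z (.inr true) := by
    intro x
    rcases x with (i | i) | (_ | _)
    · rw [hadd _ _ (h1 i), hadd _ _ (h2 i)]
    · exact hadd _ _ (h2 i)
    · exact (hadd _ _ h3).symm
    · rfl
  refine ⟨z (.inr true), fun x => ?_⟩
  have h5 := h4 x
  rw [← h5, hz]
  linear_combination -(two_eq (y x))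

/-- the bilinear form -/
theorem form_E (y : X k → F2) (v : I k → F2) :
    ∑ x, y x * E v x = ∑ i, (v (.inl i) * C y (.inr i) + v (.inr i) * C y (.inl i)) := by
  rw [sum_X]
  simp only [E, C, LinearMap.coe_mk, AddHom.coe_mk]
  have hswap : ∑ i, (∑ j, if i < j then (y (.inl (.inl i)) + y (.inl (.inr i))) * v (.inr j) else 0) = ∑ j, (∑ i, if i < j then (y (.inl (.inl i)) + y (.inl (.inr i))) * v (.inr j) else 0) := Finset.sum_comm
  have e1 : ∀ i : Fin k, y (.inl (.inl i)) * (v (.inl i) + ∑ j, if i < j then v (.inr j) else 0) + y (.inl (.inr i)) * (v (.inl i) + v (.inr i) + ∑ j, if i < j then v (.inr j) else 0) = v (.inl i) * (y (.inl (.inl i)) + y (.inl (.inr i))) + v (.inr i) * y (.inl (.inr i)) + ∑ j, if i < j then (y (.inl (.inl i)) + y (.inl (.inr i))) * v (.inr j) else 0 := by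
    intro i
    have : (∑ j, if i < j then (y (.inl (.inl i)) + y (.inl (.inr i))) * v (.inr j) else 0) = (y (.inl (.inl i)) + y (.inl (.inr i))) * ∑ j, if i < j then v (.inr j) else 0 := by
      rw [Finset.mul_sum]
      refine Finset.sum_congr rfl fun j _ => ?_
      split_ifs <;> simp
    rw [this]; ring
  have e2 : ∀ i : Fin k, v (.inl i) * (y (.inl (.inl i)) + y (.inl (.inr i))) + v (.inr i) * (y (.inl (.inr i)) + y (.inr true) + ∑ j, if j < i then (y (.inl (.inl j)) + y (.inl (.inr j))) else 0) = v (.inl i) * (y (.inl (.inl i)) + y (.inl (.inr i))) + v (.inr i) * y (.inl (.inr i)) + y (.inr true) * v (.inr i) + ∑ j, if j < i then (y (.inl (.inl j)) + y (.inl (.inr j))) * v (.inr i) else 0 := by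
    intro i
    have : (∑ j, if j < i then (y (.inl (.inl j)) + y (.inl (.inr j))) * v (.inr i) else 0) = v (.inr i) * ∑ j, if j < i then (y (.inl (.inl j)) + y (.inl (.inr j))) else 0 := by
      rw [Finset.mul_sum]
      refine Finset.sum_congr rfl fun j _ => ?_
      split_ifs
      · ring
      · simp
    rw [this]; ring
  simp only [e1, e2]
  rw [Finset.sum_add_distrib, Finset.sum_add_distrib, hswap, Finset.sum_add_distrib (f := fun i => v (.inl i) * (y (.inl (.inl i)) + y (.inl (.inr i))) + v (.inr i) * y (.inl (.inr i)) + y (.inr true) * v (.inr i)), Finset.sum_add_distrib (g := fun i => y (.inr true) * v (.inr i)), ← Finset.mul_sum, Finset.sum_add_distrib]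
  ring

theorem form_EE (u v : I k → F2) :
    ∑ x, E u x * E v x = ∑ i, (v (.inl i) * u (.inr i) + v (.inr i) * u (.inl i)) := by
  rw [form_E, C_E]

def R (π : Equiv.Perm (X k)) : (X k → F2) →ₗ[F2] (X k → F2) := LinearMap.funLeft F2 F2 (π⁻¹ : Equiv.Perm (X k))

theorem R_apply (π : Equiv.Perm (X k)) (y : X k → F2) (x : X k) : R π y x = y (π⁻¹ x) := rfl

theorem sum_R (π : Equiv.Perm (X k)) (y : X k → F2) : ∑ x, R π y x = ∑ x, y x := by
  simp only [R_apply]
  exact Equiv.sum_comp (π⁻¹ : Equiv.Perm (X k)) y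

theorem sum_RR (π : Equiv.Perm (X k)) (y z : X k → F2) : ∑ x, R π y x * R π z x = ∑ x, y x * z x := by
  simp only [R_apply]
  exact Equiv.sum_comp (π⁻¹ : Equiv.Perm (X k)) (fun x => y x * z x)

def M (π : Equiv.Perm (X k)) : (I k → F2) →ₗ[F2] (I k → F2) := C ∘ₗ R π ∘ₗ E

theorem M_apply (π : Equiv.Perm (X k)) (u : I k → F2) : M π u = C (R π (E u)) := rfl

theorem C_add_const (y z : X k → F2) (c : F2) (h : ∀ x, z x = y x + c) : C z = C y := by
  have hz : z = y + fun _ => c := funext h
  rw [hz, map_add]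
  have : C (fun _ : X k => c) = 0 := by
    funext x
    rcases x with i | i
    · simp [C, two_eq]
    · simp [C, two_eq]
  rw [this, add_zero]

theorem EM (π : Equiv.Perm (X k)) (u : I k → F2) : ∃ c : F2, ∀ x, E (M π u) x = R π (E u) x + c := by
  rw [M_apply]
  exact E_C _ (by rw [sum_R, sum_E])

theorem M_mul (π σ : Equiv.Perm (X k)) : M (π * σ) = M π ∘ₗ M σ := by
  apply LinearMap.ext
  intro u
  rw [LinearMap.comp_apply, M_apply π]
  obtain ⟨c, hc⟩ := EM σ u
  rw [M_apply]
  symm
  apply C_add_const _ _ c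
  intro x
  rw [R_apply, hc, R_apply, R_apply]
  simp

theorem M_one : M (1 : Equiv.Perm (X k)) = LinearMap.id := by
  apply LinearMap.ext
  intro u
  have : R (1 : Equiv.Perm (X k)) (E u) = E u := by
    funext x
    rw [R_apply]; simp
  rw [M_apply, this, C_E]; rfl

theorem card_X_even : ((Fintype.card (X k) : ℕ) : F2) = 0 := by
  simp only [Fintype.card_sum, Fintype.card_fin, Fintype.card_bool]
  push_cast
  have := two_eq (k : F2)
  have h2 : ((2 : ℕ) : F2) = 0 := by decide
  rw [this]; simpa using h2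

theorem form_M (π : Equiv.Perm (X k)) (u v : I k → F2) :
    ∑ i, (M π v (.inl i) * M π u (.inr i) + M π v (.inr i) * M π u (.inl i)) =
      ∑ i, (v (.inl i) * u (.inr i) + v (.inr i) * u (.inl i)) := by
  rw [← form_EE, ← form_EE]
  obtain ⟨c, hc⟩ := EM π u
  obtain ⟨d, hd⟩ := EM π v
  simp only [hc, hd]
  have h1 : ∀ x, (R π (E u) x + c) * (R π (E v) x + d) = R π (E u) x * R π (E v) x + d * R π (E u) x + c * R π (E v) x + c * d := by
    intro x; ring
  simp only [h1, Finset.sum_add_distrib, ← Finset.mul_sum, sum_RR, sum_R, sum_E]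
  simp only [mul_zero, add_zero, Finset.sum_const, Finset.card_univ, nsmul_eq_mul, card_X_even, zero_mul]

theorem form_J (u v : I k → F2) :
    u ⬝ᵥ (Matrix.J (Fin k) F2 *ᵥ v) = ∑ i, (v (.inl i) * u (.inr i) + v (.inr i) * u (.inl i)) := by
  have hneg : ∀ x : F2, -x = x := by decide
  simp only [dotProduct, Fintype.sum_sum_type, Matrix.J, mulVec, Matrix.fromBlocks_apply₁₁,
    Matrix.fromBlocks_apply₁₂, Matrix.fromBlocks_apply₂₁, Matrix.fromBlocks_apply₂₂]
  simp [Matrix.one_apply, hneg, Finset.sum_add_distrib, mul_comm, add_comm]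

def MM (π : Equiv.Perm (X k)) : Matrix (I k) (I k) F2 := LinearMap.toMatrix' (M π)

theorem MM_mulVec (π : Equiv.Perm (X k)) (u : I k → F2) : MM π *ᵥ u = M π u := by
  rw [MM, LinearMap.toMatrix'_mulVec]

theorem MM_mem (π : Equiv.Perm (X k)) : MM π ∈ Matrix.symplecticGroup (Fin k) F2 := by
  rw [SymplecticGroup.mem_iff']
  ext i j
  have h1 : ∀ A : Matrix (I k) (I k) F2, A i j = (Pi.single i 1) ⬝ᵥ (A *ᵥ Pi.single j 1) := by
    intro A; simp
  refine (h1 _).trans (Eq.trans ?_ (h1 _).symm)
  rw [← mulVec_mulVec, ← mulVec_mulVec, dotProduct_mulVec, vecMul_transpose, MM_mulVec, MM_mulVec,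
    form_J, form_J, form_M]

def f : Equiv.Perm (X k) →* Matrix.symplecticGroup (Fin k) F2 where
  toFun π := ⟨MM π, MM_mem π⟩
  map_one' := by
    apply Subtype.ext
    change MM 1 = 1
    rw [MM, M_one, LinearMap.toMatrix'_id]
  map_mul' π σ := by
    apply Subtype.ext
    change MM (π * σ) = MM π * MM σ
    rw [MM, M_mul, LinearMap.toMatrix'_comp]; rfl

theorem exists_notMem (hk : 2 ≤ k) (s : Finset (X k)) (hs : s.card ≤ 4) : ∃ z, z ∉ s := by
  by_contra hcon
  push Not at hcon
  have h1 : (Finset.univ : Finset (X k)) ⊆ s := fun z _ => hcon z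
  have h2 := Finset.card_le_card h1
  rw [Finset.card_univ] at h2
  simp only [Fintype.card_sum, Fintype.card_fin, Fintype.card_bool] at h2
  omega

theorem f_injective (hk : 2 ≤ k) : Function.Injective (f (k := k)) := by
  rw [injective_iff_map_eq_one]
  intro π hπ
  have hM : M π = LinearMap.id := by
    have h1 : MM π = 1 := congrArg Subtype.val hπ
    have h2 : LinearMap.toMatrix' (M π) = LinearMap.toMatrix' (LinearMap.id : (I k → F2) →ₗ[F2] _) := by
      rw [LinearMap.toMatrix'_id]; exact h1
    exact LinearMap.toMatrix'.injective h2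
  have key : ∀ y : X k → F2, ∑ x, y x = 0 → ∃ c : F2, ∀ x, R π y x = y x + c := by
    intro y hy
    obtain ⟨c, hc⟩ := E_C y hy
    obtain ⟨d, hd⟩ := EM π (C y)
    rw [hM] at hd
    simp only [LinearMap.id_apply] at hd
    refine ⟨d, fun x => ?_⟩
    have h1 : y (π⁻¹ x) + c = E (C y) (π⁻¹ x) := (hc _).symm
    have h2 := hd x
    rw [R_apply, hc, hc] at h2
    rw [R_apply]
    have hadd : ∀ p q r s : F2, p + r = q + r + s → q = p + s := by decide
    exact hadd _ _ _ _ h2
  by_contra hne
  obtain ⟨a, ha⟩ : ∃ a, π a ≠ a := by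
    by_contra hcon
    push Not at hcon
    exact hne (Equiv.ext hcon)
  obtain ⟨b, hb⟩ := exists_notMem hk {a, π a} (Finset.card_le_two.trans (by norm_num))
  simp only [Finset.mem_insert, Finset.mem_singleton, not_or] at hb
  obtain ⟨z, hz⟩ := exists_notMem hk {a, b, π a, π b} Finset.card_le_four
  simp only [Finset.mem_insert, Finset.mem_singleton, not_or] at hz
  set y : X k → F2 := fun x => (if x = a then 1 else 0) + (if x = b then 1 else 0) with hy
  obtain ⟨c, hc⟩ := key y (by
    simp only [hy, Finset.sum_add_distrib, Finset.sum_ite_eq', Finset.mem_univ, if_true]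
    decide)
  have h1 := hc z
  have hza : π⁻¹ z ≠ a := by
    intro h
    apply hz.2.2.1
    rw [← h]; simp
  have hzb : π⁻¹ z ≠ b := by
    intro h
    apply hz.2.2.2
    rw [← h]; simp
  rw [R_apply] at h1
  simp only [hy, hza, hzb, hz.1, hz.2.1, if_false, add_zero, zero_add] at h1
  have h2 := hc (π a)
  rw [R_apply, ← h1] at h2
  have h3 : π⁻¹ (π a) = a := by simp
  rw [h3] at h2
  have hab : ¬ a = b := fun h => hb.1 h.symm
  have hpb : ¬ π a = b := fun h => hb.2 h.symm
  simp only [hy, ha, hab, hpb, if_true, if_false, add_zero] at h2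
  exact absurd h2 (by decide)

theorem result (n : ℕ) (hn : 3 ≤ n) : ∃ f : Equiv.Perm (Fin (2 * n)) →* Matrix.symplecticGroup (Fin (n - 1)) (ZMod 2), Function.Injective f := by
  have hcard : Fintype.card (Fin (2 * n)) = Fintype.card (X (n - 1)) := by
    simp only [Fintype.card_sum, Fintype.card_fin, Fintype.card_bool]
    omega
  let e : Fin (2 * n) ≃ X (n - 1) := Fintype.equivOfCardEq hcard
  exact ⟨(f (k := n - 1)).comp e.permCongrHom.toMonoidHom, (f_injective (by omega)).comp e.permCongrHom.injective⟩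

end Cfsg.Agent.S0826
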