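import Cfsg.Statements.S0827
import Cfsg.Agent.Uni.PSU32

set_option autoImplicit false
open Cfsg

namespace Cfsg.Agent.S0827

/-- U_3(2) ≅ 3².Q_8: PSU_3(2) (form over the field with 4 elements) has a normal subgroup N which is elementary abelian of order 9 such that the quotient by N is isomorphic to the quaternion group of order 8. -/
theorem result {F : Type*} [Field F] [Fintype F] (hF : Fintype.card F = 4) : ∃ (N : Subgroup (Cfsg.PSU 3 F 2)) (_ : N.Normal), Nat.card N = 9 ∧ (∀ x ∈ N, x ^ 3 = 1) ∧ Nonempty (Cfsg.PSU 3 F 2 ⧸ N ≃* QuaternionGroup 2) := by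
  have hF' : Fintype.card F = 2 ^ 2 := hF
  obtain ⟨N, hN, hN9⟩ := Cfsg.Agent.Uni.P32.exists_normal_nine hF'
  exact ⟨N, hN, hN9, Cfsg.Agent.Uni.P32.exponent_three hF' hN9,
    Cfsg.Agent.Uni.P32.quotient_equiv hF' hN9⟩

end Cfsg.Agent.S0827
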