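import Cfsg.Statements.S0829
import Cfsg.Agent.Uni.IsoCount

set_option autoImplicit false
open Cfsg

namespace Cfsg.Agent.S0829

/-- The unitary quadrangle of PSU_4(q): with |F| = q², the number of 2-dimensional subspaces of F^4 on which the Hermitian form Σ x_i y_i^q vanishes is (q + 1)(q³ + 1). -/
theorem result {F : Type*} [Field F] [Fintype F] {q : ℕ} (hF : Fintype.card F = q ^ 2) : Nat.card {W : Submodule F (Fin 4 → F) // Module.finrank F W = 2 ∧ ∀ u ∈ W, ∀ v ∈ W, Cfsg.hermForm 4 F q u v = 0} = (q + 1) * (q ^ 3 + 1) := by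
  have hq := Cfsg.Agent.Uni.two_le_q hF
  have h1 := Cfsg.Agent.Uni.card_TIsub_mul (n := 4) hF 2
  have h2 := Cfsg.Agent.Uni.card_TI (n := 4) (k := 2) hF (by norm_num)
  rw [h2, Fin.prod_univ_two, Finset.prod_range_succ, Finset.prod_range_one] at h1
  have h3 := Cfsg.Agent.Uni.cnt_zero_sub_one hF 3
  have h4 := Cfsg.Agent.Uni.cnt_zero_sub_one hF 1
  norm_num at h1 h3 h4
  obtain ⟨N, hN⟩ : ∃ N, N = Nat.card {W : Submodule F (Fin 4 → F) // Module.finrank F W = 2 ∧ ∀ u ∈ W, ∀ v ∈ W, Cfsg.hermForm 4 F q u v = 0} := ⟨_, rfl⟩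
  rw [← hN] at h1 ⊢
  have hle1 : 1 ≤ (q ^ 2) ^ 2 := Nat.one_le_pow _ _ (by positivity)
  have hle2 : q ^ 2 ≤ (q ^ 2) ^ 2 := Nat.le_self_pow (by norm_num) _
  zify [hle1, hle2] at h1 ⊢
  rw [h3, h4] at h1
  have hq' : (2 : ℤ) ≤ q := by exact_mod_cast hq
  have hne : (((q : ℤ) ^ 2) ^ 2 - 1) * (((q : ℤ) ^ 2) ^ 2 - q ^ 2) ≠ 0 := by
    apply mul_ne_zero
    · nlinarith [sq_nonneg ((q : ℤ) ^ 2), pow_pos (show (0 : ℤ) < q by linarith) 2, mul_self_nonneg ((q:ℤ) - 1)]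
    · have : ((q : ℤ) ^ 2) ^ 2 - q ^ 2 = q ^ 2 * (q ^ 2 - 1) := by ring
      rw [this]
      apply mul_ne_zero
      · positivity
      · nlinarith
  apply mul_right_cancel₀ hne
  rw [h1]
  ring

end Cfsg.Agent.S0829
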