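import Cfsg.Statements.S0831
import Cfsg.Agent.Orth.PlusStd

set_option autoImplicit false
open Cfsg

namespace Cfsg.Agent.S0831

/-- The two families of maximal totally singular subspaces of the hyperbolic quadric: for the form Σ x_i y_i on F^(2m), m ≥ 1, and m-dimensional subspaces U, W, X on which it vanishes, the parities of m − dim(U ∩ W), m − dim(W ∩ X) and m − dim(U ∩ X) sum to an even number (so 'even codimension of the intersection' is an equivalence relation), and there exist two such subspaces meeting in codimension 1 (so there are exactly two classes). -/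
theorem result {F : Type*} [Field F] (m : ℕ) (hm : 1 ≤ m) : (∀ U W X : Submodule F (Fin m ⊕ Fin m → F), (Module.finrank F U = m ∧ ∀ w ∈ U, Cfsg.quadFormPlus m F w = 0) → (Module.finrank F W = m ∧ ∀ w ∈ W, Cfsg.quadFormPlus m F w = 0) → (Module.finrank F X = m ∧ ∀ w ∈ X, Cfsg.quadFormPlus m F w = 0) → Even ((m - Module.finrank F ↥(U ⊓ W)) + (m - Module.finrank F ↥(W ⊓ X)) + (m - Module.finrank F ↥(U ⊓ X)))) ∧ ∃ U W : Submodule F (Fin m ⊕ Fin m → F), (Module.finrank F U = m ∧ ∀ w ∈ U, Cfsg.quadFormPlus m F w = 0) ∧ (Module.finrank F W = m ∧ ∀ w ∈ W, Cfsg.quadFormPlus m F w = 0) ∧ Module.finrank F ↥(U ⊓ W) + 1 = m := by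
  have hQ := Cfsg.Agent.Orth.qfPlus_nondegenerate m F
  have hV := Cfsg.Agent.Orth.finrank_V m F
  refine ⟨?_, ?_⟩
  · rintro U W X ⟨hUm, hU⟩ ⟨hWm, hW⟩ ⟨hXm, hX⟩
    exact Cfsg.Agent.Orth.parity_triple hQ hV (U := U) hU hUm _ W X hW hWm hX hXm rfl
  · -- a non-singular vector
    set i0 : Fin m := ⟨0, hm⟩
    set v : Fin m ⊕ Fin m → F := Pi.single (Sum.inl i0) 1 + Pi.single (Sum.inr i0) 1 with hv
    have hqv : Cfsg.Agent.Orth.qfPlus m F v = 1 := by
      rw [Cfsg.Agent.Orth.qfPlus_apply, Finset.sum_eq_single i0]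
      · simp [hv]
      · intro j _ hj
        simp [hv, Pi.single_apply, hj]
      · intro h; exact absurd (Finset.mem_univ _) h
    have hqv0 : Cfsg.Agent.Orth.qfPlus m F v ≠ 0 := by rw [hqv]; exact one_ne_zero
    refine ⟨Cfsg.Agent.Orth.U0 m F, (Cfsg.Agent.Orth.U0 m F).map
      ((Cfsg.Agent.Orth.refl _ v hqv0 : (Fin m ⊕ Fin m → F) ≃ₗ[F] (Fin m ⊕ Fin m → F)) :
        (Fin m ⊕ Fin m → F) →ₗ[F] (Fin m ⊕ Fin m → F)),
      ⟨Cfsg.Agent.Orth.finrank_U0 m F, Cfsg.Agent.Orth.TS_U0 m F⟩, ⟨?_, ?_⟩, ?_⟩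
    · rw [Cfsg.Agent.Orth.finrank_map_OGrp]; exact Cfsg.Agent.Orth.finrank_U0 m F
    · exact (Cfsg.Agent.Orth.TS_U0 m F).map _
    · exact (Cfsg.Agent.Orth.TS_U0 m F).inf_refl hQ hV (Cfsg.Agent.Orth.finrank_U0 m F) hqv0

end Cfsg.Agent.S0831
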