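import Cfsg.Statements.S0841
import Mathlib

set_option autoImplicit false

open Cfsg
open scoped commutatorElement

namespace Cfsg.Agent.S0841

theorem result {G : Type*} [Group G] (hG : commutator G ≤ Subgroup.center G) (x y : G) (n : ℕ) : (x * y) ^ n = x ^ n * y ^ n * (y⁻¹ * x⁻¹ * y * x) ^ (n * (n - 1) / 2) := by
  set c := y⁻¹ * x⁻¹ * y * x with hc
  have hcc : c ∈ Subgroup.center G := by
    apply hG
    have : c = ⁅y⁻¹, x⁻¹⁆ := by
      rw [commutatorElement_def]; simp [hc]
    rw [this]
    exact Subgroup.commutator_mem_commutator (Subgroup.mem_top _) (Subgroup.mem_top _)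
  have hcomm : ∀ g : G, c * g = g * c := fun g => (Subgroup.mem_center_iff.mp hcc g).symm
  have hcpow : ∀ (k : ℕ) (g : G), c ^ k * g = g * c ^ k := by
    intro k g
    exact (Commute.pow_left (hcomm g) k)
  have hyx : y * x = x * y * c := by
    rw [hc]; group
  have hynx : ∀ k : ℕ, y ^ k * x = x * y ^ k * c ^ k := by
    intro k
    induction k with
    | zero => simp
    | succ k ih =>
      calc y ^ (k + 1) * x = y ^ k * (y * x) := by rw [pow_succ]; group
        _ = y ^ k * (x * y * c) := by rw [hyx]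
        _ = (y ^ k * x) * y * c := by group
        _ = (x * y ^ k * c ^ k) * y * c := by rw [ih]
        _ = x * y ^ k * (c ^ k * y) * c := by group
        _ = x * y ^ k * (y * c ^ k) * c := by rw [hcpow]
        _ = x * y ^ (k + 1) * c ^ (k + 1) := by rw [pow_succ, pow_succ]; group
  induction n with
  | zero => simp
  | succ n ih =>
    have hn : (n + 1) * (n + 1 - 1) / 2 = n * (n - 1) / 2 + n := by
      rw [← Nat.triangle_succ] 
    rw [pow_succ, ih, hn]
    calc x ^ n * y ^ n * c ^ (n * (n - 1) / 2) * (x * y)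
        = x ^ n * y ^ n * (c ^ (n * (n - 1) / 2) * (x * y)) := by group
      _ = x ^ n * y ^ n * ((x * y) * c ^ (n * (n - 1) / 2)) := by rw [hcpow]
      _ = x ^ n * (y ^ n * x) * y * c ^ (n * (n - 1) / 2) := by group
      _ = x ^ n * (x * y ^ n * c ^ n) * y * c ^ (n * (n - 1) / 2) := by rw [hynx]
      _ = x ^ n * x * y ^ n * (c ^ n * y) * c ^ (n * (n - 1) / 2) := by group
      _ = x ^ n * x * y ^ n * (y * c ^ n) * c ^ (n * (n - 1) / 2) := by rw [hcpow]
      _ = x ^ (n + 1) * y ^ (n + 1) * c ^ (n * (n - 1) / 2 + n) := by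
        rw [pow_succ, pow_succ, Nat.add_comm (n * (n - 1) / 2) n, pow_add]; group

end Cfsg.Agent.S0841
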