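import Cfsg.Statements.S0846
import Cfsg.Agent.H14.BSMain

set_option autoImplicit false
open Cfsg

namespace Cfsg.Agent.S0846

theorem result {G : Type*} [Group G] [Finite G] (S : Sylow 2 G) (n : ℕ) (e : (S : Subgroup G) ≃* QuaternionGroup (2 ^ (n + 2))) (Q : Sylow 2 ↥(Subgroup.closure {g : G | orderOf g = 2})) : IsCyclic Q := by
  exact Cfsg.Agent.H14.BS.isCyclic_sylow_invGen S rfl e Q

end Cfsg.Agent.S0846
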