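import Cfsg.Statements.S0847
import Cfsg.Agent.H14.BSMain

set_option autoImplicit false
open Cfsg

namespace Cfsg.Agent.S0847

theorem result {G : Type*} [Group G] [Finite G] (S : Sylow 2 G) (n : ℕ) (e : (S : Subgroup G) ≃* QuaternionGroup (2 ^ (n + 2))) (hO : ∀ N : Subgroup G, N.Normal → Odd (Nat.card N) → N = ⊥) : Nat.card (Subgroup.center G) = 2 := by
  exact Cfsg.Agent.H14.BS.card_center S rfl e hO

end Cfsg.Agent.S0847
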