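import Cfsg.Statements.S0849
import Mathlib

set_option autoImplicit false

open Cfsg

namespace Cfsg.Agent.S0849

theorem result {G : Type*} [Group G] [Fintype G] (H : Subgroup G) (S : Set G) (hSH : S ⊆ H) (hHS : ∀ h ∈ H, ∀ s ∈ S, h * s * h⁻¹ ∈ S) (hTI : ∀ g : G, g ∉ H → ∀ s ∈ S, g * s * g⁻¹ ∉ S) (hinv : ∀ s ∈ S, s⁻¹ ∈ S) (φ : H → ℂ) (hφ : Cfsg.IsClassFunction H φ) (hφS : ∀ x : H, (x : G) ∉ S → φ x = 0) (u v : G) (hu : orderOf u = 2) (hv : orderOf v = 2) : ∑ᶠ p ∈ {p : G × G | IsConj u p.1 ∧ IsConj v p.2}, Cfsg.indFun H φ (p.1 * p.2) = (H.index : ℂ) * ∑ᶠ p ∈ {p : H × H | IsConj u (p.1 : G) ∧ IsConj v (p.2 : G)}, φ (p.1 * p.2) := by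
  classical
  set E : G → ℂ := Cfsg.extendByZero H φ with hE
  have hEH : ∀ x : H, E x = φ x := by
    intro x
    rw [hE, Cfsg.extendByZero, Subtype.val_injective.extend_apply]
  have hEnH : ∀ x : G, x ∉ H → E x = 0 := by
    intro x hx
    rw [hE, Cfsg.extendByZero, Function.extend_apply', Pi.zero_apply]
    rintro ⟨y, rfl⟩
    exact hx y.2
  have hES : ∀ x : G, x ∉ S → E x = 0 := by
    intro x hx
    by_cases hxH : x ∈ H
    · have := hEH ⟨x, hxH⟩
      rw [this]
      exact hφS _ hx
    · exact hEnH x hxH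
  rw [finsum_mem_def, finsum_mem_def, finsum_eq_sum_of_fintype, finsum_eq_sum_of_fintype]
  set P : G × G → Prop := fun p => IsConj u p.1 ∧ IsConj v p.2 with hP
  -- the sum over G × G
  set T : ℂ := ∑ p : G × G, if P p then E (p.1 * p.2) else 0 with hT
  have h1 : ∑ p : G × G, Set.indicator {p : G × G | IsConj u p.1 ∧ IsConj v p.2} (fun p => Cfsg.indFun H φ (p.1 * p.2)) p = (Nat.card H : ℂ)⁻¹ * ((Fintype.card G : ℂ) * T) := by
    have e1 : ∀ p : G × G, Set.indicator {p : G × G | IsConj u p.1 ∧ IsConj v p.2} (fun p => Cfsg.indFun H φ (p.1 * p.2)) p = (Nat.card H : ℂ)⁻¹ * ∑ x : G, if P p then E (x⁻¹ * (p.1 * p.2) * x) else 0 := by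
      intro p
      by_cases hp : P p
      · rw [Set.indicator_of_mem (by exact hp)]
        simp only [if_pos hp]
        rfl
      · rw [Set.indicator_of_notMem (by exact hp)]
        simp [hp]
    rw [Finset.sum_congr rfl (fun p _ => e1 p), ← Finset.mul_sum, Finset.sum_comm]
    congr 1
    have e2 : ∀ x : G, ∑ p : G × G, (if P p then E (x⁻¹ * (p.1 * p.2) * x) else 0) = T := by
      intro x
      let σ : G × G ≃ G × G := Equiv.prodCongr (MulAut.conj x).toEquiv (MulAut.conj x).toEquiv
      rw [hT]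
      symm
      apply Fintype.sum_equiv σ
      intro p
      have hσ : σ p = (x * p.1 * x⁻¹, x * p.2 * x⁻¹) := rfl
      have hPσ : P (σ p) ↔ P p := by
        rw [hσ, hP]
        simp only
        have c1 : ∀ w y : G, IsConj w (x * y * x⁻¹) ↔ IsConj w y := by
          intro w y
          constructor
          · intro h
            exact h.trans (isConj_iff.2 ⟨x⁻¹, by group⟩)
          · intro h
            exact h.trans (isConj_iff.2 ⟨x, rfl⟩)
        rw [c1, c1]
      simp only [hPσ]
      rw [hσ]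
      congr 2
      group
    rw [Finset.sum_congr rfl (fun x _ => e2 x), Finset.sum_const, Finset.card_univ, nsmul_eq_mul]
  have h2 : ∑ p : H × H, Set.indicator {p : H × H | IsConj u (p.1 : G) ∧ IsConj v (p.2 : G)} (fun p => φ (p.1 * p.2)) p = T := by
    rw [hT]
    apply Fintype.sum_of_injective (fun p : H × H => ((p.1 : G), (p.2 : G)))
    · rintro ⟨a, b⟩ ⟨c, d⟩ h
      simp only [Prod.mk.injEq] at h
      exact Prod.ext (Subtype.ext h.1) (Subtype.ext h.2)
    · rintro ⟨a, b⟩ hab
      by_cases hp : P (a, b)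
      · simp only [if_pos hp]
        apply hES
        intro hS
        apply hab
        have hord : ∀ {w y : G}, orderOf w = 2 → IsConj w y → y * y = 1 := by
          intro w y hw hwy
          obtain ⟨c, rfl⟩ := isConj_iff.1 hwy
          have : w * w = 1 := by rw [← pow_two, ← hw, pow_orderOf_eq_one]
          calc c * w * c⁻¹ * (c * w * c⁻¹) = c * (w * w) * c⁻¹ := by group
            _ = 1 := by rw [this]; group
        have ha : a * a = 1 := hord hu hp.1
        have hb : b * b = 1 := hord hv hp.2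
        have ha' : a⁻¹ = a := inv_eq_of_mul_eq_one_left ha
        have hb' : b⁻¹ = b := inv_eq_of_mul_eq_one_left hb
        have haH : a ∈ H := by
          by_contra hna
          apply hTI a hna _ hS
          have : a * (a * b) * a⁻¹ = (a * b)⁻¹ := by
            rw [mul_inv_rev, ha', hb', ← mul_assoc, ha, one_mul]
          rw [this]
          exact hinv _ hS
        have habH : a * b ∈ H := hSH hS
        have hbH : b ∈ H := by
          have := H.mul_mem (H.inv_mem haH) habH
          simpa using this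
        exact ⟨(⟨a, haH⟩, ⟨b, hbH⟩), rfl⟩
      · simp only [if_neg hp]
    · rintro ⟨a, b⟩
      by_cases hp : P ((a : G), (b : G))
      · rw [Set.indicator_of_mem (by exact hp)]
        simp only [if_pos hp]
        rw [← Subgroup.coe_mul, hEH]
      · rw [Set.indicator_of_notMem (by exact hp)]
        simp only [if_neg hp]
  rw [h1, h2, ← mul_assoc]
  congr 1
  have hcard : (Nat.card H : ℂ) * (H.index : ℂ) = (Fintype.card G : ℂ) := by
    rw [← Nat.card_eq_fintype_card, ← H.card_mul_index]; push_cast; rfl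
  have hne : (Nat.card H : ℂ) ≠ 0 := by
    exact_mod_cast (Nat.card_pos (α := H)).ne'
  rw [← hcard]
  field_simp

end Cfsg.Agent.S0849
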