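import Cfsg.Statements.S0855
import Cfsg.Agent.S0887
import Cfsg.Agent.S0154
import Cfsg.Agent.S0187
import Cfsg.Agent.Char.Clifford

set_option autoImplicit false
open Cfsg

namespace Cfsg.Agent.S0855

open Cfsg Cfsg.Agent.Char Cfsg.Agent.CharBase

universe u

/-- A normal subgroup with abelian `p`-power quotient, proper if `p` divides `|G : G'|`. -/
theorem exists_normal_pquot {G : Type u} [Group G] [Finite G] {p : ℕ} (hp : p.Prime)
    (h : p ∣ (commutator G).index) : ∃ N : Subgroup G, N.Normal ∧ N ≠ ⊤ ∧ ∃ k : ℕ, N.index = p ^ k := by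
  classical
  have := Fact.mk hp
  have hcard : (commutator G).index = Nat.card (Abelianization G) := rfl
  obtain ⟨n, hn⟩ : ∃ n, n = Nat.card (Abelianization G) := ⟨_, rfl⟩
  have hn0 : n ≠ 0 := by rw [hn]; exact Nat.card_pos.ne'
  rw [hcard, ← hn] at h
  obtain ⟨m, hm, hnm⟩ : ∃ m, ¬ p ∣ m ∧ n = p ^ n.factorization p * m :=
    ⟨n / p ^ n.factorization p, Nat.not_dvd_ordCompl hp hn0, (Nat.ordProj_mul_ordCompl_eq_self n p).symm⟩
  let f : G →* Abelianization G := (powMonoidHom m).comp Abelianization.of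
  have hf : ∀ x, f x = (Abelianization.of x) ^ m := fun x => rfl
  refine ⟨f.ker, inferInstance, ?_, ?_⟩
  · intro htop
    obtain ⟨y, hy⟩ := exists_prime_orderOf_dvd_card' p (G := Abelianization G) (by rw [← hn]; exact h)
    obtain ⟨x, hx⟩ := QuotientGroup.mk_surjective y
    have h1 : x ∈ f.ker := by rw [htop]; exact Subgroup.mem_top x
    have h2 : (QuotientGroup.mk x : Abelianization G) ^ m = 1 := MonoidHom.mem_ker.mp h1
    have h3 : y ^ m = 1 := by rw [← hx]; exact h2
    have h4 := orderOf_dvd_of_pow_eq_one h3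
    rw [hy] at h4
    exact hm h4
  · rw [Subgroup.index_ker]
    have hP : IsPGroup p f.range := by
      rintro ⟨_, x, rfl⟩
      refine ⟨n.factorization p, ?_⟩
      apply Subtype.ext
      change (Abelianization.of x ^ m) ^ p ^ n.factorization p = 1
      rw [← pow_mul, mul_comm, ← hnm, hn]
      exact pow_card_eq_one'
    exact IsPGroup.iff_card.mp hP

theorem aux {p : ℕ} (hp : p.Prime) (n : ℕ) : ∀ (G : Type u) [Group G] [Finite G], Nat.card G = n →
    (∀ χ : Cfsg.IrrCharacter G, ∃ k : ℕ, (χ : G → ℂ) 1 = (p : ℂ) ^ k) →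
    ∃ A : Subgroup G, A.Normal ∧ (∀ a ∈ A, ∀ b ∈ A, a * b = b * a) ∧ Nat.Coprime (Nat.card A) p ∧
      ∃ k : ℕ, A.index = p ^ k := by
  classical
  induction n using Nat.strong_induction_on with
  | _ n ih =>
  intro G _ _ hn hdeg
  have := Fintype.ofFinite G
  have := Fact.mk hp
  by_cases hdvd : p ∣ (commutator G).index
  · obtain ⟨N, hN, hNtop, b, hb⟩ := exists_normal_pquot hp hdvd
    have := Fintype.ofFinite N
    have hlt : Nat.card N < n := by
      rw [← hn]
      apply lt_of_le_of_ne (Subgroup.card_le_card_group N)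
      intro h
      exact hNtop (Subgroup.eq_top_of_card_eq N h)
    obtain ⟨A₀, hA₀n, hA₀ab, hA₀cop, j, hj⟩ := ih _ hlt N rfl (by
      intro θ
      obtain ⟨χ, hχ, hne⟩ := exists_over N θ.2
      obtain ⟨k, hk⟩ := hdeg ⟨χ, hχ⟩
      obtain ⟨d, hd⟩ := exists_nat_degree (irr_isCharacter θ)
      have hk' : χ 1 = ((p ^ k : ℕ) : ℂ) := by push_cast; exact hk
      obtain ⟨h1, -⟩ := Cfsg.Agent.S0887.result N χ hχ θ θ.2 hne (p ^ k) d hk' hd
      obtain ⟨i, -, hi⟩ := (Nat.dvd_prime_pow hp).mp h1
      exact ⟨i, by rw [hd, hi]; push_cast; rfl⟩)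
    -- characterisation of `A₀`
    have hchar : ∀ x : N, x ∈ A₀ ↔ (orderOf x).Coprime p := by
      intro x
      constructor
      · intro hx
        have h1 : orderOf x ∣ Nat.card A₀ := by
          have h2 := orderOf_dvd_natCard (⟨x, hx⟩ : A₀)
          rwa [Subgroup.orderOf_mk] at h2
        exact Nat.Coprime.coprime_dvd_left h1 hA₀cop
      · intro hx
        have h1 : orderOf (QuotientGroup.mk' A₀ x) ∣ orderOf x := orderOf_map_dvd _ x
        have h2 : orderOf (QuotientGroup.mk' A₀ x) ∣ p ^ j := by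
          rw [← hj]
          exact orderOf_dvd_natCard _
        have h3 : orderOf (QuotientGroup.mk' A₀ x) = 1 :=
          Nat.eq_one_of_dvd_coprimes (hx.pow_right j) h1 h2
        rw [orderOf_eq_one_iff] at h3
        exact (QuotientGroup.eq_one_iff x).mp h3
    refine ⟨A₀.map N.subtype, ?_, ?_, ?_, b + j, ?_⟩
    · constructor
      rintro _ ⟨x, hx, rfl⟩ g
      have h1 := hN.conj_mem _ x.2 g
      refine ⟨⟨g * x * g⁻¹, h1⟩, ?_, rfl⟩
      have h2 : orderOf (⟨g * x * g⁻¹, h1⟩ : N) = orderOf x := by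
        rw [← Subgroup.orderOf_coe, ← Subgroup.orderOf_coe]
        exact orderOf_injective (MulAut.conj g).toMonoidHom (MulAut.conj g).injective (x : G)
      rw [SetLike.mem_coe, hchar, h2, ← hchar]
      exact hx
    · rintro _ ⟨x, hx, rfl⟩ _ ⟨y, hy, rfl⟩
      rw [← map_mul, hA₀ab x hx y hy, map_mul]
    · rw [Subgroup.card_map_of_injective N.subtype_injective]
      exact hA₀cop
    · rw [Subgroup.index_map_subtype, hj, hb, pow_add, mul_comm]
  · -- then `p` does not divide `|G|`
    have : Fintype (IrrCharacter G) := Fintype.ofFinite _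
    choose k hk using hdeg
    have hsum : Nat.card G = ∑ χ : IrrCharacter G, (p ^ k χ) ^ 2 := by
      have h1 := sum_degree_mul (G := G) 1
      rw [if_pos rfl] at h1
      have h2 : (Nat.card G : ℂ) = ((∑ χ : IrrCharacter G, (p ^ k χ) ^ 2 : ℕ) : ℂ) := by
        rw [← h1]
        push_cast
        refine Finset.sum_congr rfl fun χ _ => ?_
        rw [hk χ]
        ring
      exact_mod_cast h2
    have hcount : (Finset.univ.filter (fun χ : IrrCharacter G => k χ = 0)).card = (commutator G).index := by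
      rw [← Cfsg.Agent.S0154.result, Nat.card_eq_fintype_card, Fintype.card_subtype]
      congr 1
      ext χ
      rw [Finset.mem_filter, Finset.mem_filter]
      refine and_congr_right fun _ => ?_
      rw [hk χ]
      constructor
      · intro h; rw [h, pow_zero]
      · intro h
        have h1 : p ^ k χ = 1 := by exact_mod_cast h
        exact (Nat.pow_eq_one.mp h1).resolve_left hp.one_lt.ne'
    have hmod : Nat.card G ≡ (commutator G).index [MOD p] := by
      rw [hsum, ← hcount, Finset.card_filter]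
      apply Nat.ModEq.sum
      intro χ _
      by_cases h : k χ = 0
      · rw [if_pos h, h]; exact Nat.ModEq.refl _
      · rw [if_neg h]
        exact (Nat.modEq_zero_iff_dvd.mpr (dvd_pow (dvd_pow_self p h) two_ne_zero))
    have hpG : ¬ p ∣ Nat.card G := fun h => hdvd ((Nat.modEq_zero_iff_dvd.mp
      (hmod.symm.trans (Nat.modEq_zero_iff_dvd.mpr h))))
    have hlin : ∀ χ : IrrCharacter G, (χ : G → ℂ) 1 = 1 := by
      intro χ
      obtain ⟨m, ρ, hρ, hρχ⟩ := χ.2
      have h1 := Cfsg.Agent.Char.finrank_dvd_card ρ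
      have h2 : ρ.character 1 = (m : ℂ) := by
        rw [Representation.char_one, Module.finrank_fin_fun]
      rw [hρχ, hk χ] at h2
      have h3 : p ^ k χ = m := by exact_mod_cast h2
      rw [Module.finrank_fin_fun, ← h3] at h1
      have h4 : k χ = 0 := by
        by_contra h
        exact hpG ((dvd_pow_self p h).trans h1)
      rw [hk χ, h4, pow_zero]
    have hab := (Cfsg.Agent.S0187.result (G := G)).mpr hlin
    refine ⟨⊤, inferInstance, fun a _ b _ => hab a b, ?_, 0, ?_⟩
    · rw [Subgroup.card_top, Nat.coprime_comm]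
      exact (Nat.Prime.coprime_iff_not_dvd hp).mpr hpG
    · rw [Subgroup.index_top, pow_zero]

/-- For a finite group G and a prime p: every irreducible character of G has degree a power of p if and only if G has an abelian normal subgroup whose order is prime to p and whose index is a power of p. -/
theorem result {G : Type*} [Group G] [Finite G] (p : ℕ) (hp : p.Prime) : (∀ χ : Cfsg.IrrCharacter G, ∃ k : ℕ, (χ : G → ℂ) 1 = (p : ℂ) ^ k) ↔ ∃ A : Subgroup G, A.Normal ∧ (∀ a ∈ A, ∀ b ∈ A, a * b = b * a) ∧ Nat.Coprime (Nat.card A) p ∧ ∃ k : ℕ, A.index = p ^ k := by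
  classical
  have := Fintype.ofFinite G
  constructor
  · intro h
    exact aux hp _ G rfl h
  · rintro ⟨A, hAn, hAab, -, k, hk⟩ χ
    have := Fintype.ofFinite A
    obtain ⟨ϑ, hϑ, hne⟩ := exists_constituent_restrict A (irr_isCharacter χ) (irr_one_ne_zero χ.2)
    have h1 : ϑ 1 = 1 := (Cfsg.Agent.S0187.result (G := A)).mp
      (fun a b => Subtype.ext (hAab a a.2 b b.2)) ⟨ϑ, hϑ⟩
    obtain ⟨c, hc⟩ := exists_nat_degree (irr_isCharacter χ)
    obtain ⟨-, h2⟩ := Cfsg.Agent.S0887.result A χ χ.2 ϑ hϑ hne c 1 hc (by rw [h1, Nat.cast_one])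
    rw [Nat.div_one, hk] at h2
    obtain ⟨i, -, hi⟩ := (Nat.dvd_prime_pow hp).mp h2
    exact ⟨i, by rw [hc, hi]; push_cast; rfl⟩

end Cfsg.Agent.S0855
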