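import Cfsg.Statements.S0859
import Cfsg.Agent.Char.RelMono

set_option autoImplicit false
open Cfsg

namespace Cfsg.Agent.S0859

/-- Let G be a finite solvable group and N a normal subgroup such that for every prime p every Sylow p-subgroup of N is abelian. Suppose every irreducible character of G is induced from an irreducible character of some subgroup containing N whose restriction to N is irreducible. Then every irreducible character of G is induced from a character of degree 1 of some subgroup. -/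
theorem result {G : Type*} [Group G] [Fintype G] [Group.IsSolvable G] (N : Subgroup G) [N.Normal] (hab : ∀ (p : ℕ) [Fact p.Prime] (P : Sylow p N), ∀ a ∈ P, ∀ b ∈ P, a * b = b * a) (hrel : ∀ χ : G → ℂ, Cfsg.IsIrrCharacter G χ → ∃ (H : Subgroup G) (hNH : N ≤ H) (ψ : H → ℂ), Cfsg.IsIrrCharacter H ψ ∧ Cfsg.indFun H ψ = χ ∧ Cfsg.IsIrrCharacter N (fun n : N => ψ ⟨(n : G), hNH n.2⟩)) (χ : G → ℂ) (hχ : Cfsg.IsIrrCharacter G χ) : ∃ (U : Subgroup G) (lam : U → ℂ), Cfsg.IsCharacter U lam ∧ lam 1 = 1 ∧ Cfsg.indFun U lam = χ := by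
  classical
  obtain ⟨H, hNH, ψ, hψ, hind, hψN⟩ := hrel χ hχ
  have := Fintype.ofFinite H
  rw [← hind]
  let ι : N.subgroupOf H ≃* N := Subgroup.subgroupOfEquivOfLe hNH
  refine Cfsg.Agent.Char.MO.monomial_lift
    (Cfsg.Agent.Char.MO.monomial_core _ H (N.subgroupOf H) rfl ?_ ψ hψ ?_)
  · have h1 : Cfsg.Agent.Char.MO.AbSyl N := hab
    exact h1.of_injective ι.toMonoidHom ι.injective
  · exact Cfsg.Agent.Char.GD.isIrr_comp_equiv ι hψN

end Cfsg.Agent.S0859
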