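import Cfsg.Statements.S0860
import Cfsg.Agent.Char.PermLemma

set_option autoImplicit false
open Cfsg

namespace Cfsg.Agent.S0860

/-- Let a group A act on the set of irreducible characters and on the set of conjugacy classes of a finite group G in such a way that (a • χ) evaluated on the class a • C equals χ evaluated on C, for all a, χ and C. Then every element of A fixes exactly as many irreducible characters as it fixes conjugacy classes. -/
theorem result {G : Type*} [Group G] [Finite G] {A : Type*} [Group A] [MulAction A (Cfsg.IrrCharacter G)] [MulAction A (ConjClasses G)] (hcompat : ∀ (a : A) (χ : Cfsg.IrrCharacter G) (g g' : G), ConjClasses.mk g' = a • ConjClasses.mk g → ((a • χ : Cfsg.IrrCharacter G) : G → ℂ) g' = (χ : G → ℂ) g) (a : A) : Nat.card {χ : Cfsg.IrrCharacter G // a • χ = χ} = Nat.card {C : ConjClasses G // a • C = C} := by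
  classical
  have : Finite (ConjClasses G) := Quotient.finite _
  obtain ⟨f, hf⟩ : ∃ f : G → G, ∀ g, f g = Quotient.out (a⁻¹ • ConjClasses.mk g) := ⟨_, fun _ => rfl⟩
  have hmk : ∀ g, ConjClasses.mk (f g) = a⁻¹ • ConjClasses.mk g := by
    intro g
    rw [hf]
    exact Quotient.out_eq _
  have hmk' : ∀ g, ConjClasses.mk g = a • ConjClasses.mk (f g) := by
    intro g
    rw [hmk, smul_inv_smul]
  have hact : ∀ χ : Cfsg.IrrCharacter G, ((a • χ : Cfsg.IrrCharacter G) : G → ℂ) = fun g => (χ : G → ℂ) (f g) := by
    intro χ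
    funext g
    exact hcompat a χ (f g) g (hmk' g)
  have key := Cfsg.Agent.Char.PL.card_fixed_irr_eq f
    (fun χ => by rw [← hact χ]; exact (a • χ).2)
    (fun g h hgh => by
      rw [← ConjClasses.mk_eq_mk_iff_isConj, hmk, hmk, ConjClasses.mk_eq_mk_iff_isConj.mpr hgh])
  have e1 : Nat.card {χ : Cfsg.IrrCharacter G // a • χ = χ} =
      Nat.card {χ : Cfsg.IrrCharacter G // (fun g => (χ : G → ℂ) (f g)) = χ} := by
    refine Nat.card_congr (Equiv.subtypeEquivRight fun χ => ?_)
    rw [← hact χ]
    exact Subtype.ext_iff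
  have e2 : Nat.card {C : ConjClasses G // a • C = C} =
      Nat.card {C : ConjClasses G // ∀ g, ConjClasses.mk g = C → IsConj (f g) g} := by
    refine Nat.card_congr (Equiv.subtypeEquivRight fun C => ?_)
    constructor
    · intro h g hg
      rw [← ConjClasses.mk_eq_mk_iff_isConj, hmk, hg, inv_smul_eq_iff, h]
    · intro h
      obtain ⟨g, rfl⟩ := ConjClasses.exists_rep C
      have := h g rfl
      rw [← ConjClasses.mk_eq_mk_iff_isConj, hmk] at this
      exact (inv_smul_eq_iff.mp this).symm
  rw [e1, e2, key]

end Cfsg.Agent.S0860
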