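import Cfsg.Statements.S0861
import Cfsg.Agent.S0887
import Cfsg.Agent.S0187
import Cfsg.Agent.Char.Galois
import Cfsg.Agent.Glaub.PGroup
import Cfsg.Agent.Char.ModP
import Cfsg.Agent.CharBase.Column

set_option autoImplicit false
open Cfsg

namespace Cfsg.Agent.S0861

/-- Let P be a normal abelian Sylow p-subgroup of the finite group G and suppose some element g of P has centralizer exactly P. Then the number of irreducible characters of G is at most the order of P, and if equality holds then G / P is abelian (the commutator subgroup lies in P). -/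
theorem result {G : Type*} [Group G] [Finite G] (p : ℕ) [Fact p.Prime] (P : Sylow p G) [(P : Subgroup G).Normal] (hab : ∀ a ∈ P, ∀ b ∈ P, a * b = b * a) (g : G) (hg : g ∈ P) (hC : Subgroup.centralizer ({g} : Set G) = P) : Nat.card (Cfsg.IrrCharacter G) ≤ Nat.card P ∧ (Nat.card (Cfsg.IrrCharacter G) = Nat.card P → commutator G ≤ P) := by
  classical
  open Cfsg Cfsg.Agent.Char Cfsg.Agent.CharBase Cfsg.Agent.Blk in
  have := Fintype.ofFinite G
  have : Fintype (IrrCharacter G) := Fintype.ofFinite _
  have := Fintype.ofFinite P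
  have hp : p.Prime := Fact.out
  obtain ⟨M, hM⟩ := Cfsg.Agent.Glaub.exists_isPModular hp
  have hMp : M.IsPrime := hM.2.1.isPrime
  have hne : ∀ χ : IrrCharacter G, (χ : G → ℂ) g ≠ 0 := by
    intro χ h0
    obtain ⟨ϑ, hϑ, hne⟩ := exists_constituent_restrict (P : Subgroup G) (irr_isCharacter χ) (irr_one_ne_zero χ.2)
    have h1 : ϑ 1 = 1 := (Cfsg.Agent.S0187.result (G := P)).mp
      (fun a b => Subtype.ext (hab a a.2 b b.2)) ⟨ϑ, hϑ⟩
    obtain ⟨c, hc⟩ := exists_nat_degree (irr_isCharacter χ)
    obtain ⟨-, h2⟩ := Cfsg.Agent.S0887.result (P : Subgroup G) χ χ.2 ϑ hϑ hne c 1 hc (by rw [h1, Nat.cast_one])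
    rw [Nat.div_one] at h2
    have h3 : ¬ p ∣ c := fun h => P.not_dvd_index (h.trans h2)
    have h4 : IsPPart p g g := by
      refine ⟨1, mul_one g, Commute.one_right g, ?_, ?_⟩
      · obtain ⟨k, hk⟩ := P.2 ⟨g, hg⟩
        have h5 : g ^ p ^ k = 1 := congrArg Subtype.val hk
        obtain ⟨j, -, hj⟩ := (Nat.dvd_prime_pow hp).mp (orderOf_dvd_of_pow_eq_one h5)
        exact ⟨j, hj⟩
      · rw [orderOf_one]; exact hp.not_dvd_one
    have h5 := Cfsg.Agent.Char.MP.rd_char_ppart hM (irr_isCharacter χ) h4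
    rw [inv_mul_cancel, h0, hc, rd_natCast] at h5
    have := charP_kM hM
    have h6 : rd M 0 = 0 := (rd_eq_zero_iff mlr_zero).mpr mli_zero
    rw [h6] at h5
    exact h3 ((CharP.cast_eq_zero_iff (kM M) p c).mp h5.symm)
  -- the product of the squared norms is a positive integer
  have hG0 : Nat.card G ≠ 0 := Nat.card_pos.ne'
  obtain ⟨m, hm⟩ : ∃ m : ℤ, ∏ χ : IrrCharacter G, ((χ : G → ℂ) g * (χ : G → ℂ) g⁻¹) = m := by
    apply exists_int_of_fixed hG0
    · apply Subring.prod_mem
      intro χ _
      exact Subring.mul_mem _ (char_mem_closure (irr_isCharacter χ) g (dvd_refl _))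
        (char_mem_closure (irr_isCharacter χ) g⁻¹ (dvd_refl _))
    · intro k σ _ _
      let E : IrrCharacter G → IrrCharacter G := fun χ =>
        ⟨fun x => σ ((χ : G → ℂ) x), isIrrCharacter_map σ χ.2⟩
      have hE : Function.Bijective E := by
        rw [← Finite.injective_iff_bijective]
        intro χ ψ h
        apply Subtype.ext
        funext x
        have h1 := congrFun (congrArg Subtype.val h) x
        exact σ.injective h1
      rw [map_prod]
      rw [← Function.Bijective.prod_comp hE (fun χ : IrrCharacter G => (χ : G → ℂ) g * (χ : G → ℂ) g⁻¹)]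
      refine Finset.prod_congr rfl fun χ _ => ?_
      rw [map_mul]
  have hreal : ∀ χ : IrrCharacter G, (χ : G → ℂ) g * (χ : G → ℂ) g⁻¹
      = ((Complex.normSq ((χ : G → ℂ) g) : ℝ) : ℂ) := by
    intro χ
    rw [irr_inv, Complex.mul_conj]
  have hprod : (∏ χ : IrrCharacter G, Complex.normSq ((χ : G → ℂ) g) : ℝ) = m := by
    rw [Finset.prod_congr rfl fun χ _ => hreal χ] at hm
    exact_mod_cast hm
  have hpos : ∀ χ : IrrCharacter G, 0 < Complex.normSq ((χ : G → ℂ) g) := fun χ =>
    Complex.normSq_pos.mpr (hne χ)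
  have hm1 : (1 : ℝ) ≤ m := by
    have h1 : (0 : ℝ) < m := by rw [← hprod]; exact Finset.prod_pos fun χ _ => hpos χ
    have h2 : 0 < m := by exact_mod_cast h1
    exact_mod_cast h2
  have hlog : 0 ≤ ∑ χ : IrrCharacter G, Real.log (Complex.normSq ((χ : G → ℂ) g)) := by
    rw [← Real.log_prod (fun χ _ => (hpos χ).ne'), hprod]
    exact Real.log_nonneg hm1
  have hsum : ∑ χ : IrrCharacter G, Complex.normSq ((χ : G → ℂ) g) = Nat.card P := by
    have h1 := column_orthogonality_of_isConj (IsConj.refl g)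
    rw [hC] at h1
    have h2 : ∑ χ : IrrCharacter G, (χ : G → ℂ) g * (starRingEnd ℂ) ((χ : G → ℂ) g)
        = ((∑ χ : IrrCharacter G, Complex.normSq ((χ : G → ℂ) g) : ℝ) : ℂ) := by
      push_cast
      exact Finset.sum_congr rfl fun χ _ => Complex.mul_conj _
    rw [h2] at h1
    exact_mod_cast h1
  have hterm : ∀ χ : IrrCharacter G, 0 ≤ Complex.normSq ((χ : G → ℂ) g) - 1
      - Real.log (Complex.normSq ((χ : G → ℂ) g)) := fun χ => by
    have := Real.log_le_sub_one_of_pos (hpos χ)
    linarith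
  have hcard : (∑ _χ : IrrCharacter G, (1 : ℝ)) = Nat.card (IrrCharacter G) := by
    rw [Finset.sum_const, Finset.card_univ, nsmul_eq_mul, mul_one, Nat.card_eq_fintype_card]
  have hall : ∑ χ : IrrCharacter G, (Complex.normSq ((χ : G → ℂ) g) - 1
      - Real.log (Complex.normSq ((χ : G → ℂ) g)))
      = Nat.card P - Nat.card (IrrCharacter G) - ∑ χ : IrrCharacter G, Real.log (Complex.normSq ((χ : G → ℂ) g)) := by
    rw [Finset.sum_sub_distrib, Finset.sum_sub_distrib, hsum, hcard]
  have hall0 := Finset.sum_nonneg (fun χ (_ : χ ∈ (Finset.univ : Finset (IrrCharacter G))) => hterm χ)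
  constructor
  · rw [hall] at hall0
    have h1 : (Nat.card (IrrCharacter G) : ℝ) ≤ Nat.card P := by linarith
    exact_mod_cast h1
  · intro heq
    have h0 : ∑ χ : IrrCharacter G, (Complex.normSq ((χ : G → ℂ) g) - 1
      - Real.log (Complex.normSq ((χ : G → ℂ) g))) = 0 := by
      apply le_antisymm _ hall0
      rw [hall, heq]
      linarith
    have hone : ∀ χ : IrrCharacter G, Complex.normSq ((χ : G → ℂ) g) = 1 := by
      intro χ
      have h1 := (Finset.sum_eq_zero_iff_of_nonneg (fun χ _ => hterm χ)).mp h0 χ (Finset.mem_univ _)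
      by_contra hc
      have h2 := Real.log_lt_sub_one_of_pos (hpos χ) hc
      linarith
    have hquot : ∀ a b : G ⧸ (P : Subgroup G), a * b = b * a := by
      apply (Cfsg.Agent.S0187.result).mpr
      intro χ
      have h1 : IsIrrCharacter G (fun x => (χ : G ⧸ (P : Subgroup G) → ℂ) (QuotientGroup.mk' (P : Subgroup G) x)) :=
        isIrrCharacter_comp_surjective χ.2 (QuotientGroup.mk' (P : Subgroup G)) (QuotientGroup.mk'_surjective _)
      have h2 := hone ⟨_, h1⟩
      have h3 : QuotientGroup.mk' (P : Subgroup G) g = 1 := (QuotientGroup.eq_one_iff g).mpr hg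
      simp only [h3] at h2
      obtain ⟨d, hd⟩ := exists_nat_degree (irr_isCharacter χ)
      rw [hd, Complex.normSq_natCast] at h2
      have h4 : d * d = 1 := by exact_mod_cast h2
      rw [hd, Nat.eq_one_of_mul_eq_one_right h4, Nat.cast_one]
    rw [commutator_def, Subgroup.commutator_le]
    intro a _ b _
    rw [← QuotientGroup.eq_one_iff (N := (P : Subgroup G))]
    have h1 := hquot (a : G ⧸ (P : Subgroup G)) (b : G ⧸ (P : Subgroup G))
    rw [commutatorElement_def]
    change (a : G ⧸ (P : Subgroup G)) * (b : G ⧸ (P : Subgroup G)) * (a : G ⧸ (P : Subgroup G))⁻¹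
      * (b : G ⧸ (P : Subgroup G))⁻¹ = 1
    rw [h1]
    group

end Cfsg.Agent.S0861
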