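import Cfsg.Statements.S0864
import Cfsg.Agent.Char.ExtUnique

set_option autoImplicit false
open Cfsg

namespace Cfsg.Agent.S0864

/-- Let N be a normal subgroup of the finite group G and λ a character of N of degree 1 invariant under conjugation by G. Suppose that for every prime p dividing the order of λ (in the group of functions under pointwise multiplication) there is a subgroup H containing N, of index prime to p and with the index of N in H a power of p, together with a character of H of degree 1 restricting to λ. Then λ is the restriction of a character of G of degree 1. -/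
theorem result {G : Type*} [Group G] [Finite G] (N : Subgroup G) [hN : N.Normal] (lam : N → ℂ) (hlam : Cfsg.IsCharacter N lam ∧ lam 1 = 1) (hinv : ∀ (g : G) (n : N), lam ⟨g * n * g⁻¹, hN.conj_mem (n : G) n.2 g⟩ = lam n) (hsyl : ∀ p : ℕ, p.Prime → p ∣ orderOf lam → ∃ (H : Subgroup G) (hNH : N ≤ H) (ν : H → ℂ), Nat.Coprime H.index p ∧ (∃ k : ℕ, N.relIndex H = p ^ k) ∧ Cfsg.IsCharacter H ν ∧ ν 1 = 1 ∧ ∀ n : N, ν ⟨(n : G), hNH n.2⟩ = lam n) : ∃ μ : G → ℂ, Cfsg.IsCharacter G μ ∧ μ 1 = 1 ∧ ∀ n : N, μ n = lam n := by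
  classical
  have := Fintype.ofFinite G
  have := Fintype.ofFinite N
  have hinv' : ∀ g : G, Cfsg.Agent.Char.cj N g lam = lam := fun g => funext fun n => hinv g n
  have hirr := Cfsg.Agent.Char.linChar_isIrr hlam.1 hlam.2
  have hdet : Cfsg.detChar lam = lam :=
    Cfsg.Agent.Char.detChar_of_hom (Cfsg.Agent.Char.linHom hlam.1 hlam.2)
  obtain ⟨χ, hχ, hχN⟩ := Cfsg.Agent.Char.exists_extension_of_primes_det hirr hinv' fun p hp => by
    by_cases h : p ∣ orderOf lam
    · left
      obtain ⟨H, hNH, ν, h1, -, h2, h3, h4⟩ := hsyl p hp h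
      refine ⟨Cfsg.indFun H ν, H.index, Cfsg.Agent.Char.indFun_isCharacter H ν h2, ?_, ?_⟩
      · intro h5
        have h6 : p ∣ 1 := by
          rw [← h1]
          exact Nat.dvd_gcd h5 dvd_rfl
        exact hp.one_lt.ne' (Nat.dvd_one.mp h6)
      · rw [Cfsg.Agent.Char.indFun_restrict_of_extends hNH hinv' h4,
          Cfsg.Agent.CharBase.classInner_smul_left,
          Cfsg.Agent.Char.classInner_self_of_irr hirr, mul_one]
    · right
      refine ⟨1, orderOf lam, 1, ?_, ?_, fun n => ?_⟩
      · rw [hlam.2]; simp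
      · rw [one_mul]; exact h
      · rw [hdet, Cfsg.Agent.Char.pow_fun_eq_one_iff.mp (pow_orderOf_eq_one lam)]
        rfl
  refine ⟨χ, Cfsg.Agent.CharBase.isCharacter_of_isIrr hχ, ?_, hχN⟩
  have := hχN 1
  rw [hlam.2] at this
  exact this

end Cfsg.Agent.S0864
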