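import Cfsg.Statements.S0869
import Mathlib.RingTheory.Int.Basic
import Mathlib.Tactic.Ring
import Mathlib.Tactic.LinearCombination
import Mathlib.Algebra.Group.Subgroup.ZPowers.Basic
import Mathlib.GroupTheory.Archimedean

set_option autoImplicit false
open Cfsg

namespace Cfsg.Agent.S0869

/-- Let S be a nonempty finite type and R an additive subgroup of the integer-valued functions on S that is closed under pointwise multiplication. If the constant function 1 is not in R, then there exist a point x of S and a prime p such that p divides f x for every f in R. -/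
theorem result {S : Type*} [Finite S] [Nonempty S] (R : AddSubgroup (S → ℤ)) (hmul : ∀ f ∈ R, ∀ g ∈ R, f * g ∈ R) (h1 : (1 : S → ℤ) ∉ R) : ∃ (x : S) (p : ℕ), p.Prime ∧ ∀ f ∈ R, (p : ℤ) ∣ f x := by
  classical
  by_contra hcon
  push Not at hcon
  have hone : ∀ x : S, ∃ f ∈ R, f x = 1 := by
    intro x
    -- the subgroup of values at x
    let I : AddSubgroup ℤ := R.map (Pi.evalAddMonoidHom (fun _ : S => ℤ) x)
    obtain ⟨n, hn⟩ := Int.subgroup_cyclic I
    have hmem : ∀ f ∈ R, f x ∈ I := fun f hf => ⟨f, hf, rfl⟩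
    have hdvd : ∀ f ∈ R, n ∣ f x := by
      intro f hf
      have h2 := hmem f hf
      rw [hn, AddSubgroup.mem_closure_singleton] at h2
      obtain ⟨k, hk⟩ := h2
      exact ⟨k, by rw [← hk]; simp [mul_comm]⟩
    have hunit : n.natAbs = 1 := by
      by_contra hne
      obtain ⟨p, hp, hpn⟩ := Nat.exists_prime_and_dvd hne
      obtain ⟨f, hf, hpf⟩ := hcon x p hp
      exact hpf ((Int.natCast_dvd.mpr hpn).trans (hdvd f hf))
    have h1 : (1 : ℤ) ∈ I := by
      rw [hn, AddSubgroup.mem_closure_singleton]
      rcases Int.natAbs_eq n with h | h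
      · exact ⟨1, by rw [h, hunit]; simp⟩
      · exact ⟨-1, by rw [h, hunit]; simp⟩
    obtain ⟨f, hf, hfx⟩ := h1
    exact ⟨f, hf, hfx⟩
  choose f hfR hf1 using hone
  cases nonempty_fintype S
  have key : ∀ T : Finset S, ∃ g ∈ R, ∏ x ∈ T, (1 - f x) = 1 - g := by
    intro T
    induction T using Finset.induction_on with
    | empty => exact ⟨0, R.zero_mem, by simp⟩
    | insert a T ha ih =>
      obtain ⟨g, hg, hT⟩ := ih
      refine ⟨f a + g - f a * g, R.sub_mem (R.add_mem (hfR a) hg) (hmul _ (hfR a) _ hg), ?_⟩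
      rw [Finset.prod_insert ha, hT]
      ring
  obtain ⟨g, hg, hprod⟩ := key Finset.univ
  have hzero : ∏ x ∈ (Finset.univ : Finset S), (1 - f x) = 0 := by
    funext y
    rw [Finset.prod_apply]
    refine Finset.prod_eq_zero (Finset.mem_univ y) ?_
    simp [hf1 y]
  rw [hzero] at hprod
  have : g = 1 := (sub_eq_zero.mp hprod.symm).symm
  exact h1 (this ▸ hg)

end Cfsg.Agent.S0869
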