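import Cfsg.Statements.S0870
import Cfsg.Agent.Char.Mackey

set_option autoImplicit false
open Cfsg

namespace Cfsg.Agent.S0870

/-- For subgroups H and K of a finite group G, the pointwise product of the functions induced from the constant function 1 on H and on K is a sum, over subgroups U of H with natural-number coefficients, of the functions induced from the constant function 1 on U. -/
theorem result {G : Type*} [Group G] [Fintype G] (H K : Subgroup G) : ∃ a : Subgroup G → ℕ, (∀ U, a U ≠ 0 → U ≤ H) ∧ Cfsg.indFun H (fun _ => 1) * Cfsg.indFun K (fun _ => 1) = ∑ U : Subgroup G, (a U : ℂ) • Cfsg.indFun U (fun _ => 1) := by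
  classical
  let _ := Cfsg.Agent.Char.dblAct H K
  have : Fintype (@MulAction.orbitRel.Quotient (H × K) G _ (Cfsg.Agent.Char.dblAct H K)) :=
    Fintype.ofFinite _
  let U : (@MulAction.orbitRel.Quotient (H × K) G _ (Cfsg.Agent.Char.dblAct H K)) → Subgroup G :=
    fun ω => H ⊓ Cfsg.Agent.Char.cjSub K ω.out
  refine ⟨fun V => (Finset.univ.filter fun ω => U ω = V).card, ?_, ?_⟩
  · intro V hV
    obtain ⟨ω, hω⟩ := Finset.card_pos.mp (Nat.pos_of_ne_zero hV)
    rw [← (Finset.mem_filter.mp hω).2]
    exact inf_le_left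
  · rw [Cfsg.Agent.Char.indFun_one_mul_indFun_one]
    have h1 : ∑ ω, Cfsg.indFun (U ω) (fun _ => 1)
        = ∑ V : Subgroup G, ∑ ω ∈ Finset.univ.filter (fun ω => U ω = V),
            Cfsg.indFun (U ω) (fun _ => 1) :=
      (Finset.sum_fiberwise _ _ _).symm
    refine h1.trans (Finset.sum_congr rfl fun V _ => ?_)
    have h2 : ∀ ω ∈ Finset.univ.filter (fun ω => U ω = V),
        Cfsg.indFun (U ω) (fun _ => 1) = Cfsg.indFun V (fun _ => 1) := by
      intro ω hω
      rw [(Finset.mem_filter.mp hω).2]
    rw [Finset.sum_congr rfl h2, Finset.sum_const, Nat.cast_smul_eq_nsmul]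

end Cfsg.Agent.S0870
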