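import Cfsg.Statements.S0873
import Cfsg.Agent.Char.Linear
import Mathlib.GroupTheory.PGroup

set_option autoImplicit false
open Cfsg

namespace Cfsg.Agent.S0873

open Cfsg.Agent.Char in
theorem aux {G : Type*} [Group G] [Finite G] (p : ℕ) [Fact p.Prime] (C P : Subgroup G) [hC : C.Normal] (hP : IsPGroup p P) (hcop : Nat.Coprime (Nat.card C) p) (lam : C → ℂ) (hlam : Cfsg.IsCharacter C lam ∧ lam 1 = 1) (hinv : ∀ (g : G) (c : C), lam ⟨g * c * g⁻¹, hC.conj_mem (c : G) c.2 g⟩ = lam c) (hker : ∀ c : C, (c : G) ∈ Subgroup.centralizer (P : Set G) → lam c = 1) (c : C) : lam c = 1 := by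
  obtain ⟨h, h1⟩ := hlam
  let X := {d : C // lam d = lam c}
  letI act : MulAction P X :=
    { smul := fun u d => ⟨⟨(u : G) * d.1 * (u : G)⁻¹, hC.conj_mem (d.1 : G) d.1.2 u⟩,
        (hinv u d.1).trans d.2⟩
      one_smul := fun d => by
        apply Subtype.ext; apply Subtype.ext
        change ((1 : P) : G) * d.1 * ((1 : P) : G)⁻¹ = d.1
        simp
      mul_smul := fun u v d => by
        apply Subtype.ext; apply Subtype.ext
        change ((u * v : P) : G) * d.1 * ((u * v : P) : G)⁻¹
          = (u : G) * ((v : G) * d.1 * (v : G)⁻¹) * (u : G)⁻¹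
        push_cast
        group }
  have hsmul : ∀ (u : P) (d : X), (((u • d : X).1 : C) : G) = (u : G) * d.1 * (u : G)⁻¹ :=
    fun u d => rfl
  -- the coset has the size of the kernel
  have hcard : Nat.card X = Nat.card (linKer h h1) := by
    refine Nat.card_congr
      { toFun := fun d => ⟨d.1 * c⁻¹, ?_⟩
        invFun := fun k => ⟨k.1 * c, ?_⟩
        left_inv := fun d => by apply Subtype.ext; simp
        right_inv := fun k => by apply Subtype.ext; simp }
    · rw [mem_linKer, linChar_mul h h1, d.2, ← linChar_mul h h1, mul_inv_cancel, h1]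
    · rw [linChar_mul h h1, (mem_linKer h h1 _).mp k.2, one_mul]
  have hdvd : ¬ p ∣ Nat.card X := by
    rw [hcard]
    intro hp
    have h2 : p ∣ Nat.card C := hp.trans (Subgroup.card_subgroup_dvd_card _)
    have h3 : p ∣ 1 := by
      rw [← hcop]
      exact Nat.dvd_gcd h2 dvd_rfl
    exact (Fact.out : p.Prime).one_lt.ne' (Nat.dvd_one.mp h3)
  have hfix := hP.nonempty_fixed_point_of_prime_not_dvd_card X hdvd
  obtain ⟨d, hd⟩ := hfix
  rw [← d.2]
  apply hker
  rw [Subgroup.mem_centralizer_iff]
  intro u hu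
  have h4 := hd ⟨u, hu⟩
  have h5 := hsmul ⟨u, hu⟩ d
  rw [h4] at h5
  simp only at h5
  rw [eq_mul_inv_iff_mul_eq] at h5
  exact h5.symm

/-- Let C be a normal subgroup of the finite group G of order prime to p and P a p-subgroup with C ⊔ P = G. Let λ be a character of C of degree 1 invariant under conjugation by G and equal to 1 at every element of C centralized by P. Then λ is identically 1. -/
theorem result {G : Type*} [Group G] [Finite G] (p : ℕ) [Fact p.Prime] (C P : Subgroup G) [hC : C.Normal] (hP : IsPGroup p P) (hcop : Nat.Coprime (Nat.card C) p) (hCP : C ⊔ P = ⊤) (lam : C → ℂ) (hlam : Cfsg.IsCharacter C lam ∧ lam 1 = 1) (hinv : ∀ (g : G) (c : C), lam ⟨g * c * g⁻¹, hC.conj_mem (c : G) c.2 g⟩ = lam c) (hker : ∀ c : C, (c : G) ∈ Subgroup.centralizer (P : Set G) → lam c = 1) : lam = fun _ => 1 := by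
  funext c
  exact aux p C P hP hcop lam hlam hinv hker c

end Cfsg.Agent.S0873
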