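import Cfsg.Statements.S0875
import Cfsg.Agent.Char.BrauerR

set_option autoImplicit false
open Cfsg

namespace Cfsg.Agent.S0875

/-- Let G be a finite group of order m * n with m and n coprime, and g an element whose order is coprime to m. Every x in G factors uniquely as x = u * v with u, v commuting, the order of u coprime to n and the order of v coprime to m; let ϑ be the function on G equal to n at those x whose factor v is conjugate to g and equal to 0 elsewhere. Then ϑ is a linear combination of the irreducible characters of G with algebraic-integer coefficients. -/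
theorem result {G : Type*} [Group G] [Fintype G] (m n : ℕ) (hmn : Nat.card G = m * n) (hcop : Nat.Coprime m n) (g : G) (hg : Nat.Coprime (orderOf g) m) (ϑ : G → ℂ) (hϑ1 : ∀ x : G, (∃ v : G, IsConj v g ∧ (∃ u : G, x = u * v ∧ Commute u v ∧ Nat.Coprime (orderOf u) n ∧ Nat.Coprime (orderOf v) m)) → ϑ x = n) (hϑ0 : ∀ x : G, (¬ ∃ v : G, IsConj v g ∧ (∃ u : G, x = u * v ∧ Commute u v ∧ Nat.Coprime (orderOf u) n ∧ Nat.Coprime (orderOf v) m)) → ϑ x = 0) : ∃ c : Cfsg.IrrCharacter G → ℂ, (∀ χ, c χ ∈ Cfsg.AlgInt) ∧ ϑ = ∑ᶠ χ : Cfsg.IrrCharacter G, c χ • (χ : G → ℂ) := by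
  classical
  obtain ⟨k, h0, h1⟩ := Cfsg.Agent.Char.BR.exists_split_exponent m n hcop
  have hϑ : ϑ = fun x : G => if IsConj (x ^ k) g then (n : ℂ) else 0 := by
    funext x
    by_cases h : IsConj (x ^ k) g
    · rw [if_pos h]
      exact hϑ1 x ((Cfsg.Agent.Char.BR.exists_split_iff hmn hcop h0 h1 g x).mpr h)
    · rw [if_neg h]
      exact hϑ0 x (fun h' => h ((Cfsg.Agent.Char.BR.exists_split_iff hmn hcop h0 h1 g x).mp h'))
  have hcf : Cfsg.IsClassFunction G ϑ := by
    rw [hϑ]
    intro y x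
    have h2 : IsConj ((x * y * x⁻¹) ^ k) g ↔ IsConj (y ^ k) g := by
      rw [conj_pow]
      have h3 : IsConj (x * y ^ k * x⁻¹) (y ^ k) := (isConj_iff.mpr ⟨x, rfl⟩ : IsConj (y ^ k) _).symm
      exact ⟨fun h => h3.symm.trans h, fun h => h3.trans h⟩
    simp only [h2]
  have := Fintype.ofFinite (Cfsg.IrrCharacter G)
  refine ⟨fun χ => Cfsg.classInner ϑ (χ : G → ℂ), fun χ => ?_, ?_⟩
  · rw [hϑ]
    exact Cfsg.Agent.Char.BR.isIntegral_section hmn hcop h0 h1 g _ (Cfsg.Agent.CharBase.irr_isCharacter χ)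
  · rw [finsum_eq_sum_of_fintype]
    exact Cfsg.Agent.CharBase.classFun_eq_sum hcf

end Cfsg.Agent.S0875
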