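import Cfsg.Statements.S0876
import Cfsg.Agent.Char.ModP

set_option autoImplicit false
open Cfsg

namespace Cfsg.Agent.S0876

/-- Let G be a finite group, p a prime and M a maximal ideal of the ring of algebraic integers containing p. Let x, y be elements with p-parts a and b (so a⁻¹ * x and b⁻¹ * y are their p-regular parts). Then a⁻¹ * x and b⁻¹ * y are conjugate in G if and only if, for every irreducible character χ, the difference χ x - χ y lies in the local ideal at M. -/
theorem result {G : Type*} [Group G] [Finite G] (p : ℕ) (M : Ideal Cfsg.AlgInt) (hM : Cfsg.IsPModular p M) (x y a b : G) (ha : Cfsg.IsPPart p x a) (hb : Cfsg.IsPPart p y b) : IsConj (a⁻¹ * x) (b⁻¹ * y) ↔ ∀ χ : Cfsg.IrrCharacter G, Cfsg.MemLocalIdeal M ((χ : G → ℂ) x - (χ : G → ℂ) y) := by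
  classical
  have := Fintype.ofFinite G
  have hMp : M.IsPrime := hM.2.1.isPrime
  constructor
  · intro h χ
    have hχ := Cfsg.Agent.CharBase.irr_isCharacter χ
    rw [← Cfsg.Agent.Blk.rd_eq_iff (Cfsg.Agent.Char.MP.mlr_char hχ x) (Cfsg.Agent.Char.MP.mlr_char hχ y),
      Cfsg.Agent.Char.MP.rd_char_ppart hM hχ ha, Cfsg.Agent.Char.MP.rd_char_ppart hM hχ hb]
    congr 1
    obtain ⟨c, hc⟩ := isConj_iff.mp h
    rw [← hc]
    exact (Cfsg.Agent.CharBase.isClassFunction_of_isCharacter hχ _ c).symm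
  · intro h
    refine Cfsg.Agent.Char.MP.isConj_of_forall_rd_eq hM ha hb fun χ => ?_
    have hχ := Cfsg.Agent.CharBase.irr_isCharacter χ
    rw [Cfsg.Agent.Blk.rd_eq_iff (Cfsg.Agent.Char.MP.mlr_char hχ x) (Cfsg.Agent.Char.MP.mlr_char hχ y)]
    exact h χ

end Cfsg.Agent.S0876
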