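import Cfsg.Statements.S0880
import Mathlib
import Cfsg.Agent.H37.FNF

set_option autoImplicit false
open Cfsg

namespace Cfsg.Agent.S0880

/-- Let G be a finite simple Zassenhaus group on Ω with n points whose two-point stabilizer E has odd order less than n - 2. Then there are two elements of G, each fixing no point of Ω, that are not conjugate. -/
theorem result {G Ω : Type*} [Group G] [Finite G] [MulAction G Ω] [Fintype Ω] (hZ : Cfsg.IsZassenhausGroup G Ω) {a b : Ω} (hab : a ≠ b) [IsSimpleGroup G] (hodd : Odd (Nat.card ↥(MulAction.stabilizer G a ⊓ MulAction.stabilizer G b : Subgroup G))) (hlt : Nat.card ↥(MulAction.stabilizer G a ⊓ MulAction.stabilizer G b : Subgroup G) < Fintype.card Ω - 2) : ∃ x y : G, (∀ c : Ω, x • c ≠ c) ∧ (∀ c : Ω, y • c ≠ c) ∧ ¬ IsConj x y := by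
  classical
  have hfin : Finite G := by infer_instance
  have hfG : Fintype G := Fintype.ofFinite G
  have hz := H34.zgp_of hZ
  obtain ⟨s0, hs0, hs1⟩ := H37.ZT.stab2_ne_bot hZ hab
  obtain ⟨U, hU⟩ := H37.ZT.exists_isKer hz hab (fun hb => hs1 (by rw [hb] at hs0; exact hs0))
  obtain ⟨n, hn⟩ : ∃ n, Nat.card Ω = n + 1 := ⟨Nat.card Ω - 1, by
    have : 0 < Nat.card Ω := Nat.card_pos_iff.2 ⟨⟨a⟩, inferInstance⟩
    omega⟩
  obtain ⟨hzn, he2, hn2⟩ := H37.ZT.zn_of_simple hZ hab hU hn rfl hodd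
  set e := Nat.card (H34.stab2 G a b) with he
  by_contra hcon
  push Not at hcon
  have Q := H37.ZT.sum_fix_zero (R := ℤ) hzn.z hzn.hab hzn.ker (fun g => (1 : ℤ)) (fun g k => rfl) hzn.hn
  have h2 : ∑ g : G, (if g ∈ U ∧ g ≠ 1 then (1 : ℤ) else 0) = n - 1 := by
    rw [← Finset.sum_filter, Finset.sum_const, nsmul_eq_mul, mul_one]
    have := H37.ZT.card_filter_sub U (fun g => g ∈ U ∧ g ≠ 1) (fun g => Iff.rfl)
    rw [hzn.cardU] at this
    have h5 : ((Finset.univ.filter (fun g => g ∈ U ∧ g ≠ 1)).card : ℤ) + 1 = n := by exact_mod_cast this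
    linarith
  have h3 : ∑ g : G, (if (g • a = a ∧ g • b = b) ∧ g ≠ 1 then (1 : ℤ) else 0) = e - 1 := by
    rw [← Finset.sum_filter, Finset.sum_const, nsmul_eq_mul, mul_one]
    have := H37.ZT.card_filter_sub (H34.stab2 G a b) (fun g => (g • a = a ∧ g • b = b) ∧ g ≠ 1) (fun g => by rw [H34.mem_stab2])
    rw [hzn.he] at this
    have h5 : ((Finset.univ.filter (fun g : G => (g • a = a ∧ g • b = b) ∧ g ≠ 1)).card : ℤ) + 1 = e := by
      exact_mod_cast this
    linarith
  have h4 : ∑ g : G, (1 : ℤ) = (n + 1) * (n * e) := by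
    rw [Finset.sum_const, Finset.card_univ, ← Nat.card_eq_fintype_card, hzn.card]
    simp
  rw [h2, h3, h4] at Q
  -- number of fixed-point-free elements
  have hfp : ∀ g : G, Zass.nfix Ω g = 0 ↔ ∀ c : Ω, g • c ≠ c := by
    intro g
    rw [Zass.nfix, Nat.card_eq_zero]
    constructor
    · rintro (h5 | h5) c hc
      · exact h5.elim ⟨c, hc⟩
      · exact absurd (Subtype.finite : Finite (MulAction.fixedBy Ω g)) (not_finite_iff_infinite.2 h5)
    · intro h5
      left
      exact ⟨fun c => h5 c.1 c.2⟩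
  have h5 : ∑ g : G, (if Zass.nfix Ω g = 0 then (1 : ℤ) else 0) = Nat.card {g : G // ∀ c : Ω, g • c ≠ c} := by
    rw [← Finset.sum_filter, Finset.sum_const, nsmul_eq_mul, mul_one, Nat.card_eq_fintype_card, Fintype.card_subtype]
    congr 2
    ext g
    simp only [Finset.mem_filter, Finset.mem_univ, true_and]
    exact hfp g
  rw [h5] at Q
  set F := Nat.card {g : G // ∀ c : Ω, g • c ≠ c} with hF
  obtain ⟨m, hm⟩ := hzn.eodd
  have hm1 : 1 ≤ m := by omega
  have hF1 : (F : ℤ) = n * ((n + 1) * m + 1) := by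
    rw [hm] at Q
    push_cast at Q
    linarith
  have hF2 : F = n * ((n + 1) * m + 1) := by exact_mod_cast hF1
  have hFpos : 0 < F := by rw [hF2]; positivity
  obtain ⟨t, ht⟩ : Nonempty {g : G // ∀ c : Ω, g • c ≠ c} := Finite.card_pos_iff.1 hFpos
  have hcl : Nat.card {x : G // IsConj t x} = F := by
    apply Nat.card_congr
    apply Equiv.subtypeEquivRight
    intro x
    constructor
    · rintro hx c hc
      obtain ⟨k, hk⟩ := isConj_iff.1 hx
      apply ht (k⁻¹ • c)
      rw [← hk, mul_smul, mul_smul] at hc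
      rw [eq_inv_smul_iff]
      exact hc
    · intro hx
      exact hcon t x ht hx
  have h6 := CharBase.card_isConj_mul_card_centralizer t
  rw [hcl, hzn.card, hF2] at h6
  have h7 : n * ((n + 1) * m + 1) ∣ (n + 1) * (n * e) := ⟨_, h6.symm⟩
  have h8 : (n + 1) * m + 1 ∣ (n + 1) * e := by
    have e1 : (n + 1) * (n * e) = n * ((n + 1) * e) := by ring
    rw [e1] at h7
    exact Nat.dvd_of_mul_dvd_mul_left hzn.npos h7
  have h9 : Nat.Coprime ((n + 1) * m + 1) (n + 1) := by
    rw [mul_comm (n + 1) m, Nat.coprime_mul_right_add_left]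
    exact Nat.coprime_one_left _
  have h10 := h9.dvd_of_dvd_mul_left h8
  have h11 := Nat.le_of_dvd (by omega) h10
  have h12 : 3 * m ≤ (n + 1) * m := Nat.mul_le_mul_right _ (by omega)
  omega

end Cfsg.Agent.S0880
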