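import Cfsg.Statements.S0882
import Mathlib
import Cfsg.Agent.H37.FNF

set_option autoImplicit false
open Cfsg

namespace Cfsg.Agent.S0882

/-- Let G be a finite simple Zassenhaus group on Ω with n = h + 1 points whose two-point stabilizer E has odd order e with 2e < h - 1. Then any two involutions of G are conjugate, and the number of involutions is e * (h + 1) if h is even and e * h if h is odd. -/
theorem result {G Ω : Type*} [Group G] [Finite G] [MulAction G Ω] [Fintype Ω] (hZ : Cfsg.IsZassenhausGroup G Ω) {a b : Ω} (hab : a ≠ b) [IsSimpleGroup G] (h e : ℕ) (hh : Fintype.card Ω = h + 1) (he : Nat.card ↥(MulAction.stabilizer G a ⊓ MulAction.stabilizer G b : Subgroup G) = e) (hodd : Odd e) (hlt : 2 * e < h - 1) : (∀ x y : G, orderOf x = 2 → orderOf y = 2 → IsConj x y) ∧ Nat.card {x : G // orderOf x = 2} = (if Even h then e * (h + 1) else e * h) := by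
  classical
  have hfin : Finite G := by infer_instance
  have hfG : Fintype G := Fintype.ofFinite G
  have hcardΩ : Nat.card Ω = h + 1 := by rw [Nat.card_eq_fintype_card, hh]
  have hz := H34.zgp_of hZ
  obtain ⟨s0, hs0, hs1⟩ := H37.ZT.stab2_ne_bot hZ hab
  obtain ⟨U, hU⟩ := H37.ZT.exists_isKer hz hab (fun hb => hs1 (by rw [hb] at hs0; exact hs0))
  obtain ⟨hzn, he2, hn2⟩ := H37.ZT.zn_of_simple hZ hab hU hcardΩ he hodd
  have hord : ∀ x : G, orderOf x = 2 ↔ x * x = 1 ∧ x ≠ 1 := by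
    intro x
    rw [orderOf_eq_prime_iff, sq]
  have hcongr : Nat.card {x : G // orderOf x = 2} = Nat.card (H37.ZT.Inv G) :=
    Nat.card_congr (Equiv.subtypeEquivRight hord)
  rw [hcongr]
  rcases Nat.even_or_odd h with h1 | h1
  · rw [if_pos h1]
    refine ⟨?_, ?_⟩
    · intro x y hx hy
      obtain ⟨g, hg⟩ := hzn.conj_eq_even h1 ⟨x, (hord x).1 hx⟩ ⟨y, (hord y).1 hy⟩
      exact isConj_iff.2 ⟨g, hg⟩
    · have hodd' : Odd (Nat.card Ω) := by rw [hcardΩ]; exact h1.add_one
      obtain ⟨-, -, o3⟩ := H37.ZT.odd_inv hz hodd' (by omega) hab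
      rw [o3, hzn.he, hcardΩ, mul_comm]
  · rw [if_neg (Nat.not_even_iff_odd.2 h1)]
    refine ⟨?_, ?_⟩
    · intro x y hx hy
      obtain ⟨g, hg⟩ := hzn.inv_conj h1 ⟨x, (hord x).1 hx⟩ ⟨y, (hord y).1 hy⟩
      exact isConj_iff.2 ⟨g, hg⟩
    · rw [hzn.card_inv_odd h1, mul_comm]

end Cfsg.Agent.S0882
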