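import Cfsg.Statements.S0883
import Mathlib
import Cfsg.Agent.H37.FNF

set_option autoImplicit false
open Cfsg

namespace Cfsg.Agent.S0883

/-- Let G be a finite simple Zassenhaus group on Ω with h + 1 points whose two-point stabilizer E has odd order e with 2e < h - 1, and let H be the subgroup of the stabilizer of a consisting of the identity and the elements fixing no point other than a (given here as a subgroup of the stabilizer of order one less than the number of points whose non-identity elements fix only a; it is the Frobenius kernel of the stabilizer). If a non-identity element u of H is a product of two involutions of G, then u is an involution. -/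
theorem result {G Ω : Type*} [Group G] [Finite G] [MulAction G Ω] [Fintype Ω] (hZ : Cfsg.IsZassenhausGroup G Ω) {a b : Ω} (hab : a ≠ b) [IsSimpleGroup G] (h e : ℕ) (hh : Fintype.card Ω = h + 1) (he : Nat.card ↥(MulAction.stabilizer G a ⊓ MulAction.stabilizer G b : Subgroup G) = e) (hodd : Odd e) (hlt : 2 * e < h - 1) (H : Subgroup G) (hHa : H ≤ MulAction.stabilizer G a) (hHcard : Nat.card H + 1 = Fintype.card Ω) (hHfix : ∀ u ∈ H, u ≠ 1 → ∀ c : Ω, u • c = c → c = a) (u : G) (hu : u ∈ H) (hu1 : u ≠ 1) (x y : G) (hx : orderOf x = 2) (hy : orderOf y = 2) (hxy : x * y = u) : orderOf u = 2 := by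
  classical
  have hfin : Finite G := by infer_instance
  have hfG : Fintype G := Fintype.ofFinite G
  have hcardΩ : Nat.card Ω = h + 1 := by rw [Nat.card_eq_fintype_card, hh]
  have hz := H34.zgp_of hZ
  have hU : H37.ZT.IsKer G a H := H37.ZT.isKer_of_card hz hab H hHa (by rw [hHcard, Nat.card_eq_fintype_card]) hHfix
  obtain ⟨hzn, he2, hn2⟩ := H37.ZT.zn_of_simple hZ hab hU hcardΩ he hodd
  have hord : ∀ x : G, orderOf x = 2 ↔ x * x = 1 ∧ x ≠ 1 := by
    intro x
    rw [orderOf_eq_prime_iff, sq]
  let p : {p : H37.ZT.Inv G × H37.ZT.Inv G // p.1.1 * p.2.1 = u} := ⟨(⟨x, (hord x).1 hx⟩, ⟨y, (hord y).1 hy⟩), hxy⟩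
  rcases Nat.even_or_odd h with h1 | h1
  · rw [hord]
    exact ⟨hzn.prod_inv he2 h1 hu hu1 p, hu1⟩
  · exfalso
    exact hzn.inv_free h1 p.1.1.2.1 p.1.1.2.2 a (hzn.inv_U_fix hu hu1 (H37.ZT.ip_inverts p))

end Cfsg.Agent.S0883
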