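import Cfsg.Statements.S0884
import Mathlib
import Cfsg.Agent.H37.FNG

set_option autoImplicit false
open Cfsg

namespace Cfsg.Agent.S0884

/-- Let G be a finite simple Zassenhaus group on Ω with h + 1 points whose two-point stabilizer E has odd order e with 2e < h - 1, and let H be the subgroup of the stabilizer of a consisting of the identity and the elements fixing no point other than a (given here as a subgroup of the stabilizer of order one less than the number of points whose non-identity elements fix only a; it is the Frobenius kernel of the stabilizer). Then at least e conjugacy classes of G contain no element of H. -/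
theorem result {G Ω : Type*} [Group G] [Finite G] [MulAction G Ω] [Fintype Ω] (hZ : Cfsg.IsZassenhausGroup G Ω) {a b : Ω} (hab : a ≠ b) [IsSimpleGroup G] (h e : ℕ) (hh : Fintype.card Ω = h + 1) (he : Nat.card ↥(MulAction.stabilizer G a ⊓ MulAction.stabilizer G b : Subgroup G) = e) (hodd : Odd e) (hlt : 2 * e < h - 1) (H : Subgroup G) (hHa : H ≤ MulAction.stabilizer G a) (hHcard : Nat.card H + 1 = Fintype.card Ω) (hHfix : ∀ u ∈ H, u ≠ 1 → ∀ c : Ω, u • c = c → c = a) : e ≤ Nat.card {C : ConjClasses G // ∀ g : G, ConjClasses.mk g = C → g ∉ H} := by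
  classical
  have hfin : Finite G := by infer_instance
  have hfG : Fintype G := Fintype.ofFinite G
  have hcardΩ : Nat.card Ω = h + 1 := by rw [Nat.card_eq_fintype_card, hh]
  have hz := H34.zgp_of hZ
  have hU : H37.ZT.IsKer G a H := H37.ZT.isKer_of_card hz hab H hHa (by rw [hHcard, Nat.card_eq_fintype_card]) hHfix
  obtain ⟨hzn, he2, hn2⟩ := H37.ZT.zn_of_simple hZ hab hU hcardΩ he hodd
  have key := hzn.card_classes
  rw [hzn.card] at key
  set N := Nat.card {C : ConjClasses G // ∀ g : G, ConjClasses.mk g = C → g ∉ H} with hN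
  have hpos : (0 : ℤ) < ((h : ℤ) + 1) * (h * e) := by
    have h1 : (0 : ℤ) < h := by exact_mod_cast (by omega : 0 < h)
    have h2 : (0 : ℤ) < e := by exact_mod_cast (by omega : 0 < e)
    positivity
  rcases Nat.even_or_odd h with h1 | h1
  · have k1 := hzn.ip_even he2 h1
    have k2 : (((h : ℤ) + 1) * (h * e)) * (2 * e) ≤ (((h : ℤ) + 1) * (h * e)) * (2 * N) := by
      push_cast at key
      have e1 : (((h : ℤ) + 1) * (h * e)) * (2 * e) = (((h : ℤ) + 1) * (h * e)) * (e + 1) + h * (h + 1) * ((e - 1) * e) := by ring
      rw [e1]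
      linarith
    have k3 := le_of_mul_le_mul_left k2 hpos
    omega
  · have k1 := hzn.ip_odd h1
    have hne : (0 : ℤ) < (h : ℤ) * e := by
      have h1 : (0 : ℤ) < h := by exact_mod_cast (by omega : 0 < h)
      have h2 : (0 : ℤ) < e := by exact_mod_cast (by omega : 0 < e)
      positivity
    have k2 : ((h : ℤ) * e) * (h * e - 1) ≤ ((h : ℤ) * e) * ((h + 1) * N) := by
      push_cast at key
      linarith
    have k3 := le_of_mul_le_mul_left k2 hne
    by_contra hcon
    push Not at hcon
    have k4 : ((h : ℤ) + 1) * N ≤ (h + 1) * (e - 1) := by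
      apply mul_le_mul_of_nonneg_left
      · omega
      · positivity
    have k5 : (h : ℤ) * e - 1 ≤ (h + 1) * (e - 1) := le_trans k3 k4
    have k6 : ((h : ℤ) + 1) * (e - 1) = h * e - h + e - 1 := by ring
    rw [k6] at k5
    have k7 : (h : ℤ) ≤ e := by linarith
    omega

end Cfsg.Agent.S0884
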