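import Cfsg.Statements.S0890
import Cfsg.Agent.Char.Berger

set_option autoImplicit false
open Cfsg

namespace Cfsg.Agent.S0890

/-- Let L ≤ H < G with L normal in G, H a maximal subgroup and G / L solvable. Let ϑ be an irreducible character of H whose restriction to L is irreducible and whose induction χ to G is irreducible. Then there is a normal subgroup M of G containing L such that the restriction of χ to M is not a natural-number multiple of a single irreducible character of M. -/
theorem result {G : Type*} [Group G] [Fintype G] (L H : Subgroup G) [L.Normal] (hLH : L ≤ H) (hmax : IsCoatom H) (hsolv : Group.IsSolvable (G ⧸ L)) (ϑ : H → ℂ) (hϑ : Cfsg.IsIrrCharacter H ϑ) (hϑL : Cfsg.IsIrrCharacter L (fun x : L => ϑ ⟨(x : G), hLH x.2⟩)) (hind : Cfsg.IsIrrCharacter G (Cfsg.indFun H ϑ)) : ∃ M : Subgroup G, M.Normal ∧ L ≤ M ∧ ¬ ∃ (φ : M → ℂ) (e : ℕ), Cfsg.IsIrrCharacter M φ ∧ (fun m : M => Cfsg.indFun H ϑ m) = (e : ℂ) • φ := by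
  classical
  by_contra hcon
  push Not at hcon
  have hLK : L ≤ H.normalCore := Subgroup.normal_le_normalCore.mpr hLH
  have hK : H.normalCore ≤ H := Subgroup.normalCore_le H
  have := Fintype.ofFinite H
  have hsolvK : Group.IsSolvable (G ⧸ H.normalCore) := by
    have hf : Function.Surjective (QuotientGroup.map L H.normalCore (MonoidHom.id G)
        (by simpa using hLK)) := by
      intro x
      obtain ⟨y, rfl⟩ := QuotientGroup.mk_surjective x
      exact ⟨(y : G ⧸ L), rfl⟩
    exact Group.isSolvable_of_surjective hf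
  let ι : L →* H.normalCore := Subgroup.inclusion hLK
  let ι' : H.normalCore →* H := Subgroup.inclusion hK
  have hθK : Cfsg.IsIrrCharacter H.normalCore (fun x : H.normalCore => ϑ ⟨(x : G), hK x.2⟩) :=
    Cfsg.Agent.Char.BG.isIrr_of_comp ι
      (Cfsg.Agent.CharBase.isCharacter_comp (Cfsg.Agent.CharBase.isCharacter_of_isIrr hϑ) ι') hϑL
  refine Cfsg.Agent.Char.BG.berger_core H.normalCore H hK hmax hsolvK
    (fun K hKn hKH => Subgroup.normal_le_normalCore.mpr hKH) hϑ hθK hind ?_
  intro M hM hLM
  obtain ⟨φ, e, hφ, he⟩ := hcon M hM (hLK.trans hLM)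
  exact ⟨φ, e, hφ, he⟩

end Cfsg.Agent.S0890
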