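import Cfsg.Statements.S0892
import Cfsg.Agent.H73.AltMult2
import Cfsg.Agent.Schur.Basic

set_option autoImplicit false
open Cfsg

namespace Cfsg.Agent.S0892

theorem card_dvd_two {S : Type*} [Group S] {P : Type*} [Group P] [Finite P] {τ : P →* S}
    (hτ : IsStemExtension τ) (h4 : Nat.card S ∣ 4) : Nat.card τ.ker ∣ 2 := by
  by_cases hc : IsCyclic S
  · rw [Schur.stem_cyclic hτ hc, Subgroup.card_bot]
    exact one_dvd 2
  · have hf : Finite S := Finite.of_surjective τ hτ.1
    have h4' : Nat.card S = 4 := by
      rcases (Nat.dvd_prime_pow Nat.prime_two (m := 2)).1 (by simpa using h4) with ⟨k, hk, hk'⟩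
      interval_cases k
      · exfalso
        apply hc
        have : Subsingleton S := (Nat.card_eq_one_iff_unique.1 (by simpa using hk')).1
        infer_instance
      · exfalso
        apply hc
        haveI : Fact (Nat.Prime 2) := ⟨Nat.prime_two⟩
        exact isCyclic_of_prime_card (p := 2) (by simpa using hk')
      · simpa using hk'
    haveI : Fact (Nat.Prime 2) := ⟨Nat.prime_two⟩
    obtain ⟨c, hco⟩ := exists_prime_orderOf_dvd_card' (G := S) 2 (by rw [h4']; norm_num)
    have hC2 : Nat.card (Subgroup.zpowers c) = 2 := by rw [Nat.card_zpowers, hco]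
    have hCi : (Subgroup.zpowers c).index = 2 := by
      have := (Subgroup.zpowers c).card_mul_index
      rw [hC2, h4'] at this
      omega
    haveI hCn : (Subgroup.zpowers c).Normal := Subgroup.normal_of_index_eq_two hCi
    obtain ⟨y, hy⟩ : ∃ y : S, y ∉ Subgroup.zpowers c := by
      by_contra hcon
      push Not at hcon
      have : Subgroup.zpowers c = ⊤ := by rw [eq_top_iff]; exact fun y _ => hcon y
      rw [this, Subgroup.index_top] at hCi
      omega
    have htop : Subgroup.zpowers c ⊔ Subgroup.zpowers y = ⊤ := by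
      have h1 : (Subgroup.zpowers c ⊔ Subgroup.zpowers y).index ∣ 2 := by
        rw [← hCi]
        exact Subgroup.index_dvd_of_le le_sup_left
      rcases (Nat.dvd_prime Nat.prime_two).1 h1 with h2 | h2
      · exact Subgroup.index_eq_one.1 h2
      · exfalso
        have h3 : Subgroup.zpowers c = Subgroup.zpowers c ⊔ Subgroup.zpowers y := by
          apply Subgroup.eq_of_le_of_card_ge le_sup_left
          have h4 := (Subgroup.zpowers c ⊔ Subgroup.zpowers y).card_mul_index
          have h5 := (Subgroup.zpowers c).card_mul_index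
          rw [h2] at h4
          rw [hCi] at h5
          omega
        apply hy
        rw [h3]
        exact (le_sup_right : Subgroup.zpowers y ≤ _) (Subgroup.mem_zpowers y)
    have h := Schur.stem_metacyclic_dvd hτ (Subgroup.zpowers c) inferInstance y htop
    rw [hC2] at h
    exact (Dvd.intro _ rfl).trans h

/-- Let n ≥ 4 with n ≠ 6 and n ≠ 7, and let Γ be a finite group with a subgroup Z contained in both the centre and the commutator subgroup of Γ such that Γ / Z is isomorphic to the alternating group on n letters. Then Z has order at most 2. -/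
theorem result (n : ℕ) (hn : 4 ≤ n) (h6 : n ≠ 6) (h7 : n ≠ 7) {Γ : Type*} [Group Γ] [Finite Γ] (Z : Subgroup Γ) [Z.Normal] (hZc : Z ≤ Subgroup.center Γ) (hZd : Z ≤ commutator Γ) (e : Γ ⧸ Z ≃* alternatingGroup (Fin n)) : Nat.card Z ≤ 2 := by
  set σ : Γ →* alternatingGroup (Fin n) := e.toMonoidHom.comp (QuotientGroup.mk' Z) with hσ
  have hσsurj : Function.Surjective σ := e.surjective.comp (QuotientGroup.mk'_surjective Z)
  have hker : σ.ker = Z := by
    ext g
    rw [MonoidHom.mem_ker, hσ]
    change e (QuotientGroup.mk' Z g) = 1 ↔ _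
    rw [map_eq_one_iff e e.injective]
    exact QuotientGroup.eq_one_iff g
  by_cases hn4 : n = 4
  · subst hn4
    have hst : IsStemExtension σ := ⟨hσsurj, by rwa [hker], by rwa [hker]⟩
    have h12 : Nat.card (alternatingGroup (Fin 4)) = 12 := by
      rw [nat_card_alternatingGroup, Nat.card_fin]; rfl
    rw [← hker]
    apply Nat.le_of_dvd (by norm_num)
    rw [Nat.dvd_iff_prime_pow_dvd_dvd]
    intro p k hp hpk
    haveI := Fact.mk hp
    by_cases hk : k = 0
    · subst hk; simp
    obtain ⟨P⟩ : Nonempty (Sylow p Γ) := inferInstance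
    have h1 := Schur.pow_dvd_card_ker_sylow hst.2.1 P hpk
    have h2 := Schur.stem_sylow hst P
    have h3 : Nat.card ((P : Subgroup Γ).map σ) ∣ 12 := by
      rw [← h12]; exact Subgroup.card_subgroup_dvd_card _
    obtain ⟨j, hj⟩ := IsPGroup.iff_card.1 (P.2.map σ)
    by_cases hp2 : p = 2
    · subst hp2
      refine h1.trans (card_dvd_two h2 ?_)
      rw [hj] at h3 ⊢
      have : j ≤ 2 := by
        by_contra hcon
        have : 2 ^ 3 ∣ 12 := (pow_dvd_pow 2 (by omega)).trans h3
        omega
      exact (pow_dvd_pow 2 this)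
    · exfalso
      have hcyc : IsCyclic ((P : Subgroup Γ).map σ) := by
        rw [hj] at h3
        rcases Nat.eq_zero_or_pos j with rfl | hj0
        · have : Subsingleton ((P : Subgroup Γ).map σ) := (Nat.card_eq_one_iff_unique.1 (by simpa using hj)).1
          infer_instance
        · have hp3 : p = 3 := by
            have h5 : p ∣ 2 ^ 2 * 3 := (dvd_pow_self p hj0.ne').trans h3
            rcases (Nat.Prime.dvd_mul hp).1 h5 with h6 | h6
            · exact absurd ((Nat.prime_dvd_prime_iff_eq hp Nat.prime_two).1 (hp.dvd_of_dvd_pow h6)) hp2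
            · exact (Nat.prime_dvd_prime_iff_eq hp Nat.prime_three).1 h6
          subst hp3
          have hj1 : j = 1 := by
            by_contra hcon
            have : 3 ^ 2 ∣ 12 := (pow_dvd_pow 3 (by omega)).trans h3
            omega
          subst hj1
          exact isCyclic_of_prime_card (p := 3) (by simpa using hj)
      rw [Schur.stem_cyclic h2 hcyc, Subgroup.card_bot] at h1
      have h5 := Nat.dvd_one.1 h1
      exact (Nat.one_lt_pow hk hp.one_lt).ne' h5
  · obtain ⟨m, rfl⟩ : ∃ m, n = m + 2 + 1 := ⟨n - 3, by omega⟩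
    let π : Γ →* Equiv.Perm (Fin (m + 2 + 1)) := (alternatingGroup (Fin (m + 2 + 1))).subtype.comp σ
    have hπk : π.ker = Z := by
      rw [← hker]
      ext g
      rw [MonoidHom.mem_ker, MonoidHom.mem_ker]
      change ((σ g : alternatingGroup (Fin (m + 2 + 1))) : Equiv.Perm (Fin (m + 2 + 1))) = 1 ↔ _
      rw [← Subgroup.coe_one (alternatingGroup (Fin (m + 2 + 1))), Subtype.coe_inj]
    rw [← hπk]
    refine H73.AltMult.card_le_two (m := m) (by omega) π (fun z hz => hZc ?_) (fun z hz => hZd ?_) ?_ ?_
    · rw [← hπk]; exact hz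
    · rw [← hπk]; exact hz
    · intro τ hτ
      obtain ⟨g, hg⟩ := hσsurj ⟨τ, hτ⟩
      exact ⟨g, congrArg Subtype.val hg⟩
    · intro g
      exact (σ g).2

end Cfsg.Agent.S0892
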