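import Cfsg.Statements.S0895
import Cfsg.Agent.S0158

set_option autoImplicit false
open Cfsg

namespace Cfsg.Agent.S0895

open Cfsg Cfsg.Agent.CharBase Cfsg.Agent.S0158
open scoped ComplexConjugate Matrix

/-- The Frobenius-Schur indicator is the sign of an invariant form. -/
theorem fs_eq_eps {G : Type*} [Group G] [Fintype G] {n : ℕ} (R : G →* Matrix (Fin n) (Fin n) ℂ)
    (hirr : ∀ M : Matrix (Fin n) (Fin n) ℂ, (∀ h, M * R h = R h * M) → ∃ c : ℂ, M = c • 1)
    (hker : ∀ M : Matrix (Fin n) (Fin n) ℂ, (∀ h, (R h)ᵀ * M * R h = M) → M ≠ 0 → IsUnit M)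
    (B : Matrix (Fin n) (Fin n) ℂ) (hB : ∀ h, (R h)ᵀ * B * R h = B) (hB0 : B ≠ 0) :
    ∃ ε : ℂ, Bᵀ = ε • B ∧ ε * ε = 1 ∧ (Nat.card G : ℂ)⁻¹ * ∑ s : G, (R (s * s)).trace = ε := by
  obtain ⟨ε, hε⟩ := invForm_unique R hirr hker B hB hB0 Bᵀ (transpose_invariant R B hB)
  have hε2 : ε * ε = 1 := by
    have h1 : B = (ε * ε) • B := by
      calc B = (Bᵀ)ᵀ := (Matrix.transpose_transpose B).symm
        _ = (ε • B)ᵀ := by rw [hε]
        _ = ε • Bᵀ := Matrix.transpose_smul _ _
        _ = (ε * ε) • B := by rw [hε, smul_smul]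
    have h2 : (1 - ε * ε) • B = 0 := by rw [sub_smul, one_smul, ← h1, sub_self]
    rcases smul_eq_zero.mp h2 with h3 | h3
    · exact (sub_eq_zero.mp h3).symm
    · exact absurd h3 hB0
  have hex : ∀ i j, ∃ c : ℂ, avgForm R (Matrix.single i j 1) = c • B := fun i j =>
    invForm_unique R hirr hker B hB hB0 _ (avgForm_invariant R _)
  choose l hl using hex
  have hl1 : ∀ i j, l j i = ε * l i j := by
    intro i j
    have h1 : avgForm R (Matrix.single j i 1) = (avgForm R (Matrix.single i j 1))ᵀ := by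
      rw [← avgForm_transpose, Matrix.transpose_single]
    rw [hl, hl, Matrix.transpose_smul, hε, smul_smul] at h1
    have h2 : (l j i - l i j * ε) • B = 0 := by rw [sub_smul, h1, sub_self]
    rcases smul_eq_zero.mp h2 with h3 | h3
    · rw [sub_eq_zero.mp h3]; ring
    · exact absurd h3 hB0
  have hsum : ∑ i, ∑ j, B i j * l i j = 1 := by
    have h1 := avgForm_of_invariant R B hB
    rw [avgForm_linear] at h1
    have h2 : (∑ i, ∑ j, B i j * l i j) • B = B := by
      refine Eq.trans ?_ h1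
      rw [Finset.sum_smul]
      refine Finset.sum_congr rfl (fun i _ => ?_)
      rw [Finset.sum_smul]
      refine Finset.sum_congr rfl (fun j _ => ?_)
      rw [hl, smul_smul]
    have h3 : ((∑ i, ∑ j, B i j * l i j) - 1) • B = 0 := by rw [sub_smul, h2, one_smul, sub_self]
    rcases smul_eq_zero.mp h3 with h4 | h4
    · exact sub_eq_zero.mp h4
    · exact absurd h4 hB0
  refine ⟨ε, hε, hε2, ?_⟩
  rw [fs_eq]
  have h1 : ∑ i : Fin n, ∑ j : Fin n, avgForm R (Matrix.single i j 1) j i =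
      ∑ j : Fin n, ∑ i : Fin n, ε * (B j i * l j i) := by
    rw [Finset.sum_comm]
    refine Finset.sum_congr rfl (fun j _ => Finset.sum_congr rfl (fun i _ => ?_))
    rw [hl, Matrix.smul_apply, smul_eq_mul, hl1 j i]; ring
  rw [h1]
  simp only [← Finset.mul_sum]
  rw [hsum, mul_one]

/-- Let χ be a real-valued irreducible character of a finite group G whose degree is an odd natural number. Then the average over s in G of χ (s * s) equals 1. -/
theorem result {G : Type*} [Group G] [Fintype G] (χ : G → ℂ) (hχ : Cfsg.IsIrrCharacter G χ) (hreal : ∀ g : G, (χ g).im = 0) (d : ℕ) (hd : χ 1 = d) (hodd : Odd d) : (Nat.card G : ℂ)⁻¹ * ∑ s : G, χ (s * s) = 1 := by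
  classical
  obtain ⟨n, ρ, hρ, hρχ⟩ := hχ
  subst hρχ
  have hnd : n = d := by
    have h1 : ρ.character 1 = (n : ℂ) := by rw [Representation.char_one, Module.finrank_fin_fun]
    rw [hd] at h1
    exact_mod_cast h1.symm
  subst hnd
  let b : Module.Basis (Fin n) ℂ (Fin n → ℂ) := Pi.basisFun ℂ (Fin n)
  obtain ⟨htr, hirr, hker⟩ := matrix_facts ρ b
  set R : G →* Matrix (Fin n) (Fin n) ℂ :=
    (LinearMap.toMatrixAlgEquiv b).toAlgHom.toMonoidHom.comp ρ with hRdef
  have hsum : ∑ s : G, ρ.character (s * s) = ∑ s : G, (R (s * s)).trace :=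
    Finset.sum_congr rfl (fun s _ => (htr _).symm)
  have hne : (Nat.card G : ℂ)⁻¹ * ∑ s : G, ρ.character (s * s) ≠ 0 := by
    intro h0
    obtain ⟨s, hs⟩ := (Cfsg.Agent.S0158.result ρ).2.mp h0
    exact hs (hreal s)
  rw [hsum] at hne ⊢
  by_cases hex : ∃ B : Matrix (Fin n) (Fin n) ℂ, (∀ h, (R h)ᵀ * B * R h = B) ∧ B ≠ 0
  · obtain ⟨B, hB, hB0⟩ := hex
    obtain ⟨ε, hε, hε2, hν⟩ := fs_eq_eps R hirr hker B hB hB0
    rw [hν]
    rcases mul_self_eq_one_iff.mp hε2 with h | h
    · exact h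
    · exfalso
      have h1 := congrArg Matrix.det hε
      rw [Matrix.det_transpose, Matrix.det_smul, Fintype.card_fin, h, hodd.neg_one_pow] at h1
      have h2 : B.det = 0 := by linear_combination (1 / 2) * h1
      have h3 := (Matrix.isUnit_iff_isUnit_det B).mp (hker B hB hB0)
      rw [h2] at h3
      exact not_isUnit_zero h3
  · exfalso
    push Not at hex
    have hz : ∀ M, avgForm R M = 0 := fun M => hex _ (avgForm_invariant R M)
    apply hne
    rw [fs_eq]
    exact Finset.sum_eq_zero (fun i _ => Finset.sum_eq_zero (fun j _ => by rw [hz]; rfl))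

end Cfsg.Agent.S0895
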