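import Cfsg.Statements.S0896
import Cfsg.Agent.Char.DadeExt

set_option autoImplicit false
open scoped ComplexConjugate
open Cfsg

namespace Cfsg.Agent.S0896

/-- Let N be a normal subgroup of the finite group G with the index of N a power of the prime p, and ϑ an irreducible character of N invariant under conjugation by G. Then there are a p-elementary subgroup E of G with E ⊔ N = ⊤ and an irreducible character φ of the subgroup E ⊓ N, invariant under conjugation by E, such that the inner product of the restriction of ϑ to E ⊓ N with φ is an integer not divisible by p. -/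
theorem result {G : Type*} [Group G] [Fintype G] (p : ℕ) (hp : p.Prime) (N : Subgroup G) [hN : N.Normal] (hind : ∃ k : ℕ, N.index = p ^ k) (ϑ : N → ℂ) (hϑ : Cfsg.IsIrrCharacter N ϑ) (hinv : ∀ (g : G) (n : N), ϑ ⟨g * n * g⁻¹, hN.conj_mem (n : G) n.2 g⟩ = ϑ n) : ∃ (E : Subgroup G) (φ : ↥(E ⊓ N) → ℂ), Cfsg.IsElementary p E ∧ E ⊔ N = ⊤ ∧ Cfsg.IsIrrCharacter ↥(E ⊓ N) φ ∧ (∀ (g : G) (hg : g ∈ E) (x : ↥(E ⊓ N)), φ ⟨g * x * g⁻¹, ⟨(E.mul_mem (E.mul_mem hg x.2.1) (E.inv_mem hg)), hN.conj_mem (x : G) x.2.2 g⟩⟩ = φ x) ∧ ∃ m : ℕ, ¬ p ∣ m ∧ (Nat.card ↥(E ⊓ N) : ℂ)⁻¹ * ∑ᶠ x : ↥(E ⊓ N), ϑ ⟨(x : G), x.2.2⟩ * conj (φ x) = (m : ℂ) := by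
  classical
  obtain ⟨E, hfin, φ, hE, hEN, hφ, hφinv, m, hm, hmφ⟩ := Cfsg.Agent.Char.DE.dade N hp hind hϑ
    (fun g => funext fun n => hinv g n)
  let e : ↥(E ⊓ N) →* ↥(N.subgroupOf E) :=
    { toFun := fun x => ⟨⟨(x : G), x.2.1⟩, Subgroup.mem_subgroupOf.mpr x.2.2⟩
      map_one' := rfl
      map_mul' := fun _ _ => rfl }
  have he : Function.Bijective e := by
    constructor
    · intro x y hxy
      apply Subtype.ext
      exact congrArg (fun z : ↥(N.subgroupOf E) => ((z : E) : G)) hxy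
    · intro y
      exact ⟨⟨((y : E) : G), (y : E).2, Subgroup.mem_subgroupOf.mp y.2⟩, rfl⟩
  refine ⟨E, fun x => φ (e x), hE, hEN, ?_, ?_, m, hm, ?_⟩
  · exact Cfsg.Agent.CharBase.isIrrCharacter_comp_surjective hφ e he.2
  · intro g hg x
    have h1 := congrFun (hφinv ⟨g, hg⟩) (e x)
    exact h1
  · have hfin2 := Fintype.ofFinite ↥(E ⊓ N)
    rw [finsum_eq_sum_of_fintype, ← hmφ]
    unfold Cfsg.classInner
    have hc : Nat.card ↥(E ⊓ N) = Nat.card ↥(N.subgroupOf E) := Nat.card_congr (Equiv.ofBijective e he)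
    rw [hc]
    congr 1
    exact (Equiv.sum_comp (Equiv.ofBijective e he)
      (fun y : ↥(N.subgroupOf E) => Cfsg.Agent.Char.DE.resE N E ϑ y * conj (φ y)))

end Cfsg.Agent.S0896
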