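import Cfsg.Statements.S0900
import Cfsg.Agent.Char.Gallagher

set_option autoImplicit false
open Cfsg

namespace Cfsg.Agent.S0900

open Cfsg.Agent.Char Cfsg.Agent.CharBase
open scoped ComplexConjugate

theorem aux {G : Type*} [Group G] [Fintype G] (N : Subgroup G) [hN : N.Normal] [Fintype N]
    (χ : G → ℂ) (hχ : Cfsg.IsIrrCharacter G χ) (ϑ : N → ℂ) (hϑ : Cfsg.IsIrrCharacter N ϑ)
    (hcon : Cfsg.classInner (fun n : N => χ n) ϑ ≠ 0) :
    ((∃ e : ℕ, (fun n : N => χ n) = (e : ℂ) • ϑ ∧ e ^ 2 = N.index) ↔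
      ((∀ g : G, g ∉ N → χ g = 0) ∧ ∀ g : G, cj N g ϑ = ϑ)) ∧
    ((∃ e : ℕ, (fun n : N => χ n) = (e : ℂ) • ϑ ∧ e ^ 2 = N.index) ↔
      ((∀ g : G, cj N g ϑ = ϑ) ∧ ∀ ψ : G → ℂ, Cfsg.IsIrrCharacter G ψ →
        Cfsg.classInner (Cfsg.indFun N ϑ) ψ ≠ 0 → ψ = χ)) := by
  classical
  have : Fintype (IrrCharacter G) := Fintype.ofFinite _
  have hχc := isCharacter_of_isIrr hχ
  have hcl := isClassFunction_of_isCharacter hχc
  have hϑc := isCharacter_of_isIrr hϑ
  have hres := isCharacter_restrict hχc N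
  obtain ⟨e, he⟩ := classInner_natCast hres hϑc
  have he0 : e ≠ 0 := by
    rintro rfl
    exact hcon (by simpa using he)
  -- (a) gives invariance, with the same `e`
  have ha : ∀ e' : ℕ, (fun n : N => χ n) = (e' : ℂ) • ϑ → e' = e := by
    intro e' h
    rw [h, classInner_smul_left, classInner_self_of_irr hϑ, mul_one] at he
    exact_mod_cast he
  have hainv : (fun n : N => χ n) = (e : ℂ) • ϑ → ∀ g : G, cj N g ϑ = ϑ := by
    intro h g
    have h1 := cj_restrict N g hcl
    rw [h, cj_smul] at h1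
    have hne : (e : ℂ) ≠ 0 := by exact_mod_cast he0
    funext n
    have h2 := congrFun h1 n
    simp only [Pi.smul_apply, smul_eq_mul] at h2
    exact mul_left_cancel₀ hne h2
  have hinva : (∀ g : G, cj N g ϑ = ϑ) → (fun n : N => χ n) = (e : ℂ) • ϑ := by
    intro h
    rw [← he]
    exact restrict_eq_smul_of_invariant N hχ hϑ hcon h
  have hcard : (Nat.card G : ℂ) = Nat.card N * N.index := by
    exact_mod_cast (N.card_mul_index).symm
  have hNne := card_ne_zero_complex N
  have hGne := cardG_ne_zero_complex G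
  -- sum of squares
  have hsplit : (Nat.card G : ℂ) = (∑ g ∈ Finset.univ.filter (fun g : G => g ∉ N),
      χ g * conj (χ g)) + ∑ n : N, χ n * conj (χ n) := by
    have h1 := classInner_self_of_irr hχ
    unfold classInner at h1
    have h2 : ∑ g : G, χ g * conj (χ g) = Nat.card G := by
      rw [inv_mul_eq_iff_eq_mul₀ hGne, mul_one] at h1
      exact h1
    rw [← h2, ← Finset.sum_filter_add_sum_filter_not Finset.univ (fun g : G => g ∉ N)]
    congr 1
    refine (Finset.sum_bij (fun (h : N) _ => (h : G)) ?_ ?_ ?_ ?_).symm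
    · intro a _; simp
    · intro a _ b _ hab; exact Subtype.ext hab
    · intro b hb
      have hb' := (Finset.mem_filter.mp hb).2
      rw [not_not] at hb'
      exact ⟨⟨b, hb'⟩, Finset.mem_univ _, rfl⟩
    · intro a _
      rfl
  have hsumN : (fun n : N => χ n) = (e : ℂ) • ϑ →
      ∑ n : N, χ n * conj (χ n) = Nat.card N * (e : ℂ) ^ 2 := by
    intro h
    have h1 : classInner (fun n : N => χ n) (fun n : N => χ n) = (e : ℂ) ^ 2 := by
      rw [h, classInner_smul_left, classInner_smul_right, classInner_self_of_irr hϑ]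
      simp [sq]
    rw [← h1]
    unfold classInner
    rw [← mul_assoc, mul_inv_cancel₀ hNne, one_mul]
  have hvan : (∑ g ∈ Finset.univ.filter (fun g : G => g ∉ N), χ g * conj (χ g)) = 0 ↔
      ∀ g : G, g ∉ N → χ g = 0 := by
    have h1 : (∑ g ∈ Finset.univ.filter (fun g : G => g ∉ N), χ g * conj (χ g))
        = ((∑ g ∈ Finset.univ.filter (fun g : G => g ∉ N), Complex.normSq (χ g) : ℝ) : ℂ) := by
      push_cast
      exact Finset.sum_congr rfl fun g _ => Complex.mul_conj (χ g)
    rw [h1, Complex.ofReal_eq_zero,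
      Finset.sum_eq_zero_iff_of_nonneg (fun g _ => Complex.normSq_nonneg _)]
    constructor
    · intro h g hg
      exact Complex.normSq_eq_zero.mp (h g (Finset.mem_filter.mpr ⟨Finset.mem_univ _, hg⟩))
    · intro h g hg
      rw [h g (Finset.mem_filter.mp hg).2, map_zero]
  constructor
  · constructor
    · rintro ⟨e', h1, h2⟩
      have h3 := ha e' h1
      subst h3
      refine ⟨?_, hainv h1⟩
      rw [← hvan]
      rw [hsumN h1, hcard, ← h2] at hsplit
      push_cast at hsplit
      linear_combination -hsplit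
    · rintro ⟨h1, h2⟩
      have h3 := hinva h2
      refine ⟨e, h3, ?_⟩
      rw [← hvan] at h1
      rw [hsumN h3, h1, hcard, zero_add] at hsplit
      have h4 := mul_left_cancel₀ hNne hsplit
      exact_mod_cast h4.symm
  · have hX : IsCharacter G (indFun N ϑ) := indFun_isCharacter N ϑ hϑc
    obtain ⟨m, hm, hsum⟩ := exists_mult_of_isCharacter hX
    have hmχ : m ⟨χ, hχ⟩ = e := by
      have h1 := hm ⟨χ, hχ⟩
      simp only at h1
      rw [frobenius_reciprocity N ϑ χ hcl, classInner_comm_of_isCharacter hϑc hres, he] at h1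
      exact_mod_cast h1.symm
    have hnorm : (∀ g : G, cj N g ϑ = ϑ) → ∑ β, m β * m β = N.index := by
      intro h
      have h1 := classInner_indFun_self_of_invariant N hϑ h
      rw [classInner_eq_sum (isClassFunction_of_isCharacter hX)] at h1
      have h2 : ∀ β : IrrCharacter G, classInner (indFun N ϑ) (β : G → ℂ)
          * classInner (β : G → ℂ) (indFun N ϑ) = ((m β * m β : ℕ) : ℂ) := by
        intro β
        rw [classInner_comm_of_isCharacter (irr_isCharacter β) hX, hm]
        push_cast; ring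
      simp_rw [h2] at h1
      exact_mod_cast h1
    constructor
    · rintro ⟨e', h1, h2⟩
      have h3 := ha e' h1
      subst h3
      have hinv := hainv h1
      refine ⟨hinv, ?_⟩
      intro ψ hψ hne
      by_contra hcon2
      have h4 := hnorm hinv
      have h5 : ({(⟨χ, hχ⟩ : IrrCharacter G), ⟨ψ, hψ⟩} : Finset (IrrCharacter G))
          ⊆ Finset.univ := Finset.subset_univ _
      have h6 := Finset.sum_le_sum_of_subset (f := fun ξ => m ξ * m ξ) h5
      rw [Finset.sum_pair (fun h => hcon2 (congrArg Subtype.val h).symm), h4, hmχ, ← h2] at h6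
      have h7 : m ⟨ψ, hψ⟩ ≠ 0 := by
        intro h
        apply hne
        have := hm ⟨ψ, hψ⟩
        rw [h] at this
        simpa using this
      have h8 := Nat.mul_pos (Nat.pos_of_ne_zero h7) (Nat.pos_of_ne_zero h7)
      rw [sq] at h6
      omega
    · rintro ⟨hinv, huniq⟩
      refine ⟨e, hinva hinv, ?_⟩
      rw [← hnorm hinv, Finset.sum_eq_single ⟨χ, hχ⟩]
      · rw [hmχ, sq]
      · intro ψ _ hne
        have h1 : m ψ = 0 := by
          by_contra h
          apply hne
          apply Subtype.ext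
          apply huniq ψ ψ.2
          rw [hm]
          exact_mod_cast h
        rw [h1, mul_zero]
      · intro h; exact absurd (Finset.mem_univ _) h

/-- Let N be a normal subgroup of the finite group G, χ an irreducible character of G and ϑ an irreducible character of N having nonzero inner product with the restriction of χ. Consider: (a) the restriction of χ to N is e • ϑ for a natural number e with e ^ 2 equal to the index of N; (b) χ vanishes outside N and ϑ is invariant under conjugation by G; (c) ϑ is invariant and every irreducible character of G having nonzero inner product with the function induced from ϑ equals χ. Then (a) ↔ (b) and (a) ↔ (c). -/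
theorem result {G : Type*} [Group G] [Fintype G] (N : Subgroup G) [hN : N.Normal] [Fintype N] (χ : G → ℂ) (hχ : Cfsg.IsIrrCharacter G χ) (ϑ : N → ℂ) (hϑ : Cfsg.IsIrrCharacter N ϑ) (hcon : Cfsg.classInner (fun n : N => χ n) ϑ ≠ 0) : ((∃ e : ℕ, (fun n : N => χ n) = (e : ℂ) • ϑ ∧ e ^ 2 = N.index) ↔ ((∀ g : G, g ∉ N → χ g = 0) ∧ ∀ (g : G) (n : N), ϑ ⟨g * n * g⁻¹, hN.conj_mem (n : G) n.2 g⟩ = ϑ n)) ∧ ((∃ e : ℕ, (fun n : N => χ n) = (e : ℂ) • ϑ ∧ e ^ 2 = N.index) ↔ (∀ (g : G) (n : N), ϑ ⟨g * n * g⁻¹, hN.conj_mem (n : G) n.2 g⟩ = ϑ n ∧ ∀ ψ : G → ℂ, Cfsg.IsIrrCharacter G ψ → Cfsg.classInner (Cfsg.indFun N ϑ) ψ ≠ 0 → ψ = χ)) := by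
  obtain ⟨h1, h2⟩ := aux N χ hχ ϑ hϑ hcon
  constructor
  · rw [h1]
    constructor
    · rintro ⟨a, b⟩
      exact ⟨a, fun g n => congrFun (b g) n⟩
    · rintro ⟨a, b⟩
      exact ⟨a, fun g => funext fun n => b g n⟩
  · rw [h2]
    constructor
    · rintro ⟨a, b⟩
      exact fun g n => ⟨congrFun (a g) n, b⟩
    · intro h
      exact ⟨fun g => funext fun n => (h g n).1, (h 1 1).2⟩

end Cfsg.Agent.S0900
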