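import Cfsg.Statements.S0901
import Cfsg.Agent.Char.ModP

set_option autoImplicit false
open Cfsg

namespace Cfsg.Agent.S0901

/-- Let M be a maximal ideal of the ring of algebraic integers containing the prime p, and let U be the set of complex roots of unity of order prime to p. Then reduction modulo M is injective on U, and every algebraic integer not in M is congruent modulo M to an element of U (so U maps bijectively onto the nonzero residues). -/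
theorem result (p : ℕ) [Fact p.Prime] (M : Ideal Cfsg.AlgInt) (hM : Cfsg.IsPModular p M) : (∀ ε₁ ε₂ : Cfsg.AlgInt, (∃ m : ℕ, ¬ p ∣ m ∧ (ε₁ : ℂ) ^ m = 1) → (∃ m : ℕ, ¬ p ∣ m ∧ (ε₂ : ℂ) ^ m = 1) → ε₁ - ε₂ ∈ M → ε₁ = ε₂) ∧ (∀ a : Cfsg.AlgInt, a ∉ M → ∃ ε : Cfsg.AlgInt, (∃ m : ℕ, ¬ p ∣ m ∧ (ε : ℂ) ^ m = 1) ∧ a - ε ∈ M) := by
  have hMp : M.IsPrime := hM.2.1.isPrime
  refine ⟨?_, fun a ha => Cfsg.Agent.Char.MP.exists_root_congr hM a ha⟩
  rintro ε₁ ε₂ ⟨m₁, hm₁, h₁⟩ ⟨m₂, hm₂, h₂⟩ hmem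
  apply Subtype.ext
  have hm : ¬ p ∣ m₁ * m₂ := by
    intro h
    rcases (Nat.Prime.dvd_mul hM.1).mp h with h | h
    · exact hm₁ h
    · exact hm₂ h
  refine Cfsg.Agent.Blk.eq_of_mli_sub (M := M) hM hm (by rw [pow_mul, h₁, one_pow])
    (by rw [mul_comm, pow_mul, h₂, one_pow]) ?_
  have h3 := (Cfsg.Agent.Blk.mli_coe_iff (M := M) (ε₁ - ε₂)).mpr hmem
  simpa using h3

end Cfsg.Agent.S0901
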