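import Cfsg.Statements.S0902
import Cfsg.Agent.Char.ModP
import Cfsg.Agent.Blk.Osima

set_option autoImplicit false
open Cfsg

namespace Cfsg.Agent.S0902

/-- If two irreducible characters of a finite group lie in the same block relative to one maximal ideal M of the algebraic integers containing the prime p, then at every element the difference of their central characters is an algebraic integer lying in every maximal ideal containing p; in particular they lie in the same block relative to any such ideal. -/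
theorem result {G : Type*} [Group G] [Finite G] (p : ℕ) [Fact p.Prime] (M : Ideal Cfsg.AlgInt) (hM : Cfsg.IsPModular p M) (χ ψ : Cfsg.IrrCharacter G) (h : Cfsg.SameBlock M (χ : G → ℂ) (ψ : G → ℂ)) (M' : Ideal Cfsg.AlgInt) (hM' : Cfsg.IsPModular p M') (g : G) : ∃ r : Cfsg.AlgInt, r ∈ M' ∧ (r : ℂ) = Cfsg.centralChar (χ : G → ℂ) g - Cfsg.centralChar (ψ : G → ℂ) g := by
  have hMp : M.IsPrime := hM.2.1.isPrime
  have := Fintype.ofFinite G
  have hχc := Cfsg.Agent.CharBase.irr_isCharacter χ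
  have hψc := Cfsg.Agent.CharBase.irr_isCharacter ψ
  have hn : Nat.card G ≠ 0 := Nat.card_pos.ne'
  obtain ⟨k, σ, hk, hσ, hiff⟩ := Cfsg.Agent.Char.MP.exists_aut_of_isPModular hM hM' hn
  have hint : ∀ x : G, IsIntegral ℤ (Cfsg.centralChar (χ : G → ℂ) x - Cfsg.centralChar (ψ : G → ℂ) x) :=
    fun x => (Cfsg.Agent.Blk.isIntegral_centralChar' χ x).sub (Cfsg.Agent.Blk.isIntegral_centralChar' ψ x)
  refine ⟨⟨_, hint g⟩, ?_, rfl⟩
  rw [hiff ⟨_, hint g⟩ ⟨_, hint (g ^ k)⟩ ?_ ?_]
  · have h1 := h (g ^ k)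
    exact (Cfsg.Agent.Blk.mli_coe_iff (M := M) ⟨_, hint (g ^ k)⟩).mp h1
  · exact sub_mem (Cfsg.Agent.Char.MP.centralChar_mem_subfield hχc g dvd_rfl)
      (Cfsg.Agent.Char.MP.centralChar_mem_subfield hψc g dvd_rfl)
  · change Cfsg.centralChar (χ : G → ℂ) (g ^ k) - Cfsg.centralChar (ψ : G → ℂ) (g ^ k) =
      σ (Cfsg.centralChar (χ : G → ℂ) g - Cfsg.centralChar (ψ : G → ℂ) g)
    rw [map_sub, Cfsg.Agent.Char.MP.map_centralChar hχc g (orderOf_dvd_natCard g) hk σ hσ,
      Cfsg.Agent.Char.MP.map_centralChar hψc g (orderOf_dvd_natCard g) hk σ hσ]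

end Cfsg.Agent.S0902
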