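import Cfsg.Statements.S0903
import Mathlib.GroupTheory.PGroup

set_option autoImplicit false
open Cfsg

namespace Cfsg.Agent.S0903

/-- Let P be a p-subgroup of the finite group G, let c centralize P and let g, h ∈ G. The number of pairs (x, y) with x conjugate to g, y conjugate to h and x * y = c is congruent modulo p to the number of such pairs in which x and y both centralize P. (This is why the Brauer map on class sums is multiplicative.) -/
theorem result {G : Type*} [Group G] [Finite G] (p : ℕ) [Fact p.Prime] (P : Subgroup G) (hP : IsPGroup p P) (c : G) (hc : c ∈ Subgroup.centralizer (P : Set G)) (g h : G) : Nat.card {xy : G × G // IsConj g xy.1 ∧ IsConj h xy.2 ∧ xy.1 * xy.2 = c} ≡ Nat.card {xy : G × G // IsConj g xy.1 ∧ IsConj h xy.2 ∧ xy.1 * xy.2 = c ∧ xy.1 ∈ Subgroup.centralizer (P : Set G) ∧ xy.2 ∈ Subgroup.centralizer (P : Set G)} [MOD p] := by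
  classical
  let X := {xy : G × G // IsConj g xy.1 ∧ IsConj h xy.2 ∧ xy.1 * xy.2 = c}
  have hcc : ∀ u ∈ P, u * c = c * u := fun u hu => (Subgroup.mem_centralizer_iff.mp hc) u hu
  let act : MulAction P X :=
    { smul := fun u d => ⟨((u : G) * d.1.1 * (u : G)⁻¹, (u : G) * d.1.2 * (u : G)⁻¹), by
        obtain ⟨⟨x, y⟩, hx, hy, hxy⟩ := d
        refine ⟨hx.trans (isConj_iff.mpr ⟨u, rfl⟩), hy.trans (isConj_iff.mpr ⟨u, rfl⟩), ?_⟩
        simp only at hxy ⊢
        have h1 : (u : G) * x * (u : G)⁻¹ * ((u : G) * y * (u : G)⁻¹)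
            = (u : G) * (x * y) * (u : G)⁻¹ := by group
        rw [h1, hxy, hcc u u.2]
        group⟩
      one_smul := fun d => by
        apply Subtype.ext
        change (((1 : P) : G) * d.1.1 * ((1 : P) : G)⁻¹, ((1 : P) : G) * d.1.2 * ((1 : P) : G)⁻¹)
          = d.1
        simp
      mul_smul := fun u v d => by
        apply Subtype.ext
        change (((u * v : P) : G) * d.1.1 * ((u * v : P) : G)⁻¹,
            ((u * v : P) : G) * d.1.2 * ((u * v : P) : G)⁻¹)
          = ((u : G) * ((v : G) * d.1.1 * (v : G)⁻¹) * (u : G)⁻¹,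
            (u : G) * ((v : G) * d.1.2 * (v : G)⁻¹) * (u : G)⁻¹)
        push_cast
        ext <;> simp only <;> group }
  have hsmul : ∀ (u : P) (d : X), (u • d : X).1
      = ((u : G) * d.1.1 * (u : G)⁻¹, (u : G) * d.1.2 * (u : G)⁻¹) := fun u d => rfl
  have key := hP.card_modEq_card_fixedPoints X
  refine key.trans ?_
  have hce : Nat.card (MulAction.fixedPoints P X) = Nat.card {xy : G × G // IsConj g xy.1 ∧ IsConj h xy.2 ∧ xy.1 * xy.2 = c ∧ xy.1 ∈ Subgroup.centralizer (P : Set G) ∧ xy.2 ∈ Subgroup.centralizer (P : Set G)} := ?_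
  · rw [hce]
  refine Nat.card_congr
    { toFun := fun d => ⟨d.1.1, d.1.2.1, d.1.2.2.1, d.1.2.2.2, ?_, ?_⟩
      invFun := fun d => ⟨⟨d.1, d.2.1, d.2.2.1, d.2.2.2.1⟩, ?_⟩
      left_inv := fun d => rfl
      right_inv := fun d => rfl }
  · rw [Subgroup.mem_centralizer_iff]
    intro u hu
    have h1 := d.2 ⟨u, hu⟩
    have h2 := hsmul ⟨u, hu⟩ d.1
    rw [h1] at h2
    have h3 := congrArg Prod.fst h2
    simp only at h3
    rw [eq_mul_inv_iff_mul_eq] at h3
    exact h3.symm
  · rw [Subgroup.mem_centralizer_iff]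
    intro u hu
    have h1 := d.2 ⟨u, hu⟩
    have h2 := hsmul ⟨u, hu⟩ d.1
    rw [h1] at h2
    have h3 := congrArg Prod.snd h2
    simp only at h3
    rw [eq_mul_inv_iff_mul_eq] at h3
    exact h3.symm
  · intro u
    apply Subtype.ext
    rw [hsmul]
    obtain ⟨⟨x, y⟩, hx, hy, hxy, hxP, hyP⟩ := d
    simp only
    have h1 := (Subgroup.mem_centralizer_iff.mp hxP) u u.2
    have h2 := (Subgroup.mem_centralizer_iff.mp hyP) u u.2
    ext
    · simp only [h1]; group
    · simp only [h2]; group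

end Cfsg.Agent.S0903
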