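import Cfsg.Statements.S0905
import Cfsg.Agent.Blk.Normal
import Cfsg.Agent.Solv.Core

set_option autoImplicit false
open Cfsg

namespace Cfsg.Agent.S0905

open MonoidAlgebra Cfsg.Agent.Blk

/-- A central element killed by the Brauer map of a normal `p`-subgroup is nilpotent. -/
theorem nilp_of_br {G : Type*} [Group G] [Finite G] {F : Type*} [Field F] {p : ℕ} [Fact p.Prime] [CharP F p]
    (P : Subgroup G) [hPn : P.Normal] (hP : IsPGroup p P) {z : MonoidAlgebra F G}
    (hz : ∀ x, z * x = x * z) (hbr : br P z = 0) : IsNilpotent z := by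
  classical
  have := Fintype.ofFinite G
  have hfd : FiniteDimensional F (MonoidAlgebra F G) := inferInstance
  let T : MonoidAlgebra F G →ₗ[F] MonoidAlgebra F G := LinearMap.mulLeft F z
  obtain ⟨N, hN⟩ := Filter.eventually_atTop.mp (Module.End.eventually_disjoint_ker_pow_range_pow T)
  have hdis := hN (N + 1) (Nat.le_succ N)
  refine ⟨N + 1, ?_⟩
  by_contra hne
  have hpow : ∀ n : ℕ, ∀ x, (T ^ n) x = z ^ n * x := by
    intro n x
    rw [LinearMap.pow_mulLeft]
    rfl
  let _ : DistribMulAction P (MonoidAlgebra F G) :=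
    { smul := fun u x => MonoidAlgebra.single (u : G) 1 * x
      one_smul := fun x => by
        change MonoidAlgebra.single ((1 : P) : G) (1 : F) * x = x
        rw [Subgroup.coe_one, ← one_def, one_mul]
      mul_smul := fun u v x => by
        change MonoidAlgebra.single ((u * v : P) : G) (1 : F) * x =
          MonoidAlgebra.single (u : G) (1 : F) * (MonoidAlgebra.single (v : G) (1 : F) * x)
        rw [← mul_assoc, single_mul_single, mul_one, Subgroup.coe_mul]
      smul_zero := fun u => mul_zero _
      smul_add := fun u x y => mul_add _ _ _ }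
  have hsmul : ∀ (u : P) (x : MonoidAlgebra F G), u • x = MonoidAlgebra.single (u : G) 1 * x :=
    fun u x => rfl
  obtain ⟨w, hw, hw0, hwfix⟩ := exists_fixed_in_closure (p := p) (V := MonoidAlgebra F G) (by
    intro v
    rw [← Nat.cast_smul_eq_nsmul F, CharP.cast_eq_zero F p, zero_smul]) hP hne
  have hwR : w ∈ LinearMap.range (T ^ (N + 1)) := by
    clear hw0 hwfix
    induction hw using AddSubgroup.closure_induction with
    | mem x hx =>
      obtain ⟨u, rfl⟩ := hx
      refine ⟨MonoidAlgebra.single (u : G) 1, ?_⟩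
      rw [hpow]
      change z ^ (N + 1) * MonoidAlgebra.single (u : G) (1 : F) = MonoidAlgebra.single (u : G) (1 : F) * z ^ (N + 1)
      have hc : Commute z (MonoidAlgebra.single (u : G) (1 : F)) := hz _
      exact (hc.pow_left (N + 1)).eq
    | zero => exact Submodule.zero_mem _
    | add x y _ _ hx hy => exact Submodule.add_mem _ hx hy
    | neg x _ hx => exact Submodule.neg_mem _ hx
  have hwc : ∀ u ∈ P, ∀ g, w.coeff (u * g) = w.coeff g := by
    intro u hu g
    have h1 := hwfix ⟨u, hu⟩⁻¹
    rw [hsmul] at h1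
    have h2 := congrArg (fun y : MonoidAlgebra F G => y.coeff g) h1
    simp only [coeff_single_mul_apply, one_mul] at h2
    simpa using h2
  have hfix : Fixed P z := by
    intro u _
    have h1 := hz (MonoidAlgebra.single (u : G) (1 : F))
    simp only [Blk.cj]
    rw [← h1, mul_assoc, single_mul_single, mul_inv_cancel, mul_one, ← one_def, mul_one]
  have h1 := mul_eq_br_mul (H := ⊤) (by rw [Subgroup.normalizer_eq_top]) hP (supp_top z) hfix hwc
  rw [hbr, zero_mul] at h1
  have h2 : w ∈ LinearMap.ker (T ^ (N + 1)) := by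
    rw [LinearMap.mem_ker, hpow, pow_succ, mul_assoc, h1, mul_zero]
  exact hw0 (Submodule.disjoint_def.mp hdis w h2 hwR)

/-- Let F be a field of characteristic p and let g be an element of the finite group G no conjugate of which centralizes O_p(G). Then the class sum of g is a nilpotent element of the group algebra F[G]. -/
theorem result {G : Type*} [Group G] [Finite G] (p : ℕ) [Fact p.Prime] (F : Type*) [Field F] [CharP F p] (g : G) (hg : ∀ x : G, IsConj g x → x ∉ Subgroup.centralizer (Cfsg.pCore p G : Set G)) : IsNilpotent (∑ᶠ x ∈ ConjClasses.carrier (ConjClasses.mk g), MonoidAlgebra.single x (1 : F) : MonoidAlgebra F G) := by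
  classical
  have := Fintype.ofFinite G
  obtain ⟨z, hz⟩ : ∃ z : MonoidAlgebra F G,
      z = ∑ᶠ x ∈ ConjClasses.carrier (ConjClasses.mk g), MonoidAlgebra.single x (1 : F) := ⟨_, rfl⟩
  rw [← hz]
  have hcoeff : ∀ y : G, z.coeff y = if IsConj g y then 1 else 0 := by
    intro y
    rw [hz, finsum_mem_eq_finite_toFinset_sum _ (Set.toFinite _)]
    rw [MonoidAlgebra.coeff_sum, Finsupp.finsetSum_apply]
    simp only [MonoidAlgebra.coeff_single, Finsupp.single_apply]
    rw [Finset.sum_ite_eq']
    congr 1
    rw [Set.Finite.mem_toFinset, ConjClasses.mem_carrier_iff_mk_eq, ConjClasses.mk_eq_mk_iff_isConj,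
      isConj_comm]
  have hfix : Fixed ⊤ z := by
    rw [fixed_iff]
    intro u _ y
    rw [hcoeff, hcoeff]
    congr 1
    have h1 : IsConj y (u * y * u⁻¹) := isConj_iff.mpr ⟨u, rfl⟩
    apply propext
    exact ⟨fun h => h.trans h1.symm, fun h => h.trans h1⟩
  have hcomm : ∀ x, z * x = x * z := fun x => InZ.comm (H := ⊤) ⟨supp_top z, hfix⟩ (supp_top x)
  have hpn : (Cfsg.pCore p G).Normal := Cfsg.Agent.Solv.pCore_normal p
  have hpp : IsPGroup p (Cfsg.pCore p G) := Cfsg.Agent.Solv.pCore_isPGroup p
  refine nilp_of_br (Cfsg.pCore p G) hpp hcomm ?_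
  apply ga_ext
  intro y
  by_cases hy : y ∈ Subgroup.centralizer (Cfsg.pCore p G : Set G)
  · rw [br_coeff_of_mem _ hy, hcoeff, if_neg (fun h => hg y h hy)]
    rfl
  · rw [br_coeff_of_notMem _ hy]
    rfl
end Cfsg.Agent.S0905
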