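import Cfsg.Statements.S0911
import Cfsg.Agent.Blk.Dict

set_option autoImplicit false
open Cfsg

open Cfsg.Agent.Blk Cfsg.Agent.CharBase

namespace Cfsg.Agent.S0911

/-- The min–max Theorem for defect classes. Let B be a block of the finite group G relative to a maximal ideal M of the algebraic integers containing the prime p, let g represent a defect class of B and let D be a Sylow p-subgroup of the centralizer of g (viewed in G). For any h: (a) if the idempotent coefficient of B at h is a local integer outside the local ideal, then some conjugate of D contains a Sylow p-subgroup of the centralizer of h; (b) if the central character of some member of B at h is outside the local ideal, then some conjugate of D is contained in a Sylow p-subgroup of the centralizer of h. -/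
theorem result {G : Type*} [Group G] [Finite G] (p : ℕ) [Fact p.Prime] (M : Ideal Cfsg.AlgInt) (hM : Cfsg.IsPModular p M) (B : Set (Cfsg.IrrCharacter G)) (hB : Cfsg.IsPBlock M B) (g : G) (hg : Cfsg.IsDefectClass M B g) (D : Sylow p (Subgroup.centralizer ({g} : Set G))) (h : G) : (Cfsg.MemLocalRing M (Cfsg.blockCoeff B h) → ¬ Cfsg.MemLocalIdeal M (Cfsg.blockCoeff B h) → ∃ (x : G) (Q : Sylow p (Subgroup.centralizer ({h} : Set G))), (Q : Subgroup (Subgroup.centralizer ({h} : Set G))).map (Subgroup.centralizer ({h} : Set G)).subtype ≤ ((D : Subgroup (Subgroup.centralizer ({g} : Set G))).map (Subgroup.centralizer ({g} : Set G)).subtype).map (MulAut.conj x).toMonoidHom) ∧ ((∃ χ ∈ B, ¬ Cfsg.MemLocalIdeal M (Cfsg.centralChar (χ : G → ℂ) h)) → ∃ (x : G) (Q : Sylow p (Subgroup.centralizer ({h} : Set G))), ((D : Subgroup (Subgroup.centralizer ({g} : Set G))).map (Subgroup.centralizer ({g} : Set G)).subtype).map (MulAut.conj x).toMonoidHom ≤ (Q : Subgroup (Subgroup.centralizer ({h} : Set G))).map (Subgroup.centralizer ({h} : Set G)).subtype) := by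
  have := isPrime_of_isPModular hM
  have := charP_kM hM
  have := Fintype.ofFinite G
  have hdef : IsDef p ⊤ (eB M B) ((D : Subgroup (Subgroup.centralizer ({g} : Set G))).map
      (Subgroup.centralizer ({g} : Set G)).subtype) :=
    (isDefectGroup_iff hM hB _).1 ⟨g, hg, D, rfl⟩
  have hblk := isBlk_eB hB
  constructor
  · intro h1 h2
    obtain ⟨Q⟩ : Nonempty (Sylow p (Subgroup.centralizer ({h} : Set G))) := inferInstance
    have h3 : (eB M B).coeff h ≠ 0 := by
      rw [eB, redc_coeff, Ne, rd_eq_zero_iff h1]; exact h2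
    have h4 := br_ne_zero_of_coeff h3 (Subgroup.map_subtype_le (Q : Subgroup _))
    obtain ⟨x, -, hx⟩ := hdef.le_of_br_ne le_top (Q.2.map _) h4
    exact ⟨x, Q, hx⟩
  · rintro ⟨χ, hχ, h1⟩
    obtain ⟨Q⟩ : Nonempty (Sylow p (Subgroup.centralizer ({h} : Set G))) := inferInstance
    have h2 : ¬ IsNilpotent (clsSum ⊤ h * eB M B) := by
      rw [isNilpotent_mul_eB_iff hB hχ (fixed_clsSum ⊤ h), lam_clsSum,
        rd_eq_zero_iff (mlr_centralChar χ h)]
      exact h1
    obtain ⟨a, ha1, ha2, ha3⟩ := hblk.exists_trace (p := p) (Subgroup.mem_top h) h2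
      (D := (Q : Subgroup (Subgroup.centralizer ({h} : Set G))).map
        (Subgroup.centralizer ({h} : Set G)).subtype)
      (by rw [inf_top_eq]; exact Subgroup.map_subtype_le _)
      (by rw [inf_top_eq]; exact relIndex_sylow_map Q)
    obtain ⟨u, -, hu⟩ := exists_le_of_trace le_top hdef.isPGroup le_top ha2
      (by rw [ha3]; exact hdef.br_ne)
    refine ⟨u⁻¹, Q, ?_⟩
    rwa [← le_map_conj_iff]

end Cfsg.Agent.S0911
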