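import Cfsg.Statements.S0916
import Cfsg.Agent.BlkInd.FirstMain2

set_option autoImplicit false
open Cfsg

namespace Cfsg.Agent.S0916

theorem aux {G : Type*} [Group G] [Finite G] {p : ℕ} [Fact p.Prime] {P : Subgroup G} (hP : IsPGroup p P)
    {c : G} (hc : c ∈ Subgroup.centralizer (P : Set G)) (K : Subgroup G)
    (hK : K = Subgroup.centralizer ({c} : Set G) ⊓ Subgroup.normalizer (P : Set G))
    (S : Sylow p K) (hS : (S : Subgroup K).map K.subtype = P) : Cfsg.Agent.BlkInd.SylC p c P := by
  apply Cfsg.Agent.BlkInd.sylC_of_normalizer hP hc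
  intro E hE hEN hcE hPE
  have hEK : E ≤ K := by
    rw [hK]
    exact le_inf (Cfsg.Agent.BlkInd.le_centralizer_singleton_of_mem hcE) hEN
  have h1 : (S : Subgroup K) ≤ E.subgroupOf K := by
    intro x hx
    rw [Subgroup.mem_subgroupOf]
    apply hPE
    rw [← hS]
    exact ⟨x, hx, rfl⟩
  have h2 := S.3 (hE.comap_subtype (K := K)) h1
  have h3 := congrArg (Subgroup.map K.subtype) h2
  have h4 : Subgroup.map K.subtype (Subgroup.comap K.subtype E) = E :=
    Subgroup.map_subgroupOf_eq_of_le hEK
  rw [← h4, h3]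
  exact hS.symm


/-- Let P be a p-subgroup of the finite group G, C its centralizer and N its normalizer. Say that a conjugacy class (of G, or of N) has defect group P when P is a Sylow p-subgroup of the centralizer (in G, respectively in N) of some element of the class. Then: (i) if the class of g in G has defect group P, the elements of that class lying in C form a single N-class, again with defect group P; (ii) every N-class with defect group P arises this way from exactly one G-class with defect group P. -/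
theorem result {G : Type*} [Group G] [Finite G] (p : ℕ) [Fact p.Prime] (P : Subgroup G) (hP : IsPGroup p P) : (∀ g : G, (∃ S : Sylow p (Subgroup.centralizer ({g} : Set G)), (S : Subgroup (Subgroup.centralizer ({g} : Set G))).map (Subgroup.centralizer ({g} : Set G)).subtype = P) → (∃ c : G, IsConj g c ∧ c ∈ Subgroup.centralizer (P : Set G)) ∧ (∀ c₁ c₂ : G, IsConj g c₁ → IsConj g c₂ → c₁ ∈ Subgroup.centralizer (P : Set G) → c₂ ∈ Subgroup.centralizer (P : Set G) → ∃ n ∈ Subgroup.normalizer (P : Set G), n * c₁ * n⁻¹ = c₂)) ∧ (∀ c : G, c ∈ Subgroup.centralizer (P : Set G) → (∃ S : Sylow p (Subgroup.centralizer ({c} : Set G) ⊓ Subgroup.normalizer (P : Set G) : Subgroup G), (S : Subgroup ↥(Subgroup.centralizer ({c} : Set G) ⊓ Subgroup.normalizer (P : Set G))).map (Subgroup.centralizer ({c} : Set G) ⊓ Subgroup.normalizer (P : Set G)).subtype = P) → ∃ S : Sylow p (Subgroup.centralizer ({c} : Set G)), (S : Subgroup (Subgroup.centralizer ({c} : Set G))).map (Subgroup.centralizer ({c} : Set G)).subtype = P) := by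
  constructor
  · rintro g ⟨S, hS⟩
    have hg : Cfsg.Agent.BlkInd.SylC p g P := ⟨S, hS.symm⟩
    refine ⟨⟨g, IsConj.refl g, hg.mem_centralizer⟩, fun c₁ c₂ h1 h2 hc1 hc2 => ?_⟩
    exact Cfsg.Agent.BlkInd.exists_normalizer_conj (hg.of_isConj h1 hc1) (hg.of_isConj h2 hc2) (h1.symm.trans h2)
  · rintro c hc ⟨S, hS⟩
    obtain ⟨S', hS'⟩ := aux hP hc _ rfl S hS
    exact ⟨S', hS'.symm⟩

end Cfsg.Agent.S0916
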