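import Cfsg.Statements.S0940
import Cfsg.Agent.BlkInd.Kuls

set_option autoImplicit false
open Cfsg

namespace Cfsg.Agent.S0940

/-- Let G be a finite group and M a maximal ideal of the algebraic integers containing the prime p. For every p-regular g, the idempotent coefficient of the principal block at g (the inverse of the group order times the sum over χ in the principal block of χ 1 * conj (χ g)) is congruent modulo the local ideal at M to N / R, where N is the number of pairs (x, y) with x of p-power order, y of order prime to p and x * y = g, and R is the number of elements of G of order prime to p. -/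
theorem result {G : Type*} [Group G] [Finite G] (p : ℕ) [Fact p.Prime] (M : Ideal Cfsg.AlgInt) (hM : Cfsg.IsPModular p M) (g : G) (hg : ¬ p ∣ orderOf g) : Cfsg.MemLocalIdeal M (Cfsg.blockCoeff (Cfsg.principalBlock M G) g - (Nat.card {xy : G × G // (∃ k : ℕ, orderOf xy.1 = p ^ k) ∧ ¬ p ∣ orderOf xy.2 ∧ xy.1 * xy.2 = g} : ℂ) / (Nat.card {y : G // ¬ p ∣ orderOf y} : ℂ)) := by
  classical
  haveI := Fintype.ofFinite G
  haveI : M.IsPrime := Cfsg.Agent.Blk.isPrime_of_isPModular hM
  have h1 : (Nat.card {y : G // ¬ p ∣ orderOf y} : ℂ) =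
      ((Finset.univ.filter (fun g : G => ¬ p ∣ orderOf g)).card : ℂ) := by
    rw [Nat.card_eq_fintype_card, Fintype.card_subtype]
  have h2 : (Nat.card {xy : G × G // (∃ k : ℕ, orderOf xy.1 = p ^ k) ∧ ¬ p ∣ orderOf xy.2 ∧
      xy.1 * xy.2 = g} : ℂ) = (Cfsg.Agent.BlkInd.pSum G p * Cfsg.Agent.BlkInd.rSum G p).coeff g := by
    rw [Cfsg.Agent.BlkInd.coeff_mul']
    have e : ∀ x : G, (Cfsg.Agent.BlkInd.pSum G p).coeff x * (Cfsg.Agent.BlkInd.rSum G p).coeff (x⁻¹ * g) =
        if ((∃ k : ℕ, orderOf x = p ^ k) ∧ ¬ p ∣ orderOf (x⁻¹ * g)) then (1 : ℂ) else 0 := by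
      intro x
      unfold Cfsg.Agent.BlkInd.pSum Cfsg.Agent.BlkInd.rSum
      rw [Cfsg.Agent.BlkInd.coeff_ga, Cfsg.Agent.BlkInd.coeff_ga]
      by_cases h1 : ∃ k : ℕ, orderOf x = p ^ k
      · by_cases h2 : p ∣ orderOf (x⁻¹ * g)
        · simp [h1, h2]
        · simp [h1, h2]
      · simp [h1]
    rw [Finset.sum_congr rfl (fun x _ => e x), ← Finset.sum_filter, Finset.sum_const, nsmul_eq_mul, mul_one,
      Nat.card_eq_fintype_card, ← Fintype.card_subtype]
    congr 1
    refine Fintype.card_congr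
      { toFun := fun xy => ⟨xy.1.1, xy.2.1, ?_⟩
        invFun := fun x => ⟨(x.1, x.1⁻¹ * g), x.2.1, x.2.2, by simp⟩
        left_inv := ?_
        right_inv := fun x => rfl }
    · obtain ⟨⟨x, y⟩, h1, h2, h3⟩ := xy
      simp only at h1 h2 h3 ⊢
      rw [← h3, inv_mul_cancel_left]
      exact h2
    · rintro ⟨⟨x, y⟩, h1, h2, h3⟩
      simp only at h3
      apply Subtype.ext
      show (x, x⁻¹ * g) = (x, y)
      rw [← h3, inv_mul_cancel_left]
  rw [h1, h2]
  exact Cfsg.Agent.BlkInd.kulshammer hM hg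

end Cfsg.Agent.S0940
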