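import Cfsg.Statements.S0943
import Cfsg.Agent.CharBase.Central

set_option autoImplicit false
open Cfsg

namespace Cfsg.Agent.S0943

open Cfsg.Agent.CharBase

/-- Let χ be an irreducible character of the finite group G and u, v ∈ G. If χ (x * y) = χ (u * v) whenever x is conjugate to u and y is conjugate to v, then χ u * χ v = χ 1 * χ (u * v). (Multiply the class sums of u and v and apply the central character of χ.) -/
theorem result {G : Type*} [Group G] [Finite G] (χ : Cfsg.IrrCharacter G) (u v : G) (hc : ∀ x y : G, IsConj u x → IsConj v y → (χ : G → ℂ) (x * y) = (χ : G → ℂ) (u * v)) : (χ : G → ℂ) u * (χ : G → ℂ) v = (χ : G → ℂ) 1 * (χ : G → ℂ) (u * v) := by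
  haveI := Fintype.ofFinite G
  have h := sum_conj_mul χ.2 u v
  have h1 : ∀ x : G, (χ : G → ℂ) (u * (x * v * x⁻¹)) = (χ : G → ℂ) (u * v) :=
    fun x => hc _ _ (IsConj.refl u) (isConj_iff.mpr ⟨x, rfl⟩)
  simp only [h1, Finset.sum_const, nsmul_eq_mul, Finset.card_univ, Nat.card_eq_fintype_card] at h
  have h2 : (Fintype.card G : ℂ) ≠ 0 := by exact_mod_cast Fintype.card_ne_zero
  have h3 : (χ : G → ℂ) 1 ≠ 0 := irr_one_ne_zero χ.2
  field_simp at h
  linear_combination -h

end Cfsg.Agent.S0943
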