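import Cfsg.Statements.S0946
import Cfsg.Agent.H51.Homo2

set_option autoImplicit false
open Cfsg

namespace Cfsg.Agent.S0946

/-- Let P be a Sylow 2-subgroup of the finite group G isomorphic to Z/2^m × Z/2^m with m ≥ 1. Then either P has a normal complement in G, or all involutions of G are conjugate. -/
theorem result {G : Type*} [Group G] [Finite G] (P : Sylow 2 G) (m : ℕ) (hm : 1 ≤ m) (e : (P : Subgroup G) ≃* Multiplicative (ZMod (2 ^ m) × ZMod (2 ^ m))) : (∃ N : Subgroup G, N.Normal ∧ Subgroup.IsComplement' N (P : Subgroup G)) ∨ ∀ s t : G, orderOf s = 2 → orderOf t = 2 → IsConj s t := by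
  rcases Cfsg.Agent.H51.relIndex_one_or_three P hm e with h | ⟨-, hconj⟩
  · left
    have hle : Subgroup.normalizer ((P : Subgroup G) : Set G) ≤ Subgroup.centralizer ((P : Subgroup G) : Set G) :=
      Subgroup.relIndex_eq_one.mp h
    exact ⟨_, inferInstance, MonoidHom.ker_transferSylow_isComplement' P hle⟩
  · right
    intro s t hs ht
    have key : ∀ x : G, orderOf x = 2 → ∃ g : G, g * x * g⁻¹ ∈ (P : Subgroup G) := by
      intro x hx
      have hpg : IsPGroup 2 (Subgroup.zpowers x) := IsPGroup.of_card (n := 1) (by rw [Nat.card_zpowers, hx, pow_one])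
      obtain ⟨Q, hQ⟩ := hpg.exists_le_sylow
      obtain ⟨g, hg⟩ := MulAction.exists_smul_eq G Q P
      refine ⟨g, ?_⟩
      rw [← hg]
      exact ⟨x, hQ (Subgroup.mem_zpowers x), rfl⟩
    obtain ⟨g, hg⟩ := key s hs
    obtain ⟨k, hk⟩ := key t ht
    have hne : ∀ x g : G, orderOf x = 2 → g * x * g⁻¹ ≠ 1 := by
      intro x g hx h
      have h1 : x = 1 := by
        have : x = g⁻¹ * (g * x * g⁻¹) * g := by group
        rw [this, h]; group
      rw [h1, orderOf_one] at hx
      omega
    have hsq : ∀ x g : G, orderOf x = 2 → (g * x * g⁻¹) ^ 2 = 1 := by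
      intro x g hx
      have h1 := pow_orderOf_eq_one x
      rw [hx] at h1
      rw [conj_pow, h1]; group
    obtain ⟨r, hr⟩ := hconj _ hg _ hk (hne s g hs) (hsq s g hs) (hne t k ht) (hsq t k ht)
    rw [isConj_iff]
    refine ⟨k⁻¹ * r * g, ?_⟩
    calc k⁻¹ * r * g * s * (k⁻¹ * r * g)⁻¹ = k⁻¹ * (r * (g * s * g⁻¹) * r⁻¹) * k := by group
      _ = t := by rw [hr]; group

end Cfsg.Agent.S0946
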