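import Cfsg.Statements.S0950
import Cfsg.Agent.H4.Q8

set_option autoImplicit false
open Cfsg

namespace Cfsg.Agent.S0950

/-- Let S be a Sylow 2-subgroup of the finite group G that is isomorphic to the quaternion group of order 8, and suppose S has no normal complement in G. Then any two subgroups of order 4 of S are conjugate by an element of the normalizer of S. -/
theorem result {G : Type*} [Group G] [Finite G] (S : Sylow 2 G) (e : (S : Subgroup G) ≃* QuaternionGroup 2) (hnc : ∀ N : Subgroup G, N.Normal → ¬ Subgroup.IsComplement' N (S : Subgroup G)) (A B : Subgroup G) (hA : A ≤ S) (hB : B ≤ S) (hA4 : Nat.card A = 4) (hB4 : Nat.card B = 4) : ∃ n ∈ Subgroup.normalizer ((S : Subgroup G) : Set G), B = A.map (MulAut.conj n).toMonoidHom := by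
  have h := H4.isQ8_of_equiv e
  obtain ⟨x, hx, hxx, rfl⟩ := h.exists_eq_zpowers hA hA4
  obtain ⟨y, hy, hyy, rfl⟩ := h.exists_eq_zpowers hB hB4
  obtain ⟨n, hn, hor⟩ := h.conj_in_normalizer hnc (hA hx) (hB hy) hxx hyy
  refine ⟨n, hn, ?_⟩
  rw [MonoidHom.map_zpowers]
  have h1 : (MulAut.conj n).toMonoidHom x = n * x * n⁻¹ := rfl
  rw [h1]
  rcases hor with h2 | h2
  · rw [h2]
  · rw [h2, Subgroup.zpowers_inv]

end Cfsg.Agent.S0950
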