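import Cfsg.Statements.S0955
import Cfsg.Agent.Blk.Prin
import Cfsg.Agent.H49.Core

set_option autoImplicit false
open Cfsg

open Cfsg.Agent.Blk Cfsg.Agent.CharBase

namespace Cfsg.Agent.S0955

/-- Let D be a defect group of a block of the finite group G relative to a maximal ideal M of the algebraic integers containing the prime p. Then D is the largest normal p-subgroup of its own normalizer: O_p(N_G(D)) = D. -/
theorem result {G : Type*} [Group G] [Finite G] (p : ℕ) [Fact p.Prime] (M : Ideal Cfsg.AlgInt) (hM : Cfsg.IsPModular p M) (B : Set (Cfsg.IrrCharacter G)) (hB : Cfsg.IsPBlock M B) (D : Subgroup G) (hD : Cfsg.IsDefectGroup p M B D) : (Cfsg.pCore p (Subgroup.normalizer (D : Set G))).map (Subgroup.normalizer (D : Set G)).subtype = D := by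
  have := isPrime_of_isPModular hM
  have := charP_kM hM
  have := Fintype.ofFinite G
  rw [isDefectGroup_iff hM hB] at hD
  have hN : (Cfsg.pCore p (Subgroup.normalizer (D : Set G))).Normal :=
    Cfsg.Agent.H49.pCore_normal' p
  apply le_antisymm
  · refine hD.le_of_normal (isBlk_eB hB) ((Cfsg.Agent.H49.pCore_isPGroup p).map _)
      (Subgroup.map_subtype_le _) ?_
    intro u hu
    rw [Subgroup.mem_normalizer_iff]
    intro g
    have key : ∀ u ∈ Subgroup.normalizer (D : Set G), ∀ g : G,
        g ∈ (Cfsg.pCore p (Subgroup.normalizer (D : Set G))).map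
          (Subgroup.normalizer (D : Set G)).subtype →
        u * g * u⁻¹ ∈ (Cfsg.pCore p (Subgroup.normalizer (D : Set G))).map
          (Subgroup.normalizer (D : Set G)).subtype := by
      rintro u hu _ ⟨x, hx, rfl⟩
      exact ⟨⟨u, hu⟩ * x * ⟨u, hu⟩⁻¹, hN.conj_mem x hx ⟨u, hu⟩, rfl⟩
    constructor
    · exact key u hu g
    · intro h
      have h1 := key u⁻¹ (Subgroup.inv_mem _ hu) _ h
      have h2 : u⁻¹ * (u * g * u⁻¹) * u⁻¹⁻¹ = g := by group
      rwa [h2] at h1
  · have h1 : D.subgroupOf (Subgroup.normalizer (D : Set G)) ≤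
        Cfsg.pCore p (Subgroup.normalizer (D : Set G)) := by
      refine Cfsg.Agent.H49.le_pCore inferInstance ?_
      exact hD.isPGroup.comap_of_injective _ (Subgroup.subtype_injective _)
    intro x hx
    exact ⟨⟨x, Subgroup.le_normalizer hx⟩, h1 (Subgroup.mem_subgroupOf.2 hx), rfl⟩

end Cfsg.Agent.S0955
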