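import Cfsg.Statements.S0957
import Cfsg.Agent.BlkInd.Orbit

set_option autoImplicit false
open Cfsg

namespace Cfsg.Agent.S0957

/-- Let P be a Sylow p-subgroup of the finite group G, let g, h ∈ G and let p ^ d be the order of a Sylow p-subgroup of the centralizer of g. Then the number of pairs (y, z) with y conjugate to g, z conjugate to h and z * y⁻¹ ∈ P is divisible by the order of P divided by p ^ d. -/
theorem result {G : Type*} [Group G] [Finite G] (p : ℕ) [Fact p.Prime] (P : Sylow p G) (g h : G) (S : Sylow p (Subgroup.centralizer ({g} : Set G))) : Nat.card P / Nat.card S ∣ Nat.card {yz : G × G // IsConj g yz.1 ∧ IsConj h yz.2 ∧ yz.2 * yz.1⁻¹ ∈ (P : Subgroup G)} := by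
  classical
  let X := {yz : G × G // IsConj g yz.1 ∧ IsConj h yz.2 ∧ yz.2 * yz.1⁻¹ ∈ (P : Subgroup G)}
  let act : MulAction P X :=
    { smul := fun u x => ⟨((u : G) * x.1.1 * (u : G)⁻¹, (u : G) * x.1.2 * (u : G)⁻¹),
        x.2.1.trans (isConj_iff.mpr ⟨u, rfl⟩), x.2.2.1.trans (isConj_iff.mpr ⟨u, rfl⟩), by
          have h1 : ((u : G) * x.1.2 * (u : G)⁻¹) * ((u : G) * x.1.1 * (u : G)⁻¹)⁻¹ =
              (u : G) * (x.1.2 * x.1.1⁻¹) * (u : G)⁻¹ := by group
          show ((u : G) * x.1.2 * (u : G)⁻¹) * ((u : G) * x.1.1 * (u : G)⁻¹)⁻¹ ∈ (P : Subgroup G)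
          rw [h1]
          exact Subgroup.mul_mem _ (Subgroup.mul_mem _ u.2 x.2.2.2) (Subgroup.inv_mem _ u.2)⟩
      one_smul := fun x => by
        apply Subtype.ext
        show (((1 : P) : G) * x.1.1 * ((1 : P) : G)⁻¹, ((1 : P) : G) * x.1.2 * ((1 : P) : G)⁻¹) = x.1
        simp
      mul_smul := fun u v x => by
        apply Subtype.ext
        show (((u * v : P) : G) * x.1.1 * ((u * v : P) : G)⁻¹, ((u * v : P) : G) * x.1.2 * ((u * v : P) : G)⁻¹) =
          ((u : G) * ((v : G) * x.1.1 * (v : G)⁻¹) * (u : G)⁻¹, (u : G) * ((v : G) * x.1.2 * (v : G)⁻¹) * (u : G)⁻¹)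
        ext <;> simp [mul_assoc] }
  show Nat.card P / Nat.card S ∣ Nat.card X
  refine Cfsg.Agent.BlkInd.dvd_card_of_dvd_orbit (P := P) _ (fun x => ?_)
  have h1 := Cfsg.Agent.BlkInd.card_orbit_mul_card_stabilizer (P := P) x
  obtain ⟨c, hc⟩ := isConj_iff.mp x.2.1
  -- the stabilizer embeds in the centralizer of `g`
  have h2 : Nat.card (MulAction.stabilizer P x) ∣ Nat.card S := by
    let f : MulAction.stabilizer P x →* Subgroup.centralizer ({g} : Set G) :=
      { toFun := fun u => ⟨c⁻¹ * ((u : P) : G) * c, by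
          rw [Subgroup.mem_centralizer_iff]
          intro y hy
          rw [Set.mem_singleton_iff] at hy
          subst hy
          have hu : ((u : P) : G) * x.1.1 * ((u : P) : G)⁻¹ = x.1.1 := by
            have := congrArg (fun z : X => z.1.1) u.2
            exact this
          rw [mul_inv_eq_iff_eq_mul] at hu
          rw [← hc] at hu
          calc y * (c⁻¹ * ((u : P) : G) * c) = c⁻¹ * ((c * y * c⁻¹) * ((u : P) : G)) * c := by group
            _ = c⁻¹ * ((u : P) : G) * c * y := by rw [← hu]; group⟩
        map_one' := by apply Subtype.ext; simp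
        map_mul' := fun a b => by
          apply Subtype.ext
          simp only [Subgroup.coe_mul, MulMemClass.mk_mul_mk]
          group }
    have hinj : Function.Injective f := by
      intro a b hab
      have := congrArg (fun z : Subgroup.centralizer ({g} : Set G) => (z : G)) hab
      simp only [f, MonoidHom.coe_mk, OneHom.coe_mk] at this
      apply Subtype.ext
      apply Subtype.ext
      exact mul_left_cancel (mul_right_cancel this)
    have hp : IsPGroup p f.range := by
      have h3 : IsPGroup p (MulAction.stabilizer P x) := P.isPGroup'.to_subgroup _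
      exact h3.of_surjective f.rangeRestrict f.rangeRestrict_surjective
    have h4 := Cfsg.Agent.BlkInd.card_dvd_card_sylow f.range hp S
    have h5 : Nat.card f.range = Nat.card (MulAction.stabilizer P x) :=
      (Nat.card_congr (MonoidHom.ofInjective hinj).toEquiv).symm
    rwa [h5] at h4
  obtain ⟨k, hk⟩ := h2
  have h3 : 0 < Nat.card (MulAction.stabilizer P x) := Nat.card_pos
  by_cases h4 : Nat.card S ∣ Nat.card P
  · obtain ⟨l, hl⟩ := h4
    have h5 : 0 < Nat.card S := Nat.card_pos
    rw [hl, Nat.mul_div_cancel_left _ h5]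
    rw [hl, hk] at h1
    refine ⟨k, ?_⟩
    have : Nat.card (MulAction.orbit P x) * Nat.card (MulAction.stabilizer P x) =
      (l * k) * Nat.card (MulAction.stabilizer P x) := by rw [h1]; ring
    exact Nat.eq_of_mul_eq_mul_right h3 this
  · exfalso
    apply h4
    have hm : IsPGroup p ((S : Subgroup (Subgroup.centralizer ({g} : Set G))).map (Subgroup.centralizer ({g} : Set G)).subtype) :=
      S.isPGroup'.map _
    have h6 := Cfsg.Agent.BlkInd.card_dvd_card_sylow _ hm P
    rwa [Subgroup.card_map_of_injective (Subgroup.subtype_injective _)] at h6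

end Cfsg.Agent.S0957
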