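import Cfsg.Statements.S0958
import Cfsg.Agent.BlkInd.FirstMain

set_option autoImplicit false
open Cfsg

namespace Cfsg.Agent.S0958

/-- Let P be a p-subgroup of the finite group G and H a subgroup with P ⊔ C_G(P) ≤ H ≤ N_G(P); fix a maximal ideal M of the algebraic integers containing p. Then a block B of G is induced by some block of H if and only if some conjugate of P is contained in a defect group of B. -/
theorem result {G : Type*} [Group G] [Finite G] (p : ℕ) [Fact p.Prime] (M : Ideal Cfsg.AlgInt) (hM : Cfsg.IsPModular p M) (P H : Subgroup G) (hP : IsPGroup p P) (hPH : P ⊔ Subgroup.centralizer (P : Set G) ≤ H) (hHN : H ≤ Subgroup.normalizer (P : Set G)) (B : Set (Cfsg.IrrCharacter G)) (hB : Cfsg.IsPBlock M B) : (∃ b : Set (Cfsg.IrrCharacter H), Cfsg.IsInducedBlock M H b B) ↔ ∃ D : Subgroup G, Cfsg.IsDefectGroup p M B D ∧ ∃ x : G, P.map (MulAut.conj x).toMonoidHom ≤ D := by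
  haveI := Fintype.ofFinite G
  haveI := Fintype.ofFinite H
  haveI : M.IsPrime := Cfsg.Agent.Blk.isPrime_of_isPModular hM
  have hPH1 : P ≤ H := le_sup_left.trans hPH
  have hCH : Subgroup.centralizer (P : Set G) ≤ H := le_sup_right.trans hPH
  constructor
  · rintro ⟨b, hb⟩
    obtain ⟨y, -, hy⟩ := Cfsg.Agent.BlkC.exists_regular_defect (p := p) hM hb.1
    obtain ⟨D⟩ : Nonempty (Sylow p (Subgroup.centralizer ({y} : Set H))) := inferInstance
    have hD : Cfsg.IsDefectGroup p M b _ := ⟨y, hy, D, rfl⟩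
    haveI : (P.subgroupOf H).Normal := Subgroup.normal_subgroupOf_iff_le_normalizer hPH1 |>.mpr hHN
    have h1 := Cfsg.Agent.BlkInd.normal_le_defectGroup hM (P := P.subgroupOf H)
      hP.comap_subtype hb.1 hD
    obtain ⟨E, hE, hDE⟩ := Cfsg.Agent.BlkInd.defect_le_of_induced hM hb hD
    refine ⟨E, hE, 1, ?_⟩
    have h2 := Subgroup.map_mono (f := H.subtype) h1
    rw [Subgroup.map_subgroupOf_eq_of_le hPH1] at h2
    have h3 : P.map (MulAut.conj (1 : G)).toMonoidHom = P := by
      have : (MulAut.conj (1 : G)).toMonoidHom = MonoidHom.id G := by ext g; simp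
      rw [this, Subgroup.map_id]
    rw [h3]
    exact h2.trans hDE
  · rintro ⟨D, hD, x, hx⟩
    have hD' := Cfsg.Agent.BlkInd.isDefectGroup_conj hD x⁻¹
    have hPD : P ≤ D.map (MulAut.conj x⁻¹).toMonoidHom := by
      have := Subgroup.map_mono (f := (MulAut.conj x⁻¹).toMonoidHom) hx
      rwa [Cfsg.Agent.BlkInd.map_conj_inv_map_conj] at this
    obtain ⟨y, hy, hS⟩ := hD'
    have hSy : Cfsg.Agent.BlkInd.SylC p y (D.map (MulAut.conj x⁻¹).toMonoidHom) := hS
    have hyP : y ∈ Subgroup.centralizer (P : Set G) :=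
      Subgroup.centralizer_le (SetLike.coe_subset_coe.mpr hPD) hSy.mem_centralizer
    exact Cfsg.Agent.BlkInd.exists_block_of_br hM hP hPH1 hCH hHN hB hyP hy.2.1

end Cfsg.Agent.S0958
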