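import Cfsg.Statements.S0959
import Cfsg.Agent.Blk.Dict

set_option autoImplicit false
open Cfsg

open Cfsg.Agent.Blk Cfsg.Agent.CharBase

namespace Cfsg.Agent.S0959

/-- Let B be a block of the finite group G with defect group D (relative to a maximal ideal M of the algebraic integers containing the prime p), and let P be a p-subgroup. Then there is an element g whose idempotent coefficient for B is a local integer outside the local ideal at M and which has a conjugate centralizing P, if and only if some conjugate of P is contained in D. -/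
theorem result {G : Type*} [Group G] [Finite G] (p : ℕ) [Fact p.Prime] (M : Ideal Cfsg.AlgInt) (hM : Cfsg.IsPModular p M) (B : Set (Cfsg.IrrCharacter G)) (hB : Cfsg.IsPBlock M B) (D : Subgroup G) (hD : Cfsg.IsDefectGroup p M B D) (P : Subgroup G) (hP : IsPGroup p P) : (∃ g : G, Cfsg.MemLocalRing M (Cfsg.blockCoeff B g) ∧ ¬ Cfsg.MemLocalIdeal M (Cfsg.blockCoeff B g) ∧ ∃ c : G, IsConj g c ∧ c ∈ Subgroup.centralizer (P : Set G)) ↔ ∃ x : G, P.map (MulAut.conj x).toMonoidHom ≤ D := by
  have := isPrime_of_isPModular hM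
  have := charP_kM hM
  have := Fintype.ofFinite G
  rw [isDefectGroup_iff hM hB] at hD
  have hcoef : ∀ g, ¬ MemLocalIdeal M (blockCoeff B g) ↔ (eB M B).coeff g ≠ 0 := by
    intro g
    rw [eB, redc_coeff, Ne, rd_eq_zero_iff (mlr_blockCoeff hB g)]
  constructor
  · rintro ⟨g, -, h1, c, hgc, hc⟩
    have h2 : (eB M B).coeff c ≠ 0 := by
      rw [← hcoef, ← blockCoeff_conj B hgc]; exact h1
    have h3 : br P (eB M B) ≠ 0 := by
      refine br_ne_zero_of_coeff h2 ?_
      intro u hu
      rw [Subgroup.mem_centralizer_singleton_iff]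
      exact Subgroup.mem_centralizer_iff.1 hc u hu
    obtain ⟨u, -, hu⟩ := hD.le_of_br_ne le_top hP h3
    exact ⟨u⁻¹, (le_map_conj_iff u).1 hu⟩
  · rintro ⟨x, hx⟩
    obtain ⟨g, hg, hg2⟩ := exists_coeff_of_br_ne_zero hD.br_ne
    refine ⟨g, mlr_blockCoeff hB g, (hcoef g).2 hg, x⁻¹ * g * x, ?_, ?_⟩
    · exact isConj_iff.2 ⟨x⁻¹, by group⟩
    · have h1 : g ∈ Subgroup.centralizer ((P.map (MulAut.conj x).toMonoidHom : Subgroup G) :
          Set G) := centralizer_le_of_le hx hg2
      rw [← map_conj_centralizer, mem_map_conj_iff] at h1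
      exact h1

end Cfsg.Agent.S0959
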