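import Cfsg.Statements.S0960

import Cfsg.Agent.CycG.PrinData
set_option linter.style.haveILetI false

set_option autoImplicit false
open Cfsg

namespace Cfsg.Agent.S0960

open Cfsg.Agent.CycG Cfsg.Agent.CharBase Cfsg.Agent.Blk

/-- Let p be an odd prime and G a finite group whose Sylow p-subgroup P has order p; let e be the index of C_G(P) in N_G(P) (a divisor of p − 1) and fix a maximal ideal M of the algebraic integers containing p. Then the principal block of G consists of exactly e + (p - 1) / e irreducible characters, and the degree d of each of them satisfies d ≡ 1, d ≡ -1, d ≡ e or d ≡ -e modulo p. -/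
theorem result {G : Type*} [Group G] [Finite G] (p : ℕ) [Fact p.Prime] (M : Ideal Cfsg.AlgInt) (hM : Cfsg.IsPModular p M) (hodd : p ≠ 2) (P : Sylow p G) (hP : Nat.card P = p) (e : ℕ) (he : (Subgroup.centralizer ((P : Subgroup G) : Set G)).relIndex (Subgroup.normalizer ((P : Subgroup G) : Set G)) = e) : Nat.card (Cfsg.principalBlock M G) = e + (p - 1) / e ∧ ∀ χ ∈ Cfsg.principalBlock M G, ((Cfsg.charDegree (χ : G → ℂ) : ℤ) ≡ 1 [ZMOD p] ∨ (Cfsg.charDegree (χ : G → ℂ) : ℤ) ≡ -1 [ZMOD p] ∨ (Cfsg.charDegree (χ : G → ℂ) : ℤ) ≡ (e : ℤ) [ZMOD p] ∨ (Cfsg.charDegree (χ : G → ℂ) : ℤ) ≡ -(e : ℤ) [ZMOD p]) := by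
  classical
  haveI : Fintype G := Fintype.ofFinite G
  haveI := hM.2.1.isPrime
  have hSp : BR.Sp p (P : Subgroup G) := BR.Sp.of_sylow P hP
  obtain ⟨C, hC⟩ : ∃ C : Subgroup G, C = Subgroup.centralizer ((P : Subgroup G) : Set G) := ⟨_, rfl⟩
  haveI : Fintype C := Fintype.ofFinite C
  obtain ⟨d, hcard, -⟩ := principal_cycDat hM hSp hC
  obtain ⟨θ, ε, δ, o, hnexc, hε⟩ := principal_main hM hSp hC
  rw [← hC] at he
  have hp := (Fact.out : p.Prime)
  have hPp : IsPGroup p (P : Subgroup G) := P.2
  have hX := o.card_Xf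
  have hY := o.card_Yf
  rw [he] at hX hY
  rw [hcard] at hY
  have h1mem : oneIrr G ∈ principalBlock M G := oneIrr_mem_principalBlock (M := M)
  have hsum : Nat.card (principalBlock M G) =
      (CycOut.Xf (principalBlock M G) (principalBlock M C) (oneIrr C) θ).card +
      (CycOut.Yf (principalBlock M G) (principalBlock M C) (oneIrr C) θ).card := by
    have h1 := CycOut.sum_split (B := principalBlock M G) (f := principalBlock M C)
      (χ1 := oneIrr C) (θ := θ) (fun _ => (1 : ℂ))
    simp only [Finset.sum_const, nsmul_eq_mul, mul_one] at h1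
    rw [BlkC.natCard_eq_Bfin]
    exact_mod_cast h1
  have he0 : 0 < e := by
    rw [← he]
    exact Nat.pos_of_ne_zero Subgroup.FiniteIndex.index_ne_zero
  have hmod : ∀ a : ℤ, (Nat.card (P : Subgroup G) : ℤ) ∣ a → (p : ℤ) ∣ a := fun a h => hP ▸ h
  have hdeg1 : (charDegree ((oneIrr G : IrrCharacter G) : G → ℂ) : ℤ) = 1 := by
    have h := Cfsg.Agent.BlkC.charDegree_spec (oneIrr G)
    rw [oneIrr_apply] at h
    exact_mod_cast h.symm
  constructor
  · rw [hsum, hX]
    congr 1
    symm
    apply Nat.div_eq_of_eq_mul_right he0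
    omega
  · intro χ hχ
    by_cases hexc : Exc (principalBlock M C) (oneIrr C) θ χ
    · have h2 := hmod _ (o.dvd_exc h1mem hnexc hexc (P : Subgroup G) hPp)
      rw [hε, he, hdeg1] at h2
      rcases o.delta with h | h
      · right; right; right
        rw [Int.modEq_comm]
        apply Int.modEq_iff_dvd.2
        rw [h] at h2
        have h3 : (charDegree (χ : G → ℂ) : ℤ) - -(e : ℤ) =
            1 * (charDegree (χ : G → ℂ) : ℤ) + (e : ℤ) * 1 * 1 := by ring
        rw [h3]; exact h2
      · right; right; left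
        apply Int.modEq_iff_dvd.2
        rw [h] at h2
        have h3 : (e : ℤ) - (charDegree (χ : G → ℂ) : ℤ) =
            -1 * (charDegree (χ : G → ℂ) : ℤ) + (e : ℤ) * 1 * 1 := by ring
        rw [h3]; exact h2
    · have h2 := hmod _ (o.dvd_nonexc hχ hexc h1mem hnexc (P : Subgroup G) hPp)
      rw [hε, hdeg1] at h2
      rcases o.eps χ with h | h
      · left
        rw [Int.modEq_comm]
        apply Int.modEq_iff_dvd.2
        rw [h] at h2
        have h3 : (charDegree (χ : G → ℂ) : ℤ) - 1 =
            1 * (charDegree (χ : G → ℂ) : ℤ) - 1 * 1 := by ring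
        rw [h3]; exact h2
      · right; left
        apply Int.modEq_iff_dvd.2
        rw [h] at h2
        have h3 : -1 - (charDegree (χ : G → ℂ) : ℤ) =
            -1 * (charDegree (χ : G → ℂ) : ℤ) - 1 * 1 := by ring
        rw [h3]; exact h2

end Cfsg.Agent.S0960
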