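import Cfsg.Statements.S0967
import Cfsg.Agent.BlkInd.CoverD

set_option autoImplicit false
open Cfsg

namespace Cfsg.Agent.S0967

/-- Let N be a normal subgroup of the finite group G of order prime to p and fix a maximal ideal M of the algebraic integers containing p. If χ is an irreducible character of G ⧸ N and ψ lies in the block of its inflation χ ∘ (quotient map), then ψ is itself inflated from an irreducible character ψ' of G ⧸ N lying in the block of χ. (Over a normal p'-subgroup, blocks of the quotient are whole blocks of G.) -/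
theorem result {G : Type*} [Group G] [Finite G] (p : ℕ) [Fact p.Prime] (M : Ideal Cfsg.AlgInt) (hM : Cfsg.IsPModular p M) (N : Subgroup G) [N.Normal] (hN : ¬ p ∣ Nat.card N) (χ : Cfsg.IrrCharacter (G ⧸ N)) (ψ : Cfsg.IrrCharacter G) (hψ : ψ ∈ Cfsg.blockOf M ((χ : G ⧸ N → ℂ) ∘ QuotientGroup.mk)) : ∃ ψ' : Cfsg.IrrCharacter (G ⧸ N), (ψ : G → ℂ) = (ψ' : G ⧸ N → ℂ) ∘ QuotientGroup.mk ∧ Cfsg.SameBlock M (χ : G ⧸ N → ℂ) (ψ' : G ⧸ N → ℂ) := by
  classical
  haveI := Fintype.ofFinite G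
  have : M.IsPrime := hM.2.1.isPrime
  have hψ' : SameBlock M (fun g : G => (χ : G ⧸ N → ℂ) (QuotientGroup.mk g)) (ψ : G → ℂ) := hψ
  have hker := Cfsg.Agent.BlkInd.sameBlock_inflate_ker N hM hN
    (χ := ⟨_, Cfsg.Agent.H75.isIrrCharacter_inflate N χ.2⟩) (ψ := ψ)
    (fun n hn => Cfsg.Agent.H75.inflate_ker N (χ : G ⧸ N → ℂ) n hn) hψ'
  obtain ⟨ψ', h1, h2⟩ := Cfsg.Agent.H75.exists_deflate_irr N ψ.2 hker
  have h3 : (ψ : G → ℂ) = ψ' ∘ QuotientGroup.mk := by
    funext g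
    exact (h2 g).symm
  refine ⟨⟨ψ', h1⟩, h3, ?_⟩
  refine Cfsg.Agent.BlkInd.sameBlock_of_inflate N hM hN χ ⟨ψ', h1⟩ ?_
  rw [h3] at hψ'
  exact hψ'

end Cfsg.Agent.S0967
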