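import Cfsg.Statements.S0973
import Cfsg.Agent.H79.ExtFirst

set_option autoImplicit false
open Cfsg

namespace Cfsg.Agent.S0973

/-- Let B be a block of the finite group G with defect group P (relative to a maximal ideal M of the algebraic integers containing p), and let L = P ⊔ C_G(P). Then (i) some block b of L with defect group P (viewed in L) induces B, and (ii) if b and b' are blocks of L both inducing B, there is n ∈ N_G(P) carrying b to b': for every θ ∈ b there is θ' ∈ b' with θ' x = θ (n x n⁻¹) for all x ∈ L. -/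
theorem result {G : Type*} [Group G] [Finite G] (p : ℕ) [Fact p.Prime] (M : Ideal Cfsg.AlgInt) (hM : Cfsg.IsPModular p M) (B : Set (Cfsg.IrrCharacter G)) (hB : Cfsg.IsPBlock M B) (P : Subgroup G) (hP : Cfsg.IsDefectGroup p M B P) : (∃ b : Set (Cfsg.IrrCharacter ↥(P ⊔ Subgroup.centralizer (P : Set G))), Cfsg.IsDefectGroup p M b (P.subgroupOf (P ⊔ Subgroup.centralizer (P : Set G))) ∧ Cfsg.IsInducedBlock M (P ⊔ Subgroup.centralizer (P : Set G)) b B) ∧ ∀ b b' : Set (Cfsg.IrrCharacter ↥(P ⊔ Subgroup.centralizer (P : Set G))), Cfsg.IsInducedBlock M (P ⊔ Subgroup.centralizer (P : Set G)) b B → Cfsg.IsInducedBlock M (P ⊔ Subgroup.centralizer (P : Set G)) b' B → ∃ n ∈ Subgroup.normalizer (P : Set G), ∀ θ ∈ b, ∃ θ' ∈ b', ∀ x : ↥(P ⊔ Subgroup.centralizer (P : Set G)), ∀ hx : n * (x : G) * n⁻¹ ∈ P ⊔ Subgroup.centralizer (P : Set G), (θ' : ↥(P ⊔ Subgroup.centralizer (P : Set G)) → ℂ) x = (θ : ↥(P ⊔ Subgroup.centralizer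 (P : Set G)) → ℂ) ⟨n * (x : G) * n⁻¹, hx⟩ := by
  classical
  have hMp := Cfsg.Agent.Blk.isPrime_of_isPModular hM
  have hchar := Cfsg.Agent.Blk.charP_kM hM
  have := Fintype.ofFinite G
  have hd : Cfsg.Agent.Blk.IsDef p ⊤ (Cfsg.Agent.Blk.eB M B) P :=
    (Cfsg.Agent.Blk.isDefectGroup_iff hM hB P).1 hP
  have hPp := hd.isPGroup
  have hEB := Cfsg.Agent.Blk.isBlk_eB (M := M) hB
  constructor
  · obtain ⟨e, he, hee⟩ := Cfsg.Agent.Blk.exists_blk_le (Subgroup.centralizer (P : Set G))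
      (Cfsg.Agent.Blk.br P (Cfsg.Agent.Blk.eB M B))
      ⟨Cfsg.Agent.Blk.supp_br P _, (hEB.fixed.mono le_top).br
        (Cfsg.Agent.Blk.centralizer_le_normalizer P)⟩
      (by rw [← Cfsg.Agent.Blk.br_mul hPp (hEB.fixed.mono le_top) (hEB.fixed.mono le_top),
        hEB.idem]) hd.br_ne
    have hpair : Cfsg.Agent.Blk.MPair p P e := ⟨hPp, he⟩
    have hof : Cfsg.Agent.Blk.MPairOf p (Cfsg.Agent.Blk.eB M B) P e := ⟨hpair, hEB, hee⟩
    have hmax := Cfsg.Agent.BlkF.MPairOf.mmax hof hd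
    have hst := hmax.isDef_stab
    have hLT : P ⊔ Subgroup.centralizer (P : Set G) ≤
        Cfsg.Agent.Blk.stab (Subgroup.normalizer (P : Set G)) e :=
      sup_le (Cfsg.Agent.Blk.le_stab he) (Cfsg.Agent.Blk.centralizer_le_stab he)
    have heL : Cfsg.Agent.Blk.IsBlk (P ⊔ Subgroup.centralizer (P : Set G)) e :=
      he.of_centralizer hPp le_sup_left le_sup_right (Cfsg.Agent.H79.sup_le_normalizer P)
        ((Cfsg.Agent.Blk.fixed_stab _ _).mono hLT)
    obtain ⟨b, hb, rfl⟩ := Cfsg.Agent.Blk.exists_EB heL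
    refine ⟨b, ?_, (Cfsg.Agent.H79.induced_iff_mpairOf hM hPp hb hB).2 hof⟩
    rw [Cfsg.Agent.Blk.isDefectGroup_iff' hM hb, Subgroup.map_subgroupOf_eq_of_le le_sup_left]
    exact Cfsg.Agent.BlkF.isDef_of_le heL hLT hst le_sup_left
  · intro b b' hI hI'
    have hb := hI.1
    have hb' := hI'.1
    obtain ⟨u, hu, huc⟩ := Cfsg.Agent.Blk.exists_conj_of_mpairOf hd
      ((Cfsg.Agent.H79.induced_iff_mpairOf hM hPp hb hB).1 hI)
      ((Cfsg.Agent.H79.induced_iff_mpairOf hM hPp hb' hB).1 hI')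
    have huL := Cfsg.Agent.H79.normalizer_le_normalizer_sup P hu
    have h1 : Cfsg.Agent.Blk.cj u (Cfsg.Agent.Blk.EB M _ b) =
        Cfsg.Agent.Blk.EB M _ (Cfsg.Agent.Blk.irrMap (Cfsg.Agent.Blk.normConj _ huL) '' b) := by
      apply Cfsg.Agent.Blk.ga_ext; intro g
      rw [Cfsg.Agent.Blk.cj_coeff, Cfsg.Agent.Blk.EB_coeff, Cfsg.Agent.Blk.EB_coeff,
        Cfsg.Agent.Blk.subgroupBlockCoeff_image]
    rw [huc] at h1
    have h2 := Cfsg.Agent.Blk.EB_injective hb' (Cfsg.Agent.Blk.isPBlock_image _ hb) h1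
    refine ⟨u⁻¹, Subgroup.inv_mem _ hu, fun θ hθ =>
      ⟨Cfsg.Agent.Blk.irrMap (Cfsg.Agent.Blk.normConj _ huL) θ, ?_, ?_⟩⟩
    · rw [h2]; exact ⟨θ, hθ, rfl⟩
    · intro x hx
      rw [Cfsg.Agent.Blk.irrMap_apply]
      refine congrArg (θ : ↥(P ⊔ Subgroup.centralizer (P : Set G)) → ℂ) ?_
      rw [MulEquiv.symm_apply_eq]
      apply Subtype.ext
      rw [Cfsg.Agent.Blk.normConj_coe]
      change (x : G) = u * (u⁻¹ * (x : G) * u⁻¹⁻¹) * u⁻¹
      group

end Cfsg.Agent.S0973
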