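import Cfsg.Statements.S0986
import Cfsg.Agent.H17.SelfCent

set_option autoImplicit false
open Cfsg

namespace Cfsg.Agent.S0986

/-- Let P and Q be distinct Sylow p-subgroups of a finite group G chosen so that the order of P ∩ Q is as large as possible among intersections of two distinct Sylow p-subgroups, and let N be the normalizer of P ∩ Q. Then N has more than one Sylow p-subgroup, any two distinct Sylow p-subgroups of N intersect exactly in P ∩ Q, and each Sylow p-subgroup of N lies in exactly one Sylow p-subgroup of G. -/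
theorem result {G : Type*} [Group G] [Finite G] (p : ℕ) [Fact p.Prime] (P Q : Sylow p G) (hPQ : P ≠ Q) (hmax : ∀ P' Q' : Sylow p G, P' ≠ Q' → Nat.card ↥((P' : Subgroup G) ⊓ (Q' : Subgroup G)) ≤ Nat.card ↥((P : Subgroup G) ⊓ (Q : Subgroup G))) : 1 < Nat.card (Sylow p ↥(Subgroup.normalizer (((P : Subgroup G) ⊓ (Q : Subgroup G) : Subgroup G) : Set G))) ∧ (∀ S T : Sylow p ↥(Subgroup.normalizer (((P : Subgroup G) ⊓ (Q : Subgroup G) : Subgroup G) : Set G)), S ≠ T → (S : Subgroup _) ⊓ (T : Subgroup _) = ((P : Subgroup G) ⊓ (Q : Subgroup G)).subgroupOf (Subgroup.normalizer (((P : Subgroup G) ⊓ (Q : Subgroup G) : Subgroup G) : Set G))) ∧ ∀ S : Sylow p ↥(Subgroup.normalizer (((P : Subgroup G) ⊓ (Q : Subgroup G) : Subgroup G) : Set G)), ∃! T : Sylow p G, (S : Subgroup _).map (Subgroup.normalizer (((P : Subgroup G) ⊓ (Q : Subgroup G) : Subgroup G) : Set G)).subtype ≤ (T : Subgroup G) := by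
  classical
  set D : Subgroup G := (P : Subgroup G) ⊓ (Q : Subgroup G) with hD
  set N : Subgroup G := Subgroup.normalizer (D : Set G) with hN
  have hDN : D ≤ N := Subgroup.le_normalizer
  have hDn : (D.subgroupOf N).Normal := Subgroup.normal_in_normalizer
  have hDp : IsPGroup p D := P.2.to_le inf_le_left
  have hDp' : IsPGroup p (D.subgroupOf N) := hDp.comap_subtype
  -- two distinct Sylow subgroups of G meet in order at most |D|
  have hmaxle : ∀ P' Q' : Sylow p G, ∀ H : Subgroup G, H ≤ (P' : Subgroup G) → H ≤ (Q' : Subgroup G) →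
      Nat.card D < Nat.card H → P' = Q' := by
    intro P' Q' H h1 h2 h3
    by_contra h4
    have h5 := hmax P' Q' h4
    have h6 := Subgroup.card_le_of_le (le_inf h1 h2 : H ≤ (P' : Subgroup G) ⊓ (Q' : Subgroup G))
    omega
  -- normalizers grow
  have hgrow : ∀ R : Sylow p G, D ≤ (R : Subgroup G) → D ≠ (R : Subgroup G) →
      Nat.card D < Nat.card ↥(N ⊓ (R : Subgroup G)) := by
    intro R h1 h2
    have hRn : Group.IsNilpotent (R : Subgroup G) := R.2.isNilpotent
    have hnc : NormalizerCondition (R : Subgroup G) := Group.normalizerCondition_of_isNilpotent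
    have h3 : D.subgroupOf (R : Subgroup G) < ⊤ := by
      rw [lt_top_iff_ne_top]
      intro h4
      exact h2 (le_antisymm h1 (Subgroup.subgroupOf_eq_top.mp h4))
    have h4 := hnc _ h3
    rw [← Subgroup.subgroupOf_normalizer_eq h1] at h4
    have h5 : D < N ⊓ (R : Subgroup G) := by
      refine lt_of_le_of_ne (le_inf hDN h1) fun h6 => ?_
      have h7 : D.subgroupOf (R : Subgroup G) = N.subgroupOf (R : Subgroup G) := by
        conv_lhs => rw [h6]
        rw [Subgroup.inf_subgroupOf_right]
      exact h4.ne h7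
    refine lt_of_le_of_ne (Subgroup.card_le_of_le h5.le) fun h6 => ?_
    exact h5.ne (Subgroup.eq_of_le_of_card_ge h5.le h6.ge)
  have hDP : D ≠ (P : Subgroup G) := by
    intro h
    have h1 : (P : Subgroup G) ≤ Q := by rw [← h]; exact inf_le_right
    have h2 := P.3 Q.2 h1
    exact hPQ (Sylow.ext h2.symm)
  have hDQ : D ≠ (Q : Subgroup G) := by
    intro h
    have h1 : (Q : Subgroup G) ≤ P := by rw [← h]; exact inf_le_left
    have h2 := Q.3 P.2 h1
    exact hPQ (Sylow.ext h2)
  -- each Sylow subgroup of N contained in a Sylow subgroup of G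
  have hex : ∀ S : Sylow p N, ∃ T : Sylow p G, (S : Subgroup N).map N.subtype ≤ (T : Subgroup G) := by
    intro S
    exact (S.2.map N.subtype).exists_le_sylow
  have hDS : ∀ S : Sylow p N, D.subgroupOf N ≤ (S : Subgroup N) := fun S => hDp'.le_sylow_of_normal S
  have hDS' : ∀ S : Sylow p N, D ≤ (S : Subgroup N).map N.subtype := by
    intro S x hx
    exact ⟨⟨x, hDN hx⟩, hDS S hx, rfl⟩
  have hcardS : ∀ S : Sylow p N, Nat.card D < Nat.card ((S : Subgroup N).map N.subtype) := by
    intro S
    -- N ⊓ P is a p-subgroup of N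
    have h1 : IsPGroup p ((P : Subgroup G).subgroupOf N) := P.2.comap_subtype
    obtain ⟨S', hS'⟩ := h1.exists_le_sylow
    have h2 : Nat.card (S' : Subgroup N) = Nat.card (S : Subgroup N) := H17.card_sylow_eq_of S' S
    rw [Nat.card_congr ((S : Subgroup N).equivMapOfInjective N.subtype N.subtype_injective).symm.toEquiv, ← h2]
    have h3 := Subgroup.card_le_of_le hS'
    have h4 : Nat.card ((P : Subgroup G).subgroupOf N) = Nat.card ↥(N ⊓ (P : Subgroup G)) := by
      rw [← Subgroup.inf_subgroupOf_left]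
      exact Nat.card_congr (Subgroup.subgroupOfEquivOfLe inf_le_left).toEquiv
    have h5 := hgrow P inf_le_left hDP
    omega
  have huniq : ∀ S : Sylow p N, ∀ T T' : Sylow p G, (S : Subgroup N).map N.subtype ≤ (T : Subgroup G) →
      (S : Subgroup N).map N.subtype ≤ (T' : Subgroup G) → T = T' := by
    intro S T T' h1 h2
    exact hmaxle T T' _ h1 h2 (hcardS S)
  refine ⟨?_, ?_, ?_⟩
  · -- more than one
    by_contra hle
    have h0 : 0 < Nat.card (Sylow p N) := Nat.card_pos
    have h1 : Nat.card (Sylow p N) = 1 := by omega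
    have hsub : Subsingleton (Sylow p N) := (Nat.card_eq_one_iff_unique.mp h1).1
    obtain ⟨S⟩ : Nonempty (Sylow p N) := inferInstance
    obtain ⟨T, hT⟩ := hex S
    have key : ∀ R : Sylow p G, D ≤ (R : Subgroup G) → D ≠ (R : Subgroup G) → R = T := by
      intro R hR1 hR2
      have h1 : IsPGroup p ((R : Subgroup G).subgroupOf N) := R.2.comap_subtype
      obtain ⟨S', hS'⟩ := h1.exists_le_sylow
      have h2 : S' = S := Subsingleton.elim _ _
      rw [h2] at hS'
      refine hmaxle R T (N ⊓ (R : Subgroup G)) inf_le_right ?_ (hgrow R hR1 hR2)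
      intro x hx
      exact hT ⟨⟨x, hx.1⟩, hS' hx.2, rfl⟩
    exact hPQ ((key P inf_le_left hDP).trans (key Q inf_le_right hDQ).symm)
  · intro S T hST
    obtain ⟨S', hS'⟩ := hex S
    obtain ⟨T', hT'⟩ := hex T
    have hne : S' ≠ T' := by
      intro h
      rw [← h] at hT'
      apply hST
      have h1 : IsPGroup p ((S' : Subgroup G).subgroupOf N) := S'.2.comap_subtype
      have h2 : (S : Subgroup N) ≤ (S' : Subgroup G).subgroupOf N := fun x hx => hS' ⟨x, hx, rfl⟩
      have h3 : (T : Subgroup N) ≤ (S' : Subgroup G).subgroupOf N := fun x hx => hT' ⟨x, hx, rfl⟩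
      have h4 := S.3 h1 h2
      have h5 := T.3 h1 h3
      exact Sylow.ext (h4.symm.trans h5)
    symm
    apply Subgroup.eq_of_le_of_card_ge (le_inf (hDS S) (hDS T))
    have h1 := hmax S' T' hne
    have h2 : Nat.card ↥((S : Subgroup N) ⊓ (T : Subgroup N)) =
        Nat.card (((S : Subgroup N) ⊓ (T : Subgroup N)).map N.subtype) :=
      Nat.card_congr (((S : Subgroup N) ⊓ (T : Subgroup N)).equivMapOfInjective N.subtype N.subtype_injective).toEquiv
    have h3 : ((S : Subgroup N) ⊓ (T : Subgroup N)).map N.subtype ≤ (S' : Subgroup G) ⊓ (T' : Subgroup G) :=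
      le_inf ((Subgroup.map_mono inf_le_left).trans hS') ((Subgroup.map_mono inf_le_right).trans hT')
    have h4 := Subgroup.card_le_of_le h3
    have h5 : Nat.card (D.subgroupOf N) = Nat.card D := Nat.card_congr (Subgroup.subgroupOfEquivOfLe hDN).toEquiv
    omega
  · intro S
    obtain ⟨T, hT⟩ := hex S
    exact ⟨T, hT, fun T' hT' => huniq S T' T hT' hT⟩

end Cfsg.Agent.S0986
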