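import Cfsg.Statements.S0995
import Cfsg.Agent.H17.SelfCent

set_option autoImplicit false
open Cfsg

namespace Cfsg.Agent.S0995

/-- Let G be a finite perfect group containing an element z of prime order p whose centralizer is the cyclic group it generates. Let t be the number of conjugacy classes of elements of order p. Then t divides p - 1, the number of Sylow p-subgroups has the form 1 + n * p, and |G| * t = (p - 1) * p * (1 + n * p). -/
theorem result {G : Type*} [Group G] [Finite G] (hperf : commutator G = ⊤) (p : ℕ) [Fact p.Prime] (z : G) (hz : orderOf z = p) (hC : Subgroup.centralizer ({z} : Set G) = Subgroup.zpowers z) : ∃ n t : ℕ, t = Nat.card {c : ConjClasses G // ∃ g : G, ConjClasses.mk g = c ∧ orderOf g = p} ∧ t ∣ p - 1 ∧ Nat.card (Sylow p G) = 1 + n * p ∧ Nat.card G * t = (p - 1) * p * (1 + n * p) := by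
  have h1 := H17.card_mul_classes hz hC
  have h2 := H17.classes_dvd hz hC
  have h3 := H17.card_sylow_mod (p := p) (G := G)
  have h4 : Nat.card (Sylow p G) = 1 + (Nat.card (Sylow p G) / p) * p := by
    have := Nat.div_add_mod (Nat.card (Sylow p G)) p
    rw [h3] at this
    rw [mul_comm, add_comm]
    exact this.symm
  exact ⟨Nat.card (Sylow p G) / p, _, rfl, h2, h4, by rw [h1, ← h4]⟩

end Cfsg.Agent.S0995
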