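import Cfsg.Statements.S0998
import Cfsg.Agent.BT.PQR

set_option autoImplicit false
open Cfsg

namespace Cfsg.Agent.S0998

/-- A non-cyclic finite simple group whose order has the form p * r * q^b for distinct primes p, q, r is isomorphic to the projective special linear group of dimension 2 over the field with 5 or with 7 elements. -/
theorem result {G : Type*} [Group G] [Finite G] [IsSimpleGroup G] (hG : ¬ IsCyclic G) (p q r b : ℕ) (hp : p.Prime) (hq : q.Prime) (hr : r.Prime) (hpq : p ≠ q) (hpr : p ≠ r) (hqr : q ≠ r) (hG' : Nat.card G = p * r * q ^ b) : (∃ (F : Type) (_ : Field F) (_ : Fintype F), Fintype.card F = 5 ∧ Nonempty (G ≃* Matrix.ProjectiveSpecialLinearGroup (Fin 2) F)) ∨ (∃ (F : Type) (_ : Field F) (_ : Fintype F), Fintype.card F = 7 ∧ Nonempty (G ≃* Matrix.ProjectiveSpecialLinearGroup (Fin 2) F)) := by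
  rcases lt_or_gt_of_ne hpr with h | h
  · exact BT.row998_aux (b := b) hG hr hq hp hqr.symm hpq.symm (by rw [hG']; ring) h
  · exact BT.row998_aux hG hp hq hr hpq hqr hG' h

end Cfsg.Agent.S0998
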