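import Cfsg.Statements.S1002
import Cfsg.Agent.BR.Rows2

set_option autoImplicit false
open Cfsg

namespace Cfsg.Agent.S1002

/-- No finite simple group has order 1004913 = 3^3 * 7 * 13 * 409. -/
theorem result {G : Type*} [Group G] [Finite G] [IsSimpleGroup G] : Nat.card G ≠ 1004913 := by
  intro hG
  have hp : Nat.Prime 409 := by norm_num
  have hpf : Fact (Nat.Prime 409) := ⟨hp⟩
  have hnc : ¬ IsCyclic G := by
    intro hc
    have h1 : ∀ a b : G, a * b = b * a := fun a b => (IsCyclic.isMulCommutative (α := G)).is_comm.comm a b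
    letI : CommGroup G := { (inferInstance : Group G) with mul_comm := h1 }
    have h2 : (Nat.card G).Prime := IsSimpleGroup.prime_card
    rw [hG] at h2
    have h3 := (Nat.prime_dvd_prime_iff_eq Nat.prime_three h2).mp ⟨334971, by norm_num⟩
    norm_num at h3
  have hodd : ¬ 2 ∣ Nat.card G := by rw [hG]; norm_num
  rcases BR.simple_row (p := 409) hnc (by rw [hG]; exact ⟨2457, by norm_num⟩) (by rw [hG]; norm_num) with
    ⟨F, hF, hF', h1, h2, ⟨e⟩⟩ | ⟨m, F, hF, hF', h1, h2, h3, ⟨e⟩⟩
  · have h4 := H14.SubField.card_PSL2_odd (F := F) (by rw [h1]; decide)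
    rw [← Nat.card_congr e.toEquiv, hG, h1] at h4
    norm_num at h4
  · have hm : m ≠ 0 := by rintro rfl; norm_num at h2
    obtain ⟨e2⟩ := BR.sl_equiv_psl (F := F) hm h1
    have hc : Nat.card G = 2 ^ m * ((2 ^ m - 1) * (2 ^ m + 1)) := by
      rw [Nat.card_congr e.toEquiv, Nat.card_congr e2.symm.toEquiv, BR.card_SL hm h1]
    exact hodd (by rw [hc]; exact (dvd_pow_self 2 hm).mul_right _)

end Cfsg.Agent.S1002
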