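import Cfsg.Statements.S1007
import Cfsg.Agent.H17.Order168d

set_option autoImplicit false
open Cfsg

namespace Cfsg.Agent.S1007

/-- Let G be a simple group of order 168 and T a Sylow 2-subgroup. Then T contains exactly two subgroups that are Klein four-groups; they are not conjugate in G; and the normalizer of every Klein four-subgroup of G is isomorphic to the symmetric group of degree 4. -/
theorem result {G : Type*} [Group G] [Finite G] [IsSimpleGroup G] (h : Nat.card G = 168) (T : Sylow 2 G) : Nat.card {U : Subgroup G // U ≤ (T : Subgroup G) ∧ IsKleinFour ↥U} = 2 ∧ (∀ U W : Subgroup G, U ≤ (T : Subgroup G) → W ≤ (T : Subgroup G) → IsKleinFour ↥U → IsKleinFour ↥W → U ≠ W → ∀ g : G, U.map (MulAut.conj g).toMonoidHom ≠ W) ∧ ∀ U : Subgroup G, IsKleinFour ↥U → Nonempty (↥(Subgroup.normalizer (U : Set G)) ≃* Equiv.Perm (Fin 4)) := by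
  obtain ⟨e⟩ := H17.O168.sylow_two_dihedral h T
  exact ⟨H17.O168.card_klein_le (T : Subgroup G) e,
    fun U W hU hW hUk hWk hne g => H17.O168.klein_not_conj h T hU hW hUk hWk hne g,
    fun U hU => H17.O168.equiv_perm_of_card h (H17.O168.card_normalizer_klein h hU)⟩

end Cfsg.Agent.S1007
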