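import Cfsg.Statements.S1008
import Cfsg.Agent.H17.Order168e

set_option autoImplicit false
open Cfsg

namespace Cfsg.Agent.S1008

/-- In a simple group of order 168 every maximal subgroup is either isomorphic to the symmetric group of degree 4 or non-abelian of order 21; the maximal subgroups of order 21 form one conjugacy class and those isomorphic to the symmetric group of degree 4 form exactly two conjugacy classes. -/
theorem result {G : Type*} [Group G] [Finite G] [IsSimpleGroup G] (h : Nat.card G = 168) : (∀ M : Subgroup G, IsCoatom M → Nonempty (↥M ≃* Equiv.Perm (Fin 4)) ∨ (Nat.card ↥M = 21 ∧ ¬ IsMulCommutative ↥M)) ∧ (∀ M M' : Subgroup G, IsCoatom M → IsCoatom M' → Nat.card ↥M = 21 → Nat.card ↥M' = 21 → ∃ g : G, M' = M.map (MulAut.conj g).toMonoidHom) ∧ ∃ M₁ M₂ : Subgroup G, IsCoatom M₁ ∧ IsCoatom M₂ ∧ Nonempty (↥M₁ ≃* Equiv.Perm (Fin 4)) ∧ Nonempty (↥M₂ ≃* Equiv.Perm (Fin 4)) ∧ (∀ g : G, M₂ ≠ M₁.map (MulAut.conj g).toMonoidHom) ∧ ∀ M : Subgroup G, IsCoatom M → Nonempty (↥M ≃* Equiv.Perm (Fin 4)) →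 ∃ g : G, M = M₁.map (MulAut.conj g).toMonoidHom ∨ M = M₂.map (MulAut.conj g).toMonoidHom := by
  classical
  have hN7 : ∀ (P : Sylow 7 G) (g : G), Subgroup.normalizer (((g • P : Sylow 7 G) : Subgroup G) : Set G) =
      (Subgroup.normalizer ((P : Subgroup G) : Set G)).map (MulAut.conj g).toMonoidHom := by
    intro P g
    rw [Subgroup.map_equiv_normalizer_eq]
    rfl
  have hno21 : ∀ M : Subgroup G, IsCoatom M → Nat.card M = 21 →
      ∃ P : Sylow 7 G, M = Subgroup.normalizer ((P : Subgroup G) : Set G) := by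
    intro M hM hc
    exact H17.O168.coatom_seven h hM (by rw [hc]; norm_num)
  refine ⟨?_, ?_, ?_⟩
  · intro M hM
    rcases H17.O168.coatom_cases h hM with h1 | ⟨P, hP⟩
    · exact Or.inl (H17.O168.equiv_perm_of_card h h1)
    · right
      rw [hP]
      exact H17.O168.card_of_seven h P
  · intro M M' hM hM' hc hc'
    obtain ⟨P, rfl⟩ := hno21 M hM hc
    obtain ⟨P', rfl⟩ := hno21 M' hM' hc'
    obtain ⟨g, hg⟩ := @MulAction.exists_smul_eq G (Sylow 7 G) _ (@Sylow.isPretransitive_of_finite 7 G _ ⟨by norm_num⟩ _) P P'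
    exact ⟨g, by rw [← hg]; exact hN7 P g⟩
  · obtain ⟨T⟩ : Nonempty (Sylow 2 G) := inferInstance
    obtain ⟨U, W, hU, hW, hUk, hWk, hne, huniv⟩ := H17.O168.exists_two_klein h T
    have cU := H17.O168.card_normalizer_klein h hUk
    have cW := H17.O168.card_normalizer_klein h hWk
    refine ⟨Subgroup.normalizer (U : Set G), Subgroup.normalizer (W : Set G), H17.O168.isCoatom_of_card_24 h cU,
      H17.O168.isCoatom_of_card_24 h cW, H17.O168.equiv_perm_of_card h cU, H17.O168.equiv_perm_of_card h cW, ?_, ?_⟩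
    · intro g hg
      rw [Subgroup.map_equiv_normalizer_eq] at hg
      set U' := U.map (MulAut.conj g).toMonoidHom with hU'
      have hU'k : IsKleinFour U' :=
        H17.isKleinFour_of_mulEquiv (U.equivMapOfInjective _ (MulAut.conj g).injective) hUk
      have hTN : (T : Subgroup G) ≤ Subgroup.normalizer (W : Set G) :=
        H17.O168.le_normalizer_of_card h hWk.card_four hW
      -- U' is a normal 2-subgroup of N(W) so lies in T
      have hU'T : U' ≤ (T : Subgroup G) := by
        have h1 : U' ≤ Subgroup.normalizer (W : Set G) := by rw [hg]; exact Subgroup.le_normalizer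
        have h2 : (U'.subgroupOf (Subgroup.normalizer (W : Set G))).Normal :=
          (Subgroup.normal_subgroupOf_iff_le_normalizer h1).mpr hg.le
        have h3 : IsPGroup 2 (U'.subgroupOf (Subgroup.normalizer (W : Set G))) := by
          have : IsPGroup 2 U' := IsPGroup.of_card (n := 2) (by rw [hU'k.card_four]; rfl)
          exact this.comap_subtype
        have h4 := h3.le_sylow_of_normal (T.subtype hTN)
        intro x hx
        exact h4 (show (⟨x, h1 hx⟩ : Subgroup.normalizer (W : Set G)) ∈ U'.subgroupOf _ from hx)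
      have h5 := H17.O168.klein_eq_of_normalizer_eq h T hU'T hW hU'k hWk hg.symm
      exact H17.O168.klein_not_conj h T hU hW hUk hWk hne g h5
    · intro M hM hMe
      obtain ⟨e⟩ := hMe
      have hc : Nat.card M = 24 := by
        rw [Nat.card_congr e.toEquiv, Nat.card_perm, Nat.card_fin]; rfl
      obtain ⟨V, hVk, rfl⟩ := H17.O168.eq_normalizer_of_card_24 h hc
      obtain ⟨T', hT'⟩ := H17.O168.exists_sylow_of_klein hVk
      obtain ⟨g, hg⟩ := MulAction.exists_smul_eq G T T'
      have hV' : V.map (MulAut.conj g⁻¹).toMonoidHom ≤ (T : Subgroup G) := by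
        rintro _ ⟨x, hx, rfl⟩
        have h1 := hT' hx
        rw [← hg, Sylow.coe_subgroup_smul, Subgroup.mem_pointwise_smul_iff_inv_smul_mem, ← map_inv] at h1
        exact h1
      have hV'k : IsKleinFour (V.map (MulAut.conj g⁻¹).toMonoidHom) :=
        H17.isKleinFour_of_mulEquiv (V.equivMapOfInjective _ (MulAut.conj g⁻¹).injective) hVk
      have h2 : (V.map (MulAut.conj g⁻¹).toMonoidHom).map (MulAut.conj g).toMonoidHom = V := by
        rw [Subgroup.map_map]
        have : (MulAut.conj g).toMonoidHom.comp (MulAut.conj g⁻¹).toMonoidHom = MonoidHom.id G := by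
          ext x
          simp [mul_assoc]
        rw [this, Subgroup.map_id]
      refine ⟨g, ?_⟩
      rcases huniv _ hV' hV'k with h3 | h3
      · left
        rw [Subgroup.map_equiv_normalizer_eq, ← h3, h2]
      · right
        rw [Subgroup.map_equiv_normalizer_eq, ← h3, h2]

end Cfsg.Agent.S1008
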