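import Cfsg.Statements.S1009
import Cfsg.Agent.H17.Basic

set_option autoImplicit false
open Cfsg

namespace Cfsg.Agent.S1009

/-- Brodkey's Theorem: if a finite group has abelian Sylow p-subgroups, then there are two Sylow p-subgroups whose intersection equals the intersection of all Sylow p-subgroups. -/
theorem result {G : Type*} [Group G] [Finite G] (p : ℕ) [Fact p.Prime] (hab : ∀ P : Sylow p G, IsMulCommutative ↥(P : Subgroup G)) : ∃ P Q : Sylow p G, (P : Subgroup G) ⊓ (Q : Subgroup G) = ⨅ R : Sylow p G, (R : Subgroup G) := by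
  classical
  -- choose a pair with minimal intersection order
  have hfin : Finite (Sylow p G × Sylow p G) := inferInstance
  have hne : Nonempty (Sylow p G × Sylow p G) := inferInstance
  obtain ⟨⟨P, Q⟩, hmin⟩ := Finite.exists_min
    (fun x : Sylow p G × Sylow p G => Nat.card ↥((x.1 : Subgroup G) ⊓ (x.2 : Subgroup G)))
  refine ⟨P, Q, le_antisymm (le_iInf fun R => ?_) (le_inf (iInf_le _ P) (iInf_le _ Q))⟩
  set D : Subgroup G := (P : Subgroup G) ⊓ (Q : Subgroup G) with hD
  set C : Subgroup G := Subgroup.centralizer (D : Set G) with hC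
  have hPC : (P : Subgroup G) ≤ C := by
    intro x hx
    rw [hC, Subgroup.mem_centralizer_iff]
    intro y hy
    have hy' : y ∈ (P : Subgroup G) := hy.1
    have := hab P
    exact congrArg Subtype.val (mul_comm' (⟨y, hy'⟩ : (P : Subgroup G)) ⟨x, hx⟩)
  have hQC : (Q : Subgroup G) ≤ C := by
    intro x hx
    rw [hC, Subgroup.mem_centralizer_iff]
    intro y hy
    have hy' : y ∈ (Q : Subgroup G) := hy.2
    have := hab Q
    exact congrArg Subtype.val (mul_comm' (⟨y, hy'⟩ : (Q : Subgroup G)) ⟨x, hx⟩)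
  -- R ⊓ C is a p-subgroup of C
  have hpg : IsPGroup p ((R : Subgroup G).subgroupOf C) := R.2.comap_subtype
  obtain ⟨T, hT⟩ := hpg.exists_le_sylow
  obtain ⟨c, hc⟩ := MulAction.exists_smul_eq C T (Q.subtype hQC)
  -- R^c
  let R' : Sylow p G := (c : G) • R
  have h1 : (R' : Subgroup G) ⊓ C ≤ (Q : Subgroup G) := by
    rintro x ⟨hx1, hx2⟩
    have hx1' : x ∈ ((c : G) • R : Sylow p G).toSubgroup := hx1
    rw [Sylow.coe_subgroup_smul, Subgroup.mem_pointwise_smul_iff_inv_smul_mem] at hx1'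
    have hx3 : (MulAut.conj (c : G))⁻¹ • x = (c : G)⁻¹ * x * (c : G) := by
      rw [← map_inv, MulAut.smul_def, MulAut.conj_apply, inv_inv]
    rw [hx3] at hx1'
    have hx4 : (c : G)⁻¹ * x * (c : G) ∈ C := C.mul_mem (C.mul_mem (C.inv_mem c.2) hx2) c.2
    have hx5 : (⟨(c : G)⁻¹ * x * (c : G), hx4⟩ : C) ∈ T := hT hx1'
    have hx6 : (MulAut.conj c) • (⟨(c : G)⁻¹ * x * (c : G), hx4⟩ : C) ∈ (c • T : Sylow p C).toSubgroup := by
      rw [Sylow.coe_subgroup_smul]
      exact Subgroup.smul_mem_pointwise_smul _ _ _ hx5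
    rw [hc] at hx6
    have hx7 : ((MulAut.conj c) • (⟨(c : G)⁻¹ * x * (c : G), hx4⟩ : C) : C) = ⟨x, hx2⟩ := by
      apply Subtype.ext
      rw [MulAut.smul_def, MulAut.conj_apply]
      simp only [Subgroup.coe_mul, Subgroup.coe_inv]
      group
    rw [hx7] at hx6
    exact hx6
  have h2 : (R' : Subgroup G) ⊓ (P : Subgroup G) ≤ D := by
    intro x hx
    exact ⟨hx.2, h1 ⟨hx.1, hPC hx.2⟩⟩
  have h3 := hmin (R', P)
  have h4 : (R' : Subgroup G) ⊓ (P : Subgroup G) = D := Subgroup.eq_of_le_of_card_ge h2 h3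
  intro x hx
  have hx1 : x ∈ (R' : Subgroup G) := by
    rw [← h4] at hx
    exact hx.1
  have hx1' : x ∈ ((c : G) • R : Sylow p G).toSubgroup := hx1
  rw [Sylow.coe_subgroup_smul, Subgroup.mem_pointwise_smul_iff_inv_smul_mem] at hx1'
  have hx3 : (MulAut.conj (c : G))⁻¹ • x = (c : G)⁻¹ * x * (c : G) := by
    rw [← map_inv, MulAut.smul_def, MulAut.conj_apply, inv_inv]
  rw [hx3] at hx1'
  have hx4 : x * (c : G) = (c : G) * x := Subgroup.mem_centralizer_iff.mp c.2 x hx
  have hx5 : (c : G)⁻¹ * x * (c : G) = x := by rw [mul_assoc, hx4]; group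
  rwa [hx5] at hx1'

end Cfsg.Agent.S1009
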