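import Cfsg.Statements.S1014
import Cfsg.Agent.H17.PermSylow

set_option autoImplicit false
open Cfsg

namespace Cfsg.Agent.S1014

/-- No finite simple group has order 1104 = 2^4 * 3 * 23. -/
theorem result {G : Type*} [Group G] [Finite G] [IsSimpleGroup G] : Nat.card G ≠ 1104 := by
  intro h
  have hG : ¬ IsMulCommutative G := H17.not_comm_of_not_prime (by rw [h]; norm_num)
  have : Fact (Nat.Prime 23) := ⟨by norm_num⟩
  have h1 := H17.card_sylow_mem (p := 23) (G := G) (k := 1) (m := 48) (by rw [h]; rfl) (by norm_num)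
  rw [show (Nat.divisors 48).filter (· % 23 = 1) = {1, 24} by decide +kernel] at h1
  have h2 := H17.card_sylow_ne_one (p := 23) hG (by rw [h]; norm_num)
  have h3 : Nat.card (Sylow 23 G) = 24 := by simpa [h2] using h1
  obtain ⟨P⟩ : Nonempty (Sylow 23 G) := inferInstance
  have h4 := H17.card_normalizer_mul P
  rw [h3, h] at h4
  have h5 := H17.card_sylow_eq P (k := 1) (m := 48) (by rw [h]; rfl) (by norm_num)
  have h6 := H17.two_mul_card_normalizer_dvd hG (by norm_num) (Subgroup.normalizer ((P : Subgroup G) : Set G))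
    (Or.inr (P.card_eq_index_normalizer.symm.trans (by rw [h3]))) P (by simpa using h5)
  have h7 : Nat.card (Subgroup.normalizer ((P : Subgroup G) : Set G)) = 46 := by omega
  rw [h7] at h6
  norm_num at h6

end Cfsg.Agent.S1014
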