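import Cfsg.Statements.S1015
import Cfsg.Agent.H17.SylowInter

set_option autoImplicit false
open Cfsg

namespace Cfsg.Agent.S1015

/-- No finite simple group has order 1200 = 2^4 * 3 * 5^2. -/
theorem result {G : Type*} [Group G] [Finite G] [IsSimpleGroup G] : Nat.card G ≠ 1200 := by
  intro h
  have hG : ¬ IsMulCommutative G := H17.not_comm_of_not_prime (by rw [h]; norm_num)
  have : Fact (Nat.Prime 5) := ⟨by norm_num⟩
  have h1 := H17.card_sylow_mem (p := 5) (G := G) (k := 2) (m := 48) (by rw [h]; rfl) (by norm_num)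
  rw [show (Nat.divisors 48).filter (· % 5 = 1) = {1, 6, 16} by decide +kernel] at h1
  have h2 := H17.card_sylow_ne_one (p := 5) hG (by rw [h]; norm_num)
  have h3 := H17.two_mul_card_dvd_factorial_card_sylow (p := 5) hG (by rw [h]; norm_num)
  have h4 : Nat.card (Sylow 5 G) = 16 := by
    simp only [Finset.mem_insert, Finset.mem_singleton] at h1
    rcases h1 with h1 | h1 | h1
    · exact absurd h1 h2
    · rw [h1, h] at h3
      exfalso
      revert h3
      decide
    · exact h1
  obtain ⟨P, D, hDc, hDP, hPC, hNt, hN1, hN2, hN3⟩ := H17.exists_subgroup_of_sq (p := 5) (G := G) (m := 48)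
    (by rw [h]; rfl) (by norm_num) (by rw [h4]; decide)
  have h5 := H17.two_mul_card_dvd_factorial hG _ hNt
  rw [h] at h5
  have h6 : 6 ≤ Nat.card (Sylow 5 (Subgroup.normalizer (D : Set G))) := by omega
  have h7 : (Subgroup.normalizer (D : Set G)).index ≤ 8 := by
    have := Nat.le_of_dvd (by norm_num) hN3
    nlinarith
  have h8 : 0 < (Subgroup.normalizer (D : Set G)).index := Nat.pos_of_ne_zero Subgroup.FiniteIndex.index_ne_zero
  revert h5
  generalize (Subgroup.normalizer (D : Set G)).index = i at *
  interval_cases i <;> decide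

end Cfsg.Agent.S1015
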