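import Cfsg.Statements.S1016
import Mathlib
import Cfsg.Agent.H37.OrdC

set_option autoImplicit false
open Cfsg

namespace Cfsg.Agent.S1016

/-- No finite simple group has order 1440 = 2^5 * 3^2 * 5. -/
theorem result {G : Type*} [Group G] [Finite G] [IsSimpleGroup G] : Nat.card G ≠ 1440 := by
  intro hG
  have : Fact (Nat.Prime 5) := ⟨by norm_num⟩
  obtain ⟨S⟩ : Nonempty (Sylow 5 G) := inferInstance
  obtain ⟨-, -, n, -, h⟩ := Cfsg.Agent.H37.Ord.arith_one (G := G) 2 3 5 5 2 (by norm_num) (by norm_num) (by norm_num)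
    (by norm_num) (by norm_num) (by rw [hG]; norm_num) (by rw [hG]; norm_num) S
  have hm := h.hm
  have h1 := h.n_mod
  have h2 := h.e_two
  have h3 : Cfsg.Agent.BR.ind (S : Subgroup G) ≤ 4 := Nat.le_of_dvd (by norm_num) h.e_dvd
  have h4 := h.e_dvd
  generalize Cfsg.Agent.BR.ind (S : Subgroup G) = e at hm h1 h2 h3 h4
  rw [mul_one] at hm
  interval_cases e <;> omega

end Cfsg.Agent.S1016
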