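import Cfsg.Statements.S1022
import Mathlib
import Cfsg.Agent.H37.OrdE

set_option autoImplicit false
open Cfsg

namespace Cfsg.Agent.S1022

open Subgroup Cfsg.Agent.BR Cfsg.Agent.H37.Ord
open Cfsg.Agent.CharBase (oneIrr)

theorem num_n {n k : ℕ} (hm : 24192 = n * k) (h1 : n % 19 = 1) (h2 : n ≠ 1) : n = 96 ∨ n = 1008 := by
  obtain ⟨j, hj⟩ : ∃ j, n = 19 * j + 1 := ⟨n / 19, by omega⟩
  subst hj
  rcases Nat.lt_or_ge (19 * j + 1) 156 with h3 | h3
  · have h4 : j < 9 := by omega
    interval_cases j <;> omega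
  · have h4 : k < 156 := by
      by_contra hc
      have : 156 * 156 ≤ (19 * j + 1) * k := Nat.mul_le_mul h3 (by omega)
      omega
    interval_cases k <;> omega

theorem dvd_6048 {f : ℕ} (h : f ∣ 6048) (h1 : 1 < f) (h2 : f % 19 = 1 ∨ f % 19 = 18) :
    f = 18 ∨ f = 56 ∨ f = 96 ∨ f = 1008 ∨ f = 189 := by
  obtain ⟨k, hk⟩ := h
  rcases Nat.lt_or_ge f 78 with h3 | h3
  · interval_cases f <;> omega
  · have h4 : k < 78 := by
      by_contra hc
      have : 78 * 78 ≤ f * k := Nat.mul_le_mul h3 (by omega)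
      omega
    interval_cases k <;> omega

theorem case_two (F : ℤ) (h1 : F.natAbs ∣ 2016) (h2 : (1 + F).natAbs ∣ 2016) (h3 : 1 < F.natAbs)
    (h4 : F % 19 = 1) : False := by
  have h5 : F.natAbs ≤ 2016 := Nat.le_of_dvd (by norm_num) h1
  obtain ⟨j, hj⟩ : ∃ j, F = 19 * j + 1 := ⟨F / 19, by omega⟩
  subst hj
  have h6 : j ∈ Finset.Icc (-107 : ℤ) 107 := by rw [Finset.mem_Icc]; omega
  have key : ∀ j ∈ Finset.Icc (-107 : ℤ) 107, ¬ ((19 * j + 1).natAbs ∣ 2016 ∧ (1 + (19 * j + 1)).natAbs ∣ 2016 ∧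
    1 < (19 * j + 1).natAbs) := by decide +kernel
  exact key j h6 ⟨h1, h2, h3⟩

theorem case_three_aux (F : ℤ) (h1 : F.natAbs ∣ 3024) (h3 : 1 < F.natAbs)
    (h4 : F % 19 = 1) : F = -18 ∨ F = -56 ∨ F = 1008 ∨ F = -189 := by
  have h5 : F.natAbs ≤ 3024 := Nat.le_of_dvd (by norm_num) h1
  obtain ⟨j, hj⟩ : ∃ j, F = 19 * j + 1 := ⟨F / 19, by omega⟩
  subst hj
  have h6 : j ∈ Finset.Icc (-160 : ℤ) 160 := by rw [Finset.mem_Icc]; omega
  have key : ∀ j ∈ Finset.Icc (-160 : ℤ) 160, (19 * j + 1).natAbs ∣ 3024 → 1 < (19 * j + 1).natAbs →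
    (19 * j + 1 = -18 ∨ 19 * j + 1 = -56 ∨ 19 * j + 1 = 1008 ∨ 19 * j + 1 = -189) := by decide +kernel
  exact key j h6 h1 h3

theorem case_three (F₁ F₂ : ℤ) (h1 : F₁.natAbs ∣ 3024) (h2 : F₂.natAbs ∣ 3024) (h3 : (1 + F₁ + F₂).natAbs ∣ 3024)
    (h4 : 1 < F₁.natAbs) (h5 : 1 < F₂.natAbs) (h6 : F₁ % 19 = 1) (h7 : F₂ % 19 = 1) : False := by
  rcases case_three_aux F₁ h1 h4 h6 with rfl | rfl | rfl | rfl <;>
    rcases case_three_aux F₂ h2 h5 h7 with rfl | rfl | rfl | rfl <;> revert h3 <;> decide +kernel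

theorem key (f : ℕ) (d a : ℤ) (h1 : f ∣ 6048) (h3 : 1 < f) (hd : d = 1 ∨ d = -1) (h2 : ((19 : ℕ) : ℤ) ∣ (f : ℤ) - d)
    (h4 : ((19 : ℕ) : ℤ) ∣ d - a) (h5 : (2 : ℤ) ∣ a - f) (h6 : |a| ≤ f) (h7 : a ≠ f) :
    (d * (f : ℤ) = -189 ∧ f = 189) ∨
      (f ≠ 189 ∧ 324 ≤ a ^ 2 ∧ (d * (f : ℤ) = -56 ∨ d * (f : ℤ) = 96 ∨ d * (f : ℤ) = 1008)) := by
  rw [abs_le] at h6
  obtain ⟨h6, h6'⟩ := h6
  have h8 : f % 19 = 1 ∨ f % 19 = 18 := by omega
  have h9 : (a ≤ -18 ∨ 18 ≤ a) → 324 ≤ a ^ 2 := by
    rintro (h9 | h9) <;> nlinarith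
  rcases dvd_6048 h1 h3 h8 with h | h | h | h | h
  · exfalso; subst h; omega
  · right
    subst h
    have hd' : d = -1 := by omega
    subst hd'
    exact ⟨by norm_num, h9 (by omega), by norm_num⟩
  · right
    subst h
    have hd' : d = 1 := by omega
    subst hd'
    exact ⟨by norm_num, h9 (by omega), by norm_num⟩
  · right
    subst h
    have hd' : d = 1 := by omega
    subst hd'
    exact ⟨by norm_num, h9 (by omega), by norm_num⟩
  · left
    subst h
    have hd' : d = -1 := by omega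
    subst hd'
    exact ⟨by norm_num, rfl⟩

/-- No finite simple group has order 459648 = 2^7 * 3^3 * 7 * 19. -/
theorem result {G : Type*} [Group G] [Finite G] [IsSimpleGroup G] : Nat.card G ≠ 459648 := by
  classical
  intro hG
  have hpF : Fact (Nat.Prime 19) := ⟨by norm_num⟩
  have h2F : Fact (Nat.Prime 2) := ⟨by norm_num⟩
  have hnp : ¬ (Nat.card G).Prime := by rw [hG]; norm_num
  have hperf := perfect_of_simple (noncomm hnp)
  obtain ⟨P⟩ : Nonempty (Sylow 19 G) := inferInstance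
  obtain ⟨hP, n, v, hn, hv, har⟩ := arith (G := G) (p := 19) (m := 24192) (by rw [hG]) (by norm_num) hnp P
  have hsyl : Nat.card (Sylow 19 G) = n := by rw [hn]; exact P.card_eq_index_normalizer
  have hn96 : n = 1008 := by
    rcases num_n har.hm har.n_mod har.n_ne with h | h
    · exact absurd (hsyl.trans h) (no_96 _ G rfl (by rw [hG]))
    · exact h
  have hm := har.hm
  have he1 := har.e_dvd
  have he2 := har.e_two
  have hetwo := har.two
  have hethree := har.three
  rw [hn96] at hm hetwo hethree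
  have hev : ind (P : Subgroup G) * v = 24 := by omega
  have he18 : ind (P : Subgroup G) ≤ 18 := Nat.le_of_dvd (by norm_num) he1
  have he : ind (P : Subgroup G) = 6 ∧ v = 4 := by
    clear har
    generalize ind (P : Subgroup G) = e at *
    have he3 : e ≠ 2 := by
      intro h
      obtain ⟨F, h1, h2, h3, -, h4⟩ := hetwo h
      exact case_two F h1 h2 h3 h4
    have he4 : e ≠ 3 := by
      intro h
      obtain ⟨F₁, F₂, h1, h2, h3, h4, h5, -, h6, h7⟩ := hethree h
      exact case_three F₁ F₂ h1 h2 h3 h4 h5 h6 h7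
    clear hetwo hethree
    interval_cases e <;> omega
  obtain ⟨he, hv4⟩ := he
  rw [hv4] at hv
  -- involution
  obtain ⟨t0, ht0⟩ := exists_prime_orderOf_dvd_card' (G := centralizer ((P : Subgroup G) : Set G)) 2
    (by rw [hv]; norm_num)
  obtain ⟨t, htC⟩ := t0
  have ht : orderOf t = 2 := (Subgroup.orderOf_coe (⟨t, htC⟩ : centralizer ((P : Subgroup G) : Set G))).trans ht0
  have ht1 : t ≠ 1 := by rintro rfl; rw [orderOf_one] at ht; norm_num at ht
  have hNc : Nat.card (normalizer ((P : Subgroup G) : Set G)) = 456 := by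
    have h1 := Subgroup.index_mul_card (normalizer ((P : Subgroup G) : Set G))
    rw [← hn, hn96, hG] at h1
    omega
  have hPK : (P : Subgroup G) ≤ centralizer ({t} : Set G) := by
    intro x hx
    rw [mem_centralizer_singleton_iff]
    exact ((mem_centralizer_iff.1 htC) x hx)
  have hCt : Nat.card (centralizer ({t} : Set G)) ≤ 456 := by
    have h1 : centralizer ({t} : Set G) ≤ normalizer ((P : Subgroup G) : Set G) := by
      rw [← Subgroup.relIndex_eq_one]
      by_contra hne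
      have h2 := H65.SylowNum.card_sylow_subgroup P hPK
      have h3 : Nat.card (Sylow 19 (centralizer ({t} : Set G))) % 19 = 1 := card_sylow_modEq_one 19 _
      have h4 : Nat.card (Sylow 19 (centralizer ({t} : Set G))) ≠ 96 :=
        no_96 _ (centralizer ({t} : Set G)) rfl (by rw [← hG]; exact Subgroup.card_subgroup_dvd_card _)
      rw [h2] at h3 h4
      have h5 : (normalizer ((P : Subgroup G) : Set G)).relIndex (centralizer ({t} : Set G)) ∣ 24192 := by
        have h6 : 19 * (normalizer ((P : Subgroup G) : Set G)).relIndex (centralizer ({t} : Set G)) ∣ 19 * 24192 := by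
          have h7 : Nat.card (P : Subgroup G) * (P : Subgroup G).relIndex (centralizer ({t} : Set G)) =
              Nat.card (centralizer ({t} : Set G)) := by
            have h8 := Subgroup.card_mul_index ((P : Subgroup G).subgroupOf (centralizer ({t} : Set G)))
            rw [Nat.card_congr (Subgroup.subgroupOfEquivOfLe hPK).toEquiv] at h8
            exact h8
          have h8 : (normalizer ((P : Subgroup G) : Set G)).relIndex (centralizer ({t} : Set G)) ∣
              (P : Subgroup G).relIndex (centralizer ({t} : Set G)) :=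
            Subgroup.relIndex_dvd_of_le_left _ le_normalizer
          rw [hP.card] at h7
          have h9 : Nat.card (centralizer ({t} : Set G)) ∣ 19 * 24192 := by
            rw [show 19 * 24192 = 459648 by norm_num, ← hG]
            exact Subgroup.card_subgroup_dvd_card _
          rw [← h7] at h9
          exact (Nat.mul_dvd_mul_left 19 h8).trans h9
        exact Nat.dvd_of_mul_dvd_mul_left (by norm_num) h6
      obtain ⟨k, hk⟩ := h5
      rcases num_n hk h3 hne with h6 | h6
      · exact h4 h6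
      · have h7 := cover P (centralizer ({t} : Set G)) (by rw [h6, ← hn, hn96])
        have h8 : t ∈ (centralizer ((P : Subgroup G) : Set G)).normalCore := by
          intro g
          obtain ⟨k, hk, h, hh, hg⟩ := h7 g⁻¹
          have h9 : g = h⁻¹ * k⁻¹ := by rw [← mul_inv_rev, ← hg, inv_inv]
          rw [mem_centralizer_singleton_iff] at hk
          have h10 : g * t * g⁻¹ = h⁻¹ * t * h := by
            rw [h9]
            calc h⁻¹ * k⁻¹ * t * (h⁻¹ * k⁻¹)⁻¹ = h⁻¹ * k⁻¹ * (t * k) * h := by group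
              _ = h⁻¹ * t * h := by rw [← hk]; group
          change g * t * g⁻¹ ∈ centralizer ((P : Subgroup G) : Set G)
          rw [h10, mem_centralizer_iff]
          intro x hx
          have h11 : h * x * h⁻¹ ∈ (P : Subgroup G) := (mem_normalizer_iff.1 hh x).1 hx
          have h12 := (mem_centralizer_iff.1 htC) _ h11
          calc x * (h⁻¹ * t * h) = h⁻¹ * ((h * x * h⁻¹) * t) * h := by group
            _ = h⁻¹ * t * h * x := by rw [h12]; group
        rcases (Subgroup.normalCore_normal (centralizer ((P : Subgroup G) : Set G))).eq_bot_or_eq_top with h9 | h9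
        · rw [h9, mem_bot] at h8
          exact ht1 h8
        · have h10 : centralizer ((P : Subgroup G) : Set G) = ⊤ := by
            rw [eq_top_iff, ← h9]
            exact Subgroup.normalCore_le _
          rw [h10, Subgroup.card_top, hG] at hv
          norm_num at hv
    rw [← hNc]
    exact Subgroup.card_le_of_le h1
  obtain ⟨B⟩ := CycG.nonempty_data hP
  choose a ha ha19 ha2 hale using exists_val hP B (by norm_num) ht htC
  have hne : ∀ χ : IrrCharacter G, χ ≠ oneIrr G → a χ ≠ dg χ := by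
    intro χ hχ h
    apply hχ
    apply eq_one_of_ker χ ht1
    rw [ha, dg_eq, h]
    push_cast
    rfl
  have hdeg1 : ∀ χ : IrrCharacter G, χ ≠ oneIrr G → 1 < dg χ := by
    intro χ hχ
    have h1 := dg_pos χ
    have h2 : dg χ ≠ 1 := fun h => hχ (eq_one_of_perfect hperf h)
    omega
  have hX : ∀ χ ∈ B.X.erase (oneIrr G), (B.δ χ * (dg χ : ℤ) = -189 ∧ dg χ = 189) ∨
      (dg χ ≠ 189 ∧ 324 ≤ (a χ) ^ 2 ∧
        (B.δ χ * (dg χ : ℤ) = -56 ∨ B.δ χ * (dg χ : ℤ) = 96 ∨ B.δ χ * (dg χ : ℤ) = 1008)) := by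
    intro χ hχ
    have hχX := Finset.mem_of_mem_erase hχ
    have hχ1 := Finset.ne_of_mem_erase hχ
    have h1 := B.dvd_X hP hχX
    rw [he, ← hn, hn96] at h1
    exact key (dg χ) (B.δ χ) (a χ) h1 (hdeg1 χ hχ1) (B.sgn χ hχX) (B.congr_X hP hχX) (ha19 χ hχX) (ha2 χ)
      (hale χ) (hne χ hχ1)
  -- at most one character of degree ≠ 189
  set E := (B.X.erase (oneIrr G)).filter (fun χ => dg χ ≠ 189) with hE
  have hE1 : E.card ≤ 1 := by
    rw [Finset.card_le_one]
    intro χ hχ χ' hχ'
    by_contra hne'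
    rw [hE, Finset.mem_filter] at hχ hχ'
    have h1 := sum_sq_le t {χ, χ'} a (fun χ _ => ha χ)
    rw [Finset.sum_pair hne'] at h1
    have h2 : 324 ≤ (a χ) ^ 2 := by
      rcases hX χ hχ.1 with h | h
      · exact absurd h.2 hχ.2
      · exact h.2.1
    have h3 : 324 ≤ (a χ') ^ 2 := by
      rcases hX χ' hχ'.1 with h | h
      · exact absurd h.2 hχ'.2
      · exact h.2.1
    have h4 : (Nat.card (centralizer ({t} : Set G)) : ℤ) ≤ 456 := by exact_mod_cast hCt
    omega
  have hcX : (B.X.erase (oneIrr G)).card = 5 := by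
    rw [Finset.card_erase_of_mem B.one_mem, B.cardX, he]
  have hsplit := Finset.sum_filter_add_sum_filter_not (B.X.erase (oneIrr G)) (fun χ => dg χ ≠ 189)
    (fun χ => B.δ χ * (dg χ : ℤ))
  have hcsplit := Finset.card_filter_add_card_filter_not (s := B.X.erase (oneIrr G)) (fun χ => dg χ ≠ 189)
  rw [← hE, hcX] at hcsplit
  rw [← hE] at hsplit
  have hF : ∑ χ ∈ (B.X.erase (oneIrr G)).filter (fun χ => ¬ dg χ ≠ 189), B.δ χ * (dg χ : ℤ) =
      ((B.X.erase (oneIrr G)).filter (fun χ => ¬ dg χ ≠ 189)).card * (-189) := by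
    rw [Finset.sum_congr rfl (g := fun _ => (-189 : ℤ)), Finset.sum_const, nsmul_eq_mul]
    intro χ hχ
    rw [Finset.mem_filter, not_not] at hχ
    rcases hX χ hχ.1 with h | h
    · exact h.1
    · exact absurd hχ.2 h.1
  obtain ⟨ψ, hψ⟩ := B.Y_nonempty (by norm_num)
  have hdψ := B.dvd_Y hP hψ
  rw [he, ← hn, hn96] at hdψ
  have h1 := B.degEq hψ
  rw [← Finset.add_sum_erase _ _ B.one_mem, B.δ_one hP, ← hsplit, hF] at h1
  have h2 : dg (oneIrr G) = 1 := by
    have h3 := dg_eq (oneIrr G)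
    rw [CharBase.oneIrr_apply] at h3
    exact_mod_cast h3.symm
  rw [h2] at h1
  have hcases : E.card = 0 ∨ E.card = 1 := by omega
  rcases hcases with h0 | h0
  · rw [h0] at hcsplit
    rw [Finset.card_eq_zero.1 h0, Finset.sum_empty] at h1
    have h3 : ((B.X.erase (oneIrr G)).filter (fun χ => ¬ dg χ ≠ 189)).card = 5 := by omega
    rw [h3] at h1
    have h4 : dg ψ = 944 := by
      rcases B.sgn₀ with h | h <;> rw [h] at h1 <;> push_cast at h1 <;> omega
    rw [h4] at hdψ
    norm_num at hdψ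
  · rw [h0] at hcsplit
    obtain ⟨χ, hχ⟩ := Finset.card_eq_one.1 h0
    rw [hχ, Finset.sum_singleton] at h1
    have hχE : χ ∈ E := by rw [hχ]; exact Finset.mem_singleton_self _
    rw [hE, Finset.mem_filter] at hχE
    have h3 : ((B.X.erase (oneIrr G)).filter (fun χ => ¬ dg χ ≠ 189)).card = 4 := by omega
    rw [h3] at h1
    rcases hX χ hχE.1 with h | ⟨-, -, h⟩
    · exact absurd h.2 hχE.2
    · have h4 : dg ψ = 811 ∨ dg ψ = 659 ∨ dg ψ = 253 := by
        rcases h with h | h | h <;> rw [h] at h1 <;>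
          rcases B.sgn₀ with h' | h' <;> rw [h'] at h1 <;> push_cast at h1 <;> omega
      rcases h4 with h4 | h4 | h4 <;> rw [h4] at hdψ <;> norm_num at hdψ

end Cfsg.Agent.S1022
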