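import Cfsg.Statements.S1024
import Cfsg.Agent.Chev.Desc

set_option autoImplicit false
open Cfsg

namespace Cfsg.Agent.S1024

/-- `x_r(0) = 1`, and `x_r(t) = 1` forces `t = 0`: the map `t ↦ x_r(t)` is injective. -/
theorem result {F : Type*} [Field F] (D : Cfsg.Lie.ChevalleyDatum) (hD : D ∈ [Cfsg.Lie.chevG2, Cfsg.Lie.chevB2, Cfsg.Lie.chevD4, Cfsg.Lie.chevF4, Cfsg.Lie.chevE6, Cfsg.Lie.chevE7, Cfsg.Lie.chevE8]) (r : ℕ) (hr : r < D.nroots) (t : F) :
    D.x F r t = 1 ↔ t = 0 := by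
  have H := Cfsg.Agent.Chev.good_of_mem hD
  constructor
  · intro h
    have h1 := Cfsg.Agent.Chev.x_mulVec_eB_neg (F := F) hr (Cfsg.Agent.Chev.neg_lt H.toGood1 hr)
      (Cfsg.Agent.Chev.neg_ne H.toGood1 hr) t
    rw [h, Matrix.one_mulVec] at h1
    have h2 := congrFun h1 (Sum.inr ⟨r, hr⟩)
    have h3 : r ≠ D.neg r := (Cfsg.Agent.Chev.neg_ne H.toGood1 hr).symm
    simp only [Pi.sub_apply, Pi.add_apply, Pi.smul_apply, Cfsg.Agent.Chev.eB_apply_inr,
      Cfsg.Agent.Chev.hR_apply_inr, h3, if_false, if_true, smul_eq_mul, mul_zero, add_zero, mul_one, zero_sub] at h2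
    have h4 : t ^ 2 = 0 := by
      have := h2.symm
      rwa [neg_eq_zero] at this
    exact pow_eq_zero_iff (two_ne_zero) |>.1 h4
  · rintro rfl
    exact Cfsg.Agent.Chev.x_zero H.toGood1 r

end Cfsg.Agent.S1024
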