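import Cfsg.Statements.S1036
import Cfsg.Agent.ChevGrp.Rows

set_option autoImplicit false
open Cfsg

namespace Cfsg.Agent.S1036

/-- `H` normalises `U` and `U ∩ H = 1`; thus `B = UH` is the semidirect product of `U` by `H`. -/
theorem result {F : Type*} [Field F] (D : Cfsg.Lie.ChevalleyDatum) (hD : D ∈ [Cfsg.Lie.chevG2, Cfsg.Lie.chevB2, Cfsg.Lie.chevD4, Cfsg.Lie.chevF4, Cfsg.Lie.chevE6, Cfsg.Lie.chevE7, Cfsg.Lie.chevE8]) :
    D.diagonalSubgroup F ≤ Subgroup.normalizer (D.posUnipotent F : Set (GL D.Idx F)) ∧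
      D.posUnipotent F ⊓ D.diagonalSubgroup F = ⊥ := by
  obtain ⟨E⟩ := Cfsg.Agent.ChevGrp.DData.nonempty_of_mem hD
  have H := Cfsg.Agent.Chev.good_of_mem hD
  exact ⟨Cfsg.Agent.ChevGrp.borel_normalizes E H, Cfsg.Agent.ChevGrp.Grade.UH E H⟩

end Cfsg.Agent.S1036
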