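import Cfsg.Statements.S1058
import Cfsg.Agent.H41.StHom
import Cfsg.Agent.S1077
import Cfsg.Agent.S1060

set_option autoImplicit false
open Cfsg

namespace Cfsg.Agent.S1058

open Cfsg.Lie Cfsg.Agent.H41

/-- the images of the root elements -/
def sg : ℕ → Equiv.Perm (Fin 6)
  | 0 => Equiv.swap 3 5
  | 1 => Equiv.swap 0 4 * Equiv.swap 1 2 * Equiv.swap 3 5
  | 2 => Equiv.swap 0 1 * Equiv.swap 2 4 * Equiv.swap 3 5
  | 3 => Equiv.swap 1 2
  | 4 => Equiv.swap 0 1
  | 5 => Equiv.swap 0 3 * Equiv.swap 1 2 * Equiv.swap 4 5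
  | 6 => Equiv.swap 0 1 * Equiv.swap 2 3 * Equiv.swap 4 5
  | 7 => Equiv.swap 4 5
  | _ => 1

def gg (r : ℕ) (a : ZMod 2) : Equiv.Perm (Fin 6) := if a = 0 then 1 else sg r

theorem gg0 : ∀ r, chevB2.nroots ≤ r → ∀ a, gg r a = 1 := by
  intro r hr a
  have hr' : 8 ≤ r := hr
  unfold gg
  split_ifs
  · rfl
  · obtain ⟨k, rfl⟩ := Nat.exists_eq_add_of_le hr'
    rw [add_comm]
    rfl

theorem gg1 : ∀ r < 8, ∀ a b : ZMod 2, gg r a * gg r b = gg r (a + b) := by decide +kernel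

set_option synthInstance.maxHeartbeats 400000 in
set_option synthInstance.maxSize 2000 in
theorem gg2 : ∀ r < 8, ∀ s < 8, s ≠ r → s ≠ chevB2.neg r → ∀ a b : ZMod 2, gg s b * gg r a =
      gg r a * gg s b * ((chevB2.commTerms r s).map fun c => gg c.1 ((c.2.1 : ZMod 2) * (-a) ^ c.2.2.1 * b ^ c.2.2.2)).prod := by decide +kernel

theorem gg3 : ∀ r < 8, ∀ a b : ZMod 2, a ≠ 0 → b ≠ 0 → ((chevB2.hWord r a).map fun c => gg c.1 c.2).prod * ((chevB2.hWord r b).map fun c => gg c.1 c.2).prod =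
      ((chevB2.hWord r (a * b)).map fun c => gg c.1 c.2).prod := by
  decide +kernel

theorem sg_top : Subgroup.closure (Set.range sg) = ⊤ := by
  have h0 : sg 0 ∈ Subgroup.closure (Set.range sg) := Subgroup.subset_closure ⟨0, rfl⟩
  have h6 : sg 6 ∈ Subgroup.closure (Set.range sg) := Subgroup.subset_closure ⟨6, rfl⟩
  have h3 : sg 3 ∈ Subgroup.closure (Set.range sg) := Subgroup.subset_closure ⟨3, rfl⟩
  have h4 : sg 4 ∈ Subgroup.closure (Set.range sg) := Subgroup.subset_closure ⟨4, rfl⟩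
  have hc : sg 0 * sg 6 * sg 3 ∈ Subgroup.closure (Set.range sg) := Subgroup.mul_mem _ (Subgroup.mul_mem _ h0 h6) h3
  have h5 := Equiv.Perm.closure_cycle_adjacent_swap (σ := sg 0 * sg 6 * sg 3) (by
      have h6 : sg 0 * sg 6 * sg 3 = List.formPerm [0, 1, 5, 4, 3, 2] := by decide +kernel
      rw [h6]
      exact List.isCycle_formPerm (by decide) (by decide)) (by decide +kernel) 0
  rw [eq_top_iff, ← h5, Subgroup.closure_le]
  rintro x (rfl | hx)
  · exact hc
  · rw [Set.mem_singleton_iff] at hx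
    have : (sg 0 * sg 6 * sg 3) 0 = 1 := by decide +kernel
    rw [hx, this]
    exact h4

/-- B₂(2) ≅ S₆. -/
theorem result {F : Type*} [Field F] [Fintype F] (hF : Fintype.card F = 2) :
    Nonempty (↥(Cfsg.Lie.chevB2.group F) ≃* Equiv.Perm (Fin 6)) := by
  obtain ⟨θ, h1, h2, h3⟩ := Cfsg.Agent.S1077.result (K := F) chevB2 (by simp)
  have hFact : Fact (Nat.Prime 2) := ⟨Nat.prime_two⟩
  obtain ⟨φ, hφ⟩ := StHom.exists_hom hF chevB2 gg gg0 gg1 gg2 gg3
  have hsurj : Function.Surjective φ := by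
    rw [← MonoidHom.range_eq_top, eq_top_iff, ← sg_top, Subgroup.closure_le]
    rintro _ ⟨r, rfl⟩
    exact ⟨_, hφ r 1⟩
  have hker : θ.ker ≤ φ.ker := by
    rw [h2]
    intro z hz
    rw [MonoidHom.mem_ker]
    have h4 : φ z ∈ Subgroup.center (Equiv.Perm (Fin 6)) := by
      rw [Subgroup.mem_center_iff]
      intro y
      obtain ⟨x, rfl⟩ := hsurj y
      rw [← map_mul, ← map_mul, Subgroup.mem_center_iff.1 hz x]
    have h5 : Subgroup.center (Equiv.Perm (Fin 6)) = ⊥ := by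
      rw [eq_bot_iff]
      intro z hz
      rw [Subgroup.mem_bot]
      ext1 i
      by_contra hi
      have hi' : z i ≠ i := hi
      obtain ⟨k, hk1, hk2⟩ : ∃ k : Fin 6, k ≠ i ∧ k ≠ z i := by
        have : ∀ i j : Fin 6, ∃ k : Fin 6, k ≠ i ∧ k ≠ j := by decide
        exact this i (z i)
      have h6 := congrArg (fun w : Equiv.Perm (Fin 6) => w k) (Subgroup.mem_center_iff.1 hz (Equiv.swap i k))
      simp only [Equiv.Perm.mul_apply, Equiv.swap_apply_right] at h6
      have h7 : z k = z i := by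
        have := congrArg (Equiv.swap i k) h6
        rw [Equiv.swap_apply_self, Equiv.swap_apply_of_ne_of_ne hi' hk2.symm] at this
        exact this
      exact hk1 (z.injective h7)
    rw [h5] at h4
    exact h4
  let ψ : ↥(chevB2.group F) →* Equiv.Perm (Fin 6) := (MonoidHom.liftOfSurjective θ h1) ⟨φ, hker⟩
  have hψ : ∀ x, ψ (θ x) = φ x := MonoidHom.liftOfRightInverse_comp_apply _ _ _ _
  have hψs : Function.Surjective ψ := by
    intro y
    obtain ⟨x, rfl⟩ := hsurj y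
    exact ⟨θ x, hψ x⟩
  have hcard : Nat.card ↥(chevB2.group F) = Nat.card (Equiv.Perm (Fin 6)) := by
    have h4 := Cfsg.Agent.S1060.result (F := F) hF
    norm_num at h4
    rw [h4, Nat.card_perm, Nat.card_fin]
    rfl
  have hfin : Finite ↥(chevB2.group F) := Nat.finite_of_card_ne_zero (by rw [hcard]; exact Nat.card_pos.ne')
  exact ⟨MulEquiv.ofBijective ψ ((Nat.bijective_iff_surjective_and_card ψ).2 ⟨hψs, hcard⟩)⟩

end Cfsg.Agent.S1058
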