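import Cfsg.Statements.S1081
import Cfsg.Agent.Chev.GraphData

set_option autoImplicit false
open Cfsg

namespace Cfsg.Agent.S1081

open Cfsg.Agent.Chev

lemma graph_spec {F : Type*} [Field F] {D : Cfsg.Lie.ChevalleyDatum} {l : List ℕ} (H : Good2 D) {gp gq : ℕ}
    {pj : ℕ → ℕ} (G : GOK D gp gq (lpm l)) (hp : PiOK D.rank (lpm l) pj) (hj : ∀ i < D.rank, pj i < D.rank)
    (hs : ∀ i < D.rank, wv gp (D.simple i) = D.simple (lpm l i) ∧ wb gp (D.simple i) = 0) :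
    ∃ α : ↥(D.group F) ≃* ↥(D.group F), ∀ (g : ↥(D.group F)) (i : ℕ) (t : F), i < D.rank →
      (((g : GL D.Idx F) : Matrix D.Idx D.Idx F) = D.x F (D.simple i) t →
        ((α g : GL D.Idx F) : Matrix D.Idx D.Idx F) = D.x F (D.simple (l.getD i 0)) t) ∧
      (((g : GL D.Idx F) : Matrix D.Idx D.Idx F) = D.x F (D.neg (D.simple i)) t →
        ((α g : GL D.Idx F) : Matrix D.Idx D.Idx F) = D.x F (D.neg (D.simple (l.getD i 0))) t) := by
  refine ⟨gAut F H G hp hj, ?_⟩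
  intro g i t hi
  have h1 : gs gp (D.simple i) = 1 := by unfold gs; rw [(hs i hi).2]; rfl
  have hr := H.simple_lt i hi
  constructor
  · intro hg
    rw [gAut_x H G hp hj hr t hg, h1, (hs i hi).1]
    simp [lpm]
  · intro hg
    rw [gAut_x H G hp hj (neg_lt H.toGood1 hr) t hg, G.sneg _ hr, h1, G.neg _ hr, (hs i hi).1]
    simp [lpm]

/-- Graph automorphisms: for E₆ with ρ = (p₁ p₆)(p₃ p₅) and for D₄ with ρ the 3-cycle on the outer nodes there is a group automorphism sending `x_p(t) ↦ x_{ρ(p)}(t)` and `x_{-p}(t) ↦ x_{-ρ(p)}(t)` for every fundamental root `p`. -/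
theorem result {F : Type*} [Field F] (p : Cfsg.Lie.ChevalleyDatum × List ℕ)
    (hp : p ∈ [(Cfsg.Lie.chevE6, [5, 1, 4, 3, 2, 0]), (Cfsg.Lie.chevD4, [2, 1, 3, 0]), (Cfsg.Lie.chevD4, [3, 1, 0, 2])]) :
    ∃ α : ↥(p.1.group F) ≃* ↥(p.1.group F), ∀ (g : ↥(p.1.group F)) (i : ℕ) (t : F), i < p.1.rank →
      (((g : GL p.1.Idx F) : Matrix p.1.Idx p.1.Idx F) = p.1.x F (p.1.simple i) t →
        ((α g : GL p.1.Idx F) : Matrix p.1.Idx p.1.Idx F) = p.1.x F (p.1.simple (p.2.getD i 0)) t) ∧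
      (((g : GL p.1.Idx F) : Matrix p.1.Idx p.1.Idx F) = p.1.x F (p.1.neg (p.1.simple i)) t →
        ((α g : GL p.1.Idx F) : Matrix p.1.Idx p.1.Idx F) = p.1.x F (p.1.neg (p.1.simple (p.2.getD i 0))) t) := by
  simp only [List.mem_cons, List.not_mem_nil, or_false] at hp
  rcases hp with rfl | rfl | rfl
  · exact graph_spec good2_E6 gok_E6_1 piok_E6_1 pj_E6_1 simp_E6_1
  · exact graph_spec good2_D4 gok_D4_1 piok_D4_1 pj_D4_1 simp_D4_1
  · exact graph_spec good2_D4 gok_D4_2 piok_D4_2 pj_D4_2 simp_D4_2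

end Cfsg.Agent.S1081
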