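import Cfsg.Statements.S1095
import Cfsg.Agent.Chev.Desc
import Cfsg.Agent.Chev.HMat

set_option autoImplicit false
open Cfsg

namespace Cfsg.Agent.S1095

/-- `n_p` (p = p_{i+1} fundamental) is the signed monomial matrix `h_{p_j} ↦ h_{p_j} - A_{p_j,p} h_p`, `e_s ↦ η_s e_{w_p(s)}`, with `η_s = ±1`, `η_p = η_{-p} = -1`, `η_s η_{w_p(s)} = (-1)^{A_{p,s}}`, `η_s η_{-s} = 1`. -/
theorem result {F : Type*} [Field F] (D : Cfsg.Lie.ChevalleyDatum) (hD : D ∈ [Cfsg.Lie.chevG2, Cfsg.Lie.chevB2, Cfsg.Lie.chevD4, Cfsg.Lie.chevF4, Cfsg.Lie.chevE6, Cfsg.Lie.chevE7, Cfsg.Lie.chevE8]) (i : ℕ) (hi : i < D.rank) :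
    ∃ η : ℕ → ℤ, (∀ s < D.nroots, η s = 1 ∨ η s = -1) ∧ η (D.simple i) = -1 ∧ η (D.neg (D.simple i)) = -1 ∧
      (∀ s < D.nroots, η s * η (D.reflectRoot i s) = (-1) ^ (D.cartan i s).natAbs ∧ η s * η (D.neg s) = 1) ∧
      D.nMat F (D.simple i) 1 = Matrix.of (fun (row col : D.Idx) =>
        Sum.elim
          (fun j' : Fin D.rank => Sum.elim
            (fun j : Fin D.rank => (if j' = j then (1 : F) else 0) - (if (j' : ℕ) = i then ((D.cartan j (D.simple i) : ℤ) : F) else 0))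
            (fun _ => (0 : F)) col)
          (fun s' : Fin D.nroots => Sum.elim
            (fun _ => (0 : F))
            (fun s : Fin D.nroots => if (s' : ℕ) = D.reflectRoot i s then ((η s : ℤ) : F) else 0) col)
          row) := by
  have H := Cfsg.Agent.Chev.good_of_mem hD
  have hp := H.simple_lt i hi
  have e1 : Cfsg.Agent.Chev.eta D i (D.simple i) = -1 := by simp [Cfsg.Agent.Chev.eta]
  refine ⟨Cfsg.Agent.Chev.eta D i, fun s hs => H.eta_or hi hs, e1, ?_, fun s hs => ⟨H.eta_w i hi s hs, ?_⟩, ?_⟩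
  · rw [Cfsg.Agent.Chev.eta_neg H.toGood1 hi hp, e1]
  · rw [Cfsg.Agent.Chev.eta_neg H.toGood1 hi hs, Cfsg.Agent.Chev.eta_sq H.toGood1 hi hs]
  · apply Cfsg.Agent.Chev.mat_ext_bas
    intro k hk
    unfold Cfsg.Agent.Chev.bas
    split_ifs with h1
    · rw [Cfsg.Agent.Chev.n_mulVec_hB H.toGood2 hi h1]
      conv_rhs => rw [Cfsg.Agent.Chev.hB_of_lt h1]
      rw [Matrix.mulVec_single_one]
      funext x
      rcases x with j | v
      · simp only [Pi.sub_apply, Pi.smul_apply, smul_eq_mul, Cfsg.Agent.Chev.hB_apply_inl, Matrix.col_apply,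
          Matrix.of_apply, Sum.elim_inl, Fin.ext_iff]
        split_ifs <;> simp
      · simp [Cfsg.Agent.Chev.hB_apply_inr, Matrix.col_apply]
    · have hs : k - D.rank < D.nroots := by omega
      rw [Cfsg.Agent.Chev.n_mulVec_eB H.toGood2 hi hs]
      conv_rhs => rw [Cfsg.Agent.Chev.eB_of_lt hs]
      rw [Matrix.mulVec_single_one]
      funext x
      rcases x with j | v
      · simp [Cfsg.Agent.Chev.eB_apply_inl, Matrix.col_apply]
      · simp only [Pi.smul_apply, smul_eq_mul, Cfsg.Agent.Chev.eB_apply_inr, Matrix.col_apply,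
          Matrix.of_apply, Sum.elim_inr]
        split_ifs <;> simp

end Cfsg.Agent.S1095
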