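import Cfsg.Statements.S1097
import Cfsg.Agent.Steinb.Pres

set_option autoImplicit false
open Cfsg

namespace Cfsg.Agent.S1097

/-- Any homomorphism from the presented group to the Chevalley group with `x̄_r(t) ↦ x_r(t)` has kernel contained in `H̄ = ⟨h̄_p(t) : p fundamental, t ≠ 0⟩`. -/
theorem result {K : Type*} [Field K] (D : Cfsg.Lie.ChevalleyDatum) (hD : D ∈ [Cfsg.Lie.chevG2, Cfsg.Lie.chevB2, Cfsg.Lie.chevD4, Cfsg.Lie.chevF4, Cfsg.Lie.chevE6, Cfsg.Lie.chevE7, Cfsg.Lie.chevE8]) (θ : D.SteinbergGroup K →* ↥(D.group K))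
    (hθ : ∀ (r : ℕ) (t : K), r < D.nroots → ((θ (D.stGen K r t) : GL D.Idx K) : Matrix D.Idx D.Idx K) = D.x K r t) :
    θ.ker ≤ Subgroup.closure {h | ∃ (i : ℕ) (t : K), i < D.rank ∧ t ≠ 0 ∧ h = PresentedGroup.mk (D.steinbergRels K) (D.stH (D.simple i) t)} := by
  have H := Cfsg.Agent.Chev.good_of_mem hD
  obtain ⟨E⟩ := Cfsg.Agent.ChevGrp.DData.nonempty_of_mem hD
  have S := Cfsg.Agent.Steinb.sp_of_mem hD
  let P := Cfsg.Agent.Steinb.preOf H (D.steinbergRels K) (Cfsg.Agent.Steinb.relsAB_sub D K) (Cfsg.Agent.Steinb.fX_rels H)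
  have hG : P.Gen := Cfsg.Agent.Steinb.preOf_gen H (D.steinbergRels K) _ _
  have hθP : (D.group K).subtype.comp θ = P.θ := by
    apply PresentedGroup.ext
    rintro ⟨r, t⟩
    have h1 : PresentedGroup.of (rels := D.steinbergRels K) (r, t) = D.stGen K r t := by
      simp [Cfsg.Lie.ChevalleyDatum.stGen, Cfsg.Lie.ChevalleyDatum.stX]
      rfl
    rw [h1]
    apply Units.ext
    rw [MonoidHom.comp_apply, Subgroup.subtype_apply, hθ r t r.2]
    exact (P.θ_coe r.2 t).symm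
  intro g hg
  rw [MonoidHom.mem_ker] at hg
  have h2 : P.θ g = 1 := by
    rw [← hθP, MonoidHom.comp_apply, hg, map_one]
  have h3 := Cfsg.Agent.Steinb.PreSt.mem_T_of_ker S E hG h2
  have h4 : P.T ≤ Subgroup.closure {h | ∃ (i : ℕ) (t : K), i < D.rank ∧ t ≠ 0 ∧ h = PresentedGroup.mk (D.steinbergRels K) (D.stH (D.simple i) t)} := by
    apply Subgroup.closure_mono
    rintro _ ⟨i, c, hi, hc, rfl⟩
    refine ⟨i, c, hi, hc, ?_⟩
    rw [Cfsg.Lie.ChevalleyDatum.stH, Cfsg.Agent.Steinb.mk_stWord]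
    simp only [Cfsg.Lie.ChevalleyDatum.hWord, Cfsg.Lie.ChevalleyDatum.nWord, List.map_append, List.map_cons, List.map_nil,
      List.prod_append, List.prod_cons, List.prod_nil, mul_one]
    simp only [Cfsg.Agent.Steinb.PreSt.hr, Cfsg.Agent.Steinb.PreSt.nr, mul_assoc]
    rfl
  exact h4 h3

end Cfsg.Agent.S1097
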