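import Cfsg.Statements.S1098
import Cfsg.Agent.ChevTw.SpAut
import Cfsg.Agent.ChevTw.Inst

set_option autoImplicit false
set_option maxRecDepth 100000
open Cfsg

namespace Cfsg.Agent.S1098

open Cfsg.Agent.Chev Cfsg.Agent.ChevTw Cfsg.Lie

lemma spec {K : Type*} [Field K] [CharP K 2] (hperf : ∀ x : K, ∃ y : K, y ^ 2 = x) {D : ChevalleyDatum}
    {l : List (ℕ × ℕ)} {th : List (Option ℕ)} {bar lam : List ℕ} (A : SpAll D 2 th bar lam)
    (hs : ∀ i < D.rank, bar.getD (D.simple i) 0 = D.simple (l.getD i (0, 1)).1 ∧ lam.getD (D.simple i) 0 = (l.getD i (0, 1)).2 ∧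
      lam.getD (D.neg (D.simple i)) 0 = (l.getD i (0, 1)).2) :
    ∃ α : ↥(D.group K) ≃* ↥(D.group K), ∀ (g : ↥(D.group K)) (i : ℕ) (t : K), i < D.rank →
      (((g : GL D.Idx K) : Matrix D.Idx D.Idx K) = D.x K (D.simple i) t →
        ((α g : GL D.Idx K) : Matrix D.Idx D.Idx K) = D.x K (D.simple (l.getD i (0, 1)).1) (t ^ (l.getD i (0, 1)).2)) ∧
      (((g : GL D.Idx K) : Matrix D.Idx D.Idx K) = D.x K (D.neg (D.simple i)) t →
        ((α g : GL D.Idx K) : Matrix D.Idx D.Idx K) = D.x K (D.neg (D.simple (l.getD i (0, 1)).1)) (t ^ (l.getD i (0, 1)).2)) := by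
  obtain ⟨α, hα⟩ := A.exists_aut (exists_rinst A.mem A.good K) hperf
  refine ⟨α, ?_⟩
  intro g i t hi
  have hr := A.good.simple_lt i hi
  obtain ⟨h1, h2, h3⟩ := hs i hi
  constructor
  · intro hg
    rw [eq_xG A.good.toGood2 hg, hα _ hr, h1, h2]; rfl
  · intro hg
    rw [eq_xG A.good.toGood2 hg, hα _ (Chev.neg_lt A.good.toGood1 hr), A.sp.neg _ hr, h1, h3]; rfl

/-- Graph automorphisms in characteristic 2 (K perfect): for B₂ (a short, b long) `x_a(t) ↦ x_b(t²)`, `x_b(t) ↦ x_a(t)`, and for F₄ (p₁, p₂ short, p₃, p₄ long) `x_{p₁}(t) ↦ x_{p₄}(t²)`, `x_{p₂}(t) ↦ x_{p₃}(t²)`, `x_{p₃}(t) ↦ x_{p₂}(t)`, `x_{p₄}(t) ↦ x_{p₁}(t)`, likewise on the negatives, extend to an automorphism of the group. -/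
theorem result {K : Type*} [Field K] [CharP K 2] (hperf : ∀ x : K, ∃ y : K, y ^ 2 = x)
    (p : Cfsg.Lie.ChevalleyDatum × List (ℕ × ℕ))
    (hp : p ∈ [(Cfsg.Lie.chevB2, [(1, 2), (0, 1)]), (Cfsg.Lie.chevF4, [(3, 2), (2, 2), (1, 1), (0, 1)])]) :
    ∃ α : ↥(p.1.group K) ≃* ↥(p.1.group K), ∀ (g : ↥(p.1.group K)) (i : ℕ) (t : K), i < p.1.rank →
      (((g : GL p.1.Idx K) : Matrix p.1.Idx p.1.Idx K) = p.1.x K (p.1.simple i) t →
        ((α g : GL p.1.Idx K) : Matrix p.1.Idx p.1.Idx K) = p.1.x K (p.1.simple (p.2.getD i (0, 1)).1) (t ^ (p.2.getD i (0, 1)).2)) ∧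
      (((g : GL p.1.Idx K) : Matrix p.1.Idx p.1.Idx K) = p.1.x K (p.1.neg (p.1.simple i)) t →
        ((α g : GL p.1.Idx K) : Matrix p.1.Idx p.1.Idx K) = p.1.x K (p.1.neg (p.1.simple (p.2.getD i (0, 1)).1)) (t ^ (p.2.getD i (0, 1)).2)) := by
  simp only [List.mem_cons, List.not_mem_nil, or_false] at hp
  rcases hp with rfl | rfl
  · refine spec hperf spAll_B2 ?_
    show ∀ i < 2, _
    decide +kernel
  · refine spec hperf spAll_F4 ?_
    show ∀ i < 4, _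
    decide +kernel

end Cfsg.Agent.S1098
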