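import Cfsg.Statements.S1099
import Cfsg.Agent.ChevTw.SpAut
import Cfsg.Agent.ChevTw.Inst

set_option autoImplicit false
set_option maxRecDepth 100000
open Cfsg

namespace Cfsg.Agent.S1099

open Cfsg.Agent.Chev Cfsg.Agent.ChevTw Cfsg.Lie

lemma tab : barG2.getD g2a 0 = g2b ∧ barG2.getD g2b 0 = g2a ∧ barG2.getD g2ma 0 = g2mb ∧ barG2.getD g2mb 0 = g2ma ∧
    lamG2.getD g2a 0 = 3 ∧ lamG2.getD g2b 0 = 1 ∧ lamG2.getD g2ma 0 = 3 ∧ lamG2.getD g2mb 0 = 1 ∧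
    g2a < chevG2.nroots ∧ g2b < chevG2.nroots ∧ g2ma < chevG2.nroots ∧ g2mb < chevG2.nroots := by decide +kernel

/-- Graph automorphism of G₂ in characteristic 3 (K perfect): `x_a(t) ↦ x_b(t³)`, `x_b(t) ↦ x_a(t)`, `x_{-a}(t) ↦ x_{-b}(t³)`, `x_{-b}(t) ↦ x_{-a}(t)` extend to an automorphism of the group. -/
theorem result {K : Type*} [Field K] [CharP K 3] (hperf : ∀ x : K, ∃ y : K, y ^ 3 = x) :
    ∃ α : ↥(Cfsg.Lie.chevG2.group K) ≃* ↥(Cfsg.Lie.chevG2.group K), ∀ (g : ↥(Cfsg.Lie.chevG2.group K)) (t : K),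
      (((g : GL Cfsg.Lie.chevG2.Idx K) : Matrix _ _ K) = Cfsg.Lie.chevG2.x K Cfsg.Lie.g2a t →
        ((α g : GL Cfsg.Lie.chevG2.Idx K) : Matrix _ _ K) = Cfsg.Lie.chevG2.x K Cfsg.Lie.g2b (t ^ 3)) ∧
      (((g : GL Cfsg.Lie.chevG2.Idx K) : Matrix _ _ K) = Cfsg.Lie.chevG2.x K Cfsg.Lie.g2b t →
        ((α g : GL Cfsg.Lie.chevG2.Idx K) : Matrix _ _ K) = Cfsg.Lie.chevG2.x K Cfsg.Lie.g2a t) ∧
      (((g : GL Cfsg.Lie.chevG2.Idx K) : Matrix _ _ K) = Cfsg.Lie.chevG2.x K Cfsg.Lie.g2ma t →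
        ((α g : GL Cfsg.Lie.chevG2.Idx K) : Matrix _ _ K) = Cfsg.Lie.chevG2.x K Cfsg.Lie.g2mb (t ^ 3)) ∧
      (((g : GL Cfsg.Lie.chevG2.Idx K) : Matrix _ _ K) = Cfsg.Lie.chevG2.x K Cfsg.Lie.g2mb t →
        ((α g : GL Cfsg.Lie.chevG2.Idx K) : Matrix _ _ K) = Cfsg.Lie.chevG2.x K Cfsg.Lie.g2ma t) := by
  have A := spAll_G2
  obtain ⟨α, hα⟩ := A.exists_aut (exists_rinst A.mem A.good K) hperf
  obtain ⟨a1, a2, a3, a4, b1, b2, b3, b4, c1, c2, c3, c4⟩ := tab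
  refine ⟨α, fun g t => ⟨fun hg => ?_, fun hg => ?_, fun hg => ?_, fun hg => ?_⟩⟩
  · rw [eq_xG A.good.toGood2 hg, hα _ c1, a1, b1]; rfl
  · rw [eq_xG A.good.toGood2 hg, hα _ c2, a2, b2, pow_one]; rfl
  · rw [eq_xG A.good.toGood2 hg, hα _ c3, a3, b3]; rfl
  · rw [eq_xG A.good.toGood2 hg, hα _ c4, a4, b4, pow_one]; rfl

end Cfsg.Agent.S1099
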