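import Cfsg.Statements.S1101
import Cfsg.Agent.Ree.Main
-- import your own Cfsg.Agent.* helpers here

set_option autoImplicit false
open Cfsg

namespace Cfsg.Agent.S1101

/-- For ²G₂ over `K` with `|K| = 3^(2m+1)`, `θ = 3^m`: `U¹ = G¹ ∩ U` consists exactly of the elements `x_a(t^θ) x_b(t) x_{a+b}(t^{θ+1}+u^θ) x_{2a+b}(t^{2θ+1}+v^θ) x_{3a+b}(u) x_{3a+2b}(v)`, `t, u, v ∈ K`, and it has `|K|³` elements. -/
theorem result {K : Type*} [Field K] [Fintype K] {m : ℕ} (hK : Fintype.card K = 3 ^ (2 * m + 1)) :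
    (∀ g : GL Cfsg.Lie.chevG2.Idx K, g ∈ Cfsg.Lie.chevG2.posUnipotent K ⊓ Cfsg.Lie.twistedG2 K (3 ^ m) ↔
      ∃ t u v : K, (g : Matrix Cfsg.Lie.chevG2.Idx Cfsg.Lie.chevG2.Idx K) = Cfsg.Lie.chevG2.wordMat K (Cfsg.Lie.reeWordU (3 ^ m) t u v)) ∧
    Nat.card ↥(Cfsg.Lie.chevG2.posUnipotent K ⊓ Cfsg.Lie.twistedG2 K (3 ^ m)) = (3 ^ (2 * m + 1)) ^ 3 := by
  have key : ∀ g : GL Cfsg.Lie.chevG2.Idx K, g ∈ Cfsg.Lie.chevG2.posUnipotent K ⊓ Cfsg.Lie.twistedG2 K (3 ^ m) ↔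
      ∃ t u v : K, (g : Matrix Cfsg.Lie.chevG2.Idx Cfsg.Lie.chevG2.Idx K) = Cfsg.Lie.chevG2.wordMat K (Cfsg.Lie.reeWordU (3 ^ m) t u v) := by
    intro g
    constructor
    · rintro ⟨h1, h2⟩
      obtain ⟨T, U, W, h3⟩ := (Ree.rs hK).mem_U.1 ((Ree.rs_mem_pos hK (g := ⟨g, h2⟩)).1 h1)
      obtain ⟨t, rfl⟩ := Ree.θ_surj hK T
      obtain ⟨u, rfl⟩ := Ree.θ_surj hK U
      obtain ⟨v, rfl⟩ := Ree.θ_surj hK W
      refine ⟨t, u, v, ?_⟩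
      have h4 : g = Ree.wU (Cfsg.Lie.reeWordU (3 ^ m) t u v) := by
        rw [← Ree.iso_x hK]
        exact Subtype.ext_iff.1 h3
      rw [h4, Ree.wU_coe]
    · rintro ⟨t, u, v, h⟩
      have h4 : g = (Ree.iso hK ⟨(Ree.titsOf hK).x (t ^ 3 ^ m) (u ^ 3 ^ m) (v ^ 3 ^ m), (Ree.titsOf hK).x_mem _ _ _⟩ : GL Cfsg.Lie.chevG2.Idx K) := by
        apply Units.ext
        rw [Ree.iso_x hK, Ree.wU_coe, h]
      rw [h4]
      exact ⟨Ree.iso_x_mem hK _ _ _, Subtype.prop _⟩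
  refine ⟨key, ?_⟩
  rw [← Nat.card_congr (Ree.posEquiv hK), Nat.card_prod, Nat.card_prod, Nat.card_eq_fintype_card, hK]
  ring

end Cfsg.Agent.S1101
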