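import Cfsg.Statements.S1103
import Cfsg.Agent.ChevTw.RowsE6
import Cfsg.Agent.ChevGrp.Types

set_option autoImplicit false
set_option maxRecDepth 100000
open Cfsg

namespace Cfsg.Agent.S1103

open Cfsg.Agent.ChevTw Cfsg.Agent.ChevGrp

/-- `N¹/H¹ ≅ W¹`: a surjective homomorphism from `N¹ = G¹ ∩ N` onto the Coxeter group of type F₄ with kernel `H¹`. -/
theorem result {K : Type*} [Field K] [Fintype K] {q : ℕ} (hq : IsPrimePow q) (hK : Fintype.card K = q ^ 2) :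
    ∃ φ : ↥(Cfsg.Lie.chevE6.monomialSubgroup K ⊓ Cfsg.Lie.twistedE6 K q) →* (CoxeterMatrix.F₄).Group, Function.Surjective φ ∧
      φ.ker = (Cfsg.Lie.chevE6.diagonalSubgroup K ⊓ Cfsg.Lie.twistedE6 K q).subgroupOf (Cfsg.Lie.chevE6.monomialSubgroup K ⊓ Cfsg.Lie.twistedE6 K q) := by
  obtain ⟨φ, hφ, hφφ⟩ := setup2 hq hK
  exact (iE6 DData.dF4 (instE6 K) φ hφφ hφ).weyl ((coxd_F4 DData.dF4).equiv (CoxeterMatrix.F₄).toCoxeterSystem)

end Cfsg.Agent.S1103
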