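import Cfsg.Statements.S1104
import Cfsg.Agent.ChevTw.RowsE6
import Cfsg.Agent.ChevGrp.Types

set_option autoImplicit false
set_option maxRecDepth 100000
open Cfsg

namespace Cfsg.Agent.S1104

open Cfsg.Agent.ChevTw Cfsg.Agent.ChevGrp

/-- ²E₆(q) equals its derived subgroup. -/
theorem result {K : Type*} [Field K] [Fintype K] {q : ℕ} (hq : IsPrimePow q) (hK : Fintype.card K = q ^ 2) : commutator ↥(Cfsg.Lie.twistedE6 K q) = ⊤ := by
  obtain ⟨φ, hφ, hφφ⟩ := setup2 hq hK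
  exact perfect_E6 DData.dF4 (instE6 K) φ hφφ hφ

end Cfsg.Agent.S1104
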