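import Cfsg.Statements.S1115
import Cfsg.Agent.Ree.Main
-- import your own Cfsg.Agent.* helpers here

set_option autoImplicit false
open Cfsg

namespace Cfsg.Agent.S1115

/-- `N¹/H¹ ≅ W¹`: a surjective homomorphism from `N¹ = G¹ ∩ N` onto the group of order 2 with kernel `H¹`. -/
theorem result {K : Type*} [Field K] [Fintype K] {m : ℕ} (hK : Fintype.card K = 3 ^ (2 * m + 1)) :
    ∃ φ : ↥(Cfsg.Lie.chevG2.monomialSubgroup K ⊓ Cfsg.Lie.twistedG2 K (3 ^ m)) →* Multiplicative (ZMod 2), Function.Surjective φ ∧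
      φ.ker = (Cfsg.Lie.chevG2.diagonalSubgroup K ⊓ Cfsg.Lie.twistedG2 K (3 ^ m)).subgroupOf (Cfsg.Lie.chevG2.monomialSubgroup K ⊓ Cfsg.Lie.twistedG2 K (3 ^ m)) := by
  classical
  have hd : ∀ g ∈ Cfsg.Lie.twistedG2 K (3 ^ m), ∀ (hg : g ∈ Cfsg.Lie.twistedG2 K (3 ^ m)), (g ∈ Cfsg.Lie.chevG2.diagonalSubgroup K ↔ (⟨g, hg⟩ : ↥(Cfsg.Lie.twistedG2 K (3 ^ m))) ∈ (Ree.rs hK).H) :=
    fun g _ hg => Ree.rs_mem_diag hK (g := ⟨g, hg⟩)
  have hn : ∀ a b : ↥(Cfsg.Lie.twistedG2 K (3 ^ m)), a ∈ (Ree.rs hK).N → b ∈ (Ree.rs hK).N → (a ∈ (Ree.rs hK).H → b ∉ (Ree.rs hK).H → a * b ∉ (Ree.rs hK).H) ∧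
      (a ∉ (Ree.rs hK).H → b ∈ (Ree.rs hK).H → a * b ∉ (Ree.rs hK).H) ∧ (a ∉ (Ree.rs hK).H → b ∉ (Ree.rs hK).H → a * b ∈ (Ree.rs hK).H) := by
    intro a b ha hb
    refine ⟨fun h1 h2 h3 => h2 ?_, fun h1 h2 h3 => h1 ?_, fun h1 h2 => ?_⟩
    · have := mul_mem (inv_mem h1) h3
      rwa [inv_mul_cancel_left] at this
    · have := mul_mem h3 (inv_mem h2)
      rwa [mul_inv_cancel_right] at this
    · rcases ha with ⟨κ, rfl⟩ | ⟨κ, rfl⟩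
      · exact absurd ((Ree.rs hK).h_mem_H κ) h1
      · rcases hb with ⟨l, rfl⟩ | ⟨l, rfl⟩
        · exact absurd ((Ree.rs hK).h_mem_H l) h2
        · rw [(Ree.rs hK).n_mul_h κ, mul_assoc, ← mul_assoc (Ree.rs hK).n, (Ree.rs hK).n_mul_n, one_mul, ← map_mul]
          exact (Ree.rs hK).h_mem_H _
  let f : ↥(Cfsg.Lie.chevG2.monomialSubgroup K ⊓ Cfsg.Lie.twistedG2 K (3 ^ m)) → Multiplicative (ZMod 2) :=
    fun g => if (g : GL Cfsg.Lie.chevG2.Idx K) ∈ Cfsg.Lie.chevG2.diagonalSubgroup K then 1 else Multiplicative.ofAdd 1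
  have h11 : (Multiplicative.ofAdd (1 : ZMod 2)) * Multiplicative.ofAdd 1 = 1 := by decide
  let φ : ↥(Cfsg.Lie.chevG2.monomialSubgroup K ⊓ Cfsg.Lie.twistedG2 K (3 ^ m)) →* Multiplicative (ZMod 2) :=
    { toFun := f
      map_one' := by
        exact if_pos (one_mem _)
      map_mul' := by
        intro a b
        have h := hn ⟨a, a.2.2⟩ ⟨b, b.2.2⟩ ((Ree.rs_mem_mono hK).1 a.2.1) ((Ree.rs_mem_mono hK).1 b.2.1)
        rw [← Ree.rs_mem_diag hK, ← Ree.rs_mem_diag hK, ← Ree.rs_mem_diag hK] at h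
        change (if (a : GL Cfsg.Lie.chevG2.Idx K) * b ∈ Cfsg.Lie.chevG2.diagonalSubgroup K then (1 : Multiplicative (ZMod 2)) else Multiplicative.ofAdd 1) = (if (a : GL Cfsg.Lie.chevG2.Idx K) ∈ Cfsg.Lie.chevG2.diagonalSubgroup K then 1 else Multiplicative.ofAdd 1) * (if (b : GL Cfsg.Lie.chevG2.Idx K) ∈ Cfsg.Lie.chevG2.diagonalSubgroup K then 1 else Multiplicative.ofAdd 1)
        have e1 : (a : GL Cfsg.Lie.chevG2.Idx K) ∈ Cfsg.Lie.chevG2.diagonalSubgroup K → (b : GL Cfsg.Lie.chevG2.Idx K) ∉ Cfsg.Lie.chevG2.diagonalSubgroup K → (a : GL Cfsg.Lie.chevG2.Idx K) * b ∉ Cfsg.Lie.chevG2.diagonalSubgroup K := h.1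
        have e2 : (a : GL Cfsg.Lie.chevG2.Idx K) ∉ Cfsg.Lie.chevG2.diagonalSubgroup K → (b : GL Cfsg.Lie.chevG2.Idx K) ∈ Cfsg.Lie.chevG2.diagonalSubgroup K → (a : GL Cfsg.Lie.chevG2.Idx K) * b ∉ Cfsg.Lie.chevG2.diagonalSubgroup K := h.2.1
        have e3 : (a : GL Cfsg.Lie.chevG2.Idx K) ∉ Cfsg.Lie.chevG2.diagonalSubgroup K → (b : GL Cfsg.Lie.chevG2.Idx K) ∉ Cfsg.Lie.chevG2.diagonalSubgroup K → (a : GL Cfsg.Lie.chevG2.Idx K) * b ∈ Cfsg.Lie.chevG2.diagonalSubgroup K := h.2.2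
        by_cases ha : (a : GL Cfsg.Lie.chevG2.Idx K) ∈ Cfsg.Lie.chevG2.diagonalSubgroup K <;>
          by_cases hb : (b : GL Cfsg.Lie.chevG2.Idx K) ∈ Cfsg.Lie.chevG2.diagonalSubgroup K
        · rw [if_pos ha, if_pos hb, if_pos (mul_mem ha hb), one_mul]
        · rw [if_pos ha, if_neg hb, if_neg (e1 ha hb), one_mul]
        · rw [if_neg ha, if_pos hb, if_neg (e2 ha hb), mul_one]
        · rw [if_neg ha, if_neg hb, if_pos (e3 ha hb), h11] }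
  have hφ : ∀ g, φ g = if (g : GL Cfsg.Lie.chevG2.Idx K) ∈ Cfsg.Lie.chevG2.diagonalSubgroup K then (1 : Multiplicative (ZMod 2)) else Multiplicative.ofAdd 1 := fun _ => rfl
  refine ⟨φ, ?_, ?_⟩
  · intro c
    by_cases hc : c = 1
    · exact ⟨1, by rw [hc, map_one]⟩
    · refine ⟨⟨(Ree.rs hK).n, (Ree.rs_mem_mono hK).2 (Ree.rs hK).n_mem_N, ((Ree.rs hK).n).2⟩, ?_⟩
      rw [hφ, if_neg]
      · revert hc; revert c; decide
      · intro h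
        exact (Ree.rs hK).n_not_mem ((Ree.rs hK).H_le_B ((Ree.rs_mem_diag hK).1 h))
  · ext g
    rw [MonoidHom.mem_ker, Subgroup.mem_subgroupOf, Subgroup.mem_inf, hφ]
    constructor
    · intro h
      by_contra hcon
      rw [if_neg (fun h' => hcon ⟨h', g.2.2⟩)] at h
      exact absurd h (by decide)
    · intro h
      rw [if_pos h.1]

end Cfsg.Agent.S1115
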