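import Cfsg.Statements.S1118
import Cfsg.Agent.H20.RankOneSetup

set_option autoImplicit false
open Cfsg

namespace Cfsg.Agent.S1118

/-- In the rank-one set-up (`G` finite and doubly transitive on `Ω`, `t` an involution moving `a`, `Q` normal in `G_a` with `G_a = Q D`, `Q ⊓ D = 1` for the two-point stabiliser `D = G_a ⊓ G_{t • a}`, `|Q|` even, `|D|` odd), the normaliser of a subset of `Q` containing a non-identity element lies in `G_a`; consequently `N_G(Q) = N_G(G_a) = G_a`. -/
theorem result {G Ω : Type*} [Group G] [Finite G] [MulAction G Ω] {a : Ω} {t : G} {Q : Subgroup G}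
    (hS : Cfsg.IsRankOneSetup G Ω a t Q) :
    (∀ X : Set G, X ⊆ (Q : Set G) → (∃ x ∈ X, x ≠ 1) → Subgroup.normalizer X ≤ MulAction.stabilizer G a) ∧
      Subgroup.normalizer (Q : Set G) = MulAction.stabilizer G a ∧
      Subgroup.normalizer (MulAction.stabilizer G a : Set G) = MulAction.stabilizer G a := by
  open Cfsg.Agent.H20.RO in
  have h1 : ∀ X : Set G, X ⊆ (Q : Set G) → (∃ x ∈ X, x ≠ 1) → Subgroup.normalizer X ≤ MulAction.stabilizer G a := by
    rintro X hX ⟨x, hx, hx1⟩ g hg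
    rw [Subgroup.mem_set_normalizer_iff] at hg
    have h2 : g * x * g⁻¹ ∈ X := (hg x).1 hx
    have h3 := Q_fix hS (hX h2)
    rw [mul_smul, mul_smul, smul_eq_iff_eq_inv_smul] at h3
    have h4 : g⁻¹ • a = a := fix_only hS (hX hx) hx1 h3
    exact (inv_smul_eq_iff.1 h4).symm
  have hne : ∃ x ∈ (Q : Set G), x ≠ 1 := by
    obtain ⟨s, hs, hs1, -⟩ := Cfsg.Agent.H20.RO.exists_invol hS
    exact ⟨s, hs, hs1⟩
  refine ⟨h1, le_antisymm (h1 _ subset_rfl hne) ?_, le_antisymm ?_ Subgroup.le_normalizer⟩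
  · intro g hg
    rw [Subgroup.mem_normalizer_iff]
    intro x
    constructor
    · intro hx; exact hS.conj_mem g hg x hx
    · intro hx
      have := hS.conj_mem g⁻¹ (inv_mem hg) _ hx
      simpa [mul_assoc] using this
  · intro g hg
    obtain ⟨s, hs, hs1, -⟩ := Cfsg.Agent.H20.RO.exists_invol hS
    rw [Subgroup.mem_normalizer_iff] at hg
    have h2 : s • g⁻¹ • a = g⁻¹ • a := by
      have h3 : (g * s * g⁻¹) • a = a := (hg s).1 (hS.le hs)
      rw [mul_smul, mul_smul, smul_eq_iff_eq_inv_smul] at h3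
      exact h3
    have h4 : g⁻¹ • a = a := Cfsg.Agent.H20.RO.fix_only hS hs hs1 h2
    exact (inv_smul_eq_iff.1 h4).symm

end Cfsg.Agent.S1118
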