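import Cfsg.Statements.S1119
import Cfsg.Agent.H20.RankOneSetup

set_option autoImplicit false
open Cfsg

namespace Cfsg.Agent.S1119

/-- In the rank-one set-up (`G` finite and doubly transitive on `Ω`, `t` an involution moving `a`, `Q` normal in `G_a` with `G_a = Q D`, `Q ⊓ D = 1` for the two-point stabiliser `D = G_a ⊓ G_{t • a}`, `|Q|` even, `|D|` odd): `Q` acts regularly on `Ω` minus `a`; hence `|Ω| = |Q| + 1`, `|G| = |Q| |D| (|Q| + 1)`, some Sylow 2-subgroup of `G` lies in `Q`, and each `g ∉ G_a` is uniquely `x t y` with `x ∈ G_a`, `y ∈ Q` (canonical form). -/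
theorem result {G Ω : Type*} [Group G] [Finite G] [MulAction G Ω] {a : Ω} {t : G} {Q : Subgroup G}
    (hS : Cfsg.IsRankOneSetup G Ω a t Q) :
    (∀ b c : Ω, b ≠ a → c ≠ a → ∃! x : Q, (x : G) • b = c) ∧
      Nat.card Ω = Nat.card Q + 1 ∧
      Nat.card G = Nat.card Q * Nat.card ↥(MulAction.stabilizer G a ⊓ MulAction.stabilizer G (t • a)) * (Nat.card Q + 1) ∧
      (∃ P : Sylow 2 G, (P : Subgroup G) ≤ Q) ∧
      ∀ g : G, g ∉ MulAction.stabilizer G a → ∃! p : G × G, p.1 ∈ MulAction.stabilizer G a ∧ p.2 ∈ Q ∧ g = p.1 * t * p.2 := by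
  refine ⟨?_, Cfsg.Agent.H20.RO.card_Ω hS, ?_, ?_, ?_⟩
  · intro b c hb hc
    obtain ⟨q, hq, hqb⟩ := Cfsg.Agent.H20.RO.exists_q hS hb
    obtain ⟨q', hq', hqc⟩ := Cfsg.Agent.H20.RO.exists_q hS hc
    refine ⟨⟨q' * q⁻¹, mul_mem hq' (inv_mem hq)⟩, ?_, ?_⟩
    · change (q' * q⁻¹) • b = c
      rw [mul_smul, ← hqb, inv_smul_smul, hqc]
    · rintro ⟨y, hy⟩ hyb
      apply Subtype.ext
      change y = q' * q⁻¹
      apply Cfsg.Agent.H20.RO.q_unique hS hy (mul_mem hq' (inv_mem hq)) hb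
      rw [mul_smul, ← hqb, inv_smul_smul, hqc, hqb]
      exact hyb
  · rw [← Cfsg.Agent.H20.RO.card_Ω hS, ← Cfsg.Agent.H20.RO.card_H hS]
    have : Finite Ω := Cfsg.Agent.H20.RO.finite_Ω hS
    have htrans : MulAction.IsPretransitive G Ω := ⟨fun x y => Cfsg.Agent.H20.RO.exists_one hS x y⟩
    rw [← MulAction.index_stabilizer_of_transitive G a]
    exact (Subgroup.card_mul_index _).symm
  · exact Cfsg.Agent.H20.RO.exists_sylow hS
  · intro g hg
    have hg' : g⁻¹ • a ≠ a := by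
      intro h
      apply hg
      rw [MulAction.mem_stabilizer_iff]
      exact (inv_smul_eq_iff.1 h).symm
    obtain ⟨q, hq, hqa⟩ := Cfsg.Agent.H20.RO.exists_q hS hg'
    refine ⟨(g * q * t, q⁻¹), ⟨?_, inv_mem hq, ?_⟩, ?_⟩
    · rw [MulAction.mem_stabilizer_iff]
      change (g * q * t) • a = a
      rw [mul_smul, mul_smul, hqa, smul_inv_smul]
    · change g = g * q * t * t * q⁻¹
      rw [mul_assoc (g * q) t t, hS.mul_self]; group
    · rintro ⟨x, y⟩ ⟨hx, hy, e⟩
      change x • a = a at hx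
      change y ∈ Q at hy
      change g = x * t * y at e
      have h1 : y⁻¹ = q := by
        apply Cfsg.Agent.H20.RO.q_unique hS (inv_mem hy) hq (Cfsg.Agent.H20.RO.ta_ne hS)
        rw [hqa, e, mul_inv_rev, mul_inv_rev, mul_smul, mul_smul,
          (inv_smul_eq_iff.2 hx.symm : x⁻¹ • a = a), Cfsg.Agent.H20.RO.tinv hS]
      have h2 : y = q⁻¹ := by rw [← h1, inv_inv]
      subst h2
      apply Prod.ext
      · change x = g * q * t
        rw [e]
        calc x = x * (t * t) := by rw [hS.mul_self, mul_one]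
          _ = _ := by group
      · rfl

end Cfsg.Agent.S1119
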