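import Cfsg.Statements.S1120
import Cfsg.Agent.H20.RankOneSetup
import Cfsg.Agent.FourGraph.Basic
import Cfsg.Agent.H91.GenCent

set_option autoImplicit false
open Cfsg

namespace Cfsg.Agent.S1120

open Cfsg.Agent.H20.RO

/-- In the rank-one set-up (`G` finite and doubly transitive on `Ω`, `t` an involution moving `a`, `Q` normal in `G_a` with `G_a = Q D`, `Q ⊓ D = 1` for the two-point stabiliser `D = G_a ⊓ G_{t • a}`, `|Q|` even, `|D|` odd), if `G` has 2-rank at least 2 then `O_{2'}(G)` equals the normal core of `G_a`. -/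
theorem result {G Ω : Type*} [Group G] [Finite G] [MulAction G Ω] {a : Ω} {t : G} {Q : Subgroup G}
    (hS : Cfsg.IsRankOneSetup G Ω a t Q)
    (h2 : ∃ x y : G, x ≠ 1 ∧ y ≠ 1 ∧ x ≠ y ∧ x * x = 1 ∧ y * y = 1 ∧ x * y = y * x) :
    Cfsg.pPrimeCore 2 G = (MulAction.stabilizer G a).normalCore := by
  obtain ⟨x₀, y₀, hx1, hy1, hxy, hxx, hyy, hc⟩ := h2
  obtain ⟨c, hcx⟩ := exists_fix hS hxx
  have hcy : y₀ • c = c := comm_fix hS hx1 hxx hcx hc.symm
  obtain ⟨g, hg⟩ := exists_one hS c a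
  have conj1 : ∀ z : G, z ≠ 1 → g * z * g⁻¹ ≠ 1 := by
    intro z hz h
    apply hz
    calc z = g⁻¹ * (g * z * g⁻¹) * g := by group
      _ = 1 := by rw [h]; group
  have conj2 : ∀ z : G, z * z = 1 → (g * z * g⁻¹) * (g * z * g⁻¹) = 1 := by
    intro z hz
    calc (g * z * g⁻¹) * (g * z * g⁻¹) = g * (z * z) * g⁻¹ := by group
      _ = 1 := by rw [hz]; group
  have conj3 : ∀ z : G, z • c = c → (g * z * g⁻¹) • a = a := by
    intro z hz
    rw [← hg, mul_smul, mul_smul, inv_smul_smul, hz]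
  set x := g * x₀ * g⁻¹ with hx
  set y := g * y₀ * g⁻¹ with hy
  have hxx' : x * x = 1 := conj2 _ hxx
  have hyy' : y * y = 1 := conj2 _ hyy
  have hx1' : x ≠ 1 := conj1 _ hx1
  have hy1' : y ≠ 1 := conj1 _ hy1
  have hxa : x • a = a := conj3 _ hcx
  have hya : y • a = a := conj3 _ hcy
  have hxy' : x ≠ y := by
    intro h
    apply hxy
    calc x₀ = g⁻¹ * (g * x₀ * g⁻¹) * g := by group
      _ = g⁻¹ * (g * y₀ * g⁻¹) * g := by rw [← hx, h]
      _ = y₀ := by group
  have hcc : x * y = y * x := by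
    calc x * y = g * (x₀ * y₀) * g⁻¹ := by rw [hx, hy]; group
      _ = g * (y₀ * x₀) * g⁻¹ := by rw [hc]
      _ = y * x := by rw [hx, hy]; group
  set E := Cfsg.Agent.FourGraph.fourSubgroup x y hxx' hyy' hcc with hE
  have hK : IsKleinFour E := Cfsg.Agent.FourGraph.isKleinFour_fourSubgroup hx1' hy1' hxy'
  have hEc : IsMulCommutative E := ⟨⟨fun p q => by
    exact (IsKleinFour.isMulCommutative (G := E)).1.1 p q⟩⟩
  have hEinv : ∀ e ∈ E, e * e = 1 ∧ e • a = a := by
    intro e he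
    rcases Cfsg.Agent.FourGraph.mem_fourSubgroup.1 he with rfl | rfl | rfl | rfl
    · simp
    · exact ⟨hxx', hxa⟩
    · exact ⟨hyy', hya⟩
    · refine ⟨?_, by rw [mul_smul, hya, hxa]⟩
      calc x * y * (x * y) = x * (y * x) * y := by group
        _ = x * x * (y * y) := by rw [← hcc]; group
        _ = 1 := by rw [hxx', hyy', one_mul]
  apply le_antisymm
  · apply sSup_le
    rintro N ⟨hN, hcop⟩
    rw [Subgroup.normal_le_normalCore]
    have hgen := Cfsg.Agent.H91.genCent_eq E N (fun h => IsKleinFour.not_isCyclic h)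
      (le_trans le_top (by rw [Subgroup.normalizer_eq_top])) (by
        rw [IsKleinFour.card_four]
        exact (Nat.Coprime.pow_left 2 hcop.symm : Nat.Coprime (2 ^ 2) _))
    rw [← hgen]
    apply iSup₂_le
    rintro e ⟨he, he1⟩ z ⟨-, hz⟩
    obtain ⟨he2, hea⟩ := hEinv e he
    exact comm_fix hS he1 he2 hea (Subgroup.mem_centralizer_singleton_iff.1 hz)
  · apply le_sSup
    refine ⟨inferInstance, ?_⟩
    have hle : (MulAction.stabilizer G a).normalCore ≤ DD G a t := by
      intro z hz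
      rw [mem_DD]
      have h1 : ∀ g : G, (g * z * g⁻¹) • a = a := fun g => hz g
      refine ⟨by simpa using h1 1, ?_⟩
      have h2 := h1 t⁻¹
      rw [mul_smul, mul_smul, inv_inv, inv_smul_eq_iff] at h2
      exact h2
    have h3 : Odd (Nat.card (MulAction.stabilizer G a).normalCore) :=
      Odd.of_dvd_nat hS.odd_card (Subgroup.card_dvd_of_le hle)
    exact Nat.coprime_two_right.2 h3

end Cfsg.Agent.S1120
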