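import Cfsg.Statements.S1122
import Cfsg.Agent.H20.RankOneSetup

set_option autoImplicit false
open Cfsg

namespace Cfsg.Agent.S1122

/-- In the rank-one set-up (`G` finite and doubly transitive on `Ω`, `t` an involution moving `a`, `Q` normal in `G_a` with `G_a = Q D`, `Q ⊓ D = 1` for the two-point stabiliser `D = G_a ⊓ G_{t • a}`, `|Q|` even, `|D|` odd), with `K` the set of elements of `D` inverted by `t`: `|K|` is the number of involutions of `G_a`, and for each involution `s` of `G_a` the `K`-conjugates of `s` are all the involutions of `G_a`. -/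
theorem result {G Ω : Type*} [Group G] [Finite G] [MulAction G Ω] {a : Ω} {t : G} {Q : Subgroup G}
    (hS : Cfsg.IsRankOneSetup G Ω a t Q) :
    Nat.card (Cfsg.invertedBy (MulAction.stabilizer G a ⊓ MulAction.stabilizer G (t • a)) t) = Nat.card (Cfsg.involutionsIn (MulAction.stabilizer G a : Set G)) ∧
      ∀ s ∈ Cfsg.involutionsIn (MulAction.stabilizer G a : Set G), ∀ s' ∈ Cfsg.involutionsIn (MulAction.stabilizer G a : Set G),
        ∃ k ∈ Cfsg.invertedBy (MulAction.stabilizer G a ⊓ MulAction.stabilizer G (t • a)) t, k⁻¹ * s * k = s' := by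
  have h2 : ∀ s ∈ Cfsg.involutionsIn (MulAction.stabilizer G a : Set G), ∀ s' ∈ Cfsg.involutionsIn (MulAction.stabilizer G a : Set G),
        ∃ k ∈ Cfsg.invertedBy (MulAction.stabilizer G a ⊓ MulAction.stabilizer G (t • a)) t, k⁻¹ * s * k = s' := by
    rintro s ⟨hs, hs1, hss⟩ s' ⟨hs', hs1', hss'⟩
    exact Cfsg.Agent.H20.RO.K_exists hS hs1 hss hs hs1' hss' hs'
  refine ⟨?_, h2⟩
  obtain ⟨s, hsQ, hs1, hss⟩ := Cfsg.Agent.H20.RO.exists_invol hS
  have hs := Cfsg.Agent.H20.RO.Q_fix hS hsQ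
  apply Nat.card_congr
  refine Equiv.ofBijective (fun k => ⟨(k : G)⁻¹ * s * k, ?_, ?_, ?_⟩) ⟨?_, ?_⟩
  · have hk := Cfsg.Agent.H20.RO.mem_DD.1 k.2.1
    change ((k : G)⁻¹ * s * k) • a = a
    rw [mul_smul, mul_smul, hk.1, hs, inv_smul_eq_iff, hk.1]
  · intro h
    apply hs1
    calc s = (k : G) * ((k : G)⁻¹ * s * k) * (k : G)⁻¹ := by group
      _ = 1 := by rw [h]; group
  · calc ((k : G)⁻¹ * s * k) * ((k : G)⁻¹ * s * k) = (k : G)⁻¹ * (s * s) * k := by group
      _ = 1 := by rw [hss]; group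
  · intro k k' h
    exact Subtype.ext (Cfsg.Agent.H20.RO.K_unique hS hs1 hss hs k.2 k'.2 (congrArg Subtype.val h))
  · rintro ⟨s', hs'⟩
    obtain ⟨k, hk, e⟩ := h2 s ⟨hs, hs1, hss⟩ s' hs'
    exact ⟨⟨k, hk⟩, Subtype.ext e⟩

end Cfsg.Agent.S1122
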