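import Cfsg.Statements.S1124
import Cfsg.Agent.H20.RankOneSetup

set_option autoImplicit false
open scoped Pointwise
open Cfsg

namespace Cfsg.Agent.S1124

open Cfsg.Agent.H20.RO

/-- Let `t` be an element of order 2 of a finite group normalising a subgroup `X` of odd order, `Y = C_X(t)` and `Z` the set of elements of `X` inverted by `t`. Then `(y, z) ↦ y z` is a bijection `Y × Z → X`, so `|X| = |Y| |Z|`, and the subgroup generated by `Z` is normal in `X`. -/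
theorem result {M : Type*} [Group M] [Finite M]
    (t : M) (ht : orderOf t = 2) (X : Subgroup M) (hodd : Odd (Nat.card X))
    (hnorm : ∀ x ∈ X, t * x * t⁻¹ ∈ X) :
    (∀ x ∈ X, ∃! p : M × M, p.1 ∈ X ⊓ Subgroup.centralizer {t} ∧ p.2 ∈ Cfsg.invertedBy X t ∧ x = p.1 * p.2) ∧
      Nat.card X = Nat.card ↥(X ⊓ Subgroup.centralizer {t}) * Nat.card (Cfsg.invertedBy X t) ∧
      ∀ x ∈ X, MulAut.conj x • Subgroup.closure (Cfsg.invertedBy X t) = Subgroup.closure (Cfsg.invertedBy X t) := by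
  have htt : t * t = 1 := by rw [← pow_two, ← ht, pow_orderOf_eq_one]
  have hti : t⁻¹ = t := inv_eq_of_mul_eq_one_left htt
  have hoddx : ∀ x ∈ X, Odd (orderOf x) := fun x hx => odd_orderOf_of_mem hodd hx
  have hZinv : ∀ z ∈ Cfsg.invertedBy X t, t * z * t = z⁻¹ := by
    rintro z ⟨-, hz⟩; rw [← hz, hti]
  have hYc : ∀ y ∈ X ⊓ Subgroup.centralizer {t}, t * y * t = y := by
    intro y hy
    have h1 := Subgroup.mem_centralizer_singleton_iff.1 hy.2
    rw [← h1, mul_assoc, htt, mul_one]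
  have hex : ∀ x ∈ X, ∃ y ∈ X ⊓ Subgroup.centralizer {t}, ∃ z ∈ Cfsg.invertedBy X t, x = y * z := by
    intro x hx
    have hw : t * x⁻¹ * t⁻¹ * x ∈ X := mul_mem (hnorm _ (inv_mem hx)) hx
    have hwi : t * (t * x⁻¹ * t⁻¹ * x) * t⁻¹ = (t * x⁻¹ * t⁻¹ * x)⁻¹ := by
      rw [hti]
      calc t * (t * x⁻¹ * t * x) * t = (t * t) * x⁻¹ * t * x * t := by group
        _ = x⁻¹ * t * x * t⁻¹ := by rw [htt, hti]; group
        _ = (t * x⁻¹ * t⁻¹ * x)⁻¹ := by group
        _ = (t * x⁻¹ * t * x)⁻¹ := by rw [hti]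
    obtain ⟨k, hk1, hk2, -⟩ := exists_sqrt (hoddx _ hw) hwi
    set z := (t * x⁻¹ * t⁻¹ * x) ^ k with hz
    have hzX : z ∈ X := pow_mem hw k
    have hzi' : t * z⁻¹ * t⁻¹ = z := by
      calc t * z⁻¹ * t⁻¹ = (t * z * t⁻¹)⁻¹ := by group
        _ = z := by rw [hk2, inv_inv]
    refine ⟨x * z⁻¹, Subgroup.mem_inf.2 ⟨X.mul_mem hx (X.inv_mem hzX), ?_⟩, z, ⟨hzX, hk2⟩, by group⟩
    rw [Subgroup.mem_centralizer_singleton_iff]
    have e1 : t * (x * z⁻¹) * t⁻¹ = x * z⁻¹ := by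
      calc t * (x * z⁻¹) * t⁻¹ = (t * x * t⁻¹) * (t * z⁻¹ * t⁻¹) := by group
        _ = (t * x * t⁻¹) * (z * z) * z⁻¹ := by rw [hzi']; group
        _ = (t * x * t⁻¹) * (t * x⁻¹ * t⁻¹ * x) * z⁻¹ := by rw [hk1]
        _ = x * z⁻¹ := by group
    calc (x * z⁻¹) * t = (t * (x * z⁻¹) * t⁻¹) * t := by rw [e1]
      _ = t * (x * z⁻¹) := by group
  have huniq : ∀ y ∈ X ⊓ Subgroup.centralizer {t}, ∀ z ∈ Cfsg.invertedBy X t,
      ∀ y' ∈ X ⊓ Subgroup.centralizer {t}, ∀ z' ∈ Cfsg.invertedBy X t, y * z = y' * z' →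
      y = y' ∧ z = z' := by
    intro y hy z hz y' hy' z' hz' e
    have key : ∀ y ∈ X ⊓ Subgroup.centralizer {t}, ∀ z ∈ Cfsg.invertedBy X t,
        t * (y * z)⁻¹ * t * (y * z) = z * z := by
      intro y hy z hz
      have e1 : t * (y * z)⁻¹ * t = z * y⁻¹ := by
        have e2 := hZinv z hz
        have e3 := hYc y hy
        calc t * (y * z)⁻¹ * t = t * z⁻¹ * (t * t) * y⁻¹ * t := by rw [htt]; group
          _ = (t * z * t)⁻¹ * (t * y * t)⁻¹ := by rw [mul_inv_rev, mul_inv_rev, mul_inv_rev, mul_inv_rev, hti]; group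
          _ = z * y⁻¹ := by rw [e2, e3, inv_inv]
      rw [e1]; group
    have h1 : z * z = z' * z' := by rw [← key y hy z hz, e, key y' hy' z' hz']
    have h2 : z = z' := by
      apply Cfsg.Agent.H20.odd_sqrt_unique (hoddx _ hz.1) (hoddx _ hz'.1)
      rw [pow_two, pow_two, h1]
    subst h2
    exact ⟨mul_right_cancel e, rfl⟩
  refine ⟨?_, ?_, ?_⟩
  · intro x hx
    obtain ⟨y, hy, z, hz, e⟩ := hex x hx
    refine ⟨(y, z), ⟨hy, hz, e⟩, ?_⟩
    rintro ⟨y', z'⟩ ⟨hy', hz', e'⟩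
    obtain ⟨e1, e2⟩ := huniq y hy z hz y' hy' z' hz' (e.symm.trans e')
    exact Prod.ext e1.symm e2.symm
  · rw [← Nat.card_prod]
    symm
    apply Nat.card_congr
    refine Equiv.ofBijective (fun p => ⟨(p.1 : M) * (p.2 : M), mul_mem p.1.2.1 p.2.2.1⟩) ⟨?_, ?_⟩
    · rintro ⟨⟨y, hy⟩, ⟨z, hz⟩⟩ ⟨⟨y', hy'⟩, ⟨z', hz'⟩⟩ h
      obtain ⟨e1, e2⟩ := huniq y hy z hz y' hy' z' hz' (congrArg Subtype.val h)
      subst e1; subst e2; rfl
    · rintro ⟨x, hx⟩
      obtain ⟨y, hy, z, hz, e⟩ := hex x hx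
      exact ⟨⟨⟨y, hy⟩, ⟨z, hz⟩⟩, Subtype.ext e.symm⟩
  · have hZY : ∀ y ∈ X ⊓ Subgroup.centralizer {t}, ∀ z ∈ Cfsg.invertedBy X t,
        y * z * y⁻¹ ∈ Cfsg.invertedBy X t := by
      intro y hy z hz
      refine ⟨mul_mem (mul_mem hy.1 hz.1) (inv_mem hy.1), ?_⟩
      have e3 := hYc y hy
      have e4 : t * y = y * t := by
        calc t * y = (t * y * t) * t⁻¹ := by group
          _ = y * t := by rw [e3, hti]
      have e5 : y⁻¹ * t⁻¹ = t⁻¹ * y⁻¹ := by rw [← mul_inv_rev, e4, mul_inv_rev]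
      calc t * (y * z * y⁻¹) * t⁻¹ = (t * y) * z * (y⁻¹ * t⁻¹) := by group
        _ = y * (t * z * t⁻¹) * y⁻¹ := by rw [e4, e5]; group
        _ = (y * z * y⁻¹)⁻¹ := by rw [hz.2]; group
    have hle : ∀ x ∈ X, ∀ w ∈ Subgroup.closure (Cfsg.invertedBy X t),
        x * w * x⁻¹ ∈ Subgroup.closure (Cfsg.invertedBy X t) := by
      intro x hx w hw
      obtain ⟨y, hy, z, hz, rfl⟩ := hex x hx
      have hzc : z ∈ Subgroup.closure (Cfsg.invertedBy X t) := Subgroup.subset_closure hz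
      have h1 : z * w * z⁻¹ ∈ Subgroup.closure (Cfsg.invertedBy X t) :=
        mul_mem (mul_mem hzc hw) (inv_mem hzc)
      have h2 : ∀ w ∈ Subgroup.closure (Cfsg.invertedBy X t),
          y * w * y⁻¹ ∈ Subgroup.closure (Cfsg.invertedBy X t) := by
        intro w hw
        induction hw using Subgroup.closure_induction with
        | mem w hw => exact Subgroup.subset_closure (hZY y hy w hw)
        | one => simp
        | mul p q _ _ hp hq =>
          have : y * (p * q) * y⁻¹ = (y * p * y⁻¹) * (y * q * y⁻¹) := by group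
          rw [this]; exact mul_mem hp hq
        | inv p _ hp =>
          have : y * p⁻¹ * y⁻¹ = (y * p * y⁻¹)⁻¹ := by group
          rw [this]; exact inv_mem hp
      have h3 := h2 _ h1
      have h4 : (y * z) * w * (y * z)⁻¹ = y * (z * w * z⁻¹) * y⁻¹ := by group
      rw [h4]; exact h3
    intro x hx
    ext w
    rw [Subgroup.mem_pointwise_smul_iff_inv_smul_mem, ← map_inv, MulAut.smul_def, MulAut.conj_apply]
    constructor
    · intro h
      have := hle x hx _ h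
      have e : x * (x⁻¹ * w * x⁻¹⁻¹) * x⁻¹ = w := by group
      rw [e] at this; exact this
    · intro h
      exact hle x⁻¹ (inv_mem hx) w h

end Cfsg.Agent.S1124
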