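import Cfsg.Statements.S1125
import Cfsg.Agent.H20.RankOneSetup

set_option autoImplicit false
open Cfsg

namespace Cfsg.Agent.S1125

open Cfsg.Agent.H20.RO

/-- In the rank-one set-up (`G` finite and doubly transitive on `Ω`, `t` an involution moving `a`, `Q` normal in `G_a` with `G_a = Q D`, `Q ⊓ D = 1` for the two-point stabiliser `D = G_a ⊓ G_{t • a}`, `|Q|` even, `|D|` odd), let `X ⊆ D` fix at least three points of `Ω`. Then `C_G(X)` is doubly transitive on the fixed-point set of `X`, `|C_Q(X)|` is even, and `C_{G_a}(X) = C_Q(X) C_D(X)`. -/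
theorem result {G Ω : Type*} [Group G] [Finite G] [MulAction G Ω] {a : Ω} {t : G} {Q : Subgroup G}
    (hS : Cfsg.IsRankOneSetup G Ω a t Q)
    (X : Set G) (hX : X ⊆ ((MulAction.stabilizer G a ⊓ MulAction.stabilizer G (t • a)) : Set G))
    (h3 : ∃ b c d : Ω, b ≠ c ∧ b ≠ d ∧ c ≠ d ∧ ∀ x ∈ X, x • b = b ∧ x • c = c ∧ x • d = d) :
    (∀ b₁ b₂ c₁ c₂ : Ω, (∀ x ∈ X, x • b₁ = b₁ ∧ x • b₂ = b₂ ∧ x • c₁ = c₁ ∧ x • c₂ = c₂) →
        b₁ ≠ b₂ → c₁ ≠ c₂ → ∃ g ∈ Subgroup.centralizer X, g • b₁ = c₁ ∧ g • b₂ = c₂) ∧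
      Even (Nat.card ↥(Subgroup.centralizer X ⊓ Q)) ∧
      (Subgroup.centralizer X ⊓ Q) ⊔ (Subgroup.centralizer X ⊓ (MulAction.stabilizer G a ⊓ MulAction.stabilizer G (t • a))) = Subgroup.centralizer X ⊓ MulAction.stabilizer G a := by
  have ha : ∀ x ∈ X, x • a = a := fun x hx => (mem_DD.1 (hX hx)).1
  have hta : ∀ x ∈ X, x • t • a = t • a := fun x hx => (mem_DD.1 (hX hx)).2
  refine ⟨?_, even_cQ hS hX h3, ?_⟩
  · intro b₁ b₂ c₁ c₂ h hb hc
    exact cX_two hS hX h3 (fun x hx => (h x hx).1) (fun x hx => (h x hx).2.1) hb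
      (fun x hx => (h x hx).2.2.1) (fun x hx => (h x hx).2.2.2) hc
  · apply le_antisymm
    · apply sup_le
      · exact fun q hq => ⟨hq.1, hS.le hq.2⟩
      · exact fun q hq => ⟨hq.1, hq.2.1⟩
    · rintro h ⟨hhX, hha⟩
      have h1 : h • t • a ≠ a := by
        intro h'
        apply ta_ne hS
        have : h • a = a := hha
        exact smul_left_cancel h (h'.trans this.symm)
      obtain ⟨q, hq, hqX, hqh⟩ := cQ_trans hS hX (fix_of_cX hhX hta) h1
      have h2 : q⁻¹ * h ∈ Subgroup.centralizer X := mul_mem (inv_mem hqX) hhX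
      have h3 : q⁻¹ * h ∈ DD G a t := mem_DD.2 ⟨by
        rw [mul_smul]
        have : h • a = a := hha
        rw [this, Q_fix hS (inv_mem hq)], by rw [mul_smul, ← hqh, inv_smul_smul]⟩
      have h4 : h = q * (q⁻¹ * h) := by group
      rw [h4]
      exact mul_mem (Subgroup.mem_sup_left ⟨hqX, hq⟩) (Subgroup.mem_sup_right ⟨h2, h3⟩)

end Cfsg.Agent.S1125
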