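import Cfsg.Statements.S1133
import Cfsg.Agent.FT.Base
import Cfsg.Agent.H24.RankOneGal

set_option autoImplicit false
open Cfsg

namespace Cfsg.Agent.S1133

/-- In the rank-one set-up (`G` finite and doubly transitive on `Ω`, `t` an involution moving `a`, `Q` normal in `G_a` with `G_a = Q D`, `Q ⊓ D = 1` for the two-point stabiliser `D = G_a ⊓ G_{t • a}`, `|Q|` even, `|D|` odd), with the action faithful and `G` containing two distinct commuting involutions, with `V = C_D(t)`, `K` the elements of `D` inverted by `t` and `W = C_V(K)`: `V/W` is cyclic, i.e. `V = W ⟨v⟩` for some `v ∈ V`. -/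
theorem result {G Ω : Type*} [Group G] [Finite G] [MulAction G Ω] [FaithfulSMul G Ω] {a : Ω} {t : G} {Q : Subgroup G}
    (hS : Cfsg.IsRankOneSetup G Ω a t Q)
    (h2 : ∃ x y : G, x ≠ 1 ∧ y ≠ 1 ∧ x ≠ y ∧ x * x = 1 ∧ y * y = 1 ∧ x * y = y * x) :
    ∃ v ∈ (MulAction.stabilizer G a ⊓ MulAction.stabilizer G (t • a)) ⊓ Subgroup.centralizer {t},
      ((MulAction.stabilizer G a ⊓ MulAction.stabilizer G (t • a)) ⊓ Subgroup.centralizer {t} ⊓ Subgroup.centralizer (Cfsg.invertedBy (MulAction.stabilizer G a ⊓ MulAction.stabilizer G (t • a)) t)) ⊔ Subgroup.closure {v} =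
        (MulAction.stabilizer G a ⊓ MulAction.stabilizer G (t • a)) ⊓ Subgroup.centralizer {t} := by
  obtain ⟨v, hvD, hvt, hv⟩ := Cfsg.Agent.H24.RankOneGal.quot_cyclic hS h2 (Cfsg.Agent.FT.solvable_of_odd hS.odd_card)
  have hvV : v ∈ (MulAction.stabilizer G a ⊓ MulAction.stabilizer G (t • a)) ⊓ Subgroup.centralizer {t} :=
    Subgroup.mem_inf.2 ⟨hvD, Subgroup.mem_centralizer_singleton_iff.2 hvt.symm⟩
  refine ⟨v, hvV, le_antisymm (sup_le inf_le_left ((Subgroup.closure_le _).2 (Set.singleton_subset_iff.2 hvV))) ?_⟩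
  intro w hw
  obtain ⟨hwD, hwt⟩ := Subgroup.mem_inf.1 hw
  obtain ⟨i, hi⟩ := hv w hwD (Subgroup.mem_centralizer_singleton_iff.1 hwt).symm
  have hz : v ^ i ∈ (MulAction.stabilizer G a ⊓ MulAction.stabilizer G (t • a)) ⊓ Subgroup.centralizer {t} := Subgroup.zpow_mem _ hvV i
  have h1 : w * (v ^ i)⁻¹ ∈ (MulAction.stabilizer G a ⊓ MulAction.stabilizer G (t • a)) ⊓ Subgroup.centralizer {t} := Subgroup.mul_mem _ hw (Subgroup.inv_mem _ hz)
  have h2 : w * (v ^ i)⁻¹ ∈ Subgroup.centralizer (Cfsg.invertedBy (MulAction.stabilizer G a ⊓ MulAction.stabilizer G (t • a)) t) := by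
    rw [Subgroup.mem_centralizer_iff]
    intro k hk
    exact (hi k hk).symm
  have h3 : v ^ i ∈ Subgroup.closure {v} := Subgroup.zpow_mem _ (Subgroup.subset_closure (Set.mem_singleton v)) i
  have h4 := Subgroup.mul_mem_sup (Subgroup.mem_inf.2 ⟨h1, h2⟩) h3
  rw [inv_mul_cancel_right] at h4
  exact h4

end Cfsg.Agent.S1133
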