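import Cfsg.Statements.S1134
import Cfsg.Agent.H20.RankOneSetup

set_option autoImplicit false
open Cfsg

namespace Cfsg.Agent.S1134

open Cfsg.Agent.H20.RO

/-- In the rank-one set-up (`G` finite and doubly transitive on `Ω`, `t` an involution moving `a`, `Q` normal in `G_a` with `G_a = Q D`, `Q ⊓ D = 1` for the two-point stabiliser `D = G_a ⊓ G_{t • a}`, `|Q|` even, `|D|` odd), with the action faithful and `G` containing two distinct commuting involutions, with `V = C_D(t)`: subsets of `V` conjugate in `G` are conjugate in `V`. -/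
theorem result {G Ω : Type*} [Group G] [Finite G] [MulAction G Ω] [FaithfulSMul G Ω] {a : Ω} {t : G} {Q : Subgroup G}
    (hS : Cfsg.IsRankOneSetup G Ω a t Q)
    (h2 : ∃ x y : G, x ≠ 1 ∧ y ≠ 1 ∧ x ≠ y ∧ x * x = 1 ∧ y * y = 1 ∧ x * y = y * x)
    (X : Set G) (hX : X ⊆ (((MulAction.stabilizer G a ⊓ MulAction.stabilizer G (t • a)) ⊓ Subgroup.centralizer {t} : Subgroup G) : Set G)) (g : G)
    (hY : (fun x => g * x * g⁻¹) '' X ⊆ (((MulAction.stabilizer G a ⊓ MulAction.stabilizer G (t • a)) ⊓ Subgroup.centralizer {t} : Subgroup G) : Set G)) :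
    ∃ v ∈ (MulAction.stabilizer G a ⊓ MulAction.stabilizer G (t • a)) ⊓ Subgroup.centralizer {t}, (fun x => v * x * v⁻¹) '' X = (fun x => g * x * g⁻¹) '' X := by
  have hXD : X ⊆ (DD G a t : Set G) := fun x hx => (hX hx).1
  have hXt : ∀ x ∈ X, x * t = t * x := fun x hx => Subgroup.mem_centralizer_singleton_iff.1 (hX hx).2
  have h3 := V_three hS hX
  have hYD : ∀ x ∈ X, g * x * g⁻¹ ∈ DD G a t := fun x hx => (hY ⟨x, hx, rfl⟩).1
  have hYt : ∀ x ∈ X, (g * x * g⁻¹) * t = t * (g * x * g⁻¹) := fun x hx =>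
    Subgroup.mem_centralizer_singleton_iff.1 (hY ⟨x, hx, rfl⟩).2
  have f1 : ∀ x ∈ X, x • g⁻¹ • a = g⁻¹ • a := by
    intro x hx
    have := (mem_DD.1 (hYD x hx)).1
    rw [mul_smul, mul_smul, smul_eq_iff_eq_inv_smul] at this
    exact this
  have f2 : ∀ x ∈ X, x • g⁻¹ • t • a = g⁻¹ • t • a := by
    intro x hx
    have := (mem_DD.1 (hYD x hx)).2
    rw [mul_smul, mul_smul, smul_eq_iff_eq_inv_smul] at this
    exact this
  obtain ⟨c, hc, hc1, hc2⟩ := cX_pair hS hXD h3 f1 f2 (fun h => (ta_ne hS).symm (smul_left_cancel _ h))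
  -- h := g * c⁻¹
  have hcx : ∀ x ∈ X, c⁻¹ * x * c = x := by
    intro x hx
    have := Subgroup.mem_centralizer_iff.1 hc x hx
    rw [mul_assoc, this]; group
  set h := g * c⁻¹ with hh
  have hhD : h ∈ DD G a t := by
    rw [mem_DD]
    constructor
    · rw [hh, mul_smul]
      nth_rw 1 [← hc1]
      rw [inv_smul_smul, smul_inv_smul]
    · rw [hh, mul_smul]
      nth_rw 1 [← hc2]
      rw [inv_smul_smul, smul_inv_smul]
  have hhx : ∀ x ∈ X, h * x * h⁻¹ = g * x * g⁻¹ := by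
    intro x hx
    calc h * x * h⁻¹ = g * (c⁻¹ * x * c) * g⁻¹ := by rw [hh]; group
      _ = g * x * g⁻¹ := by rw [hcx x hx]
  have huu : (h⁻¹ * t * h) * (h⁻¹ * t * h) = 1 := by
    calc (h⁻¹ * t * h) * (h⁻¹ * t * h) = h⁻¹ * (t * t) * h := by group
      _ = 1 := by rw [hS.mul_self]; group
  have hda := mem_DD.1 hhD
  have hua : (h⁻¹ * t * h) • a = t • a := by
    rw [mul_smul, mul_smul, hda.1, inv_smul_eq_iff, hda.2]
  obtain ⟨n, hl, hll, htk⟩ := K_sqrt hS (mem_K hS huu hua)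
  set l := (t * (h⁻¹ * t * h)) ^ n with hldef
  rw [← mul_assoc, hS.mul_self, one_mul] at htk
  have hlx : ∀ x ∈ X, l * x * l⁻¹ = x := by
    intro x hx
    have c1 : Commute t x := (hXt x hx).symm
    have c2 : Commute (h⁻¹ * t * h) x := by
      have e1 := hYt x hx
      rw [← hhx x hx] at e1
      change h⁻¹ * t * h * x = x * (h⁻¹ * t * h)
      calc h⁻¹ * t * h * x = h⁻¹ * (t * (h * x * h⁻¹)) * h := by group
        _ = h⁻¹ * ((h * x * h⁻¹) * t) * h := by rw [e1]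
        _ = x * (h⁻¹ * t * h) := by group
    have c3 : Commute l x := (c1.mul_left c2).pow_left n
    rw [c3.eq]; group
  have hy : (h * l⁻¹) * t = t * (h * l⁻¹) := by
    have : t = l * (h⁻¹ * t * h) * l⁻¹ := by rw [htk]; group
    calc (h * l⁻¹) * t = (h * l⁻¹) * (l * (h⁻¹ * t * h) * l⁻¹) := by rw [← this]
      _ = t * (h * l⁻¹) := by group
  refine ⟨h * l⁻¹, Subgroup.mem_inf.2 ⟨mul_mem hhD (inv_mem hl.1), ?_⟩, ?_⟩
  · rw [Subgroup.mem_centralizer_singleton_iff]; exact hy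
  · apply Set.image_congr
    intro x hx
    change (h * l⁻¹) * x * (h * l⁻¹)⁻¹ = g * x * g⁻¹
    rw [← hhx x hx]
    have e1 : l⁻¹ * x * l = x := by
      nth_rw 1 [← hlx x hx]; group
    calc (h * l⁻¹) * x * (h * l⁻¹)⁻¹ = h * (l⁻¹ * x * l) * h⁻¹ := by group
      _ = h * x * h⁻¹ := by rw [e1]

end Cfsg.Agent.S1134
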