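import Cfsg.Statements.S1135
import Cfsg.Agent.H20.RankOneNilp

set_option autoImplicit false
open Cfsg

namespace Cfsg.Agent.S1135

open Cfsg.Agent.H20.RO

/-- In the rank-one set-up (`G` finite and doubly transitive on `Ω`, `t` an involution moving `a`, `Q` normal in `G_a` with `G_a = Q D`, `Q ⊓ D = 1` for the two-point stabiliser `D = G_a ⊓ G_{t • a}`, `|Q|` even, `|D|` odd), with the action faithful and `G` containing two distinct commuting involutions: if `x = u v` with `u, v` involutions and `x² ≠ 1`, then `x` is conjugate to `u' t` for some involution `u'` of `G_a`, and `|C_G(x)|` is odd. -/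
theorem result {G Ω : Type*} [Group G] [Finite G] [MulAction G Ω] [FaithfulSMul G Ω] {a : Ω} {t : G} {Q : Subgroup G}
    (hS : Cfsg.IsRankOneSetup G Ω a t Q)
    (h2 : ∃ x y : G, x ≠ 1 ∧ y ≠ 1 ∧ x ≠ y ∧ x * x = 1 ∧ y * y = 1 ∧ x * y = y * x)
    (u v : G) (hu1 : u ≠ 1) (hu2 : u * u = 1) (hv1 : v ≠ 1) (hv2 : v * v = 1) (hx : (u * v) * (u * v) ≠ 1) :
    (∃ g : G, ∃ u' ∈ Cfsg.involutionsIn (MulAction.stabilizer G a : Set G), g * (u * v) * g⁻¹ = u' * t) ∧
      Odd (Nat.card ↥(Subgroup.centralizer {u * v})) := by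
  have hne : ∀ c : Ω, u • c = c → v • c ≠ c := by
    intro c hc hc'
    apply hx
    have h1 := invol_comm hS h2 hc hu1 hu2 hc' hv2
    calc (u * v) * (u * v) = u * (v * u) * v := by group
      _ = (u * u) * (v * v) := by rw [← h1]; group
      _ = 1 := by rw [hu2, hv2, one_mul]
  constructor
  · obtain ⟨g, hg⟩ := conj_all hS hv1 hv2 hS.ne_one hS.mul_self
    obtain ⟨α, hα⟩ := exists_fix hS hu2
    obtain ⟨β, hβ⟩ := exists_fix hS hv2
    have hαβ : α ≠ β := by
      rintro rfl; exact hne α hα hβ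
    have htβ : t • g • β = g • β := by
      rw [← hg, mul_smul, mul_smul, inv_smul_smul, hβ]
    have haβ : a ≠ g • β := by
      intro h
      rw [← h] at htβ
      exact ta_ne hS htβ
    obtain ⟨h, hht, hha⟩ := cinv_trans hS h2 hS.ne_one hS.mul_self htβ (c := g • α) (d := a)
      (fun h => hαβ (smul_left_cancel g h)) haβ
    refine ⟨h * g, (h * g) * u * (h * g)⁻¹, ⟨?_, ?_, ?_⟩, ?_⟩
    · change ((h * g) * u * (h * g)⁻¹) • a = a
      have e : (h * g) • α = a := by rw [mul_smul, hha]
      nth_rw 1 [← e]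
      rw [mul_smul, mul_smul, inv_smul_smul, hα, e]
    · intro h'
      apply hu1
      calc u = (h * g)⁻¹ * ((h * g) * u * (h * g)⁻¹) * (h * g) := by group
        _ = 1 := by rw [h']; group
    · calc (h * g) * u * (h * g)⁻¹ * ((h * g) * u * (h * g)⁻¹) = (h * g) * (u * u) * (h * g)⁻¹ := by group
        _ = 1 := by rw [hu2]; group
    · have e1 : (h * g) * v * (h * g)⁻¹ = t := by
        calc (h * g) * v * (h * g)⁻¹ = h * (g * v * g⁻¹) * h⁻¹ := by group
          _ = t := by rw [hg, hht]; group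
      nth_rw 1 [← e1]
      group
  · by_contra hodd
    rw [Nat.not_odd_iff_even] at hodd
    obtain ⟨z, hz⟩ := exists_prime_orderOf_dvd_card' (G := ↥(Subgroup.centralizer {u * v})) 2 hodd.two_dvd
    have hzx := Subgroup.mem_centralizer_singleton_iff.1 z.2
    have hz1 : (z : G) ≠ 1 := by
      intro h
      have : z = 1 := Subtype.ext h
      rw [this, orderOf_one] at hz
      omega
    have hzz : (z : G) * z = 1 := by
      have := pow_orderOf_eq_one z
      rw [hz, pow_two] at this
      exact congrArg Subtype.val this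
    obtain ⟨γ, hγ⟩ := exists_fix hS hzz
    have hxγ : (u * v) • γ = γ := comm_fix hS hz1 hzz hγ hzx.symm
    have hinv := Cfsg.Agent.H20.inv_right_conj hu2 hv2
    have hvi : v⁻¹ = v := inv_eq_of_mul_eq_one_left hv2
    have hxv : (u * v) • v • γ = v • γ := by
      have e : (u * v) * v = v * (u * v)⁻¹ := by
        rw [mul_inv_rev, hvi, inv_eq_of_mul_eq_one_left hu2]
        calc (u * v) * v = u * (v * v) := by group
          _ = (v * v) * u := by rw [hv2]; group
          _ = v * (v * u) := by group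
      rw [← mul_smul, e, mul_smul, inv_smul_eq_iff.2 hxγ.symm]
    by_cases hvγ : v • γ = γ
    · have huγ : u • γ = γ := by
        rw [mul_smul, hvγ] at hxγ
        exact hxγ
      exact hne γ huγ hvγ
    · obtain ⟨g, hg1, hg2⟩ := exists_pair hS (Ne.symm hvγ) (ta_ne hS).symm
      have hv' : (g * v * g⁻¹) * (g * v * g⁻¹) = 1 := by
        calc (g * v * g⁻¹) * (g * v * g⁻¹) = g * (v * v) * g⁻¹ := by group
          _ = 1 := by rw [hv2]; group
      have hva : (g * v * g⁻¹) • a = t • a := by
        nth_rw 1 [← hg1]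
        rw [mul_smul, mul_smul, inv_smul_smul, hg2]
      obtain ⟨n, hl, hll, htk⟩ := K_sqrt hS (mem_K hS hv' hva)
      set l := (t * (g * v * g⁻¹)) ^ n with hldef
      rw [← mul_assoc, hS.mul_self, one_mul] at htk
      have htl : t = l * (g * v * g⁻¹) * l⁻¹ := by rw [htk]; group
      have hla := mem_DD.1 hl.1
      have hxD : (l * g) * (u * v) * (l * g)⁻¹ ∈ DD G a t := by
        have e1 : (g * (u * v) * g⁻¹) ∈ DD G a t := by
          rw [mem_DD]
          constructor
          · nth_rw 1 [← hg1]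
            rw [mul_smul, mul_smul, inv_smul_smul, hxγ, hg1]
          · nth_rw 1 [← hg2]
            rw [mul_smul, mul_smul, inv_smul_smul, hxv, hg2]
        have e2 : (l * g) * (u * v) * (l * g)⁻¹ = l * (g * (u * v) * g⁻¹) * l⁻¹ := by group
        rw [e2]
        exact mul_mem (mul_mem hl.1 e1) (inv_mem hl.1)
      have hxK : (l * g) * (u * v) * (l * g)⁻¹ ∈ Cfsg.invertedBy (DD G a t) t := by
        refine ⟨hxD, ?_⟩
        rw [htl]
        calc l * (g * v * g⁻¹) * l⁻¹ * ((l * g) * (u * v) * (l * g)⁻¹) * (l * (g * v * g⁻¹) * l⁻¹)⁻¹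
            = (l * g) * (v * (u * v) * v⁻¹) * (l * g)⁻¹ := by group
          _ = ((l * g) * (u * v) * (l * g)⁻¹)⁻¹ := by rw [hinv]; group
      have hx1 : (l * g) * (u * v) * (l * g)⁻¹ ≠ 1 := by
        intro h
        apply hx
        have : u * v = 1 := by
          calc u * v = (l * g)⁻¹ * ((l * g) * (u * v) * (l * g)⁻¹) * (l * g) := by group
            _ = 1 := by rw [h]; group
        rw [this, one_mul]
      have hzQ : (l * g) * z * (l * g)⁻¹ ∈ Q := by
        apply mem_Q hS
        · have e : (l * g) • γ = a := by rw [mul_smul, hg1, hla.1]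
          nth_rw 1 [← e]
          rw [mul_smul, mul_smul, inv_smul_smul, hγ, e]
        · calc (l * g) * z * (l * g)⁻¹ * ((l * g) * z * (l * g)⁻¹) = (l * g) * (z * z) * (l * g)⁻¹ := by group
            _ = 1 := by rw [hzz]; group
      have := K_fpf hS hxK hx1 hzQ (by
        calc (l * g) * z * (l * g)⁻¹ * ((l * g) * (u * v) * (l * g)⁻¹) = (l * g) * (z * (u * v)) * (l * g)⁻¹ := by group
          _ = (l * g) * ((u * v) * z) * (l * g)⁻¹ := by rw [hzx]
          _ = _ := by group)
      apply hz1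
      calc (z : G) = (l * g)⁻¹ * ((l * g) * z * (l * g)⁻¹) * (l * g) := by group
        _ = 1 := by rw [this]; group

end Cfsg.Agent.S1135
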