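import Cfsg.Statements.S1139
import Cfsg.Agent.Suz2.OrderSq

set_option autoImplicit false
open Cfsg

namespace Cfsg.Agent.S1139

/-- A Suzuki 2-group `P` with `|P| = |Z(P)|²` is of type A: for some finite field `F` with `|F| = |Z(P)|` and some field automorphism `φ ≠ 1` of odd order, `P` is isomorphic to the group of lower unitriangular matrices with rows `(1,0,0)`, `(x,1,0)`, `(y, φ x, 1)`. -/
theorem result {P : Type*} [Group P] (hP : Cfsg.IsSuzukiTwoGroup P)
    (hcard : Nat.card P = Nat.card (Subgroup.center P) ^ 2) :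
    ∃ (F : Type) (_ : Field F) (_ : Fintype F) (φ : F ≃+* F), Fintype.card F = Nat.card (Subgroup.center P) ∧
      φ ≠ RingEquiv.refl F ∧ Odd (orderOf φ) ∧ Nonempty (P ≃* Cfsg.suzukiTypeA F (φ : F →+* F)) := by
  obtain ⟨K, h, -⟩ := Cfsg.Agent.Suz2.setup_of_suzuki hP
  have hna := hP.2.2.1
  rw [h.center_eq hna] at hcard ⊢
  obtain ⟨n, hn, hc⟩ := h.exists_card_E
  have h2 : Fact (Nat.Prime 2) := ⟨Nat.prime_two⟩
  have hcF : Nat.card (GaloisField 2 n) = 2 ^ n := GaloisField.card 2 n (by omega)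
  have hfin : Finite (GaloisField 2 n) := Nat.finite_of_card_ne_zero (by rw [hcF]; positivity)
  obtain ⟨φ, h1, h2, h3⟩ := h.typeA hna hcard (GaloisField 2 n) (by rw [hcF, hc])
  let ft : Fintype (GaloisField 2 n) := Fintype.ofFinite _
  refine ⟨GaloisField 2 n, inferInstance, ft, φ, ?_, h1, h2, h3⟩
  rw [← Nat.card_eq_fintype_card, hcF, hc]

end Cfsg.Agent.S1139
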