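import Cfsg.Statements.S1151
import Cfsg.Agent.Ree.Main
import Cfsg.Agent.Ree.Abs3
import Cfsg.Agent.Ree.Arith
-- import your own Cfsg.Agent.* helpers here

set_option autoImplicit false
open Cfsg

namespace Cfsg.Agent.S1151

/-- In the small Ree group ²G₂(q), q = 3^(2m+1), realised as G¹ inside the Chevalley group G₂ over the field with q elements (θ the 3^m-th power map), with H¹ = G¹ ∩ H and U¹ = G¹ ∩ U the intersections with the ambient diagonal and positive unipotent subgroups: `H¹` has exactly `(q - 1)/2` elements of odd order, and each non-identity one centralises no non-identity element of `U¹`. -/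
theorem result {K : Type*} [Field K] [Fintype K] {m : ℕ} (hK : Fintype.card K = 3 ^ (2 * m + 1)) :
    2 * Nat.card {h : ↥(Cfsg.Lie.chevG2.diagonalSubgroup K ⊓ Cfsg.Lie.twistedG2 K (3 ^ m)) // Odd (orderOf h)} = 3 ^ (2 * m + 1) - 1 ∧
      ∀ h ∈ (Cfsg.Lie.chevG2.diagonalSubgroup K ⊓ Cfsg.Lie.twistedG2 K (3 ^ m)), h ≠ 1 → Odd (orderOf h) →
        (Cfsg.Lie.chevG2.posUnipotent K ⊓ Cfsg.Lie.twistedG2 K (3 ^ m)) ⊓ Subgroup.centralizer {h} = ⊥ := by
  constructor
  · have e : {κ : Kˣ // Odd (orderOf κ)} ≃ {h : ↥(Cfsg.Lie.chevG2.diagonalSubgroup K ⊓ Cfsg.Lie.twistedG2 K (3 ^ m)) // Odd (orderOf h)} :=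
      (Ree.diagEquiv hK).toEquiv.subtypeEquiv (fun κ => by
        have : orderOf ((Ree.diagEquiv hK) κ) = orderOf κ := orderOf_injective (Ree.diagEquiv hK).toMonoidHom (Ree.diagEquiv hK).injective κ
        rw [MulEquiv.toEquiv_eq_coe, MulEquiv.coe_toEquiv, this])
    rw [← Nat.card_congr e, ← hK]
    exact Ree.two_mul_card_odd hK
  · intro h hh h1 hodd
    obtain ⟨κ, h2⟩ := (Ree.rs hK).mem_H.1 ((Ree.rs_mem_diag hK (g := ⟨h, hh.2⟩)).1 hh.1)
    have hκ : h = ((Ree.rs hK).h κ : GL Cfsg.Lie.chevG2.Idx K) := congrArg Subtype.val h2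
    have ho : orderOf h = orderOf κ := by
      rw [hκ, Subgroup.orderOf_coe, orderOf_injective _ (Ree.rs hK).h_inj]
    rw [Subgroup.eq_bot_iff_forall]
    rintro g ⟨⟨hg1, hg2⟩, hg3⟩
    obtain ⟨T, U, W, hg4⟩ := (Ree.rs hK).mem_U.1 ((Ree.rs_mem_pos hK (g := ⟨g, hg2⟩)).1 hg1)
    have hg5 : g = ((Ree.rs hK).x T U W : GL Cfsg.Lie.chevG2.Idx K) := congrArg Subtype.val hg4
    replace hg3 := Subgroup.mem_centralizer_singleton_iff.1 hg3
    have h3 : (Ree.rs hK).h κ * (Ree.rs hK).x T U W = (Ree.rs hK).x T U W * (Ree.rs hK).h κ := by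
      apply Subtype.ext
      rw [Subgroup.coe_mul, Subgroup.coe_mul, ← hκ, ← hg5, hg3]
    have hκ1 : κ ≠ 1 := by
      rintro rfl
      apply h1
      rw [hκ, map_one]; rfl
    have hκ2 : κ ≠ -1 := by
      rintro rfl
      rw [ho] at hodd
      have h4 : orderOf (-1 : Kˣ) = 2 := by
        rw [← orderOf_injective _ (Ree.rs hK).h_inj, (Ree.rs hK).orderOf_h_neg_one]
      rw [h4] at hodd
      exact absurd hodd (by decide)
    rw [hg5, (Ree.rs hK).fix_of' hκ1 hκ2 h3]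
    rfl

end Cfsg.Agent.S1151
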