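import Cfsg.Statements.S1152
import Cfsg.Agent.Ree.Main
import Cfsg.Agent.Ree.Syl2
-- import your own Cfsg.Agent.* helpers here

set_option autoImplicit false
open Cfsg

namespace Cfsg.Agent.S1152

/-- In the small Ree group ²G₂(q), q = 3^(2m+1), realised as G¹ inside the Chevalley group G₂ over the field with q elements (θ the 3^m-th power map), with H¹ = G¹ ∩ H and U¹ = G¹ ∩ U the intersections with the ambient diagonal and positive unipotent subgroups: for an involution `a ∈ H¹`, the centraliser of `a` in `G¹` is isomorphic to `Z₂ × PSL₂(q)`; and the Sylow 2-subgroups of `G¹` are elementary abelian of order 8. -/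
theorem result {K : Type*} [Field K] [Fintype K] {m : ℕ} (hK : Fintype.card K = 3 ^ (2 * m + 1))
    (a : ↥(Cfsg.Lie.twistedG2 K (3 ^ m))) (haH : (a : GL Cfsg.Lie.chevG2.Idx K) ∈ Cfsg.Lie.chevG2.diagonalSubgroup K) (ha1 : a ≠ 1) (ha2 : a * a = 1) :
    Nonempty (↥(Subgroup.centralizer {a}) ≃* Multiplicative (ZMod 2) × Matrix.ProjectiveSpecialLinearGroup (Fin 2) K) ∧
      ∀ S : Sylow 2 ↥(Cfsg.Lie.twistedG2 K (3 ^ m)), Nat.card S = 8 ∧ ∀ x ∈ S, x * x = 1 := by
  obtain ⟨κ, hκ⟩ := (Ree.rs hK).mem_H.1 ((Ree.rs_mem_diag hK).1 haH)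
  have h1 : κ = -1 := by
    rw [hκ, ← map_mul, ← map_one (Ree.rs hK).h] at ha2
    have h2 := (Ree.rs hK).h_inj ha2
    have h3 : (κ : K) * κ = 1 := by rw [← Units.val_mul, h2, Units.val_one]
    rcases mul_self_eq_one_iff.1 h3 with h4 | h4
    · exfalso
      apply ha1
      rw [hκ, Units.ext (h4.trans Units.val_one.symm), map_one]
    · exact Units.ext (by rw [h4, Units.val_neg, Units.val_one])
  have hat : a = (Ree.rs hK).t := by rw [hκ, h1, Ree.RS.t_def]
  rw [hat]
  exact ⟨⟨(Ree.rs hK).centEquiv⟩, fun S => (Ree.rs hK).syl2 hK S⟩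

end Cfsg.Agent.S1152
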