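import Cfsg.Statements.S1160
import Cfsg.Agent.H20.HalfTrans

set_option autoImplicit false
open Cfsg

namespace Cfsg.Agent.S1160

open Cfsg.Agent.H20

/-- Let `p ≠ 2` be prime and `P` a finite `p`-group acting faithfully by additive automorphisms on a finite elementary abelian `q`-group `E` (`q` prime), such that `|P_a|` is the same for all `a ≠ 0`. Then `P` is cyclic and every non-identity element of `P` fixes only `0`. -/
theorem result {P E : Type*} [Group P] [Finite P]
    [AddCommGroup E] [Finite E] [DistribMulAction P E] [FaithfulSMul P E]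
    {p q : ℕ} [Fact p.Prime] (hp2 : p ≠ 2) (hP : IsPGroup p P) (hq : q.Prime) (hE : ∀ e : E, q • e = 0)
    (hconst : ∀ a b : E, a ≠ 0 → b ≠ 0 →
      Nat.card (MulAction.stabilizer P a) = Nat.card (MulAction.stabilizer P b)) :
    IsCyclic P ∧ ∀ g : P, g ≠ 1 → ∀ a : E, g • a = a → a = 0 := by
  have hp : p.Prime := Fact.out
  -- P trivial case
  have htriv : (∀ g : P, g = 1) → (IsCyclic P ∧ ∀ g : P, g ≠ 1 → ∀ a : E, g • a = a → a = 0) := by
    intro h
    refine ⟨⟨1, fun x => ?_⟩, fun g hg => absurd (h g) hg⟩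
    rw [h x]; exact (Subgroup.zpowers (1 : P)).one_mem
  by_cases hEs : ∀ v : E, v = 0
  · apply htriv
    intro g
    exact FaithfulSMul.eq_of_smul_eq_smul (α := E) (fun w => by rw [hEs w, smul_zero, smul_zero])
  push Not at hEs
  obtain ⟨v0, hv0⟩ := hEs
  by_cases hpq : p = q
  · subst hpq
    apply htriv
    -- a nonzero fixed vector
    have hdvd : p ∣ Nat.card E := by
      have h1 : addOrderOf v0 = p := addOrderOf_eq_prime (hE v0) hv0
      rw [← h1]
      exact addOrderOf_dvd_natCard v0
    obtain ⟨b, hb, hb0⟩ := hP.exists_fixed_point_of_prime_dvd_card_of_fixed_point E hdvd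
      (a := (0 : E)) (by intro g; exact smul_zero g)
    have hcard : ∀ c : E, c ≠ 0 → MulAction.stabilizer P c = ⊤ := by
      intro c hc
      rw [← Subgroup.card_eq_iff_eq_top, ← hconst b c (Ne.symm hb0) hc]
      have : MulAction.stabilizer P b = ⊤ := by
        rw [eq_top_iff]; intro g _; exact hb g
      rw [this]
      exact Subgroup.card_top
    intro g
    apply FaithfulSMul.eq_of_smul_eq_smul (α := E)
    intro w
    by_cases hw : w = 0
    · rw [hw, smul_zero, smul_zero]
    · have : g ∈ MulAction.stabilizer P w := by rw [hcard w hw]; exact Subgroup.mem_top g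
      rw [one_smul]; exact this
  have hcop : ∀ X : Subgroup P, ∀ v : E, Nat.card X • v = 0 → v = 0 := by
    intro X v hv
    obtain ⟨k, hk⟩ := IsPGroup.iff_card.1 (hP.to_subgroup X)
    rw [hk] at hv
    have h1 := addOrderOf_dvd_of_nsmul_eq_zero hv
    have h2 := addOrderOf_dvd_of_nsmul_eq_zero (hE v)
    have h3 : (p ^ k).Coprime q := Nat.Coprime.pow_left k ((Nat.coprime_primes hp hq).2 hpq)
    have h4 := Nat.dvd_gcd h1 h2
    rw [h3] at h4
    exact AddMonoid.addOrderOf_eq_one_iff.1 (Nat.dvd_one.1 h4)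
  have hcyc := half_cyclic hp2 hP hconst hcop
  refine ⟨hcyc, fun g hg a ha => ?_⟩
  have hn : (Subgroup.zpowers g).Normal := by
    obtain ⟨t, ht⟩ := hcyc.exists_generator
    refine ⟨fun n hn h => ?_⟩
    obtain ⟨i, rfl⟩ := ht n
    obtain ⟨j, rfl⟩ := ht h
    have : t ^ j * t ^ i * (t ^ j)⁻¹ = t ^ i := by group
    simp only at hn ⊢
    rwa [this]
  exact half_normal_fixed hconst hcop (Subgroup.zpowers g) (fun h => hg (Subgroup.zpowers_eq_bot.1 h)) (fixed_zpowers ha)

end Cfsg.Agent.S1160
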