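import Cfsg.Statements.S1165
import Cfsg.Agent.H20.RankOne

set_option autoImplicit false
open Cfsg

namespace Cfsg.Agent.S1165

/-- In the rank-one set-up (`G` finite and doubly transitive on `Ω`, `t` an involution moving `a`, `Q` normal in `G_a` with `G_a = Q D`, `Q ⊓ D = 1` for the two-point stabiliser `D = G_a ⊓ G_{t • a}`, `|Q|` even, `|D|` odd): every `x ∈ Q`, `x ≠ 1`, determines unique `g, f ∈ Q`, `h ∈ D` with `t x t = g h t f` (a consequence of the canonical form). For these: (H1) the `f`-part of `x⁻¹` is `g⁻¹`; (H2) the `f`-part of `f` is `x`; (H3) for `a ∈ D` the `f`-part of `a⁻¹ x a` is `(t a t)⁻¹ f (t a t)`; (H4) the `h`-part of `a⁻¹ x a` is `(t a t)⁻¹ h a`, that of `x⁻¹` is `t h⁻¹ t`, and that of `f` is `h⁻¹`. -/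
theorem result {G Ω : Type*} [Group G] [Finite G] [MulAction G Ω] {a : Ω} {t : G} {Q : Subgroup G}
    (hS : Cfsg.IsRankOneSetup G Ω a t Q)
    (x g h f : G) (hx : x ∈ Q) (hx1 : x ≠ 1) (hg : g ∈ Q) (hh : h ∈ (MulAction.stabilizer G a ⊓ MulAction.stabilizer G (t • a))) (hf : f ∈ Q)
    (heq : t * x * t = g * h * t * f) :
    (∀ g₁ h₁ f₁ : G, g₁ ∈ Q → h₁ ∈ (MulAction.stabilizer G a ⊓ MulAction.stabilizer G (t • a)) → f₁ ∈ Q → t * x⁻¹ * t = g₁ * h₁ * t * f₁ →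
        f₁ = g⁻¹ ∧ h₁ = t * h⁻¹ * t) ∧
      (∀ g₂ h₂ f₂ : G, g₂ ∈ Q → h₂ ∈ (MulAction.stabilizer G a ⊓ MulAction.stabilizer G (t • a)) → f₂ ∈ Q → t * f * t = g₂ * h₂ * t * f₂ →
        f₂ = x ∧ h₂ = h⁻¹) ∧
      ∀ c ∈ (MulAction.stabilizer G a ⊓ MulAction.stabilizer G (t • a)), ∀ g₃ h₃ f₃ : G, g₃ ∈ Q → h₃ ∈ (MulAction.stabilizer G a ⊓ MulAction.stabilizer G (t • a)) → f₃ ∈ Q →
        t * (c⁻¹ * x * c) * t = g₃ * h₃ * t * f₃ →
          f₃ = (t * c * t)⁻¹ * f * (t * c * t) ∧ h₃ = (t * c * t)⁻¹ * h * c := by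
  have htt := hS.mul_self
  have hti : t⁻¹ = t := inv_eq_of_mul_eq_one_left htt
  have hQn : ∀ c ∈ MulAction.stabilizer G a, ∀ q ∈ Q, c * q * c⁻¹ ∈ Q := hS.conj_mem
  refine ⟨?_, ?_, ?_⟩
  · intro g₁ h₁ f₁ hg₁ hh₁ hf₁ e₁
    have e : g₁ * h₁ * t * f₁ = f⁻¹ * (t * h⁻¹ * t) * t * g⁻¹ := by
      rw [← e₁]
      have : t * x⁻¹ * t = (t * x * t)⁻¹ := by
        rw [mul_inv_rev, mul_inv_rev, hti]; group
      rw [this, heq, mul_inv_rev, mul_inv_rev, mul_inv_rev, hti]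
      calc f⁻¹ * (t * (h⁻¹ * g⁻¹)) = f⁻¹ * (t * h⁻¹) * 1 * g⁻¹ := by group
        _ = f⁻¹ * (t * h⁻¹) * (t * t) * g⁻¹ := by rw [htt]
        _ = f⁻¹ * (t * h⁻¹ * t) * t * g⁻¹ := by group
    obtain ⟨-, h2, h3⟩ := H20.rankOne_unique hS hg₁ hh₁ hf₁ (inv_mem hf)
      (H20.rankOne_conj_mem htt (inv_mem hh)) (inv_mem hg) e
    exact ⟨h3, h2⟩
  · intro g₂ h₂ f₂ hg₂ hh₂ hf₂ e₂
    have e : g₂ * h₂ * t * f₂ = (h⁻¹ * g⁻¹ * h) * h⁻¹ * t * x := by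
      rw [← e₂]
      have h1 : t * f = h⁻¹ * g⁻¹ * (t * x * t) := by rw [heq]; group
      rw [h1]
      calc h⁻¹ * g⁻¹ * (t * x * t) * t = h⁻¹ * g⁻¹ * t * x * (t * t) := by group
        _ = (h⁻¹ * g⁻¹ * h) * h⁻¹ * t * x := by rw [htt]; group
    have m1 : h⁻¹ * g⁻¹ * h ∈ Q := by
      have := hQn h⁻¹ (inv_mem hh.1) g⁻¹ (inv_mem hg)
      simpa using this
    obtain ⟨-, h2, h3⟩ := H20.rankOne_unique hS hg₂ hh₂ hf₂ m1 (inv_mem hh) hx e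
    exact ⟨h3, h2⟩
  · intro c hc g₃ h₃ f₃ hg₃ hh₃ hf₃ e₃
    set c' := t * c * t with hc'
    have hc'D := H20.rankOne_conj_mem htt hc
    rw [← hc'] at hc'D
    have hc'i : t * c⁻¹ * t = c'⁻¹ := by
      rw [hc', mul_inv_rev, mul_inv_rev, hti]; group
    have htc' : t * c' = c * t := by
      rw [hc']
      calc t * (t * c * t) = (t * t) * c * t := by group
        _ = c * t := by rw [htt, one_mul]
    have e : g₃ * h₃ * t * f₃ = (c'⁻¹ * g * c') * (c'⁻¹ * h * c) * t * (c'⁻¹ * f * c') := by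
      rw [← e₃]
      calc t * (c⁻¹ * x * c) * t = (t * c⁻¹ * 1) * x * (1 * c * t) := by group
        _ = (t * c⁻¹ * (t * t)) * x * ((t * t) * c * t) := by rw [htt]
        _ = (t * c⁻¹ * t) * (t * x * t) * (t * c * t) := by group
        _ = c'⁻¹ * (g * h * t * f) * c' := by rw [hc'i, heq]
        _ = (c'⁻¹ * g * c') * (c'⁻¹ * h) * (t * c') * (c'⁻¹ * f * c') := by group
        _ = (c'⁻¹ * g * c') * (c'⁻¹ * h) * (c * t) * (c'⁻¹ * f * c') := by rw [htc']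
        _ = _ := by group
    have m1 : c'⁻¹ * g * c' ∈ Q := by
      have := hQn c'⁻¹ (inv_mem hc'D.1) g hg
      simpa using this
    have m2 : c'⁻¹ * f * c' ∈ Q := by
      have := hQn c'⁻¹ (inv_mem hc'D.1) f hf
      simpa using this
    obtain ⟨-, h2, h3⟩ := H20.rankOne_unique hS hg₃ hh₃ hf₃ m1
      (mul_mem (mul_mem (inv_mem hc'D) hh) hc) m2 e
    exact ⟨h3, h2⟩

end Cfsg.Agent.S1165
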