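import Cfsg.Statements.S1167
import Cfsg.Agent.H37.ZMain
import Cfsg.Agent.SuzId.ZasHyp

set_option autoImplicit false
open Cfsg

namespace Cfsg.Agent.S1167

open MulAction Cfsg.Agent.H37.ZT Cfsg.Agent.H34

/-- Let `G` be a finite simple Zassenhaus group on `Ω`, `U` a normal subgroup of `G_a` regular on `Ω` minus `a` which is an abelian 2-group, and `v` an involution with `v • a ≠ a`. Then there is a unique `u₀ ∈ U`, `u₀ ≠ 1`, with `v u₀ v = u₀ v u₀`. -/
theorem result {G Ω : Type*} [Group G] [Finite G] [MulAction G Ω] [Finite Ω]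
    (hZ : Cfsg.IsZassenhausGroup G Ω) [IsSimpleGroup G] {a : Ω}
    (U : Subgroup G) (hUle : U ≤ MulAction.stabilizer G a)
    (hUn : ∀ h ∈ MulAction.stabilizer G a, ∀ u ∈ U, h * u * h⁻¹ ∈ U)
    (hreg : ∀ c d : Ω, c ≠ a → d ≠ a → ∃! u : U, (u : G) • c = d)
    (hU2 : IsPGroup 2 U) (hUab : ∀ u ∈ U, ∀ u' ∈ U, u * u' = u' * u)
    (v : G) (hv1 : v ≠ 1) (hv2 : v * v = 1) (hva : v • a ≠ a) :
    ∃! u₀ : G, u₀ ∈ U ∧ u₀ ≠ 1 ∧ v * u₀ * v = u₀ * v * u₀ := by
  classical
  have hz := zgp_of hZ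
  set b := v • a with hb
  have hab : a ≠ b := fun h => hva h.symm
  have hvb : v • b = a := by rw [hb, ← mul_smul, hv2, one_smul]
  have hU : IsKer G a U := ⟨hUle, hUn, hreg⟩
  have hcardΩ : Nat.card Ω = Nat.card U + 1 := Cfsg.Agent.SuzId.card_of_reg hab hUle hreg
  obtain ⟨k, hk⟩ := IsPGroup.iff_card.mp hU2
  have hk1 : 1 ≤ k := by
    by_contra hk0
    have hk0 : k = 0 := by omega
    rw [hk0, pow_zero] at hk
    rw [hk] at hcardΩ
    obtain ⟨g, hg1, c, d, hcd, hgc, hgd⟩ := hZ.2.2.2.1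
    apply hg1
    apply hz.faithful
    intro e
    by_contra hne
    have hec : e ≠ c := fun h => hne (by rw [h, hgc])
    have hed : e ≠ d := fun h => hne (by rw [h, hgd])
    have h3 : Nat.card Ω ≥ 3 := by
      letI := Fintype.ofFinite Ω
      rw [Nat.card_eq_fintype_card]
      have : ({e, c, d} : Finset Ω).card = 3 := Finset.card_eq_three.mpr ⟨e, c, d, hec, hed, hcd, rfl⟩
      rw [← this]
      exact Finset.card_le_univ _
    omega
  have hevU : Even (Nat.card U) := by
    rw [hk]; exact (Nat.even_pow.mpr ⟨even_two, by omega⟩)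
  have hoddΩ : Odd (Nat.card Ω) := by rw [hcardΩ]; exact hevU.add_one
  have h2U : 2 ≤ Nat.card U := by
    rw [hk]
    calc 2 = 2 ^ 1 := rfl
      _ ≤ 2 ^ k := Nat.pow_le_pow_right (by norm_num) hk1
  have hcard : Nat.card (stab2 G a b) = Nat.card Ω - 2 := by
    rcases zass_abelian hZ hab hU hUab with h | ⟨h, -⟩
    · exact h
    · exfalso
      obtain ⟨m, hm⟩ := hevU
      omega
  -- all nontrivial elements of U are involutions
  have hconj : ∀ u ∈ U, ∀ u' ∈ U, u ≠ 1 → u' ≠ 1 → ∃ s : G, s * u * s⁻¹ = u' := by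
    intro u hu u' hu' h1 h1'
    have hfree : ∀ w ∈ U, w ≠ 1 → w • b ≠ b := by
      intro w hw hw1 hwb
      apply hw1
      obtain ⟨y, hy, huniq⟩ := hreg b b hva hva
      have e1 := huniq ⟨w, hw⟩ hwb
      have e2 := huniq 1 (by simp)
      have := e1.trans e2.symm
      exact Subtype.ext_iff.mp this
    have hne : ∀ w ∈ U, w • b ≠ a := by
      intro w hw hwb
      have : w • a = a := hUle hw
      have h3 : w • b = w • a := by rw [hwb, this]
      exact hab.symm (smul_left_cancel w h3)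
    obtain ⟨s, hs, hsu⟩ := stab2_trans hz hab hcard (hne u hu) (hfree u hu h1) (hne u' hu') (hfree u' hu' h1')
    obtain ⟨hsa, hsb⟩ := mem_stab2.1 hs
    refine ⟨s, ?_⟩
    obtain ⟨y, hy, huniq⟩ := hreg b (u' • b) hva (hne u' hu')
    have e1 := huniq ⟨s * u * s⁻¹, hUn s hsa u hu⟩ (by
      change (s * u * s⁻¹) • b = u' • b
      rw [mul_smul, mul_smul, show s⁻¹ • b = b by rw [inv_smul_eq_iff, hsb], hsu])
    have e2 := huniq ⟨u', hu'⟩ rfl
    have := e1.trans e2.symm
    exact Subtype.ext_iff.mp this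
  have hinv : ∀ u ∈ U, u * u = 1 := by
    haveI : Fact (Nat.Prime 2) := ⟨Nat.prime_two⟩
    obtain ⟨z, hz2⟩ := exists_prime_orderOf_dvd_card' (G := U) 2 (by
      obtain ⟨m, hm⟩ := hevU
      exact ⟨m, by omega⟩)
    have hz1 : (z : G) ≠ 1 := by
      intro h
      have : z = 1 := Subtype.ext h
      rw [this, orderOf_one] at hz2
      omega
    have hzz : (z : G) * z = 1 := by
      have := pow_orderOf_eq_one z
      rw [hz2, pow_two] at this
      exact Subtype.ext_iff.mp this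
    intro u hu
    by_cases hu1 : u = 1
    · rw [hu1, one_mul]
    · obtain ⟨s, hs⟩ := hconj z z.2 u hu hz1 hu1
      rw [← hs]
      calc s * z * s⁻¹ * (s * z * s⁻¹) = s * (z * z) * s⁻¹ := by group
        _ = 1 := by rw [hzz]; group
  -- the fixed point of v
  have h3 := hZ.2.2.1
  have hvfix : ∀ c d : Ω, v • c = c → v • d = d → c = d := by
    intro c d hc hd
    by_contra hcd
    have hodd := Cfsg.Agent.SuzId.odd_D h3 hoddΩ hcd
    have hmem : v ∈ (stabilizer G c ⊓ stabilizer G d : Subgroup G) := ⟨hc, hd⟩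
    have hord : orderOf v = 2 := orderOf_eq_prime (by rw [pow_two, hv2]) hv1
    have : 2 ∣ Nat.card (stabilizer G c ⊓ stabilizer G d : Subgroup G) := by
      rw [← hord]
      have := Subgroup.orderOf_dvd_natCard _ hmem
      exact this
    exact (Nat.not_even_iff_odd.mpr hodd) (even_iff_two_dvd.mpr this)
  obtain ⟨c, hc⟩ : ∃ c : Ω, v • c = c := by
    haveI : Fact (Nat.Prime 2) := ⟨Nat.prime_two⟩
    have hord : orderOf v = 2 := orderOf_eq_prime (by rw [pow_two, hv2]) hv1
    have hP : IsPGroup 2 (Subgroup.zpowers v) := IsPGroup.of_card (n := 1) (by rw [Nat.card_zpowers, hord, pow_one])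
    have hnd : ¬ 2 ∣ Nat.card Ω := fun h => (Nat.not_even_iff_odd.mpr hoddΩ) (even_iff_two_dvd.mpr h)
    obtain ⟨c, hc⟩ := hP.nonempty_fixed_point_of_prime_not_dvd_card Ω hnd
    exact ⟨c, hc ⟨v, Subgroup.mem_zpowers v⟩⟩
  have hca : c ≠ a := by
    intro h; rw [h] at hc; exact hva hc
  have hcb : c ≠ b := by
    intro h; rw [h, hvb] at hc; exact hab hc
  obtain ⟨u0, hu0, hu0u⟩ := hreg b c hva hca
  have hu01 : (u0 : G) ≠ 1 := by
    intro h; rw [h, one_smul] at hu0; exact hcb hu0.symm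
  have hu0c : (u0 : G) • c = b := by
    rw [← hu0, ← mul_smul, hinv u0 u0.2, one_smul]
  have hu0a : (u0 : G) • a = a := hUle u0.2
  refine ⟨u0, ⟨u0.2, hu01, ?_⟩, ?_⟩
  · -- (v u0)^3 = 1
    have hone : v * u0 * v * u0 * v * u0 = 1 := by
      apply h3 _ a b c hab (Ne.symm hcb) (Ne.symm hca)
      · simp only [mul_smul]
        rw [hu0a, ← hb, hu0, hc, hu0c, hvb]
      · simp only [mul_smul]
        rw [hu0, hc, hu0c, hvb, hu0a]
      · simp only [mul_smul]
        rw [hu0c, hvb, hu0a, ← hb, hu0, hc]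
    have hi := hinv u0 u0.2
    have hi' : (u0 : G)⁻¹ = u0 := inv_eq_of_mul_eq_one_left hi
    have hv' : v⁻¹ = v := inv_eq_of_mul_eq_one_left hv2
    have : v * u0 * v * (u0 * v * u0) = 1 := by rw [← hone]; group
    have h4 := eq_inv_of_mul_eq_one_left this
    rw [h4, mul_inv_rev, mul_inv_rev, hi', hv', mul_assoc]
  · rintro u ⟨hu, hu1, hvu⟩
    have hub : v • (u • b) = u • b := by
      have e1 : (v * u * v) • b = b := by
        rw [mul_smul, mul_smul, hvb, show u • a = a from hUle hu]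
      rw [hvu, mul_smul, mul_smul] at e1
      have e2 : (u * u) • (v • (u • b)) = u • b := by
        rw [mul_smul, e1]
      rw [hinv u hu, one_smul] at e2
      exact e2
    have hubc : u • b = c := hvfix _ _ hub hc
    have := hu0u ⟨u, hu⟩ hubc
    exact Subtype.ext_iff.mp this

end Cfsg.Agent.S1167
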