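import Cfsg.Statements.S1176
import Cfsg.Agent.H20.Invol

set_option autoImplicit false
open Cfsg
open scoped commutatorElement

namespace Cfsg.Agent.S1176

/-- Let x₀ be an involution of the finite group G and D its conjugacy class. Assume (a) for each x ∈ D the subgroup W(x) generated by the members of D commuting with x is a 2-group of nilpotency class at most 2, and (b) the product of two distinct commuting members of D again lies in D. Then for all x, y ∈ D, if xy has even order greater than 2, its order is 4. -/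
theorem result {G : Type*} [Group G] [Finite G] (x₀ : G) (hx₀ : orderOf x₀ = 2) (ha : ∀ x : G, IsConj x₀ x → IsPGroup 2 ↥(Subgroup.closure {y : G | IsConj x₀ y ∧ Commute y x}) ∧ ⁅⁅Subgroup.closure {y : G | IsConj x₀ y ∧ Commute y x}, Subgroup.closure {y : G | IsConj x₀ y ∧ Commute y x}⁆, Subgroup.closure {y : G | IsConj x₀ y ∧ Commute y x}⁆ = ⊥) (hb : ∀ x y : G, IsConj x₀ x → IsConj x₀ y → x ≠ y → Commute x y → IsConj x₀ (x * y)) (x y : G) (hx : IsConj x₀ x) (hy : IsConj x₀ y) (heven : Even (orderOf (x * y))) (hgt : 2 < orderOf (x * y)) : orderOf (x * y) = 4 := by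
  classical
  have hsq : ∀ x : G, IsConj x₀ x → x * x = 1 := by
    intro x hx
    obtain ⟨c, hc⟩ := isConj_iff.1 hx
    have h0 : x₀ * x₀ = 1 := by rw [← pow_two, ← hx₀, pow_orderOf_eq_one]
    rw [← hc]
    calc (c * x₀ * c⁻¹) * (c * x₀ * c⁻¹) = c * (x₀ * x₀) * c⁻¹ := by group
      _ = 1 := by rw [h0]; group
  have hxx := hsq x hx
  have hyy := hsq y hy
  have hinv := H20.inv_left_conj hxx hyy
  have hinv2 := H20.inv_right_conj hxx hyy
  obtain ⟨m, hm⟩ := heven
  obtain ⟨h, -, hh⟩ := H20.mul_pow_half_conj hxx hyy m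
  set u := x * y with hu
  set z := u ^ m with hz
  have hzz : z * z = 1 := by rw [hz, ← pow_add, ← hm, pow_orderOf_eq_one]
  have hzi : z⁻¹ = z := inv_eq_of_mul_eq_one_left hzz
  have hz1 : z ≠ 1 := by
    intro h
    have : orderOf u ∣ m := orderOf_dvd_of_pow_eq_one h
    have := Nat.le_of_dvd (by omega) this
    omega
  have hxz : Commute x z := by
    have h1 := H20.conj_pow_of_inv hinv m
    rw [← hz, hzi] at h1
    exact mul_inv_eq_iff_eq_mul.1 h1
  have hyz : Commute y z := by
    have h1 := H20.conj_pow_of_inv hinv2 m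
    rw [← hz, hzi] at h1
    exact mul_inv_eq_iff_eq_mul.1 h1
  have hxzD : IsConj x₀ (x * z) := by
    rcases hh with hh | hh
    · exact hx.trans (isConj_iff.2 ⟨h, hh.symm⟩)
    · exact hy.trans (isConj_iff.2 ⟨h, hh.symm⟩)
  have hzD : IsConj x₀ z := by
    have h1 := hb x (x * z) hx hxzD (by intro h; exact hz1 (left_eq_mul.1 h))
      ((Commute.refl x).mul_right hxz)
    rwa [← mul_assoc, hxx, one_mul] at h1
  obtain ⟨-, h2⟩ := ha z hzD
  set W := Subgroup.closure {w : G | IsConj x₀ w ∧ Commute w z} with hW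
  have hxW : x ∈ W := Subgroup.subset_closure ⟨hx, hxz⟩
  have hyW : y ∈ W := Subgroup.subset_closure ⟨hy, hyz⟩
  have h3 : (⁅⁅x, y⁆, x⁆ : G) ∈ ⁅⁅W, W⁆, W⁆ :=
    Subgroup.commutator_mem_commutator (Subgroup.commutator_mem_commutator hxW hyW) hxW
  rw [h2, Subgroup.mem_bot, commutatorElement_eq_one_iff_mul_comm] at h3
  have hxi : x⁻¹ = x := inv_eq_of_mul_eq_one_left hxx
  have hyi : y⁻¹ = y := inv_eq_of_mul_eq_one_left hyy
  have h4 : ⁅x, y⁆ = u ^ 2 := by
    rw [commutatorElement_def, hxi, hyi, pow_two, hu]; group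
  rw [h4] at h3
  -- u^2 x = x u^2 and x u^2 x⁻¹ = u^-2
  have h5 := H20.conj_pow_of_inv hinv 2
  rw [← h3, mul_inv_cancel_right] at h5
  have h6 : u ^ 4 = 1 := by
    have : u ^ 4 = u ^ 2 * u ^ 2 := by rw [← pow_add]
    rw [this]; nth_rewrite 1 [h5]; group
  have h7 : orderOf u ∣ 4 := orderOf_dvd_of_pow_eq_one h6
  have h8 : orderOf u ≤ 4 := Nat.le_of_dvd (by norm_num) h7
  have : orderOf u = 3 ∨ orderOf u = 4 := by omega
  rcases this with h | h
  · rw [h] at h7; norm_num at h7
  · exact h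

end Cfsg.Agent.S1176
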