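import Cfsg.Statements.S1177
import Cfsg.Agent.H20.Basic

set_option autoImplicit false
open Cfsg

namespace Cfsg.Agent.S1177

/-- Let A be a nontrivial elementary abelian 2-subgroup of a finite group G which is a T.I. set (each conjugate of A meets A trivially or equals A) and which does not commute elementwise with any conjugate of A other than A itself. Then for every a ∈ A, a ≠ 1, every conjugate of A contained in C_G(a) is equal to A (A is weakly closed in C_G(a)). -/
theorem result {G : Type*} [Group G] [Finite G] (A : Subgroup G) (hA : Cfsg.IsElementaryAbelian 2 A) (hA1 : A ≠ ⊥) (hTI : ∀ g : G, A.map (MulAut.conj g).toMonoidHom ⊓ A = ⊥ ∨ A.map (MulAut.conj g).toMonoidHom = A) (hb : ∀ g : G, (∀ a ∈ A, ∀ b ∈ A.map (MulAut.conj g).toMonoidHom, a * b = b * a) → A.map (MulAut.conj g).toMonoidHom = A) (a : G) (ha : a ∈ A) (ha1 : a ≠ 1) (g : G) (hg : A.map (MulAut.conj g).toMonoidHom ≤ Subgroup.centralizer ({a} : Set G)) : A.map (MulAut.conj g).toMonoidHom =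 A := by
  classical
  have hAcomm : ∀ x ∈ A, ∀ y ∈ A, x * y = y * x := by
    intro x hx y hy
    have := hA.1.is_comm.comm (⟨x, hx⟩ : A) ⟨y, hy⟩
    exact congrArg Subtype.val this
  have hA2 : IsPGroup 2 A := by
    intro x
    exact ⟨1, Subtype.ext (by simpa using hA.2 x x.2)⟩
  by_contra hne
  set B := A.map (MulAut.conj g).toMonoidHom with hB
  have hB2 : IsPGroup 2 B := hA2.map _
  have hinf : B ⊓ A = ⊥ := (hTI g).resolve_right hne
  have hBcomm : ∀ x ∈ B, ∀ y ∈ B, x * y = y * x := by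
    rintro _ ⟨x, hx, rfl⟩ _ ⟨y, hy, rfl⟩
    rw [← map_mul, ← map_mul, hAcomm x hx y hy]
  -- B normalizes A
  have hBA : ∀ b ∈ B, A.map (MulAut.conj b).toMonoidHom = A := by
    intro b hb
    rcases hTI b with h | h
    · exfalso
      apply ha1
      have h1 : a ∈ A.map (MulAut.conj b).toMonoidHom := by
        refine ⟨a, ha, ?_⟩
        have := Subgroup.mem_centralizer_singleton_iff.1 (hg hb)
        simp [MulAut.conj_apply, this]
      have : a ∈ (A.map (MulAut.conj b).toMonoidHom ⊓ A : Subgroup G) := ⟨h1, ha⟩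
      rw [h] at this
      exact Subgroup.mem_bot.1 this
    · exact h
  have hBN : B ≤ Subgroup.normalizer (A : Set G) := by
    intro b hb
    rw [Subgroup.mem_normalizer_iff]
    intro x
    constructor
    · intro hx
      have : b * x * b⁻¹ ∈ A.map (MulAut.conj b).toMonoidHom := ⟨x, hx, by simp⟩
      rwa [hBA b hb] at this
    · intro hx
      have : b⁻¹ * (b * x * b⁻¹) * b⁻¹⁻¹ ∈ A.map (MulAut.conj b⁻¹).toMonoidHom := ⟨_, hx, by simp⟩
      rw [hBA b⁻¹ (inv_mem hb)] at this
      simpa [mul_assoc] using this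
  -- T = A ⊔ B
  have hT2 : IsPGroup 2 (B ⊔ A : Subgroup G) := IsPGroup.to_sup_of_normal_right' hB2 hA2 hBN
  set T : Subgroup G := B ⊔ A with hT
  have hBT : B ≤ T := le_sup_left
  have hAT : A ≤ T := le_sup_right
  have hTmem : ∀ t ∈ T, ∃ b ∈ B, ∃ c ∈ A, b * c = t := by
    intro t ht
    rw [hT, ← SetLike.mem_coe, Subgroup.coe_mul_of_left_le_normalizer_right B A hBN] at ht
    obtain ⟨b, hb, c, hc, h⟩ := Set.mem_mul.1 ht
    exact ⟨b, hb, c, hc, h⟩
  haveI : Group.IsNilpotent T := hT2.isNilpotent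
  set BT : Subgroup T := B.subgroupOf T with hBTdef
  -- elements of A normalizing B centralize B
  have hNC : ∀ x ∈ A, (∀ b ∈ B, x * b * x⁻¹ ∈ B) → ∀ b ∈ B, x * b = b * x := by
    intro x hx hn b hb
    have h1 : x * b * x⁻¹ * b⁻¹ ∈ B := mul_mem (hn b hb) (inv_mem hb)
    have h2 : x * b * x⁻¹ * b⁻¹ ∈ A := by
      have : b * x⁻¹ * b⁻¹ ∈ A := (Subgroup.mem_normalizer_iff.1 (hBN hb) _).1 (inv_mem hx)
      have h3 : x * b * x⁻¹ * b⁻¹ = x * (b * x⁻¹ * b⁻¹) := by group
      rw [h3]; exact mul_mem hx this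
    have h3 : x * b * x⁻¹ * b⁻¹ ∈ (B ⊓ A : Subgroup G) := ⟨h1, h2⟩
    rw [hinf, Subgroup.mem_bot] at h3
    have h4 : x * b * x⁻¹ = b := mul_inv_eq_one.1 h3
    exact mul_inv_eq_iff_eq_mul.1 h4
  -- elements of T normalizing B centralize B
  have hNC' : ∀ x ∈ T, (∀ b ∈ B, x * b * x⁻¹ ∈ B) → ∀ b ∈ B, x * b = b * x := by
    intro x hx hn b hb
    obtain ⟨b', hb', c, hc, rfl⟩ := hTmem x hx
    have h1 : ∀ b ∈ B, c * b * c⁻¹ ∈ B := by
      intro b hb
      have h2 := hn b hb
      have h3 : c * b * c⁻¹ = b'⁻¹ * (b' * c * b * (b' * c)⁻¹) * b' := by group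
      rw [h3]
      exact mul_mem (mul_mem (inv_mem hb') h2) hb'
    have h2 := hNC c hc h1 b hb
    calc b' * c * b = b' * (c * b) := by group
      _ = b' * (b * c) := by rw [h2]
      _ = (b' * b) * c := by group
      _ = (b * b') * c := by rw [hBcomm b' hb' b hb]
      _ = b * (b' * c) := by group
  have hfin : (∀ b ∈ B, ∀ x ∈ A, x * b * x⁻¹ ∈ B) → False := by
    intro h
    apply hne
    apply hb g
    intro x hx b hbB
    exact hNC x hx (fun b' hb' => h b' hb' x hx) b hbB
  by_cases hNtop : Subgroup.normalizer (BT : Set T) = ⊤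
  · apply hfin
    intro b hb x hx
    have h1 : (⟨x, hAT hx⟩ : T) ∈ Subgroup.normalizer (BT : Set T) := by rw [hNtop]; trivial
    have h2 := (Subgroup.mem_normalizer_iff.1 h1 ⟨b, hBT hb⟩).1 (by simpa [hBTdef, Subgroup.mem_subgroupOf] using hb)
    simpa [hBTdef, Subgroup.mem_subgroupOf] using h2
  · have hlt : Subgroup.normalizer (BT : Set T) < Subgroup.normalizer ((Subgroup.normalizer (BT : Set T) : Subgroup T) : Set T) :=
      Group.normalizerCondition_of_isNilpotent _ (lt_top_iff_ne_top.2 hNtop)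
    obtain ⟨y, hyN, hyn⟩ := SetLike.exists_of_lt hlt
    -- conj of B by y lies in N_T(B)
    have hyB : ∀ b ∈ B, ∀ b' ∈ B, b * ((y : G) * b' * (y : G)⁻¹) = ((y : G) * b' * (y : G)⁻¹) * b := by
      intro b hb b' hb'
      have h1 : (⟨b', hBT hb'⟩ : T) ∈ Subgroup.normalizer (BT : Set T) := by
        apply Subgroup.le_normalizer
        simpa [hBTdef, Subgroup.mem_subgroupOf] using hb'
      have h2 := (Subgroup.mem_normalizer_iff.1 hyN _).1 h1
      have h3 : ((y : G) * b' * (y : G)⁻¹) ∈ T := mul_mem (mul_mem y.2 (hBT hb')) (inv_mem y.2)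
      have h4 : ∀ c ∈ B, ((y : G) * b' * (y : G)⁻¹) * c * ((y : G) * b' * (y : G)⁻¹)⁻¹ ∈ B := by
        intro c hc
        have h5 := (Subgroup.mem_normalizer_iff.1 h2 ⟨c, hBT hc⟩).1 (by simpa [hBTdef, Subgroup.mem_subgroupOf] using hc)
        simpa [hBTdef, Subgroup.mem_subgroupOf] using h5
      exact (hNC' _ h3 h4 b hb).symm
    -- translate to A
    have h6 := hb (g⁻¹ * (y : G) * g) (by
      rintro x hx _ ⟨x', hx', rfl⟩
      have h7 := hyB (g * x * g⁻¹) ⟨x, hx, by simp⟩ (g * x' * g⁻¹) ⟨x', hx', by simp⟩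
      have h8 := congrArg (fun t => g⁻¹ * t * g) h7
      simpa [MulAut.conj_apply, mul_assoc] using h8)
    -- so y normalizes B
    apply hyn
    have h9 : ∀ b ∈ B, (y : G) * b * (y : G)⁻¹ ∈ B := by
      rintro _ ⟨x, hx, rfl⟩
      have h10 : (g⁻¹ * (y : G) * g) * x * (g⁻¹ * (y : G) * g)⁻¹ ∈ A := by
        rw [← h6]; exact ⟨x, hx, rfl⟩
      exact ⟨_, h10, by simp [MulAut.conj_apply, mul_assoc]⟩
    have h11 : (Subgroup.map (MulAut.conj (y : T)).toMonoidHom BT) = BT := by
      apply Subgroup.eq_of_le_of_card_ge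
      · rintro _ ⟨x, hx, rfl⟩
        have := h9 x (by simpa [hBTdef, Subgroup.mem_subgroupOf] using hx)
        simpa [hBTdef, Subgroup.mem_subgroupOf] using this
      · rw [Subgroup.card_map_of_injective (MulAut.conj y).injective]
    rw [Subgroup.mem_normalizer_iff]
    intro x
    constructor
    · intro hx
      rw [← h11]; exact ⟨x, hx, by simp⟩
    · intro hx
      rw [← h11] at hx
      obtain ⟨x', hx', hxx⟩ := hx
      have : x' = x := by simpa [MulAut.conj_apply] using hxx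
      rwa [← this]

end Cfsg.Agent.S1177
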