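import Cfsg.Statements.S1178
import Cfsg.Agent.H20.Basic

set_option autoImplicit false
open Cfsg

namespace Cfsg.Agent.S1178

/-- Let A be a subgroup of a Sylow 2-subgroup S of the finite group G which is weakly closed in S. If a conjugate g A g⁻¹ commutes elementwise with A, then g A g⁻¹ = A. -/
theorem result {G : Type*} [Group G] [Finite G] (S : Sylow 2 G) (A : Subgroup G) (hW : Cfsg.IsWeaklyClosed A (S : Subgroup G)) (g : G) (hc : ∀ a ∈ A, ∀ b ∈ A.map (MulAut.conj g).toMonoidHom, a * b = b * a) : A.map (MulAut.conj g).toMonoidHom = A := by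
  obtain ⟨hAS, hwc⟩ := hW
  set B := A.map (MulAut.conj g).toMonoidHom with hB
  have hA2 : IsPGroup 2 A := S.isPGroup'.to_le hAS
  have hB2 : IsPGroup 2 B := hA2.map _
  have hAB : A ≤ Subgroup.normalizer (B : Set G) := by
    intro a ha
    rw [Subgroup.mem_normalizer_iff]
    intro b
    constructor
    · intro hb
      have := hc a ha b hb
      rw [this]; simpa using hb
    · intro hb
      have := hc a ha _ hb
      have h2 : a * b * a⁻¹ = b := by
        have h3 : a * (a * b * a⁻¹) * a⁻¹ = a * b * a⁻¹ := by rw [this]; group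
        have h4 : a * b * a⁻¹ = b := by
          have := congrArg (fun x => a⁻¹ * x * a) h3
          simpa [mul_assoc] using this
        exact h4
      rwa [h2] at hb
  have hsup : IsPGroup 2 (A ⊔ B : Subgroup G) := IsPGroup.to_sup_of_normal_right' hA2 hB2 hAB
  obtain ⟨h, key⟩ := H20.exists_conj_mem_sylow S hsup
  have h1 : A.map (MulAut.conj h⁻¹).toMonoidHom = A := by
    apply hwc
    rintro _ ⟨x, hx, rfl⟩
    have := key x ((le_sup_left : A ≤ A ⊔ B) hx)
    simpa [MulAut.conj_apply] using this
  have h2 : A.map (MulAut.conj (h⁻¹ * g)).toMonoidHom = A := by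
    apply hwc
    rintro _ ⟨x, hx, rfl⟩
    have hx2 : g * x * g⁻¹ ∈ B := ⟨x, hx, by simp⟩
    have := key _ ((le_sup_right : B ≤ A ⊔ B) hx2)
    simpa [MulAut.conj_apply, mul_assoc] using this
  -- B = h A h⁻¹ = A
  have h3 : B.map (MulAut.conj h⁻¹).toMonoidHom = A := by
    rw [hB, Subgroup.map_map]
    convert h2 using 2
    ext x; simp [mul_assoc]
  have hinj : Function.Injective (MulAut.conj h⁻¹).toMonoidHom := (MulAut.conj h⁻¹).injective
  exact Subgroup.map_injective hinj (h3.trans h1.symm)

end Cfsg.Agent.S1178
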