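import Cfsg.Statements.S1181
import Cfsg.Agent.H20.Isolated

set_option autoImplicit false
open Cfsg

namespace Cfsg.Agent.S1181

/-- Let z be an isolated involution of the finite group G and N a normal subgroup with z ∉ N. Then the centralizer of zN in G/N is the image of C_G(z), and zN is an isolated involution of G/N. -/
theorem result {G : Type*} [Group G] [Finite G] (z : G) (hz : Cfsg.IsIsolatedInvolution z) (N : Subgroup G) [N.Normal] (hzN : z ∉ N) : Subgroup.centralizer ({(QuotientGroup.mk z : G ⧸ N)} : Set (G ⧸ N)) = (Subgroup.centralizer ({z} : Set G)).map (QuotientGroup.mk' N) ∧ Cfsg.IsIsolatedInvolution (QuotientGroup.mk z : G ⧸ N) := by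
  have hzz := H20.mul_self_of_orderOf_two hz.1
  have hzi : z⁻¹ = z := inv_eq_of_mul_eq_one_left hzz
  -- key: if g z g⁻¹ ∈ z N then g ∈ N * C(z)
  have key : ∀ g : G, (QuotientGroup.mk (g * z * g⁻¹) : G ⧸ N) = QuotientGroup.mk z →
      ∃ n ∈ N, Commute (n⁻¹ * g) z := by
    intro g hg
    have h1 : z⁻¹ * (g * z * g⁻¹) ∈ N := QuotientGroup.eq.1 hg.symm
    have h2 : g * z * g⁻¹ ∈ N ⊔ Subgroup.zpowers z := by
      have : g * z * g⁻¹ = z * (z⁻¹ * (g * z * g⁻¹)) := by group
      rw [this]
      exact mul_mem ((le_sup_right : _ ≤ N ⊔ Subgroup.zpowers z) (Subgroup.mem_zpowers z))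
        ((le_sup_left : N ≤ N ⊔ Subgroup.zpowers z) h1)
    obtain ⟨h, hh, hh2⟩ := H20.isolated_fusion hz (N ⊔ Subgroup.zpowers z)
      ((le_sup_right : _ ≤ N ⊔ Subgroup.zpowers z) (Subgroup.mem_zpowers z)) g h2
    rw [Subgroup.mem_sup_of_normal_left] at hh
    obtain ⟨n, hn, c, hc, rfl⟩ := hh
    obtain ⟨i, rfl⟩ := Subgroup.mem_zpowers_iff.1 hc
    refine ⟨n, hn, ?_⟩
    have h3 : n * z * n⁻¹ = g * z * g⁻¹ := by
      rw [← hh2]; group
    have h4 : (n⁻¹ * g) * z * (n⁻¹ * g)⁻¹ = z := by
      calc (n⁻¹ * g) * z * (n⁻¹ * g)⁻¹ = n⁻¹ * (g * z * g⁻¹) * n := by group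
        _ = z := by rw [← h3]; group
    exact mul_inv_eq_iff_eq_mul.1 h4
  constructor
  · ext x
    constructor
    · intro hx
      obtain ⟨g, rfl⟩ := QuotientGroup.mk_surjective x
      rw [Subgroup.mem_centralizer_singleton_iff] at hx
      have hx1 : (QuotientGroup.mk (g * z * g⁻¹) : G ⧸ N) = QuotientGroup.mk z := by
        have : (QuotientGroup.mk (g * z * g⁻¹) : G ⧸ N) =
          (QuotientGroup.mk g : G ⧸ N) * QuotientGroup.mk z * (QuotientGroup.mk g)⁻¹ := rfl
        rw [this, hx]; group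
      obtain ⟨n, hn, hc⟩ := key g hx1
      refine ⟨n⁻¹ * g, ?_, ?_⟩
      · rw [SetLike.mem_coe, Subgroup.mem_centralizer_singleton_iff]
        exact hc
      · change (QuotientGroup.mk (n⁻¹ * g) : G ⧸ N) = QuotientGroup.mk g
        rw [QuotientGroup.eq]
        have : (n⁻¹ * g)⁻¹ * g = g⁻¹ * n * g⁻¹⁻¹ := by group
        rw [this]
        exact (inferInstance : N.Normal).conj_mem n hn g⁻¹
    · rintro ⟨g, hg, rfl⟩
      rw [SetLike.mem_coe, Subgroup.mem_centralizer_singleton_iff] at hg
      rw [Subgroup.mem_centralizer_singleton_iff]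
      change (QuotientGroup.mk (g * z) : G ⧸ N) = QuotientGroup.mk (z * g)
      rw [hg]
  · constructor
    · rw [orderOf_eq_prime_iff]
      constructor
      · change (QuotientGroup.mk (z ^ 2) : G ⧸ N) = 1
        rw [pow_two, hzz]; rfl
      · intro h
        exact hzN ((QuotientGroup.eq_one_iff z).1 h)
    · intro x hx
      obtain ⟨g, rfl⟩ := QuotientGroup.mk_surjective x
      -- (z w)^2 ∈ N with z w of odd order
      set w := g * z * g⁻¹ with hw
      have hww : w * w = 1 := H20.conj_mul_self hzz g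
      have hwi : w⁻¹ = w := inv_eq_of_mul_eq_one_left hww
      have hcomm : (QuotientGroup.mk (z * w) : G ⧸ N) = QuotientGroup.mk (w * z) := hx
      have h1 : (z * w) ^ 2 ∈ N := by
        have := QuotientGroup.eq.1 hcomm.symm
        have h2 : (w * z)⁻¹ * (z * w) = (z * w) ^ 2 := by
          rw [mul_inv_rev, hwi, hzi, pow_two]
        rwa [h2] at this
      have hodd := H20.isolated_odd_mul hz g
      have h3 : z * w ∈ N := by
        have h4 := H20.odd_sqrt hodd
        rw [← pow_mul, mul_comm, pow_mul] at h4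
        have : ((g * z * g⁻¹)) = w := rfl
        rw [this] at h4
        rw [← h4]
        exact pow_mem h1 _
      change (QuotientGroup.mk w : G ⧸ N) = QuotientGroup.mk z
      rw [eq_comm, QuotientGroup.eq, hzi]
      exact h3

end Cfsg.Agent.S1181
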