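import Cfsg.Statements.S1184
import Cfsg.Agent.H20.Isolated

set_option autoImplicit false
open Cfsg

namespace Cfsg.Agent.S1184

/-- Let z be an isolated involution of the finite group G. If s and t are distinct conjugates of z, then st does not commute with z. -/
theorem result {G : Type*} [Group G] [Finite G] (z : G) (hz : Cfsg.IsIsolatedInvolution z) (g h : G) (hne : g * z * g⁻¹ ≠ h * z * h⁻¹) : ¬ Commute (g * z * g⁻¹ * (h * z * h⁻¹)) z := by
  intro hc
  have hzz := H20.mul_self_of_orderOf_two hz.1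
  set x := g * z * g⁻¹ with hx
  set y := h * z * h⁻¹ with hy
  have hxx : x * x = 1 := H20.conj_mul_self hzz g
  have hyy : y * y = 1 := H20.conj_mul_self hzz h
  have hodd : Odd (orderOf (x * y)) := H20.isolated_odd_mul' hz g h
  have hinv := H20.inv_left_conj hxx hyy
  set u := x * y with hu
  -- the subgroup normalizing ⟨u⟩
  have hzN : z ∈ Subgroup.normalizer (Subgroup.zpowers u : Set G) := by
    rw [Subgroup.mem_normalizer_iff]
    intro w
    constructor
    · rintro ⟨i, rfl⟩
      have : z * u ^ i * z⁻¹ = u ^ i := by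
        rw [mul_inv_eq_iff_eq_mul]; exact (hc.symm.zpow_right i)
      simp only [this]
      exact ⟨i, rfl⟩
    · rintro ⟨i, hi⟩
      refine ⟨i, ?_⟩
      have h1 : w = z⁻¹ * (z * w * z⁻¹) * z := by group
      simp only at hi ⊢
      rw [h1, ← hi]
      have : z⁻¹ * u ^ i * z = u ^ i := by
        rw [mul_assoc, ((hc.zpow_left i).eq : u ^ i * z = z * u ^ i)]; group
      rw [this]
  have hxN : x ∈ Subgroup.normalizer (Subgroup.zpowers u : Set G) := by
    have hxi : ∀ i : ℤ, x * u ^ i * x⁻¹ = u ^ (-i) := by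
      intro i
      rw [← conj_zpow, hinv, inv_zpow, zpow_neg]
    have hxinv : x⁻¹ = x := inv_eq_of_mul_eq_one_left hxx
    rw [Subgroup.mem_normalizer_iff]
    intro w
    constructor
    · rintro ⟨i, rfl⟩
      simp only [hxi]
      exact ⟨-i, rfl⟩
    · rintro ⟨i, hi⟩
      refine ⟨-i, ?_⟩
      simp only at hi ⊢
      have h1 : w = x * (x * w * x⁻¹) * x⁻¹ := by
        calc w = (x * x) * w * (x * x)⁻¹ := by rw [hxx]; group
          _ = x * (x * w * x⁻¹) * x⁻¹ := by group
      rw [h1, ← hi, hxi]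
  obtain ⟨k, hkN, hk⟩ := H20.isolated_fusion hz _ hzN g (hx ▸ hxN)
  -- z centralizes ⟨u⟩, thus x = k z k⁻¹ does
  have hxu : x * u * x⁻¹ = u := by
    have h1 : k⁻¹ * u * k ∈ Subgroup.zpowers u := by
      have := (Subgroup.mem_normalizer_iff.1 (inv_mem hkN) u).1 (Subgroup.mem_zpowers u)
      simpa using this
    obtain ⟨i, hi⟩ := h1
    simp only at hi
    have h2 : z * (k⁻¹ * u * k) * z⁻¹ = k⁻¹ * u * k := by
      rw [← hi, mul_inv_eq_iff_eq_mul]; exact (hc.symm.zpow_right i)
    calc x * u * x⁻¹ = k * (z * (k⁻¹ * u * k) * z⁻¹) * k⁻¹ := by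
          have hkx : k * z * k⁻¹ = x := hk
          rw [← hkx]; group
      _ = u := by rw [h2]; group
  rw [hinv] at hxu
  have hu2 : u ^ 2 = 1 := by
    rw [pow_two]; nth_rewrite 1 [← hxu]; group
  have hdvd : orderOf u ∣ 2 := orderOf_dvd_of_pow_eq_one hu2
  have h1 : orderOf u = 1 := by
    rcases (Nat.dvd_prime Nat.prime_two).1 hdvd with h | h
    · exact h
    · rw [h] at hodd; exact absurd hodd (by decide)
  rw [orderOf_eq_one_iff] at h1
  apply hne
  have hyi : y⁻¹ = y := inv_eq_of_mul_eq_one_left hyy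
  rw [← hyi]
  exact eq_inv_of_mul_eq_one_left h1

end Cfsg.Agent.S1184
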