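import Cfsg.Statements.S1185
import Cfsg.Agent.H20.Isolated

set_option autoImplicit false
open Cfsg

namespace Cfsg.Agent.S1185

/-- Let z be an isolated involution of the finite group G with centralizer C. Then for every g ∈ G there is exactly one element k in the coset gC that has odd order and is inverted by z. -/
theorem result {G : Type*} [Group G] [Finite G] (z : G) (hz : Cfsg.IsIsolatedInvolution z) (g : G) : ∃! k : G, (Odd (orderOf k) ∧ z * k * z⁻¹ = k⁻¹) ∧ g⁻¹ * k ∈ Subgroup.centralizer ({z} : Set G) := by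
  have hzz := H20.mul_self_of_orderOf_two hz.1
  have hzi : z⁻¹ = z := inv_eq_of_mul_eq_one_left hzz
  have hww : (g * z * g⁻¹) * (g * z * g⁻¹) = 1 := H20.conj_mul_self hzz g
  have hodd : Odd (orderOf ((g * z * g⁻¹) * z)) := by
    have := H20.isolated_odd_mul' hz g 1
    simpa using this
  have hinv := H20.inv_right_conj hww hzz
  set u := (g * z * g⁻¹) * z with hu
  -- for k inverted by z: k z k⁻¹ = k^2 z
  have hk2 : ∀ k : G, z * k * z⁻¹ = k⁻¹ → k * z * k⁻¹ = k ^ 2 * z := by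
    intro k hk
    rw [← hk, hzi, pow_two]
    calc k * z * (z * k * z) = k * (z * z) * k * z := by group
      _ = k * k * z := by rw [hzz, mul_one]
  refine ⟨u ^ ((orderOf u + 1) / 2), ⟨⟨H20.odd_orderOf_pow hodd _, H20.conj_pow_of_inv hinv _⟩, ?_⟩, ?_⟩
  · rw [Subgroup.mem_centralizer_singleton_iff]
    set k := u ^ ((orderOf u + 1) / 2) with hk
    have h1 := hk2 k (H20.conj_pow_of_inv hinv _)
    rw [H20.odd_sqrt hodd] at h1
    have h2 : k * z * k⁻¹ = g * z * g⁻¹ := by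
      rw [h1, hu, mul_assoc, hzz, mul_one]
    have h3 : (g⁻¹ * k) * z * (g⁻¹ * k)⁻¹ = z := by
      calc (g⁻¹ * k) * z * (g⁻¹ * k)⁻¹ = g⁻¹ * (k * z * k⁻¹) * g := by group
        _ = z := by rw [h2]; group
    exact mul_inv_eq_iff_eq_mul.1 h3
  · rintro k ⟨⟨hko, hki⟩, hkc⟩
    rw [Subgroup.mem_centralizer_singleton_iff] at hkc
    have h3 : (g⁻¹ * k) * z * (g⁻¹ * k)⁻¹ = z := mul_inv_eq_iff_eq_mul.2 hkc
    have h4 : k * z * k⁻¹ = g * z * g⁻¹ := by
      calc k * z * k⁻¹ = g * ((g⁻¹ * k) * z * (g⁻¹ * k)⁻¹) * g⁻¹ := by group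
        _ = g * z * g⁻¹ := by rw [h3]
    have h5 := hk2 k hki
    rw [h4] at h5
    have h6 : k ^ 2 = u := by
      rw [hu, h5, mul_assoc, hzz, mul_one]
    apply H20.odd_sqrt_unique hko (H20.odd_orderOf_pow hodd _)
    rw [h6, H20.odd_sqrt hodd]

end Cfsg.Agent.S1185
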