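import Cfsg.Statements.S1186
import Cfsg.Agent.H20.Residual

set_option autoImplicit false
open Cfsg

namespace Cfsg.Agent.S1186

/-- Let z be an isolated involution of the finite group G, C = C_G(z), K the set of elements of odd order inverted by z, and s an involution of C. Then |G| = |C| · |C_K(sz)| · |C_K(s)|. -/
theorem result {G : Type*} [Group G] [Finite G] (z : G) (hz : Cfsg.IsIsolatedInvolution z) (s : G) (hs : orderOf s = 2) (hsz : Commute s z) : Nat.card G = Nat.card (Subgroup.centralizer ({z} : Set G)) * Nat.card {k : G // Odd (orderOf k) ∧ z * k * z⁻¹ = k⁻¹ ∧ Commute k (s * z)} * Nat.card {k : G // Odd (orderOf k) ∧ z * k * z⁻¹ = k⁻¹ ∧ Commute k s} := by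
  classical
  have hzz := H20.mul_self_of_orderOf_two hz.1
  have hzi : z⁻¹ = z := inv_eq_of_mul_eq_one_left hzz
  have hss := H20.mul_self_of_orderOf_two hs
  have hsi : s⁻¹ = s := inv_eq_of_mul_eq_one_left hss
  have hk2 : ∀ k : G, z * k * z⁻¹ = k⁻¹ → k * z * k⁻¹ = k ^ 2 * z := by
    intro k hk
    rw [← hk, hzi, pow_two]
    calc k * z * (z * k * z) = k * (z * z) * k * z := by group
      _ = k * k * z := by rw [hzz, mul_one]
  set C := Subgroup.centralizer ({z} : Set G) with hC
  have hcoset : ∀ g h : G, (QuotientGroup.mk g : G ⧸ C) = QuotientGroup.mk h ↔ g * z * g⁻¹ = h * z * h⁻¹ := by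
    intro g h
    rw [QuotientGroup.eq, hC, Subgroup.mem_centralizer_singleton_iff]
    constructor
    · intro hgh
      have h1 : (g⁻¹ * h) * z * (g⁻¹ * h)⁻¹ = z := mul_inv_eq_iff_eq_mul.2 hgh
      calc g * z * g⁻¹ = g * ((g⁻¹ * h) * z * (g⁻¹ * h)⁻¹) * g⁻¹ := by rw [h1]
        _ = h * z * h⁻¹ := by group
    · intro hgh
      apply mul_inv_eq_iff_eq_mul.1
      calc (g⁻¹ * h) * z * (g⁻¹ * h)⁻¹ = g⁻¹ * (h * z * h⁻¹) * g := by group
        _ = z := by rw [← hgh]; group
  let f : {k : G // Odd (orderOf k) ∧ z * k * z⁻¹ = k⁻¹ ∧ Commute k s} ×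
      {k : G // Odd (orderOf k) ∧ z * k * z⁻¹ = k⁻¹ ∧ Commute k (s * z)} → G ⧸ C :=
    fun p => QuotientGroup.mk ((p.1 : G) * (p.2 : G))
  have hf : Function.Bijective f := by
    constructor
    · rintro ⟨⟨b, hbo, hbi, hbs⟩, ⟨a, hao, hai, has⟩⟩ ⟨⟨b', hbo', hbi', hbs'⟩, ⟨a', hao', hai', has'⟩⟩ h
      have h1 : (b * a) * z * (b * a)⁻¹ = (b' * a') * z * (b' * a')⁻¹ := (hcoset _ _).1 h
      -- general facts
      have gen : ∀ b a : G, Odd (orderOf b) → z * b * z⁻¹ = b⁻¹ → Commute b s → Odd (orderOf a) →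
          z * a * z⁻¹ = a⁻¹ → Commute a (s * z) →
          ((b * a) * z * (b * a)⁻¹) * s = (b * a ^ 2 * b⁻¹) * (b * (z * s) * b⁻¹) ∧
          Commute (b * a ^ 2 * b⁻¹) (b * (z * s) * b⁻¹) ∧ Odd (orderOf (b * a ^ 2 * b⁻¹)) ∧
          (b * (z * s) * b⁻¹) ^ 2 = 1 := by
        intro b a hbo hbi hbs hao hai has
        have e1 : a * z * a⁻¹ = a ^ 2 * z := hk2 a hai
        have e2 : b⁻¹ * s = s * b⁻¹ := hbs.inv_left
        refine ⟨?_, ?_, ?_, ?_⟩
        · calc ((b * a) * z * (b * a)⁻¹) * s = b * (a * z * a⁻¹) * (b⁻¹ * s) := by group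
            _ = b * (a ^ 2 * z) * (s * b⁻¹) := by rw [e1, e2]
            _ = (b * a ^ 2 * b⁻¹) * (b * (z * s) * b⁻¹) := by group
        · have h3 : Commute (a ^ 2) (z * s) := by
            rw [← hsz.eq]; exact has.pow_left 2
          exact h3.map (MulAut.conj b).toMonoidHom
        · have : orderOf (b * a ^ 2 * b⁻¹) = orderOf (a ^ 2) :=
            orderOf_injective (MulAut.conj b).toMonoidHom (MulAut.conj b).injective _
          rw [this]; exact H20.odd_orderOf_pow hao 2
        · rw [pow_two]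
          calc (b * (z * s) * b⁻¹) * (b * (z * s) * b⁻¹) = b * ((z * s) * (z * s)) * b⁻¹ := by group
            _ = b * ((z * s) * (s * z)) * b⁻¹ := by rw [hsz.eq]
            _ = b * (z * (s * s) * z) * b⁻¹ := by group
            _ = 1 := by rw [hss, mul_one, hzz]; group
      obtain ⟨e1, c1, o1, t1⟩ := gen b a hbo hbi hbs hao hai has
      obtain ⟨e2, c2, o2, t2⟩ := gen b' a' hbo' hbi' hbs' hao' hai' has'
      have h2 : (b * a ^ 2 * b⁻¹) * (b * (z * s) * b⁻¹) = (b' * a' ^ 2 * b'⁻¹) * (b' * (z * s) * b'⁻¹) := by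
        rw [← e1, ← e2, h1]
      have h3 : (b * a ^ 2 * b⁻¹) ^ 2 = (b' * a' ^ 2 * b'⁻¹) ^ 2 := by
        have := congrArg (· ^ 2) h2
        simp only [c1.mul_pow, c2.mul_pow, t1, t2, mul_one] at this
        exact this
      have h4 : b * a ^ 2 * b⁻¹ = b' * a' ^ 2 * b'⁻¹ := H20.odd_sqrt_unique o1 o2 h3
      have h5 : b * (z * s) * b⁻¹ = b' * (z * s) * b'⁻¹ := by
        rw [h4] at h2; exact mul_left_cancel h2
      have h6 : b * z * b⁻¹ = b' * z * b'⁻¹ := by
        have g1 : b * (z * s) * b⁻¹ = b * z * b⁻¹ * s := by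
          have e : s * b⁻¹ = b⁻¹ * s := hbs.inv_left.symm
          calc b * (z * s) * b⁻¹ = b * z * (s * b⁻¹) := by group
            _ = b * z * b⁻¹ * s := by rw [e]; group
        have g2 : b' * (z * s) * b'⁻¹ = b' * z * b'⁻¹ * s := by
          have e : s * b'⁻¹ = b'⁻¹ * s := hbs'.inv_left.symm
          calc b' * (z * s) * b'⁻¹ = b' * z * (s * b'⁻¹) := by group
            _ = b' * z * b'⁻¹ * s := by rw [e]; group
        rw [g1, g2] at h5
        exact mul_right_cancel h5
      have h7 : b = b' := by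
        rw [hk2 b hbi, hk2 b' hbi'] at h6
        exact H20.odd_sqrt_unique hbo hbo' (mul_right_cancel h6)
      subst h7
      have h8 : a ^ 2 = a' ^ 2 := by
        have := mul_right_cancel h4
        exact mul_left_cancel this
      have h9 : a = a' := H20.odd_sqrt_unique hao hao' h8
      subst h9
      rfl
    · intro q
      obtain ⟨g, rfl⟩ := QuotientGroup.mk_surjective q
      set w := g * z * g⁻¹ with hw
      have hww : w * w = 1 := H20.conj_mul_self hzz g
      set v := w * s with hv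
      have hwv : w * v * w⁻¹ = v⁻¹ := H20.inv_left_conj hww hss
      have hsv : s * v * s⁻¹ = v⁻¹ := H20.inv_right_conj hww hss
      have hv2 : Odd (orderOf (v ^ 2)) := by
        have : v ^ 2 = (g * z * g⁻¹) * ((s * g) * z * (s * g)⁻¹) := by
          rw [pow_two, hv, hw]
          rw [mul_inv_rev, hsi]
          group
        rw [this]
        exact H20.isolated_odd_mul' hz g (s * g)
      set n := orderOf (v ^ 2) with hn
      -- u = v^(n+1), t = v^n
      have hnodd := hv2
      obtain ⟨r, hr⟩ := hv2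
      set u := v ^ (n + 1) with hu
      set t := v ^ n with ht
      have huodd : Odd (orderOf u) := by
        have : u = (v ^ 2) ^ (r + 1) := by rw [hu, ← pow_mul]; congr 1; omega
        rw [this]; exact H20.odd_orderOf_pow hnodd _
      have htt : t * t = 1 := by
        rw [ht, ← pow_add, ← two_mul, pow_mul]
        exact pow_orderOf_eq_one _
      have hti : t⁻¹ = t := inv_eq_of_mul_eq_one_left htt
      have hvut : v = u * t := by
        rw [hu, pow_succ', mul_assoc, ← ht, htt, mul_one]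
      have hut : Commute u t := (Commute.refl v).pow_pow _ _
      -- a0 = sqrt u
      set a0 := u ^ ((orderOf u + 1) / 2) with ha0
      have ha0sq : a0 ^ 2 = u := H20.odd_sqrt huodd
      have ha0odd : Odd (orderOf a0) := H20.odd_orderOf_pow huodd _
      have ha0v : a0 = v ^ ((n + 1) * ((orderOf u + 1) / 2)) := by rw [ha0, hu, ← pow_mul]
      have hsa0 : s * a0 * s⁻¹ = a0⁻¹ := by rw [ha0v]; exact H20.conj_pow_of_inv hsv _
      have hwa0 : w * a0 * w⁻¹ = a0⁻¹ := by rw [ha0v]; exact H20.conj_pow_of_inv hwv _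
      have hst : Commute s t := by
        have h1 := H20.conj_pow_of_inv hsv n
        rw [← ht, hti] at h1
        exact mul_inv_eq_iff_eq_mul.1 h1
      have ha0t : Commute a0 t := by rw [ha0v, ht]; exact (Commute.refl v).pow_pow _ _
      set w' := t * s with hw'
      have hwuw' : w = u * w' := by
        have : w = v * s := by rw [hv, mul_assoc, hss, mul_one]
        rw [this, hvut, hw']; group
      have hw'conj : w' = a0⁻¹ * w * a0 := by
        have h1 : w * a0 = a0⁻¹ * w := mul_inv_eq_iff_eq_mul.1 hwa0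
        rw [mul_assoc, h1, ← mul_assoc, ← mul_inv_rev, ← pow_two, ha0sq, hwuw']; group
      have hw'g : w' = (a0⁻¹ * g) * z * (a0⁻¹ * g)⁻¹ := by rw [hw'conj, hw]; group
      have hw's : Commute w' s := by
        rw [hw']; exact (hst.symm).mul_left (Commute.refl s)
      have hw'w' : w' * w' = 1 := by rw [hw'g]; exact H20.conj_mul_self hzz _
      have hodd' : Odd (orderOf (w' * z)) := by
        rw [hw'g]
        have := H20.isolated_odd_mul' hz (a0⁻¹ * g) 1
        simpa using this
      set b := (w' * z) ^ ((orderOf (w' * z) + 1) / 2) with hb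
      have hbsq : b ^ 2 = w' * z := H20.odd_sqrt hodd'
      have hbodd : Odd (orderOf b) := H20.odd_orderOf_pow hodd' _
      have hzb : z * b * z⁻¹ = b⁻¹ := H20.conj_pow_of_inv (H20.inv_right_conj hw'w' hzz) _
      have hbs : Commute b s := (hw's.mul_left hsz.symm).pow_left _
      have hbz : b * z * b⁻¹ = w' := by rw [hk2 b hzb, hbsq, mul_assoc, hzz, mul_one]
      set a := b⁻¹ * a0 * b with ha
      have haodd : Odd (orderOf a) := by
        have : orderOf (b⁻¹ * a0 * b⁻¹⁻¹) = orderOf a0 :=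
          orderOf_injective (MulAut.conj b⁻¹).toMonoidHom (MulAut.conj b⁻¹).injective _
        rw [inv_inv] at this
        rw [ha, this]; exact ha0odd
      have hw'a0 : w' * a0 * w'⁻¹ = a0⁻¹ := by
        rw [hw']
        calc t * s * a0 * (t * s)⁻¹ = t * (s * a0 * s⁻¹) * t⁻¹ := by group
          _ = t * a0⁻¹ * t⁻¹ := by rw [hsa0]
          _ = a0⁻¹ := by rw [ha0t.inv_left.symm.eq]; group
      have hzw' : z = b⁻¹ * w' * b := by rw [← hbz]; group
      have hza : z * a * z⁻¹ = a⁻¹ := by
        calc z * a * z⁻¹ = (b⁻¹ * w' * b) * a * (b⁻¹ * w' * b)⁻¹ := by rw [← hzw']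
          _ = b⁻¹ * (w' * a0 * w'⁻¹) * b := by rw [ha]; group
          _ = a⁻¹ := by rw [hw'a0, ha]; group
      have hasz : Commute a (s * z) := by
        have h1 : s * z = b⁻¹ * (s * w') * b := by
          have : b⁻¹ * s = s * b⁻¹ := hbs.inv_left
          calc s * z = s * (b⁻¹ * w' * b) := by rw [← hzw']
            _ = (s * b⁻¹) * w' * b := by group
            _ = b⁻¹ * (s * w') * b := by rw [← this]; group
        have h2 : s * w' = t := by
          rw [hw', ← mul_assoc, hst.eq, mul_assoc, hss, mul_one]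
        rw [h1, h2, ha]
        have := ha0t.map (MulAut.conj b⁻¹).toMonoidHom
        simpa [MulAut.conj_apply] using this
      refine ⟨(⟨b, hbodd, hzb, hbs⟩, ⟨a, haodd, hza, hasz⟩), ?_⟩
      change (QuotientGroup.mk (b * a) : G ⧸ C) = QuotientGroup.mk g
      rw [hcoset]
      calc (b * a) * z * (b * a)⁻¹ = a0 * (b * z * b⁻¹) * a0⁻¹ := by rw [ha]; group
        _ = a0 * (a0⁻¹ * w * a0) * a0⁻¹ := by rw [hbz, hw'conj]
        _ = g * z * g⁻¹ := by rw [hw]; group
  have hcard := Nat.card_eq_of_bijective f hf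
  rw [Nat.card_prod] at hcard
  have h1 := C.card_mul_index
  rw [Subgroup.index, ← hcard] at h1
  rw [← h1, mul_assoc]
  congr 1
  exact mul_comm _ _

end Cfsg.Agent.S1186
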