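import Cfsg.Statements.S1187
import Cfsg.Agent.H69.ZStar

set_option autoImplicit false
set_option linter.style.haveILetI false
open Cfsg

namespace Cfsg.Agent.S1187

open Subgroup Cfsg.Agent.H69

/-- Let z be an isolated involution of the finite group G and p a prime. If Q is a p-subgroup normalized by z that is maximal among p-subgroups normalized by z, then Q is a Sylow p-subgroup of G. -/
theorem result {G : Type*} [Group G] [Finite G] (z : G) (hz : Cfsg.IsIsolatedInvolution z) {p : ℕ} [Fact p.Prime] (Q : Subgroup G) (hQ : IsPGroup p Q) (hzQ : z ∈ Subgroup.normalizer (Q : Set G)) (hmax : ∀ R : Subgroup G, IsPGroup p R → z ∈ Subgroup.normalizer (R : Set G) → Q ≤ R → R = Q) : ∃ P : Sylow p G, (P : Subgroup G) = Q := by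
  have hp : p.Prime := Fact.out
  by_cases hp2 : p = 2
  · subst hp2
    -- z ∈ Q
    have hA : IsPGroup 2 (zpowers z) := IsPGroup.of_card (n := 1) (by rw [Nat.card_zpowers, hz.1, pow_one])
    have hAQ : zpowers z ≤ normalizer (Q : Set G) := zpowers_le.mpr hzQ
    have h1 : IsPGroup 2 (Q ⊔ zpowers z : Subgroup G) := by
      rw [sup_comm]
      exact hA.to_sup_of_normal_right' hQ hAQ
    have h2 : z ∈ normalizer ((Q ⊔ zpowers z : Subgroup G) : Set G) :=
      le_normalizer (mem_sup_right (mem_zpowers z))
    have h3 := hmax _ h1 h2 le_sup_left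
    have hzQ' : z ∈ Q := by rw [← h3]; exact mem_sup_right (mem_zpowers z)
    obtain ⟨P, hP⟩ := hQ.exists_le_sylow
    exact ⟨P, hmax _ P.2 (le_normalizer (hP hzQ')) hP⟩
  · obtain ⟨N, hNn, hNodd, hN⟩ := isolated_zstar hz
    set π := QuotientGroup.mk' N with hπ
    have hπs : Function.Surjective π := QuotientGroup.mk'_surjective N
    obtain ⟨R0, hR0⟩ := (hQ.map π).exists_le_sylow
    set R : Subgroup G := (R0 : Subgroup (G ⧸ N)).comap π with hR
    have hNR : N ≤ R := by
      intro x hx
      rw [hR, mem_comap, hπ, QuotientGroup.mk'_apply, (QuotientGroup.eq_one_iff x).mpr hx]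
      exact one_mem _
    have hQR : Q ≤ R := by
      intro x hx
      exact hR0 (mem_map_of_mem π hx)
    have hA : zpowers z ≤ normalizer (R : Set G) := by
      rw [zpowers_le, mem_normalizer_iff]
      have key : ∀ x : G, z * x * z⁻¹ * x⁻¹ ∈ R := fun x => hNR (hN x)
      intro x
      constructor
      · intro hx
        have := mul_mem (key x) hx
        rwa [inv_mul_cancel_right] at this
      · intro hx
        have := mul_mem (inv_mem (key x)) hx
        have e : (z * x * z⁻¹ * x⁻¹)⁻¹ * (z * x * z⁻¹) = x := by group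
        rwa [e] at this
    have hRcard : Odd (Nat.card R) := by
      have h1 : Nat.card N * N.relIndex R = Nat.card R := by
        have := (N.subgroupOf R).card_mul_index
        rwa [Nat.card_congr (subgroupOfEquivOfLe hNR).toEquiv] at this
      have h2 : N.relIndex R = Nat.card (R0 : Subgroup (G ⧸ N)) := by
        have h3 : R.map π = R0 := map_comap_eq_self_of_surjective hπs _
        rw [← h3, ← relIndex_ker, hπ, QuotientGroup.ker_mk']
      obtain ⟨m, hm⟩ := IsPGroup.iff_card.mp R0.2
      rw [← h1, h2, hm]
      exact hNodd.mul ((hp.odd_of_ne_two hp2).pow)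
    have hcop : (Nat.card (zpowers z)).Coprime (Nat.card R) := by
      rw [Nat.card_zpowers, hz.1]; exact Nat.coprime_two_left.mpr hRcard
    have hzzQ : zpowers z ≤ normalizer (Q : Set G) := zpowers_le.mpr hzQ
    obtain ⟨P, hQP, hAP⟩ := Cop.exists_invariant_sylow_ge hA hcop (Or.inl inferInstance) p hQR hQ hzzQ
    have h4 := hmax _ (P.2.map _) (hAP (mem_zpowers z)) hQP
    have hidx : ¬ p ∣ Q.index := by
      rw [← h4, index_map_subtype]
      intro h
      rcases hp.dvd_mul.mp h with h | h
      · exact P.not_dvd_index h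
      · rw [hR, index_comap_of_surjective _ hπs] at h
        exact R0.not_dvd_index h
    exact ⟨hQ.toSylow hidx, rfl⟩

end Cfsg.Agent.S1187
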