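import Cfsg.Statements.S1231
import Cfsg.Agent.H21.Basic

set_option autoImplicit false
open Cfsg

namespace Cfsg.Agent.S1231

open H21 Subgroup

theorem not_prankLE_iff {G : Type*} [Group G] {p m : ℕ} {X : Subgroup G} :
    ¬ Cfsg.PRankLE p m ↥X ↔ ∃ A : Subgroup G, A ≤ X ∧ IsMulCommutative A ∧ (∀ a ∈ A, a ^ p = 1) ∧
      p ^ m < Nat.card A := by
  constructor
  · intro h
    simp only [Cfsg.PRankLE, not_forall, not_le] at h
    obtain ⟨A, hA1, hA2, hA3⟩ := h
    refine ⟨A.map X.subtype, Subgroup.map_subtype_le _, ?_, ?_, ?_⟩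
    · refine ⟨⟨?_⟩⟩
      rintro ⟨_, a, ha, rfl⟩ ⟨_, b, hb, rfl⟩
      have := hA1.is_comm.comm ⟨a, ha⟩ ⟨b, hb⟩
      ext
      simpa using congrArg (fun z : A => ((z : X) : G)) this
    · rintro _ ⟨a, ha, rfl⟩
      simpa using congrArg (Subtype.val) (hA2 a ha)
    · rwa [Subgroup.card_map_of_injective X.subtype_injective]
  · rintro ⟨A, hAX, hA1, hA2, hA3⟩ h
    have h1 := h (A.subgroupOf X) ⟨⟨?_⟩⟩ ?_
    · rw [Nat.card_congr (Subgroup.subgroupOfEquivOfLe hAX).toEquiv] at h1
      omega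
    · rintro ⟨a, ha⟩ ⟨b, hb⟩
      have := hA1.is_comm.comm ⟨a, ha⟩ ⟨b, hb⟩
      ext
      simpa using congrArg Subtype.val this
    · intro a ha
      ext
      simpa using hA2 a ha

theorem not_prankLE_conj {G : Type*} [Group G] {p m : ℕ} {X : Subgroup G} (g : G)
    (h : ¬ Cfsg.PRankLE p m ↥X) : ¬ Cfsg.PRankLE p m ↥(X.map (MulAut.conj g).toMonoidHom) := by
  rw [not_prankLE_iff] at h ⊢
  obtain ⟨A, hAX, hA1, hA2, hA3⟩ := h
  refine ⟨A.map (MulAut.conj g).toMonoidHom, Subgroup.map_mono hAX, ?_, ?_, ?_⟩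
  · refine ⟨⟨?_⟩⟩
    rintro ⟨_, a, ha, rfl⟩ ⟨_, b, hb, rfl⟩
    have := congrArg Subtype.val (hA1.is_comm.comm ⟨a, ha⟩ ⟨b, hb⟩)
    ext
    simp only [Subgroup.coe_mul] at this ⊢
    rw [← map_mul, this, map_mul]
  · rintro _ ⟨a, ha, rfl⟩
    rw [← map_pow, hA2 a ha, map_one]
  · rwa [map_conj_card]

theorem normalizer_conj {G : Type*} [Group G] (X : Subgroup G) (g x : G) :
    x ∈ Subgroup.normalizer ((X.map (MulAut.conj g).toMonoidHom : Subgroup G) : Set G) ↔
      g⁻¹ * x * g ∈ Subgroup.normalizer (X : Set G) := by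
  rw [mem_normalizer_iff_map_conj, mem_normalizer_iff_map_conj, map_conj_mul, map_conj_mul,
    ← map_conj_mul, ← map_conj_mul]
  constructor
  · intro h
    rw [map_conj_mul] at h
    have := congrArg (fun Y : Subgroup G => Y.map (MulAut.conj g⁻¹).toMonoidHom) h
    simp only [← map_conj_mul] at this
    rw [inv_mul_cancel, map_conj_one] at this
    rw [← this]; congr 2
  · intro h
    have := congrArg (fun Y : Subgroup G => Y.map (MulAut.conj g).toMonoidHom) h
    simp only [← map_conj_mul] at this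
    rw [← this]; congr 2
    simp [mul_assoc]

/-- Let H be a subgroup of the finite group G, p a prime, k ≥ 1, and P a Sylow p-subgroup of H whose p-rank is at least k. Then N_G(X) ≤ H for every subgroup X of P of p-rank at least k if and only if H ∩ gHg⁻¹ has p-rank less than k for every g ∉ H. -/
theorem result {G : Type*} [Group G] [Finite G] {p : ℕ} [Fact p.Prime] (k : ℕ) (hk : 1 ≤ k) (H : Subgroup G) (P : Sylow p ↥H) (hP : ¬ Cfsg.PRankLE p (k - 1) ↥(P : Subgroup ↥H)) : (∀ X : Subgroup G, X ≤ (P : Subgroup ↥H).map H.subtype → ¬ Cfsg.PRankLE p (k - 1) ↥X → Subgroup.normalizer (X : Set G) ≤ H) ↔ (∀ g : G, g ∉ H → Cfsg.PRankLE p (k - 1) ↥(H ⊓ H.map (MulAut.conj g).toMonoidHom)) := by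
  constructor
  · intro hyp g hg
    by_contra hD
    obtain ⟨A, hAD, hA1, hA2, hA3⟩ := not_prankLE_iff.1 hD
    set D := H ⊓ H.map (MulAut.conj g).toMonoidHom with hDdef
    have hAp : IsPGroup p (A.subgroupOf D) := by
      intro x
      refine ⟨1, ?_⟩
      have := hA2 x x.2
      ext
      simpa using this
    obtain ⟨Q', hQ'⟩ := hAp.exists_le_sylow
    set Q := (Q' : Subgroup D).map D.subtype with hQ
    have hQp : IsPGroup p Q := Q'.isPGroup'.map _
    have hQD : Q ≤ D := Subgroup.map_subtype_le _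
    have hAQ : A ≤ Q := fun x hx => ⟨⟨x, hAD hx⟩, hQ' (by rwa [Subgroup.mem_subgroupOf]), rfl⟩
    have hQr : ¬ Cfsg.PRankLE p (k - 1) ↥Q := not_prankLE_iff.2 ⟨A, hAQ, hA1, hA2, hA3⟩
    -- maximality of Q in D
    have hmax : ∀ R : Subgroup G, IsPGroup p R → R ≤ D → Q ≤ R → R = Q := by
      intro R hR hRD hQR
      have h1 : R.subgroupOf D = (Q' : Subgroup D) := by
        apply Q'.is_maximal'
        · exact hR.comap_of_injective D.subtype D.subtype_injective
        · intro x hx
          rw [Subgroup.mem_subgroupOf]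
          exact hQR ⟨x, hx, rfl⟩
      rw [hQ, ← h1, Subgroup.map_subgroupOf_eq_of_le hRD]
    -- conjugating into P
    set P₀ := (P : Subgroup H).map H.subtype with hP₀
    have hP₀p : IsPGroup p P₀ := P.isPGroup'.map _
    have hP₀H : P₀ ≤ H := Subgroup.map_subtype_le _
    have hP₀r : ¬ Cfsg.PRankLE p (k - 1) ↥P₀ := by
      rw [not_prankLE_iff]
      have := (not_prankLE_iff (X := (⊤ : Subgroup G)) (p := p) (m := k - 1))
      simp only [Cfsg.PRankLE, not_forall, not_le] at hP
      obtain ⟨B, hB1, hB2, hB3⟩ := hP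
      have hP2 : ¬ Cfsg.PRankLE p (k - 1) ↥(P : Subgroup ↥H) := fun h => by
        have := h B hB1 hB2; omega
      obtain ⟨C, hC1, hC2, hC3, hC4⟩ := not_prankLE_iff.1 hP2
      refine ⟨C.map H.subtype, Subgroup.map_mono hC1, ?_, ?_, ?_⟩
      · refine ⟨⟨?_⟩⟩
        rintro ⟨_, a, ha, rfl⟩ ⟨_, b, hb, rfl⟩
        have := congrArg Subtype.val (hC2.is_comm.comm ⟨a, ha⟩ ⟨b, hb⟩)
        ext
        simp only [Subgroup.coe_mul] at this ⊢
        rw [← map_mul, this, map_mul]
      · rintro _ ⟨a, ha, rfl⟩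
        rw [← map_pow, hC3 a ha, map_one]
      · rwa [Subgroup.card_map_of_injective H.subtype_injective]
    obtain ⟨h₁, hh₁, hQ₁⟩ := exists_conj_mem_sylow_subgroup H P Q hQp (hQD.trans inf_le_left)
    have hQg : Q.map (MulAut.conj g⁻¹).toMonoidHom ≤ H := by
      intro x hx
      rw [mem_map_conj, inv_inv] at hx
      have := (Subgroup.mem_inf.1 (hQD hx)).2
      rw [mem_map_conj] at this
      simpa [mul_assoc] using this
    obtain ⟨h₂, hh₂, hQ₂⟩ := exists_conj_mem_sylow_subgroup H P _ (hQp.map _) hQg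
    -- both conjugates in P₀
    have key : ∀ y : G, Q.map (MulAut.conj y).toMonoidHom ≤ P₀ →
        H.map (MulAut.conj y⁻¹).toMonoidHom ⊓ Subgroup.normalizer (Q : Set G) =
          Subgroup.normalizer (Q : Set G) := by
      intro y hy
      rw [inf_eq_right]
      intro x hx
      have h1 := hyp _ hy (not_prankLE_conj y hQr)
      rw [mem_map_conj]
      apply h1
      rw [normalizer_conj]
      simpa [mul_assoc] using hx
    have hy1 : Q.map (MulAut.conj h₁).toMonoidHom ≤ P₀ := by
      rintro _ ⟨x, hx, rfl⟩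
      exact hQ₁ x hx
    have hy2 : Q.map (MulAut.conj (h₂ * g⁻¹)).toMonoidHom ≤ P₀ := by
      rw [map_conj_mul]
      rintro _ ⟨x, hx, rfl⟩
      exact hQ₂ x hx
    have hND : Subgroup.normalizer (Q : Set G) ≤ D := by
      have e1 := key _ hy1
      have e2 := key _ hy2
      intro x hx
      have m1 : x ∈ H.map (MulAut.conj h₁⁻¹).toMonoidHom := by
        rw [← e1] at hx; exact hx.1
      have m2 : x ∈ H.map (MulAut.conj (h₂ * g⁻¹)⁻¹).toMonoidHom := by
        rw [← e2] at hx; exact hx.1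
      rw [mem_map_conj] at m1 m2
      refine Subgroup.mem_inf.2 ⟨?_, ?_⟩
      · have := H.mul_mem (H.mul_mem (H.inv_mem hh₁) m1) hh₁
        simpa [mul_assoc] using this
      · rw [mem_map_conj]
        have := H.mul_mem (H.mul_mem (H.inv_mem hh₂) m2) hh₂
        simpa [mul_assoc] using this
    -- Q is a full conjugate of P₀
    have full : ∀ y : G, Q.map (MulAut.conj y).toMonoidHom ≤ P₀ →
        Q.map (MulAut.conj y).toMonoidHom = P₀ := by
      intro y hy
      by_contra hne
      obtain ⟨x, hx1, hx2, hx3⟩ := exists_mem_normalizer_notMem hP₀p (lt_of_le_of_ne hy hne)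
      rw [normalizer_conj] at hx3
      have hxQ : y⁻¹ * x * y ∉ Q := fun h => hx2 (by rw [mem_map_conj]; exact h)
      have hxD := hND hx3
      have hR : Q ⊔ Subgroup.zpowers (y⁻¹ * x * y) = Q := by
        apply hmax
        · have h2 : Q ⊔ Subgroup.zpowers (y⁻¹ * x * y) ≤ P₀.map (MulAut.conj y⁻¹).toMonoidHom := by
            refine sup_le ?_ ?_
            · intro z hz
              rw [mem_map_conj, inv_inv]
              apply hy
              rw [mem_map_conj]
              simpa [mul_assoc] using hz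
            · rw [Subgroup.zpowers_le, mem_map_conj]
              simpa [mul_assoc] using hx1
          exact (hP₀p.map _).to_le h2
        · refine sup_le hQD ?_
          rw [Subgroup.zpowers_le]; exact hxD
        · exact le_sup_left
      apply hxQ
      rw [← hR]
      exact (le_sup_right : Subgroup.zpowers (y⁻¹ * x * y) ≤ _) (Subgroup.mem_zpowers _)
    have f1 := full _ hy1
    have f2 := full _ hy2
    have f3 : P₀.map (MulAut.conj (h₂ * g⁻¹ * h₁⁻¹)).toMonoidHom = P₀ := by
      conv_lhs => rw [← f1]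
      rw [← map_conj_mul, inv_mul_cancel_right, f2]
    have f4 := hyp P₀ le_rfl hP₀r (mem_normalizer_iff_map_conj.2 f3)
    apply hg
    have := H.mul_mem (H.mul_mem (H.inv_mem hh₂) f4) hh₁
    have h5 : g⁻¹ ∈ H := by simpa [mul_assoc] using this
    simpa using H.inv_mem h5
  · intro hyp X hX hXr g hg
    by_contra hgH
    obtain ⟨A, hAX, hA⟩ := not_prankLE_iff.1 hXr
    have hXH : X ≤ H := hX.trans (Subgroup.map_subtype_le _)
    refine absurd (hyp g hgH) (not_prankLE_iff.2 ⟨A, le_inf (hAX.trans hXH) ?_, hA⟩)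
    refine hAX.trans ?_
    rw [mem_normalizer_iff_map_conj] at hg
    conv_lhs => rw [← hg]
    exact Subgroup.map_mono hXH

end Cfsg.Agent.S1231
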