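import Cfsg.Statements.S1235
import Cfsg.Agent.Fus.HD4

set_option autoImplicit false
open Cfsg

namespace Cfsg.Agent.S1235

/-- Let G be a finite group, x an involution and T ≤ G a Sylow 2-subgroup of C_G(x) (T ≤ C_G(x) with |C_G(x) : T| odd) which is the internal direct product of a subgroup D that is dihedral (of order ≥ 4) or quasi-dihedral and a Klein four-subgroup B. Suppose that for every involution b ∈ B, T ≤ C_G(b) with |C_G(b) : T| odd. Then every section of G has 2-rank at most 4. -/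
theorem result {G : Type*} [Group G] [Finite G] (x : G) (hx : orderOf x = 2) (T D B : Subgroup G) (hT : IsPGroup 2 T) (hTx : T ≤ Subgroup.centralizer ({x} : Set G)) (hTxi : Odd (T.relIndex (Subgroup.centralizer ({x} : Set G)))) (hprod : Cfsg.IsInternalDirectProduct D B T) (hD : (∃ m : ℕ, 2 ≤ m ∧ Nonempty (D ≃* DihedralGroup m)) ∨ Cfsg.IsQuasiDihedral D) (hB : IsKleinFour B) (hTb : ∀ b ∈ B, orderOf b = 2 → T ≤ Subgroup.centralizer ({b} : Set G) ∧ Odd (T.relIndex (Subgroup.centralizer ({b} : Set G)))) : Cfsg.SectionalPRankLE 2 4 G := by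
  have hsq : ∀ a ∈ B, a * a = 1 := by
    intro a ha
    have h1 := Monoid.pow_exponent_eq_one (⟨a, ha⟩ : B)
    rw [hB.exponent_two, pow_two] at h1
    exact congrArg Subtype.val h1
  have hcm : ∀ a ∈ B, ∀ b ∈ B, a * b = b * a := by
    intro a ha b hb
    have h1 := mul_comm_of_exponent_two hB.exponent_two (⟨a, ha⟩ : B) ⟨b, hb⟩
    exact congrArg Subtype.val h1
  refine Cfsg.Agent.Fus.HD.final T D B hT hprod ?_ hB.card_four hcm hsq fun b hb hb1 => hTb b hb ?_
  · rcases hD with ⟨m, hm, ⟨e⟩⟩ | hD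
    · exact (Cfsg.Agent.Fus.HD.DD.dihedral hm).transport e.symm
    · exact Cfsg.Agent.Fus.HD.DD.quasi hD
  · exact orderOf_eq_prime (by rw [pow_two]; exact hsq b hb) hb1

end Cfsg.Agent.S1235
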