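import Cfsg.Statements.S1236
import Cfsg.Agent.H21.CycIdxTwo

set_option autoImplicit false
open Cfsg

namespace Cfsg.Agent.S1236

/-- Let R be a finite group, t a central involution of R such that R ⧸ ⟨t⟩ is dihedral (of order ≥ 4) or quasi-dihedral, and A ≤ R an elementary abelian subgroup of order 8 containing t. Then C_R(A) = A. -/
theorem result {R : Type*} [Group R] [Finite R] (t : R) (ht : orderOf t = 2) (htz : t ∈ Subgroup.center R) [(Subgroup.zpowers t).Normal] (hq : (∃ m : ℕ, 2 ≤ m ∧ Nonempty (R ⧸ Subgroup.zpowers t ≃* DihedralGroup m)) ∨ Cfsg.IsQuasiDihedral (R ⧸ Subgroup.zpowers t)) (A : Subgroup R) (hA : Cfsg.IsElementaryAbelian 2 A) (hA8 : Nat.card A = 8) (htA : t ∈ A) : Subgroup.centralizer (A : Set R) = A := by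
  have hQ : H21.CycIdxTwo (R ⧸ Subgroup.zpowers t) := by
    rcases hq with ⟨m, hm, ⟨e⟩⟩ | hq
    · exact (H21.cycIdxTwo_dihedral m hm).of_equiv e
    · exact H21.cycIdxTwo_quasiDihedral hq
  set ρ := QuotientGroup.mk' (Subgroup.zpowers t) with hρ
  have hker : ρ.ker = Subgroup.zpowers t := QuotientGroup.ker_mk' _
  have htA' : Subgroup.zpowers t ≤ A := by rw [Subgroup.zpowers_le]; exact htA
  have hcard : Nat.card (A.map ρ) = 4 := by
    have h1 : (ρ.comp A.subtype).range = A.map ρ := by
      rw [MonoidHom.range_comp, Subgroup.range_subtype]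
    have h2 : Nat.card (ρ.comp A.subtype).range = (ρ.comp A.subtype).ker.index :=
      (Subgroup.index_ker _).symm
    have h3 : (ρ.comp A.subtype).ker = (Subgroup.zpowers t).subgroupOf A := by
      ext a
      rw [MonoidHom.mem_ker, Subgroup.mem_subgroupOf]
      exact QuotientGroup.eq_one_iff _
    have h4 := Subgroup.card_mul_index ((Subgroup.zpowers t).subgroupOf A)
    rw [hA8, Nat.card_congr (Subgroup.subgroupOfEquivOfLe htA').toEquiv, Nat.card_zpowers, ht] at h4
    rw [← h1, h2, h3]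
    omega
  apply le_antisymm
  · intro g hg
    have h1 : ρ g ∈ A.map ρ := by
      apply hQ.mem_of_commute _ hcard.ge
      · rintro _ ⟨a, ha, rfl⟩
        rw [← map_mul, ← Subgroup.mem_centralizer_iff.1 hg a ha, map_mul]
      · rintro _ ⟨a, ha, rfl⟩
        rw [← map_mul, ← pow_two, hA.2 a ha, map_one]
    obtain ⟨a, ha, hag⟩ := h1
    have h2 : a⁻¹ * g ∈ ρ.ker := by
      rw [MonoidHom.mem_ker, map_mul, map_inv, hag, inv_mul_cancel]
    rw [hker] at h2
    have h3 := A.mul_mem ha (htA' h2)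
    rwa [mul_inv_cancel_left] at h3
  · intro a ha
    rw [Subgroup.mem_centralizer_iff]
    intro b hb
    have := hA.1.is_comm.comm ⟨b, hb⟩ ⟨a, ha⟩
    exact congrArg Subtype.val this

end Cfsg.Agent.S1236
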