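import Cfsg.Statements.S1237
import Cfsg.Agent.H21.TFApp

set_option autoImplicit false
open Cfsg

namespace Cfsg.Agent.S1237

/-- Let T be a finite 2-group of 2-rank exactly 2 (it has a Klein four-subgroup but no elementary abelian subgroup of order 8) admitting an automorphism φ such that any two involutions of T are carried to one another by a power of φ. Then T ≅ Z_{2^n} × Z_{2^n} for some n ≥ 1, or T is isomorphic to a Sylow 2-subgroup of PSU(3) over the field with 16 elements. -/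
theorem result {T : Type*} [Group T] [Finite T] (hT : IsPGroup 2 T) (h2 : Cfsg.PRankLE 2 2 T) (h1 : ¬ Cfsg.PRankLE 2 1 T) (φ : MulAut T) (htrans : ∀ s t : T, orderOf s = 2 → orderOf t = 2 → ∃ k : ℕ, (φ ^ k) s = t) {F : Type*} [Field F] [Fintype F] (hF : Fintype.card F = 16) (P : Sylow 2 (Cfsg.PSU 3 F 4)) : (∃ n : ℕ, 1 ≤ n ∧ Nonempty (T ≃* Multiplicative (ZMod (2 ^ n) × ZMod (2 ^ n)))) ∨ Nonempty (T ≃* (P : Subgroup (Cfsg.PSU 3 F 4))) := by
  classical
  haveI : Fact (Nat.Prime 2) := ⟨Nat.prime_two⟩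
  have htr : ∀ s t : T, s ≠ 1 → s * s = 1 → t ≠ 1 → t * t = 1 → ∃ κ ∈ Subgroup.zpowers φ, κ s = t := by
    intro s t hs1 hss ht1 htt
    obtain ⟨k, hk⟩ := htrans s t (orderOf_eq_prime (by rw [pow_two]; exact hss) hs1)
      (orderOf_eq_prime (by rw [pow_two]; exact htt) ht1)
    exact ⟨φ ^ k, Subgroup.npow_mem_zpowers _ _, hk⟩
  -- involutions are central
  have hcen : ∀ z : T, z * z = 1 → ∀ x : T, z * x = x * z := by
    intro z hz x
    by_cases hz1 : z = 1
    · rw [hz1, one_mul, mul_one]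
    haveI : Nontrivial T := ⟨z, 1, hz1⟩
    obtain ⟨n, hn⟩ := (hT.to_subgroup (Subgroup.center T)).exists_card_eq
    haveI := hT.center_nontrivial
    have hn0 : n ≠ 0 := by
      rintro rfl
      rw [pow_zero] at hn
      have := (Nat.card_eq_one_iff_unique.1 hn).1
      exact not_subsingleton _ this
    obtain ⟨⟨c, hcc⟩, hco⟩ := exists_prime_orderOf_dvd_card' (G := Subgroup.center T) 2
      (by rw [hn]; exact dvd_pow_self 2 hn0)
    rw [Subgroup.orderOf_mk] at hco
    have hc1 : c ≠ 1 := by rintro rfl; simp at hco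
    have hc2 : c * c = 1 := by rw [← pow_two, ← hco, pow_orderOf_eq_one]
    obtain ⟨κ, -, rfl⟩ := htr c z hc1 hc2 hz1 hz
    have h1 := Subgroup.mem_center_iff.1 hcc (κ⁻¹ x)
    have h2 := congrArg κ h1
    rw [map_mul, map_mul, MulAut.apply_inv_self] at h2
    exact h2.symm
  obtain ⟨Z, hZ, hZ4⟩ := H21.TF.exists_omega hT h2 h1 hcen
  obtain ⟨α, -, hα⟩ := H21.TF.exists_conf_of_trans hT Z hZ hZ4 (Subgroup.zpowers φ) htr
  exact hα.final hF P

end Cfsg.Agent.S1237
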