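import Cfsg.Statements.S1239
import Cfsg.Agent.H20.ZCent

set_option autoImplicit false
open Cfsg

namespace Cfsg.Agent.S1239

open Cfsg.Agent.H20

/-- Let X be a finite group whose Sylow 2-subgroup S is quasi-dihedral or wreathed, and suppose some involution of S is isolated in X. Then the product of the largest normal odd-order subgroup O(X) with the centre of S is normal in X. -/
theorem result {X : Type*} [Group X] [Finite X] (S : Sylow 2 X) (hS : Cfsg.IsQuasiDihedral (S : Subgroup X) ∨ Cfsg.IsWreathed (S : Subgroup X)) (z : X) (hzS : z ∈ S) (hz : Cfsg.IsIsolatedInvolution z) : (Cfsg.oddCore X ⊔ (Subgroup.center (S : Subgroup X)).map (S : Subgroup X).subtype).Normal := by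
  have hz2 : orderOf z = 2 := hz.1
  have hcent := Cfsg.Agent.H69.isolated_central hz S hzS
  have hzc : (⟨z, hzS⟩ : (S : Subgroup X)) ∈ Subgroup.center (S : Subgroup X) := by
    rw [Subgroup.mem_center_iff]
    intro g
    have h1 := hcent g.2
    rw [Subgroup.mem_centralizer_singleton_iff] at h1
    exact Subtype.ext h1
  have hcore := center_mod_core S hS hzc (by rw [← Subgroup.orderOf_coe]; exact hz2)
    (fun g hg => Cfsg.Agent.H69.isolated_hiso hz S hzS g hg)
  refine ⟨fun n hn g => ?_⟩
  have hN : (Cfsg.oddCore X).Normal := inferInstance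
  rw [sup_comm] at hn ⊢
  obtain ⟨y, hy, o, ho, rfl⟩ := Subgroup.mem_sup_of_normal_right.1 hn
  obtain ⟨y, hy, rfl⟩ := hy
  have e : g * ((S : Subgroup X).subtype y * o) * g⁻¹ =
      (g * (y : X) * g⁻¹ * (y : X)⁻¹) * (y : X) * (g * o * g⁻¹) := by
    simp only [Subgroup.subtype_apply]; group
  rw [e]
  exact mul_mem (mul_mem (Subgroup.mem_sup_right (hcore y hy g)) (Subgroup.mem_sup_left ⟨y, hy, rfl⟩))
    (Subgroup.mem_sup_right (hN.conj_mem _ ho _))

end Cfsg.Agent.S1239
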