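import Cfsg.Statements.S1241
import Mathlib.GroupTheory.Transfer
import Mathlib.GroupTheory.Abelianization.Defs

set_option autoImplicit false
open Cfsg

namespace Cfsg.Agent.S1241

open MonoidHom MulAction Subgroup in
/-- Let G be a finite group, p a prime, H a subgroup of index prime to p, K a subgroup of H normal in H with H/K commutative, and g ∈ H ∖ K an element of p-power order such that for all integers m and all a ∈ G with a g^m a⁻¹ ∈ H one has a g^m a⁻¹ ∈ g^m K. Then g ∉ G'. -/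
theorem result {G : Type*} [Group G] [Finite G] {p : ℕ} [Fact p.Prime] (H K : Subgroup G) (hHK : K ≤ H) (hKn : (K.subgroupOf H).Normal) (hab : ∀ x ∈ H, ∀ y ∈ H, x * y * x⁻¹ * y⁻¹ ∈ K) (hidx : Nat.Coprime p H.index) (g : G) (hgH : g ∈ H) (hgK : g ∉ K) (hgp : ∃ k : ℕ, orderOf g = p ^ k) (hctrl : ∀ (m : ℤ) (a : G), a * g ^ m * a⁻¹ ∈ H → (a * g ^ m * a⁻¹) * (g ^ m)⁻¹ ∈ K) : g ∉ commutator G := by
  classical
  haveI := hKn
  letI : CommGroup (H ⧸ K.subgroupOf H) :=
    { mul_comm := by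
        intro x y
        induction x using QuotientGroup.induction_on with | _ x
        induction y using QuotientGroup.induction_on with | _ y
        rw [← QuotientGroup.mk_mul, ← QuotientGroup.mk_mul]
        rw [QuotientGroup.eq, Subgroup.mem_subgroupOf]
        have := hab (y : G)⁻¹ (H.inv_mem y.2) (x : G)⁻¹ (H.inv_mem x.2)
        simpa [mul_assoc] using this }
  let φ : H →* H ⧸ K.subgroupOf H := QuotientGroup.mk' _
  let V := MonoidHom.transfer φ
  have hV : V g = φ ⟨g, hgH⟩ ^ H.index := by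
    letI := H.fintypeQuotientOfFiniteIndex
    rw [show V g = _ from transfer_eq_prod_quotient_orbitRel_zpowers_quot φ g]
    rw [index_eq_sum_minimalPeriod H g, ← Finset.prod_pow_eq_pow_sum]
    refine Finset.prod_congr rfl (fun q _ => ?_)
    rw [← map_pow]
    show (QuotientGroup.mk _ : H ⧸ K.subgroupOf H) = QuotientGroup.mk _
    rw [eq_comm, QuotientGroup.eq, Subgroup.mem_subgroupOf]
    set n := Function.minimalPeriod (g • ·) q.out
    have h1 := QuotientGroup.out_conj_pow_minimalPeriod_mem H g q.out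
    have h2 := hctrl (n : ℤ) (q.out.out)⁻¹ (by simpa using h1)
    have h3 : ((g ^ n)⁻¹ * ((q.out.out)⁻¹ * g ^ n * q.out.out * (g ^ n)⁻¹) * g ^ n) ∈ K := by
      have := hKn.conj_mem ⟨_, hHK h2⟩ (by simpa [Subgroup.mem_subgroupOf] using h2) ⟨(g ^ n)⁻¹, H.inv_mem (H.pow_mem hgH n)⟩
      simpa [Subgroup.mem_subgroupOf] using this
    simpa [mul_assoc] using h3
  intro hg
  have hV1 : V g = 1 := by
    have : commutator G ≤ V.ker := Abelianization.commutator_subset_ker V
    exact this hg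
  rw [hV1] at hV
  obtain ⟨k, hk⟩ := hgp
  have h4 : orderOf (φ ⟨g, hgH⟩) ∣ p ^ k := by
    have h5 : orderOf (φ ⟨g, hgH⟩) ∣ orderOf (⟨g, hgH⟩ : H) := orderOf_map_dvd _ _
    rwa [Subgroup.orderOf_mk, hk] at h5
  have h6 : orderOf (φ ⟨g, hgH⟩) ∣ H.index := orderOf_dvd_of_pow_eq_one hV.symm
  have h7 : orderOf (φ ⟨g, hgH⟩) = 1 :=
    Nat.eq_one_of_dvd_coprimes (Nat.Coprime.pow_left k hidx) h4 h6
  rw [orderOf_eq_one_iff] at h7
  apply hgK
  have := (QuotientGroup.eq_one_iff (⟨g, hgH⟩ : H)).1 h7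
  simpa [Subgroup.mem_subgroupOf] using this

end Cfsg.Agent.S1241
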