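import Cfsg.Statements.S1242
import Mathlib.GroupTheory.Transfer
import Mathlib.GroupTheory.Abelianization.Defs
import Cfsg.Agent.Transfer.Residual

set_option autoImplicit false
open Cfsg

namespace Cfsg.Agent.S1242

open MonoidHom MulAction Subgroup in
/-- Let G be a finite group, p a prime and H a subgroup of index prime to p such that any two elements of H of p-power order that are conjugate in G are conjugate in H. Then (O^p(G)·G') ∩ H = O^p(H)·H', where O^p denotes the subgroup generated by the elements of order prime to p. -/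
theorem result {G : Type*} [Group G] [Finite G] {p : ℕ} [Fact p.Prime] (H : Subgroup G) (hidx : Nat.Coprime p H.index) (hfus : ∀ g ∈ H, (∃ k : ℕ, orderOf g = p ^ k) → ∀ a : G, a * g * a⁻¹ ∈ H → ∃ h ∈ H, h * g * h⁻¹ = a * g * a⁻¹) : (Cfsg.pResidual p G ⊔ commutator G) ⊓ H = (Cfsg.pResidual p ↥H ⊔ commutator ↥H).map H.subtype := by
  classical
  set K : Subgroup H := Cfsg.pResidual p ↥H ⊔ commutator ↥H with hK
  have hKn : K.Normal := by
    haveI : (Cfsg.pResidual p ↥H).Normal := inferInstance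
    infer_instance
  letI : CommGroup (H ⧸ K) :=
    { mul_comm := by
        intro x y
        induction x using QuotientGroup.induction_on with | _ x
        induction y using QuotientGroup.induction_on with | _ y
        rw [← QuotientGroup.mk_mul, ← QuotientGroup.mk_mul]
        rw [QuotientGroup.eq]
        refine (le_sup_right : commutator H ≤ K) ?_
        have := commutator_mem_commutator (H₁ := (⊤ : Subgroup H)) (H₂ := (⊤ : Subgroup H))
          (mem_top (y⁻¹)) (mem_top (x⁻¹))
        rw [_root_.commutator_def]; simpa [mul_assoc, commutatorElement_def] using this }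
  let φ : H →* H ⧸ K := QuotientGroup.mk' _
  let V := MonoidHom.transfer φ
  have hpq : IsPGroup p (H ⧸ K) := Transfer.isPGroup_quotient_of_pResidual_le (le_sup_left)
  have hV : ∀ (g : G) (hgH : g ∈ H) (hg : ∃ k : ℕ, orderOf g = p ^ k), V g = φ ⟨g, hgH⟩ ^ H.index := by
    intro g hgH hg
    letI := H.fintypeQuotientOfFiniteIndex
    rw [show V g = _ from transfer_eq_prod_quotient_orbitRel_zpowers_quot φ g]
    rw [index_eq_sum_minimalPeriod H g, ← Finset.prod_pow_eq_pow_sum]
    refine Finset.prod_congr rfl (fun q _ => ?_)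
    rw [← map_pow]
    set n := Function.minimalPeriod (g • ·) q.out
    have h1 := QuotientGroup.out_conj_pow_minimalPeriod_mem H g q.out
    have hgn : ∃ k : ℕ, orderOf (g ^ n) = p ^ k := by
      obtain ⟨k, hk⟩ := hg
      have := orderOf_pow_dvd (x := g) n
      rw [hk] at this
      obtain ⟨j, -, hj⟩ := (Nat.dvd_prime_pow Fact.out).1 this
      exact ⟨j, hj⟩
    obtain ⟨h, hh, hhe⟩ := hfus (g ^ n) (H.pow_mem hgH n) hgn (q.out.out)⁻¹ (by simpa using h1)
    have h2 : (⟨q.out.out⁻¹ * g ^ n * q.out.out, h1⟩ : H) = ⟨h, hh⟩ * ⟨g, hgH⟩ ^ n * ⟨h, hh⟩⁻¹ := by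
      ext
      simpa using hhe.symm
    have h3 : φ ⟨q.out.out⁻¹ * g ^ n * q.out.out, h1⟩ = φ (⟨g, hgH⟩ ^ n) := by
      rw [h2, map_mul, map_mul, map_inv, mul_comm (φ ⟨h, hh⟩), mul_inv_cancel_right]
    exact h3
  apply le_antisymm
  · rintro x ⟨hx, hxH⟩
    have hVx : V x = 1 := by
      have h1 : Cfsg.pResidual p G ⊔ commutator G ≤ V.ker := by
        refine sup_le (Transfer.pResidual_le_ker V hpq) (Abelianization.commutator_subset_ker V)
      exact h1 hx
    obtain ⟨a, b, hab, ha, hb⟩ := Transfer.exists_pow_decomp p x (orderOf_pos x).ne'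
    have h2 : V (x ^ a) = 1 := by rw [map_pow, hVx, one_pow]
    rw [hV _ (H.pow_mem hxH a) ha] at h2
    have h3 : φ ⟨x ^ a, H.pow_mem hxH a⟩ = 1 := by
      obtain ⟨k, hk⟩ := ha
      have h4 : orderOf (φ ⟨x ^ a, H.pow_mem hxH a⟩) ∣ p ^ k := by
        have h5 : orderOf (φ ⟨x ^ a, H.pow_mem hxH a⟩) ∣ orderOf (⟨x ^ a, H.pow_mem hxH a⟩ : H) :=
          orderOf_map_dvd _ _
        rwa [Subgroup.orderOf_mk, hk] at h5
      have h6 : orderOf (φ ⟨x ^ a, H.pow_mem hxH a⟩) ∣ H.index := orderOf_dvd_of_pow_eq_one h2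
      rw [← orderOf_eq_one_iff]
      exact Nat.eq_one_of_dvd_coprimes (Nat.Coprime.pow_left k hidx) h4 h6
    have h7 : φ ⟨x ^ b, H.pow_mem hxH b⟩ = 1 := by
      refine (QuotientGroup.eq_one_iff _).2 ((le_sup_left : Cfsg.pResidual p H ≤ K) ?_)
      exact Transfer.mem_pResidual_of_coprime (by rwa [Subgroup.orderOf_mk])
    have h8 : φ ⟨x, hxH⟩ = 1 := by
      have : (⟨x, hxH⟩ : H) = ⟨x ^ a, H.pow_mem hxH a⟩ * ⟨x ^ b, H.pow_mem hxH b⟩ := by
        ext; exact hab
      rw [this, map_mul, h3, h7, one_mul]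
    exact ⟨⟨x, hxH⟩, (QuotientGroup.eq_one_iff _).1 h8, rfl⟩
  · refine le_inf ?_ (Subgroup.map_subtype_le _)
    rw [hK, Subgroup.map_sup]
    refine sup_le_sup (Transfer.pResidual_map_le p _) ?_
    rw [_root_.commutator_def, Subgroup.map_commutator]
    exact Subgroup.commutator_mono le_top le_top

end Cfsg.Agent.S1242
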