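import Cfsg.Statements.S1243
import Cfsg.Agent.H21.Basic

set_option autoImplicit false
open Cfsg

namespace Cfsg.Agent.S1243

open H21

/-- Let T be a Sylow p-subgroup of the finite group G and W ≤ T a subgroup weakly closed in T. If d and g d g⁻¹ both centralize W, then g d g⁻¹ = h d h⁻¹ for some h ∈ N_G(W). -/
theorem result {G : Type*} [Group G] [Finite G] {p : ℕ} [Fact p.Prime] (T : Sylow p G) (W : Subgroup G) (hW : Cfsg.IsWeaklyClosed W (T : Subgroup G)) (d g : G) (hd : d ∈ Subgroup.centralizer (W : Set G)) (hgd : g * d * g⁻¹ ∈ Subgroup.centralizer (W : Set G)) : ∃ h ∈ Subgroup.normalizer (W : Set G), h * d * h⁻¹ = g * d * g⁻¹ := by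
  set C := Subgroup.centralizer ({d} : Set G) with hC
  have hmemC : ∀ x, x ∈ C ↔ d * x = x * d := by
    intro x
    rw [hC, Subgroup.mem_centralizer_singleton_iff, eq_comm]
  have hWC : W ≤ C := by
    intro w hw
    rw [hmemC]
    exact ((Subgroup.mem_centralizer_iff.1 hd) w hw).symm
  set V := W.map (MulAut.conj g⁻¹).toMonoidHom with hV
  have hVC : V ≤ C := by
    intro v hv
    rw [mem_map_conj, inv_inv] at hv
    rw [hmemC]
    have := (Subgroup.mem_centralizer_iff.1 hgd) _ hv
    have h2 : g * (v * d) * g⁻¹ = g * (d * v) * g⁻¹ := by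
      simpa [mul_assoc] using this
    exact (mul_left_cancel (mul_right_cancel h2)).symm
  have hWp : IsPGroup p W := T.isPGroup'.to_le hW.1
  have hVp : IsPGroup p V := hWp.map _
  -- a Sylow subgroup of C containing W
  have hWp' : IsPGroup p (W.subgroupOf C) := hWp.comap_of_injective C.subtype C.subtype_injective
  obtain ⟨R, hR⟩ := hWp'.exists_le_sylow
  obtain ⟨c, hc, hcV⟩ := exists_conj_mem_sylow_subgroup C R V hVp hVC
  -- the image of R in G lies in a Sylow subgroup of G, conjugate of T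
  have hRp : IsPGroup p ((R : Subgroup C).map C.subtype) := R.isPGroup'.map _
  obtain ⟨T', hT'⟩ := hRp.exists_le_sylow
  obtain ⟨x, rfl⟩ := MulAction.exists_smul_eq G T T'
  have hcon : ∀ y : G, W.map (MulAut.conj y).toMonoidHom ≤ ((x • T : Sylow p G) : Subgroup G) →
      W.map (MulAut.conj y).toMonoidHom = W.map (MulAut.conj x).toMonoidHom := by
    intro y hy
    have h1 : W.map (MulAut.conj (x⁻¹ * y)).toMonoidHom ≤ T := by
      rw [map_conj_mul]
      rintro _ ⟨w, hw, rfl⟩
      have := (mem_smul_sylow T x w).1 (hy hw)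
      simpa using this
    have h2 := hW.2 _ h1
    calc W.map (MulAut.conj y).toMonoidHom
        = W.map (MulAut.conj (x * (x⁻¹ * y))).toMonoidHom := by rw [mul_inv_cancel_left]
      _ = (W.map (MulAut.conj (x⁻¹ * y)).toMonoidHom).map (MulAut.conj x).toMonoidHom := by
          rw [map_conj_mul]
      _ = _ := by rw [h2]
  have hW1 : W.map (MulAut.conj (1 : G)).toMonoidHom ≤ ((x • T : Sylow p G) : Subgroup G) := by
    rw [map_conj_one]
    intro w hw
    apply hT'
    exact ⟨⟨w, hWC hw⟩, hR (by simpa [Subgroup.mem_subgroupOf] using hw), rfl⟩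
  have hW2 : W.map (MulAut.conj (c * g⁻¹)).toMonoidHom ≤ ((x • T : Sylow p G) : Subgroup G) := by
    rw [map_conj_mul]
    rintro _ ⟨v, hv, rfl⟩
    apply hT'
    simpa using hcV v hv
  have h3 : W.map (MulAut.conj (c * g⁻¹)).toMonoidHom = W := by
    rw [hcon _ hW2, ← hcon _ hW1, map_conj_one]
  have h4 : c * g⁻¹ ∈ Subgroup.normalizer (W : Set G) := mem_normalizer_iff_map_conj.2 h3
  refine ⟨(c * g⁻¹)⁻¹, Subgroup.inv_mem _ h4, ?_⟩
  have h5 : c⁻¹ * d * c = d := by
    have := (hmemC c).1 hc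
    rw [mul_assoc, this, inv_mul_cancel_left]
  calc (c * g⁻¹)⁻¹ * d * (c * g⁻¹)⁻¹⁻¹ = g * (c⁻¹ * d * c) * g⁻¹ := by group
    _ = g * d * g⁻¹ := by rw [h5]

end Cfsg.Agent.S1243
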