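import Cfsg.Statements.S1244
import Cfsg.Agent.H21.AbelSylow
import Cfsg.Agent.H21.Basic

set_option autoImplicit false
open Cfsg

namespace Cfsg.Agent.S1244

/-- Let G be a finite group with no subgroup of index 2 whose Sylow 2-subgroup S is commutative, and let R ≤ S be a subgroup whose 2-rank is exactly one less than the 2-rank r of S. Then every involution of S is conjugate, by an element of N_G(S), to an element of R. -/
theorem result {G : Type*} [Group G] [Finite G] (hG : ∀ H : Subgroup G, H.index ≠ 2) (S : Sylow 2 G) (hS : IsMulCommutative (S : Subgroup G)) (r : ℕ) (hr1 : 1 ≤ r) (hSr : Cfsg.PRankLE 2 r (S : Subgroup G) ∧ ¬ Cfsg.PRankLE 2 (r - 1) (S : Subgroup G)) (R : Subgroup G) (hRS : R ≤ S) (hRr : Cfsg.PRankLE 2 (r - 1) R ∧ (r = 1 ∨ ¬ Cfsg.PRankLE 2 (r - 2) R)) (t : G) (ht : orderOf t = 2) (htS : t ∈ S) : ∃ n ∈ Subgroup.normalizer ((S : Subgroup G) : Set G), n * t * n⁻¹ ∈ R := by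
  -- `W = Ω₁(S)`
  have hcomm : ∀ a ∈ (S : Subgroup G), ∀ b ∈ (S : Subgroup G), a * b = b * a := by
    intro a ha b hb
    exact congrArg (fun x : (S : Subgroup G) => (x : G)) (hS.is_comm.comm ⟨a, ha⟩ ⟨b, hb⟩)
  let W : Subgroup G :=
    { carrier := {s | s ∈ (S : Subgroup G) ∧ s * s = 1}
      one_mem' := ⟨Subgroup.one_mem _, mul_one 1⟩
      mul_mem' := by
        rintro a b ⟨ha, haa⟩ ⟨hb, hbb⟩
        refine ⟨Subgroup.mul_mem _ ha hb, ?_⟩
        have h1 := hcomm a ha b hb
        calc a * b * (a * b) = a * (b * a) * b := by simp only [mul_assoc]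
          _ = (a * a) * (b * b) := by rw [← h1]; simp only [mul_assoc]
          _ = 1 := by rw [haa, hbb, mul_one]
      inv_mem' := by
        rintro a ⟨ha, haa⟩
        refine ⟨Subgroup.inv_mem _ ha, ?_⟩
        rw [← mul_inv_rev, haa, inv_one] }
  have hWS : W ≤ (S : Subgroup G) := fun s hs => hs.1
  have hWN : Subgroup.normalizer ((S : Subgroup G) : Set G) ≤ Subgroup.normalizer (W : Set G) := by
    intro n hn
    apply H21.mem_normalizer_of_map_conj_le
    rintro _ ⟨w, ⟨hw, hww⟩, rfl⟩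
    refine ⟨(Subgroup.mem_normalizer_iff.1 hn w).1 hw, ?_⟩
    rw [← map_mul, hww, map_one]
  have htW : t ∈ W := ⟨htS, by rw [← pow_two, ← ht, pow_orderOf_eq_one]⟩
  have hWcard : Nat.card W ≤ 2 ^ r := by
    have h1 := hSr.1 (W.subgroupOf (S : Subgroup G)) ⟨⟨fun a b => by
      apply Subtype.ext
      apply Subtype.ext
      exact hcomm _ a.1.2 _ b.1.2⟩⟩ (by
      intro a ha
      apply Subtype.ext
      have := (Subgroup.mem_subgroupOf.1 ha).2
      rw [← pow_two] at this
      exact this)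
    rwa [Nat.card_congr (Subgroup.subgroupOfEquivOfLe hWS).toEquiv] at h1
  -- a large elementary abelian subgroup of `R`
  obtain ⟨E, hER, hEsq, hEcard⟩ : ∃ E : Subgroup G, E ≤ R ∧ (∀ e ∈ E, e * e = 1) ∧
      2 ^ (r - 1) ≤ Nat.card E := by
    rcases hRr.2 with rfl | h
    · exact ⟨⊥, bot_le, by simp, by simp⟩
    · have h1 : ∃ A : Subgroup R, IsMulCommutative A ∧ (∀ a ∈ A, a ^ 2 = 1) ∧
          2 ^ (r - 2) < Nat.card A := by
        by_contra hc
        push Not at hc
        exact h hc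
      obtain ⟨A, hA1, hA2, hA3⟩ := h1
      refine ⟨A.map R.subtype, Subgroup.map_subtype_le _, ?_, ?_⟩
      · rintro _ ⟨a, ha, rfl⟩
        rw [← map_mul, ← pow_two, hA2 a ha, map_one]
      · rw [Subgroup.card_map_of_injective R.subtype_injective]
        have hAp : IsPGroup 2 A := fun a => ⟨1, by
          apply Subtype.ext
          simpa using hA2 a a.2⟩
        obtain ⟨k, hk⟩ := IsPGroup.iff_card.1 hAp
        rw [hk] at hA3 ⊢
        have h2 : r - 2 < k := (Nat.pow_lt_pow_iff_right (by norm_num)).1 hA3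
        exact Nat.pow_le_pow_right (by norm_num) (by omega)
  have hEW : E ≤ W := fun e he => ⟨hRS (hER he), hEsq e he⟩
  have hidx : E.relIndex W = 1 ∨ E.relIndex W = 2 := by
    have h1 : Nat.card E * E.relIndex W = Nat.card W := by
      rw [Subgroup.relIndex, ← Subgroup.card_mul_index (E.subgroupOf W),
        Nat.card_congr (Subgroup.subgroupOfEquivOfLe hEW).toEquiv]
    have h2 : 2 ^ r = 2 ^ (r - 1) * 2 := by rw [← pow_succ]; congr 1; omega
    have h3 : 0 < E.relIndex W := Nat.pos_of_ne_zero (Subgroup.index_ne_zero_of_finite)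
    have h4 : 2 ^ (r - 1) * E.relIndex W ≤ 2 ^ (r - 1) * 2 := by
      calc 2 ^ (r - 1) * E.relIndex W ≤ Nat.card E * E.relIndex W := Nat.mul_le_mul_right _ hEcard
        _ = Nat.card W := h1
        _ ≤ 2 ^ r := hWcard
        _ = 2 ^ (r - 1) * 2 := h2
    have h5 := Nat.le_of_mul_le_mul_left h4 (by positivity)
    omega
  rcases hidx with h1 | h2
  · rw [Subgroup.relIndex_eq_one] at h1
    exact ⟨1, Subgroup.one_mem _, by simpa using hER (h1 htW)⟩
  · obtain ⟨n, hn, hnt⟩ := H21.exists_conj_mem_hyperplane hG S hS W E hWS hWN h2 htW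
    exact ⟨n, hn, hER hnt⟩

end Cfsg.Agent.S1244
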