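import Cfsg.Statements.S1246
import Cfsg.Agent.FStar.AxB
import Cfsg.Agent.H21.Basic

set_option autoImplicit false
open Cfsg

namespace Cfsg.Agent.S1246

theorem isPGroup_fstar_of_equiv {A B : Type*} [Group A] [Group B] {p : ℕ} (e : A ≃* B)
    (h : IsPGroup p (Cfsg.generalizedFittingSubgroup A)) :
    IsPGroup p (Cfsg.generalizedFittingSubgroup B) := by
  rw [← FStar.map_generalizedFitting e]
  exact h.map _

theorem step {G : Type*} [Group G] [Finite G] {p : ℕ} [Fact p.Prime] (W V : Subgroup G)
    (hW : IsPGroup p W) (hVW : V ≤ W) (hWN : W ≤ Subgroup.normalizer (V : Set G))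
    (hV : IsPGroup p ↥(Cfsg.generalizedFittingSubgroup ↥(Subgroup.centralizer (V : Set G)))) :
    IsPGroup p ↥(Cfsg.generalizedFittingSubgroup ↥(Subgroup.centralizer (W : Set G))) := by
  set C := Subgroup.centralizer (V : Set G) with hC
  have hWC : W ≤ Subgroup.normalizer (C : Set G) := by
    refine hWN.trans ?_
    intro g hg
    rw [H21.mem_normalizer_iff_map_conj] at hg ⊢
    ext x
    rw [H21.mem_map_conj, hC, Subgroup.mem_centralizer_iff, Subgroup.mem_centralizer_iff]
    constructor
    · intro h y hy
      have hy' : g⁻¹ * y * g ∈ V := by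
        rw [← hg, SetLike.mem_coe, H21.mem_map_conj] at hy
        exact hy
      have := h _ hy'
      have h2 : g⁻¹ * (y * x) * g = g⁻¹ * (x * y) * g := by simpa [mul_assoc] using this
      exact mul_left_cancel (mul_right_cancel h2)
    · intro h y hy
      have hy' : g * y * g⁻¹ ∈ V := by
        rw [← hg, H21.mem_map_conj]
        simpa [mul_assoc] using hy
      have := h _ hy'
      have h2 : g * (y * (g⁻¹ * x * g)) * g⁻¹ = g * (g⁻¹ * x * g * y) * g⁻¹ := by
        simpa [mul_assoc] using this
      exact mul_left_cancel (mul_right_cancel h2)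
  set H := C ⊔ W with hH
  have hCH : C ≤ H := le_sup_left
  have hWH : W ≤ H := le_sup_right
  have hCn : (C.subgroupOf H).Normal := by
    rw [Subgroup.normal_subgroupOf_iff_le_normalizer hCH]
    exact sup_le Subgroup.le_normalizer hWC
  have hCF : IsPGroup p (Cfsg.generalizedFittingSubgroup (C.subgroupOf H)) :=
    isPGroup_fstar_of_equiv (Subgroup.subgroupOfEquivOfLe hCH).symm hV
  have hquot : IsPGroup p (H ⧸ C.subgroupOf H) := by
    have h1 : (W.subgroupOf H).map (QuotientGroup.mk' (C.subgroupOf H)) = ⊤ := by
      have h2 : C.subgroupOf H ⊔ W.subgroupOf H = ⊤ := by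
        rw [← Subgroup.subgroupOf_sup hCH hWH, ← hH, Subgroup.subgroupOf_self]
      have h3 := congrArg (Subgroup.map (QuotientGroup.mk' (C.subgroupOf H))) h2
      rw [Subgroup.map_sup, Subgroup.map_top_of_surjective _ (QuotientGroup.mk'_surjective _),
        (Subgroup.map_eq_bot_iff _).2 (by rw [QuotientGroup.ker_mk']), bot_sup_eq] at h3
      exact h3
    have h4 : IsPGroup p (⊤ : Subgroup (H ⧸ C.subgroupOf H)) := by
      rw [← h1]
      exact (hW.comap_subtype (K := H)).map _
    exact h4.of_equiv Subgroup.topEquiv
  have hpp : Cfsg.pResidual p H ≤ C.subgroupOf H :=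
    Agent.Transfer.pResidual_le_of_isPGroup_quotient hquot
  -- F*(H) is a p-group
  have hHF : IsPGroup p (Cfsg.generalizedFittingSubgroup H) := by
    apply FStar.isPGroup_generalizedFitting_of
    · apply FStar.layer_eq_bot_of_isPGroup (p := p)
      have h1 : Cfsg.layer H ≤ C.subgroupOf H := by
        rw [FStar.layer_le_iff]
        intro L hL
        apply FStar.le_of_pResidual_eq_top (FStar.pResidual_eq_top_of_component (p := p) hL.2)
        intro b _ hb
        exact hpp (Agent.Transfer.mem_pResidual_of_coprime hb)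
      have h2 := FStar.layer_le_map_layer_of_le h1
      refine IsPGroup.to_le ?_ h2
      exact (hCF.to_le FStar.layer_le_generalizedFitting).map _
    · intro q hq hqp
      haveI : Fact q.Prime := ⟨hq⟩
      have h1 : Cfsg.pCore q H ≤ C.subgroupOf H := by
        intro x hx
        apply hpp
        apply Agent.Transfer.mem_pResidual_of_coprime
        obtain ⟨k, hk⟩ := (IsPGroup.iff_orderOf.1 (Agent.Solv.pCore_isPGroup (G := H) q)) ⟨x, hx⟩
        rw [Subgroup.orderOf_mk] at hk
        rw [hk]
        exact Nat.Coprime.pow_left k ((Nat.coprime_primes Fact.out Fact.out).2 hqp)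
      have h2 : Cfsg.pCore q H ≤ (Cfsg.pCore q (C.subgroupOf H)).map (C.subgroupOf H).subtype := by
        rw [Agent.Solv.inf_pCore_eq]
        exact le_inf h1 le_rfl
      have h3 : IsPGroup p (Cfsg.pCore q H) := by
        refine IsPGroup.to_le ?_ h2
        exact (hCF.to_le ((Agent.Solv.pCore_le_fitting q).trans
          FStar.fitting_le_generalizedFitting)).map _
      exact FStar.eq_bot_of_isPGroup_of_isPGroup hqp h3 (Agent.Solv.pCore_isPGroup q)
  -- local subgroup
  set P := W.subgroupOf H with hP
  have hPp : IsPGroup p P := hW.comap_subtype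
  have h1 := FStar.isPGroup_generalizedFitting_normalizer hHF hPp
  have hcn : ((Subgroup.centralizer (P : Set H)).subgroupOf
      (Subgroup.normalizer (P : Set H))).Normal := by
    rw [Subgroup.normal_subgroupOf_iff_le_normalizer (Subgroup.centralizer_le_normalizer _)]
    intro g hg
    rw [H21.mem_normalizer_iff_map_conj] at hg ⊢
    ext x
    rw [H21.mem_map_conj, Subgroup.mem_centralizer_iff, Subgroup.mem_centralizer_iff]
    constructor
    · intro h y hy
      have hy' : g⁻¹ * y * g ∈ P := by
        rw [← hg, SetLike.mem_coe, H21.mem_map_conj] at hy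
        exact hy
      have := h _ hy'
      have h2 : g⁻¹ * (y * x) * g = g⁻¹ * (x * y) * g := by simpa [mul_assoc] using this
      exact mul_left_cancel (mul_right_cancel h2)
    · intro h y hy
      have hy' : g * y * g⁻¹ ∈ P := by
        rw [← hg, H21.mem_map_conj]
        simpa [mul_assoc] using hy
      have := h _ hy'
      have h2 : g * (y * (g⁻¹ * x * g)) * g⁻¹ = g * (g⁻¹ * x * g * y) * g⁻¹ := by
        simpa [mul_assoc] using this
      exact mul_left_cancel (mul_right_cancel h2)
  have h2 := FStar.isPGroup_generalizedFitting_of_isSubnormal hcn.isSubnormal h1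
  have hmap : (Subgroup.centralizer (P : Set H)).map H.subtype =
      Subgroup.centralizer (W : Set G) := by
    ext x
    constructor
    · rintro ⟨y, hy, rfl⟩
      rw [Subgroup.mem_centralizer_iff]
      intro w hw
      have := Subgroup.mem_centralizer_iff.1 hy ⟨w, hWH hw⟩ (by
        rw [SetLike.mem_coe, hP, Subgroup.mem_subgroupOf]; exact hw)
      exact congrArg Subtype.val this
    · intro hx
      have hxC : x ∈ C := Subgroup.centralizer_le (show (V : Set G) ⊆ W from hVW) hx
      refine ⟨⟨x, hCH hxC⟩, ?_, rfl⟩
      rw [SetLike.mem_coe, Subgroup.mem_centralizer_iff]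
      intro y hy
      ext
      exact Subgroup.mem_centralizer_iff.1 hx y (by
        rw [SetLike.mem_coe, hP, Subgroup.mem_subgroupOf] at hy; exact hy)
  refine isPGroup_fstar_of_equiv ?_ h2
  refine (Subgroup.subgroupOfEquivOfLe (Subgroup.centralizer_le_normalizer _)).trans ?_
  refine ((Subgroup.centralizer (P : Set H)).equivMapOfInjective H.subtype H.subtype_injective).trans ?_
  exact MulEquiv.subgroupCongr hmap


/-- Let V ≤ U be p-subgroups of the finite group G. If the generalized Fitting subgroup of C_G(V) is a p-group, then so is that of C_G(U). -/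
theorem result {G : Type*} [Group G] [Finite G] {p : ℕ} [Fact p.Prime] (U V : Subgroup G) (hVU : V ≤ U) (hU : IsPGroup p U) (hV : IsPGroup p ↥(Cfsg.generalizedFittingSubgroup ↥(Subgroup.centralizer (V : Set G)))) : IsPGroup p ↥(Cfsg.generalizedFittingSubgroup ↥(Subgroup.centralizer (U : Set G))) := by
  induction hn : V.relIndex U using Nat.strong_induction_on generalizing V with
  | _ n ih =>
    by_cases hVU' : V = U
    · rw [← hVU']; exact hV
    obtain ⟨x, hxU, hxV, hxN⟩ := H21.exists_mem_normalizer_notMem hU (lt_of_le_of_ne hVU hVU')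
    set W := V ⊔ Subgroup.zpowers x with hW
    have hVW : V ≤ W := le_sup_left
    have hWU : W ≤ U := sup_le hVU (by rwa [Subgroup.zpowers_le])
    have hWN : W ≤ Subgroup.normalizer (V : Set G) :=
      sup_le Subgroup.le_normalizer (by rwa [Subgroup.zpowers_le])
    have hne : V ≠ W := fun h => hxV (h ▸ (le_sup_right : Subgroup.zpowers x ≤ W) (Subgroup.mem_zpowers x))
    have hidx : W.relIndex U < V.relIndex U := by
      have h1 := Subgroup.relIndex_mul_relIndex V W U hVW hWU
      have h2 : V.relIndex W ≠ 1 := fun h => hne (le_antisymm hVW (Subgroup.relIndex_eq_one.1 h))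
      have h3 : V.relIndex W ≠ 0 := by rw [Subgroup.relIndex]; exact Subgroup.index_ne_zero_of_finite
      have h4 : W.relIndex U ≠ 0 := by rw [Subgroup.relIndex]; exact Subgroup.index_ne_zero_of_finite
      rw [← h1]
      have h5 : 2 ≤ V.relIndex W := by omega
      calc W.relIndex U < 2 * W.relIndex U := by omega
        _ ≤ V.relIndex W * W.relIndex U := Nat.mul_le_mul_right _ h5
    exact ih (W.relIndex U) (hn ▸ hidx) W hWU (step W V (hU.to_le hWU) hVW hWN hV) rfl

end Cfsg.Agent.S1246
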