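import Cfsg.Statements.S1247
import Cfsg.Agent.H79.SubnCent
import Cfsg.Agent.FStar.CompAct
import Cfsg.Agent.Solv.MinNormal

set_option autoImplicit false
open Cfsg

namespace Cfsg.Agent.S1247


open Subgroup Cfsg.Agent.FStar Cfsg.Agent.H79.SubnCent

/-- the center of a nontrivial nilpotent subgroup -/
theorem center_ne_bot {X : Type*} [Group X] [Finite X] {H : Subgroup X} (hH : Group.IsNilpotent H) (h : H ≠ ⊥) :
    H ⊓ centralizer (H : Set X) ≠ ⊥ := by
  intro h0
  haveI : (⊤ : Subgroup H).Normal := inferInstance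
  have h1 := Solv.inf_center_ne_bot_of_nilpotent (G := H) ⊤ (by
    intro h2
    apply h
    rw [eq_bot_iff]
    intro x hx
    have h3 : (⟨x, hx⟩ : H) ∈ (⊥ : Subgroup H) := h2 ▸ mem_top _
    rw [mem_bot] at h3 ⊢
    exact congrArg Subtype.val h3)
  apply h1
  rw [eq_bot_iff]
  rintro ⟨x, hx⟩ ⟨-, hxc⟩
  have h2 : x ∈ H ⊓ centralizer (H : Set X) := by
    refine ⟨hx, ?_⟩
    show x ∈ centralizer (H : Set X)
    rw [mem_centralizer_iff]
    intro y hy
    exact congrArg Subtype.val (mem_center_iff.1 hxc ⟨y, hy⟩)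
  rw [h0, mem_bot] at h2
  rw [mem_bot]
  exact Subtype.ext h2

/-- normalizers of nontrivial normal subgroups of a maximal subgroup of a simple group -/
theorem cent_le {G : Type*} [Group G] [Finite G] [IsSimpleGroup G] (A : Subgroup G) (hA : IsCoatom A)
    {N : Subgroup A} (hN : N.Normal) (hN1 : N ≠ ⊥) : centralizer ((N.map A.subtype : Subgroup G) : Set G) ≤ A := by
  have h1 : A ≤ normalizer ((N.map A.subtype : Subgroup G) : Set G) := by
    intro a ha
    rw [mem_normalizer_iff]
    intro g
    constructor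
    · rintro ⟨n, hn, rfl⟩
      exact ⟨⟨a, ha⟩ * n * ⟨a, ha⟩⁻¹, hN.conj_mem n hn _, rfl⟩
    · rintro ⟨n, hn, hng⟩
      refine ⟨⟨a, ha⟩⁻¹ * n * ⟨a, ha⟩, ?_, ?_⟩
      · have := hN.conj_mem n hn (⟨a, ha⟩⁻¹)
        rwa [inv_inv] at this
      · have e1 : (n : G) = a * g * a⁻¹ := hng
        show a⁻¹ * (n : G) * a = g
        rw [e1]; group
  rcases hA.le_iff.1 h1 with h | h
  · exfalso
    have h2 : (N.map A.subtype).Normal := normalizer_eq_top_iff.1 h
    rcases h2.eq_bot_or_eq_top with h3 | h3
    · exact hN1 ((map_eq_bot_iff_of_injective _ A.subtype_injective).1 h3)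
    · apply hA.1
      rw [eq_top_iff, ← h3]
      exact map_subtype_le _
  · exact (H49.centralizer_le_normalizer' _).trans (le_of_eq h)

theorem norm_core {G : Type*} [Group G] [Finite G] (p : ℕ) (B : Subgroup G) :
    B ≤ normalizer (((Cfsg.pCore p ↥B).map B.subtype : Subgroup G) : Set G) :=
  le_normalizer.trans (H49.normalizer_le_normalizer_pCoreOf p B)


/-- Let G be a non-abelian finite simple group, A a maximal subgroup, F = F*(A) its generalized Fitting subgroup (viewed in G), and S ≤ F a subgroup subnormal in F with C_F(S) ≤ S. Let B be any subgroup of G containing S. Then (a) for every prime q not dividing |F(A)|, O_q(B) ∩ A = 1; and (b) for every prime p dividing |F(A)|, O_p(B) commutes elementwise with the subgroup of F generated by its elements of order prime to p. -/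
theorem result {G : Type*} [Group G] [Finite G] [IsSimpleGroup G] (hna : ¬ IsMulCommutative G) (A : Subgroup G) (hA : IsCoatom A) (S : Subgroup G) (hSF : S ≤ (Cfsg.generalizedFittingSubgroup ↥A).map A.subtype) (hSsn : (S.subgroupOf ((Cfsg.generalizedFittingSubgroup ↥A).map A.subtype)).IsSubnormal) (hSC : (Cfsg.generalizedFittingSubgroup ↥A).map A.subtype ⊓ Subgroup.centralizer (S : Set G) ≤ S) (B : Subgroup G) (hSB : S ≤ B) : (∀ q : ℕ, q.Prime → ¬ q ∣ Nat.card (Cfsg.fittingSubgroup ↥A) → (Cfsg.pCore q ↥B).map B.subtype ⊓ A = ⊥) ∧ (∀ p : ℕ, p.Prime → p ∣ Nat.card (Cfsg.fittingSubgroup ↥A) → ∀ x ∈ (Cfsg.pCore p ↥B).map B.subtype, ∀ y ∈ (Cfsg.pResidual p ↥(Cfsg.generalizedFittingSubgroup ↥A)).map ((Cfsg.generalizedFittingSubgroup ↥A).subtype) , x * (A.subtype y) = (A.subtype y) * x) := by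

  classical
  have hFA : (Cfsg.generalizedFittingSubgroup ↥A).map A.subtype ≤ A := map_subtype_le _
  have hSA : S ≤ A := hSF.trans hFA
  set S' : Subgroup A := S.subgroupOf A with hS'
  have hS'F : S' ≤ Cfsg.generalizedFittingSubgroup A := by
    intro x hx
    obtain ⟨y, hy, hyx⟩ := hSF (mem_subgroupOf.1 hx)
    have : y = x := Subtype.ext hyx
    rwa [this] at hy
  have hS'sn : S'.IsSubnormal := by
    let f : ↥(Cfsg.generalizedFittingSubgroup ↥A) →* ↥((Cfsg.generalizedFittingSubgroup ↥A).map A.subtype) :=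
      { toFun := fun x => ⟨A.subtype x, mem_map_of_mem _ x.2⟩
        map_one' := rfl
        map_mul' := fun _ _ => rfl }
    have h1 := hSsn.comap f
    have h2 : (S.subgroupOf ((Cfsg.generalizedFittingSubgroup ↥A).map A.subtype)).comap f =
        S'.subgroupOf (Cfsg.generalizedFittingSubgroup ↥A) := by ext x; rfl
    rw [h2] at h1
    exact IsSubnormal.trans hS'F h1 (Normal.isSubnormal inferInstance)
  have hS'C : Cfsg.generalizedFittingSubgroup A ⊓ centralizer (S' : Set A) ≤ S' := by
    rintro c ⟨hc1, hc2⟩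
    rw [mem_subgroupOf]
    apply hSC
    refine ⟨mem_map_of_mem _ hc1, ?_⟩
    show (c : G) ∈ centralizer (S : Set G)
    rw [mem_centralizer_iff]
    intro s hs
    have h1 : (⟨s, hSA hs⟩ : A) ∈ S' := hs
    exact congrArg Subtype.val (mem_centralizer_iff.1 hc2 _ h1)
  have hE := layer_le hS'sn hS'C
  -- `S` normalizes the cores of `B`
  have hSn : ∀ p : ℕ, S ≤ normalizer (((Cfsg.pCore p ↥B).map B.subtype : Subgroup G) : Set G) :=
    fun p => hSB.trans (norm_core p B)
  have hnorm' : ∀ W : Subgroup G, S ≤ normalizer (W : Set G) → S' ≤ normalizer ((W.subgroupOf A : Subgroup A) : Set A) := by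
    intro W hW s hs
    rw [mem_normalizer_iff]
    intro x
    rw [mem_subgroupOf, mem_subgroupOf]
    exact mem_normalizer_iff.1 (hW hs) x
  have hpg : ∀ (p : ℕ) (W : Subgroup G), IsPGroup p W → IsPGroup p (W.subgroupOf A) := by
    intro p W hW
    exact hW.comap_of_injective A.subtype A.subtype_injective
  refine ⟨?_, ?_⟩
  · intro q hq hqF
    haveI : Fact q.Prime := ⟨hq⟩
    have h1 := eq_bot_of_normalized hS'sn hS'F hS'C hqF (hpg q _ (H49.isPGroup_pCoreOf q B)) (hnorm' _ (hSn q))
    rw [Subgroup.subgroupOf_eq_bot, disjoint_iff] at h1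
    exact h1
  · intro p hp hpF
    haveI : Fact p.Prime := ⟨hp⟩
    set P : Subgroup G := (Cfsg.pCore p ↥B).map B.subtype with hP
    have hPp : IsPGroup p P := H49.isPGroup_pCoreOf p B
    have hSP : S ≤ normalizer (P : Set G) := hSn p
    have hFn : (Cfsg.generalizedFittingSubgroup A).Normal := inferInstance
    -- the core of `A`
    have hcore : Cfsg.pCore p A ≠ ⊥ := by
      intro h
      obtain ⟨x, hx⟩ := exists_prime_orderOf_dvd_card' p hpF
      have h1 : (x : A) ∈ Cfsg.pCore p A := mem_pCore x.2 (k := 1) (by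
        rw [pow_one, ← hx, ← Subgroup.orderOf_coe, pow_orderOf_eq_one])
      rw [h, mem_bot] at h1
      have h2 : orderOf x = 1 := orderOf_eq_one_iff.2 (Subtype.ext h1)
      rw [hx] at h2
      exact hp.one_lt.ne' h2
    set N1 : Subgroup A := Cfsg.pCore p A ⊓ centralizer (Cfsg.pCore p A : Set A) with hN1
    have hN1n : N1.Normal := inferInstance
    have hN1b : N1 ≠ ⊥ := center_ne_bot (H49.pCore_isPGroup p).isNilpotent hcore
    have hN1S : N1 ≤ S' := by
      rintro c ⟨hc1, hc2⟩
      apply mem_of_comm'' hS'sn hS'F hS'C hc1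
      intro f _ hf
      exact mem_centralizer_iff.1 hc2 f hf
    set D : Subgroup G := S ⊓ (Cfsg.pCore p A).map A.subtype with hD
    have hDp : IsPGroup p D := (H49.isPGroup_pCoreOf p A).to_le inf_le_right
    have hND : N1.map A.subtype ≤ D := by
      rintro _ ⟨x, hx, rfl⟩
      exact ⟨hN1S hx, mem_map_of_mem _ hx.1⟩
    have hCA : P ⊓ centralizer (D : Set G) ≤ A :=
      inf_le_right.trans ((centralizer_le hND).trans (cent_le A hA hN1n hN1b))
    have hSD : S ≤ normalizer (D : Set G) := by
      intro s hs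
      rw [mem_normalizer_iff]
      intro x
      have h1 := mem_normalizer_iff.1 (norm_core p A (hSA hs)) x
      have h2 : x ∈ S ↔ s * x * s⁻¹ ∈ S := by
        constructor
        · intro h; exact S.mul_mem (S.mul_mem hs h) (S.inv_mem hs)
        · intro h
          have := S.mul_mem (S.mul_mem (S.inv_mem hs) h) hs
          have e1 : s⁻¹ * (s * x * s⁻¹) * s = x := by group
          rwa [e1] at this
      rw [hD, mem_inf, mem_inf, h1, h2]
    have hSC' : S ≤ normalizer ((P ⊓ centralizer (D : Set G) : Subgroup G) : Set G) := by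
      intro s hs
      rw [mem_normalizer_iff]
      intro x
      have h1 := mem_normalizer_iff.1 (hSP hs) x
      have h2 : x ∈ centralizer (D : Set G) ↔ s * x * s⁻¹ ∈ centralizer (D : Set G) := by
        have h3 : s ∈ normalizer ((centralizer (D : Set G) : Subgroup G) : Set G) :=
          FStar.normalizer_le_normalizer_cent D (hSD hs)
        exact mem_normalizer_iff.1 h3 x
      rw [mem_inf, mem_inf, h1, h2]
    set W : Subgroup A := (P ⊓ centralizer (D : Set G)).subgroupOf A with hW
    have hWp : IsPGroup p W := hpg p _ (hPp.to_le inf_le_left)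
    have hWn : S' ≤ normalizer (W : Set A) := hnorm' _ hSC'
    have hWF : W ⊓ Cfsg.generalizedFittingSubgroup A ≤ Cfsg.pCore p A := by
      apply le_pCore_of_normalized (hWp.to_le inf_le_left) inf_le_right
      intro e he
      rw [mem_normalizer_iff]
      intro x
      have h2 := mem_normalizer_iff.1 (hWn (hE he)) x
      have h3 := mem_normalizer_iff.1 (show e ∈ normalizer ((Cfsg.generalizedFittingSubgroup A : Subgroup A) : Set A) by
        rw [normalizer_eq_top]; trivial) x
      rw [mem_inf, mem_inf, h2, h3]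
    -- `p'`-elements of `S` centralize `P`
    have hstar : ∀ t : G, t ∈ S → (orderOf t).Coprime p → t ∈ centralizer (P : Set G) := by
      intro t ht htp
      set t' : A := ⟨t, hSA ht⟩ with ht'
      have htS' : t' ∈ S' := ht
      have ht'F := hS'F htS'
      have ht'p : (orderOf t').Coprime p := by rw [Subgroup.orderOf_mk]; exact htp
      refine H49.thompson_AB hDp htp ?_ P hPp (inf_le_left.trans hSP) (hSP ht) ?_
      · rw [mem_centralizer_iff]
        rintro _ ⟨-, d, hd, rfl⟩
        exact (congrArg Subtype.val (res_comm_pCore ht'F ht'p hd)).symm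
      · rw [mem_centralizer_iff]
        intro c hc
        set c' : A := ⟨c, hCA hc⟩ with hc'
        have hc'W : c' ∈ W := hc
        set u : A := t' * c' * t'⁻¹ * c'⁻¹ with hu
        have huW : u ∈ W := W.mul_mem ((mem_normalizer_iff.1 (hWn htS') c').1 hc'W) (W.inv_mem hc'W)
        have huF : u ∈ Cfsg.generalizedFittingSubgroup A := by
          have h1 := mul_mem ht'F (hFn.conj_mem _ (inv_mem ht'F) c')
          have e1 : t' * (c' * t'⁻¹ * c'⁻¹) = u := by rw [hu]; group
          rwa [e1] at h1
        have huc := hWF ⟨huW, huF⟩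
        have hcomm : Commute t' u := res_comm_pCore ht'F ht'p huc
        have e1 : c' * t' * c'⁻¹ = u⁻¹ * t' := by rw [hu]; group
        obtain ⟨k, hk⟩ := (H49.pCore_isPGroup (G := A) p) ⟨u, huc⟩
        have hk' : u ^ p ^ k = 1 := congrArg Subtype.val hk
        have e2 : u ^ orderOf t' = 1 := by
          have h1 : (c' * t' * c'⁻¹) ^ orderOf t' = c' * t' ^ orderOf t' * c'⁻¹ := conj_pow
          rw [pow_orderOf_eq_one, mul_one, mul_inv_cancel, e1, (hcomm.symm.inv_left).mul_pow, pow_orderOf_eq_one,
            mul_one, inv_pow, inv_eq_one] at h1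
          exact h1
        have e3 : orderOf u = 1 :=
          Nat.eq_one_of_dvd_coprimes (ht'p.pow_right k) (orderOf_dvd_of_pow_eq_one e2) (orderOf_dvd_of_pow_eq_one hk')
        rw [orderOf_eq_one_iff] at e3
        rw [e3, inv_one, one_mul, mul_inv_eq_iff_eq_mul] at e1
        exact congrArg Subtype.val e1
    -- the layer
    have hEP : (Cfsg.layer A).map A.subtype ≤ centralizer (P : Set G) := by
      rw [map_le_iff_le_comap, layer_le_iff]
      intro L hL
      apply le_of_pResidual_eq_top (p := p) (pResidual_eq_top_of_component hL.2)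
      intro b hb hbp
      have hbp' : (orderOf ((b : A) : G)).Coprime p := by rw [Subgroup.orderOf_coe]; exact hbp
      exact hstar _ (hE ((component_le_layer hL) hb)) hbp'
    set K' : Subgroup A := Cfsg.fittingSubgroup A ⊓ Cfsg.pPrimeCore p A with hK'
    have hK'n : K'.Normal := inferInstance
    have hK'nil : Group.IsNilpotent K' := by
      have h0 := Solv.fitting_isNilpotent (G := A)
      exact Group.nilpotent_of_mulEquiv (subgroupOfEquivOfLe (inf_le_left : K' ≤ Cfsg.fittingSubgroup A))
    have hK'c : (Nat.card K').Coprime p :=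
      Nat.Coprime.coprime_dvd_left (card_dvd_of_le inf_le_right) (Solv.pPrimeCore_card_coprime p)
    have hSK' : ∀ f ∈ S', f ∈ K' → (f : G) ∈ centralizer (P : Set G) := by
      intro f hf hfK
      have hbp' : (orderOf ((f : A) : G)).Coprime p := by
        rw [Subgroup.orderOf_coe]
        exact Nat.Coprime.coprime_dvd_left (K'.orderOf_dvd_natCard hfK) hK'c
      exact hstar _ hf hbp'
    have hCK' : K' ⊓ centralizer ((S' ⊓ K' : Subgroup A) : Set A) ≤ S' ⊓ K' := by
      rintro c ⟨hc1, hc2⟩
      refine ⟨?_, hc1⟩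
      apply mem_of_comm' hS'sn hS'F hS'C hc1.1 hc1.2
      intro f hfS hfK hfp
      exact mem_centralizer_iff.1 hc2 f ⟨hfS, hfK, mem_pPrimeCore hfK hfp⟩
    have key : (Cfsg.layer A ≠ ⊥ ∨ K' ≠ ⊥) → P ≤ A := by
      rintro (h | h)
      · exact (le_centralizer_iff.1 hEP).trans (cent_le A hA inferInstance h)
      · have h1 := center_ne_bot hK'nil h
        refine le_trans ?_ (cent_le A hA (N := K' ⊓ centralizer (K' : Set A)) inferInstance h1)
        rw [le_centralizer_iff]
        rintro _ ⟨x, hx, rfl⟩
        apply hSK' x _ hx.1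
        refine (hCK' ⟨hx.1, ?_⟩).1
        exact centralizer_le inf_le_right hx.2
    intro x hx
    -- elements of order prime to `p`
    have hy : ∀ y : A, y ∈ Cfsg.generalizedFittingSubgroup A → (orderOf y).Coprime p → (y : G) ∈ centralizer (P : Set G) := by
      intro y hyF hyp
      by_cases hcase : Cfsg.layer A ≠ ⊥ ∨ K' ≠ ⊥
      · have hPA := key hcase
        set P' : Subgroup A := P.subgroupOf A with hP'
        have hP'p : IsPGroup p P' := hpg p _ hPp
        have h1 : P' ≤ centralizer (K' : Set A) := by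
          refine cent_of_nilp hK'nil hK'c hP'p (by rw [normalizer_eq_top]; exact le_top) _ (S' ⊓ K') le_rfl
            inf_le_right hCK' ?_
          rw [le_centralizer_iff]
          rintro f ⟨hf1, hf2⟩
          rw [mem_centralizer_iff]
          intro z hz
          exact Subtype.ext (mem_centralizer_iff.1 (hSK' f hf1 hf2) z hz)
        have h2 : y ∈ centralizer (P' : Set A) := by
          apply mem_of_res (p := p) _ _ hyF hyp
          · intro e he
            rw [mem_centralizer_iff]
            intro z hz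
            exact Subtype.ext (mem_centralizer_iff.1 (hEP (mem_map_of_mem _ he)) z hz)
          · intro f hf hfp
            exact le_centralizer_iff.1 h1 ⟨hf, mem_pPrimeCore hf hfp⟩
        rw [mem_centralizer_iff]
        intro z hz
        exact congrArg Subtype.val (mem_centralizer_iff.1 h2 ⟨z, hPA hz⟩ hz)
      · push Not at hcase
        have h1 : y ∈ (⊥ : Subgroup A) := by
          apply mem_of_res (p := p) _ _ hyF hyp
          · rw [hcase.1]
          · intro f hf hfp
            rw [← hcase.2]
            exact ⟨hf, mem_pPrimeCore hf hfp⟩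
        rw [mem_bot] at h1
        rw [h1]; exact one_mem _
    rintro y ⟨z, hz, rfl⟩
    have h1 : Cfsg.pResidual p ↥(Cfsg.generalizedFittingSubgroup ↥A) ≤
        ((centralizer (P : Set G)).comap A.subtype).comap (Cfsg.generalizedFittingSubgroup ↥A).subtype := by
      unfold Cfsg.pResidual
      rw [closure_le]
      intro g hg
      exact hy g g.2 (by rw [Subgroup.orderOf_coe]; exact hg)
    have h2 := h1 hz
    exact mem_centralizer_iff.1 h2 x hx

end Cfsg.Agent.S1247
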