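import Cfsg.Statements.S1248
import Cfsg.Agent.H21.TFApp

set_option autoImplicit false
open Cfsg

namespace Cfsg.Agent.S1248

open scoped commutatorElement in
theorem aux {S : Type*} [Group S] [Finite S] {α : MulAut S} (h : H21.TF.Conf (Subgroup.center S) α)
    (h64 : Nat.card S = 64) (hsq : ∀ w : S, w * w ∈ Subgroup.center S) :
    IsKleinFour (Subgroup.center S) ∧ Subgroup.center S = Subgroup.closure {x : S | orderOf x = 2} ∧
      Subgroup.center S = commutator S ∧ Nat.card (S ⧸ Subgroup.center S) = 16 ∧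
      ∀ x : S ⧸ Subgroup.center S, x ^ 2 = 1 := by
  have h4 := h.card
  obtain ⟨z, hz, hz1⟩ := h.exists_ne
  haveI := h.normal
  haveI : Nontrivial (Subgroup.center S) :=
    ⟨⟨z, hz⟩, 1, fun e => hz1 (congrArg Subtype.val e)⟩
  have hcm : ∀ x y : S, ⁅x, y⁆ ∈ Subgroup.center S :=
    fun x y => H21.TF.Conf.comm_of_sq (fun x y hx => by
      rw [← h.cen x hx, mul_inv_cancel_right]; exact hx) hsq x y
  refine ⟨⟨h4, ?_⟩, ?_, ?_, ?_, ?_⟩
  · -- exponent two
    rw [Monoid.exponent_eq_prime_iff Nat.prime_two]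
    rintro ⟨g, hg⟩ hg1
    rw [Subgroup.orderOf_mk]
    exact orderOf_eq_prime (by rw [pow_two]; exact h.sq hg) (fun e => hg1 (Subtype.ext e))
  · apply le_antisymm
    · intro x hx
      by_cases hx1 : x = 1
      · rw [hx1]; exact Subgroup.one_mem _
      · exact Subgroup.subset_closure (orderOf_eq_prime (by rw [pow_two]; exact h.sq hx) hx1)
    · rw [Subgroup.closure_le]
      intro x hx
      have hx : orderOf x = 2 := hx
      exact (h.mem x).2 (by rw [← pow_two, ← hx, pow_orderOf_eq_one])
  · apply le_antisymm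
    · obtain ⟨x, y, hx, hyx, hxy⟩ := h.exists_std h64 hsq
      have hz := hsq x
      have hz1 : x * x ≠ 1 := fun e => hx ((h.mem x).2 e)
      have hc1 : ⁅x, y⁆ ≠ 1 := by
        rw [hxy]; intro e; exact hz1 ((MulEquiv.map_eq_one_iff α).1 e)
      have hmem : ∀ a b : S, ⁅a, b⁆ ∈ commutator S :=
        fun a b => Subgroup.commutator_mem_commutator (Subgroup.mem_top _) (Subgroup.mem_top _)
      intro w hw
      rcases h.cyc.2 _ (hcm x y) hc1 w hw with e | e | e | e
      · rw [e]; exact Subgroup.one_mem _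
      · rw [e]; exact hmem _ _
      · rw [e, map_commutatorElement]; exact hmem _ _
      · rw [e, map_commutatorElement, map_commutatorElement]; exact hmem _ _
    · rw [commutator_def, Subgroup.commutator_le]
      intro a _ b _
      exact hcm a b
  · have h1 := Subgroup.card_eq_card_quotient_mul_card_subgroup (Subgroup.center S)
    rw [h4, h64] at h1
    omega
  · intro x
    obtain ⟨x, rfl⟩ := QuotientGroup.mk_surjective x
    rw [pow_two, ← QuotientGroup.mk_mul, QuotientGroup.eq_one_iff]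
    exact hsq x

/-- Let F be a field with 16 elements and S a Sylow 2-subgroup of PSU(3) over F (the unitary group U₃(4)). Then |S| = 64; the centre Z(S) is a Klein four-group and coincides with the subgroup generated by the involutions of S and with the derived subgroup; and every element of S ⧸ Z(S) squares to the identity, S ⧸ Z(S) having order 16. -/
theorem result {F : Type*} [Field F] [Fintype F] (hF : Fintype.card F = 16) (S : Sylow 2 (Cfsg.PSU 3 F 4)) : Nat.card S = 64 ∧ IsKleinFour (Subgroup.center (S : Subgroup (Cfsg.PSU 3 F 4))) ∧ Subgroup.center (S : Subgroup (Cfsg.PSU 3 F 4)) = Subgroup.closure {x : (S : Subgroup (Cfsg.PSU 3 F 4)) | orderOf x = 2} ∧ Subgroup.center (S : Subgroup (Cfsg.PSU 3 F 4)) = commutator (S : Subgroup (Cfsg.PSU 3 F 4)) ∧ Nat.card ((S : Subgroup (Cfsg.PSU 3 F 4)) ⧸ Subgroup.center (S : Subgroup (Cfsg.PSU 3 F 4))) = 16 ∧ ∀ x : (S : Subgroup (Cfsg.PSU 3 F 4)) ⧸ Subgroup.center (S : Subgroup (Cfsg.PSU 3 F 4)), x ^ 2 = 1 := by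
  obtain ⟨Z, α, h, h64, hsq, hZ⟩ := H21.TF.psu_conf hF S
  subst hZ
  exact ⟨h64, aux h h64 hsq⟩

end Cfsg.Agent.S1248
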