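import Cfsg.Statements.S1253
import Cfsg.Agent.H69.ZStar

set_option autoImplicit false
set_option linter.style.haveILetI false
open Cfsg

namespace Cfsg.Agent.S1253

open Subgroup Cfsg.Agent.H69 Pointwise

/-- fixed points of an invariant Sylow subgroup are Sylow in the fixed points -/
theorem fix_sylow {G : Type*} [Group G] [Finite G] {p : ℕ} [Fact p.Prime] {A K : Subgroup G}
    (hAK : A ≤ normalizer (K : Set G)) (hcop : (Nat.card A).Coprime (Nat.card K))
    (hsolv : Group.IsSolvable A ∨ Group.IsSolvable K) (P : Sylow p K)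
    (hP : A ≤ normalizer ((P : Subgroup K).map K.subtype : Set G)) :
    ¬ p ∣ ((P : Subgroup K).map K.subtype ⊓ centralizer (A : Set G)).relIndex
      (K ⊓ centralizer (A : Set G)) := by
  set CK := K ⊓ centralizer (A : Set G) with hCK
  set S := (P : Subgroup K).map K.subtype with hS
  have hSK : S ≤ K := map_subtype_le _
  have hle : S ⊓ centralizer (A : Set G) ≤ CK := inf_le_inf_right _ hSK
  obtain ⟨T, hT⟩ : ∃ T : Sylow p CK, (S ⊓ centralizer (A : Set G)).subgroupOf CK ≤ (T : Subgroup CK) := by
    have h1 : IsPGroup p ((S ⊓ centralizer (A : Set G)).subgroupOf CK) :=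
      ((P.2.map K.subtype).to_le inf_le_left).comap_of_injective CK.subtype CK.subtype_injective
    exact h1.exists_le_sylow
  have hTA : A ≤ normalizer (((T : Subgroup CK).map CK.subtype : Subgroup G) : Set G) := by
    intro a ha
    rw [mem_normalizer_iff]
    have hc : ∀ x ∈ (T : Subgroup CK).map CK.subtype, a * x * a⁻¹ = x := by
      intro x hx
      have h1 : x ∈ CK := map_subtype_le _ hx
      have h2 := mem_centralizer_iff.mp h1.2 a ha
      rw [h2, mul_inv_cancel_right]
    intro x
    constructor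
    · intro hx; rw [hc x hx]; exact hx
    · intro hx
      have h1 := hc _ hx
      have h2 : a * x * a⁻¹ = x := by
        have e : a * x * a⁻¹ = a⁻¹ * (a * (a * x * a⁻¹) * a⁻¹) * a := by group
        rw [e, h1]; group
      rw [← h2]; exact hx
  have hTK : (T : Subgroup CK).map CK.subtype ≤ K := (map_subtype_le _).trans inf_le_left
  obtain ⟨P', hTP', hAP'⟩ := Cop.exists_invariant_sylow_ge hAK hcop hsolv p hTK (T.2.map _) hTA
  obtain ⟨c, hcA, hc⟩ := Cop.exists_centralizer_conj_sylow hAK hcop hsolv p P' P hAP' hP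
  -- T^c ≤ S ⊓ C(A)
  have hTc : Nat.card (T : Subgroup CK) ∣ Nat.card (S ⊓ centralizer (A : Set G) : Subgroup G) := by
    have h1 : ((T : Subgroup CK).map CK.subtype).map (MulAut.conj (c : G)).toMonoidHom ≤
        S ⊓ centralizer (A : Set G) := by
      rintro _ ⟨x, hx, rfl⟩
      refine mem_inf.mpr ⟨?_, ?_⟩
      · obtain ⟨y, hy, hyx⟩ := hTP' hx
        refine ⟨c * y * c⁻¹, ?_, ?_⟩
        · show c * y * c⁻¹ ∈ (P : Subgroup K)
          rw [← hc]
          exact ⟨y, hy, rfl⟩
        · simp only [subtype_apply, coe_mul, coe_inv] at hyx ⊢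
          rw [hyx]; rfl
      · have h2 : x ∈ CK := map_subtype_le _ hx
        exact mul_mem (mul_mem hcA h2.2) (inv_mem hcA)
    have h3 := card_dvd_of_le h1
    rwa [Subgroup.card_map_of_injective (MulAut.conj (c : G)).injective,
      Cop.card_map_subtype] at h3
  -- conclusion
  intro hdvd
  have h4 : Nat.card (S ⊓ centralizer (A : Set G) : Subgroup G) *
      (S ⊓ centralizer (A : Set G)).relIndex CK = Nat.card CK := by
    have := ((S ⊓ centralizer (A : Set G)).subgroupOf CK).card_mul_index
    rwa [Nat.card_congr (subgroupOfEquivOfLe hle).toEquiv] at this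
  have h5 := (T : Subgroup CK).card_mul_index
  obtain ⟨d, hd⟩ := hTc
  have h6 : (T : Subgroup CK).index = d * (S ⊓ centralizer (A : Set G)).relIndex CK := by
    have h7 : Nat.card (T : Subgroup CK) * (T : Subgroup CK).index =
        Nat.card (T : Subgroup CK) * (d * (S ⊓ centralizer (A : Set G)).relIndex CK) := by
      rw [h5, ← h4, hd]; ring
    exact Nat.eq_of_mul_eq_mul_left Nat.card_pos h7
  apply T.not_dvd_index
  rw [h6]; exact hdvd.mul_left d

/-- Let z be an isolated involution of the finite group G with centralizer C, p an odd prime and P a Sylow p-subgroup of G normalized by z. Then P ∩ C has p-power-free index in C (it is a Sylow p-subgroup of C), and |P : C_P(z)| equals the number of elements x ∈ P with z x z⁻¹ = x⁻¹. -/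
theorem result {G : Type*} [Group G] [Finite G] (z : G) (hz : Cfsg.IsIsolatedInvolution z) {p : ℕ} [Fact p.Prime] (hp : p ≠ 2) (P : Sylow p G) (hzP : z ∈ Subgroup.normalizer ((P : Subgroup G) : Set G)) : ¬ p ∣ ((P : Subgroup G) ⊓ Subgroup.centralizer ({z} : Set G)).relIndex (Subgroup.centralizer ({z} : Set G)) ∧ ((P : Subgroup G) ⊓ Subgroup.centralizer ({z} : Set G)).relIndex (P : Subgroup G) = Nat.card {x : G // x ∈ P ∧ z * x * z⁻¹ = x⁻¹} := by
  have hpp : p.Prime := Fact.out
  have hz2 : z * z = 1 := by rw [← pow_two, ← hz.1, pow_orderOf_eq_one]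
  have hzinv : z⁻¹ = z := inv_eq_of_mul_eq_one_left hz2
  set C := centralizer ({z} : Set G) with hC
  have hCA : centralizer ((zpowers z : Subgroup G) : Set G) = C := by
    apply le_antisymm
    · exact centralizer_le (by intro w hw; rw [Set.mem_singleton_iff] at hw; rw [hw]; exact mem_zpowers z)
    · intro x hx
      rw [mem_centralizer_iff]
      intro a ha
      obtain ⟨m, rfl⟩ := mem_zpowers_iff.mp ha
      exact ((show Commute z x from mem_cent_singleton.mp hx).zpow_left m).eq
  constructor
  · obtain ⟨N, hNn, hNodd, hN⟩ := isolated_zstar hz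
    set H : Subgroup G := (P : Subgroup G) ⊔ N with hH
    have hPH : (P : Subgroup G) ≤ H := le_sup_left
    have hNH : N ≤ H := le_sup_right
    have hA : zpowers z ≤ normalizer (H : Set G) := by
      rw [zpowers_le, mem_normalizer_iff]
      have key : ∀ x : G, z * x * z⁻¹ * x⁻¹ ∈ H := fun x => hNH (hN x)
      intro x
      constructor
      · intro hx
        have := mul_mem (key x) hx
        rwa [inv_mul_cancel_right] at this
      · intro hx
        have := mul_mem (inv_mem (key x)) hx
        have e : (z * x * z⁻¹ * x⁻¹)⁻¹ * (z * x * z⁻¹) = x := by group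
        rwa [e] at this
    set π := QuotientGroup.mk' N with hπ
    have hπs : Function.Surjective π := QuotientGroup.mk'_surjective N
    have hHc : H = ((P : Subgroup G).map π).comap π := by
      rw [comap_map_eq, hπ, QuotientGroup.ker_mk']
    have hHcard : Odd (Nat.card H) := by
      have h1 : Nat.card N * N.relIndex H = Nat.card H := by
        have := (N.subgroupOf H).card_mul_index
        rwa [Nat.card_congr (subgroupOfEquivOfLe hNH).toEquiv] at this
      have h2 : N.relIndex H ∣ Nat.card (P : Subgroup G) := by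
        rw [hH, relIndex_sup_right]; exact relIndex_dvd_card _ _
      obtain ⟨m, hm⟩ := IsPGroup.iff_card.mp P.2
      rw [hm] at h2
      rw [← h1]
      exact hNodd.mul (((hpp.odd_of_ne_two hp).pow).of_dvd_nat h2)
    have hcop : (Nat.card (zpowers z)).Coprime (Nat.card H) := by
      rw [Nat.card_zpowers, hz.1]; exact Nat.coprime_two_left.mpr hHcard
    have hPmap : ((P.subtype hPH : Sylow p H) : Subgroup H).map H.subtype = P := by
      rw [Sylow.coe_subtype, map_subgroupOf_eq_of_le hPH]
    have h3 := fix_sylow hA hcop (Or.inl inferInstance) (P.subtype hPH)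
      (by rw [hPmap]; exact zpowers_le.mpr hzP)
    rw [hPmap, hCA] at h3
    intro hd
    have h4 : ((P : Subgroup G) ⊓ C).relIndex (H ⊓ C) * (H ⊓ C).relIndex C =
        ((P : Subgroup G) ⊓ C).relIndex C :=
      relIndex_mul_relIndex _ _ _ (inf_le_inf_right _ hPH) inf_le_right
    rw [← h4] at hd
    rcases hpp.dvd_mul.mp hd with hd | hd
    · exact h3 hd
    · rw [inf_relIndex_right, hHc, relIndex_comap] at hd
      have h5 : C.map π = ⊤ := by
        rw [eq_top_iff]
        intro y _
        obtain ⟨g, rfl⟩ := hπs y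
        obtain ⟨m, hm, hmg⟩ := frattini_involution hz.1 hNodd hN g
        refine ⟨m⁻¹ * g, hmg, ?_⟩
        rw [map_mul, map_inv]
        have : π m = 1 := by rw [hπ, QuotientGroup.mk'_apply]; exact (QuotientGroup.eq_one_iff m).mpr hm
        rw [this, inv_one, one_mul]
      rw [h5, relIndex_top_right] at hd
      have h6 : ((P.mapSurjective hπs : Sylow p (G ⧸ N)) : Subgroup (G ⧸ N)) = (P : Subgroup G).map π := rfl
      rw [← h6] at hd
      exact (P.mapSurjective hπs).not_dvd_index hd
  · rw [inf_comm, inf_relIndex_right]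
    have hzconj : ∀ x ∈ (P : Subgroup G), z * x * z⁻¹ ∈ (P : Subgroup G) := fun x hx =>
      (mem_normalizer_iff.mp hzP x).mp hx
    refine Nat.card_congr (Equiv.ofBijective
      (fun q : (P : Subgroup G) ⧸ C.subgroupOf (P : Subgroup G) => Quotient.liftOn' q
        (fun x => (⟨(x : G) * (z * (x : G)⁻¹ * z⁻¹), ?_, ?_⟩ : {x : G // x ∈ P ∧ z * x * z⁻¹ = x⁻¹})) ?_) ⟨?_, ?_⟩)
    · exact mul_mem x.2 (hzconj _ (inv_mem x.2))
    · rw [hzinv, mul_inv_rev, mul_inv_rev, mul_inv_rev, hzinv, inv_inv]
      calc z * ((x : G) * (z * (x : G)⁻¹ * z)) * z = z * x * z * (x : G)⁻¹ * (z * z) := by group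
        _ = _ := by rw [hz2]; group
    · intro x y hxy
      rw [QuotientGroup.leftRel_apply, mem_subgroupOf, hC, mem_cent_singleton] at hxy
      apply Subtype.ext
      show (x : G) * (z * (x : G)⁻¹ * z⁻¹) = (y : G) * (z * (y : G)⁻¹ * z⁻¹)
      have h : z * ((x : G)⁻¹ * y) = (x : G)⁻¹ * y * z := hxy
      calc (x : G) * (z * (x : G)⁻¹ * z⁻¹) = x * (z * ((x : G)⁻¹ * y)) * (y : G)⁻¹ * z⁻¹ := by group
        _ = _ := by rw [h]; group
    · intro a b
      refine Quotient.inductionOn₂' a b fun x y hxy => ?_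
      have h : (x : G) * (z * (x : G)⁻¹ * z⁻¹) = (y : G) * (z * (y : G)⁻¹ * z⁻¹) :=
        congrArg Subtype.val hxy
      apply Quotient.sound'
      rw [QuotientGroup.leftRel_apply, mem_subgroupOf, hC, mem_cent_singleton]
      show z * ((x : G)⁻¹ * y) = (x : G)⁻¹ * y * z
      have h2 : (x : G) * z * (x : G)⁻¹ = y * z * (y : G)⁻¹ := by
        have h3 := congrArg (· * z) h
        simpa [mul_assoc] using h3
      calc z * ((x : G)⁻¹ * y) = (x : G)⁻¹ * (x * z * (x : G)⁻¹) * y := by group
        _ = (x : G)⁻¹ * y * z := by rw [h2]; group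
    · rintro ⟨y, hyP, hy⟩
      obtain ⟨k, hk⟩ := orderOf_of_mem_isPGroup P.2 hyP
      have hodd : Odd (orderOf y) := by rw [hk]; exact (hpp.odd_of_ne_two hp).pow
      obtain ⟨m, hm⟩ := hodd
      have hyw : y ^ (m + 1) * y ^ (m + 1) = y := by
        rw [← pow_add]
        have : m + 1 + (m + 1) = orderOf y + 1 := by omega
        rw [this, pow_succ, pow_orderOf_eq_one, one_mul]
      refine ⟨Quotient.mk'' ⟨y ^ (m + 1), pow_mem hyP _⟩, ?_⟩
      apply Subtype.ext
      show y ^ (m + 1) * (z * (y ^ (m + 1))⁻¹ * z⁻¹) = y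
      have h1 : z * (y ^ (m + 1))⁻¹ * z⁻¹ = y ^ (m + 1) := by
        have h2 : z * y ^ (m + 1) * z⁻¹ = (y ^ (m + 1))⁻¹ := by
          rw [← conj_pow, hy, inv_pow]
        calc z * (y ^ (m + 1))⁻¹ * z⁻¹ = (z * y ^ (m + 1) * z⁻¹)⁻¹ := by group
          _ = y ^ (m + 1) := by rw [h2, inv_inv]
      rw [h1, hyw]

end Cfsg.Agent.S1253
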