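import Cfsg.Statements.S1255
import Cfsg.Agent.DihSyl.Basic

set_option autoImplicit false
open Cfsg

namespace Cfsg.Agent.S1255

/-- Let X be a finite group whose Sylow 2-subgroup S is dihedral of order 2m ≥ 4. Then X has no subgroup of index 2 and no isolated involution if and only if either all involutions of X are conjugate, or for every Klein four-subgroup U ≤ S the index |N_X(U) : C_X(U)| equals 3 when |S| = 4 and equals 6 when |S| > 4. -/
theorem result {X : Type*} [Group X] [Finite X] (S : Sylow 2 X) (m : ℕ) (hm : 2 ≤ m) (eS : (S : Subgroup X) ≃* DihedralGroup m) : ((∀ H : Subgroup X, H.index ≠ 2) ∧ (∀ z : X, ¬ Cfsg.IsIsolatedInvolution z)) ↔ ((∀ a b : X, orderOf a = 2 → orderOf b = 2 → IsConj a b) ∨ (∀ U : Subgroup X, U ≤ S → IsKleinFour U → (Subgroup.centralizer (U : Set X)).relIndex (Subgroup.normalizer (U : Set X)) = (if Nat.card S = 4 then 3 else 6))) := by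
  obtain ⟨r, s, h⟩ := DihSyl.exists_dihData S.isPGroup' hm eS
  constructor
  · rintro ⟨hX, -⟩
    exact Or.inl fun a b ha hb => DihSyl.isConj_of_no_index_two h hX ha hb
  · intro hor
    have hc : ∀ a b : X, orderOf a = 2 → orderOf b = 2 → IsConj a b := by
      rcases hor with hc | hU
      · exact hc
      · obtain ⟨z, hzC, hz2, hzu, hzc⟩ := h.exists_z
        have hz1 : z ≠ 1 := H4.ne_one_of_orderOf_two hz2
        have key : ∀ t : X, orderOf t = 2 → IsConj t z := by
          intro t ht
          obtain ⟨g, hg⟩ := H4.exists_conj_mem_sylow S (x := t) (k := 1) (by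
            rw [pow_one, ← ht, pow_orderOf_eq_one])
          have htg : orderOf (g * t * g⁻¹) = 2 := by rw [H4.orderOf_conj', ht]
          refine (isConj_iff.2 ⟨g, rfl⟩ : IsConj t (g * t * g⁻¹)).trans ?_
          by_cases hC : g * t * g⁻¹ ∈ Subgroup.zpowers r
          · rcases hzu _ hC (H4.mul_self_of_orderOf_two htg) with h1 | h1
            · rw [h1, orderOf_one] at htg; omega
            · rw [h1]
          · generalize g * t * g⁻¹ = u at hg htg hC ⊢
            have hu1 : u ≠ 1 := H4.ne_one_of_orderOf_two htg
            have huz : z ≠ u := by rintro rfl; exact hC hzC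
            have hzz := H4.mul_self_of_orderOf_two hz2
            have huu := H4.mul_self_of_orderOf_two htg
            have hK := FourGraph.isKleinFour_fourSubgroup (ha := hzz) (hb := huu)
              (hab := (hzc u hg).symm) hz1 hu1 huz
            have hle : FourGraph.fourSubgroup z u hzz huu (hzc u hg).symm ≤ (S : Subgroup X) := by
              intro x hx
              rcases FourGraph.mem_fourSubgroup.1 hx with rfl | rfl | rfl | rfl
              · exact Subgroup.one_mem _
              · exact h.C_le hzC
              · exact hg
              · exact Subgroup.mul_mem _ (h.C_le hzC) hg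
            have h3 := hU _ hle hK
            refine DihSyl.isConj_of_three_dvd hK ?_ (FourGraph.mem_fourSubgroup.2 (by tauto)) hu1
              (FourGraph.mem_fourSubgroup.2 (by tauto)) hz1
            rw [h3]
            split_ifs <;> norm_num
        intro a b ha hb
        exact (key a ha).trans (key b hb).symm
    exact ⟨DihSyl.no_index_two_of_isConj h hc, DihSyl.not_isolated_of_isConj h hc⟩

end Cfsg.Agent.S1255
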