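import Cfsg.Statements.S1256
import Cfsg.Agent.DihSyl.Fusion

set_option autoImplicit false
open Cfsg

namespace Cfsg.Agent.S1256

/-- Let X be a finite group whose Sylow 2-subgroup S is dihedral of order 2m ≥ 4. If |S| = 4, any two Klein four-subgroups of X are conjugate; if |S| > 4, there are Klein four-subgroups U₁, U₂ of X that are not conjugate, and every Klein four-subgroup of X is conjugate to U₁ or to U₂. -/
theorem result {X : Type*} [Group X] [Finite X] (S : Sylow 2 X) (m : ℕ) (hm : 2 ≤ m) (eS : (S : Subgroup X) ≃* DihedralGroup m) : (Nat.card S = 4 → ∀ U V : Subgroup X, IsKleinFour U → IsKleinFour V → (∃ x : X, U.map (MulAut.conj x).toMonoidHom = V)) ∧ (4 < Nat.card S → ∃ U₁ U₂ : Subgroup X, IsKleinFour U₁ ∧ IsKleinFour U₂ ∧ ¬ (∃ x : X, U₁.map (MulAut.conj x).toMonoidHom = U₂) ∧ ∀ V : Subgroup X, IsKleinFour V → (∃ x : X, V.map (MulAut.conj x).toMonoidHom = U₁) ∨ (∃ x : X, V.map (MulAut.conj x).toMonoidHom = U₂)) := by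
  obtain ⟨r, s, h⟩ := DihSyl.exists_dihData S.isPGroup' hm eS
  constructor
  · intro h4 U V hU hV
    have key : ∀ W : Subgroup X, IsKleinFour W → ∃ P : Sylow 2 X, (P : Subgroup X) = W := by
      intro W hW
      have hWp : IsPGroup 2 W := IsPGroup.of_card (n := 2) hW.card_four
      obtain ⟨P, hP⟩ := hWp.exists_le_sylow
      refine ⟨P, (Subgroup.eq_of_le_of_card_ge hP ?_).symm⟩
      have h5 : Nat.card (P : Subgroup X) = Nat.card (S : Subgroup X) := by
        rw [P.card_eq_multiplicity, S.card_eq_multiplicity]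
      rw [h5]
      exact (h4.trans hW.card_four.symm).le
    obtain ⟨P, rfl⟩ := key U hU
    obtain ⟨Q, rfl⟩ := key V hV
    obtain ⟨x, hx⟩ := MulAction.exists_smul_eq X P Q
    refine ⟨x, ?_⟩
    rw [← hx]
    rfl
  · intro h4
    have hcardS : Nat.card S = 2 * m := by
      have := Nat.card_congr eS.toEquiv
      rw [DihedralGroup.nat_card] at this
      exact this
    have hm4 : 2 < m := by omega
    obtain ⟨z, hzC, hz2, hzu, hzc⟩ := h.exists_z
    have hz1 : z ≠ 1 := H4.ne_one_of_orderOf_two hz2
    have hzz := H4.mul_self_of_orderOf_two hz2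
    -- `z` is a power of `r ^ 2`
    have hzr2 : z ∈ Subgroup.zpowers (r ^ 2) := by
      obtain ⟨k, hk⟩ := h.exists_pow
      rcases k with _ | k
      · rw [zero_add, pow_one] at hk; omega
      have h1 : (r ^ 2) ^ (2 ^ k) ∈ Subgroup.zpowers (r ^ 2) :=
        Subgroup.pow_mem _ (Subgroup.mem_zpowers _) _
      have h2 : (r ^ 2) ^ (2 ^ k) * (r ^ 2) ^ (2 ^ k) = 1 := by
        rw [← pow_mul, ← pow_add]
        have : 2 * 2 ^ k + 2 * 2 ^ k = m := by rw [hk, pow_succ, pow_succ]; ring
        rw [this, ← h.orderOf_r, pow_orderOf_eq_one]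
      rcases hzu _ (DihSyl.zpowers_sq_le r h1) h2 with h3 | h3
      · exfalso
        rw [← pow_mul] at h3
        have h4 := orderOf_dvd_of_pow_eq_one h3
        rw [h.orderOf_r, hk] at h4
        have h5 := Nat.le_of_dvd (by positivity) h4
        rw [pow_succ, pow_succ] at h5
        have : 0 < 2 ^ k := by positivity
        omega
      · rw [← h3]; exact h1
    have hfour : ∀ u ∈ (S : Subgroup X), u ∉ Subgroup.zpowers r → z ≠ u := by
      rintro u _ huC rfl
      exact huC hzC
    have hs1 : s ≠ 1 := h.ne_one h.s_notMem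
    have hsrS : s * r ∈ (S : Subgroup X) := mul_mem h.s_mem h.r_mem
    have hsrC : s * r ∉ Subgroup.zpowers r := h.mul_notMem (Subgroup.mem_zpowers r)
    have hsr1 := h.ne_one hsrC
    have hsrsq := h.sq_eq_one hsrS hsrC
    have hK1 := FourGraph.isKleinFour_fourSubgroup (ha := hzz) (hb := h.s_sq)
      (hab := (hzc s h.s_mem).symm) hz1 hs1 (hfour s h.s_mem h.s_notMem)
    have hK2 := FourGraph.isKleinFour_fourSubgroup (ha := hzz) (hb := hsrsq)
      (hab := (hzc _ hsrS).symm) hz1 hsr1 (hfour _ hsrS hsrC)
    refine ⟨_, _, hK1, hK2, ?_, ?_⟩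
    · rintro ⟨x, hx⟩
      set U₁ := FourGraph.fourSubgroup z s hzz h.s_sq (hzc s h.s_mem).symm with hU₁
      set U₂ := FourGraph.fourSubgroup z (s * r) hzz hsrsq (hzc _ hsrS).symm with hU₂
      have hU₁S : (U₁ : Set X) ⊆ (S : Set X) := by
        intro y hy
        rcases FourGraph.mem_fourSubgroup.1 hy with rfl | rfl | rfl | rfl
        · exact Subgroup.one_mem (S : Subgroup X)
        · exact h.C_le hzC
        · exact h.s_mem
        · exact Subgroup.mul_mem _ (h.C_le hzC) h.s_mem
      have hU₂S : (U₂ : Set X) ⊆ (S : Set X) := by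
        intro y hy
        rcases FourGraph.mem_fourSubgroup.1 hy with rfl | rfl | rfl | rfl
        · exact Subgroup.one_mem (S : Subgroup X)
        · exact h.C_le hzC
        · exact hsrS
        · exact Subgroup.mul_mem _ (h.C_le hzC) hsrS
      have hcimg : Alperin.cimg x⁻¹ (U₁ : Set X) = (U₂ : Set X) := by
        rw [← hx]
        ext b
        rw [Alperin.mem_cimg, SetLike.mem_coe, SetLike.mem_coe, H21.mem_map_conj, inv_inv]
      have hch := Alperin.alperin_chain S (U₁ : Set X) x⁻¹ hU₁S (by rw [hcimg]; exact hU₂S)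
      have hT : DihSyl.EvenType r s (U₁ : Set X) := by
        intro y hy hyC
        rcases FourGraph.mem_fourSubgroup.1 hy with rfl | rfl | rfl | rfl
        · exact absurd (one_mem _) hyC
        · exact absurd hzC hyC
        · rw [h.s_sq]; exact one_mem _
        · have h1 := hzc s h.s_mem
          rw [← h1, ← mul_assoc, h.s_sq, one_mul]
          exact hzr2
      have h1 := DihSyl.evenType_chain h hch hU₁S ⟨U₁, hK1, rfl⟩ hT
      rw [hcimg] at h1
      have h2 := h1 (s * r) (FourGraph.mem_fourSubgroup.2 (by tauto)) hsrC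
      rw [← mul_assoc, h.s_sq, one_mul, mem_zpowers_pow_iff, h.orderOf_r] at h2
      obtain ⟨k, hk⟩ := h.exists_pow
      rw [hk, pow_succ', Nat.gcd_mul_right_right] at h2
      omega
    · intro V hV
      -- conjugate `V` into `S`
      have hVp : IsPGroup 2 V := IsPGroup.of_card (n := 2) hV.card_four
      obtain ⟨g, -, hg⟩ := H21.exists_conj_mem_sylow S ⊤ le_top V hVp le_top
      set W := V.map (MulAut.conj g).toMonoidHom with hW
      have hWS : W ≤ (S : Subgroup X) := by
        rintro _ ⟨v, hv, rfl⟩
        exact hg v hv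
      have hcardW : Nat.card W = 4 := by rw [hW, H21.map_conj_card]; exact hV.card_four
      have hsqW : ∀ w ∈ W, w * w = 1 := by
        rintro _ ⟨v, hv, rfl⟩
        have h1 : (⟨v, hv⟩ : V) * ⟨v, hv⟩ = 1 := IsKleinFour.mul_self _
        have h2 : v * v = 1 := congrArg Subtype.val h1
        rw [← map_mul, h2, map_one]
      -- an element outside the rotations
      obtain ⟨x, hxW, hxC⟩ : ∃ x ∈ W, x ∉ Subgroup.zpowers r := by
        by_contra hcon
        push Not at hcon
        have h1 : (W : Set X) ⊆ {1, z} := by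
          intro w hw
          exact hzu w (hcon w hw) (hsqW w hw)
        have h2 := Nat.card_mono (Set.toFinite {1, z}) h1
        have h3 : Nat.card ({1, z} : Set X) ≤ 2 := by
          rw [Nat.card_coe_set_eq]
          exact (Set.ncard_insert_le _ _).trans (by rw [Set.ncard_singleton])
        have h4 : Nat.card ((W : Set X) : Type _) = 4 := hcardW
        omega
      have hzW : z ∈ W := by
        by_contra hzW
        have h1 : (W : Set X) ⊆ {1, x} := by
          intro w hw
          have hcase : ∀ y ∈ W, y ∈ Subgroup.zpowers r → y = 1 := by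
            intro y hy hyC
            rcases hzu y hyC (hsqW y hy) with h2 | h2
            · exact h2
            · rw [h2] at hy; exact absurd hy hzW
          by_cases hwC : w ∈ Subgroup.zpowers r
          · exact Or.inl (hcase w hw hwC)
          · right
            have h2 := hcase _ (mul_mem hw hxW) (h.mul_mem_C (hWS hw) hwC (hWS hxW) hxC)
            rw [mul_eq_one_iff_eq_inv, inv_eq_of_mul_eq_one_left (hsqW x hxW)] at h2
            exact h2
        have h2 := Nat.card_mono (Set.toFinite {1, x}) h1
        have h3 : Nat.card ({1, x} : Set X) ≤ 2 := by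
          rw [Nat.card_coe_set_eq]
          exact (Set.ncard_insert_le _ _).trans (by rw [Set.ncard_singleton])
        have h4 : Nat.card ((W : Set X) : Type _) = 4 := hcardW
        omega
      obtain ⟨c, hc, hxc⟩ := h.exists_eq (hWS hxW) hxC
      rw [Subgroup.mem_zpowers_iff] at hc
      obtain ⟨i, hi⟩ := hc
      -- conjugation by powers of `r`
      have hconj : ∀ j : ℤ, r ^ j * x * (r ^ j)⁻¹ = s * r ^ (i - 2 * j) := by
        intro j
        have h1 := h.conj_zpow (Subgroup.zpow_mem _ (Subgroup.mem_zpowers r) j)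
        rw [h.s_inv] at h1
        have h2 : r ^ j * s = s * (r ^ j)⁻¹ := by
          rw [← h1]
          simp only [← mul_assoc, h.s_sq, one_mul]
        rw [hxc, ← hi, ← mul_assoc, h2, ← zpow_neg, mul_assoc, mul_assoc, ← zpow_add, ← zpow_add]
        congr 2
        ring
      have hzconj : ∀ j : ℤ, r ^ j * z * (r ^ j)⁻¹ = z := by
        intro j
        rw [hzc _ (Subgroup.zpow_mem _ h.r_mem j), mul_inv_cancel_right]
      have fin : ∀ (j : ℤ) (U : Subgroup X), IsKleinFour U → (∀ y ∈ U, y = 1 ∨ y = z ∨
          y = r ^ j * x * (r ^ j)⁻¹ ∨ y = z * (r ^ j * x * (r ^ j)⁻¹)) →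
          V.map (MulAut.conj (r ^ j * g)).toMonoidHom = U := by
        intro j U hU hUall
        rw [H21.map_conj_mul, ← hW]
        symm
        apply Subgroup.eq_of_le_of_card_ge
        · intro y hy
          have e1 : z ∈ W.map (MulAut.conj (r ^ j)).toMonoidHom := by
            rw [H21.mem_map_conj]
            have := hzconj (-j)
            rw [zpow_neg, inv_inv] at this
            rw [this]; exact hzW
          have e2 : r ^ j * x * (r ^ j)⁻¹ ∈ W.map (MulAut.conj (r ^ j)).toMonoidHom :=
            ⟨x, hxW, rfl⟩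
          rcases hUall y hy with rfl | rfl | rfl | rfl
          · exact one_mem _
          · exact e1
          · exact e2
          · exact mul_mem e1 e2
        · rw [H21.map_conj_card, hcardW]
          exact hU.card_four.ge
      rcases Int.even_or_odd' i with ⟨j, hj | hj⟩
      · left
        refine ⟨r ^ j * g, fin j _ hK1 ?_⟩
        have h1 : r ^ j * x * (r ^ j)⁻¹ = s := by
          rw [hconj, hj, sub_self, zpow_zero, mul_one]
        intro y hy
        rw [h1]
        exact FourGraph.mem_fourSubgroup.1 hy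
      · right
        refine ⟨r ^ j * g, fin j _ hK2 ?_⟩
        have h1 : r ^ j * x * (r ^ j)⁻¹ = s * r := by
          rw [hconj, hj]
          have : 2 * j + 1 - 2 * j = 1 := by ring
          rw [this, zpow_one]
        intro y hy
        rw [h1]
        exact FourGraph.mem_fourSubgroup.1 hy

end Cfsg.Agent.S1256
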