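import Cfsg.Statements.S1258
import Cfsg.Agent.FStar.Basic

set_option autoImplicit false
open Cfsg
open scoped commutatorElement

namespace Cfsg.Agent.S1258

/-- If the central quotient of a finite group X is non-abelian simple, then X = X' Z(X) and the commutator subgroup X' is quasisimple. -/
theorem result {X : Type*} [Group X] [Finite X] (hs : IsSimpleGroup (X ⧸ Subgroup.center X)) (hna : ¬ IsMulCommutative (X ⧸ Subgroup.center X)) : commutator X ⊔ Subgroup.center X = ⊤ ∧ Cfsg.IsQuasisimple ↥(commutator X) := by
  haveI := hs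
  set D := commutator X with hD
  have hDn : D.Normal := inferInstance
  have hDn' : (D.map (QuotientGroup.mk' (Subgroup.center X))).Normal :=
    hDn.map _ (QuotientGroup.mk'_surjective _)
  have h1 : D ⊔ Subgroup.center X = ⊤ := by
    rcases hDn'.eq_bot_or_eq_top with h | h
    · exfalso
      rw [Subgroup.map_eq_bot_iff, QuotientGroup.ker_mk'] at h
      apply hna
      refine ⟨⟨fun a b => ?_⟩⟩
      obtain ⟨a, rfl⟩ := QuotientGroup.mk'_surjective _ a
      obtain ⟨b, rfl⟩ := QuotientGroup.mk'_surjective _ b
      rw [← map_mul, ← map_mul]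
      refine QuotientGroup.eq.2 (h ?_)
      have := Subgroup.commutator_mem_commutator (H₁ := (⊤ : Subgroup X)) (H₂ := (⊤ : Subgroup X))
        (Subgroup.mem_top (b⁻¹)) (Subgroup.mem_top (a⁻¹))
      rw [hD, commutator_def]
      simpa [mul_assoc, commutatorElement_def] using this
    · have := congrArg (Subgroup.comap (QuotientGroup.mk' (Subgroup.center X))) h
      rwa [Subgroup.comap_map_eq, QuotientGroup.ker_mk', Subgroup.comap_top] at this
  refine ⟨h1, ?_, ?_⟩
  · rw [Subgroup.isPerfect_iff]
    apply le_antisymm (Subgroup.commutator_le_left _ _)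
    have h2 := FStar.commutator_sup_central_le (N := D) (le_refl (Subgroup.center X))
    rw [h1] at h2
    exact h2
  · let f : D →* X ⧸ Subgroup.center X := (QuotientGroup.mk' (Subgroup.center X)).comp D.subtype
    have hf : Function.Surjective f := by
      intro y
      obtain ⟨x, rfl⟩ := QuotientGroup.mk'_surjective _ y
      obtain ⟨d, hd, z, hz, rfl⟩ := Subgroup.mem_sup_of_normal_right.1 (h1 ▸ Subgroup.mem_top x)
      refine ⟨⟨d, hd⟩, ?_⟩
      show QuotientGroup.mk' _ d = _
      have hz1 : QuotientGroup.mk' (Subgroup.center X) z = 1 := (QuotientGroup.eq_one_iff z).2 hz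
      rw [map_mul, hz1, mul_one]
    have hk : f.ker = Subgroup.center D := by
      ext ⟨d, hd⟩
      rw [MonoidHom.mem_ker, Subgroup.mem_center_iff]
      constructor
      · intro h
        have h2 : d ∈ Subgroup.center X := (QuotientGroup.eq_one_iff d).1 h
        intro g
        ext
        exact Subgroup.mem_center_iff.1 h2 g
      · intro h
        refine (QuotientGroup.eq_one_iff d).2 ?_
        rw [Subgroup.mem_center_iff]
        intro g
        obtain ⟨d', hd', z, hz, rfl⟩ := Subgroup.mem_sup_of_normal_right.1 (h1 ▸ Subgroup.mem_top g)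
        have h3 : d' * d = d * d' := congrArg Subtype.val (h ⟨d', hd'⟩)
        have h4 := Subgroup.mem_center_iff.1 hz d
        rw [mul_assoc, ← h4, ← mul_assoc, h3, mul_assoc]
    have e : D ⧸ Subgroup.center D ≃* X ⧸ Subgroup.center X :=
      (QuotientGroup.quotientMulEquivOfEq hk.symm).trans
        (QuotientGroup.quotientKerEquivOfSurjective f hf)
    exact e.isSimpleGroup_congr.2 hs

end Cfsg.Agent.S1258
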