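import Cfsg.Statements.S1278
import Cfsg.Agent.SigF.PC

set_option autoImplicit false
open Cfsg

namespace Cfsg.Agent.S1278

/-- Let K ≠ L be 2-components of the finite group X. Then ⁅K, L⁆ ≤ O(K) ⊓ O(L), and if K is quasisimple then ⁅K, L⁆ = 1. -/
theorem result {X : Type*} [Group X] [Finite X] (K L : Subgroup X) (hK : Cfsg.IsPComponent 2 K) (hL : Cfsg.IsPComponent 2 L) (hne : K ≠ L) : ⁅K, L⁆ ≤ ((Cfsg.oddCore ↥K).map K.subtype) ⊓ ((Cfsg.oddCore ↥L).map L.subtype) ∧ (Cfsg.IsQuasisimple ↥K → ⁅K, L⁆ = ⊥) := by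
  haveI : Fact (Nat.Prime 2) := ⟨Nat.prime_two⟩
  have h := SigF.PC.pComponent_commutator_le hK hL hne
  have h1 := SigF.PC.pPrimeCoreOf_of_isSubnormal (p := 2) hK.1
  have h2 := SigF.PC.pPrimeCoreOf_of_isSubnormal (p := 2) hL.1
  have h3 : ⁅K, L⁆ ≤ ((Cfsg.oddCore ↥K).map K.subtype) ⊓ ((Cfsg.oddCore ↥L).map L.subtype) := by
    refine h.trans (le_of_eq ?_)
    rw [← h1, ← h2]
  refine ⟨h3, fun hq => ?_⟩
  apply FStar.commutator_eq_bot_of_perfect (FStar.pComponent_commutator_self hK)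
  have h4 := (SigF.PC.pComponent_isQuasisimple_iff hK).1 hq
  rw [Subgroup.commutator_comm, eq_bot_iff, ← h4]
  exact Subgroup.commutator_mono le_rfl (h3.trans inf_le_left)

end Cfsg.Agent.S1278
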