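import Cfsg.Statements.S1281
import Cfsg.Agent.SigF.Trans

set_option autoImplicit false
open Cfsg

namespace Cfsg.Agent.S1281

/-- Let θ be a solvable A-signalizer functor on the finite group G (A a noncyclic elementary abelian p-subgroup) and N a normal subgroup of order prime to p. Then for all non-identity a, b ∈ A, the image of θ a in G / N meets the centralizer of the image of b inside the image of θ b. -/
theorem result {G : Type*} [Group G] [Finite G] (p : ℕ) [Fact p.Prime] (A : Subgroup G) (hA : Cfsg.IsElementaryAbelian p A) (hA2 : p ^ 2 ≤ Nat.card ↥A) (θ : G → Subgroup G) (hθ : Cfsg.IsSolvableSignalizerFunctor p A θ) (N : Subgroup G) [N.Normal] (hN : ¬ p ∣ Nat.card ↥N) (a b : G) (ha : a ∈ A) (ha1 : a ≠ 1) (hb : b ∈ A) (hb1 : b ≠ 1) : (θ a).map (QuotientGroup.mk' N) ⊓ Subgroup.centralizer {QuotientGroup.mk' N b} ≤ (θ b).map (QuotientGroup.mk' N) := by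
  rintro y ⟨hy, hyb⟩
  obtain ⟨x, hx, rfl⟩ := hy
  have hzA : Subgroup.zpowers b ≤ A := Subgroup.zpowers_le.2 hb
  have hsm := Cfsg.Agent.SigF.le_normalizer_theta hθ.1 ha ha1
  obtain ⟨z, hz, hzb⟩ := Cfsg.Agent.SigF.exists_fixed_coset (A := Subgroup.zpowers b) (D := N ⊓ θ a) (x := x)
    (Cfsg.Agent.SigF.isPGroup_zpowers hA hb)
    (Cfsg.Agent.SigF.not_dvd_of_le hN inf_le_left)
    (Cfsg.Agent.SigF.le_normalizer_inf Subgroup.le_normalizer_of_normal (hzA.trans hsm)) (by
      intro c hc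
      have h1 : c * x * c⁻¹ ∈ θ a := (Subgroup.mem_normalizer_iff.1 (hsm (hzA hc)) _).1 hx
      refine ⟨?_, (θ a).mul_mem ((θ a).inv_mem hx) h1⟩
      have h2 : Commute (QuotientGroup.mk' N x) (QuotientGroup.mk' N b) := Subgroup.mem_centralizer_singleton_iff.1 hyb
      obtain ⟨k, rfl⟩ := Subgroup.mem_zpowers_iff.1 hc
      have h3 : QuotientGroup.mk' N (x⁻¹ * (b ^ k * x * (b ^ k)⁻¹)) = 1 := by
        rw [map_mul, map_mul, map_mul, map_inv, map_inv, map_zpow]
        have h4 : Commute (QuotientGroup.mk' N x) (QuotientGroup.mk' N b ^ k) := h2.zpow_right k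
        rw [← h4.eq]; group
      exact (QuotientGroup.eq_one_iff _).1 h3)
  have e : z = x * (x⁻¹ * z) := by group
  have hzθ : z ∈ θ b := by
    refine hθ.1.2.2.2 a ha ha1 b hb hb1 ⟨?_, ?_⟩
    · rw [SetLike.mem_coe, e]; exact (θ a).mul_mem hx hz.2
    · exact Subgroup.mem_centralizer_singleton_iff.2 (hzb b (Subgroup.mem_zpowers b)).symm
  refine ⟨z, hzθ, ?_⟩
  rw [QuotientGroup.mk'_eq_mk']
  exact ⟨(x⁻¹ * z)⁻¹, N.inv_mem hz.1, by group⟩

end Cfsg.Agent.S1281
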