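import Cfsg.Statements.S1286
import Mathlib.Tactic

set_option autoImplicit false
open Cfsg

namespace Cfsg.Agent.S1286

/-- the two generators of the four-group -/
def sE : Equiv.Perm (Fin 5) := Equiv.swap 0 1
def tE : Equiv.Perm (Fin 5) := Equiv.swap 2 3
/-- (2 3 4) -/
def cE : Equiv.Perm (Fin 5) := Equiv.swap 2 3 * Equiv.swap 3 4
/-- (0 1 4) -/
def dE : Equiv.Perm (Fin 5) := Equiv.swap 0 1 * Equiv.swap 1 4

def AE : Subgroup (Equiv.Perm (Fin 5)) where
  carrier := {g | g = 1 ∨ g = sE ∨ g = tE ∨ g = sE * tE}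
  one_mem' := Or.inl rfl
  mul_mem' := by
    rintro a b (rfl | rfl | rfl | rfl) (rfl | rfl | rfl | rfl) <;> decide
  inv_mem' := by
    rintro a (rfl | rfl | rfl | rfl) <;> decide

def ZE (c : Equiv.Perm (Fin 5)) (h : c * c * c = 1) : Subgroup (Equiv.Perm (Fin 5)) where
  carrier := {g | g = 1 ∨ g = c ∨ g = c * c}
  one_mem' := Or.inl rfl
  mul_mem' := by
    rintro a b (rfl | rfl | rfl) (rfl | rfl | rfl)
    · exact Or.inl (one_mul 1)
    · exact Or.inr (Or.inl (one_mul _))
    · exact Or.inr (Or.inr (one_mul _))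
    · exact Or.inr (Or.inl (mul_one _))
    · exact Or.inr (Or.inr rfl)
    · exact Or.inl (by rw [← mul_assoc, h])
    · exact Or.inr (Or.inr (mul_one _))
    · exact Or.inl h
    · refine Or.inr (Or.inl ?_)
      calc c * c * (c * c) = (c * c * c) * c := by group
        _ = c := by rw [h, one_mul]
  inv_mem' := by
    rintro a (rfl | rfl | rfl)
    · exact Or.inl inv_one
    · exact Or.inr (Or.inr (by rw [inv_eq_iff_mul_eq_one, ← mul_assoc, h]))
    · exact Or.inr (Or.inl (by rw [inv_eq_iff_mul_eq_one, h]))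

theorem card_ZE (c : Equiv.Perm (Fin 5)) (h : c * c * c = 1) : Nat.card (ZE c h) ∣ 3 := by
  have : ZE c h = Subgroup.zpowers c := by
    apply le_antisymm
    · rintro x (rfl | rfl | rfl)
      · exact one_mem _
      · exact Subgroup.mem_zpowers _
      · exact mul_mem (Subgroup.mem_zpowers _) (Subgroup.mem_zpowers _)
    · rw [Subgroup.zpowers_le]
      exact Or.inr (Or.inl rfl)
  rw [this, Nat.card_zpowers]
  exact orderOf_dvd_of_pow_eq_one (by rw [pow_succ, pow_two, h])

def thE (g : Equiv.Perm (Fin 5)) : Subgroup (Equiv.Perm (Fin 5)) :=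
  if g = sE then ZE cE (by decide) else if g = tE then ZE dE (by decide) else ⊥

theorem thE_s : thE sE = ZE cE (by decide) := if_pos rfl
theorem thE_t : thE tE = ZE dE (by decide) := by
  rw [thE, if_neg (by decide), if_pos rfl]
theorem thE_st : thE (sE * tE) = ⊥ := by
  rw [thE, if_neg (by decide), if_neg (by decide)]

theorem cent_mem (a x : Equiv.Perm (Fin 5)) (h : x * a = a * x) : x ∈ Subgroup.centralizer {a} :=
  Subgroup.mem_centralizer_singleton_iff.2 h

theorem card_AE : Nat.card AE = 4 := by
  have e : (AE : Set (Equiv.Perm (Fin 5))) = (({1, sE, tE, sE * tE} : Finset (Equiv.Perm (Fin 5))) : Set _) := by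
    ext x
    simp only [Finset.coe_insert, Finset.coe_singleton, Set.mem_insert_iff, Set.mem_singleton_iff]
    rfl
  change Set.ncard (AE : Set (Equiv.Perm (Fin 5))) = 4
  rw [e, Set.ncard_coe_finset]
  decide

/-- There exist a finite group X, an elementary abelian subgroup A of order 4 and a solvable A-signalizer functor θ on X for the prime 2 which is not complete. -/
theorem result : ∃ (X : Type) (_ : Group X) (_ : Finite X) (A : Subgroup X) (θ : X → Subgroup X), Cfsg.IsElementaryAbelian 2 A ∧ Nat.card ↥A = 4 ∧ Cfsg.IsSolvableSignalizerFunctor 2 A θ ∧ ¬ Cfsg.IsCompleteSignalizerFunctor 2 A θ := by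
  refine ⟨Equiv.Perm (Fin 5), inferInstance, inferInstance, AE, thE, ?_, card_AE, ⟨⟨?_, ?_, ?_, ?_⟩, ?_⟩, ?_⟩
  · refine ⟨IsMulCommutative.of_comm ?_, ?_⟩
    · rintro ⟨a, (rfl | rfl | rfl | rfl)⟩ ⟨b, (rfl | rfl | rfl | rfl)⟩ <;> (apply Subtype.ext; decide)
    · rintro a (rfl | rfl | rfl | rfl) <;> decide
  · rintro a (rfl | rfl | rfl | rfl) ha1
    · exact absurd rfl ha1
    · rw [thE_s]
      rintro x (rfl | rfl | rfl) <;> (apply cent_mem; decide)
    · rw [thE_t]
      rintro x (rfl | rfl | rfl) <;> (apply cent_mem; decide)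
    · rw [thE_st]; exact bot_le
  · rintro a (rfl | rfl | rfl | rfl) ha1
    · exact absurd rfl ha1
    · rw [thE_s]; exact fun h => absurd (h.trans (card_ZE _ _)) (by decide)
    · rw [thE_t]; exact fun h => absurd (h.trans (card_ZE _ _)) (by decide)
    · rw [thE_st, Subgroup.card_bot]; decide
  · rintro a (rfl | rfl | rfl | rfl) ha1 b hb x hx
    · exact absurd rfl ha1
    · rw [thE_s] at hx ⊢
      rcases hb with (rfl | rfl | rfl | rfl) <;> rcases hx with (rfl | rfl | rfl) <;>
      first
        | exact Or.inl (by decide)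
        | exact Or.inr (Or.inl (by decide))
        | exact Or.inr (Or.inr (by decide))
    · rw [thE_t] at hx ⊢
      rcases hb with (rfl | rfl | rfl | rfl) <;> rcases hx with (rfl | rfl | rfl) <;>
      first
        | exact Or.inl (by decide)
        | exact Or.inr (Or.inl (by decide))
        | exact Or.inr (Or.inr (by decide))
    · rw [thE_st, Subgroup.mem_bot] at hx ⊢
      rw [hx]; group
  · rintro a (rfl | rfl | rfl | rfl) ha1 b (rfl | rfl | rfl | rfl) hb1 x ⟨hx, hxb⟩
    all_goals first
      | exact absurd rfl ha1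
      | exact absurd rfl hb1
      | exact hx
      | skip
    · rw [thE_s] at hx
      have h := Subgroup.mem_centralizer_singleton_iff.1 hxb
      rcases hx with (rfl | rfl | rfl)
      · exact one_mem _
      · exact absurd h (by decide)
      · exact absurd h (by decide)
    · rw [thE_s] at hx
      have h := Subgroup.mem_centralizer_singleton_iff.1 hxb
      rcases hx with (rfl | rfl | rfl)
      · exact one_mem _
      · exact absurd h (by decide)
      · exact absurd h (by decide)
    · rw [thE_t] at hx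
      have h := Subgroup.mem_centralizer_singleton_iff.1 hxb
      rcases hx with (rfl | rfl | rfl)
      · exact one_mem _
      · exact absurd h (by decide)
      · exact absurd h (by decide)
    · rw [thE_t] at hx
      have h := Subgroup.mem_centralizer_singleton_iff.1 hxb
      rcases hx with (rfl | rfl | rfl)
      · exact one_mem _
      · exact absurd h (by decide)
      · exact absurd h (by decide)
    · rw [thE_st] at hx
      have hx' : x = 1 := Subgroup.mem_bot.1 hx
      rw [hx']; exact one_mem _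
    · rw [thE_st] at hx
      have hx' : x = 1 := Subgroup.mem_bot.1 hx
      rw [hx']; exact one_mem _
  · rintro a (rfl | rfl | rfl | rfl) ha1
    · exact absurd rfl ha1
    · rw [thE_s]
      apply Group.isSolvable_of_comm
      rintro ⟨x, (rfl | rfl | rfl)⟩ ⟨y, (rfl | rfl | rfl)⟩ <;> (apply Subtype.ext; decide)
    · rw [thE_t]
      apply Group.isSolvable_of_comm
      rintro ⟨x, (rfl | rfl | rfl)⟩ ⟨y, (rfl | rfl | rfl)⟩ <;> (apply Subtype.ext; decide)
    · rw [thE_st]; infer_instance
  · rintro ⟨-, X, -, hX2, hX⟩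
    have h1 : cE ∈ X := by
      have h := hX sE (Or.inr (Or.inl rfl)) (by decide)
      have : cE ∈ X ⊓ Subgroup.centralizer {sE} := by
        rw [h, thE_s]; exact Or.inr (Or.inl rfl)
      exact this.1
    have h2 : dE ∈ X := by
      have h := hX tE (Or.inr (Or.inr (Or.inl rfl))) (by decide)
      have : dE ∈ X ⊓ Subgroup.centralizer {tE} := by
        rw [h, thE_t]; exact Or.inr (Or.inl rfl)
      exact this.1
    have h3 : cE * dE * cE * dE⁻¹ ∈ X := X.mul_mem (X.mul_mem (X.mul_mem h1 h2) h1) (X.inv_mem h2)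
    apply hX2
    have h4 : orderOf (⟨_, h3⟩ : X) = 2 := by
      rw [Subgroup.orderOf_mk]
      exact orderOf_eq_prime (by decide) (by decide)
    rw [← h4]
    exact orderOf_dvd_natCard _

end Cfsg.Agent.S1286
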