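import Cfsg.Statements.S1288
import Cfsg.Agent.SigF.OpPrimeP

set_option autoImplicit false
open Cfsg

namespace Cfsg.Agent.S1288

open scoped commutatorElement

theorem exists_relIndex_eq {H : Type*} [Group H] [Finite H] {p : ℕ} [Fact p.Prime] {A : Subgroup H}
    (hA : IsPGroup p A) (hA1 : 1 < Nat.card A) : ∃ B : Subgroup H, B ≤ A ∧ B.relIndex A = p := by
  obtain ⟨n, hn⟩ := IsPGroup.iff_card.1 hA
  have hn0 : n ≠ 0 := by
    rintro rfl
    rw [hn, pow_zero] at hA1
    omega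
  obtain ⟨m, rfl⟩ : ∃ m, n = m + 1 := ⟨n - 1, by omega⟩
  obtain ⟨K, hK⟩ := Sylow.exists_subgroup_card_pow_prime (G := A) p (n := m)
    (by rw [hn]; exact pow_dvd_pow p (Nat.le_succ m))
  refine ⟨K.map A.subtype, Subgroup.map_subtype_le K, ?_⟩
  have h1 : K.index = p := by
    have h2 := Subgroup.card_mul_index K
    rw [hK, hn, pow_succ] at h2
    exact Nat.eq_of_mul_eq_mul_left (pow_pos (Fact.out : p.Prime).pos m) h2
  rw [Subgroup.relIndex, Subgroup.subgroupOf, Subgroup.comap_map_eq_self_of_injective A.subtype_injective]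
  exact h1

/-- Let A be a noncyclic elementary abelian p-subgroup of a finite group H normalizing a solvable subgroup K of order prime to p, q a prime dividing |K|, and U ≤ K a subgroup of order prime to q such that ⁅U, C_K(B)⁆ has order prime to q for every subgroup B of index p in A. Then U ≤ O_{q'}(K). -/
theorem result {H : Type*} [Group H] [Finite H] (p : ℕ) [Fact p.Prime] (A K : Subgroup H) (hA : Cfsg.IsElementaryAbelian p A) (hA2 : p ^ 2 ≤ Nat.card ↥A) (hK : ¬ p ∣ Nat.card ↥K) (hKs : Group.IsSolvable ↥K) (hAK : A ≤ Subgroup.normalizer (K : Set H)) (q : ℕ) [Fact q.Prime] (hqK : q ∣ Nat.card ↥K) (U : Subgroup H) (hU : U ≤ K) (hUq : ¬ q ∣ Nat.card ↥U) (hcomm : ∀ B : Subgroup H, B ≤ A → B.relIndex A = p → ¬ q ∣ Nat.card ↥⁅U, K ⊓ Subgroup.centralizer (B : Set H)⁆) : U ≤ (Cfsg.pPrimeCore q ↥K).map K.subtype := by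
  have hp : p.Prime := Fact.out
  refine SigF.OpP.le_pPrimeCore_of_hyperplane hA hK
    (SigF.PC.isPConstrained_of_isSolvable hKs) hAK hU hUq ?_
  have key : ∀ B : Subgroup H, B ≤ A → B.relIndex A = p →
      ∀ u ∈ U, ∀ x ∈ K ⊓ Subgroup.centralizer (B : Set H), (orderOf ⁅u, x⁆).Coprime q := by
    intro B hB hi u hu x hx
    have h1 := hcomm B hB hi
    have h2 : ⁅u, x⁆ ∈ ⁅U, K ⊓ Subgroup.centralizer (B : Set H)⁆ :=
      Subgroup.commutator_mem_commutator hu hx
    have h3 : orderOf ⁅u, x⁆ ∣ Nat.card ↥⁅U, K ⊓ Subgroup.centralizer (B : Set H)⁆ := by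
      have := orderOf_dvd_natCard (⟨_, h2⟩ : ↥⁅U, K ⊓ Subgroup.centralizer (B : Set H)⁆)
      rwa [← Subgroup.orderOf_coe] at this
    exact Nat.Coprime.coprime_dvd_left h3 ((Nat.Prime.coprime_iff_not_dvd Fact.out).2 h1).symm
  intro B hB hi u hu x hx
  rcases (Nat.dvd_prime hp).1 hi with h | h
  · obtain ⟨B', hB', hi'⟩ := exists_relIndex_eq (SigF.isPGroup_of_elem hA)
      (lt_of_lt_of_le (Nat.one_lt_pow two_ne_zero hp.one_lt) hA2)
    have hAB : A ≤ B := Subgroup.relIndex_eq_one.1 h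
    refine key B' hB' hi' u hu x ⟨hx.1, Subgroup.centralizer_le ?_ hx.2⟩
    exact fun y hy => hAB (hB' hy)
  · exact key B hB h u hu x hx

end Cfsg.Agent.S1288
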