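import Cfsg.Statements.S1297
import Cfsg.Agent.Bal.Red

set_option autoImplicit false
open Cfsg

namespace Cfsg.Agent.S1297

theorem locallyK_of_locally {K : Type*} [Group K] (h : Cfsg.IsLocallyBalanced K) :
    Cfsg.IsLocallyKBalanced 2 1 K := by
  intro H hH A hA hAc
  haveI : Finite A := Nat.finite_of_card_ne_zero (by rw [hAc]; norm_num)
  obtain ⟨⟨a, ha⟩, ha1⟩ : ∃ a : A, a ≠ 1 := by
    haveI : Nontrivial A := Finite.one_lt_card_iff_nontrivial.1 (by rw [hAc]; norm_num)
    exact exists_ne 1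
  have ha1' : a ≠ 1 := fun h => ha1 (Subtype.ext h)
  have h1 := h H hH a (orderOf_eq_prime (hA.2 a ha) ha1')
  rw [eq_bot_iff, ← h1]
  exact Cfsg.Agent.H31.delta_le ha ha1'

theorem half {G : Type*} [Group G] (hb : Cfsg.IsKBalanced 2 1 G) {x y : G} (hx : orderOf x = 2)
    (hy : orderOf y = 2) (hxy : x * y = y * x) :
    Cfsg.centralizerPPrimeCore 2 x ⊓ Subgroup.centralizer {y} ≤
      Cfsg.centralizerPPrimeCore 2 y ⊓ Subgroup.centralizer {x} := by
  refine le_inf ?_ (inf_le_left.trans (Cfsg.Agent.H31.cpc_le x))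
  have h1 := hb (Subgroup.zpowers x) (Cfsg.Agent.BG.IsElementaryAbelian.zpowers (by rw [← hx, pow_orderOf_eq_one]))
    (by rw [Nat.card_zpowers, hx, pow_one]) y hy (by
      intro a ha
      obtain ⟨i, rfl⟩ := Subgroup.mem_zpowers_iff.1 ha
      exact ((show Commute x y from hxy).zpow_left i).eq)
  refine le_trans (inf_le_inf_right _ ?_) h1
  intro d hd
  rw [Cfsg.Agent.H31.mem_delta_iff]
  intro a ha ha1
  obtain ⟨i, rfl⟩ := Subgroup.mem_zpowers_iff.1 ha
  have hx2 : x ^ 2 = 1 := by rw [← hx, pow_orderOf_eq_one]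
  rcases Int.even_or_odd' i with ⟨j, hj | hj⟩
  · exfalso; apply ha1
    rw [hj, zpow_mul, zpow_ofNat, hx2, one_zpow]
  · rw [hj, zpow_add, zpow_mul, zpow_ofNat, hx2, one_zpow, one_mul, zpow_one]
    exact hd

/-- Let G be finite. Suppose that for every involution x, writing C = C_G(x), every component K of C / O(C) has K / Z(K) locally balanced. Then G is balanced. -/
theorem result {G : Type*} [Group G] [Finite G] (h : ∀ x : G, orderOf x = 2 → ∀ K : Subgroup (↥(Subgroup.centralizer ({x} : Set G)) ⧸ Cfsg.oddCore ↥(Subgroup.centralizer ({x} : Set G))), Cfsg.IsComponent K → Cfsg.IsLocallyBalanced (↥K ⧸ Subgroup.center ↥K)) : Cfsg.IsBalanced G := by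
  have hb : Cfsg.IsKBalanced 2 1 G := by
    intro A hA hAc b hb hcomm
    have hAC : A ≤ Subgroup.centralizer ({b} : Set G) := fun a ha =>
      Subgroup.mem_centralizer_singleton_iff.2 (hcomm a ha)
    refine Cfsg.Agent.Bal.delta_inf_le hA hAC le_rfl hAc.ge ?_
    intro K hK
    refine Cfsg.Agent.Bal.delta_le_of_locallyQ Cfsg.Agent.Bal.pPrimeCore_quot_bot hK
      (Cfsg.Agent.Bal.barOf_elem hA) le_rfl ?_ (locallyK_of_locally (h b hb K hK))
    rw [Cfsg.Agent.Bal.card_barOf (Cfsg.Agent.BG.IsElementaryAbelian.isPGroup hA) hAC, hAc]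
  intro x y hx hy hxy
  exact le_antisymm (half hb hx hy hxy) (half hb hy hx hxy.symm)

end Cfsg.Agent.S1297
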