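import Cfsg.Statements.S1299
import Cfsg.Agent.SigF.SolvGen
import Cfsg.Agent.SigF.Bal1

set_option autoImplicit false
open Cfsg

namespace Cfsg.Agent.S1299

open SigF

theorem exists_sub_card {H : Type*} [Group H] [Finite H] {p k : ℕ} [Fact p.Prime] {E : Subgroup H}
    (hE : IsPGroup p E) (h : p ^ k ≤ Nat.card E) : ∃ D : Subgroup H, D ≤ E ∧ Nat.card D = p ^ k := by
  obtain ⟨n, hn⟩ := IsPGroup.iff_card.1 hE
  rw [hn] at h
  have hkn : k ≤ n := (Nat.pow_le_pow_iff_right (Fact.out : p.Prime).one_lt).1 h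
  obtain ⟨K, hK⟩ := Sylow.exists_subgroup_card_pow_prime (G := E) p (n := k)
    (by rw [hn]; exact pow_dvd_pow p hkn)
  refine ⟨K.map E.subtype, Subgroup.map_subtype_le K, ?_⟩
  rw [Subgroup.card_map_of_injective E.subtype_injective, hK]

theorem orderOf_eq {H : Type*} [Group H] {p : ℕ} [Fact p.Prime] {A : Subgroup H}
    (hA : Cfsg.IsElementaryAbelian p A) {b : H} (hb : b ∈ A) (hb1 : b ≠ 1) : orderOf b = p :=
  orderOf_eq_prime (hA.2 b hb) hb1

theorem delta_le {G : Type*} [Group G] {p : ℕ} {D : Subgroup G} {d : G} (hd : d ∈ D) (hd1 : d ≠ 1) :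
    Cfsg.signalizerDelta p D ≤ Cfsg.centralizerPPrimeCore p d :=
  iInf_le (fun a : {a : G // a ∈ D ∧ a ≠ 1} => Cfsg.centralizerPPrimeCore p (a : G)) ⟨d, hd, hd1⟩

theorem delta_anti {G : Type*} [Group G] {p : ℕ} {D E : Subgroup G} (h : D ≤ E) :
    Cfsg.signalizerDelta p E ≤ Cfsg.signalizerDelta p D :=
  le_iInf fun d => delta_le (h d.2.1) d.2.2

/-- Let G be finite and k-balanced for the prime p (k ≥ 1), A an elementary abelian p-subgroup of order at least p^(k+2) such that O_{p'}(C_G(a)) is solvable for every non-identity a ∈ A. For a ∈ A put θ a = the subgroup generated by the Δ_G(D) ∩ C_G(a) over the subgroups D ≤ A of order p^k. Then θ is an A-signalizer functor. -/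
theorem result {G : Type*} [Group G] [Finite G] (p k : ℕ) [Fact p.Prime] (hk : 1 ≤ k) (hbal : Cfsg.IsKBalanced p k G) (A : Subgroup G) (hA : Cfsg.IsElementaryAbelian p A) (hAk : p ^ (k + 2) ≤ Nat.card ↥A) (hsolv : ∀ a ∈ A, a ≠ 1 → Group.IsSolvable ↥(Cfsg.centralizerPPrimeCore p a)) : Cfsg.IsSignalizerFunctor p A (fun a => ⨆ D : {D : Subgroup G // D ≤ A ∧ Nat.card ↥D = p ^ k}, Cfsg.signalizerDelta p (D : Subgroup G) ⊓ Subgroup.centralizer {a}) := by
  have hp : p.Prime := Fact.out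
  have hcomm : ∀ a ∈ A, ∀ b ∈ A, a * b = b * a := fun a ha b hb => SigF.elem_comm hA ha hb
  have hAp := SigF.isPGroup_of_elem hA
  have hAcent : ∀ a ∈ A, A ≤ Subgroup.centralizer ({a} : Set G) := fun a ha b hb =>
    Subgroup.mem_centralizer_singleton_iff.2 (hcomm b hb a ha)
  -- basic consequence of balance
  have hbal1 : ∀ D : Subgroup G, D ≤ A → Nat.card D = p ^ k → ∀ b ∈ A, b ≠ 1 →
      Cfsg.signalizerDelta p D ⊓ Subgroup.centralizer {b} ≤ Cfsg.centralizerPPrimeCore p b :=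
    fun D hD hDc b hb hb1 => hbal D (SigF.elem_mono hA hD) hDc b (orderOf_eq hA hb hb1)
      (fun a ha => hcomm a (hD ha) b hb)
  obtain ⟨θ, hθ⟩ : ∃ θ : G → Subgroup G, θ = fun a => ⨆ D : {D : Subgroup G // D ≤ A ∧ Nat.card ↥D = p ^ k},
    Cfsg.signalizerDelta p (D : Subgroup G) ⊓ Subgroup.centralizer {a} := ⟨_, rfl⟩
  rw [← hθ]
  have hθle : ∀ a ∈ A, a ≠ 1 → θ a ≤ Cfsg.centralizerPPrimeCore p a := by
    intro a ha ha1
    rw [hθ]
    exact iSup_le fun D => hbal1 D D.2.1 D.2.2 a ha ha1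
  have hΔinv : ∀ D : Subgroup G, D ≤ A → A ≤ Subgroup.normalizer (Cfsg.signalizerDelta p D : Set G) := by
    intro D hD
    apply SigF.le_normalizer_of_conj
    intro b hb x hx
    rw [Cfsg.signalizerDelta, Subgroup.mem_iInf] at hx ⊢
    intro d
    have h1 := SigF.Bal1.centralizer_le_normalizer_cppc (p := p) (d : G)
      (hAcent d (hD d.2.1) hb)
    exact (Subgroup.mem_normalizer_iff.1 h1 x).1 (hx d)
  have hCinv : ∀ a ∈ A, A ≤ Subgroup.normalizer ((Subgroup.centralizer ({a} : Set G) : Subgroup G) : Set G) :=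
    fun a ha => (hAcent a ha).trans Subgroup.le_normalizer
  have hθinv : ∀ a ∈ A, A ≤ Subgroup.normalizer (θ a : Set G) := by
    intro a ha
    apply SigF.SolvGen.le_normalizer_of_forall
    intro c hc
    rw [hθ]
    apply iSup_le
    intro D
    refine le_trans (le_of_eq ?_) (SigF.cj_mono (le_iSup (fun D : {D : Subgroup G // D ≤ A ∧ Nat.card ↥D = p ^ k} =>
      Cfsg.signalizerDelta p (D : Subgroup G) ⊓ Subgroup.centralizer {a}) D))
    rw [SigF.cj_inf, SigF.mem_normalizer_iff_cj.1 (Subgroup.inv_mem _ (hΔinv D D.2.1 hc)),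
      SigF.mem_normalizer_iff_cj.1 (Subgroup.inv_mem _ (hCinv a ha hc))]
  have hθp : ∀ a ∈ A, a ≠ 1 → ¬ p ∣ Nat.card (θ a) := fun a ha ha1 =>
    SigF.not_dvd_of_le (SigF.Bal1.cppc_not_dvd a) (hθle a ha ha1)
  have hθs : ∀ a ∈ A, a ≠ 1 → Group.IsSolvable (θ a) := fun a ha ha1 =>
    SigF.solvable_of_le (hsolv a ha ha1) (hθle a ha ha1)
  -- sizes of hyperplanes
  have hcardE : ∀ E : SigF.SolvGen.Hyp p A, p ^ (k + 1) ≤ Nat.card (E : Subgroup G) := fun E =>
    SigF.card_ge_of_relIndex (n := k + 1) hAk E.2.1 (Nat.le_of_dvd hp.pos E.2.2)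
  have hcardEE : ∀ E E' : SigF.SolvGen.Hyp p A, p ^ k ≤ Nat.card ↥((E : Subgroup G) ⊓ E' : Subgroup G) := by
    intro E E'
    refine SigF.card_ge_of_relIndex (n := k) (hcardE E) inf_le_left ?_
    rw [Subgroup.inf_relIndex_left]
    exact (Subgroup.relIndex_le_of_le_right E.2.1 (by rw [Subgroup.relIndex]; exact Subgroup.index_ne_zero_of_finite)).trans
      (Nat.le_of_dvd hp.pos E'.2.2)
  -- `Δ(D) ⊓ C(E) ≤ Δ(E)`
  have hDE : ∀ D : Subgroup G, D ≤ A → Nat.card D = p ^ k → ∀ E : Subgroup G, E ≤ A →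
      Cfsg.signalizerDelta p D ⊓ Subgroup.centralizer (E : Set G) ≤ Cfsg.signalizerDelta p E := by
    intro D hD hDc E hE
    apply le_iInf
    intro e
    refine le_trans (inf_le_inf_left _ (Subgroup.centralizer_le ?_)) (hbal1 D hD hDc e (hE e.2.1) e.2.2)
    simpa using e.2.1
  have hΔp : ∀ D : Subgroup G, D ≤ A → Nat.card D = p ^ k → ¬ p ∣ Nat.card (Cfsg.signalizerDelta p D) := by
    intro D hD hDc
    obtain ⟨d, hd, hd1⟩ := SigF.exists_ne_one_of_card (p := p) (B := D)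
      (by rw [hDc]; exact Nat.le_self_pow (by omega) p)
    exact SigF.not_dvd_of_le (SigF.Bal1.cppc_not_dvd d) (delta_le hd hd1)
  -- data for the generation lemma
  have hdata : ∀ a ∈ A, a ≠ 1 → SigF.SolvGen.Data p A (θ a)
      (fun E => θ a ⊓ Cfsg.signalizerDelta p E) := by
    intro a ha ha1
    refine ⟨hA, hθp a ha ha1, hθinv a ha, ?_, ?_, ?_, ?_⟩
    · intro E
      refine inf_le_inf_left _ ?_
      -- `Δ(E) ≤ C(E)`
      intro x hx
      rw [Subgroup.mem_centralizer_iff]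
      intro e he
      by_cases he1 : e = 1
      · rw [he1, one_mul, mul_one]
      · exact (Subgroup.mem_centralizer_singleton_iff.1 (SigF.Bal1.cppc_le e (delta_le he he1 hx))).symm
    · intro E
      exact SigF.le_normalizer_inf (hθinv a ha) (hΔinv E E.2.1)
    · -- generation
      conv_lhs => rw [hθ]
      apply iSup_le
      intro D
      have h1 : A ≤ Subgroup.normalizer ((Cfsg.signalizerDelta p (D : Subgroup G) ⊓
          Subgroup.centralizer {a} : Subgroup G) : Set G) :=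
        SigF.le_normalizer_inf (hΔinv D D.2.1) (hCinv a ha)
      have h2 : ¬ p ∣ Nat.card ↥(Cfsg.signalizerDelta p (D : Subgroup G) ⊓ Subgroup.centralizer {a}) :=
        SigF.not_dvd_of_le (hΔp D D.2.1 D.2.2) inf_le_left
      rw [← SigF.iSup_hyperplane hA h2 h1]
      apply iSup_le
      intro E
      refine le_trans (le_inf ?_ ?_) (le_iSup (fun E : SigF.SolvGen.Hyp p A =>
        θ a ⊓ Cfsg.signalizerDelta p (E : Subgroup G)) E)
      · refine inf_le_left.trans ?_
        rw [hθ]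
        exact le_iSup (fun D : {D : Subgroup G // D ≤ A ∧ Nat.card ↥D = p ^ k} =>
          Cfsg.signalizerDelta p (D : Subgroup G) ⊓ Subgroup.centralizer {a}) D
      · exact (inf_le_inf_right _ inf_le_left).trans (hDE D D.2.1 D.2.2 E E.2.1)
    · intro B C E
      obtain ⟨D, hD, hDc⟩ := exists_sub_card (hAp.to_le (inf_le_left.trans B.2.1)) (hcardEE B C)
      refine le_inf ?_ ?_
      · exact inf_le_left.trans (sup_le inf_le_left inf_le_left)
      · refine le_trans (inf_le_inf_right _ (sup_le ?_ ?_)) (hDE D (hD.trans (inf_le_left.trans B.2.1)) hDc E E.2.1)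
        · exact inf_le_right.trans (delta_anti (hD.trans inf_le_left))
        · exact inf_le_right.trans (delta_anti (hD.trans inf_le_right))
  refine ⟨?_, hθp, ?_, ?_⟩
  · intro a ha ha1
    exact (hθle a ha ha1).trans (SigF.Bal1.cppc_le a)
  · intro a ha ha1
    exact SigF.conj_of_le_normalizer (hθinv a ha)
  · intro a ha ha1 b hb hb1
    have h1 : A ≤ Subgroup.normalizer ((θ a ⊓ Subgroup.centralizer {b} : Subgroup G) : Set G) :=
      SigF.le_normalizer_inf (hθinv a ha) (hCinv b hb)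
    have h2 : ¬ p ∣ Nat.card ↥(θ a ⊓ Subgroup.centralizer {b}) :=
      SigF.not_dvd_of_le (hθp a ha ha1) inf_le_left
    rw [← SigF.iSup_hyperplane hA h2 h1]
    apply iSup_le
    intro E
    obtain ⟨D, hD, hDc⟩ := exists_sub_card (k := k) (hAp.to_le E.2.1)
      (le_trans (Nat.pow_le_pow_right hp.pos (Nat.le_succ k)) (hcardE E))
    conv_rhs => rw [hθ]
    refine le_trans (le_inf ?_ (inf_le_left.trans inf_le_right)) (le_iSup (fun D : {D : Subgroup G // D ≤ A ∧ Nat.card ↥D = p ^ k} =>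
      Cfsg.signalizerDelta p (D : Subgroup G) ⊓ Subgroup.centralizer {b}) ⟨D, hD.trans E.2.1, hDc⟩)
    have h3 := (hdata a ha ha1).fixed_le (hθs a ha ha1) E
    exact ((inf_le_inf_right _ inf_le_left).trans h3).trans (inf_le_right.trans (delta_anti hD))

end Cfsg.Agent.S1299
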