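import Cfsg.Statements.S1300
import Mathlib.Tactic

set_option autoImplicit false
open Cfsg

namespace Cfsg.Agent.S1300

theorem cpc_le {G : Type*} [Group G] (x : G) : Cfsg.centralizerPPrimeCore 2 x ≤ Subgroup.centralizer ({x} : Set G) := by
  rw [Cfsg.centralizerPPrimeCore]
  exact Subgroup.map_subtype_le _

theorem mem_zpowers_two {G : Type*} [Group G] {x a : G} (hx : orderOf x = 2) (ha : a ∈ Subgroup.zpowers x) (h1 : a ≠ 1) :
    a = x := by
  obtain ⟨k, rfl⟩ := Subgroup.mem_zpowers_iff.1 ha
  have h2 : x ^ (2 : ℤ) = 1 := by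
    have := pow_orderOf_eq_one x
    rw [hx] at this
    exact_mod_cast this
  rcases Int.even_or_odd' k with ⟨m, rfl | rfl⟩
  · exact absurd (by rw [zpow_mul, h2, one_zpow]) h1
  · rw [zpow_add, zpow_mul, h2, one_zpow, one_mul, zpow_one]

theorem half {G : Type*} [Group G] (h : Cfsg.IsKBalanced 2 1 G) (x y : G) (hx : orderOf x = 2) (hy : orderOf y = 2)
    (hxy : x * y = y * x) :
    Cfsg.centralizerPPrimeCore 2 x ⊓ Subgroup.centralizer {y} ≤
      Cfsg.centralizerPPrimeCore 2 y ⊓ Subgroup.centralizer {x} := by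
  refine le_inf ?_ (inf_le_left.trans (cpc_le x))
  have hA : Cfsg.IsElementaryAbelian 2 (Subgroup.zpowers x) := by
    refine ⟨inferInstance, fun a ha => ?_⟩
    by_cases h1 : a = 1
    · rw [h1, one_pow]
    · rw [mem_zpowers_two hx ha h1, ← hx]
      exact pow_orderOf_eq_one x
  have hc : Nat.card (Subgroup.zpowers x) = 2 ^ 1 := by rw [Nat.card_zpowers, hx, pow_one]
  refine le_trans (inf_le_inf_right _ ?_) (h (Subgroup.zpowers x) hA hc y hy ?_)
  · rw [Cfsg.signalizerDelta]
    refine le_iInf fun a => ?_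
    rw [mem_zpowers_two hx a.2.1 a.2.2]
  · intro a ha
    by_cases h1 : a = 1
    · rw [h1, one_mul, mul_one]
    · rw [mem_zpowers_two hx ha h1, hxy]

/-- For a finite group G, balance in the sense of commuting involutions is the same as 1-balance for the prime 2. -/
theorem result {G : Type*} [Group G] [Finite G] : Cfsg.IsBalanced G ↔ Cfsg.IsKBalanced 2 1 G := by
  constructor
  · intro h A hA hc b hb hab
    obtain ⟨a, ha, h1⟩ : ∃ a ∈ A, a ≠ 1 := by
      by_contra hcon
      push Not at hcon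
      have : A = ⊥ := (Subgroup.eq_bot_iff_forall _).2 hcon
      rw [this] at hc
      simp at hc
    have ho : orderOf a = 2 := orderOf_eq_prime (hA.2 a ha) h1
    have h2 := h a b ho hb (hab a ha)
    refine le_trans (inf_le_inf_right _ ?_) (h2.le.trans inf_le_left)
    exact iInf_le (fun a : {a : G // a ∈ A ∧ a ≠ 1} => Cfsg.centralizerPPrimeCore 2 (a : G)) ⟨a, ha, h1⟩
  · intro h x y hx hy hxy
    exact le_antisymm (half h x y hx hy hxy) (half h y x hy hx hxy.symm)

end Cfsg.Agent.S1300
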