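import Cfsg.Statements.S1302
import Cfsg.Agent.H71.Transit

set_option autoImplicit false
open Cfsg

namespace Cfsg.Agent.S1302

/-- Let X be a finite p-constrained group, p an odd prime, and A an abelian p-subgroup of X containing every element of order p of C_X(A). Then every subgroup of X of order prime to p that is normalized by A lies in O_{p'}(X). -/
theorem result {X : Type*} [Group X] [Finite X] (p : ℕ) [Fact p.Prime] (hp : p ≠ 2) (hX : Cfsg.IsPConstrained p X) (A : Subgroup X) (hA : IsMulCommutative ↥A) (hAp : IsPGroup p ↥A) (hΩ : ∀ x ∈ Subgroup.centralizer (A : Set X), orderOf x = p → x ∈ A) (Q : Subgroup X) (hQ : ¬ p ∣ Nat.card ↥Q) (hAQ : A ≤ Subgroup.normalizer (Q : Set X)) : Q ≤ Cfsg.pPrimeCore p X := by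
  have hcop : (Nat.card Q).Coprime p :=
    ((Nat.Prime.coprime_iff_not_dvd (Fact.out : p.Prime)).2 hQ).symm
  refine Cfsg.Agent.H71.Transit.bender_odd hp hX hAp ?_ hcop hAQ
  intro x hx hxp
  by_cases h1 : x = 1
  · rw [h1]; exact A.one_mem
  · exact hΩ x hx (orderOf_eq_prime hxp h1)

end Cfsg.Agent.S1302
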