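import Cfsg.Statements.S1303
import Mathlib.Tactic
import Cfsg.Agent.Solv.Core

set_option autoImplicit false
open Cfsg

namespace Cfsg.Agent.S1303

abbrev XE := Matrix.SpecialLinearGroup (Fin 2) (ZMod 3)

theorem dec1 : ∀ t : XE, t * t = 1 → ∀ g : XE, g * t = t * g := by decide +kernel

theorem dec2 : ∀ x : XE, x ≠ 1 → x * x * x = 1 → ∃ g : XE,
    (x⁻¹ * (g * x * g⁻¹)) * (x⁻¹ * (g * x * g⁻¹)) ≠ 1 ∧
    ((x⁻¹ * (g * x * g⁻¹)) * (x⁻¹ * (g * x * g⁻¹))) * ((x⁻¹ * (g * x * g⁻¹)) * (x⁻¹ * (g * x * g⁻¹))) = 1 := by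
  decide +kernel

theorem dec3 : ∀ x : XE, x * x * x * x * x * x * x * x * x * x * x * x = 1 := by decide +kernel

theorem dec4 : ∀ x y : XE, x * x * x * x = 1 → y * y * y * y = 1 → (x * y) * (x * y) * (x * y) * (x * y) = 1 := by
  decide +kernel

theorem dec5 : ∀ x : XE, (∀ y : XE, y * y * y * y = 1 → y * x = x * y) → x * x * x * x = 1 := by decide +kernel

def QE : Subgroup XE where
  carrier := {x | x * x * x * x = 1}
  one_mem' := by simp
  mul_mem' := fun {x y} hx hy => dec4 x y hx hy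
  inv_mem' := fun {x} hx => by
    have h : x * x * x * x = 1 := hx
    have : x⁻¹ * x⁻¹ * x⁻¹ * x⁻¹ = (x * x * x * x)⁻¹ := by group
    change x⁻¹ * x⁻¹ * x⁻¹ * x⁻¹ = 1
    rw [this, h, inv_one]

def uE : XE := ⟨!![1, 1; 0, 1], by simp [Matrix.det_fin_two]⟩

theorem uE3 : uE ^ 3 = 1 := by decide +kernel
theorem uE1 : uE ≠ 1 := by decide +kernel

instance QE_normal : QE.Normal := ⟨fun x hx g => by
  have h : x * x * x * x = 1 := hx
  have : g * x * g⁻¹ * (g * x * g⁻¹) * (g * x * g⁻¹) * (g * x * g⁻¹) = g * (x * x * x * x) * g⁻¹ := by group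
  change g * x * g⁻¹ * (g * x * g⁻¹) * (g * x * g⁻¹) * (g * x * g⁻¹) = 1
  rw [this, h]; group⟩

theorem QE_two : IsPGroup 2 QE := fun x => ⟨2, by
  ext : 1
  have h : (x : XE) * x * x * x = 1 := x.2
  push_cast
  calc (x : XE) ^ 4 = (x : XE) * x * x * x := by simp [pow_succ, mul_assoc]
    _ = 1 := h⟩

theorem core_bot : Cfsg.pPrimeCore 2 XE = ⊥ := by
  rw [Subgroup.eq_bot_iff_forall]
  intro x hx
  by_contra hx1
  have hcop := Cfsg.Agent.Solv.pPrimeCore_card_coprime (G := XE) 2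
  have hodd : ∀ y ∈ Cfsg.pPrimeCore 2 XE, (orderOf y).Coprime 2 := by
    intro y hy
    refine Nat.Coprime.coprime_dvd_left ?_ hcop
    have := orderOf_dvd_natCard (⟨y, hy⟩ : Cfsg.pPrimeCore 2 XE)
    rwa [Subgroup.orderOf_mk] at this
  have h12 : orderOf x ∣ 12 := orderOf_dvd_of_pow_eq_one (by
    have := dec3 x
    calc x ^ 12 = x * x * x * x * x * x * x * x * x * x * x * x := by simp [pow_succ, mul_assoc]
      _ = 1 := this)
  have h3 : orderOf x ∣ 3 := by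
    have h4 : (orderOf x).Coprime 4 := by
      rw [show (4:ℕ) = 2 ^ 2 from rfl]
      exact Nat.Coprime.pow_right 2 (hodd x hx)
    exact Nat.Coprime.dvd_of_dvd_mul_left h4 (by simpa using h12)
  have hx3 : x * x * x = 1 := by
    have := orderOf_dvd_iff_pow_eq_one.1 h3
    calc x * x * x = x ^ 3 := by simp [pow_succ, mul_assoc]
      _ = 1 := this
  obtain ⟨g, hg2, hg4⟩ := dec2 x hx1 hx3
  set y := x⁻¹ * (g * x * g⁻¹) with hy
  have hyM : y ∈ Cfsg.pPrimeCore 2 XE :=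
    mul_mem (inv_mem hx) ((Cfsg.pPrimeCore_normal 2 XE).conj_mem x hx g)
  have h4 : orderOf y ∣ 4 := orderOf_dvd_of_pow_eq_one (by
    calc y ^ 4 = (y * y) * (y * y) := by simp [pow_succ, mul_assoc]
      _ = 1 := hg4)
  have h5 : orderOf y = 1 := by
    have h6 : (orderOf y).Coprime 4 := by
      rw [show (4:ℕ) = 2 ^ 2 from rfl]
      exact Nat.Coprime.pow_right 2 (hodd y hyM)
    exact Nat.Coprime.eq_one_of_dvd h6 h4
  apply hg2
  rw [orderOf_eq_one_iff.1 h5, one_mul]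

theorem QE_le : QE ≤ Cfsg.pPrimePCore 2 XE := by
  rw [Cfsg.pPrimePCore, ← Subgroup.map_le_iff_le_comap]
  exact Cfsg.Agent.Solv.le_pCore (QE_normal.map _ (QuotientGroup.mk'_surjective _)) (QE_two.map _)

/-- The group X = SL(2, 3): it is 2-constrained, O_{2'}(X) = 1, its centre A = Z(X) contains every involution of X = C_X(A), and X has a subgroup of order 3 (normalized by A) not contained in O_{2'}(X). -/
theorem result : Cfsg.IsPConstrained 2 (Matrix.SpecialLinearGroup (Fin 2) (ZMod 3)) ∧ Cfsg.pPrimeCore 2 (Matrix.SpecialLinearGroup (Fin 2) (ZMod 3)) = ⊥ ∧ (∀ t : Matrix.SpecialLinearGroup (Fin 2) (ZMod 3), orderOf t = 2 → t ∈ Subgroup.center (Matrix.SpecialLinearGroup (Fin 2) (ZMod 3))) ∧ ∃ Q : Subgroup (Matrix.SpecialLinearGroup (Fin 2) (ZMod 3)), Nat.card ↥Q = 3 ∧ ¬ (Q ≤ Cfsg.pPrimeCore 2 (Matrix.SpecialLinearGroup (Fin 2) (ZMod 3))) := by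
  refine ⟨?_, core_bot, ?_, ?_⟩
  · intro P
    have h1 : QE.subgroupOf (Cfsg.pPrimePCore 2 XE) ≤ (P : Subgroup ↥(Cfsg.pPrimePCore 2 XE)) :=
      (QE_two.comap_of_injective _ (Subgroup.subtype_injective _)).le_sylow_of_normal P
    have h2 : QE ≤ (P : Subgroup ↥(Cfsg.pPrimePCore 2 XE)).map (Cfsg.pPrimePCore 2 XE).subtype := by
      intro x hx
      exact ⟨⟨x, QE_le hx⟩, h1 hx, rfl⟩
    refine (Subgroup.centralizer_le h2).trans (le_trans ?_ QE_le)
    intro x hx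
    exact dec5 x fun y hy => Subgroup.mem_centralizer_iff.1 hx y hy
  · intro t ht
    rw [Subgroup.mem_center_iff]
    refine dec1 t ?_
    have := pow_orderOf_eq_one t
    rwa [ht, pow_two] at this
  · refine ⟨Subgroup.zpowers uE, ?_, ?_⟩
    · rw [Nat.card_zpowers]
      exact orderOf_eq_prime uE3 uE1
    · rw [core_bot]
      intro h
      have := Subgroup.mem_bot.1 (h (Subgroup.mem_zpowers _))
      exact uE1 this

end Cfsg.Agent.S1303
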