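import Cfsg.Statements.S1304
import Mathlib.Tactic

set_option autoImplicit false
open Cfsg

namespace Cfsg.Agent.S1304

/-- Let X be a perfect group and α an automorphism of X with α(x) x⁻¹ central for every x. Then α is the identity. -/
theorem result {X : Type*} [Group X] (hperf : commutator X = ⊤) (α : X ≃* X) (h : ∀ x : X, α x * x⁻¹ ∈ Subgroup.center X) : ∀ x : X, α x = x := by
  obtain ⟨f, hf⟩ : ∃ f : X →* Subgroup.center X, ∀ x, ((f x : Subgroup.center X) : X) = α x * x⁻¹ :=
    ⟨{ toFun := fun x => ⟨α x * x⁻¹, h x⟩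
       map_one' := by ext; simp
       map_mul' := fun x y => by
         ext
         simp only [map_mul, mul_inv_rev, Subgroup.coe_mul]
         have hy := (Subgroup.mem_center_iff.1 (h y)) x⁻¹
         calc α x * α y * (y⁻¹ * x⁻¹) = α x * ((α y * y⁻¹) * x⁻¹) := by group
           _ = α x * (x⁻¹ * (α y * y⁻¹)) := by rw [hy]
           _ = α x * x⁻¹ * (α y * y⁻¹) := by group }, fun x => rfl⟩
  have hk : commutator X ≤ f.ker := by
    rw [commutator_def, Subgroup.commutator_le]
    intro x _ y _
    rw [MonoidHom.mem_ker, map_commutatorElement, commutatorElement_eq_one_iff_commute]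
    exact Subtype.ext ((Subgroup.mem_center_iff.1 (f y).2) _)
  intro x
  have hx : x ∈ f.ker := hk (by rw [hperf]; exact Subgroup.mem_top x)
  have h1 : f x = 1 := MonoidHom.mem_ker.1 hx
  have h2 : ((f x : Subgroup.center X) : X) = 1 := by rw [h1]; rfl
  rw [hf] at h2
  exact mul_inv_eq_one.1 h2

end Cfsg.Agent.S1304
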