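import Cfsg.Statements.S1306
import Cfsg.Agent.FStar.Layer
import Cfsg.Agent.SigF.Coprime

set_option autoImplicit false
open Cfsg

namespace Cfsg.Agent.S1306

theorem conj_component {G : Type*} [Group G] {L C : Subgroup G} (hLC : L ≤ C)
    (h : Cfsg.IsComponent (L.subgroupOf C)) (g : G) :
    Cfsg.IsComponent ((SigF.cj g L).subgroupOf (SigF.cj g C)) := by
  have e := FStar.isComponent_map_equiv (C.equivMapOfInjective (MulAut.conj g).toMonoidHom
    (MulAut.conj g).injective) (L := L.subgroupOf C)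
  have h1 := e.2 h
  have h2 : (L.subgroupOf C).map (C.equivMapOfInjective (MulAut.conj g).toMonoidHom
    (MulAut.conj g).injective).toMonoidHom = (SigF.cj g L).subgroupOf (SigF.cj g C) := by
    ext z
    constructor
    · rintro ⟨w, hw, rfl⟩
      exact ⟨w, hw, rfl⟩
    · rintro ⟨w, hw, hwz⟩
      exact ⟨⟨w, hLC hw⟩, hw, Subtype.ext hwz⟩
  rw [h2] at h1
  exact h1

theorem key {G : Type*} [Group G] [Finite G] (L : Subgroup G)
    (hne : ∀ y : G, orderOf y = 2 → y ∈ Subgroup.centralizer (L : Set G) →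
      L ≤ Subgroup.centralizer ({y} : Set G) ∧
      Cfsg.IsComponent (L.subgroupOf (Subgroup.centralizer ({y} : Set G))))
    (hnc : ∀ g : G, L.map (MulAut.conj g).toMonoidHom ≠ L →
      ⁅L, L.map (MulAut.conj g).toMonoidHom⁆ ≠ ⊥) (y g : G) (hy : orderOf y = 2)
    (hyL : y ∈ Subgroup.centralizer (L : Set G))
    (hgy : g⁻¹ * y * g ∈ Subgroup.centralizer (L : Set G)) :
    SigF.cj g L = L := by
  by_contra hcon
  apply hnc g hcon
  obtain ⟨h1, h2⟩ := hne y hy hyL
  obtain ⟨h3, h4⟩ := hne (g⁻¹ * y * g) (by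
    have : g⁻¹ * y * g = MulAut.conj g⁻¹ y := by simp
    rw [this, MulEquiv.orderOf_eq, hy]) hgy
  have h5 := conj_component h3 h4 g
  have h6 : SigF.cj g (Subgroup.centralizer ({g⁻¹ * y * g} : Set G)) =
      Subgroup.centralizer ({y} : Set G) := by
    ext z
    rw [SigF.mem_cj, Subgroup.mem_centralizer_singleton_iff, Subgroup.mem_centralizer_singleton_iff]
    constructor
    · intro h
      have h7 : g * (g⁻¹ * z * g * (g⁻¹ * y * g)) * g⁻¹ =
        g * (g⁻¹ * y * g * (g⁻¹ * z * g)) * g⁻¹ := by rw [h]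
      have h8 : g * (g⁻¹ * z * g * (g⁻¹ * y * g)) * g⁻¹ = z * y := by group
      have h9 : g * (g⁻¹ * y * g * (g⁻¹ * z * g)) * g⁻¹ = y * z := by group
      rw [h8, h9] at h7
      exact h7
    · intro h
      have h8 : g⁻¹ * z * g * (g⁻¹ * y * g) = g⁻¹ * (z * y) * g := by group
      have h9 : g⁻¹ * y * g * (g⁻¹ * z * g) = g⁻¹ * (y * z) * g := by group
      rw [h8, h9, h]
  rw [h6] at h5
  have h7 : SigF.cj g L ≤ Subgroup.centralizer ({y} : Set G) := by
    rw [← h6]; exact SigF.cj_mono h3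
  have h8 : L.subgroupOf (Subgroup.centralizer ({y} : Set G)) ≠
      (SigF.cj g L).subgroupOf (Subgroup.centralizer ({y} : Set G)) := by
    intro h
    apply hcon
    have := congrArg (Subgroup.map (Subgroup.subtype _)) h
    rw [Subgroup.map_subgroupOf_eq_of_le h1, Subgroup.map_subgroupOf_eq_of_le h7] at this
    exact this.symm
  have h9 := FStar.component_commute h2 h5 h8
  exact (FStar.subgroupOf_commutator_eq_bot_iff h1 h7).1 h9

/-- Let G be finite, x an involution and L ≤ C_G(x) a component of C_G(x). Suppose L is a component of C_G(y) for every involution y ∈ C_G(L), and ⁅L, g L g⁻¹⁆ ≠ 1 whenever g L g⁻¹ ≠ L. Then L is a standard subgroup of G. -/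
theorem result {G : Type*} [Group G] [Finite G] (x : G) (hx : orderOf x = 2) (L : Subgroup G) (hLx : L ≤ Subgroup.centralizer ({x} : Set G)) (hL : Cfsg.IsComponent (L.subgroupOf (Subgroup.centralizer ({x} : Set G)))) (hne : ∀ y : G, orderOf y = 2 → y ∈ Subgroup.centralizer (L : Set G) → L ≤ Subgroup.centralizer ({y} : Set G) ∧ Cfsg.IsComponent (L.subgroupOf (Subgroup.centralizer ({y} : Set G)))) (hnc : ∀ g : G, L.map (MulAut.conj g).toMonoidHom ≠ L → ⁅L, L.map (MulAut.conj g).toMonoidHom⁆ ≠ ⊥) : Cfsg.IsStandardSubgroup L := by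
  have hxL : x ∈ Subgroup.centralizer (L : Set G) := by
    rw [Subgroup.mem_centralizer_iff]
    intro l hl
    exact Subgroup.mem_centralizer_singleton_iff.1 (hLx hl)
  have hqs : Cfsg.IsQuasisimple L := (FStar.isQuasisimple_subgroupOf hLx).1 hL.2
  have hnorm : ∀ g : G, SigF.cj g L = L → SigF.cj g (Subgroup.centralizer (L : Set G)) =
      Subgroup.centralizer (L : Set G) := by
    intro g hg
    have h : ((fun x => g * x * g⁻¹) '' (L : Set G)) = (L : Set G) := by
      conv_rhs => rw [← hg]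
      rfl
    rw [SigF.cj_centralizer, h]
  refine ⟨hqs, ⟨?_, ?_⟩, hnc, ?_⟩
  · rw [even_iff_two_dvd, ← hx]
    have h1 : orderOf (⟨x, hxL⟩ : Subgroup.centralizer (L : Set G)) = orderOf x :=
      Subgroup.orderOf_mk x hxL
    rw [← h1]
    exact orderOf_dvd_natCard _
  · intro g hg
    rw [← Nat.not_even_iff_odd, even_iff_two_dvd]
    intro h2
    obtain ⟨y, hy⟩ := exists_prime_orderOf_dvd_card' 2 h2
    apply hg
    rw [SigF.mem_normalizer_iff_cj]
    apply hnorm
    have hy1 : (y : G) ∈ Subgroup.centralizer (L : Set G) := (Subgroup.mem_inf.1 y.2).1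
    have hy2 : (y : G) ∈ SigF.cj g (Subgroup.centralizer (L : Set G)) := (Subgroup.mem_inf.1 y.2).2
    rw [SigF.mem_cj] at hy2
    exact key L hne hnc y g (by rw [Subgroup.orderOf_coe]; exact hy) hy1 hy2
  · ext g
    rw [SigF.mem_normalizer_iff_cj, SigF.mem_normalizer_iff_cj]
    refine ⟨hnorm g, fun h => ?_⟩
    have h2 : x ∈ SigF.cj g (Subgroup.centralizer (L : Set G)) := by rw [h]; exact hxL
    rw [SigF.mem_cj] at h2
    exact key L hne hnc x g hx hxL h2

end Cfsg.Agent.S1306
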