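import Cfsg.Statements.S1307
import Cfsg.Agent.Bal.Bigger
import Cfsg.Agent.H49.RankOne
import Cfsg.Agent.H4.Final
import Cfsg.Agent.H52.QS

set_option autoImplicit false
open Cfsg

namespace Cfsg.Agent.S1307

open Subgroup Cfsg.Agent.FStar Cfsg.Agent.Bal in
theorem central_involution {L : Type*} [Group L] [Finite L] (hL : Cfsg.IsQuasisimple L)
    (heven : Even (Nat.card L)) (hrk : Cfsg.PRankLE 2 1 L) :
    ∃ u : L, orderOf u = 2 ∧ u ∈ Subgroup.center L ∧
      ∃ S : Sylow 2 L, ∃ n : ℕ, Nonempty (↥(S : Subgroup L) ≃* QuaternionGroup (2 ^ (n + 1))) := by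
  have hp2 : Fact (Nat.Prime 2) := ⟨Nat.prime_two⟩
  obtain ⟨S⟩ : Nonempty (Sylow 2 L) := inferInstance
  have hnc : ¬ IsCyclic S := by
    intro hc
    have h1 : (Nat.card L).minFac = 2 := by
      rw [Nat.minFac_eq_two_iff]; exact heven.two_dvd
    have h2 := IsCyclic.normalizer_le_centralizer h1 hc
    have h3 := coprime_card_of_normalizer_le hL.1 S h2
    rw [Nat.coprime_comm, Nat.Prime.coprime_iff_not_dvd Nat.prime_two] at h3
    exact h3 heven.two_dvd
  have hq := Cfsg.Agent.H49.cyclic_or_quaternion_of_pRankLE S.isPGroup' (Cfsg.Agent.H49.pRankLE_subgroup hrk S)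
  rcases hq with h | ⟨-, n, ⟨e⟩⟩
  · exact absurd h hnc
  have hn : n ≠ 0 := by
    rintro rfl
    apply hnc
    have : IsCyclic (QuaternionGroup (2 ^ 0)) := by
      rw [pow_zero]
      exact QuaternionGroup.quaternionGroup_one_isCyclic
    exact isCyclic_of_surjective e.symm e.symm.surjective
  obtain ⟨m, rfl⟩ := Nat.exists_eq_succ_of_ne_zero hn
  have : NeZero (2 ^ (m + 1)) := ⟨by positivity⟩
  set u : S := e.symm (QuaternionGroup.a ((2 ^ (m + 1) : ℕ) : ZMod (2 * 2 ^ (m + 1)))) with hu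
  have hu2 : orderOf (u : L) = 2 := by
    rw [Subgroup.orderOf_coe, hu, MulEquiv.orderOf_eq]
    apply orderOf_eq_prime
    · rw [pow_two]; exact Cfsg.Agent.H4.quat_a_mul_self
    · exact Cfsg.Agent.H4.quat_a_ne_one
  have huniq : ∀ v ∈ (S : Subgroup L), orderOf v = 2 → v = (u : L) := by
    intro v hv hv2
    have h1 : e ⟨v, hv⟩ * e ⟨v, hv⟩ = 1 := by
      rw [← map_mul, ← pow_two]
      have : (⟨v, hv⟩ : S) ^ 2 = 1 := Subtype.ext (by
        show v ^ 2 = 1
        rw [← hv2, pow_orderOf_eq_one])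
      rw [this, map_one]
    rcases Cfsg.Agent.H4.quat_sq_eq_one _ h1 with h2 | h2
    · exfalso
      have h3 : (⟨v, hv⟩ : S) = 1 := e.injective (by rw [h2, map_one])
      have h4 : v = 1 := congrArg Subtype.val h3
      rw [h4, orderOf_one] at hv2
      exact absurd hv2 (by norm_num)
    · have h3 : (⟨v, hv⟩ : S) = u := by
        rw [hu, ← h2, MulEquiv.symm_apply_apply]
      exact congrArg Subtype.val h3
  refine ⟨u, hu2, ?_, S, m, ⟨e⟩⟩
  have hO : Cfsg.pPrimeCore 2 L ≤ Subgroup.center L := by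
    rcases eq_top_or_le_center_of_normal hL (Cfsg.pPrimeCore 2 L) inferInstance with h | h
    · exfalso
      have h1 := Cfsg.Agent.Solv.pPrimeCore_card_coprime (G := L) 2
      rw [h, Subgroup.card_top, Nat.coprime_comm, Nat.Prime.coprime_iff_not_dvd Nat.prime_two] at h1
      exact h1 heven.two_dvd
    · exact h
  apply Cfsg.Agent.H52.mem_center_of_commutator_mem_center hL.1
  intro y
  have h1 := Cfsg.Agent.H4.zstar_uniq S hu2 huniq y
  have h2 := inv_mem (hO h1)
  rw [commutatorElement_def]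
  have : y * (u : L) * y⁻¹ * (u : L)⁻¹ = ((u : L) * y * (u : L)⁻¹ * y⁻¹)⁻¹ := by group
  rw [this]; exact h2

/-- Let G be finite, x an involution and L ≤ C_G(x) a component of C_G(x) of even order and 2-rank 1, such that L is a component of C_G(y) for every involution y ∈ C_G(L). Then some involution of L is a classical involution of G. -/
theorem result {G : Type*} [Group G] [Finite G] (x : G) (hx : orderOf x = 2) (L : Subgroup G) (hLx : L ≤ Subgroup.centralizer ({x} : Set G)) (hL : Cfsg.IsComponent (L.subgroupOf (Subgroup.centralizer ({x} : Set G)))) (heven : Even (Nat.card ↥L)) (hrk : Cfsg.PRankLE 2 1 ↥L) (hne : ∀ y : G, orderOf y = 2 → y ∈ Subgroup.centralizer (L : Set G) → L ≤ Subgroup.centralizer ({y} : Set G) ∧ Cfsg.IsComponent (L.subgroupOf (Subgroup.centralizer ({y} : Set G)))) : ∃ t ∈ L, Cfsg.IsClassicalInvolution t := by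
  have hLq : Cfsg.IsQuasisimple L := (Cfsg.Agent.FStar.isQuasisimple_subgroupOf hLx).1 hL.2
  obtain ⟨u, hu2, huc, S, n, e⟩ := central_involution hLq heven hrk
  have hu2' : orderOf (u : G) = 2 := by rw [Subgroup.orderOf_coe]; exact hu2
  have huL : (u : G) ∈ Subgroup.centralizer (L : Set G) := by
    refine Subgroup.mem_centralizer_iff.2 fun y hy => ?_
    exact congrArg Subtype.val (Subgroup.mem_center_iff.1 huc ⟨y, hy⟩)
  obtain ⟨h1, h2⟩ := hne u hu2' huL
  exact ⟨u, u.2, hu2', L, h1, u.2, h2.1, S, n, e⟩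

end Cfsg.Agent.S1307
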