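import Cfsg.Statements.S1314
import Mathlib.Tactic

set_option autoImplicit false
open Cfsg

namespace Cfsg.Agent.S1314

section
open scoped commutatorElement

theorem comm_aux {G : Type*} [Group G] {a b z z' : G} (c1 : Commute z b) (c3 : Commute z z')
    (c4 : Commute z' a) : ⁅a * z, b * z'⁆ = ⁅a, b⁆ := by
  have c2 : Commute z (b * z') := c1.mul_right c3
  calc ⁅a * z, b * z'⁆ = a * (z * (b * z')) * z⁻¹ * a⁻¹ * (b * z')⁻¹ := by
        rw [commutatorElement_def]; group
    _ = a * b * (z' * a⁻¹) * z'⁻¹ * b⁻¹ := by rw [c2.eq]; group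
    _ = a * b * (a⁻¹ * z') * z'⁻¹ * b⁻¹ := by rw [(c4.inv_right).eq]
    _ = ⁅a, b⁆ := by rw [commutatorElement_def]; group

end

/-- Let x be an involution of a group G and L a perfect subgroup with ⁅L, x L x⁻¹⁆ = 1. Then l ↦ l (x l x⁻¹) is a group homomorphism π from L to G whose kernel is central in L and whose image lies in C_G(x); and the commutator subgroup of C_{L ⊔ xLx⁻¹}(x) equals the image of π. -/
theorem result {G : Type*} [Group G] [Finite G] (x : G) (hx : orderOf x = 2) (L : Subgroup G) (hperf : ⁅L, L⁆ = L) (hcomm : ⁅L, L.map (MulAut.conj x).toMonoidHom⁆ = ⊥) : ∃ π : ↥L →* G, (∀ l : ↥L, π l = (l : G) * (x * (l : G) * x⁻¹)) ∧ π.ker ≤ Subgroup.center ↥L ∧ π.range ≤ Subgroup.centralizer ({x} : Set G) ∧ ⁅(L ⊔ L.map (MulAut.conj x).toMonoidHom) ⊓ Subgroup.centralizer ({x} : Set G), (L ⊔ L.map (MulAut.conj x).toMonoidHom) ⊓ Subgroup.centralizer ({x} : Set G)⁆ = π.range := by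
  have hx2 : x * x = 1 := by
    have := pow_orderOf_eq_one x
    rwa [hx, pow_two] at this
  have hxi : x⁻¹ = x := inv_eq_of_mul_eq_one_left hx2
  have hc : ∀ l ∈ L, ∀ m ∈ L, l * (x * m * x⁻¹) = (x * m * x⁻¹) * l := by
    intro l hl m hm
    have h1 := Subgroup.commutator_eq_bot_iff_le_centralizer.1 hcomm hl
    exact (Subgroup.mem_centralizer_iff.1 h1 (x * m * x⁻¹) ⟨m, hm, by simp [MulAut.conj_apply]⟩).symm
  obtain ⟨π, hπ⟩ : ∃ π : ↥L →* G, ∀ l : ↥L, π l = (l : G) * (x * (l : G) * x⁻¹) :=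
    ⟨{ toFun := fun l => (l : G) * (x * (l : G) * x⁻¹)
       map_one' := by simp
       map_mul' := fun l m => by
         have h1 := hc m m.2 l l.2
         calc ((l * m : ↥L) : G) * (x * ((l * m : ↥L) : G) * x⁻¹)
             = l * (m * (x * l * x⁻¹)) * (x * m * x⁻¹) := by rw [Subgroup.coe_mul]; group
           _ = l * ((x * l * x⁻¹) * m) * (x * m * x⁻¹) := by rw [h1]
           _ = l * (x * l * x⁻¹) * (m * (x * m * x⁻¹)) := by group }, fun l => rfl⟩
  have hker : π.ker ≤ Subgroup.center ↥L := by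
    intro l hl
    rw [MonoidHom.mem_ker, hπ] at hl
    rw [Subgroup.mem_center_iff]
    intro m
    ext
    have h1 : (l : G) = (x * (l : G) * x⁻¹)⁻¹ := eq_inv_of_mul_eq_one_left hl
    have h2 : (l : G) = x * ((l⁻¹ : ↥L) : G) * x⁻¹ := by
      refine h1.trans ?_
      rw [Subgroup.coe_inv]; group
    have h3 := hc m m.2 (l⁻¹ : ↥L) (l⁻¹ : ↥L).2
    rw [← h2] at h3
    exact h3
  have hcent : ∀ l : ↥L, π l ∈ Subgroup.centralizer ({x} : Set G) := by
    intro l
    rw [Subgroup.mem_centralizer_singleton_iff, hπ]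
    have h1 := hc l l.2 l l.2
    symm
    calc x * (l * (x * l * x⁻¹)) = (x * l * x⁻¹) * (x * x * l * x⁻¹) := by group
      _ = (x * l * x⁻¹) * l * x⁻¹ := by rw [hx2]; group
      _ = l * (x * l * x⁻¹) * x := by rw [← h1, hxi]
  have hcent' : π.range ≤ Subgroup.centralizer ({x} : Set G) := by
    rintro _ ⟨l, rfl⟩
    exact hcent l
  refine ⟨π, hπ, hker, hcent', ?_⟩
  have hle : π.range ≤ (L ⊔ L.map (MulAut.conj x).toMonoidHom) ⊓ Subgroup.centralizer ({x} : Set G) := by
    refine le_inf ?_ hcent'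
    rintro _ ⟨l, rfl⟩
    rw [hπ]
    exact mul_mem (Subgroup.mem_sup_left l.2) (Subgroup.mem_sup_right ⟨l, l.2, by simp [MulAut.conj_apply]⟩)
  have hperf' : ⁅π.range, π.range⁆ = π.range := by
    have h1 : ⁅(⊤ : Subgroup ↥L), (⊤ : Subgroup ↥L)⁆ = (⊤ : Subgroup ↥L) := by
      apply Subgroup.map_injective L.subtype_injective
      rw [Subgroup.map_commutator, ← MonoidHom.range_eq_map, Subgroup.range_subtype, hperf]
    rw [MonoidHom.range_eq_map π, ← Subgroup.map_commutator, h1]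
  apply le_antisymm
  · rw [Subgroup.commutator_le]
    have hsup : L ⊔ L.map (MulAut.conj x).toMonoidHom =
        (MonoidHom.noncommCoprod L.subtype ((MulAut.conj x).toMonoidHom.comp L.subtype)
          (fun l m => by
            have := hc l l.2 m m.2
            simpa [Commute, SemiconjBy, MulAut.conj_apply] using this)).range := by
      rw [MonoidHom.noncommCoprod_range, Subgroup.range_subtype, MonoidHom.range_comp,
        Subgroup.range_subtype]
    have key : ∀ g ∈ (L ⊔ L.map (MulAut.conj x).toMonoidHom) ⊓ Subgroup.centralizer ({x} : Set G),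
        ∃ m : ↥L, ∃ z ∈ L, (∃ z' ∈ L, z = x * z' * x⁻¹) ∧ g = π m * z := by
      rintro g ⟨hg1, hg2⟩
      rw [hsup] at hg1
      obtain ⟨⟨l, m⟩, hlm⟩ := hg1
      have hg : g = l * (x * m * x⁻¹) := by
        rw [← hlm]; simp [MulAut.conj_apply]
      have hgx := Subgroup.mem_centralizer_singleton_iff.1 hg2
      have h1 : x * g * x⁻¹ = m * (x * l * x⁻¹) := by
        rw [hg, hc m m.2 l l.2]
        calc x * (l * (x * m * x⁻¹)) * x⁻¹ = (x * l * x⁻¹) * (x * x) * m * (x * x)⁻¹ := by group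
          _ = (x * l * x⁻¹) * m := by rw [hx2]; group
      have h2 : x * g * x⁻¹ = g := by rw [← hgx]; group
      rw [h2] at h1
      have h3 : (m : G)⁻¹ * l = x * (l * (m : G)⁻¹) * x⁻¹ := by
        have h4 : (l : G) * (x * m * x⁻¹) = m * (x * l * x⁻¹) := by rw [← hg, h1]
        calc (m : G)⁻¹ * l = (m : G)⁻¹ * (l * (x * m * x⁻¹)) * (x * m * x⁻¹)⁻¹ := by group
          _ = (m : G)⁻¹ * (m * (x * l * x⁻¹)) * (x * m * x⁻¹)⁻¹ := by rw [h4]
          _ = _ := by group
      refine ⟨m, (m : G)⁻¹ * l, mul_mem (inv_mem m.2) l.2, ⟨l * (m : G)⁻¹, mul_mem l.2 (inv_mem m.2), h3⟩, ?_⟩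
      rw [hπ, hg, mul_assoc (m : G), ← hc _ (mul_mem (inv_mem m.2) l.2) m m.2]
      group
    have hz : ∀ z ∈ L, (∃ z' ∈ L, z = x * z' * x⁻¹) → ∀ m : ↥L, Commute z (π m) ∧ Commute z (m : G) := by
      rintro z hzL ⟨z', hz', hzz'⟩ m
      have h1 : Commute z (m : G) := by
        have := hc m m.2 z' hz'
        rw [← hzz'] at this
        exact this.symm
      refine ⟨?_, h1⟩
      rw [hπ]
      exact h1.mul_right (hc z hzL m m.2)
    intro g hg g' hg'
    obtain ⟨m, z, hzL, hzx, rfl⟩ := key g hg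
    obtain ⟨m', z', hzL', hzx', rfl⟩ := key g' hg'
    have c1 := (hz z hzL hzx m').1
    have c3 : Commute z z' := (hz z hzL hzx ⟨z', hzL'⟩).2
    have c4 := (hz z' hzL' hzx' m).1
    rw [comm_aux c1 c3 c4, ← map_commutatorElement]
    exact ⟨_, rfl⟩
  · calc π.range = ⁅π.range, π.range⁆ := hperf'.symm
      _ ≤ _ := Subgroup.commutator_mono hle hle

end Cfsg.Agent.S1314
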