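import Cfsg.Statements.S1316
import Cfsg.Agent.FStar.Layer

set_option autoImplicit false
open Cfsg

namespace Cfsg.Agent.S1316

/-- For a finite group X, E(X) equals the intersection of the derived series of F*(X) (its last term). -/
theorem result {X : Type*} [Group X] [Finite X] : (⨅ n : ℕ, (derivedSeries ↥(Cfsg.generalizedFittingSubgroup X) n).map (Cfsg.generalizedFittingSubgroup X).subtype) = Cfsg.layer X := by
  obtain ⟨F, hF⟩ : ∃ F : Subgroup X, F = Cfsg.generalizedFittingSubgroup X := ⟨_, rfl⟩
  have hEF : Cfsg.layer X ≤ F := by rw [hF]; exact FStar.layer_le_generalizedFitting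
  rw [← hF]
  apply le_antisymm
  · have hsolv : Group.IsSolvable (F ⧸ (Cfsg.layer X).subgroupOf F) := by
      have hFF : Cfsg.fittingSubgroup X ≤ F := by rw [hF]; exact FStar.fitting_le_generalizedFitting
      have h1 : Function.Surjective ((QuotientGroup.mk' ((Cfsg.layer X).subgroupOf F)).comp
          (Subgroup.inclusion hFF)) := by
        intro q
        obtain ⟨⟨x, hx⟩, rfl⟩ := QuotientGroup.mk'_surjective _ q
        have hx' := hx
        rw [hF, Cfsg.generalizedFittingSubgroup, sup_comm] at hx'
        obtain ⟨f, hf, e, he, hfe⟩ := FStar.mem_sup_of_le_normalizer (by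
          rw [Subgroup.normalizer_eq_top]; exact le_top) hx'
        refine ⟨⟨f, hf⟩, ?_⟩
        rw [MonoidHom.comp_apply]
        apply (QuotientGroup.eq).2
        rw [Subgroup.mem_subgroupOf]
        have : ((Subgroup.inclusion hFF ⟨f, hf⟩)⁻¹ * ⟨x, hx⟩ : F).1 = f⁻¹ * x := rfl
        rw [this, ← hfe, inv_mul_cancel_left]
        exact he
      haveI := FStar.fitting_isSolvable (G := X)
      exact Group.isSolvable_of_surjective h1
    obtain ⟨n, hn⟩ := (Group.isSolvable_def _).1 hsolv
    refine (iInf_le _ n).trans ?_
    have h2 := map_derivedSeries_eq (QuotientGroup.mk'_surjective ((Cfsg.layer X).subgroupOf F)) n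
    rw [hn, Subgroup.map_eq_bot_iff, QuotientGroup.ker_mk'] at h2
    refine (Subgroup.map_mono h2).trans ?_
    rw [Subgroup.subgroupOf_map_subtype]
    exact inf_le_left
  · apply le_iInf
    intro n
    have h1 : (Cfsg.layer X).subgroupOf F ≤ derivedSeries F n := by
      induction n with
      | zero => exact le_top
      | succ n ih =>
        rw [derivedSeries_succ]
        refine le_trans ?_ (Subgroup.commutator_mono ih ih)
        apply le_of_eq
        apply Subgroup.map_injective F.subtype_injective
        rw [Subgroup.map_commutator, Subgroup.map_subgroupOf_eq_of_le hEF, FStar.commutator_layer]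
    have h2 := Subgroup.map_mono (f := F.subtype) h1
    rwa [Subgroup.map_subgroupOf_eq_of_le hEF] at h2

end Cfsg.Agent.S1316
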