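import Cfsg.Statements.S1318
import Cfsg.Agent.SigF.Comp

set_option autoImplicit false
open Cfsg

namespace Cfsg.Agent.S1318

/-- Let X be finite and S ≤ F*(X) a subgroup subnormal in F*(X). Then F(S) = F(X) ∩ S (inside X) and S = F(S)E(S). -/
theorem result {X : Type*} [Group X] [Finite X] (S : Subgroup X) (hS : S ≤ Cfsg.generalizedFittingSubgroup X) (hsn : (S.subgroupOf (Cfsg.generalizedFittingSubgroup X)).IsSubnormal) : (Cfsg.fittingSubgroup ↥S).map S.subtype = Cfsg.fittingSubgroup X ⊓ S ∧ Cfsg.fittingSubgroup ↥S ⊔ Cfsg.layer ↥S = ⊤ := by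
  have hsn' : S.IsSubnormal := by
    have h1 := hsn.trans' (Subgroup.Normal.isSubnormal
      (inferInstance : (Cfsg.generalizedFittingSubgroup X).Normal))
    rwa [Subgroup.map_subgroupOf_eq_of_le hS] at h1
  constructor
  · apply le_antisymm
    · exact le_inf (SigF.map_fitting_subtype_le hsn') (Subgroup.map_subtype_le _)
    · exact SigF.fitting_inf_le_map S
  · apply Subgroup.map_injective S.subtype_injective
    rw [sup_comm, ← MonoidHom.range_eq_map, Subgroup.range_subtype]
    exact le_antisymm (Subgroup.map_subtype_le _) (SigF.le_map_generalizedFitting hS hsn')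

end Cfsg.Agent.S1318
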