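import Cfsg.Statements.S1319
import Cfsg.Agent.FStar.Layer

set_option autoImplicit false
open Cfsg

namespace Cfsg.Agent.S1319

/-- Let A be a subnormal subgroup of the finite group X with E(A) = A. Then A ≤ E(X) and A is normal in E(X). -/
theorem result {X : Type*} [Group X] [Finite X] (A : Subgroup X) (hsn : A.IsSubnormal) (hA : Cfsg.layer ↥A = ⊤) : A ≤ Cfsg.layer X ∧ (A.subgroupOf (Cfsg.layer X)).Normal := by
  have h1 : (Cfsg.layer A).map A.subtype = A := by
    rw [hA, ← MonoidHom.range_eq_map, Subgroup.range_subtype]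
  have h2 : A ≤ Cfsg.layer X := by
    conv_lhs => rw [← h1]
    exact FStar.map_layer_subtype_le hsn
  refine ⟨h2, ?_⟩
  rw [Subgroup.normal_subgroupOf_iff_le_normalizer h2]
  have h3 : sSup {L : Subgroup X | Cfsg.IsComponent L ∧ L ≤ A} = A := by
    rw [← FStar.map_layer_subtype hsn, h1]
  have h4 : ∀ x ∈ Cfsg.layer X, A ≤ A.comap (MulAut.conj x).toMonoidHom := by
    intro x hx
    conv_lhs => rw [← h3]
    apply sSup_le
    rintro L ⟨hL, hLA⟩ l hl
    have h5 := FStar.layer_le_normalizer hL hx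
    have h6 := (Subgroup.mem_normalizer_iff.1 h5 l).1 hl
    exact hLA h6
  intro x hx
  rw [Subgroup.mem_normalizer_iff]
  intro h
  constructor
  · intro hh
    exact h4 x hx hh
  · intro hh
    have h5 := h4 x⁻¹ (inv_mem hx) hh
    have h6 : x⁻¹ * (x * h * x⁻¹) * x⁻¹⁻¹ ∈ A := h5
    have h7 : x⁻¹ * (x * h * x⁻¹) * x⁻¹⁻¹ = h := by group
    rwa [h7] at h6

end Cfsg.Agent.S1319
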