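import Cfsg.Statements.S1320
import Cfsg.Agent.SigF.Comp

set_option autoImplicit false
open Cfsg

namespace Cfsg.Agent.S1320

/-- Let B be a normal subgroup of the finite group A. Then F*(A) ∩ B = F*(B). -/
theorem result {A : Type*} [Group A] [Finite A] (B : Subgroup A) [B.Normal] : Cfsg.generalizedFittingSubgroup A ⊓ B = (Cfsg.generalizedFittingSubgroup ↥B).map B.subtype := by
  have hB : B.IsSubnormal := Subgroup.Normal.isSubnormal (inferInstance : B.Normal)
  apply le_antisymm
  · obtain ⟨D, hD⟩ : ∃ D : Subgroup A, D = Cfsg.generalizedFittingSubgroup A ⊓ B := ⟨_, rfl⟩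
    have hDn : D.Normal := by rw [hD]; infer_instance
    have hDB : D ≤ B := hD ▸ inf_le_right
    rw [← hD]
    refine (SigF.le_sup_of_isSubnormal (hD ▸ inf_le_left) hDn.isSubnormal).trans ?_
    rw [Cfsg.generalizedFittingSubgroup, Subgroup.map_sup]
    apply sup_le_sup
    · rw [FStar.map_layer_subtype hB]
      apply sSup_le_sSup
      rintro L ⟨hL, hLD⟩
      exact ⟨hL, hLD.trans hDB⟩
    · exact (inf_le_inf_left _ hDB).trans (SigF.fitting_inf_le_map B)
  · exact le_inf (FStar.map_generalizedFitting_subtype_le hB) (Subgroup.map_subtype_le _)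

end Cfsg.Agent.S1320
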