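import Cfsg.Statements.S1321
import Cfsg.Agent.FStar.Layer

set_option autoImplicit false
open Cfsg

namespace Cfsg.Agent.S1321

/-- Let X be finite and U ≤ X. Then E(X) is generated by C_{E(X)}(U) together with ⁅E(X), U⁆ (indeed it is their product, ⁅E(X), U⁆ being normal in E(X)). -/
theorem result {X : Type*} [Group X] [Finite X] (U : Subgroup X) : Cfsg.layer X = (Cfsg.layer X ⊓ Subgroup.centralizer (U : Set X)) ⊔ ⁅Cfsg.layer X, U⁆ ∧ ⁅Cfsg.layer X, U⁆ ≤ Cfsg.layer X := by
  have hn : (Cfsg.layer X).Normal := FStar.layer_normal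
  have hW : ⁅Cfsg.layer X, U⁆ ≤ Cfsg.layer X :=
    (Subgroup.commutator_mono le_rfl le_top).trans (Subgroup.commutator_le_left _ _)
  refine ⟨?_, hW⟩
  apply le_antisymm _ (sup_le inf_le_left hW)
  have hWs : (⁅Cfsg.layer X, U⁆).IsSubnormal := by
    refine Subgroup.IsSubnormal.step _ _ hW hn.isSubnormal ?_
    rw [Subgroup.normal_subgroupOf_iff_le_normalizer hW]
    exact Subgroup.normalizer_commutator_ge_left _ _
  rw [FStar.layer_le_iff]
  intro K hK
  have hKE := FStar.component_le_layer hK
  rcases FStar.component_le_or_commute hK hWs with h | h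
  · exact h.trans le_sup_right
  · refine le_trans (le_inf hKE ?_) le_sup_left
    rw [← Subgroup.commutator_eq_bot_iff_le_centralizer]
    apply FStar.commutator_eq_bot_of_perfect (FStar.commutator_self hK.2)
    rw [Subgroup.commutator_comm, eq_bot_iff, ← h]
    exact Subgroup.commutator_mono le_rfl (Subgroup.commutator_mono hKE le_rfl)

end Cfsg.Agent.S1321
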