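import Cfsg.Statements.S1326
import Cfsg.Agent.FStar.Layer

set_option autoImplicit false
open Cfsg

namespace Cfsg.Agent.S1326

/-- For a finite group X: the Fitting subgroup contains its centralizer if and only if the layer of X is trivial. -/
theorem result {X : Type*} [Group X] [Finite X] : Subgroup.centralizer (Cfsg.fittingSubgroup X : Set X) ≤ Cfsg.fittingSubgroup X ↔ Cfsg.layer X = ⊥ := by
  constructor
  · intro h
    have h1 : ⁅Cfsg.layer X, Cfsg.fittingSubgroup X⁆ = ⊥ := FStar.layer_commute_fitting
    rw [Subgroup.commutator_eq_bot_iff_le_centralizer] at h1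
    have h2 := h1.trans h
    rw [eq_bot_iff, FStar.layer_le_iff]
    intro L hL
    exfalso
    apply FStar.not_isSolvable_of_isQuasisimple hL.2
    haveI : Group.IsSolvable (Cfsg.fittingSubgroup X) := FStar.fitting_isSolvable
    exact Group.isSolvable_of_isSolvable_injective
      (Subgroup.inclusion_injective ((FStar.component_le_layer hL).trans h2))
  · intro h
    have h1 : Cfsg.generalizedFittingSubgroup X = Cfsg.fittingSubgroup X := by
      rw [Cfsg.generalizedFittingSubgroup, h, bot_sup_eq]
    have h2 := FStar.centralizer_generalizedFitting_le (G := X)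
    rwa [h1] at h2

end Cfsg.Agent.S1326
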