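import Cfsg.Statements.S1331
import Cfsg.Agent.SigF.Trans

set_option autoImplicit false
open Cfsg

namespace Cfsg.Agent.S1331

/-- Let θ be a solvable A-signalizer functor on the finite group G for the prime p, A elementary abelian of rank at least 3, X a member of the family of θ, and B ≤ A with |B| ≥ p². Then X is generated by the subgroups X ∩ ⋂_{d ∈ D, d ≠ 1} θ d, D ranging over the subgroups of index p in B. -/
theorem result {G : Type*} [Group G] [Finite G] (p : ℕ) [Fact p.Prime] (A : Subgroup G) (hA : Cfsg.IsElementaryAbelian p A) (hA3 : p ^ 3 ≤ Nat.card ↥A) (θ : G → Subgroup G) (hθ : Cfsg.IsSolvableSignalizerFunctor p A θ) (X : Subgroup G) (hX : X ∈ Cfsg.signalizerFamily p A θ) (B : Subgroup G) (hB : B ≤ A) (hB2 : p ^ 2 ≤ Nat.card ↥B) : X = ⨆ D : {D : Subgroup G // D ≤ B ∧ D.relIndex B = p}, X ⊓ Cfsg.signalizerInf (D : Subgroup G) θ := by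
  have hf := Cfsg.Agent.SigF.mem_family_iff.1 hX
  have hBel := Cfsg.Agent.SigF.elem_mono hA hB
  have hp : 1 < p := (Fact.out : p.Prime).one_lt
  apply le_antisymm
  · refine (Cfsg.Agent.SigF.iSup_hyperplane hBel hf.2.1 (hB.trans hf.2.2.1)).ge.trans (iSup_le fun D => ?_)
    -- a subgroup of index exactly p inside D
    obtain ⟨D', hD', hi⟩ : ∃ D' : Subgroup G, D' ≤ D ∧ D'.relIndex B = p := by
      rcases (Nat.dvd_prime Fact.out).1 D.2.2 with h1 | h1
      · have hDB : (D : Subgroup G) = B := le_antisymm D.2.1 (Subgroup.relIndex_eq_one.1 h1)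
        obtain ⟨n, hn⟩ := IsPGroup.iff_card.1 (Cfsg.Agent.SigF.isPGroup_of_elem hBel)
        have hn1 : 1 ≤ n := by
          by_contra hcon
          have : n = 0 := by omega
          rw [hn, this, pow_zero] at hB2
          exact absurd (Nat.one_lt_pow (by norm_num) hp) (not_lt.2 hB2)
        obtain ⟨D', hD'⟩ := Sylow.exists_subgroup_card_pow_prime (G := B) p (n := n - 1)
          (by rw [hn]; exact pow_dvd_pow p (Nat.sub_le n 1))
        refine ⟨D'.map B.subtype, by rw [hDB]; exact Subgroup.map_subtype_le _, ?_⟩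
        have h2 : (D'.map B.subtype).subgroupOf B = D' := Subgroup.comap_map_eq_self_of_injective B.subtype_injective _
        rw [Subgroup.relIndex, h2]
        have h3 := D'.card_mul_index
        rw [hD', hn] at h3
        have h4 : p ^ n = p ^ (n - 1) * p := by rw [← pow_succ]; congr 1; omega
        rw [h4] at h3
        exact Nat.eq_of_mul_eq_mul_left (pow_pos (by omega) _) h3
      · exact ⟨D, le_rfl, h1⟩
    refine le_trans ?_ (le_iSup (fun D : {D : Subgroup G // D ≤ B ∧ D.relIndex B = p} =>
      X ⊓ Cfsg.signalizerInf (D : Subgroup G) θ) ⟨D', hD'.trans D.2.1, hi⟩)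
    refine le_inf inf_le_left (le_trans (inf_le_inf_left _ (Subgroup.centralizer_le hD')) ?_)
    exact Cfsg.Agent.SigF.inf_le_signalizerInf hf.2.2.2 ((hD'.trans D.2.1).trans hB)
  · exact iSup_le fun D => inf_le_left

end Cfsg.Agent.S1331
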