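import Cfsg.Statements.S1335

set_option autoImplicit false
open Cfsg

namespace Cfsg.Agent.S1335

theorem pRankLE_of_mulEquiv {p k : ℕ} {A B : Type*} [Group A] [Group B] (e : A ≃* B)
    (h : Cfsg.PRankLE p k A) : Cfsg.PRankLE p k B := by
  intro C hC hCp
  have h1 := h (C.comap e.toMonoidHom) ?_ ?_
  · have : Nat.card (C.comap e.toMonoidHom) = Nat.card C := by
      apply Nat.card_congr
      exact (e.toEquiv.subtypeEquiv (fun a => by simp [Subgroup.mem_comap]))
    rwa [this] at h1
  · refine ⟨⟨?_⟩⟩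
    rintro ⟨a, ha⟩ ⟨b, hb⟩
    have hc := hC.is_comm.comm (⟨e a, ha⟩ : C) ⟨e b, hb⟩
    apply Subtype.ext
    apply e.injective
    show e (a * b) = e (b * a)
    rw [map_mul, map_mul]
    exact congrArg Subtype.val hc
  · intro a ha
    apply e.injective
    simpa using hCp (e a) ha

/-- Let H be a subgroup of the finite group G, p a prime, k ≥ 1, P a Sylow p-subgroup of H of p-rank at least k, and suppose N_G(X) ≤ H for every subgroup X ≤ P of p-rank at least k. Then P is a Sylow p-subgroup of G. -/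
theorem result {G : Type*} [Group G] [Finite G] {p : ℕ} [Fact p.Prime] (k : ℕ) (hk : 1 ≤ k) (H : Subgroup G) (P : Sylow p ↥H) (hP : ¬ Cfsg.PRankLE p (k - 1) ↥(P : Subgroup ↥H)) (hΓ : (∀ X : Subgroup G, X ≤ (P : Subgroup ↥H).map H.subtype → ¬ Cfsg.PRankLE p (k - 1) ↥X → Subgroup.normalizer (X : Set G) ≤ H)) : ∃ Q : Sylow p G, (Q : Subgroup G) = (P : Subgroup ↥H).map H.subtype := by
  set P' : Subgroup G := (P : Subgroup ↥H).map H.subtype with hP'
  have hP'p : IsPGroup p P' := P.isPGroup'.map _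
  have hrk : ¬ Cfsg.PRankLE p (k - 1) ↥P' := fun h =>
    hP (pRankLE_of_mulEquiv ((P : Subgroup H).equivMapOfInjective H.subtype H.subtype_injective).symm h)
  have hN := hΓ P' le_rfl hrk
  obtain ⟨Q, hQ⟩ := hP'p.exists_le_sylow
  refine ⟨Q, ?_⟩
  -- P' ≤ Q; if proper then the normalizer in Q grows
  by_contra hne
  have hlt : P' < Q := lt_of_le_of_ne hQ (fun h => hne h.symm)
  have : Group.IsNilpotent Q := Q.isPGroup'.isNilpotent
  have hnc : NormalizerCondition Q := Group.normalizerCondition_of_isNilpotent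
  have hlt' : P'.subgroupOf Q < ⊤ := by
    rw [lt_top_iff_ne_top]
    intro h
    rw [Subgroup.subgroupOf_eq_top] at h
    exact absurd h (not_le_of_gt hlt)
  have := hnc _ hlt'
  obtain ⟨x, hx, hxP⟩ := SetLike.exists_of_lt this
  -- x normalizes P' and lies in Q, so in H
  have hxN : (x : G) ∈ Subgroup.normalizer (P' : Set G) := by
    rw [Subgroup.mem_normalizer_iff] at hx ⊢
    intro g
    constructor
    · intro hg
      have := (hx ⟨g, hQ hg⟩).1 (by simpa [Subgroup.mem_subgroupOf] using hg)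
      simpa [Subgroup.mem_subgroupOf] using this
    · intro hg
      have hgQ : g ∈ (Q : Subgroup G) := by
        have h1 : (x : G) * g * (x : G)⁻¹ ∈ (Q : Subgroup G) := hQ hg
        have h2 := Q.mul_mem (Q.mul_mem (Q.inv_mem x.2) h1) x.2
        simpa [mul_assoc] using h2
      have := (hx ⟨g, hgQ⟩).2 (by simpa [Subgroup.mem_subgroupOf] using hg)
      simpa [Subgroup.mem_subgroupOf] using this
  have hxH : (x : G) ∈ H := hN hxN
  -- P is normalised by x in H, P ⊔ ⟨x⟩ p-group: use Sylow maximality of P in H with Q ⊓ H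
  have hQH : IsPGroup p ((Q : Subgroup G).subgroupOf H) := by
    exact Q.isPGroup'.comap_of_injective H.subtype H.subtype_injective
  have hPle : (P : Subgroup H) ≤ (Q : Subgroup G).subgroupOf H := by
    intro y hy
    exact hQ ⟨y, hy, rfl⟩
  have heq := P.is_maximal' hQH hPle
  apply hxP
  rw [Subgroup.mem_subgroupOf]
  refine ⟨⟨x, hxH⟩, ?_, rfl⟩
  show (⟨x, hxH⟩ : H) ∈ (P : Subgroup H)
  have h3 : (⟨x, hxH⟩ : H) ∈ (Q : Subgroup G).subgroupOf H := x.2
  rw [heq] at h3
  exact h3

end Cfsg.Agent.S1335
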