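import Cfsg.Statements.S1336

set_option autoImplicit false
open Cfsg

namespace Cfsg.Agent.S1336

variable {G : Type*} [Group G]

/-- vertices of the graph -/
def V (p : ℕ) (A : Subgroup G) : Prop := IsElementaryAbelian p A ∧ p ^ 1 ≤ Nat.card ↥A

def R (p : ℕ) (A B : Subgroup G) : Prop :=
  IsElementaryAbelian p A ∧ p ^ 1 ≤ Nat.card ↥A ∧ IsElementaryAbelian p B ∧
        p ^ 1 ≤ Nat.card ↥B ∧ ∀ a ∈ A, ∀ b ∈ B, a * b = b * a

theorem R.symm {p : ℕ} {A B : Subgroup G} (h : R p A B) : R p B A :=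
  ⟨h.2.2.1, h.2.2.2.1, h.1, h.2.1, fun b hb a ha => (h.2.2.2.2 a ha b hb).symm⟩

theorem conn_symm {p : ℕ} {A B : Subgroup G} (h : Relation.ReflTransGen (R p) A B) :
    Relation.ReflTransGen (R p) B A := by
  induction h with
  | refl => exact Relation.ReflTransGen.refl
  | tail _ h2 ih => exact Relation.ReflTransGen.head h2.symm ih

/-- conjugation by `g` -/
abbrev cj (g : G) (A : Subgroup G) : Subgroup G := A.map (MulAut.conj g).toMonoidHom

theorem mem_cj {g x : G} {A : Subgroup G} : x ∈ cj g A ↔ g⁻¹ * x * g ∈ A := by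
  constructor
  · rintro ⟨y, hy, rfl⟩
    simpa [mul_assoc] using hy
  · intro h
    exact ⟨_, h, by simp [mul_assoc]⟩

theorem cj_cj (g h : G) (A : Subgroup G) : cj g (cj h A) = cj (g * h) A := by
  ext x; simp only [mem_cj]; simp [mul_assoc]

theorem cj_one (A : Subgroup G) : cj 1 A = A := by
  ext x; simp [mem_cj]

theorem elab_cj {p : ℕ} (g : G) {A : Subgroup G} (h : IsElementaryAbelian p A) :
    IsElementaryAbelian p (cj g A) := by
  refine ⟨⟨⟨?_⟩⟩, ?_⟩
  · rintro ⟨_, a, ha, rfl⟩ ⟨_, b, hb, rfl⟩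
    apply Subtype.ext
    have h1 : a * b = b * a := congrArg Subtype.val (h.1.is_comm.comm (⟨a, ha⟩ : A) ⟨b, hb⟩)
    show (MulAut.conj g).toMonoidHom a * (MulAut.conj g).toMonoidHom b =
      (MulAut.conj g).toMonoidHom b * (MulAut.conj g).toMonoidHom a
    rw [← map_mul, h1, map_mul]
  · rintro _ ⟨a, ha, rfl⟩
    rw [← map_pow, h.2 a ha, map_one]

theorem card_cj (g : G) (A : Subgroup G) : Nat.card ↥(cj g A) = Nat.card A :=
  (Nat.card_congr (A.equivMapOfInjective _ (MulAut.conj g).injective).toEquiv).symm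

theorem R_cj {p : ℕ} (g : G) {A B : Subgroup G} (h : R p A B) : R p (cj g A) (cj g B) := by
  refine ⟨elab_cj g h.1, by rw [card_cj]; exact h.2.1, elab_cj g h.2.2.1,
    by rw [card_cj]; exact h.2.2.2.1, ?_⟩
  rintro _ ⟨a, ha, rfl⟩ _ ⟨b, hb, rfl⟩
  rw [← map_mul, h.2.2.2.2 a ha b hb, map_mul]

theorem conn_cj {p : ℕ} (g : G) {A B : Subgroup G} (h : Relation.ReflTransGen (R p) A B) :
    Relation.ReflTransGen (R p) (cj g A) (cj g B) :=
  Relation.ReflTransGen.lift (cj g) (fun _ _ hab => R_cj g hab) _ _ h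

theorem V_zpowers {p : ℕ} [Fact p.Prime] {x : G} (hx : orderOf x = p) :
    V p (Subgroup.zpowers x) := by
  refine ⟨⟨inferInstance, ?_⟩, ?_⟩
  · rintro _ ⟨n, rfl⟩
    have h1 : x ^ p = 1 := by rw [← hx]; exact pow_orderOf_eq_one x
    show (x ^ n) ^ p = 1
    rw [← zpow_natCast, ← zpow_mul, mul_comm, zpow_mul, zpow_natCast, h1, one_zpow]
  · rw [Nat.card_zpowers, hx, pow_one]

/-- inside a `p`-subgroup containing a vertex there is a central vertex -/
theorem exists_central [Finite G] {p : ℕ} [hp : Fact p.Prime] {P : Subgroup G} (hP : IsPGroup p P)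
    {E : Subgroup G} (hE : V p E) (hEP : E ≤ P) :
    ∃ Z : Subgroup G, Z ≤ P ∧ V p Z ∧ ∀ z ∈ Z, ∀ x ∈ P, z * x = x * z := by
  have hnt : Nontrivial P := by
    rw [← Finite.one_lt_card_iff_nontrivial]
    have h1 : 1 < Nat.card E := lt_of_lt_of_le (by rw [pow_one]; exact hp.out.one_lt) hE.2
    exact lt_of_lt_of_le h1 (Nat.card_le_card_of_injective _ (Subgroup.inclusion_injective hEP))
  have hc : Nontrivial (Subgroup.center P) := hP.center_nontrivial
  have hdvd : p ∣ Nat.card (Subgroup.center P) := by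
    obtain ⟨n, hn⟩ := (hP.to_subgroup (Subgroup.center P)).exists_card_eq
    have h1 : 1 < Nat.card (Subgroup.center P) := Finite.one_lt_card
    rw [hn] at h1 ⊢
    rcases n with _ | n
    · simp at h1
    · exact dvd_pow_self p (Nat.succ_ne_zero n)
  obtain ⟨z, hz⟩ := exists_prime_orderOf_dvd_card' p hdvd
  refine ⟨Subgroup.zpowers ((z : P) : G), ?_, V_zpowers ?_, ?_⟩
  · rw [Subgroup.zpowers_le]; exact (z : P).2
  · rw [Subgroup.orderOf_coe, Subgroup.orderOf_coe, hz]
  · rintro _ ⟨n, rfl⟩ x hx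
    have hzc := Subgroup.mem_center_iff.1 z.2 ⟨x, hx⟩
    have h1 : Commute x ((z : P) : G) := congrArg Subtype.val hzc
    exact ((h1.zpow_right n).eq).symm

theorem conn_of_le_pgroup [Finite G] {p : ℕ} [hp : Fact p.Prime] {P : Subgroup G}
    (hP : IsPGroup p P) {E F : Subgroup G} (hE : V p E) (hEP : E ≤ P) (hF : V p F) (hFP : F ≤ P) :
    Relation.ReflTransGen (R p) E F := by
  obtain ⟨Z, hZP, hZ, hZc⟩ := exists_central hP hE hEP
  refine Relation.ReflTransGen.tail (Relation.ReflTransGen.single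
    (b := Z) ⟨hE.1, hE.2, hZ.1, hZ.2, fun a ha b hb => (hZc b hb a (hEP ha)).symm⟩) ?_
  exact ⟨hZ.1, hZ.2, hF.1, hF.2, fun a ha b hb => hZc a ha b (hFP hb)⟩

theorem isPGroup_of_elab {p : ℕ} {E : Subgroup G} (hE : IsElementaryAbelian p E) :
    IsPGroup p E := by
  intro x
  refine ⟨1, ?_⟩
  apply Subtype.ext
  simpa using hE.2 x x.2

/-- Let G be finite and p prime. Then G has a proper subgroup H with p ∣ |H| and p ∤ |H ∩ gHg⁻¹| for every g ∉ H (a strongly p-embedded subgroup) if and only if G is not 1-connected for p. -/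
theorem result {G : Type*} [Group G] [Finite G] (p : ℕ) [Fact p.Prime] : (∃ H : Subgroup G, H ≠ ⊤ ∧ p ∣ Nat.card ↥H ∧ ∀ g : G, g ∉ H → ¬ p ∣ Nat.card ↥(H ⊓ H.map (MulAut.conj g).toMonoidHom)) ↔ ¬ Cfsg.IsKConnected p 1 G := by
  have hp : p.Prime := Fact.out
  constructor
  · rintro ⟨H, hH, hpH, hHg⟩ hconn
    obtain ⟨x, hx⟩ := exists_prime_orderOf_dvd_card' p hpH
    have hx' : orderOf (x : G) = p := by rw [Subgroup.orderOf_coe, hx]
    have hdiv : ∀ A : Subgroup G, A ≤ H → V p A → ∀ g, A ≤ cj g H → g ∈ H := by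
      intro A hA hVA g hg
      by_contra hgH
      apply hHg g hgH
      have h1 : Nat.card A ∣ Nat.card ↥(H ⊓ cj g H) := Subgroup.card_dvd_of_le (le_inf hA hg)
      obtain ⟨n, hn⟩ := (isPGroup_of_elab hVA.1).exists_card_eq
      have h2 := hVA.2
      rw [hn, pow_one] at h2
      rcases n with _ | n
      · simp at h2; exact absurd hp.one_lt (not_lt.2 h2)
      · exact (dvd_pow_self p (Nat.succ_ne_zero n)).trans (hn ▸ h1)
    have hV := V_zpowers hx'
    have key : ∀ F : Subgroup G, Relation.ReflTransGen (R p) (Subgroup.zpowers (x : G)) F →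
        F ≤ H := by
      intro F hF
      induction hF with
      | refl => rw [Subgroup.zpowers_le]; exact x.2
      | @tail A B _ hAB ih =>
        intro b hb
        apply hdiv A ih ⟨hAB.1, hAB.2.1⟩
        intro a ha
        rw [mem_cj]
        have := hAB.2.2.2.2 a ha b hb
        have h3 : b⁻¹ * a * b = a := by rw [mul_assoc, this]; group
        rw [h3]; exact ih ha
    obtain ⟨g, hg⟩ : ∃ g, g ∉ H := by
      by_contra hc
      push Not at hc
      exact hH ((Subgroup.eq_top_iff' H).2 hc)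
    have hVg : V p (cj g (Subgroup.zpowers (x : G))) := ⟨elab_cj g hV.1, by
      rw [card_cj]; exact hV.2⟩
    have h1 := key _ (hconn (Subgroup.zpowers (x : G)) (cj g (Subgroup.zpowers (x : G)))
      hV.1 hV.2 hVg.1 hVg.2)
    apply hg
    apply hdiv _ h1 hVg g
    apply Subgroup.map_mono
    rw [Subgroup.zpowers_le]; exact x.2
  · intro hnc
    have : ∃ E E' : Subgroup G, V p E ∧ V p E' ∧ ¬ Relation.ReflTransGen (R p) E E' := by
      by_contra hc
      push Not at hc
      exact hnc fun E E' h1 h2 h3 h4 => hc E E' ⟨h1, h2⟩ ⟨h3, h4⟩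
    obtain ⟨E, E', hE, hE', hEE'⟩ := this
    let H : Subgroup G :=
      { carrier := {g | Relation.ReflTransGen (R p) E (cj g E)}
        one_mem' := by
          show Relation.ReflTransGen (R p) E (cj 1 E)
          rw [cj_one]
        mul_mem' := by
          intro a b ha hb
          show Relation.ReflTransGen (R p) E (cj (a * b) E)
          rw [← cj_cj]
          exact Relation.ReflTransGen.trans ha (conn_cj a hb)
        inv_mem' := by
          intro a ha
          show Relation.ReflTransGen (R p) E (cj a⁻¹ E)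
          have h1 := conn_cj a⁻¹ ha
          rw [cj_cj, inv_mul_cancel, cj_one] at h1
          exact conn_symm h1 }
    have hmem : ∀ g, g ∈ H ↔ Relation.ReflTransGen (R p) E (cj g E) := fun g => Iff.rfl
    obtain ⟨P, hEP⟩ := (isPGroup_of_elab hE.1).exists_le_sylow
    have hPH : (P : Subgroup G) ≤ H := by
      intro y hy
      rw [hmem]
      refine conn_of_le_pgroup P.isPGroup' hE hEP ⟨elab_cj y hE.1, by rw [card_cj]; exact hE.2⟩ ?_
      rintro _ ⟨e, he, rfl⟩
      exact mul_mem (mul_mem hy (hEP he)) (inv_mem hy)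
    -- every vertex inside H is connected to E
    have hin : ∀ F : Subgroup G, V p F → F ≤ H → Relation.ReflTransGen (R p) E F := by
      intro F hF hFH
      have hFp : IsPGroup p (F.subgroupOf H) :=
        (isPGroup_of_elab hF.1).comap_of_injective H.subtype H.subtype_injective
      obtain ⟨Q, hQ⟩ := hFp.exists_le_sylow
      obtain ⟨h, hh⟩ := MulAction.exists_smul_eq H (P.subtype hPH) Q
      have h1 : F ≤ cj (h : G) P := by
        intro f hf
        have h2 : (⟨f, hFH hf⟩ : H) ∈ (Q : Subgroup H) := hQ hf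
        rw [← hh] at h2
        obtain ⟨y, hy, hy2⟩ := h2
        refine ⟨y, ?_, ?_⟩
        · exact hy
        · exact congrArg Subtype.val hy2
      have h3 : E.map (MulAut.conj (h : G)).toMonoidHom ≤ cj (h : G) P := Subgroup.map_mono hEP
      have h4 : Relation.ReflTransGen (R p) (cj (h : G) E) F :=
        conn_of_le_pgroup (P := cj (h : G) P) (P.isPGroup'.map _)
          ⟨elab_cj _ hE.1, by rw [card_cj]; exact hE.2⟩ h3 hF h1
      exact Relation.ReflTransGen.trans h.2 h4
    refine ⟨H, ?_, ?_, ?_⟩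
    · intro htop
      exact hEE' (hin E' hE' (htop ▸ le_top))
    · have h1 : Nat.card E ∣ Nat.card H := Subgroup.card_dvd_of_le (hEP.trans hPH)
      obtain ⟨n, hn⟩ := (isPGroup_of_elab hE.1).exists_card_eq
      have h2 := hE.2
      rw [hn, pow_one] at h2
      rcases n with _ | n
      · simp at h2; exact absurd hp.one_lt (not_lt.2 h2)
      · exact (dvd_pow_self p (Nat.succ_ne_zero n)).trans (hn ▸ h1)
    · intro g hg hpd
      obtain ⟨x, hx⟩ := exists_prime_orderOf_dvd_card' p hpd
      have hx' : orderOf (x : G) = p := by rw [Subgroup.orderOf_coe, hx]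
      have hV := V_zpowers hx'
      have h1 := hin _ hV (by rw [Subgroup.zpowers_le]; exact x.2.1)
      have hy : g⁻¹ * (x : G) * g ∈ H := mem_cj.1 x.2.2
      have h2 : cj g⁻¹ (Subgroup.zpowers (x : G)) ≤ H := by
        rw [cj, MonoidHom.map_zpowers, Subgroup.zpowers_le]
        simpa using hy
      have h3 := hin _ (⟨elab_cj _ hV.1, by rw [card_cj]; exact hV.2⟩) h2
      have h4 := conn_cj g h3
      rw [cj_cj, mul_inv_cancel, cj_one] at h4
      exact hg ((hmem g).2 (Relation.ReflTransGen.trans h1 (conn_symm h4)))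

end Cfsg.Agent.S1336
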