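import Cfsg.Statements.S1337
import Cfsg.Agent.H23.RankTwoGraph

set_option autoImplicit false
open Cfsg

namespace Cfsg.Agent.S1337

/-- Let P be a finite p-group of p-rank greater than 2. Then P has a normal elementary abelian subgroup U of order p², and for every elementary abelian X ≤ P with |X| ≥ p²: X is joined to U by a chain of pairwise commuting elementary abelian subgroups of order ≥ p² if and only if C_P(X) has p-rank greater than 2. -/
theorem result {P : Type*} [Group P] [Finite P] (p : ℕ) [Fact p.Prime] (hP : IsPGroup p P) (hrk : ¬ Cfsg.PRankLE p 2 P) : ∃ U : Subgroup P, U.Normal ∧ Cfsg.IsElementaryAbelian p U ∧ Nat.card ↥U = p ^ 2 ∧ ∀ X : Subgroup P, Cfsg.IsElementaryAbelian p X → p ^ 2 ≤ Nat.card ↥X → (Relation.ReflTransGen (fun A B : Subgroup P => Cfsg.IsElementaryAbelian p A ∧ p ^ 2 ≤ Nat.card ↥A ∧ Cfsg.IsElementaryAbelian p B ∧ p ^ 2 ≤ Nat.card ↥B ∧ ∀ a ∈ A, ∀ b ∈ B, a * b = b * a) X U ↔ ¬ Cfsg.PRankLE p 2 ↥(Subgroup.centralizer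 (X : Set P))) := by
  have h := hrk
  unfold PRankLE at h
  push Not at h
  obtain ⟨E, hE, hEp, hEc⟩ := h
  obtain ⟨U, hUn, hUe, hUc⟩ := H23.exists_normal_elab_sq hP (E := E) ⟨hE, hEp⟩
    (H23.elab_pow_succ_le ⟨hE, hEp⟩ hEc)
  exact ⟨U, hUn, hUe, hUc, fun X hX hXc => H23.conn_iff hP hrk hUn hUe hUc hX hXc⟩

end Cfsg.Agent.S1337
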