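import Cfsg.Statements.S1338
import Cfsg.Agent.H23.ThreeGroup

set_option autoImplicit false
open Cfsg

namespace Cfsg.Agent.S1338

/-- A finite 3-group of 3-rank at least 4 is 2-connected for the prime 3: its commuting graph on elementary abelian subgroups of order ≥ 9 is connected. -/
theorem result {P : Type*} [Group P] [Finite P] (hP : IsPGroup 3 P) (hrk : ¬ Cfsg.PRankLE 3 3 P) : Cfsg.IsKConnected 3 2 P := by
  have h := hrk
  unfold PRankLE at h
  push Not at h
  obtain ⟨E, hE, hEp, hEc⟩ := h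
  obtain ⟨U, hUn, hUe, hUc⟩ := H23.exists_normal_elab_sq hP (E := E) ⟨hE, hEp⟩
    ((Nat.pow_le_pow_right (by norm_num) (by norm_num)).trans
      (H23.elab_pow_succ_le (p := 3) (k := 3) ⟨hE, hEp⟩ hEc))
  have hrk2 : ¬ Cfsg.PRankLE 3 2 P := fun h2 => by
    have h3 := h2 E hE hEp
    have h4 : (3 : ℕ) ^ 2 < 3 ^ 3 := by norm_num
    omega
  intro X Y hX hXc hY hYc
  have h1 := (H23.conn_iff hP hrk2 hUn hUe hUc hX hXc).2 (H23.not_pRankLE_centralizer hP hrk hX hXc)
  have h2 := (H23.conn_iff hP hrk2 hUn hUe hUc hY hYc).2 (H23.not_pRankLE_centralizer hP hrk hY hYc)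
  exact Relation.ReflTransGen.trans h1 (H23.conn_symm h2)

end Cfsg.Agent.S1338
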