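import Cfsg.Statements.S1348
import Cfsg.Agent.H23.SLComp

set_option autoImplicit false
open Cfsg

namespace Cfsg.Agent.S1348

open Cfsg.Agent.H23.SLC


/-- Let F be a finite field of odd order, n ≥ 7 odd, and t ∈ SL(n, F) the diagonal matrix with entries −1, …, −1, 1. Then E(C(t)) is a standard subgroup of SL(n, F). -/
theorem result {F : Type*} [Field F] [Fintype F] [DecidableEq F] (hF : Odd (Fintype.card F)) (n : ℕ) (hn : 7 ≤ n) (hodd : Odd n) (t : Matrix.SpecialLinearGroup (Fin n) F) (ht : (t : Matrix (Fin n) (Fin n) F) = Matrix.diagonal (fun i : Fin n => if (i : ℕ) + 1 = n then (1 : F) else -1)) : Cfsg.IsStandardSubgroup ((Cfsg.layer ↥(Subgroup.centralizer ({t} : Set (Matrix.SpecialLinearGroup (Fin n) F)))).map (Subgroup.centralizer ({t} : Set (Matrix.SpecialLinearGroup (Fin n) F))).subtype) := by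
  obtain ⟨m, rfl⟩ : ∃ m, n = m + 1 := ⟨n - 1, by omega⟩
  have h2 := two_ne_zero_of_odd hF
  have hm : 2 ≤ m := by omega
  have hme : Even m := by
    obtain ⟨k, hk⟩ := hodd
    exact ⟨k, by omega⟩
  have ht' : slM t = E (-1) 1 := by
    rw [← diag_eq_E]
    exact ht
  have hp := sl_perfect hF hm (fun h => by omega)
  rw [layer_eq (ι := slM) (e := embS) slM_injective h2 ht' (fun _ => rfl) hm hp]
  exact standard slM_injective h2 ht' (fun _ => rfl) hm hp (orderOf_t slM_injective h2 hm ht')
    (inv_unique h2 hm hme ht')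

end Cfsg.Agent.S1348
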