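import Cfsg.Statements.S1386
import Cfsg.Agent.H23.FitHall

set_option autoImplicit false
open Cfsg

namespace Cfsg.Agent.S1386

/-- Let G be a finite group, W₁, W₂ subgroups forming a self-normalizing cyclic pair, S a subgroup with W₂ ≤ S and W₁ a complement to S' in S, and (W₁, U, W₂') type-P data for S. Then W₂' = W₂ (that is, C_{S'}(W₁) = W₂). -/
theorem result {G : Type*} [Group G] [Finite G] (W₁ W₂ S U W₂' : Subgroup G) (hW : Cfsg.IsSelfNormalizingCyclic W₁ W₂)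
    (hSW : Cfsg.IsComplIn ⁅S, S⁆ W₁ S) (hW₂S : W₂ ≤ S) (hP : Cfsg.IsTypePWith S W₁ U W₂') :
    W₂' = W₂ := by
  obtain ⟨hne1, hne2, hinf, hcomm, hcyc, hnorm⟩ := hW
  obtain ⟨hne1', hne2', hinf', hcomm', hcyc', hnorm'⟩ := hP.selfNormalizing
  have hcop := H23.coprime_card_of_isCyclic_sup hinf hcomm hcyc
  obtain ⟨w, hw, hw1⟩ := H23.exists_ne_one_of_ne_bot hne1
  obtain ⟨v, hv, hv1⟩ := H23.exists_ne_one_of_ne_bot hne2
  -- W₂ ≤ S'
  have hW₂S' : W₂ ≤ ⁅S, S⁆ := by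
    have hidx : (⁅S, S⁆.subgroupOf S).index = Nat.card W₁ := H23.isComplIn_relIndex_left hSW
    have hN : (⁅S, S⁆.subgroupOf S).Normal := by
      refine ⟨fun x hx m => ?_⟩
      rw [Subgroup.mem_subgroupOf] at hx ⊢
      have h2 : (m : G) * x * (m : G)⁻¹ * (x : G)⁻¹ ∈ ⁅S, S⁆ :=
        Subgroup.commutator_mem_commutator m.2 x.2
      have h1 : (m : G) * x * (m : G)⁻¹ = ((m : G) * x * (m : G)⁻¹ * (x : G)⁻¹) * x := by group
      show (m : G) * x * (m : G)⁻¹ ∈ _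
      rw [h1]; exact mul_mem h2 hx
    have := H23.le_of_coprime_index (N := ⁅S, S⁆.subgroupOf S) (K := W₂.subgroupOf S) hN (by
      rw [hidx, Nat.card_congr (Subgroup.subgroupOfEquivOfLe hW₂S).toEquiv]
      exact hcop.symm)
    intro x hx
    exact this (show (⟨x, hW₂S hx⟩ : S) ∈ W₂.subgroupOf S from hx)
  -- W₂ ≤ W₂'
  have h12 : W₂ ≤ W₂' := by
    rw [← hP.W₂_centralizer w hw hw1]
    refine le_inf hW₂S' ?_
    intro x hx
    rw [Subgroup.mem_centralizer_iff]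
    rintro _ rfl
    exact hcomm _ hw x hx
  apply le_antisymm _ h12
  -- the centralizer of w * v
  have hwv : ({w * v} : Set G) ⊆ (↑(W₁ ⊔ W₂) : Set G) \ (↑W₁ ∪ ↑W₂) := by
    rintro _ rfl
    refine ⟨mul_mem (Subgroup.mem_sup_left hw) (Subgroup.mem_sup_right hv), ?_⟩
    rintro (h | h)
    · have : v ∈ W₁ := by
        have := mul_mem (inv_mem hw) h
        rwa [inv_mul_cancel_left] at this
      exact hv1 (by
        have h3 : v ∈ W₁ ⊓ W₂ := ⟨this, hv⟩
        rwa [hinf] at h3)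
    · have : w ∈ W₂ := by
        have := mul_mem h (inv_mem hv)
        rwa [mul_inv_cancel_right] at this
      exact hw1 (by
        have h3 : w ∈ W₁ ⊓ W₂ := ⟨hw, this⟩
        rwa [hinf] at h3)
  have hC := hnorm {w * v} hwv (Set.singleton_nonempty _)
  intro x hx
  have hx1 : x ∈ Subgroup.normalizer ({w * v} : Set G) := by
    rw [Subgroup.mem_set_normalizer_iff]
    have hc : x * (w * v) = (w * v) * x := by
      -- x ∈ W₂', w ∈ W₁, v ∈ W₂ ≤ W₂', W₁ ⊔ W₂' abelian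
      haveI := hcyc'
      letI := IsCyclic.commGroup (α := ↥(W₁ ⊔ W₂'))
      have hh : (⟨x, Subgroup.mem_sup_right hx⟩ : ↥(W₁ ⊔ W₂')) *
          ⟨w * v, mul_mem (Subgroup.mem_sup_left hw) (Subgroup.mem_sup_right (h12 hv))⟩ =
          ⟨w * v, mul_mem (Subgroup.mem_sup_left hw) (Subgroup.mem_sup_right (h12 hv))⟩ *
          ⟨x, Subgroup.mem_sup_right hx⟩ := mul_comm _ _
      exact congrArg Subtype.val hh
    intro h
    simp only [SetLike.mem_coe, Set.mem_singleton_iff]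
    constructor
    · rintro rfl
      rw [hc]; group
    · intro hh
      have : h = x⁻¹ * (w * v) * x := by rw [← hh]; group
      rw [this, mul_assoc, ← hc]; group
  rw [hC] at hx1
  obtain ⟨a, ha, b, hb, rfl⟩ := H23.exists_mul_of_mem_sup_of_commute hcomm hx1
  -- a * b ∈ W₂' ≤ S'
  have h3 : a * b ∈ ⁅S, S⁆ := by
    have : W₂' ≤ ⁅S, S⁆ := by
      rw [← hP.W₂_centralizer w hw hw1]; exact inf_le_left
    exact this hx
  have h4 : a ∈ ⁅S, S⁆ := by
    have := mul_mem h3 (inv_mem (hW₂S' hb))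
    rwa [mul_inv_cancel_right] at this
  have h5 : a = 1 := by
    have : a ∈ ⁅S, S⁆ ⊓ W₁ := ⟨h4, ha⟩
    rwa [hSW.2.2.1] at this
  rw [h5, one_mul]; exact hb

end Cfsg.Agent.S1386
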