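import Cfsg.Statements.S1387
import Cfsg.Agent.H23.FitHall

set_option autoImplicit false
open Cfsg

namespace Cfsg.Agent.S1387

/-- Let M be a subgroup of a finite group G with type-P data (W₁, U, W₂) and H = M_F. Then the Fitting subgroup F(M) is generated by H and the centralizer of H in U. -/
theorem result {G : Type*} [Group G] [Finite G] (M W₁ U W₂ : Subgroup G) (hP : Cfsg.IsTypePWith M W₁ U W₂) :
    Cfsg.fittingOf M = Cfsg.fittingHallOf M ⊔ (U ⊓ Subgroup.centralizer (Cfsg.fittingHallOf M : Set G)) := by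
  have hM' : ⁅M, M⁆ ≤ M := H23.commutator_self_le M
  have hUM : U ≤ M := hP.U_compl.2.1.trans hM'
  have hcop := H23.card_coprime_of_inf_fittingHallOf M U hUM hP.U_compl.2.2.1
  rw [← hP.fitting_eq]
  apply le_antisymm
  · refine sup_le le_sup_left ?_
    intro c hc
    have hcF : c ∈ ⁅M, M⁆ := by
      apply hP.fitting_le
      rw [← hP.fitting_eq]
      exact (le_sup_right : _ ≤ fittingHallOf M ⊔ _) hc
    obtain ⟨h, hh, u, hu, rfl⟩ := hP.U_compl.2.2.2 c hcF
    refine mul_mem (Subgroup.mem_sup_left hh) (Subgroup.mem_sup_right ⟨hu, ?_⟩)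
    have hcent := Subgroup.mem_centralizer_iff.1 hc.2
    refine Subgroup.mem_centralizer_iff.2 ?_
    have := H23.commute_of_coprime_action (H := fittingHallOf M) (x := u) (y := h⁻¹) hcop
      (H23.pow_card_of_mem hu) (by rw [inv_pow, H23.pow_card_of_mem hh, inv_one])
      (fun k hk => mul_mem (mul_mem (inv_mem hh) hk) (inv_mem (inv_mem hh)))
      (fun k hk => by
        have h1 := hcent k hk
        -- k * (h*u) = (h*u) * k
        have h2 : u * k * u⁻¹ = h⁻¹ * ((h * u) * k) * u⁻¹ := by group
        rw [h2, ← h1]; group)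
    intro k hk
    exact (this k hk).symm
  · refine sup_le le_sup_left ?_
    intro u hu
    exact Subgroup.mem_sup_right ⟨hUM hu.1, hu.2⟩

end Cfsg.Agent.S1387
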