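import Cfsg.Statements.S1388
import Cfsg.Agent.H23.FitHall

set_option autoImplicit false
open Cfsg

namespace Cfsg.Agent.S1388

/-- Let M be a subgroup of a finite group G with type-P data (W₁, U, W₂) and H = M_F. Then the derived subgroup of U centralizes H, and if U ≠ 1 then U does not centralize H. -/
theorem result {G : Type*} [Group G] [Finite G] (M W₁ U W₂ : Subgroup G) (hP : Cfsg.IsTypePWith M W₁ U W₂) :
    ⁅U, U⁆ ≤ Subgroup.centralizer (Cfsg.fittingHallOf M : Set G) ∧ (U ≠ ⊥ → ¬ U ≤ Subgroup.centralizer (Cfsg.fittingHallOf M : Set G)) := by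
  have hM' : ⁅M, M⁆ ≤ M := H23.commutator_self_le M
  have hUM : U ≤ M := hP.U_compl.2.1.trans hM'
  have hcop := H23.card_coprime_of_inf_fittingHallOf M U hUM hP.U_compl.2.2.1
  constructor
  · intro u hu
    have huU : u ∈ U := H23.commutator_self_le U hu
    have hu2 : u ∈ fittingHallOf M ⊔ (M ⊓ Subgroup.centralizer (fittingHallOf M : Set G)) :=
      hP.derived_two_le (Subgroup.commutator_mono hP.U_compl.2.1 hP.U_compl.2.1 hu)
    obtain ⟨h, hh, hact⟩ := H23.exists_inner_of_mem_sup inf_le_right hu2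
    refine Subgroup.mem_centralizer_iff.2 ?_
    have := H23.commute_of_coprime_action (H := fittingHallOf M) (x := u) (y := h) hcop
      (H23.pow_card_of_mem huU) (H23.pow_card_of_mem hh)
      (fun k hk => mul_mem (mul_mem hh hk) (inv_mem hh)) hact
    intro k hk
    exact (this k hk).symm
  · intro hU hUc
    apply hU
    -- characterisation of U in M'
    have hmem : ∀ x ∈ ⁅M, M⁆, x ^ Nat.card U = 1 → x ∈ U := by
      intro x hx hxU
      obtain ⟨h, hh, u, hu, rfl⟩ := hP.U_compl.2.2.2 x hx
      have hcomm : Commute h u := Subgroup.mem_centralizer_iff.1 (hUc hu) h hh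
      rw [hcomm.mul_pow, H23.pow_card_of_mem hu, mul_one] at hxU
      have h1 : h = 1 := by
        have h2 := orderOf_dvd_of_pow_eq_one hxU
        have h3 := orderOf_dvd_of_pow_eq_one (H23.pow_card_of_mem hh)
        have h5 := Nat.dvd_gcd h2 h3
        rw [hcop] at h5
        exact orderOf_eq_one_iff.1 (Nat.dvd_one.1 h5)
      rw [h1, one_mul]; exact hu
    have hnorm : (U.subgroupOf M).Normal := by
      refine ⟨fun x hx m => ?_⟩
      rw [Subgroup.mem_subgroupOf] at hx ⊢
      apply hmem
      · have h1 : (m : G) * x * (m : G)⁻¹ = ((m : G) * x * (m : G)⁻¹ * (x : G)⁻¹) * x := by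
          group
        have h2 : (m : G) * x * (m : G)⁻¹ * (x : G)⁻¹ ∈ ⁅M, M⁆ :=
          Subgroup.commutator_mem_commutator m.2 x.2
        show (m : G) * x * (m : G)⁻¹ ∈ _
        rw [h1]
        exact mul_mem h2 (hP.U_compl.2.1 hx)
      · show ((m : G) * x * (m : G)⁻¹) ^ _ = 1
        rw [conj_pow, H23.pow_card_of_mem hx]; group
    have hnil : Group.IsNilpotent (U.subgroupOf M) := by
      have := hP.U_nilpotent
      exact Group.nilpotent_of_mulEquiv (Subgroup.subgroupOfEquivOfLe hUM).symm
    have hidx : (Nat.card (U.subgroupOf M)).Coprime (U.subgroupOf M).index := by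
      rw [Nat.card_congr (Subgroup.subgroupOfEquivOfLe hUM).toEquiv]
      change (Nat.card U).Coprime (U.relIndex M)
      rw [← Subgroup.relIndex_mul_relIndex U ⁅M, M⁆ M hP.U_compl.2.1 hM',
        H23.isComplIn_relIndex_right hP.U_compl, H23.isComplIn_relIndex_left hP.W₁_compl]
      refine Nat.Coprime.mul_right hcop ?_
      have h1 := hP.W₁_hall
      rw [H23.isComplIn_relIndex_right hP.W₁_compl] at h1
      exact h1.symm.of_dvd_left (Subgroup.card_dvd_of_le hP.U_compl.2.1)
    have hle : U.subgroupOf M ≤ fittingHall M := le_sSup ⟨hnorm, hnil, hidx⟩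
    have hle' : U ≤ fittingHallOf M := by
      intro u hu
      exact ⟨⟨u, hUM hu⟩, hle hu, rfl⟩
    rw [eq_bot_iff, ← hP.U_compl.2.2.1]
    exact le_inf hle' le_rfl

end Cfsg.Agent.S1388
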