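import Cfsg.Statements.S1398
import Cfsg.Agent.H23.Uniq91
import Cfsg.Agent.S1458
import Cfsg.Agent.S1452

set_option autoImplicit false
open Cfsg

namespace Cfsg.Agent.S1398

/-- Let G be a minimal simple group of odd order, M a maximal subgroup, p a prime, and B a noncyclic elementary abelian p-subgroup of M. If C_G(b) ≤ M for every non-identity b ∈ B, or if every subgroup of G of order coprime to p normalized by B is contained in M, then M is the only maximal subgroup of G containing B. -/
theorem result {G : Type*} [Group G] [Finite G] (hG : Cfsg.IsMinSimpleOddOrder G)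
    (M : Subgroup G) (hM : IsCoatom M) (p : ℕ) [Fact p.Prime] (B : Subgroup G) (hBM : B ≤ M)
    (hBe : Cfsg.IsElementaryAbelian p B) (hBnc : ¬ IsCyclic B)
    (h : (∀ b ∈ B, b ≠ 1 → Subgroup.centralizer ({b} : Set G) ≤ M) ∨
      ∀ Y ∈ Cfsg.invSubgroups ⊤ B (Cfsg.primesNotDvd p), Y ≤ M) :
    Cfsg.InUniqueMaximal B := by
  have hZJ : H23.ZJHyp := fun X _ _ _ hX q _ S => Cfsg.Agent.S1458.result hX q S
  have hSCN : H23.SCN3Hyp := H23.scn3_of fun R _ _ q _ hq2 hR hr E _ hE hE2 => Cfsg.Agent.S1452.result q hq2 hR hr E hE hE2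
  exact H23.uniq_of_noncyclic hZJ (H23.fitUniq hZJ hSCN hG) hG hM hBM hBe hBnc h

end Cfsg.Agent.S1398
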