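import Cfsg.Statements.S1400
import Cfsg.Agent.H23.Uniq91
import Cfsg.Agent.S1458
import Cfsg.Agent.S1452

set_option autoImplicit false
open Cfsg

namespace Cfsg.Agent.S1400

/-- Let G be a minimal simple group of odd order, p a prime, A an abelian p-subgroup containing an elementary abelian subgroup of order p ^ 3 and lying in exactly one maximal subgroup, and B a noncyclic p-subgroup whose centralizer contains an elementary abelian subgroup of order p ^ 3. Then B lies in exactly one maximal subgroup of G. -/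
theorem result {G : Type*} [Group G] [Finite G] (hG : Cfsg.IsMinSimpleOddOrder G)
    (p : ℕ) [Fact p.Prime] (A B : Subgroup G) (hAp : IsPGroup p A) (hAc : IsMulCommutative A) (hA3 : ¬ Cfsg.PRankLE p 2 ↥A)
    (hAU : Cfsg.InUniqueMaximal A) (hBp : IsPGroup p B) (hBnc : ¬ IsCyclic B) (hB3 : ¬ Cfsg.PRankLE p 2 ↥(Subgroup.centralizer (B : Set G))) :
    Cfsg.InUniqueMaximal B := by
  have hZJ : H23.ZJHyp := fun X _ _ _ hX q _ S => Cfsg.Agent.S1458.result hX q S
  have hSCN : H23.SCN3Hyp := H23.scn3_of fun R _ _ q _ hq2 hR hr E _ hE hE2 => Cfsg.Agent.S1452.result q hq2 hR hr E hE hE2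
  exact H23.uniq_of_cent_rank3 hZJ (H23.fitUniq hZJ hSCN hG) hG hAp hAc hA3 hAU hBp hBnc hB3

end Cfsg.Agent.S1400
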