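import Cfsg.Statements.S1441
import Mathlib.GroupTheory.Commutator.Basic
import Mathlib.GroupTheory.Sylow

set_option autoImplicit false
open Cfsg
open scoped commutatorElement

namespace Cfsg.Agent.S1441

/-- coprime stabilizer, one step: if `a` centralizes `K` and `[x,a] ∈ K` for a `p`-element `a`, `K` a group of
order prime to `p`, then `a` commutes with `x`. -/
theorem step {G : Type*} [Group G] [Finite G] (p : ℕ) (K : Subgroup G) (hK : (Nat.card K).Coprime p)
    (a x : G) (n : ℕ) (ha : a ^ (p ^ n) = 1) (hc : ∀ y ∈ K, a * y = y * a) (hx : ⁅x, a⁆ ∈ K) :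
    a * x = x * a := by
  set y := ⁅x, a⁆ with hy
  have h1 : x * a * x⁻¹ = y * a := by
    rw [hy, commutatorElement_def]; group
  have h2 : Commute y a := by
    have := hc y hx
    exact this.symm
  have h3 : x * a ^ (p ^ n) * x⁻¹ = y ^ (p ^ n) * a ^ (p ^ n) := by
    rw [← h2.mul_pow, ← h1, conj_pow]
  rw [ha] at h3
  have h4 : y ^ (p ^ n) = 1 := by
    simpa using h3.symm
  have h5 : y = 1 := by
    have ho : orderOf y ∣ p ^ n := orderOf_dvd_of_pow_eq_one h4
    have ho2 : orderOf y ∣ Nat.card K := by
      have := orderOf_dvd_natCard (⟨y, hx⟩ : K)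
      rwa [Subgroup.orderOf_mk] at this
    have hcop : (Nat.card K).Coprime (p ^ n) := hK.pow_right n
    have : orderOf y ∣ 1 := by
      have := Nat.dvd_gcd ho2 ho
      rwa [hcop] at this
    exact orderOf_eq_one_iff.1 (Nat.dvd_one.1 this)
  rw [h5, one_mul] at h1
  calc a * x = x * a * x⁻¹ * x := by rw [h1]
    _ = x * a := by group

/-- Let G be a finite group, H a solvable subgroup and A a subgroup normalizing H. Suppose there is a chain H = H₀ ≥ H₁ ≥ ⋯ ≥ H_n = 1 of subgroups normal in H and normalized by A such that A acts trivially on each factor H_{i-1}/H_i (that is, [H_{i-1}, A] ≤ H_i). Then every prime dividing the index of C_A(H) in A divides the order of H. -/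
theorem result {G : Type*} [Group G] [Finite G] (H A : Subgroup G) (hH : Group.IsSolvable H) (hA : (A ≤ Subgroup.normalizer (H : Set G)))
    (n : ℕ) (c : Fin (n + 1) → Subgroup G) (hc0 : c 0 = H) (hcn : c (Fin.last n) = ⊥) (hanti : Antitone c)
    (hcN : ∀ i, H ≤ Subgroup.normalizer ((c i : Subgroup G) : Set G)) (hcA : ∀ i, A ≤ Subgroup.normalizer ((c i : Subgroup G) : Set G))
    (htriv : ∀ i : Fin n, ⁅c i.castSucc, A⁆ ≤ c i.succ) :
    ∀ p : ℕ, p.Prime → p ∣ (A ⊓ Subgroup.centralizer (H : Set G)).relIndex A → p ∣ Nat.card H := by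
  intro p hp hdvd
  by_contra hpH
  haveI : Fact p.Prime := ⟨hp⟩
  have hcop : (Nat.card H).Coprime p := (Nat.Prime.coprime_iff_not_dvd hp).2 hpH |>.symm
  -- every p-element of A centralizes H
  have key : ∀ a ∈ A, ∀ k : ℕ, a ^ (p ^ k) = 1 → ∀ x ∈ H, a * x = x * a := by
    intro a ha k hk
    have : ∀ i : Fin (n + 1), ∀ x ∈ c i, a * x = x * a := by
      intro i
      induction i using Fin.reverseInduction with
      | last =>
        intro x hx
        rw [hcn, Subgroup.mem_bot] at hx
        rw [hx]; simp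
      | cast i ih =>
        intro x hx
        have hle : c i.succ ≤ H := by
          rw [← hc0]; exact hanti (Fin.zero_le _)
        have hcopK : (Nat.card (c i.succ)).Coprime p :=
          Nat.Coprime.coprime_dvd_left (Subgroup.card_dvd_of_le hle) hcop
        exact step p (c i.succ) hcopK a x k hk ih (htriv i (Subgroup.commutator_mem_commutator hx ha))
    intro x hx
    exact this 0 x (by rwa [hc0])
  -- Sylow argument
  obtain ⟨P⟩ : Nonempty (Sylow p A) := inferInstance
  have hPle : (P : Subgroup A) ≤ (A ⊓ Subgroup.centralizer (H : Set G)).subgroupOf A := by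
    intro a ha
    rw [Subgroup.mem_subgroupOf, Subgroup.mem_inf]
    refine ⟨a.2, ?_⟩
    rw [Subgroup.mem_centralizer_iff]
    obtain ⟨k, hk⟩ := P.2 ⟨a, ha⟩
    have hk' : (a : G) ^ (p ^ k) = 1 := by
      have := congrArg (fun z : (P : Subgroup A) => ((z : A) : G)) hk
      simpa using this
    intro x hx
    exact (key a a.2 k hk' x hx).symm
  have h1 : ((A ⊓ Subgroup.centralizer (H : Set G)).subgroupOf A).index ∣ (P : Subgroup A).index :=
    Subgroup.index_dvd_of_le hPle
  have h2 : ¬ p ∣ (P : Subgroup A).index := Sylow.not_dvd_index' P (Subgroup.index_ne_zero_of_finite)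
  exact h2 (hdvd.trans h1)

end Cfsg.Agent.S1441
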