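import Cfsg.Statements.S1449
import Cfsg.Agent.BG.Rank2Aut
import Cfsg.Agent.BG.ConjAut

set_option autoImplicit false
open Cfsg

namespace Cfsg.Agent.S1449

/-- Let G be a finite group, p an odd prime, R a p-subgroup with no elementary abelian subgroup of order p ^ 3, and A a solvable subgroup of odd order normalizing R with A ∩ C_G(R) = 1. Then the derived subgroup [A, A] is a p-group. -/
theorem result {G : Type*} [Group G] [Finite G] (p : ℕ) [Fact p.Prime] (hp : p ≠ 2) (R A : Subgroup G) (hR : IsPGroup p R) (hr : Cfsg.PRankLE p 2 R)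
    (hA : (A ≤ Subgroup.normalizer (R : Set G))) (hAs : Group.IsSolvable A) (hAodd : Odd (Nat.card A)) (hfaith : A ⊓ Subgroup.centralizer (R : Set G) = ⊥) :
    IsPGroup p ↥⁅A, A⁆ := by
  intro x
  have hx : (x : G) ∈ (commutator A).map A.subtype := by
    rw [Subgroup.map_subtype_commutator]; exact x.2
  obtain ⟨y, hy, hyx⟩ := hx
  obtain ⟨k, hk⟩ := Cfsg.Agent.BG.rank2_aut_commutator hp hR hr hAodd hAs (Cfsg.Agent.BG.conjHom A R hA) y hy
  rw [Cfsg.Agent.BG.conjHom_eq_one_iff] at hk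
  refine ⟨k, Subtype.ext ?_⟩
  have h1 : ((y ^ p ^ k : A) : G) ∈ A ⊓ Subgroup.centralizer (R : Set G) := ⟨(y ^ p ^ k).2, hk⟩
  rw [hfaith, Subgroup.mem_bot] at h1
  have h2 : (y : G) = x := hyx
  change (x : G) ^ p ^ k = 1
  rw [← h2]
  exact h1

end Cfsg.Agent.S1449
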