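import Cfsg.Statements.S1456
import Cfsg.Agent.BG.NarrowMax

set_option autoImplicit false
open Cfsg

namespace Cfsg.Agent.S1456

theorem commutator_le_fitting_of_narrow {G : Type*} [Group G] [Finite G] [Group.IsSolvable G] (hodd : Odd (Nat.card G))
    (hr : ∀ q : ℕ, q.Prime → Cfsg.IsNarrow q (pCore q G)) : commutator G ≤ fittingSubgroup G := by
  refine BG.le_fitting_of_acts (commutator G) fun q hq x hx => ?_
  haveI : Fact q.Prime := ⟨hq⟩
  by_cases hq2 : q = 2
  · subst hq2
    refine ⟨0, ?_⟩
    have h1 : pCore 2 G = ⊥ := by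
      rw [← Subgroup.card_eq_one]
      obtain ⟨n, hn⟩ := IsPGroup.iff_card.mp (Solv.pCore_isPGroup (G := G) 2)
      rw [hn]
      rcases Nat.eq_zero_or_pos n with h | h
      · rw [h, pow_zero]
      · exfalso
        have h2 : Odd (Nat.card (pCore 2 G)) := hodd.of_dvd_nat (Subgroup.card_subgroup_dvd_card _)
        rw [hn] at h2
        exact absurd (h2.of_dvd_nat (dvd_pow_self 2 h.ne')) (by decide)
    rw [h1, Subgroup.mem_centralizer_iff]
    intro y hy
    rw [SetLike.mem_coe, Subgroup.mem_bot] at hy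
    rw [hy, one_mul, mul_one]
  · by_cases hr2 : Cfsg.PRankLE q 2 (pCore q G)
    · obtain ⟨k, hk⟩ := BG.rank2_aut_commutator hq2 (Solv.pCore_isPGroup (G := G) q) hr2 hodd inferInstance
        (MulAut.conjNormal : G →* MulAut (pCore q G)) x hx
      exact ⟨k, (BG.conjNormal_eq_one_iff _ _).mp hk⟩
    · obtain ⟨k, hk⟩ := BG.narrow_commutator hq2 (Solv.pCore_isPGroup (G := G) q) hr2 (hr q hq)
        (MulAut.conjNormal : G →* MulAut (pCore q G)) x hx
      exact ⟨k, (BG.conjNormal_eq_one_iff _ _).mp hk⟩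

/-- Let G be a solvable group of odd order, p a prime, and E an elementary abelian p-subgroup of the Fitting subgroup F(G) such that F(G) ∩ C_G(E) has no elementary abelian subgroup of order q ^ 3 for any prime q. Then the derived subgroup of G is contained in F(G). -/
theorem result {G : Type*} [Group G] [Finite G] [Group.IsSolvable G] (hodd : Odd (Nat.card G)) (p : ℕ) [Fact p.Prime] (E : Subgroup G) (hE : E ≤ Cfsg.fittingSubgroup G) (hEe : Cfsg.IsElementaryAbelian p E)
    (hr : Cfsg.RankLE 2 ↥(Cfsg.fittingSubgroup G ⊓ Subgroup.centralizer (E : Set G))) :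
    commutator G ≤ Cfsg.fittingSubgroup G := by
  have hpp : p.Prime := Fact.out
  have hEp : E ≤ pCore p G := fun e he =>
    BG.mem_pCore_of_mem_fitting hpp (hE he) (k := 1) (by rw [pow_one]; exact hEe.2 e he)
  refine commutator_le_fitting_of_narrow hodd fun q hq => ?_
  haveI : Fact q.Prime := ⟨hq⟩
  by_cases hqp : q = p
  · subst hqp
    by_cases hq2 : q = 2
    · -- O_2(G) = 1
      subst hq2
      left
      have h2 : Odd (Nat.card (pCore 2 G)) := hodd.of_dvd_nat (Subgroup.card_subgroup_dvd_card _)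
      have h3 : Nat.card (pCore 2 G) = 1 := by
        obtain ⟨n, hn⟩ := IsPGroup.iff_card.mp (Solv.pCore_isPGroup (G := G) 2)
        rw [hn] at h2 ⊢
        rcases Nat.eq_zero_or_pos n with h | h
        · rw [h, pow_zero]
        · exact absurd (h2.of_dvd_nat (dvd_pow_self 2 h.ne')) (by decide)
      intro A _ _
      have h4 : Nat.card A ≤ Nat.card (pCore 2 G) := Subgroup.card_le_card_group A
      omega
    refine BG.narrow_of_centralizer hq2 (Solv.pCore_isPGroup (G := G) q) (E.subgroupOf (pCore q G))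
      (BG.IsElementaryAbelian.comap_subtype hEe) ?_
    rw [BG.pRankLE_iff]
    intro B hB hBe
    have h1 := BG.pRankLE_iff.mp (hr q hq) (B.map (pCore q G).subtype) (by
      rintro _ ⟨b, hb, rfl⟩
      refine ⟨Solv.pCore_le_fitting q b.2, Subgroup.mem_centralizer_iff.mpr fun e he => ?_⟩
      have := Subgroup.mem_centralizer_iff.mp (hB hb) ⟨e, hEp he⟩ he
      exact congrArg Subtype.val this) (BG.IsElementaryAbelian.map _ hBe)
    rwa [Subgroup.card_map_of_injective (pCore q G).subtype_injective] at h1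
  · left
    refine BG.PRankLE.of_le (K := Cfsg.fittingSubgroup G ⊓ Subgroup.centralizer (E : Set G))
      (le_inf (Solv.pCore_le_fitting q) ?_) (hr q hq)
    refine le_trans ?_ (Subgroup.centralizer_le hEp)
    rw [← Subgroup.commutator_eq_bot_iff_le_centralizer, eq_bot_iff]
    refine (Subgroup.commutator_le_inf _ _).trans ?_
    rw [Subgroup.inf_eq_bot_of_coprime]
    obtain ⟨n, hn⟩ := IsPGroup.iff_card.mp (Solv.pCore_isPGroup (G := G) p)
    rw [hn]
    exact Nat.Coprime.pow_right n (BG.coprime_card_pCore hq hpp hqp)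

end Cfsg.Agent.S1456
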