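import Cfsg.Statements.S1460
import Cfsg.Agent.H25.SZ

set_option autoImplicit false
open Cfsg

namespace Cfsg.Agent.S1460

/-- Let G be a finite solvable group, K a normal subgroup and U a subgroup with G = KU, and H ≤ U a subgroup whose order is coprime to that of K. Then H ∩ G' = H ∩ U'; N_G(H) is generated by K ∩ C_G(H) and U ∩ N_G(H); and if gHg⁻¹ ≤ U for some g ∈ G then g = u c with u ∈ U and c ∈ K ∩ C_G(H). -/
theorem result {G : Type*} [Group G] [Finite G] [Group.IsSolvable G] (K U H : Subgroup G) [K.Normal] (hKU : K ⊔ U = ⊤) (hH : H ≤ U) (hcop : (Nat.card H).Coprime (Nat.card K)) :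
    H ⊓ commutator G = H ⊓ ⁅U, U⁆ ∧
      Subgroup.normalizer (H : Set G) = (K ⊓ Subgroup.centralizer (H : Set G)) ⊔ (U ⊓ Subgroup.normalizer (H : Set G)) ∧
      ∀ g : G, H.map (MulAut.conj g).toMonoidHom ≤ U → ∃ u ∈ U, ∃ c ∈ K ⊓ Subgroup.centralizer (H : Set G), g = u * c := by
  have key3 : ∀ g : G, H.map (MulAut.conj g).toMonoidHom ≤ U →
      ∃ u ∈ U, ∃ c ∈ K ⊓ Subgroup.centralizer (H : Set G), g = u * c := by
    intro g hg
    have hg1 : g ∈ U ⊔ K := by rw [sup_comm, hKU]; trivial
    rw [Subgroup.mem_sup_of_normal_right] at hg1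
    obtain ⟨u, hu, k, hk, rfl⟩ := hg1
    have hk1 : ∀ h ∈ H, k * h * k⁻¹ ∈ U := by
      intro h hh
      have h1 : u * k * h * (u * k)⁻¹ ∈ U := hg ⟨h, hh, rfl⟩
      have h2 : k * h * k⁻¹ = u⁻¹ * (u * k * h * (u * k)⁻¹) * u := by group
      rw [h2]
      exact U.mul_mem (U.mul_mem (U.inv_mem hu) h1) hu
    have hnorm : H ≤ Subgroup.normalizer ((K ⊓ U : Subgroup G) : Set G) := by
      intro h hh
      rw [Subgroup.mem_normalizer_iff]
      intro x
      constructor
      · rintro ⟨h1, h2⟩
        exact ⟨‹K.Normal›.conj_mem x h1 h, U.mul_mem (U.mul_mem (hH hh) h2) (U.inv_mem (hH hh))⟩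
      · rintro ⟨h1, h2⟩
        refine ⟨?_, ?_⟩
        · have := ‹K.Normal›.conj_mem _ h1 h⁻¹
          simpa [mul_assoc] using this
        · have := U.mul_mem (U.mul_mem (U.inv_mem (hH hh)) h2) (hH hh)
          simpa [mul_assoc] using this
    have hcop' : (Nat.card (K ⊓ U : Subgroup G)).Coprime (Nat.card H) :=
      (Nat.Coprime.coprime_dvd_right (Subgroup.card_dvd_of_le inf_le_left) hcop).symm
    obtain ⟨v, hv, hvH⟩ := H25.sz_conj_sup (K ⊓ U) H (H.map (MulAut.conj k).toMonoidHom) hnorm
      hcop' inferInstance (by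
        rintro _ ⟨h, hh, rfl⟩
        refine (H25.mem_sup_of_le_normalizer hnorm).mpr ⟨k * h * k⁻¹ * h⁻¹, ⟨?_, ?_⟩, h, hh, ?_⟩
        · have h3 : k * h * k⁻¹ * h⁻¹ = k * (h * k⁻¹ * h⁻¹) := by group
          rw [h3]
          exact K.mul_mem hk (‹K.Normal›.conj_mem _ (K.inv_mem hk) h)
        · exact U.mul_mem (hk1 h hh) (U.inv_mem (hH hh))
        · simp)
      (Nat.card_congr (H.equivMapOfInjective _ (MulAut.conj k).injective).toEquiv).symm
    have hvH' : H.map (MulAut.conj v).toMonoidHom = H.map (MulAut.conj k).toMonoidHom := hvH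
    have hc : v⁻¹ * k ∈ Subgroup.normalizer (H : Set G) := by
      rw [Subgroup.mem_normalizer_iff]
      intro h
      constructor
      · intro hh
        have h1 : k * h * k⁻¹ ∈ H.map (MulAut.conj v).toMonoidHom := by
          rw [hvH']; exact ⟨h, hh, rfl⟩
        obtain ⟨h', hh', he⟩ := h1
        have he' : v * h' * v⁻¹ = k * h * k⁻¹ := he
        have : v⁻¹ * k * h * (v⁻¹ * k)⁻¹ = h' := by
          have h2 : v⁻¹ * k * h * (v⁻¹ * k)⁻¹ = v⁻¹ * (k * h * k⁻¹) * v := by group
          rw [h2, ← he']; group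
        rw [this]; exact hh'
      · intro hh
        have h1 : v * (v⁻¹ * k * h * (v⁻¹ * k)⁻¹) * v⁻¹ ∈ H.map (MulAut.conj k).toMonoidHom := by
          rw [← hvH']; exact ⟨_, hh, rfl⟩
        obtain ⟨h', hh', he⟩ := h1
        have he' : k * h' * k⁻¹ = v * (v⁻¹ * k * h * (v⁻¹ * k)⁻¹) * v⁻¹ := he
        have h2 : v * (v⁻¹ * k * h * (v⁻¹ * k)⁻¹) * v⁻¹ = k * h * k⁻¹ := by group
        rw [h2] at he'
        have : h' = h := by simpa using he'
        rw [← this]; exact hh'
    have hKH : K ⊓ H = ⊥ := H25.inf_eq_bot_of_card_coprime _ _ hcop.symm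
    have hmem : v⁻¹ * k ∈ K := K.mul_mem (K.inv_mem hv.1) hk
    have hcc := H25.le_centralizer_of_normalizes K H
      (by rw [Subgroup.normalizer_eq_top]; exact le_top) hKH hmem hc
    exact ⟨u * v, U.mul_mem hu hv.2, v⁻¹ * k, ⟨hmem, hcc⟩, by group⟩
  refine ⟨?_, ?_, key3⟩
  · apply le_antisymm
    · rintro h ⟨hh, hG⟩
      refine ⟨hh, ?_⟩
      -- h ∈ K ⊔ ⁅U, U⁆
      have h1 : commutator G ≤ K ⊔ ⁅U, U⁆ := by
        have h2 : (commutator G).map (QuotientGroup.mk' K) ≤ (⁅U, U⁆).map (QuotientGroup.mk' K) := by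
          rw [commutator_def, Subgroup.map_commutator, Subgroup.map_commutator]
          have h3 : (⊤ : Subgroup G).map (QuotientGroup.mk' K) ≤ U.map (QuotientGroup.mk' K) := by
            rw [← hKU, Subgroup.map_sup]
            refine sup_le ?_ le_rfl
            rw [(Subgroup.map_eq_bot_iff _).mpr (by rw [QuotientGroup.ker_mk'])]
            exact bot_le
          exact Subgroup.commutator_mono h3 h3
        rw [Subgroup.map_le_iff_le_comap, QuotientGroup.comap_map_mk'] at h2
        exact h2
      have h2 := h1 hG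
      rw [Subgroup.mem_sup_of_normal_left] at h2
      obtain ⟨k, hk, u, hu, hku⟩ := h2
      have huU : u ∈ U := Subgroup.commutator_le_self _ hu
      have hkU : k ∈ U := by
        have : k = h * u⁻¹ := by rw [← hku]; group
        rw [this]; exact U.mul_mem (hH hh) (U.inv_mem huU)
      -- in the abelianization of `U`
      have hab : Abelianization.of (⟨h, hH hh⟩ : U) = Abelianization.of (⟨k, hkU⟩ : U) := by
        have h3 : (⟨h, hH hh⟩ : U) = ⟨k, hkU⟩ * ⟨u, huU⟩ := Subtype.ext hku.symm
        rw [h3, map_mul]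
        have h4 : (⟨u, huU⟩ : U) ∈ commutator U := by
          have h5 : u ∈ (commutator U).map U.subtype := by
            rw [commutator_def, Subgroup.map_commutator, ← MonoidHom.range_eq_map,
              Subgroup.range_subtype]
            exact hu
          obtain ⟨w, hw, hwu⟩ := h5
          have : w = ⟨u, huU⟩ := Subtype.ext hwu
          rw [← this]; exact hw
        have h5 : Abelianization.of (⟨u, huU⟩ : U) = 1 := by
          rw [← MonoidHom.mem_ker, Abelianization.ker_of]
          exact h4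
        rw [h5, mul_one]
      have ho : orderOf (Abelianization.of (⟨h, hH hh⟩ : U)) = 1 := by
        have h3 : orderOf (Abelianization.of (⟨h, hH hh⟩ : U)) ∣ Nat.card H := by
          refine (orderOf_map_dvd _ _).trans ?_
          rw [← orderOf_injective U.subtype (Subgroup.subtype_injective _)]
          exact Subgroup.orderOf_dvd_natCard H hh
        have h4 : orderOf (Abelianization.of (⟨h, hH hh⟩ : U)) ∣ Nat.card K := by
          rw [hab]
          refine (orderOf_map_dvd _ _).trans ?_
          rw [← orderOf_injective U.subtype (Subgroup.subtype_injective _)]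
          exact Subgroup.orderOf_dvd_natCard K hk
        exact Nat.dvd_one.mp (hcop ▸ Nat.dvd_gcd h3 h4)
      rw [orderOf_eq_one_iff, ← MonoidHom.mem_ker, Abelianization.ker_of] at ho
      have h5 := Subgroup.mem_map_of_mem U.subtype ho
      rw [commutator_def, Subgroup.map_commutator, ← MonoidHom.range_eq_map,
        Subgroup.range_subtype] at h5
      exact h5
    · exact inf_le_inf_left _ (by rw [commutator_def]; exact Subgroup.commutator_mono le_top le_top)
  · apply le_antisymm
    · intro g hg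
      have h1 : H.map (MulAut.conj g).toMonoidHom ≤ U := by
        rintro _ ⟨h, hh, rfl⟩
        exact hH ((Subgroup.mem_normalizer_iff.mp hg h).mp hh)
      obtain ⟨u, hu, c, hc, rfl⟩ := key3 g h1
      have hcN : c ∈ Subgroup.normalizer (H : Set G) :=
        Subgroup.centralizer_le_normalizer _ hc.2
      have huN : u ∈ Subgroup.normalizer (H : Set G) := by
        have := Subgroup.mul_mem _ hg (Subgroup.inv_mem _ hcN)
        simpa using this
      exact Subgroup.mul_mem _ (Subgroup.mem_sup_right ⟨hu, huN⟩) (Subgroup.mem_sup_left hc)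
    · refine sup_le ?_ inf_le_right
      exact inf_le_right.trans (Subgroup.centralizer_le_normalizer _)

end Cfsg.Agent.S1460
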