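import Cfsg.Statements.S1461
import Cfsg.Agent.H25.PLenOne
import Cfsg.Agent.S1460

set_option autoImplicit false
open Cfsg

namespace Cfsg.Agent.S1461

/-- Let G be a finite solvable group, p a prime with G = O_{p',p,p'}(G), and S a Sylow p-subgroup. Then: if S ≤ G' then S ≤ [N_G(S), N_G(S)]; if Y ⊆ S and xYx⁻¹ ⊆ S then x = g c for some g ∈ N_G(S) and c centralizing Y; and for every p-subgroup Q there is x ∈ C_G(Q ∩ S) with xQx⁻¹ ≤ S. -/
theorem result {G : Type*} [Group G] [Finite G] [Group.IsSolvable G] (p : ℕ) [Fact p.Prime] (hpl : Cfsg.PLengthLE p 1 G) (S : Sylow p G) :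
    ((S : Subgroup G) ≤ commutator G → (S : Subgroup G) ≤ ⁅Subgroup.normalizer ((S : Subgroup G) : Set G), Subgroup.normalizer ((S : Subgroup G) : Set G)⁆) ∧
      (∀ (Y : Set G) (x : G), Y ⊆ (S : Subgroup G) → (fun y => x * y * x⁻¹) '' Y ⊆ (S : Subgroup G) →
        ∃ g ∈ Subgroup.normalizer ((S : Subgroup G) : Set G), ∃ c ∈ Subgroup.centralizer Y, g * c = x) ∧
      ∀ Q : Subgroup G, IsPGroup p Q → ∃ x ∈ Subgroup.centralizer ((Q ⊓ (S : Subgroup G) : Subgroup G) : Set G), Q.map (MulAut.conj x).toMonoidHom ≤ (S : Subgroup G) := by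
  have hfr := H25.plen_one_frattini hpl S
  have hcop : (Nat.card (S : Subgroup G)).Coprime (Nat.card (Cfsg.pPrimeCore p G)) := by
    obtain ⟨n, hn⟩ := IsPGroup.iff_card.mp S.isPGroup'
    rw [hn]
    exact (Solv.pPrimeCore_card_coprime p).symm.pow_left n
  have key : ∀ H : Subgroup G, H ≤ (S : Subgroup G) → ∀ g : G,
      H.map (MulAut.conj g).toMonoidHom ≤ Subgroup.normalizer ((S : Subgroup G) : Set G) →
      ∃ u ∈ Subgroup.normalizer ((S : Subgroup G) : Set G),
        ∃ c ∈ Cfsg.pPrimeCore p G ⊓ Subgroup.centralizer (H : Set G), g = u * c := by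
    intro H hH
    exact (S1460.result (Cfsg.pPrimeCore p G) (Subgroup.normalizer ((S : Subgroup G) : Set G)) H hfr
      (hH.trans Subgroup.le_normalizer)
      (Nat.Coprime.coprime_dvd_left (Subgroup.card_dvd_of_le hH) hcop)).2.2
  refine ⟨?_, ?_, ?_⟩
  · intro hS
    have h1 := (S1460.result (Cfsg.pPrimeCore p G)
      (Subgroup.normalizer ((S : Subgroup G) : Set G)) (S : Subgroup G) hfr
      Subgroup.le_normalizer hcop).1
    rw [inf_eq_left.mpr hS] at h1
    exact inf_eq_left.mp h1.symm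
  · intro Y x hY hxY
    obtain ⟨u, hu, c, hc, hx⟩ := key (Subgroup.closure Y) ((Subgroup.closure_le _).mpr hY) x (by
      rw [MonoidHom.map_closure, Subgroup.closure_le]
      rintro _ ⟨y, hy, rfl⟩
      exact Subgroup.le_normalizer (hxY ⟨y, hy, rfl⟩))
    refine ⟨u, hu, c, ?_, hx.symm⟩
    exact Subgroup.centralizer_le Subgroup.subset_closure hc.2
  · intro Q hQ
    obtain ⟨T, hT⟩ := hQ.exists_le_sylow
    obtain ⟨g, hg⟩ := MulAction.exists_smul_eq G T S
    have hgQ : Q.map (MulAut.conj g).toMonoidHom ≤ (S : Subgroup G) := by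
      rw [← hg]
      exact Subgroup.map_mono hT
    obtain ⟨u, hu, c, hc, hx⟩ := key (Q ⊓ (S : Subgroup G)) inf_le_right g
      ((Subgroup.map_mono inf_le_left).trans (hgQ.trans Subgroup.le_normalizer))
    refine ⟨c, hc.2, ?_⟩
    rintro _ ⟨q, hq, rfl⟩
    have h1 : u * (c * q * c⁻¹) * u⁻¹ ∈ (S : Subgroup G) := by
      have := hgQ ⟨q, hq, rfl⟩
      rw [hx] at this
      have h2 : (MulAut.conj (u * c)).toMonoidHom q = u * (c * q * c⁻¹) * u⁻¹ := by
        simp [mul_assoc]
      rw [h2] at this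
      exact this
    exact (Subgroup.mem_normalizer_iff.mp hu _).mpr h1

end Cfsg.Agent.S1461
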