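import Cfsg.Statements.S1462
import Cfsg.Agent.H25.PLenOne
import Cfsg.Agent.H91.SolvPCore
import Cfsg.Agent.H25.SZ
import Cfsg.Agent.H49.Core
import Cfsg.Agent.BG.OmegaOdd
import Cfsg.Agent.H11.Basic

set_option autoImplicit false
open Cfsg

namespace Cfsg.Agent.S1462

/-- Let G be a finite solvable group, p an odd prime with G = O_{p',p,p'}(G), E an elementary abelian p-subgroup contained in no larger elementary abelian p-subgroup of G, and L a subgroup of order coprime to p normalized by E. Then L ≤ O_{p'}(G). -/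
theorem result {G : Type*} [Group G] [Finite G] [Group.IsSolvable G] (p : ℕ) [Fact p.Prime] (hp : p ≠ 2) (hpl : Cfsg.PLengthLE p 1 G) (E L : Subgroup G) (hE : Cfsg.IsElementaryAbelian p E)
    (hEmax : ∀ B : Subgroup G, Cfsg.IsElementaryAbelian p B → E ≤ B → B = E) (hL : (Nat.card L).Coprime p) (hEL : E ≤ Subgroup.normalizer (L : Set G)) :
    L ≤ Cfsg.pPrimeCore p G := by
  classical
  have hpp : p.Prime := Fact.out
  have hEp : IsPGroup p E := by
    intro x
    refine ⟨1, ?_⟩
    rw [pow_one]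
    exact Subtype.ext (hE.2 x x.2)
  obtain ⟨S, hES⟩ := hEp.exists_le_sylow
  set K := Cfsg.pPrimeCore p G with hK
  set π := QuotientGroup.mk' K with hπ
  have hSn := H25.plen_one_sup_normal hpl S
  rw [← hK] at hSn
  set Sb := (S : Subgroup G).map π with hSb
  have hSbeq : Sb = (K ⊔ (S : Subgroup G)).map π := by
    rw [Subgroup.map_sup, (Subgroup.map_eq_bot_iff K (f := π)).mpr (by rw [hπ, QuotientGroup.ker_mk']), bot_sup_eq]
  have hSbn : Sb.Normal := by
    rw [hSbeq]
    exact hSn.map π (QuotientGroup.mk'_surjective K)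
  have hSbp : IsPGroup p Sb := S.isPGroup'.map π
  have hHH : Subgroup.centralizer (Cfsg.pCore p (G ⧸ K) : Set (G ⧸ K)) ≤ Cfsg.pCore p (G ⧸ K) :=
    H91.centralizer_pCore_le p (Solv.pPrimeCore_quotient_pPrimeCore (G := G) p)
  have hSbcore : Cfsg.pCore p (G ⧸ K) = Sb := by
    apply le_antisymm
    · exact Solv.pCore_le_sylow (S.mapSurjective (QuotientGroup.mk'_surjective K))
    · exact Solv.le_pCore hSbn hSbp
  rw [hSbcore] at hHH
  have hKS : K ⊓ (S : Subgroup G) = ⊥ := by
    refine H25.inf_eq_bot_of_card_coprime _ _ ?_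
    obtain ⟨n, hn⟩ := IsPGroup.iff_card.mp S.isPGroup'
    rw [hn]
    exact (Solv.pPrimeCore_card_coprime p).pow_right n
  have hLbp : (Nat.card (L.map π)).Coprime p :=
    Nat.Coprime.coprime_dvd_left (Subgroup.card_map_dvd _ _) hL
  have hLS : L.map π ⊓ Sb = ⊥ := by
    refine H25.inf_eq_bot_of_card_coprime _ _ ?_
    obtain ⟨n, hn⟩ := IsPGroup.iff_card.mp hSbp
    rw [hn]
    exact hLbp.pow_right n
  have hcent : ∀ l ∈ L, π l ∈ Subgroup.centralizer (E.map π : Set (G ⧸ K)) := by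
    intro l hl
    rw [Subgroup.mem_centralizer_iff]
    rintro _ ⟨e, he, rfl⟩
    have h1 : π e * π l * (π e)⁻¹ * (π l)⁻¹ ∈ L.map π ⊓ Sb := by
      constructor
      · refine ⟨e * l * e⁻¹ * l⁻¹, ?_, by simp⟩
        exact L.mul_mem ((Subgroup.mem_normalizer_iff.mp (hEL he) l).mp hl) (L.inv_mem hl)
      · have h2 : π e * π l * (π e)⁻¹ * (π l)⁻¹ = π e * (π l * (π e)⁻¹ * (π l)⁻¹) := by group
        rw [h2]
        have h3 : π e ∈ Sb := ⟨e, hES he, rfl⟩
        exact Sb.mul_mem h3 (hSbn.conj_mem _ (Sb.inv_mem h3) _)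
    rw [hLS, Subgroup.mem_bot, mul_inv_eq_one, mul_inv_eq_iff_eq_mul] at h1
    exact h1
  have hLC : L.map π ≤ Subgroup.centralizer
      ((Sb ⊓ Subgroup.centralizer (E.map π : Set (G ⧸ K)) : Subgroup (G ⧸ K)) : Set (G ⧸ K)) := by
    refine BG.le_centralizer_of_omega1 hp (L.map π) hLbp _ _ rfl (hSbp.to_le inf_le_left) ?_ ?_
    · rintro _ ⟨l, hl, rfl⟩
      have h1 : π l ∈ Subgroup.normalizer ((Subgroup.centralizer (E.map π : Set (G ⧸ K)) :
          Subgroup (G ⧸ K)) : Set (G ⧸ K)) := Subgroup.le_normalizer (hcent l hl)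
      rw [Subgroup.mem_normalizer_iff] at h1 ⊢
      intro x
      constructor
      · rintro ⟨hx1, hx2⟩
        exact ⟨hSbn.conj_mem _ hx1 _, (h1 x).mp hx2⟩
      · rintro ⟨hx1, hx2⟩
        refine ⟨?_, (h1 x).mpr hx2⟩
        have := hSbn.conj_mem _ hx1 (π l)⁻¹
        simpa [mul_assoc] using this
    · rintro x ⟨⟨s, hs, rfl⟩, hx2⟩ hxp a ⟨l, hl, rfl⟩
      have hs1 : s ^ p = 1 := by
        have h1 : s ^ p ∈ K ⊓ (S : Subgroup G) := by
          refine ⟨?_, (S : Subgroup G).pow_mem hs p⟩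
          rw [← map_pow, hπ, QuotientGroup.mk'_apply] at hxp
          exact (QuotientGroup.eq_one_iff _).mp hxp
        rw [hKS, Subgroup.mem_bot] at h1
        exact h1
      have hs2 : ∀ e ∈ E, e * s = s * e := by
        intro e he
        have h1 : e * s * e⁻¹ * s⁻¹ ∈ K ⊓ (S : Subgroup G) := by
          refine ⟨?_, ?_⟩
          · have h2 := (Subgroup.mem_centralizer_iff.mp hx2) (π e) ⟨e, he, rfl⟩
            refine (QuotientGroup.eq_one_iff _).mp ?_
            change π (e * s * e⁻¹ * s⁻¹) = 1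
            rw [map_mul, map_mul, map_mul, map_inv, map_inv, h2]
            group
          · exact (S : Subgroup G).mul_mem ((S : Subgroup G).mul_mem ((S : Subgroup G).mul_mem
              (hES he) hs) ((S : Subgroup G).inv_mem (hES he))) ((S : Subgroup G).inv_mem hs)
        rw [hKS, Subgroup.mem_bot, mul_inv_eq_one, mul_inv_eq_iff_eq_mul] at h1
        exact h1
      have hsE : s ∈ E := by
        have hz : Cfsg.IsElementaryAbelian p (Subgroup.zpowers s) := by
          refine ⟨inferInstance, ?_⟩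
          rintro _ ⟨k, rfl⟩
          change (s ^ k) ^ p = 1
          rw [← zpow_natCast, ← zpow_mul, mul_comm, zpow_mul, zpow_natCast, hs1, one_zpow]
        have hB := H11.elem_sup hE hz (by
          rintro e he _ ⟨k, rfl⟩
          exact (Commute.zpow_right (hs2 e he) k))
        have := hEmax _ hB le_sup_left
        rw [← this]
        exact (le_sup_right : Subgroup.zpowers s ≤ _) (Subgroup.mem_zpowers s)
      exact ((Subgroup.mem_centralizer_iff.mp (hcent l hl)) (π s) ⟨s, hsE, rfl⟩).symm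
  intro l hl
  have h1 : π l ∈ Subgroup.centralizer (Sb : Set (G ⧸ K)) := by
    refine H49.thompson_AB (A := E.map π) (hEp.map π) ?_ (hcent l hl) Sb hSbp ?_ ?_ ?_
    · exact Nat.Coprime.coprime_dvd_left
        (Subgroup.orderOf_dvd_natCard (L.map π) ⟨l, hl, rfl⟩) hLbp
    · rw [Subgroup.normalizer_eq_top]; exact le_top
    · rw [Subgroup.normalizer_eq_top]; trivial
    · exact hLC ⟨l, hl, rfl⟩
  have h2 : π l ∈ L.map π ⊓ Sb := ⟨⟨l, hl, rfl⟩, hHH h1⟩
  rw [hLS, Subgroup.mem_bot] at h2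
  exact (QuotientGroup.eq_one_iff _).mp h2

end Cfsg.Agent.S1462
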