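import Cfsg.Statements.S1464
import Cfsg.Agent.H25.QuadCore

set_option autoImplicit false
open Cfsg

namespace Cfsg.Agent.S1464

/-- Let p be an odd prime and G a solvable group of odd order, P a p-subgroup with O_{p'}(G)P normal in G, and A a p-subgroup of N_G(P) with [[P, A], A] = 1. Then the image of A in the quotient N_G(P)/C_G(P) is contained in the p-core of that quotient. -/
theorem result {G : Type*} [Group G] [Finite G] [Group.IsSolvable G] (hodd : Odd (Nat.card G)) (p : ℕ) [Fact p.Prime] (hp : p ≠ 2) (P A : Subgroup G) (hP : IsPGroup p P) (hPn : (Cfsg.pPrimeCore p G ⊔ P).Normal)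
    (hA : IsPGroup p A) (hAN : A ≤ Subgroup.normalizer (P : Set G)) (hquad : ⁅⁅P, A⁆, A⁆ = ⊥) :
    (A.subgroupOf (Subgroup.normalizer (P : Set G))).map
        (QuotientGroup.mk' ((Subgroup.centralizer (P : Set G)).subgroupOf (Subgroup.normalizer (P : Set G))))
      ≤ Cfsg.pCore p _ := by
  have hoddN : Odd (Nat.card (Subgroup.normalizer (P : Set G))) :=
    hodd.of_dvd_nat (Subgroup.card_subgroup_dvd_card _)
  have hPle : P ≤ Subgroup.normalizer (P : Set G) := Subgroup.le_normalizer
  haveI : (P.subgroupOf (Subgroup.normalizer (P : Set G))).Normal :=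
    Subgroup.normal_in_normalizer
  refine H25.quad_subgroup_le_pCore hp hoddN (P.subgroupOf (Subgroup.normalizer (P : Set G)))
    (hP.comap_of_injective _ (Subgroup.subtype_injective _)) _ ?_ _ ?_
  · intro k hk
    rw [Subgroup.mem_subgroupOf, Subgroup.mem_centralizer_iff]
    intro u hu
    have := hk ⟨u, hPle hu⟩ (by simpa [Subgroup.mem_subgroupOf] using hu)
    exact (congrArg Subtype.val this).symm
  · have h1 : (⁅⁅P.subgroupOf (Subgroup.normalizer (P : Set G)),
        A.subgroupOf (Subgroup.normalizer (P : Set G))⁆,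
        A.subgroupOf (Subgroup.normalizer (P : Set G))⁆).map
        (Subgroup.normalizer (P : Set G)).subtype = ⊥ := by
      rw [Subgroup.map_commutator, Subgroup.map_commutator, Subgroup.subgroupOf_map_subtype,
        Subgroup.subgroupOf_map_subtype, inf_eq_left.mpr hPle, inf_eq_left.mpr hAN, hquad]
    exact (Subgroup.map_eq_bot_iff_of_injective _ (Subgroup.subtype_injective _)).mp h1

end Cfsg.Agent.S1464
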