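import Cfsg.Statements.S1471
import Cfsg.Agent.AppC.C2

set_option autoImplicit false
open Cfsg

namespace Cfsg.Agent.S1471

/-- Let p and q be odd primes with (p^q − 1)/(p − 1) coprime to p − 1. Then there are at least two elements a of the field with p ^ q elements such that both a and 2 − a have norm 1 to the prime field. -/
theorem result (p q : ℕ) [Fact p.Prime] [Fact q.Prime] (hp : p ≠ 2) (hq : q ≠ 2) (hA : Nat.Coprime ((p ^ q - 1) / (p - 1)) (p - 1)) :
    2 ≤ Set.ncard {a : GaloisField p q | Algebra.norm (ZMod p) a = 1 ∧ Algebra.norm (ZMod p) (2 - a) = 1} := by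
  have hq0 : q ≠ 0 := (Fact.out : q.Prime).ne_zero
  obtain ⟨a, ha1, ha, ha2⟩ := Cfsg.Agent.AppC.c2 (p := p) (q := q) (F := GaloisField p q) (GaloisField.card p q hq0)
    Fact.out hp hq hA
  have h1 : ({1, a} : Set (GaloisField p q)) ⊆
      {a : GaloisField p q | Algebra.norm (ZMod p) a = 1 ∧ Algebra.norm (ZMod p) (2 - a) = 1} := by
    rintro x (rfl | rfl)
    · refine ⟨map_one _, ?_⟩
      have : (2 : GaloisField p q) - 1 = 1 := by norm_num
      rw [this, map_one]
    · exact ⟨(Cfsg.Agent.AppC.norm_eq_one_iff p q hq0 _).2 ha, (Cfsg.Agent.AppC.norm_eq_one_iff p q hq0 _).2 ha2⟩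
  rw [← Set.ncard_pair (Ne.symm ha1)]
  exact Set.ncard_le_ncard h1 (Set.toFinite _)

end Cfsg.Agent.S1471
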