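import Cfsg.Statements.S1480
import Cfsg.Agent.H71.Transit2

set_option autoImplicit false
open Cfsg

namespace Cfsg.Agent.S1480

/-- Let G be a finite group and p a prime such that the normalizer of every nontrivial p-subgroup of G is p-constrained; if p = 2 assume also that the Sylow 2-subgroups of G have nilpotency class at most 2. Let E be an abelian p-subgroup containing an elementary abelian subgroup of order p ^ 3 and containing every element of p-power order of C_G(E). Then for every prime q ≠ p, any two maximal E-invariant q-subgroups of G are conjugate by an element of O_{p'}(C_G(E)). -/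
theorem result {G : Type*} [Group G] [Finite G] (p : ℕ) [Fact p.Prime]
    (hloc : ∀ T : Subgroup G, IsPGroup p T → T ≠ ⊥ → Cfsg.IsPConstrained p ↥(Subgroup.normalizer (T : Set G)))
    (h2 : p = 2 → ∀ S : Sylow p G, Group.IsNilpotent (S : Subgroup G) ∧ Group.nilpotencyClass (S : Subgroup G) ≤ 2)
    (E : Subgroup G) (hEp : IsPGroup p E) (hEc : IsMulCommutative E) (hE3 : ¬ Cfsg.PRankLE p 2 E)
    (hEfull : ∀ x ∈ Subgroup.centralizer (E : Set G), IsPGroup p (Subgroup.zpowers x) → x ∈ E)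
    (q : ℕ) [Fact q.Prime] (hqp : q ≠ p) :
    ∀ Q₁ ∈ Cfsg.maxInvSubgroups ⊤ E {q}, ∀ Q₂ ∈ Cfsg.maxInvSubgroups ⊤ E {q},
        ∃ k ∈ Cfsg.piCoreOf (Cfsg.primesNotDvd p) (Subgroup.centralizer (E : Set G)), Q₂ = Q₁.map (MulAut.conj k).toMonoidHom := by
  have hcl : p = 2 → ∀ S : Subgroup G, IsPGroup p S → ∀ x ∈ S, ∀ y ∈ S, ∀ z ∈ S,
      z * commutatorElement.bracket x y = commutatorElement.bracket x y * z := by
    intro hp2 S hS x hx y hy z hz
    obtain ⟨T, hST⟩ := hS.exists_le_sylow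
    obtain ⟨hn, hc⟩ := h2 hp2 T
    exact Cfsg.Agent.H71.Transit.class_two_of_sylow hn hc (hST hx) (hST hy) (hST hz)
  have h : Cfsg.Agent.H71.Transit.Hyp p E := ⟨hloc, hcl, hEp, hEc, hEfull⟩
  unfold Cfsg.PRankLE at hE3
  push Not at hE3
  obtain ⟨A, hA1, hA2, hA3⟩ := hE3
  set B := A.map E.subtype with hB
  have hBE : B ≤ E := Subgroup.map_subtype_le A
  have hcard : Nat.card B = Nat.card A := Subgroup.card_map_of_injective E.subtype_injective
  have hBe : Cfsg.IsElementaryAbelian p B := by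
    refine ⟨⟨⟨?_⟩⟩, ?_⟩
    · rintro ⟨_, x, hx, rfl⟩ ⟨_, y, hy, rfl⟩
      apply Subtype.ext
      have h4 := congrArg (fun z : A => ((z : E) : G)) (hA1.1.1 ⟨x, hx⟩ ⟨y, hy⟩)
      exact h4
    · rintro _ ⟨x, hx, rfl⟩
      rw [← map_pow, hA2 x hx, map_one]
  intro Q₁ hQ₁ Q₂ hQ₂
  obtain ⟨k, hk, hk'⟩ := Cfsg.Agent.H71.Transit.main_aux h hqp hBE hBe (by rw [hcard]; exact hA3) (Nat.card G)
    Q₁ hQ₁ Q₂ hQ₂ (Nat.le_add_left _ _)
  exact ⟨k, hk, by rw [hk', Cfsg.Agent.H23.map_conj_eq_smul]⟩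

end Cfsg.Agent.S1480
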