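import Cfsg.Statements.S1481
import Cfsg.Agent.H23.Uniq81
import Cfsg.Agent.SigF.Trans

set_option autoImplicit false
open Cfsg

namespace Cfsg.Agent.S1481

open Cfsg.Agent Cfsg.Agent.H23
open Cfsg.Agent.BG (pCoreOf)

/-- Let G be a finite group and H a local subgroup (the normalizer of a nontrivial subgroup of prime-power order) not properly contained in any local subgroup; let F = F(H), suppose at least two primes divide #F, put X = H ∩ C_G(F), let M ≤ F with F ∩ C_G(M) ≤ M, and let R be a solvable subgroup normalized by M and by X. Then for every prime q not dividing #F there is exactly one maximal M-invariant q-subgroup of R, and it is a Sylow q-subgroup of the largest normal subgroup of R of order coprime to #F. -/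
theorem result {G : Type*} [Group G] [Finite G] (H : Subgroup G) (hH : Cfsg.IsLocalSubgroup H) (hHmax : ∀ L : Subgroup G, Cfsg.IsLocalSubgroup L → H ≤ L → L = H)
    (hF2 : 2 ≤ (Nat.card (Cfsg.fittingOf H)).primeFactors.card)
    (M : Subgroup G) (hM : M ≤ Cfsg.fittingOf H) (hCM : Cfsg.fittingOf H ⊓ Subgroup.centralizer (M : Set G) ≤ M)
    (R : Subgroup G) (hR : Group.IsSolvable R) (hMR : M ≤ Subgroup.normalizer (R : Set G))
    (hXR : H ⊓ Subgroup.centralizer (Cfsg.fittingOf H : Set G) ≤ Subgroup.normalizer (R : Set G))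
    (q : ℕ) [Fact q.Prime] (hq : ¬ q ∣ Nat.card (Cfsg.fittingOf H)) :
    ∃! Q : Subgroup G, Q ∈ Cfsg.maxInvSubgroups R M {q} ∧
      (∀ Q' : Subgroup G, Q' ∈ Cfsg.maxInvSubgroups R M {q} →
        Q' ≤ Cfsg.piCoreOf (Cfsg.primesNotDvd (Nat.card (Cfsg.fittingOf H))) R ∧
        ¬ q ∣ Q'.relIndex (Cfsg.piCoreOf (Cfsg.primesNotDvd (Nat.card (Cfsg.fittingOf H))) R)) := by
  set F := fittingOf H with hF
  have hFM : F ≤ H := BG.fittingOf_le H
  have hFn : Group.IsNilpotent F := BG.fittingOf_isNilpotent H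
  have hMH : M ≤ H := hM.trans hFM
  -- alternatives
  have halt : ∀ q : ℕ, q.Prime → ∃ r : ℕ, r.Prime ∧ r ∣ Nat.card F ∧ r ≠ q := by
    intro q hq
    by_contra hcon
    push Not at hcon
    have h1 : (Nat.card F).primeFactors ⊆ {q} := by
      intro r hr
      rw [Nat.mem_primeFactors] at hr
      rw [Finset.mem_singleton]
      exact hcon r hr.1 hr.2.1
    have h2 := Finset.card_le_card h1
    rw [Finset.card_singleton] at h2
    omega
  -- `Z(O_r(H)) ≤ M`
  have hzA : ∀ r : ℕ, r.Prime → zc r H ≤ M := by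
    intro r hr
    have : Fact r.Prime := ⟨hr⟩
    refine le_trans (le_inf ((zc_le r H).trans (BG.pCoreOf_le_fittingOf r H)) ?_) hCM
    refine le_trans ?_ (Subgroup.centralizer_le (show (M : Set G) ⊆ (F : Set G) from hM))
    rw [Subgroup.le_centralizer_iff]
    refine fittingOf_le_of_forall fun q hq => ?_
    have : Fact q.Prime := ⟨hq⟩
    rw [← Subgroup.le_centralizer_iff]
    by_cases h : r = q
    · subst h
      exact inf_le_right
    · exact (zc_le r H).trans (pCoreOf_le_centralizer h H)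
  have hCz : ∀ p : ℕ, p.Prime → p ∣ Nat.card F → Subgroup.centralizer (zc p H : Set G) ≤ H := by
    intro p hp hd
    have : Fact p.Prime := ⟨hp⟩
    have h1 : IsLocalSubgroup (Subgroup.normalizer (zc p H : Set G)) :=
      ⟨p, zc p H, hp, (BG.pCoreOf_isPGroup p H).to_le (zc_le p H), zc_ne_bot (dvd_card_fittingOf_iff.1 hd), rfl⟩
    have h2 := hHmax _ h1 (le_normalizer_zc p H)
    exact (centralizer_le_normalizer' _).trans h2.le
  set X := H ⊓ Subgroup.centralizer (F : Set G) with hX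
  have hK0 : R ⊓ X ≤ F := by
    have hn1 : X ≤ Subgroup.normalizer ((R ⊓ X : Subgroup G) : Set G) :=
      (le_inf hXR Subgroup.le_normalizer).trans Subgroup.inf_normalizer_le_normalizer_inf
    have hn2 : H ≤ Subgroup.normalizer (X : Set G) :=
      (le_inf Subgroup.le_normalizer ((BG.le_normalizer_fittingOf H).trans
        (normalizer_le_normalizer_centralizer _))).trans Subgroup.inf_normalizer_le_normalizer_inf
    have h1 : fittingOf (R ⊓ X) ≤ fittingOf X := BG.fittingOf_le_of_normal inf_le_right hn1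
    have h2 : fittingOf X ≤ fittingOf H := BG.fittingOf_le_of_normal inf_le_left hn2
    have h3 : R ⊓ X ≤ Subgroup.centralizer (fittingOf (R ⊓ X) : Set G) :=
      inf_le_right.trans (inf_le_right.trans (Subgroup.centralizer_le (h1.trans h2)))
    have h4 := BG.inf_centralizer_fittingOf_le (M := R ⊓ X) (Cop.isSolvable_of_le inf_le_left hR)
    exact (le_inf le_rfl h3).trans (h4.trans (h1.trans h2))
  -- no fixed points
  have step1 : ∀ q : ℕ, q.Prime → ¬ q ∣ Nat.card F → ∀ Y ≤ R, IsPGroup q Y →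
      M ≤ Subgroup.normalizer (Y : Set G) → ∀ p : ℕ, p.Prime → p ∣ Nat.card F →
      Y ⊓ Subgroup.centralizer (zc p H : Set G) = ⊥ := by
    intro q hq hqF Y hYR hYq hMY p hp hpF
    have : Fact q.Prime := ⟨hq⟩
    set Y0 := Y ⊓ Subgroup.centralizer (zc p H : Set G) with hY0
    have hcop : (Nat.card Y).Coprime (Nat.card F) := by
      obtain ⟨n, hn⟩ := IsPGroup.iff_card.1 hYq
      rw [hn]
      exact Nat.Coprime.pow_left n ((Nat.Prime.coprime_iff_not_dvd hq).2 hqF)
    have hY0H : Y0 ≤ H := inf_le_right.trans (hCz p hp hpF)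
    have hYc : Y0 ≤ Subgroup.centralizer (M : Set G) := by
      intro y hy
      rw [Subgroup.mem_centralizer_iff]
      intro a ha
      have h1 : a * y * a⁻¹ * y⁻¹ ∈ Y :=
        Y.mul_mem ((Subgroup.mem_normalizer_iff.1 (hMY ha) y).1 hy.1) (Y.inv_mem hy.1)
      have h2 : a * y * a⁻¹ * y⁻¹ ∈ F := by
        have h3 := F.mul_mem (hM ha)
          ((Subgroup.mem_normalizer_iff.1 (BG.le_normalizer_fittingOf H (hY0H hy)) _).1 (F.inv_mem (hM ha)))
        have e : a * (y * a⁻¹ * y⁻¹) = a * y * a⁻¹ * y⁻¹ := by group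
        rwa [e] at h3
      have h3 := mul_inv_eq_one.1 (eq_one_of_coprime_card hcop h1 h2)
      calc a * y = a * y * a⁻¹ * a := by group
        _ = y * a := by rw [h3]
    have hMC : M ≤ F ⊓ Subgroup.centralizer (Y0 : Set G) :=
      le_inf hM (Subgroup.le_centralizer_iff.1 hYc)
    have hC : Y0 ≤ Subgroup.centralizer (F : Set G) := by
      refine S1442.result F Y0 hFn (hY0H.trans (BG.le_normalizer_fittingOf H))
        (Nat.Coprime.coprime_dvd_left (Subgroup.card_dvd_of_le inf_le_left) hcop) ?_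
      exact ((inf_le_inf_left _ (Subgroup.centralizer_le hMC)).trans hCM).trans hMC
    have h5 : Y0 ≤ F := (le_inf (inf_le_left.trans hYR) (le_inf hY0H hC)).trans hK0
    rw [eq_bot_iff]
    intro y hy
    rw [Subgroup.mem_bot]
    exact eq_one_of_coprime_card hcop hy.1 (h5 hy)
  -- the solvable group `R M`
  set X0 := R ⊔ M with hX0
  have hFs : Group.IsSolvable F := inferInstance
  have hX0s : Group.IsSolvable X0 := SigF.solvable_sup hR (Cop.isSolvable_of_le hM hFs) hMR
  have hX0n : X0 ≤ Subgroup.normalizer (R : Set G) := sup_le Subgroup.le_normalizer hMR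
  have step2 : ∀ q : ℕ, q.Prime → ¬ q ∣ Nat.card F → ∀ Y ≤ R, IsPGroup q Y →
      M ≤ Subgroup.normalizer (Y : Set G) → ∀ p : ℕ, p.Prime → p ∣ Nat.card F → Y ≤ opc p R := by
    intro q hq hqF Y hYR hYq hMY p hp hpF
    have : Fact q.Prime := ⟨hq⟩
    have : Fact p.Prime := ⟨hp⟩
    obtain ⟨r, hr, hrF, hrp⟩ := halt p hp
    have : Fact r.Prime := ⟨hr⟩
    have hrq : r ≠ q := fun h => hqF (h ▸ hrF)
    have h1 := step1 q hq hqF Y hYR hYq hMY r hr hrF
    have hZp : IsPGroup r (zc r H) := (BG.pCoreOf_isPGroup r H).to_le (zc_le r H)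
    have hdec := Cop.commutator_sup_centralizer ((hzA r hr).trans hMY) (coprime_of_isPGroup hrq hZp hYq)
      (Or.inr (Cop.isSolvable_of_le hYR hR))
    rw [h1, sup_bot_eq] at hdec
    have h2 := inf_le_opc (q := p) (R := zc p H) (E := pCoreOf r H) (M := H) (X := X0) hX0s
      ((BG.pCoreOf_isPGroup p H).to_le (zc_le p H)) ((hzA p hp).trans le_sup_right)
      (hCz p hp hpF) (BG.le_normalizer_pCoreOf r H)
      (by
        obtain ⟨n, hn⟩ := IsPGroup.iff_card.1 (BG.pCoreOf_isPGroup r H)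
        rw [hn]
        exact Nat.Coprime.pow_left n ((Nat.coprime_primes hr hp).2 hrp))
      ((zc_le p H).trans (pCoreOf_le_centralizer hrp.symm H))
    have h3 : zc r H ≤ opc p X0 := (le_inf (zc_le r H) ((hzA r hr).trans le_sup_right)).trans h2
    have h4 : Y ≤ opc p X0 := by
      rw [← hdec]
      refine (Subgroup.commutator_mono le_rfl h3).trans ?_
      rw [Subgroup.commutator_le]
      intro y hy z hz
      rw [commutatorElement_def]
      exact Subgroup.mul_mem _ ((Subgroup.mem_normalizer_iff.1 (le_normalizer_opc X0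
        (le_sup_left (a := R) (b := M) (hYR hy))) z).1 hz) (Subgroup.inv_mem _ hz)
    refine (le_inf h4 hYR).trans ?_
    refine le_opc_of_normal inf_le_right ?_ ?_
    · exact (le_inf (le_sup_left.trans (le_normalizer_opc X0)) Subgroup.le_normalizer).trans
        Subgroup.inf_normalizer_le_normalizer_inf
    · exact Nat.Coprime.coprime_dvd_left (Subgroup.card_dvd_of_le inf_le_left) (card_opc_coprime X0)
  set K := piCoreOf (primesNotDvd (Nat.card F)) R with hK
  have step3 : ∀ q : ℕ, q.Prime → ¬ q ∣ Nat.card F → ∀ Y ≤ R, IsPGroup q Y →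
      M ≤ Subgroup.normalizer (Y : Set G) → Y ≤ K := fun q hq hqF Y hYR hYq hMY =>
    le_piCoreOf_of_forall_opc hYR fun p hp hpF => step2 q hq hqF Y hYR hYq hMY p hp hpF
  have hKR : K ≤ R := H23.piCoreOf_le _ _
  have hMK : M ≤ Subgroup.normalizer (K : Set G) := hMR.trans (H23.normalizer_le_normalizer_piCoreOf _ _)
  have hKs : Group.IsSolvable K := Cop.isSolvable_of_le hKR hR
  have hcopK : (Nat.card M).Coprime (Nat.card K) := by
    by_contra hc
    obtain ⟨s, hs, h1, h2⟩ := Nat.Prime.not_coprime_iff_dvd.1 hc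
    exact (prime_mem_of_dvd_card_piCoreOf _ _ hs h2).2 (h1.trans (Subgroup.card_dvd_of_le hM))
  obtain ⟨p, hp, hpF, -⟩ := halt 2 Nat.prime_two
  have hCK : K ⊓ Subgroup.centralizer (M : Set G) = ⊥ := by
    rw [← Subgroup.card_eq_one]
    by_contra hne
    obtain ⟨s, hs, hsd⟩ := Nat.exists_prime_and_dvd hne
    have : Fact s.Prime := ⟨hs⟩
    have hsF : ¬ s ∣ Nat.card F :=
      (prime_mem_of_dvd_card_piCoreOf _ _ hs (hsd.trans (Subgroup.card_dvd_of_le inf_le_left))).2
    obtain ⟨x, hx⟩ := exists_prime_orderOf_dvd_card' (G := ↥(K ⊓ Subgroup.centralizer (M : Set G))) s hsd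
    have hxs : orderOf (x : G) = s := by rw [Subgroup.orderOf_coe, hx]
    have hxC : Subgroup.zpowers (x : G) ≤ Subgroup.centralizer (M : Set G) := Subgroup.zpowers_le.2 x.2.2
    have h1 := step1 s hs hsF (Subgroup.zpowers (x : G)) (Subgroup.zpowers_le.2 (hKR x.2.1))
      (IsPGroup.of_card (n := 1) (by rw [Nat.card_zpowers, hxs, pow_one]))
      ((Subgroup.le_centralizer_iff.1 hxC).trans (centralizer_le_normalizer' _)) p hp hpF
    have h2 : (x : G) ∈ Subgroup.zpowers (x : G) ⊓ Subgroup.centralizer (zc p H : Set G) :=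
      ⟨Subgroup.mem_zpowers _, Subgroup.centralizer_le (hzA p hp) x.2.2⟩
    rw [h1, Subgroup.mem_bot] at h2
    rw [h2, orderOf_one] at hxs
    exact hs.one_lt.ne hxs
  have hqp : q.Prime := Fact.out
  obtain ⟨Q, hQ⟩ := Cop.exists_invariant_sylow hMK hcopK (Or.inr hKs) q
  set Q' := (Q : Subgroup K).map K.subtype with hQ'
  have hQK : Q' ≤ K := Subgroup.map_subtype_le _
  have hQq : IsPGroup q Q' := Q.isPGroup'.map _
  have hQinv : Q' ∈ invSubgroups R M {q} := (mem_invSubgroups_iff hqp).2 ⟨hQK.trans hKR, hQq, hQ⟩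
  have hall : ∀ Y ∈ invSubgroups R M {q}, Y ≤ Q' := by
    intro Y hY
    rw [mem_invSubgroups_iff hqp] at hY
    obtain ⟨P, hYP, hP⟩ := Cop.exists_invariant_sylow_ge hMK hcopK (Or.inr hKs) q
      (step3 q hqp hq Y hY.1 hY.2.1 hY.2.2) hY.2.1 hY.2.2
    obtain ⟨c, hc, hc'⟩ := Cop.exists_centralizer_conj_sylow hMK hcopK (Or.inr hKs) q P Q hP hQ
    have h1 : (c : G) ∈ K ⊓ Subgroup.centralizer (M : Set G) := ⟨c.2, hc⟩
    rw [hCK, Subgroup.mem_bot] at h1
    have h2 : c = 1 := Subtype.ext h1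
    rw [h2, map_one, one_smul] at hc'
    rw [hQ', ← hc']
    exact hYP
  have hmax : Q' ∈ maxInvSubgroups R M {q} := ⟨hQinv, fun Y hY hQY => le_antisymm (hall Y hY) hQY⟩
  have huniq : ∀ Y ∈ maxInvSubgroups R M {q}, Y = Q' := fun Y hY =>
    (hY.2 Q' hQinv (hall Y hY.1)).symm
  have hQidx : ¬ q ∣ Q'.relIndex K := by
    have h1 : Q'.relIndex K = (Q : Subgroup K).index := by
      rw [Subgroup.relIndex, hQ', BG.subgroupOf_map_subtype_self]
    rw [h1]
    exact Q.not_dvd_index
  refine ⟨Q', ⟨hmax, ?_⟩, fun Y hY => huniq Y hY.1⟩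
  intro Y hY
  rw [huniq Y hY]
  exact ⟨hQK, hQidx⟩

end Cfsg.Agent.S1481
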