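import Cfsg.Statements.S1482
import Cfsg.Agent.H23.Uniq81

set_option autoImplicit false
open Cfsg

namespace Cfsg.Agent.S1482

open Cfsg.Agent Cfsg.Agent.H23 Cfsg.Agent.BG

/-- Let G be a minimal simple group of odd order, H a maximal subgroup whose Fitting subgroup F has at least two prime divisors, and M a subgroup of F containing the centre of F such that the only M-invariant subgroup of G of order coprime to #F is the trivial one. Then H is the only maximal subgroup of G containing M. -/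
theorem result {G : Type*} [Group G] [Finite G] (hG : Cfsg.IsMinSimpleOddOrder G) (H : Subgroup G) (hH : IsCoatom H) (hF2 : 2 ≤ (Nat.card (Cfsg.fittingOf H)).primeFactors.card)
    (M : Subgroup G) (hM : M ≤ Cfsg.fittingOf H) (hZM : Cfsg.fittingOf H ⊓ Subgroup.centralizer (Cfsg.fittingOf H : Set G) ≤ M)
    (hinv : ∀ Y ∈ Cfsg.invSubgroups ⊤ M (Cfsg.primesNotDvd (Nat.card (Cfsg.fittingOf H))), Y = ⊥) :
    ∀ L : Subgroup G, IsCoatom L → M ≤ L → L = H := by
  have hs : IsSimpleGroup G := hG.2.1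
  set F := fittingOf H with hF
  have hFM : F ≤ H := BG.fittingOf_le H
  have hAM : M ≤ H := hM.trans hFM
  -- `Z(O_r(H)) ≤ M`
  have hzA : ∀ r : ℕ, r.Prime → zc r H ≤ M := by
    intro r hr
    have : Fact r.Prime := ⟨hr⟩
    refine le_trans (le_inf ((zc_le r H).trans (BG.pCoreOf_le_fittingOf r H)) ?_) hZM
    rw [Subgroup.le_centralizer_iff]
    refine fittingOf_le_of_forall fun q hq => ?_
    have : Fact q.Prime := ⟨hq⟩
    rw [← Subgroup.le_centralizer_iff]
    by_cases h : r = q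
    · subst h
      exact inf_le_right
    · exact (zc_le r H).trans (pCoreOf_le_centralizer h H)
  -- alternatives
  have halt : ∀ q : ℕ, q.Prime → ∃ r : ℕ, r.Prime ∧ r ∣ Nat.card F ∧ r ≠ q := by
    intro q hq
    by_contra hcon
    push Not at hcon
    have h1 : (Nat.card F).primeFactors ⊆ {q} := by
      intro r hr
      rw [Nat.mem_primeFactors] at hr
      rw [Finset.mem_singleton]
      exact hcon r hr.1 hr.2.1
    have h2 := Finset.card_le_card h1
    rw [Finset.card_singleton] at h2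
    omega
  have hArC : ∀ r : ℕ, r.Prime → r ∣ Nat.card F →
      Subgroup.centralizer ((M ⊓ pCoreOf r H : Subgroup G) : Set G) ≤ H := by
    intro r hr hd
    have : Fact r.Prime := ⟨hr⟩
    refine (Subgroup.centralizer_le ?_).trans (centralizer_zc_le hG hH (dvd_card_fittingOf_iff.1 hd))
    exact le_inf (hzA r hr) (zc_le r H)
  -- `M_r ≤ O_{q'}(X)`
  have hcore : ∀ (X : Subgroup G), X ≠ ⊤ → M ≤ X → ∀ q r : ℕ, q.Prime → r.Prime → q ≠ r → q ∣ Nat.card F →
      M ⊓ pCoreOf r H ≤ opc q X := by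
    intro X hX hAX q r hq hr hqr hqF
    have : Fact q.Prime := ⟨hq⟩
    have : Fact r.Prime := ⟨hr⟩
    have h1 := inf_le_opc (q := q) (R := zc q H) (E := pCoreOf r H) (M := H) (X := X)
      (hG.2.2.2 X hX) ((BG.pCoreOf_isPGroup q H).to_le (zc_le q H)) ((hzA q hq).trans hAX)
      (centralizer_zc_le hG hH (dvd_card_fittingOf_iff.1 hqF)) (BG.le_normalizer_pCoreOf r H)
      (by
        obtain ⟨n, hn⟩ := IsPGroup.iff_card.1 (BG.pCoreOf_isPGroup r H)
        rw [hn]
        exact Nat.Coprime.pow_left n ((Nat.coprime_primes hr hq).2 hqr.symm))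
      ((zc_le q H).trans (pCoreOf_le_centralizer hqr H))
    refine le_trans ?_ h1
    exact le_inf inf_le_right (inf_le_left.trans hAX)
  intro L hL hAH
  have hHcore : ∀ q : ℕ, q.Prime → ¬ q ∣ Nat.card F → pCoreOf q L = ⊥ := by
    intro q hq hqA
    have : Fact q.Prime := ⟨hq⟩
    apply hinv
    refine ⟨le_top, ?_, hAH.trans (BG.le_normalizer_pCoreOf q L)⟩
    intro s hs hd
    refine ⟨hs, fun hsF => hqA ?_⟩
    obtain ⟨n, hn⟩ := IsPGroup.iff_card.1 (BG.pCoreOf_isPGroup q L)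
    rw [hn] at hd
    rwa [← (Nat.prime_dvd_prime_iff_eq hs hq).1 (hs.dvd_of_dvd_pow hd)]
  -- `O_q(L)` centralizes `M_r`, `r ≠ q`
  have hcent : ∀ q r : ℕ, q.Prime → r.Prime → q ≠ r →
      pCoreOf q L ≤ Subgroup.centralizer ((M ⊓ pCoreOf r H : Subgroup G) : Set G) := by
    intro q r hq hr hqr
    have : Fact q.Prime := ⟨hq⟩
    by_cases hqA : q ∣ Nat.card F
    · exact (pCoreOf_le_centralizer_opc L).trans
        (Subgroup.centralizer_le (hcore L hL.1 hAH q r hq hr hqr hqA))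
    · rw [hHcore q hq hqA]; exact bot_le
  have hHr : ∀ r : ℕ, r.Prime → r ∣ Nat.card F → pCoreOf r L ≠ ⊥ := by
    intro r hr hrF hb
    have : Fact r.Prime := ⟨hr⟩
    have h1 : fittingOf L ≤ Subgroup.centralizer ((M ⊓ pCoreOf r H : Subgroup G) : Set G) := by
      refine fittingOf_le_of_forall fun q hq => ?_
      by_cases hqr : q = r
      · rw [hqr, hb]; exact bot_le
      · exact hcent q r hq hr hqr
    have h2 : M ⊓ pCoreOf r H ≤ fittingOf L :=
      (Subgroup.le_centralizer_iff.1 h1).trans (BG.MS.centralizer_fittingOf_le hG hL)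
    have h3 : M ⊓ pCoreOf r H ≤ pCoreOf r L :=
      le_pCoreOf_of_le_fittingOf h2 ((BG.pCoreOf_isPGroup r H).to_le inf_le_right)
    rw [hb, le_bot_iff] at h3
    refine zc_ne_bot (dvd_card_fittingOf_iff.1 hrF) (le_bot_iff.1 (h3 ▸ le_inf (hzA r hr) (zc_le r H)))
  have hHM : fittingOf L ≤ H := by
    refine fittingOf_le_of_forall fun q hq => ?_
    obtain ⟨r, hr, hrF, hrq⟩ := halt q hq
    exact (hcent q r hq hr hrq.symm).trans (hArC r hr hrF)
  set π : Set ℕ := {q | q.Prime ∧ q ∣ Nat.card F} with hπdef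
  have hMπ : ∀ q : ℕ, q.Prime → (pCoreOf q H ≠ ⊥ ↔ q ∈ π) := by
    intro q hq
    have : Fact q.Prime := ⟨hq⟩
    rw [← dvd_card_fittingOf_iff]
    exact ⟨fun h => ⟨hq, h⟩, fun h => h.2⟩
  have hHπ : ∀ q : ℕ, q.Prime → (pCoreOf q L ≠ ⊥ ↔ q ∈ π) := by
    intro q hq
    refine ⟨fun h => ⟨hq, ?_⟩, fun h => hHr q hq h.2⟩
    by_contra hqF
    exact h (hHcore q hq hqF)
  have hMH : F ≤ L := by
    refine fittingOf_le_of_forall fun q hq => ?_
    have : Fact q.Prime := ⟨hq⟩
    by_cases hqb : pCoreOf q H = ⊥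
    · rw [hqb]; exact bot_le
    have hqπ := (hMπ q hq).1 hqb
    obtain ⟨r, hr, hrF, hrq⟩ := halt q hq
    have : Fact r.Prime := ⟨hr⟩
    have hrM : pCoreOf r L ≤ H := (BG.pCoreOf_le_fittingOf r L).trans hHM
    have h1 := inf_le_opc (q := q) (R := zc q L) (E := pCoreOf r L) (M := L) (X := H)
      (BG.MS.solvable_of_coatom hG hH) ((BG.pCoreOf_isPGroup q L).to_le (zc_le q L))
      (((zc_le q L).trans (BG.pCoreOf_le_fittingOf q L)).trans hHM)
      (centralizer_zc_le hG hL ((hHπ q hq).2 hqπ)) (BG.le_normalizer_pCoreOf r L)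
      (by
        obtain ⟨n, hn⟩ := IsPGroup.iff_card.1 (BG.pCoreOf_isPGroup r L)
        rw [hn]
        exact Nat.Coprime.pow_left n ((Nat.coprime_primes hr hq).2 hrq))
      ((zc_le q L).trans (pCoreOf_le_centralizer hrq.symm L))
    rw [inf_eq_left.mpr hrM] at h1
    exact ((pCoreOf_le_centralizer_opc H).trans
      (Subgroup.centralizer_le ((zc_le r L).trans h1))).trans (centralizer_zc_le hG hL (hHr r hr hrF))
  -- conclusion
  obtain ⟨p, hp, hpF, -⟩ := halt 2 Nat.prime_two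
  have : Fact p.Prime := ⟨hp⟩
  have hpπ : p ∈ π := ⟨hp, hpF⟩
  obtain ⟨r, hr, hrF, hrp⟩ := halt p hp
  have hrπ : r ∈ π := ⟨hr, hrF⟩
  have h1 := nS_le_nS hG hH hL hMπ hHπ (fun q hq => hq.1) hHM hMH hpπ hrπ hrp.symm
  have h2 := nS_le_nS hG hL hH hHπ hMπ (fun q hq => hq.1) hMH hHM hpπ hrπ hrp.symm
  have h3 := le_antisymm h1 h2
  have h4 : pCoreOf p H ≤ nS (π \ {p}) H := by
    refine le_nS (BG.pCoreOf_le p H) ?_
    rintro t ⟨ht, htp⟩
    have : Fact t.Prime := ⟨ht.1⟩
    exact pCoreOf_le_opc (fun h => htp h.symm) H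
  have h5 : nS (π \ {p}) H ≠ ⊥ := fun h => (hMπ p hp).2 hpπ (le_bot_iff.1 (h ▸ h4))
  have h6 := BG.MS.normalizer_eq hG hH (nS_le _ _) h5 (le_normalizer_nS _ _)
  have h7 := BG.MS.normalizer_eq hG hL (nS_le (π \ {p}) L) (h3 ▸ h5) (le_normalizer_nS _ _)
  rw [← h3, h6] at h7
  exact h7.symm

end Cfsg.Agent.S1482
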