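import Cfsg.Statements.S1483
import Cfsg.Agent.H25.CNFinal

set_option autoImplicit false
open Cfsg

namespace Cfsg.Agent.S1483

/-- Let G be a minimal simple group of odd order in which every non-identity element has nilpotent centralizer. Then any two nilpotent subgroups each contained in no larger nilpotent subgroup are either conjugate or of coprime orders; and for primes p, q, r: if some elements x, y ≠ 1 of p-power and q-power order commute, and some elements y', z ≠ 1 of q-power and r-power order commute, then some elements of p-power and r-power order, both ≠ 1, commute. -/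
theorem result {G : Type*} [Group G] [Finite G] (hG : Cfsg.IsMinSimpleOddOrder G) (hCN : Cfsg.IsCNGroup G) :
    (∀ H₁ H₂ : Subgroup G, (Group.IsNilpotent ↥H₁ ∧ ∀ L : Subgroup G, Group.IsNilpotent L → H₁ ≤ L → L = H₁) → (Group.IsNilpotent ↥H₂ ∧ ∀ L : Subgroup G, Group.IsNilpotent L → H₂ ≤ L → L = H₂) → (∃ g : G, H₂ = H₁.map (MulAut.conj g).toMonoidHom) ∨ (Nat.card H₁).Coprime (Nat.card H₂)) ∧
      ∀ (p q r : ℕ), p.Prime → q.Prime → r.Prime → ∀ (x y y' z : G), x ≠ 1 → y ≠ 1 → y' ≠ 1 → z ≠ 1 →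
        IsPGroup p (Subgroup.zpowers x) → IsPGroup q (Subgroup.zpowers y) → IsPGroup q (Subgroup.zpowers y') → IsPGroup r (Subgroup.zpowers z) →
        x * y = y * x → y' * z = z * y' →
        ∃ x' z' : G, x' ≠ 1 ∧ z' ≠ 1 ∧ IsPGroup p (Subgroup.zpowers x') ∧ IsPGroup r (Subgroup.zpowers z') ∧ x' * z' = z' * x' := by
  have key : ∀ H₁ H₂ : Subgroup G, H25.CN.MaxNil H₁ → H25.CN.MaxNil H₂ →
      (∃ g : G, H₂ = H₁.map (MulAut.conj g).toMonoidHom) ∨ (Nat.card H₁).Coprime (Nat.card H₂) := by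
    intro H₁ H₂ h₁ h₂
    by_cases h : (Nat.card H₁).Coprime (Nat.card H₂)
    · exact Or.inr h
    · obtain ⟨p, hp, hp1, hp2⟩ := Nat.Prime.not_coprime_iff_dvd.mp h
      exact Or.inl (H25.CN.maxNil_conj_or_coprime hG hCN h₁ h₂ hp hp1 hp2)
  refine ⟨fun H₁ H₂ h₁ h₂ => key H₁ H₂ h₁ h₂, ?_⟩
  intro p q r hp hq hr x y y' z hx1 hy1 hy'1 hz1 hx hy hy' hz hxy hy'z
  haveI : Fact p.Prime := ⟨hp⟩
  haveI : Fact q.Prime := ⟨hq⟩
  haveI : Fact r.Prime := ⟨hr⟩
  by_cases hpr : p = r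
  · subst hpr
    exact ⟨x, x, hx1, hx1, hx, hx, rfl⟩
  · -- maximal nilpotent subgroups containing the centralizers of `y`, `y'`
    obtain ⟨H₁, h₁, hC₁⟩ := H25.CN.exists_maxNil_ge (hCN y hy1)
    obtain ⟨H₂, h₂, hC₂⟩ := H25.CN.exists_maxNil_ge (hCN y' hy'1)
    have hy₁ : y ∈ H₁ := hC₁ (by rw [Subgroup.mem_centralizer_singleton_iff])
    have hx₁ : x ∈ H₁ := hC₁ (by rw [Subgroup.mem_centralizer_singleton_iff]; exact hxy)
    have hy₂ : y' ∈ H₂ := hC₂ (by rw [Subgroup.mem_centralizer_singleton_iff])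
    have hz₂ : z ∈ H₂ := hC₂ (by rw [Subgroup.mem_centralizer_singleton_iff]; exact hy'z.symm)
    have hdvd : ∀ (q : ℕ) (_ : q.Prime) (H : Subgroup G) (y : G), y ≠ 1 →
        IsPGroup q (Subgroup.zpowers y) → y ∈ H → q ∣ Nat.card H := by
      intro q hq H y hy1 hy hyH
      haveI : Fact q.Prime := ⟨hq⟩
      rcases hy.card_eq_or_dvd with h | h
      · exact absurd (Subgroup.card_eq_one.mp h) (by rw [Subgroup.zpowers_eq_bot]; exact hy1)
      · exact h.trans (Subgroup.card_dvd_of_le (by rwa [Subgroup.zpowers_le]))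
    obtain ⟨g, hg⟩ := H25.CN.maxNil_conj_or_coprime hG hCN h₁ h₂ hq
      (hdvd q hq H₁ y hy1 hy hy₁) (hdvd q hq H₂ y' hy'1 hy' hy₂)
    have hx₂ : g * x * g⁻¹ ∈ H₂ := by rw [hg]; exact ⟨x, hx₁, rfl⟩
    obtain ⟨k, hk⟩ := hx ⟨x, Subgroup.mem_zpowers x⟩
    have hk' : x ^ p ^ k = 1 := by simpa using congrArg Subtype.val hk
    obtain ⟨l, hl⟩ := hz ⟨z, Subgroup.mem_zpowers z⟩
    have hl' : z ^ r ^ l = 1 := by simpa using congrArg Subtype.val hl
    refine ⟨g * x * g⁻¹, z, ?_, hz1, ?_, hz, ?_⟩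
    · intro h
      apply hx1
      have : x = g⁻¹ * (g * x * g⁻¹) * g := by group
      rw [this, h]; group
    · rw [IsPGroup.iff_card, Nat.card_zpowers]
      have h2 : orderOf (g * x * g⁻¹) ∣ p ^ k :=
        orderOf_dvd_of_pow_eq_one (by rw [conj_pow, hk']; group)
      obtain ⟨j, _, hj⟩ := (Nat.dvd_prime_pow hp).mp h2
      exact ⟨j, hj⟩
    · refine H25.CN.nil_comm (p := p) h₂.1 hx₂ hz₂ ⟨k, by rw [conj_pow, hk']; group⟩ ?_
      exact Nat.Coprime.coprime_dvd_left (orderOf_dvd_of_pow_eq_one hl')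
        (Nat.Coprime.pow_left l ((Nat.coprime_primes hr hp).mpr (Ne.symm hpr)))

end Cfsg.Agent.S1483
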