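import Cfsg.Statements.S1484
import Cfsg.Agent.H25.CNFinal

set_option autoImplicit false
open Cfsg

namespace Cfsg.Agent.S1484

/-- Let G be a minimal simple group of odd order in which every non-identity element has nilpotent centralizer, and M₁, …, M_k maximal subgroups, pairwise non-conjugate, such that every maximal subgroup is conjugate to some M_i. Let H_i be the largest normal nilpotent Hall subgroup of M_i. Then the orders of the H_i are pairwise coprime, their product is the order of G, and every element of G is conjugate to an element of some H_i. -/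
theorem result {G : Type*} [Group G] [Finite G] (hG : Cfsg.IsMinSimpleOddOrder G) (hCN : Cfsg.IsCNGroup G) (k : ℕ) (Mrep : Fin k → Subgroup G) (hmax : ∀ i, IsCoatom (Mrep i))
    (hnc : ∀ i j, i ≠ j → ∀ g : G, Mrep j ≠ (Mrep i).map (MulAut.conj g).toMonoidHom) (hall : ∀ M : Subgroup G, IsCoatom M → ∃ i, ∃ g : G, M = (Mrep i).map (MulAut.conj g).toMonoidHom) :
    (∀ i j, i ≠ j → (Nat.card (Cfsg.fittingHallOf (Mrep i))).Coprime (Nat.card (Cfsg.fittingHallOf (Mrep j)))) ∧
      ∏ i, Nat.card (Cfsg.fittingHallOf (Mrep i)) = Nat.card G ∧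
      ∀ x : G, ∃ i, ∃ g : G, g * x * g⁻¹ ∈ Cfsg.fittingHallOf (Mrep i) := by
  classical
  have hstr : ∀ i, ∃ H : Subgroup G, H25.CN.MaxNil H ∧ Mrep i = Subgroup.normalizer (H : Set G) ∧
      Cfsg.fittingHallOf (Mrep i) = H := by
    intro i
    obtain ⟨H, hH, h⟩ := H25.CN.coatom_structure hG hCN (hmax i)
    exact ⟨H, hH, h, by rw [h]; exact (H25.CN.maxNil_structure hG hCN hH).2.2⟩
  choose H hH hN hF using hstr
  have hconj : ∀ L : Subgroup G, H25.CN.MaxNil L → ∃ i, ∃ g : G,
      L = (H i).map (MulAut.conj g).toMonoidHom := by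
    intro L hL
    obtain ⟨i, g, hg⟩ := hall _ (H25.CN.maxNil_structure hG hCN hL).1
    refine ⟨i, g, ?_⟩
    rw [hN i, Subgroup.map_equiv_normalizer_eq] at hg
    rw [← (H25.CN.maxNil_structure hG hCN hL).2.2, hg,
      (H25.CN.maxNil_structure hG hCN ((hH i).conj g)).2.2]
  have hcop : ∀ i j, i ≠ j → (Nat.card (H i)).Coprime (Nat.card (H j)) := by
    intro i j hij
    by_contra h
    obtain ⟨p, hp, hp1, hp2⟩ := Nat.Prime.not_coprime_iff_dvd.mp h
    obtain ⟨g, hg⟩ := H25.CN.maxNil_conj_or_coprime hG hCN (hH i) (hH j) hp hp1 hp2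
    apply hnc i j hij g
    rw [hN i, hN j, Subgroup.map_equiv_normalizer_eq, hg]
  simp only [hF]
  refine ⟨hcop, ?_, ?_⟩
  · apply Nat.dvd_antisymm
    · apply Finset.prod_dvd_of_isRelPrime
      · intro i _ j _ hij
        exact Nat.coprime_iff_isRelPrime.mp (hcop i j hij)
      · intro i _
        exact Subgroup.card_subgroup_dvd_card (H i)
    · rw [Nat.dvd_iff_prime_pow_dvd_dvd]
      intro p k hp hk
      haveI : Fact p.Prime := ⟨hp⟩
      obtain ⟨S⟩ : Nonempty (Sylow p G) := inferInstance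
      obtain ⟨L, hL, hSL⟩ := H25.CN.exists_maxNil_ge (H := (S : Subgroup G)) S.isPGroup'.isNilpotent
      obtain ⟨i, g, hg⟩ := hconj L hL
      have h1 : Nat.card L = Nat.card (H i) := by rw [hg, H25.CN.card_conj_map]
      have h2 : p ^ k ∣ Nat.card (S : Subgroup G) := S.pow_dvd_card_of_pow_dvd_card hk
      refine (h2.trans (Subgroup.card_dvd_of_le hSL)).trans ?_
      rw [h1]
      exact Finset.dvd_prod_of_mem (fun i => Nat.card (H i)) (Finset.mem_univ i)
  · intro x
    obtain ⟨L, hL, hxL⟩ := H25.CN.exists_maxNil_ge (H25.CN.nil_zpowers x)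
    obtain ⟨i, g, hg⟩ := hconj L hL
    have h1 : x ∈ L := hxL (Subgroup.mem_zpowers x)
    rw [hg] at h1
    obtain ⟨y, hy, hyx⟩ := h1
    refine ⟨i, g⁻¹, ?_⟩
    have h2 : g * y * g⁻¹ = x := hyx
    rw [← h2]
    have h3 : g⁻¹ * (g * y * g⁻¹) * g⁻¹⁻¹ = y := by group
    rw [h3]; exact hy

end Cfsg.Agent.S1484
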