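import Cfsg.Statements.S1487
import Cfsg.Agent.H25.Clif

set_option autoImplicit false
open Cfsg

namespace Cfsg.Agent.S1487

/-- Let A ≤ H be normal subgroups of the finite group G and θ an irreducible character of H. Then θ takes the value θ 1 on all of A if and only if the function induced from θ to G takes its value at 1 on all of A. -/
theorem result {G : Type*} [Group G] [Fintype G] (A H : Subgroup G) [A.Normal] [H.Normal] (hAH : A ≤ H) (θ : H → ℂ) (hθ : Cfsg.IsIrrCharacter H θ) : (∀ a : H, (a : G) ∈ A → θ a = θ 1) ↔ (∀ a : G, a ∈ A → Cfsg.indFun H θ a = Cfsg.indFun H θ 1) := by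
  have hc := CharBase.isCharacter_of_isIrr hθ
  have hA : A.Normal := inferInstance
  have hH : H.Normal := inferInstance
  have hval : ∀ a : H, Cfsg.indFun H θ a =
      (Nat.card H : ℂ)⁻¹ * ∑ x : G, θ ⟨x * a * x⁻¹, hH.conj_mem a a.2 x⟩ := fun a =>
    Char.indFun_normal_apply H θ a
  constructor
  · intro h a ha
    have h1 := hval ⟨a, hAH ha⟩
    have h2 := hval 1
    have h3 : Cfsg.indFun H θ a = Cfsg.indFun H θ ((⟨a, hAH ha⟩ : H) : G) := rfl
    have h4 : Cfsg.indFun H θ 1 = Cfsg.indFun H θ ((1 : H) : G) := rfl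
    rw [h3, h4, h1, h2]
    congr 1
    refine Finset.sum_congr rfl fun x _ => ?_
    rw [h ⟨x * a * x⁻¹, hH.conj_mem _ (hAH ha) x⟩ (hA.conj_mem a ha x)]
    congr 1
    apply Subtype.ext
    simp
  · intro h a ha
    have h1 := hval a
    have h2 := hval 1
    have h3 := h a ha
    rw [h1] at h3
    have h4 : Cfsg.indFun H θ 1 = Cfsg.indFun H θ ((1 : H) : G) := rfl
    rw [h4, h2] at h3
    have hcard : (Nat.card H : ℂ)⁻¹ ≠ 0 := inv_ne_zero (Char.card_ne_zero_complex H)
    have h5 := mul_left_cancel₀ hcard h3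
    obtain ⟨n, hn⟩ := CharBase.exists_nat_degree hc
    have hle : ∀ g : H, ‖θ g‖ ≤ n := by
      intro g
      obtain ⟨m, hm, h8⟩ := CharBase.norm_le_of_isCharacter hc g
      rw [hn] at hm
      have : n = m := by exact_mod_cast hm
      rw [this]; exact h8
    -- compare real parts
    have h6 : ∑ x : G, ((n : ℝ) - (θ ⟨x * a * x⁻¹, hH.conj_mem a a.2 x⟩).re) = 0 := by
      have h7 := congrArg Complex.re h5
      rw [Complex.re_sum, Complex.re_sum] at h7
      rw [Finset.sum_sub_distrib, h7, sub_eq_zero]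
      refine Finset.sum_congr rfl fun x _ => ?_
      have h8 : (⟨x * ((1 : H) : G) * x⁻¹, hH.conj_mem _ (1 : H).2 x⟩ : H) = 1 := by
        apply Subtype.ext; simp
      rw [h8, hn]; simp
    have h7 : ∀ x ∈ (Finset.univ : Finset G),
        0 ≤ (n : ℝ) - (θ ⟨x * a * x⁻¹, hH.conj_mem a a.2 x⟩).re := by
      intro x _
      have h8 := hle ⟨x * a * x⁻¹, hH.conj_mem a a.2 x⟩
      have h9 := Complex.re_le_norm (θ ⟨x * a * x⁻¹, hH.conj_mem a a.2 x⟩)
      linarith
    have h8 := (Finset.sum_eq_zero_iff_of_nonneg h7).mp h6 1 (Finset.mem_univ _)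
    have h9 : (⟨(1 : G) * a * 1⁻¹, hH.conj_mem a a.2 1⟩ : H) = a := by
      apply Subtype.ext; simp
    rw [h9] at h8
    have h10 : (θ a).re = n := by linarith
    have h11 := hle a
    rw [hn]
    apply Complex.ext
    · rw [h10]; simp
    · rw [Complex.natCast_im]
      have h12 : ‖θ a‖ ^ 2 = (θ a).re ^ 2 + (θ a).im ^ 2 := by
        rw [Complex.sq_norm, Complex.normSq_apply]; ring
      have h13 : ‖θ a‖ ≤ n := h11
      have h14 : ‖θ a‖ ^ 2 ≤ (n : ℝ) ^ 2 := pow_le_pow_left₀ (norm_nonneg _) h13 2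
      rw [h12, h10] at h14
      have h15 : (θ a).im ^ 2 ≤ 0 := by linarith
      exact pow_eq_zero_iff (two_ne_zero) |>.mp (le_antisymm h15 (sq_nonneg _))

end Cfsg.Agent.S1487
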