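import Cfsg.Statements.S1488
import Cfsg.Agent.H25.Clif

set_option autoImplicit false
open Cfsg

namespace Cfsg.Agent.S1488

/-- Let A be a normal subgroup of the finite group G contained in the subgroup H, let θ be a function on H and θ₁ a function on the image of H in G ⧸ A whose composite with the projection is θ. Then the function induced from θ₁ to G ⧸ A, composed with the projection G → G ⧸ A, equals the function induced from θ to G. -/
theorem result {G : Type*} [Group G] [Fintype G] (A H : Subgroup G) [A.Normal] (hAH : A ≤ H) [Fintype (G ⧸ A)] [Fintype ↥(H.map (QuotientGroup.mk' A))] (θ : H → ℂ) (θ₁ : ↥(H.map (QuotientGroup.mk' A)) → ℂ) (hθ : ∀ x : H, θ₁ ⟨QuotientGroup.mk' A x, Subgroup.mem_map_of_mem _ x.2⟩ = θ x) (g : G) : Cfsg.indFun (H.map (QuotientGroup.mk' A)) θ₁ (QuotientGroup.mk' A g) = Cfsg.indFun H θ g := by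
  classical
  haveI : Finite G := Finite.of_fintype G
  have hA : A.Normal := inferInstance
  rw [Char.indFun_apply', Char.indFun_apply']
  -- fibers
  have key : ∀ x : G, extendByZero (H.map (QuotientGroup.mk' A)) θ₁
      (QuotientGroup.mk' A x * QuotientGroup.mk' A g * (QuotientGroup.mk' A x)⁻¹) =
      extendByZero H θ (x * g * x⁻¹) := by
    intro x
    rw [← map_inv, ← map_mul, ← map_mul]
    by_cases hx : x * g * x⁻¹ ∈ H
    · rw [Char.extendByZero_of_mem _ _ (Subgroup.mem_map_of_mem _ hx), Char.extendByZero_of_mem _ _ hx]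
      exact hθ ⟨_, hx⟩
    · rw [Char.extendByZero_of_notMem _ _ hx, Char.extendByZero_of_notMem]
      rintro ⟨y, hy, hyx⟩
      apply hx
      have h1 : y⁻¹ * (x * g * x⁻¹) ∈ A := by
        rw [← QuotientGroup.eq_one_iff]
        have h2 : ((y⁻¹ * (x * g * x⁻¹) : G) : G ⧸ A) =
            (QuotientGroup.mk' A y)⁻¹ * QuotientGroup.mk' A (x * g * x⁻¹) := rfl
        rw [h2, hyx, inv_mul_cancel]
      have h2 : x * g * x⁻¹ = y * (y⁻¹ * (x * g * x⁻¹)) := by group
      rw [h2]
      exact H.mul_mem hy (hAH h1)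
  have hsum : ∑ x : G, extendByZero H θ (x * g * x⁻¹) =
      (Nat.card A : ℂ) * ∑ q : G ⧸ A, extendByZero (H.map (QuotientGroup.mk' A)) θ₁
        (q * QuotientGroup.mk' A g * q⁻¹) := by
    simp_rw [← key]
    have h2 : ∀ x ∈ (Finset.univ : Finset G), QuotientGroup.mk' A x ∈ (Finset.univ : Finset (G ⧸ A)) :=
      fun x _ => Finset.mem_univ _
    rw [← Finset.sum_fiberwise_of_maps_to h2, Finset.mul_sum]
    refine Finset.sum_congr rfl fun q _ => ?_
    rw [Finset.sum_congr rfl (g := fun _ => extendByZero (H.map (QuotientGroup.mk' A)) θ₁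
        (q * QuotientGroup.mk' A g * q⁻¹)) (fun x hx => by rw [(Finset.mem_filter.mp hx).2]),
      Finset.sum_const, nsmul_eq_mul]
    congr 2
    obtain ⟨q₀, rfl⟩ := QuotientGroup.mk'_surjective A q
    rw [Nat.card_eq_fintype_card, ← Finset.card_univ]
    symm
    refine Finset.card_bij (fun a _ => q₀ * (a : G)) ?_ ?_ ?_
    · intro a _
      rw [Finset.mem_filter]
      refine ⟨Finset.mem_univ _, ?_⟩
      rw [map_mul]
      have : QuotientGroup.mk' A (a : G) = 1 := (QuotientGroup.eq_one_iff (a : G)).mpr a.2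
      rw [this, mul_one]
    · intro a _ b _ hab
      exact Subtype.ext (mul_left_cancel hab)
    · intro b hb
      have hb' := (Finset.mem_filter.mp hb).2
      refine ⟨⟨q₀⁻¹ * b, ?_⟩, Finset.mem_univ _, by simp⟩
      rw [← QuotientGroup.eq_one_iff]
      have h2 : ((q₀⁻¹ * b : G) : G ⧸ A) = (QuotientGroup.mk' A q₀)⁻¹ * QuotientGroup.mk' A b := rfl
      rw [h2, hb', inv_mul_cancel]
  rw [hsum]
  have hcard : (Nat.card H : ℂ) = Nat.card (H.map (QuotientGroup.mk' A)) * Nat.card A := by
    have h1 : Nat.card (H.map (QuotientGroup.mk' A)) * Nat.card A = Nat.card H := by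
      have h2 := Subgroup.card_eq_card_quotient_mul_card_subgroup (A.subgroupOf H)
      have h3 : Nat.card (A.subgroupOf H) = Nat.card A :=
        Nat.card_congr (Subgroup.subgroupOfEquivOfLe hAH).toEquiv
      have h4 : Nat.card (H ⧸ A.subgroupOf H) = Nat.card (H.map (QuotientGroup.mk' A)) := by
        have h5 : ((QuotientGroup.mk' A).comp H.subtype).ker = A.subgroupOf H := by
          rw [← MonoidHom.comap_ker, QuotientGroup.ker_mk']; rfl
        have h6 : ((QuotientGroup.mk' A).comp H.subtype).range = H.map (QuotientGroup.mk' A) := by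
          rw [MonoidHom.range_comp, H.range_subtype]
        rw [← h6]
        rw [← Nat.card_congr (QuotientGroup.quotientKerEquivRange
          ((QuotientGroup.mk' A).comp H.subtype)).toEquiv]
        exact Nat.card_congr (QuotientGroup.quotientMulEquivOfEq h5.symm).toEquiv
      rw [h2, h3, h4]
    exact_mod_cast h1.symm
  rw [hcard]
  have hA0 := Char.card_ne_zero_complex A
  have hH0 := Char.card_ne_zero_complex (H.map (QuotientGroup.mk' A))
  field_simp

end Cfsg.Agent.S1488
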