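import Cfsg.Statements.S1492
import Cfsg.Agent.H25.Clif
import Cfsg.Agent.H25.LinChar
import Cfsg.Agent.Char.Values
import Cfsg.Agent.Char.Extension
import Cfsg.Agent.Char.Linear

set_option autoImplicit false
open Cfsg

namespace Cfsg.Agent.S1492

/-- Let ψ be an irreducible character of the finite group G and B ≤ D ≤ C subgroups with B normal in C, every commutator of an element of D with an element of C lying in B (so D/B is central in C/B), and ψ constant equal to ψ 1 on B. Then ψ(1) ^ 2 * |C| * |D| ≤ |G| ^ 2. -/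
theorem result {G : Type*} [Group G] [Finite G] (ψ : G → ℂ) (hψ : Cfsg.IsIrrCharacter G ψ) (B C D : Subgroup G) (hBD : B ≤ D) (hDC : D ≤ C) (hBn : ∀ c ∈ C, ∀ b ∈ B, c * b * c⁻¹ ∈ B) (hcent : ∀ d ∈ D, ∀ c ∈ C, d * c * d⁻¹ * c⁻¹ ∈ B) (hker : ∀ b ∈ B, ψ b = ψ 1) : ‖ψ 1‖ ^ 2 * (Nat.card C : ℝ) * (Nat.card D : ℝ) ≤ (Nat.card G : ℝ) ^ 2 := by
  classical
  haveI : Fintype G := Fintype.ofFinite G
  haveI : Fintype C := Fintype.ofFinite C
  have hψc := CharBase.isCharacter_of_isIrr hψ
  obtain ⟨φ, hφ, hφψ⟩ := Char.exists_constituent_restrict C hψc (CharBase.irr_one_ne_zero hψ)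
  have hφc := CharBase.isCharacter_of_isIrr hφ
  have hres := CharBase.isCharacter_restrict hψc C
  obtain ⟨a, ha⟩ := CharBase.exists_nat_degree hψc
  obtain ⟨d, hd⟩ := CharBase.exists_nat_degree hφc
  -- degree bound
  have hdeg : a ≤ C.index * d := by
    have h1 : classInner (indFun C φ) ψ ≠ 0 := by
      rw [Char.frobenius_reciprocity C φ ψ (CharBase.isClassFunction_of_isCharacter hψc),
        CharBase.classInner_comm_of_isCharacter hφc hres]
      exact hφψ
    obtain ⟨m, hm⟩ := CharBase.classInner_natCast (Char.indFun_isCharacter C φ hφc) hψc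
    have hm0 : m ≠ 0 := by
      rintro rfl
      apply h1; rw [hm]; simp
    have h2 : indFun C φ 1 = ((C.index * d : ℕ) : ℂ) := by
      rw [Char.indFun_one_apply, hd]; push_cast; ring
    have h3 := Char.mult_mul_degree_le (Char.indFun_isCharacter C φ hφc) hψ hm ha h2
    exact (Nat.le_mul_of_pos_left a (Nat.pos_of_ne_zero hm0)).trans h3
  -- the kernel
  have hB : ∀ b : C, (b : G) ∈ B → φ b = φ 1 := by
    intro b hb
    have h1 := Char.CC.isCharacter_sub_of_constituent hres hφ hφψ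
    obtain ⟨n1, hn1, hle1⟩ := CharBase.norm_le_of_isCharacter hφc b
    obtain ⟨n2, hn2, hle2⟩ := CharBase.norm_le_of_isCharacter h1 b
    have h2 : ψ (b : G) = ψ 1 := hker _ hb
    have h3 : φ b + ((fun c : C => ψ c) - φ) b = (n1 : ℂ) + n2 := by
      have h4 : φ b + ((fun c : C => ψ c) - φ) b = ψ (b : G) := by simp
      rw [h4, h2, ← hn1, ← hn2]
      simp
    have h4 := congrArg Complex.re h3
    rw [Complex.add_re, Complex.add_re, Complex.natCast_re, Complex.natCast_re] at h4
    have h5 := Complex.re_le_norm (φ b)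
    have h6 := Complex.re_le_norm (((fun c : C => ψ c) - φ) b)
    have h7 : (φ b).re = n1 := by linarith
    have h8 : ‖φ b‖ ^ 2 = (φ b).re ^ 2 + (φ b).im ^ 2 := by
      rw [Complex.sq_norm, Complex.normSq_apply]; ring
    have h9 : ‖φ b‖ ^ 2 ≤ (n1 : ℝ) ^ 2 := pow_le_pow_left₀ (norm_nonneg _) hle1 2
    rw [h8, h7] at h9
    have h10 : (φ b).im ^ 2 ≤ 0 := by linarith
    have h11 : (φ b).im = 0 := pow_eq_zero_iff (two_ne_zero) |>.mp (le_antisymm h10 (sq_nonneg _))
    rw [hn1]
    apply Complex.ext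
    · rw [h7]; simp
    · rw [h11]; simp
  -- elements of `D` act as scalars
  have hD : ∀ x : C, (x : G) ∈ D → ‖φ x‖ = d := by
    intro x hx
    obtain ⟨n, ρ, hρ, rfl⟩ := hφ
    have hcomm : ∀ c : C, ρ x * ρ c = ρ c * ρ x := by
      intro c
      have h1 : ((x * c * x⁻¹ * c⁻¹ : C) : G) ∈ B := hcent x hx c c.2
      have h2 := (Char.rep_character_eq_finrank_iff ρ (x * c * x⁻¹ * c⁻¹)).mp (by
        rw [hB _ h1, Representation.char_one])
      rw [← map_mul, ← map_mul]
      have h3 : x * c = (x * c * x⁻¹ * c⁻¹) * (c * x) := by group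
      rw [h3, map_mul, h2]
      rfl
    obtain ⟨c, hc⟩ := Char.exists_smul_one_of_commute ρ hρ (ρ x) hcomm
    have h3 : ‖c‖ = 1 := by
      have h4 : (ρ x) ^ orderOf x = 1 := Char.rep_pow_orderOf ρ x
      rw [hc, smul_pow, one_pow] at h4
      haveI := Char.nontrivial_of_irreducible_rep ρ hρ
      obtain ⟨v, hv⟩ := exists_ne (0 : Fin n → ℂ)
      have h5 := congrArg (fun f : Module.End ℂ (Fin n → ℂ) => f v) h4
      have h6 : (c ^ orderOf x) • v = (1 : ℂ) • v := by simpa using h5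
      have h7 := smul_left_injective ℂ hv h6
      exact Complex.norm_eq_one_of_pow_eq_one h7 (orderOf_pos x).ne'
    have h4 : ρ.character x = c * ρ.character 1 := by
      have h5 : ρ.character x = LinearMap.trace ℂ _ (ρ x) := rfl
      have h6 : ρ.character 1 = LinearMap.trace ℂ _ (ρ 1) := rfl
      have h7 : (1 : Module.End ℂ (Fin n → ℂ)) = ρ 1 := (map_one ρ).symm
      rw [h5, h6, hc, h7, map_smul, smul_eq_mul]
    rw [h4, norm_mul, h3, one_mul, hd]
    simp
  have hsum : d ^ 2 * Nat.card D ≤ Nat.card C := by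
    have h1 : classInner φ φ = 1 := Char.classInner_self_of_irr hφ
    rw [H25.ci_self] at h1
    have h2 : (Nat.card C : ℝ)⁻¹ * ∑ g : C, ‖φ g‖ ^ 2 = 1 := by exact_mod_cast h1
    have hC0 : (Nat.card C : ℝ) ≠ 0 := by exact_mod_cast Nat.card_pos.ne'
    have h3 : ∑ g : C, ‖φ g‖ ^ 2 = Nat.card C := by
      field_simp at h2
      linarith
    have h4 : ∑ g ∈ Finset.univ.filter (fun g : C => (g : G) ∈ D), ‖φ g‖ ^ 2 ≤
        ∑ g : C, ‖φ g‖ ^ 2 :=
      Finset.sum_le_sum_of_subset_of_nonneg (Finset.filter_subset _ _) (fun _ _ _ => by positivity)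
    rw [h3, Finset.sum_congr rfl (g := fun _ => ((d : ℝ)) ^ 2)
      (fun g hg => by rw [hD g (Finset.mem_filter.mp hg).2]), Finset.sum_const, nsmul_eq_mul] at h4
    have h5 : (Finset.univ.filter (fun g : C => (g : G) ∈ D)).card = Nat.card D := by
      rw [← Nat.card_congr (Subgroup.subgroupOfEquivOfLe hDC).toEquiv, Nat.card_eq_fintype_card,
        Fintype.card_subtype]
      rfl
    rw [h5] at h4
    have h6 : ((d ^ 2 * Nat.card D : ℕ) : ℝ) ≤ ((Nat.card C : ℕ) : ℝ) := by
      push_cast; linarith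
    exact_mod_cast h6
  have hidx := C.card_mul_index
  rw [ha, Complex.norm_natCast]
  have h1 : a ^ 2 * Nat.card C * Nat.card D ≤ Nat.card G ^ 2 := by
    calc a ^ 2 * Nat.card C * Nat.card D ≤ (C.index * d) ^ 2 * Nat.card C * Nat.card D := by
          gcongr
      _ = C.index ^ 2 * Nat.card C * (d ^ 2 * Nat.card D) := by ring
      _ ≤ C.index ^ 2 * Nat.card C * Nat.card C := Nat.mul_le_mul_left _ hsum
      _ = (Nat.card C * C.index) ^ 2 := by ring
      _ = Nat.card G ^ 2 := by rw [hidx]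
  exact_mod_cast h1

end Cfsg.Agent.S1492
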