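import Cfsg.Statements.S1493
import Cfsg.Agent.Char.Galois
-- import your own Cfsg.Agent.* helpers here

set_option autoImplicit false
open Cfsg

namespace Cfsg.Agent.S1493

/-- Let G be a finite group of order a * b with a and b coprime, let k be coprime to a, and let χ be a character of G. Then there is a character χ' of G such that χ'(g) = χ(g ^ k) whenever the order of g divides a and χ'(g) = χ(g) whenever the order of g is coprime to a; moreover χ' is irreducible if χ is. -/
theorem result {G : Type*} [Group G] [Finite G] (a b k : ℕ) (hab : Nat.card G = a * b) (hcop : Nat.Coprime a b) (hk : Nat.Coprime k a) (χ : G → ℂ) (hχ : Cfsg.IsCharacter G χ) : ∃ χ' : G → ℂ, Cfsg.IsCharacter G χ' ∧ (Cfsg.IsIrrCharacter G χ → Cfsg.IsIrrCharacter G χ') ∧ (∀ g : G, orderOf g ∣ a → χ' g = χ (g ^ k)) ∧ (∀ g : G, Nat.Coprime (orderOf g) a → χ' g = χ g) := by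
  obtain ⟨k', h1, h2⟩ := Nat.chineseRemainder hcop k 1
  have c1 : k'.Coprime a := by
    have := h1.gcd_eq
    unfold Nat.Coprime at hk ⊢
    rw [this]; exact hk
  have c2 : k'.Coprime b := by
    have := h2.gcd_eq
    unfold Nat.Coprime
    rw [this]; simp
  have hk' : k'.Coprime (Nat.card G) := by rw [hab]; exact Nat.Coprime.mul_right c1 c2
  refine ⟨fun g => χ (g ^ k'), Cfsg.Agent.Char.isCharacter_pow hχ hk',
    fun h => Cfsg.Agent.Char.isIrrCharacter_pow h hk', fun g hg => ?_, fun g hg => ?_⟩
  · have : g ^ k' = g ^ k := pow_eq_pow_iff_modEq.2 (h1.of_dvd hg)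
    show χ (g ^ k') = _
    rw [this]
  · have hb : orderOf g ∣ b := by
      have := orderOf_dvd_natCard g
      rw [hab] at this
      exact hg.dvd_of_dvd_mul_left this
    have : g ^ k' = g ^ 1 := pow_eq_pow_iff_modEq.2 (h2.of_dvd hb)
    show χ (g ^ k') = _
    rw [this, pow_one]

end Cfsg.Agent.S1493
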