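import Cfsg.Statements.S1497

set_option autoImplicit false
open Cfsg

namespace Cfsg.Agent.S1497

/-- Let A be a nonempty subset of the finite group G not containing 1 and L a subgroup. Then A is a TI-subset whose normaliser is L if and only if the Dade hypothesis holds for A, L and the constant choice H(a) = ⊥. -/
theorem result {G : Type*} [Group G] [Finite G] (A : Set G) (hA : A.Nonempty) (h1 : (1 : G) ∉ A) (L : Subgroup G) : (Cfsg.IsTISubset A ∧ Subgroup.normalizer A = L) ↔ Cfsg.DadeHypothesis A L (fun _ => ⊥) := by
  constructor
  · rintro ⟨hTI, rfl⟩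
    have key : ∀ a ∈ A, ∀ g : G, g * a * g⁻¹ ∈ A → g ∈ Subgroup.normalizer A := by
      intro a ha g hg
      by_contra hgn
      have := hTI g hgn a ha hg
      exact h1 (this ▸ ha)
    have hcent : ∀ a ∈ A, Subgroup.centralizer ({a} : Set G) ≤ Subgroup.normalizer A := by
      intro a ha c hc
      apply key a ha
      rw [Subgroup.mem_centralizer_singleton_iff] at hc
      rw [hc]; simpa using ha
    refine ⟨h1, ?_, ?_, ?_, ?_, ?_, ?_, ?_, ?_⟩
    · intro a ha
      exact key a ha a (by simpa using ha)
    · intro x hx a ha
      exact (Subgroup.mem_set_normalizer_iff.1 hx a).1 ha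
    · intro a ha g hg
      exact ⟨g, key a ha g hg, rfl⟩
    · intro a _; exact bot_le
    · intro a _ c _ u hu
      rw [Subgroup.mem_bot] at hu ⊢
      simp [hu]
    · intro a _; simp
    · intro a ha
      rw [bot_sup_eq]
      exact inf_eq_right.2 (hcent a ha)
    · intro a _ b _; simp
  · intro hD
    have key : ∀ a ∈ A, ∀ g : G, g * a * g⁻¹ ∈ A → g ∈ L := by
      intro a ha g hg
      obtain ⟨l, hl, hlg⟩ := hD.fusion a ha g hg
      have hc : l⁻¹ * g ∈ Subgroup.centralizer ({a} : Set G) := by
        rw [Subgroup.mem_centralizer_singleton_iff]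
        have : l * a * l⁻¹ * g = g * a := by rw [hlg]; group
        calc l⁻¹ * g * a = l⁻¹ * (g * a) := by group
          _ = l⁻¹ * (l * a * l⁻¹ * g) := by rw [this]
          _ = a * (l⁻¹ * g) := by group
      have h2 := hD.sup_eq a ha
      rw [bot_sup_eq] at h2
      have h3 : l⁻¹ * g ∈ L := by
        have := h2 ▸ hc
        exact this.1
      have := L.mul_mem hl h3
      simpa using this
    have hN : Subgroup.normalizer A = L := by
      apply le_antisymm
      · intro g hg
        obtain ⟨a, ha⟩ := hA
        exact key a ha g ((Subgroup.mem_set_normalizer_iff.1 hg a).1 ha)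
      · intro x hx
        rw [Subgroup.mem_set_normalizer_iff]
        intro h
        constructor
        · intro hh; exact hD.conj_mem x hx h hh
        · intro hh
          have := hD.conj_mem x⁻¹ (L.inv_mem hx) _ hh
          simpa [mul_assoc] using this
    refine ⟨?_, hN⟩
    intro g hg x hx hgx
    exact absurd (hN ▸ key x hx g hgx) hg

end Cfsg.Agent.S1497
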