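import Cfsg.Statements.S1505
import Cfsg.Agent.H25.CyclicTIChar

set_option autoImplicit false
open Cfsg

namespace Cfsg.Agent.S1505

open Classical in
/-- Let W₁, W₂ ≤ G form a self-normalising cyclic subgroup W = W₁ ⊔ W₂. For nontrivial linear characters φ, φ' of W trivial on W₂ and ψ, ψ' trivial on W₁, put α = (1 − φ)(1 − ψ) and α' = (1 − φ')(1 − ψ'). Then the function induced from α to G has inner product 1 with the principal character, and the inner product of the functions induced from α and α' is 1 + a + b + ab where a = 1 if φ = φ' (else 0) and b = 1 if ψ = ψ' (else 0). -/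
theorem result {G : Type*} [Group G] [Fintype G] (W₁ W₂ : Subgroup G) (hW : Cfsg.IsSelfNormalizingCyclic W₁ W₂) (φ φ' ψ ψ' : ↥(W₁ ⊔ W₂) →* ℂˣ) (hφ : φ ≠ 1) (hφ' : φ' ≠ 1) (hψ : ψ ≠ 1) (hψ' : ψ' ≠ 1) (hφ₂ : ∀ w : ↥(W₁ ⊔ W₂), (w : G) ∈ W₂ → φ w = 1 ∧ φ' w = 1) (hψ₁ : ∀ w : ↥(W₁ ⊔ W₂), (w : G) ∈ W₁ → ψ w = 1 ∧ ψ' w = 1) : Cfsg.classInner (Cfsg.indFun (W₁ ⊔ W₂) (fun w => 1 - (φ w : ℂ) - (ψ w : ℂ) + (φ w : ℂ) * (ψ w : ℂ))) (fun _ => 1) = 1 ∧ Cfsg.classInner (Cfsg.indFun (W₁ ⊔ W₂) (fun w => 1 - (φ w : ℂ) - (ψ w : ℂ) + (φ w : ℂ) * (ψ w : ℂ))) (Cfsg.indFun (W₁ ⊔ W₂) (fun w => 1 - (φ' w : ℂ) - (ψ' w : ℂ) + (φ' w : ℂ) * (ψ' w : ℂ))) = 1 + (if φ = φ' then 1 else 0) + (if ψ = ψ' then 1 else 0) + (if φ = φ' then 1 else 0) * (if ψ = ψ' then 1 else 0) := by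
  haveI : Fintype ↥(W₁ ⊔ W₂) := Fintype.ofFinite _
  have a1 : ∀ w : ↥(W₁ ⊔ W₂), ((w : G) ∈ W₁ ∨ (w : G) ∈ W₂) → Cfsg.Agent.H25.alphaFun φ ψ w = 0 :=
    Cfsg.Agent.H25.alphaFun_vanish (fun w hw => (hφ₂ w hw).1) (fun w hw => (hψ₁ w hw).1)
  have a2 : ∀ w : ↥(W₁ ⊔ W₂), ((w : G) ∈ W₁ ∨ (w : G) ∈ W₂) → Cfsg.Agent.H25.alphaFun φ' ψ' w = 0 :=
    Cfsg.Agent.H25.alphaFun_vanish (fun w hw => (hφ₂ w hw).2) (fun w hw => (hψ₁ w hw).2)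
  constructor
  · have h := Cfsg.Agent.Char.frobenius_reciprocity (W₁ ⊔ W₂) (Cfsg.Agent.H25.alphaFun φ ψ)
      (fun _ => (1 : ℂ)) (fun _ _ => rfl)
    refine h.trans ?_
    have e : (fun _ : ↥(W₁ ⊔ W₂) => (1 : ℂ)) = Cfsg.Agent.H25.lin 1 := by funext w; simp
    rw [e, Cfsg.Agent.H25.alphaFun_eq, Cfsg.Agent.H25.ci_add_left, Cfsg.Agent.H25.ci_sub_left,
      Cfsg.Agent.H25.ci_sub_left, Cfsg.Agent.H25.ci_lin, Cfsg.Agent.H25.ci_lin,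
      Cfsg.Agent.H25.ci_lin, Cfsg.Agent.H25.ci_lin, if_pos rfl, if_neg hφ, if_neg hψ, if_neg]
    · ring
    · intro e
      apply hφ
      have m1 : (1 : ↥(W₁ ⊔ W₂) →* ℂˣ) = 1 * 1 := by ext w; simp
      rw [m1] at e
      exact ((Cfsg.Agent.H25.prod_eq_prod_iff (fun w hw => (hφ₂ w hw).1) (fun _ _ => rfl)
        (fun w hw => (hψ₁ w hw).1) (fun _ _ => rfl)).1 e).1
  · refine (Cfsg.Agent.H25.classInner_indFun_vset hW _ _ a1 a2).trans ?_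
    convert Cfsg.Agent.H25.classInner_alphaFun (fun w hw => (hφ₂ w hw).1) (fun w hw => (hφ₂ w hw).2)
      (fun w hw => (hψ₁ w hw).1) (fun w hw => (hψ₁ w hw).2) hφ hφ' hψ hψ'

end Cfsg.Agent.S1505
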