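import Cfsg.Statements.S1507
import Cfsg.Agent.PF.T3
-- import your own Cfsg.Agent.* helpers here

set_option autoImplicit false
open Cfsg

namespace Cfsg.Agent.S1507

open Cfsg.Agent.PF in
theorem triv₂_iff {G : Type*} [Group G] {W₁ W₂ : Subgroup G} (hW : IsSelfNormalizingCyclic W₁ W₂)
    (ω : ↥(W₁ ⊔ W₂) →* ℂˣ) (j : ↥W₂ →* ℂˣ) :
    (∀ w : ↥(W₁ ⊔ W₂), (w : G) ∈ W₂ → (ω * (up₂ hW j)⁻¹) w = 1) ↔ dn₂ ω = j := by
  have hup : ∀ w : ↥W₂, up₂ hW j (Subgroup.inclusion le_sup_right w) = j w := by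
    intro w
    show j (pr₂ hW (Subgroup.inclusion le_sup_right w)) = j w
    congr 1
    exact Subtype.ext (pr_of_mem₂ hW (Subgroup.inclusion le_sup_right w) w.2).2
  constructor
  · intro h
    ext w
    have h1 := h (Subgroup.inclusion le_sup_right w) w.2
    rw [MonoidHom.mul_apply, MonoidHom.inv_apply, hup, mul_inv_eq_one] at h1
    exact congrArg Units.val h1
  · intro h w hw
    have e : w = Subgroup.inclusion le_sup_right (⟨w, hw⟩ : ↥W₂) := rfl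
    rw [e, MonoidHom.mul_apply, MonoidHom.inv_apply, hup, mul_inv_eq_one, ← h]
    rfl

open Cfsg.Agent.PF in
theorem triv₁_iff {G : Type*} [Group G] {W₁ W₂ : Subgroup G} (hW : IsSelfNormalizingCyclic W₁ W₂)
    (ω : ↥(W₁ ⊔ W₂) →* ℂˣ) (j : ↥W₁ →* ℂˣ) :
    (∀ w : ↥(W₁ ⊔ W₂), (w : G) ∈ W₁ → (ω * (up₁ hW j)⁻¹) w = 1) ↔ dn₁ ω = j := by
  have hup : ∀ w : ↥W₁, up₁ hW j (Subgroup.inclusion le_sup_left w) = j w := by
    intro w
    show j (pr₁ hW (Subgroup.inclusion le_sup_left w)) = j w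
    congr 1
    exact Subtype.ext (pr_of_mem₁ hW (Subgroup.inclusion le_sup_left w) w.2).1
  constructor
  · intro h
    ext w
    have h1 := h (Subgroup.inclusion le_sup_left w) w.2
    rw [MonoidHom.mul_apply, MonoidHom.inv_apply, hup, mul_inv_eq_one] at h1
    exact congrArg Units.val h1
  · intro h w hw
    have e : w = Subgroup.inclusion le_sup_left (⟨w, hw⟩ : ↥W₁) := rfl
    rw [e, MonoidHom.mul_apply, MonoidHom.inv_apply, hup, mul_inv_eq_one, ← h]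
    rfl

open Classical in
/-- Let W₁, W₂ ≤ G form a self-normalising cyclic subgroup W = W₁ ⊔ W₂ of odd order with Nat.card W₁ < Nat.card W₂, and χ an orthonormal family of irreducible characters of G up to sign, indexed by the linear characters ω of W, with χ_1 = 1, χ_ω = ω on W outside W₁ ∪ W₂, and the induction identity for (1 − φ)(1 − ψ). Let θ be a class function of G vanishing on W outside W₁ ∪ W₂, and suppose fewer than 2 · Nat.card W₁ linear characters ω of W have ⟨θ, χ ω⟩ ≠ 0. Then one of: all ⟨θ, χ ω⟩ vanish; or there are ψ₀ and a with ⟨θ, χ ω⟩ = a when ω ψ₀⁻¹ is trivial on W₂ and 0 otherwise; or there are φ₀ and a with ⟨θ, χ ω⟩ = a when ω φ₀⁻¹ is trivial on W₁ and 0 otherwise. -/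
theorem result {G : Type*} [Group G] [Fintype G] (W₁ W₂ : Subgroup G) (hW : Cfsg.IsSelfNormalizingCyclic W₁ W₂) (hodd : Odd (Nat.card ↥(W₁ ⊔ W₂))) (χ : (↥(W₁ ⊔ W₂) →* ℂˣ) → (G → ℂ)) (hχ : Cfsg.IsCyclicTIFamily W₁ W₂ χ) (hlt : Nat.card W₁ < Nat.card W₂) (θ : G → ℂ) (hθ : Cfsg.IsClassFunction G θ) (hθV : ∀ w : ↥(W₁ ⊔ W₂), (w : G) ∉ W₁ → (w : G) ∉ W₂ → θ w = 0) (hfew : Nat.card {ω : ↥(W₁ ⊔ W₂) →* ℂˣ // Cfsg.classInner θ (χ ω) ≠ 0} < 2 * Nat.card W₁) : (∀ ω, Cfsg.classInner θ (χ ω) = 0) ∨ (∃ (ψ₀ : ↥(W₁ ⊔ W₂) →* ℂˣ) (a : ℂ), ∀ ω, Cfsg.classInner θ (χ ω) = if (∀ w : ↥(W₁ ⊔ W₂), (w : G) ∈ W₂ → (ω * ψ₀⁻¹) w = 1) then a else 0) ∨ (∃ (φ₀ : ↥(W₁ ⊔ W₂) →* ℂˣ) (a : ℂ), ∀ ω, Cfsg.classInner θ (χ ω) = if (∀ w : ↥(W₁ ⊔ W₂), (w : G) ∈ W₁ → (ω * φ₀⁻¹) w = 1) then a else 0) := by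
  classical
  open Cfsg.Agent.PF in
  have hC := cycTI_of_family hW hodd hχ
  have hV : ∀ (a : ↥W₁) (b : ↥W₂), a ≠ 1 → b ≠ 1 → θ ((a : G) * b) = 0 := by
    intro a b ha hb
    have hv := Cfsg.Agent.H25.snc_mul_mem_vset hW.2.2.1 a.2 b.2 (fun e => ha (Subtype.ext e))
      (fun e => hb (Subtype.ext e))
    rw [Cfsg.Agent.H25.mem_vset] at hv
    exact hθV ⟨(a : G) * b, hv.1⟩ hv.2.1 hv.2.2
  have hupdn : ∀ ω, Cfsg.Agent.PF.up₁ hW (Cfsg.Agent.PF.dn₁ ω) *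
      Cfsg.Agent.PF.up₂ hW (Cfsg.Agent.PF.dn₂ ω) = ω := fun ω => (Cfsg.Agent.PF.up_dn hW ω).symm
  have hcard : Nat.card {p : (↥W₁ →* ℂˣ) × (↥W₂ →* ℂˣ) // Cfsg.classInner θ
      (χ (Cfsg.Agent.PF.up₁ hW p.1 * Cfsg.Agent.PF.up₂ hW p.2)) ≠ 0} =
      Nat.card {ω : ↥(W₁ ⊔ W₂) →* ℂˣ // Cfsg.classInner θ (χ ω) ≠ 0} := by
    apply Nat.card_congr
    exact
      { toFun := fun p => ⟨Cfsg.Agent.PF.up₁ hW p.1.1 * Cfsg.Agent.PF.up₂ hW p.1.2, p.2⟩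
        invFun := fun ω => ⟨(Cfsg.Agent.PF.dn₁ ω.1, Cfsg.Agent.PF.dn₂ ω.1), by
          simp only [hupdn]; exact ω.2⟩
        left_inv := fun p => by
          apply Subtype.ext
          simp only [Cfsg.Agent.PF.dn₁_up, Cfsg.Agent.PF.dn₂_up]
        right_inv := fun ω => by
          apply Subtype.ext
          simp only [hupdn] }
  rcases hC.few hlt hθ hV (by rw [hcard]; exact hfew) with h | ⟨j₀, c, hc, h1, h2⟩ | ⟨i₀, c, hc, h1, h2⟩
  · left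
    intro ω
    have := h (Cfsg.Agent.PF.dn₁ ω) (Cfsg.Agent.PF.dn₂ ω)
    simp only [hupdn] at this
    exact this
  · right; left
    refine ⟨Cfsg.Agent.PF.up₂ hW j₀, c, fun ω => ?_⟩
    by_cases e : Cfsg.Agent.PF.dn₂ ω = j₀
    · rw [if_pos ((triv₂_iff hW ω j₀).2 e)]
      have := h1 (Cfsg.Agent.PF.dn₁ ω)
      rw [← e] at this
      simp only [hupdn] at this
      exact this
    · rw [if_neg (fun e' => e ((triv₂_iff hW ω j₀).1 e'))]
      have := h2 (Cfsg.Agent.PF.dn₁ ω) _ e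
      simp only [hupdn] at this
      exact this
  · right; right
    refine ⟨Cfsg.Agent.PF.up₁ hW i₀, c, fun ω => ?_⟩
    by_cases e : Cfsg.Agent.PF.dn₁ ω = i₀
    · rw [if_pos ((triv₁_iff hW ω i₀).2 e)]
      have := h1 (Cfsg.Agent.PF.dn₂ ω)
      rw [← e] at this
      simp only [hupdn] at this
      exact this
    · rw [if_neg (fun e' => e ((triv₁_iff hW ω i₀).1 e'))]
      have := h2 _ (Cfsg.Agent.PF.dn₂ ω) e
      simp only [hupdn] at this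
      exact this

end Cfsg.Agent.S1507
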