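import Cfsg.Statements.S1508
import Cfsg.Agent.PF.T3
-- import your own Cfsg.Agent.* helpers here

set_option autoImplicit false
open Cfsg

namespace Cfsg.Agent.S1508

/-- Let W₁, W₂ ≤ G form a self-normalising cyclic subgroup W = W₁ ⊔ W₂ of odd order and χ an orthonormal family of irreducible characters of G up to sign, indexed by the linear characters ω of W, with χ_1 = 1, χ_ω = ω on W outside W₁ ∪ W₂, and the induction identity for (1 − φ)(1 − ψ). Let ω be a linear character of W and g an element of G whose order is coprime to the order of ω. Then χ ω g is an integer. -/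
theorem result {G : Type*} [Group G] [Fintype G] (W₁ W₂ : Subgroup G) (hW : Cfsg.IsSelfNormalizingCyclic W₁ W₂) (hodd : Odd (Nat.card ↥(W₁ ⊔ W₂))) (χ : (↥(W₁ ⊔ W₂) →* ℂˣ) → (G → ℂ)) (hχ : Cfsg.IsCyclicTIFamily W₁ W₂ χ) (ω : ↥(W₁ ⊔ W₂) →* ℂˣ) (g : G) (hg : Nat.Coprime (orderOf g) (orderOf ω)) : ∃ n : ℤ, χ ω g = n := by
  have hC := Cfsg.Agent.PF.cycTI_of_family hW hodd hχ
  have f1 := Cfsg.Agent.PF.snc_finite₁ hW
  have f2 := Cfsg.Agent.PF.snc_finite₂ hW
  have e := Cfsg.Agent.PF.up_dn hW ω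
  have h1 : orderOf (Cfsg.Agent.PF.dn₁ ω) ∣ orderOf ω := by
    apply orderOf_dvd_of_pow_eq_one
    ext w
    have := DFunLike.congr_fun (pow_orderOf_eq_one ω) (Subgroup.inclusion le_sup_left w)
    rw [MonoidHom.pow_apply] at this
    rw [MonoidHom.pow_apply]
    exact congrArg Units.val this
  have h2 : orderOf (Cfsg.Agent.PF.dn₂ ω) ∣ orderOf ω := by
    apply orderOf_dvd_of_pow_eq_one
    ext w
    have := DFunLike.congr_fun (pow_orderOf_eq_one ω) (Subgroup.inclusion le_sup_right w)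
    rw [MonoidHom.pow_apply] at this
    rw [MonoidHom.pow_apply]
    exact congrArg Units.val this
  have h3 := hC.int_of_coprime (Cfsg.Agent.PF.dn₁ ω) (Cfsg.Agent.PF.dn₂ ω) g
    (Nat.Coprime.coprime_dvd_right h1 hg) (Nat.Coprime.coprime_dvd_right h2 hg)
  simp only [← e] at h3
  exact h3

end Cfsg.Agent.S1508
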