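import Cfsg.Statements.S1511
import Cfsg.Agent.PF.PrimeTIL2
-- import your own Cfsg.Agent.* helpers here

set_option autoImplicit false
open Cfsg

namespace Cfsg.Agent.S1511

/-- Let L be a finite group with K normal with complement W₁ ≠ 1 a cyclic Hall subgroup, and W₂ ≠ 1 a cyclic subgroup of K equal to C_K(x) for every non-identity x ∈ W₁, with W₁W₂ of odd order. Then there are a map μ from the linear characters of W = W₁ ⊔ W₂ to irreducible characters of L, injective, and a sign δ(ω) ∈ {1, −1} depending only on the values of ω on W₂, such that: for ω, ω' agreeing on W₂, the function induced to L from ω − ω' equals δ(ω) • (μ ω − μ ω'); μ ω x = δ(ω) ω x for x ∈ W outside W₂; every irreducible character of L not of the form μ ω vanishes on W outside W₂; and μ ω 1 − δ(ω) is an integer multiple of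 Nat.card W₁. -/
theorem result {L : Type*} [Group L] [Fintype L] (K W₁ W₂ : Subgroup L) [hK : K.Normal] (hKW₁ : K ⊓ W₁ = ⊥) (hKW₁' : K ⊔ W₁ = ⊤) (hW₁ : W₁ ≠ ⊥) (hW₁c : IsCyclic W₁) (hHall : Nat.Coprime (Nat.card W₁) W₁.index) (hW₂ : W₂ ≠ ⊥) (hW₂c : IsCyclic W₂) (hW₂K : W₂ ≤ K) (hC : ∀ x ∈ W₁, x ≠ 1 → K ⊓ Subgroup.centralizer ({x} : Set L) = W₂) (hodd : Odd (Nat.card ↥(W₁ ⊔ W₂))) : ∃ (μ : (↥(W₁ ⊔ W₂) →* ℂˣ) → (L → ℂ)) (δ : (↥(W₁ ⊔ W₂) →* ℂˣ) → ℂ), Function.Injective μ ∧ (∀ ω, Cfsg.IsIrrCharacter L (μ ω)) ∧ (∀ ω, δ ω = 1 ∨ δ ω = -1) ∧ (∀ ω ω' : ↥(W₁ ⊔ W₂) →* ℂˣ, (∀ w : ↥(W₁ ⊔ W₂), (w : L) ∈ W₂ → ω w = ω' w) → δ ω = δ ω' ∧ Cfsg.indFun (W₁ ⊔ W₂) (fun w => (ω w : ℂ) - (ω' w : ℂ)) = δ ω • (μ ω - μ ω')) ∧ (∀ ω, ∀ w : ↥(W₁ ⊔ W₂), (w : L) ∉ W₂ → μ ω w = δ ω * (ω w : ℂ)) ∧ (∀ θ : L → ℂ, Cfsg.IsIrrCharacter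 L θ → (∀ ω, θ ≠ μ ω) → ∀ w : ↥(W₁ ⊔ W₂), (w : L) ∉ W₂ → θ w = 0) ∧ (∀ ω, ∃ n : ℤ, μ ω 1 - δ ω = n * (Nat.card W₁ : ℂ)) := by
  open Cfsg.Agent.PF Cfsg.Agent.H25 in
  have hH : HypL K W₁ W₂ := ⟨hK, hKW₁, hKW₁', typeP_card_coprime K W₁ hKW₁ hKW₁' hHall, hW₁, hW₁c,
    hW₂, hW₂c, hW₂K, hC, hodd⟩
  have hW := hH.self
  obtain ⟨μ, δ, h⟩ := hH.exists_PTL
  obtain ⟨η, hη⟩ := Cfsg.Agent.PF.exists_cycTI hW hodd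
  refine ⟨fun ω => μ (Cfsg.Agent.PF.dn₁ ω) (Cfsg.Agent.PF.dn₂ ω),
    fun ω => (δ (Cfsg.Agent.PF.dn₂ ω) : ℂ), ?_, fun ω => h.irr _ _, ?_, ?_, ?_, ?_, ?_⟩
  · intro ω ω' e
    obtain ⟨e1, e2⟩ := h.inj _ _ _ _ e
    rw [Cfsg.Agent.PF.up_dn hW ω, Cfsg.Agent.PF.up_dn hW ω', e1, e2]
  · intro ω
    rcases h.sign (Cfsg.Agent.PF.dn₂ ω) with e | e
    · left; simp only [e]; norm_num
    · right; simp only [e]; norm_num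
  · intro ω ω' hωω
    have e2 : Cfsg.Agent.PF.dn₂ ω = Cfsg.Agent.PF.dn₂ ω' := by
      ext w
      exact congrArg Units.val (hωω (Subgroup.inclusion le_sup_right w) w.2)
    refine ⟨by simp only [e2], ?_⟩
    have h1 := hH.ind_diff hη (Cfsg.Agent.PF.dn₁ ω) (Cfsg.Agent.PF.dn₁ ω') (Cfsg.Agent.PF.dn₂ ω)
    have h2 : (fun w : ↥(W₁ ⊔ W₂) => (ω w : ℂ) - (ω' w : ℂ)) =
        Cfsg.Agent.PF.omega W₁ W₂ (Cfsg.Agent.PF.dn₁ ω) (Cfsg.Agent.PF.dn₂ ω) -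
        Cfsg.Agent.PF.omega W₁ W₂ (Cfsg.Agent.PF.dn₁ ω') (Cfsg.Agent.PF.dn₂ ω) := by
      rw [Cfsg.Agent.PF.omega_eq hW, Cfsg.Agent.PF.omega_eq hW, ← Cfsg.Agent.PF.up_dn hW ω, e2,
        ← Cfsg.Agent.PF.up_dn hW ω']
      rfl
    rw [h2, h1, h.eta hη, h.eta hη]
    funext x
    simp only [Pi.sub_apply, Pi.smul_apply, smul_eq_mul, e2]
    ring
  · intro ω w hw
    have h1 := Cfsg.Agent.PF.pr_mul hW w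
    have h2 := h.eq_on (Cfsg.Agent.PF.dn₁ ω) (Cfsg.Agent.PF.dn₂ ω) (Cfsg.Agent.PF.pr₁ hW w)
      (Cfsg.Agent.PF.pr₂ hW w) (Cfsg.Agent.PF.snc_notMem₂ hW w hw)
    rw [← h1] at h2
    show μ (Cfsg.Agent.PF.dn₁ ω) (Cfsg.Agent.PF.dn₂ ω) (w : L) = _
    rw [h2]
    congr 1
    conv_rhs => rw [Cfsg.Agent.PF.up_dn hW ω]
    rfl
  · intro θ hθ hne w hw
    have h1 := Cfsg.Agent.PF.pr_mul hW w
    rw [h1]
    apply h.vanish θ hθ _ _ _ (Cfsg.Agent.PF.snc_notMem₂ hW w hw)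
    intro i j e
    apply hne (Cfsg.Agent.PF.up₁ hW i * Cfsg.Agent.PF.up₂ hW j)
    show θ = μ (Cfsg.Agent.PF.dn₁ _) (Cfsg.Agent.PF.dn₂ _)
    rw [e, Cfsg.Agent.PF.dn₁_up, Cfsg.Agent.PF.dn₂_up]
  · intro ω
    obtain ⟨n, hn⟩ := h.deg (Cfsg.Agent.PF.dn₁ ω) (Cfsg.Agent.PF.dn₂ ω)
    exact ⟨n, by simp only [hn]; ring⟩

end Cfsg.Agent.S1511
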