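import Cfsg.Statements.S1513
import Cfsg.Agent.PF.PrimeTIL3
-- import your own Cfsg.Agent.* helpers here

set_option autoImplicit false
open Cfsg

namespace Cfsg.Agent.S1513

/-- Let L be a finite group with K normal with complement W₁ ≠ 1 a cyclic Hall subgroup, and W₂ ≠ 1 a cyclic subgroup of K equal to C_K(x) for every non-identity x ∈ W₁, with W₁W₂ of odd order. For an irreducible character θ of K: if θ is not fixed under conjugation by some element of W₁, then the function induced from θ to L is an irreducible character of L; and the irreducible characters of K fixed by all of W₁ are exactly Nat.card W₂ in number, each inducing to the sum of Nat.card W₁ pairwise distinct irreducible characters of L. -/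
theorem result {L : Type*} [Group L] [Fintype L] (K W₁ W₂ : Subgroup L) [hK : K.Normal] (hKW₁ : K ⊓ W₁ = ⊥) (hKW₁' : K ⊔ W₁ = ⊤) (hW₁ : W₁ ≠ ⊥) (hW₁c : IsCyclic W₁) (hHall : Nat.Coprime (Nat.card W₁) W₁.index) (hW₂ : W₂ ≠ ⊥) (hW₂c : IsCyclic W₂) (hW₂K : W₂ ≤ K) (hC : ∀ x ∈ W₁, x ≠ 1 → K ⊓ Subgroup.centralizer ({x} : Set L) = W₂) (hodd : Odd (Nat.card ↥(W₁ ⊔ W₂))) : (∀ θ : K → ℂ, Cfsg.IsIrrCharacter K θ → (∃ x ∈ W₁, (fun k : K => θ ⟨x * k * x⁻¹, hK.conj_mem (k : L) k.2 x⟩) ≠ θ) → Cfsg.IsIrrCharacter L (Cfsg.indFun K θ)) ∧ Nat.card {θ : Cfsg.IrrCharacter K // ∀ x ∈ W₁, (fun k : K => (θ : K → ℂ) ⟨x * k * x⁻¹, hK.conj_mem (k : L) k.2 x⟩) = θ} = Nat.card W₂ ∧ (∀ θ : K → ℂ, Cfsg.IsIrrCharacter K θ → (∀ x ∈ W₁, (fun k : K => θ ⟨x * k * x⁻¹, hK.conj_mem (k : L) k.2 x⟩) = θ) → ∃ C : Finset (L → ℂ), C.card = Nat.card W₁ ∧ (∀ μ ∈ C, Cfsg.IsIrrCharacter L μ) ∧ Cfsg.indFun K θ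 = ∑ μ ∈ C, μ) := by
  classical
  open Cfsg.Agent.PF Cfsg.Agent.H25 in
  have hH : HypL K W₁ W₂ := ⟨hK, hKW₁, hKW₁', typeP_card_coprime K W₁ hKW₁ hKW₁' hHall, hW₁, hW₁c,
    hW₂, hW₂c, hW₂K, hC, hodd⟩
  have hW := hH.self
  obtain ⟨μ, δ, h⟩ := hH.exists_PTL
  have f1 := Cfsg.Agent.PF.snc_finite₁ hW
  have := Fintype.ofFinite (↥W₁ →* ℂˣ)
  have hfixed : ∀ j, ∀ x : L, (fun k : K => (fun k : K => μ 1 j k) ⟨x * k * x⁻¹, hK.conj_mem (k : L) k.2 x⟩) =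
      (fun k : K => μ 1 j k) := fun j x =>
    Cfsg.Agent.Char.cj_restrict K x (Cfsg.Agent.PF.irr_cf (h.irr 1 j))
  obtain ⟨x₀, hx₀⟩ := Subgroup.ne_bot_iff_exists_ne_one.mp hW₁
  have hx₀' : (x₀ : L) ≠ 1 := fun e => hx₀ (Subtype.ext e)
  refine ⟨?_, ?_, ?_⟩
  · intro θ hθ hx
    rcases h.ind_cases' hθ with h1 | ⟨j, rfl⟩
    · exact h1
    · obtain ⟨x, hx, hne⟩ := hx
      exact absurd (hfixed j x) hne
  · rw [← Cfsg.Agent.PF.card_dual_of_comm (Cfsg.Agent.PF.snc_comm₂ hW)]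
    symm
    apply Nat.card_congr
    refine Equiv.ofBijective (fun j => ⟨⟨fun k : K => μ 1 j k, h.res_irr' 1 j⟩, fun x _ => hfixed j x⟩) ⟨?_, ?_⟩
    · intro j j' e
      have e1 : (fun k : K => μ 1 j k) = (fun k : K => μ 1 j' k) :=
        congrArg (fun χ => ((χ : {θ : Cfsg.IrrCharacter K // ∀ x ∈ W₁, (fun k : K => (θ : K → ℂ)
          ⟨x * k * x⁻¹, hK.conj_mem (k : L) k.2 x⟩) = θ}).1 : K → ℂ)) e
      exact h.res_inj' (fun k hk => congrFun e1 ⟨k, hk⟩)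
    · rintro ⟨⟨θ, hθ⟩, hfix⟩
      obtain ⟨j, hj⟩ := h.fixed hθ x₀.2 hx₀' (hfix x₀ x₀.2)
      exact ⟨j, Subtype.ext (Subtype.ext hj.symm)⟩
  · intro θ hθ hfix
    obtain ⟨j, rfl⟩ := h.fixed hθ x₀.2 hx₀' (hfix x₀ x₀.2)
    refine ⟨Finset.univ.image (fun i => μ i j), ?_, ?_, ?_⟩
    · rw [Finset.card_image_of_injective _ (fun i i' e => (h.inj _ _ _ _ e).1), Finset.card_univ,
        ← Nat.card_eq_fintype_card, Cfsg.Agent.PF.card_dual_of_comm (Cfsg.Agent.PF.snc_comm₁ hW)]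
    · intro ν hν
      obtain ⟨i, -, rfl⟩ := Finset.mem_image.1 hν
      exact h.irr i j
    · rw [Finset.sum_image (fun i _ i' _ e => (h.inj _ _ _ _ e).1)]
      exact h.ind_res' 1 j

end Cfsg.Agent.S1513
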