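import Cfsg.Statements.S1524
import Cfsg.Agent.Coh.Sibley
import Cfsg.Agent.H75.Frob

set_option autoImplicit false
open Cfsg

namespace Cfsg.Agent.S1524

/-- Let G be a finite group and H ≤ L subgroups with L of odd order, H ≠ ⊥ nilpotent and normal in L with a nontrivial complement W₁ in L (H ⊓ W₁ = ⊥, H ⊔ W₁ = L) acting on H without non-identity fixed points (L is a Frobenius group with kernel H), and suppose the underlying set of H is a TI-subset of G whose normaliser is L. Let S be the set of functions on L induced from the non-principal irreducible characters of H. Then (S, L minus 1, induction to G) is coherent. -/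
theorem result {G : Type*} [Group G] [Fintype G] (H L W₁ : Subgroup G) [Fintype L] (hodd : Odd (Nat.card L)) (hHL : H ≤ L) (hW₁L : W₁ ≤ L) (hH1 : H ≠ ⊥) (hW1 : W₁ ≠ ⊥) (hnil : Group.IsNilpotent H) (hHn : ∀ x ∈ L, ∀ h ∈ H, x * h * x⁻¹ ∈ H) (hinf : H ⊓ W₁ = ⊥) (hsup : H ⊔ W₁ = L) (hfpf : ∀ w ∈ W₁, w ≠ 1 → ∀ h ∈ H, w * h = h * w → h = 1) (hTI : Cfsg.IsTISubset (H : Set G)) (hN : Subgroup.normalizer (H : Set G) = L) : Cfsg.IsCoherent (Cfsg.inducedIrrAbove (H.subgroupOf L) ⊥) {1}ᶜ (fun α : L → ℂ => Cfsg.indFun L α) := by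
  have hKn : (H.subgroupOf L).Normal := by
    constructor
    intro n hn g
    rw [Subgroup.mem_subgroupOf] at hn ⊢
    exact hHn g g.2 n hn
  have hmap : (H.subgroupOf L).map L.subtype = H := Subgroup.map_subgroupOf_eq_of_le hHL
  have hsup' : H.subgroupOf L ⊔ W₁.subgroupOf L = ⊤ := by
    apply Subgroup.map_injective L.subtype_injective
    rw [Subgroup.map_sup, hmap, Subgroup.map_subgroupOf_eq_of_le hW₁L, hsup,
      ← MonoidHom.range_eq_map, L.range_subtype]
  have hfpf' : ∀ h ∈ W₁.subgroupOf L, h ≠ 1 → ∀ k ∈ H.subgroupOf L, h * k = k * h → k = 1 := by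
    intro w hw hw1 k hk h
    exact Subtype.ext (hfpf w hw (fun h' => hw1 (Subtype.ext h')) k hk (congrArg Subtype.val h))
  have hnil' : Group.IsNilpotent (H.subgroupOf L) :=
    (Group.isNilpotent_congr (Subgroup.subgroupOfEquivOfLe hHL)).2 hnil
  apply Coh.sibley_odd L (H.subgroupOf L) hodd hnil'
  · intro h
    apply hH1
    rw [← hmap, h, Subgroup.map_bot]
  · intro k hk hk1 x hx
    by_contra hxK
    apply hk1
    exact H75.frob_commute (H.subgroupOf L) (W₁.subgroupOf L) hsup' hfpf' hxK hk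
      (Subgroup.mem_centralizer_singleton_iff.1 hx)
  · rw [hmap]; exact hTI
  · rw [hmap]; exact hN

end Cfsg.Agent.S1524
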