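import Cfsg.Statements.S1533
import Cfsg.Agent.Coh.IrrTI

set_option autoImplicit false
open Cfsg

namespace Cfsg.Agent.S1533

/-- Let G be a finite group, p an odd prime, and P a nontrivial Sylow p-subgroup whose underlying set is a TI-subset of G, with P properly contained in its set normaliser N and C_G(x) ≤ P for every non-identity x ∈ P. Let S be the set of irreducible characters χ of N with χ x ≠ χ 1 for some x ∈ P. Then either S has exactly one member, P is elementary abelian and Nat.card P = [N:P] + 1; or (S, N minus 1, induction to G) is coherent. -/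
theorem result {G : Type*} [Group G] [Fintype G] (p : ℕ) [Fact p.Prime] (hp : p ≠ 2) (P : Sylow p G) (hP1 : (P : Subgroup G) ≠ ⊥) (hTI : Cfsg.IsTISubset ((P : Subgroup G) : Set G)) (hlt : (P : Subgroup G) < Subgroup.normalizer ((P : Subgroup G) : Set G)) (hC : ∀ k ∈ (P : Subgroup G), k ≠ 1 → Subgroup.centralizer ({k} : Set G) ≤ (P : Subgroup G)) [Fintype ↥(Subgroup.normalizer ((P : Subgroup G) : Set G))] : (Nat.card {χ : ↥(Subgroup.normalizer ((P : Subgroup G) : Set G)) → ℂ // Cfsg.IsIrrCharacter ↥(Subgroup.normalizer ((P : Subgroup G) : Set G)) χ ∧ ∃ x : ↥(Subgroup.normalizer ((P : Subgroup G) : Set G)), (x : G) ∈ (P : Subgroup G) ∧ χ x ≠ χ 1} = 1 ∧ Cfsg.IsElementaryAbelian p (P : Subgroup G) ∧ Nat.card (P : Subgroup G) = ((P : Subgroup G).subgroupOf (Subgroup.normalizer ((P : Subgroup G) : Set G))).index + 1) ∨ Cfsg.IsCoherent {χ : ↥(Subgroup.normalizer ((P : Subgroup G) : Set G)) → ℂ | Cfsg.IsIrrCharacter ↥(Subgroup.normalizer ((P : Subgroup G)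 : Set G)) χ ∧ ∃ x : ↥(Subgroup.normalizer ((P : Subgroup G) : Set G)), (x : G) ∈ (P : Subgroup G) ∧ χ x ≠ χ 1} {1}ᶜ (fun α => Cfsg.indFun (Subgroup.normalizer ((P : Subgroup G) : Set G)) α) := by
  rcases Coh.ti_main (P : Subgroup G) _ rfl hP1 hTI hlt hC with ⟨h1, h2, q, hq, h3, h4⟩ | ⟨h1, _, hna⟩ | h
  · left
    refine ⟨h1, ⟨h3, ?_⟩, h2⟩
    obtain ⟨m, hm⟩ := IsPGroup.iff_card.1 P.isPGroup'
    intro a ha
    by_cases ha1 : a = 1
    · rw [ha1, one_pow]
    have h6 : orderOf a = q := (Nat.dvd_prime hq).1 (orderOf_dvd_of_pow_eq_one (h4 a ha)) |>.resolve_left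
      (fun h => ha1 (orderOf_eq_one_iff.1 h))
    have h7 : orderOf a ∣ p ^ m := by rw [← hm]; exact Subgroup.orderOf_dvd_natCard _ ha
    rw [h6] at h7
    have h8 := (Nat.prime_dvd_prime_iff_eq hq Fact.out).1 (hq.dvd_of_dvd_pow h7)
    rw [← h8]; exact h4 a ha
  · exfalso
    obtain ⟨m, hm⟩ := IsPGroup.iff_card.1 P.isPGroup'
    have hm0 : m ≠ 0 := by
      rintro rfl
      rw [pow_zero] at hm
      exact hP1 (Subgroup.card_eq_one.1 hm)
    have h9 : p ∣ Nat.card (P : Subgroup G) := by rw [hm]; exact dvd_pow_self p hm0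
    rw [h1] at h9
    have h10 := (Fact.out : p.Prime).dvd_of_dvd_pow h9
    exact hp ((Nat.prime_dvd_prime_iff_eq Fact.out Nat.prime_two).1 h10)
  · exact Or.inr h

end Cfsg.Agent.S1533
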