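import Cfsg.Statements.S1551
import Cfsg.Agent.M24X.SextStab

set_option autoImplicit false
open scoped Pointwise
open Cfsg

namespace Cfsg.Agent.S1551

open MulAction Cfsg.Agent.Golay Cfsg.Agent.Golay.Orb Cfsg.Agent.M24X
open scoped Pointwise


/-- Structure of a sextet stabiliser: it induces every permutation of the six tetrads, the subgroup fixing each tetrad setwise has order 192, and there is a normal subgroup of order 64 consisting of elements squaring to the identity. -/
theorem result (S : Finset (Finset Cfsg.GolayPt)) (hS : S ∈ Cfsg.sextets) : (∀ e : Equiv.Perm ↥S, ∃ g ∈ MulAction.stabilizer Cfsg.M24 S, ∀ t : ↥S, (g : Equiv.Perm Cfsg.GolayPt) • (t : Finset Cfsg.GolayPt) = ((e t : ↥S) : Finset Cfsg.GolayPt)) ∧ Nat.card {g : ↥(MulAction.stabilizer Cfsg.M24 S) // ∀ t ∈ S, ((g : Cfsg.M24) : Equiv.Perm Cfsg.GolayPt) • t = t} = 192 ∧ ∃ N : Subgroup ↥(MulAction.stabilizer Cfsg.M24 S), N.Normal ∧ Nat.card N = 64 ∧ ∀ x ∈ N, x * x = 1 := by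
  refine ⟨?_, ?_, exists_N64 hS⟩
  · intro e
    obtain ⟨g, hg⟩ := sext_surj hS e
    refine ⟨g, g.2, fun t => ?_⟩
    rw [← hg]; rfl
  · rw [← card_sext_ker hS]
    exact Nat.card_congr ((Equiv.refl _).subtypeEquiv fun g => mem_ker_actOn.symm)

end Cfsg.Agent.S1551
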