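import Cfsg.Statements.S1552
import Cfsg.Agent.M24X.Self
import Cfsg.Agent.M24X.SextSext

set_option autoImplicit false
open scoped Pointwise
open Cfsg

namespace Cfsg.Agent.S1552

open MulAction Cfsg.Agent.Golay Cfsg.Agent.Golay.Orb Cfsg.Agent.M24X
open scoped Pointwise


/-- A sextet stabiliser has four orbits on the 1771 sextets, of sizes 1, 90, 240, 1440; and the stabiliser is a maximal proper subgroup. -/
theorem result (S : Finset (Finset Cfsg.GolayPt)) (hS : S ∈ Cfsg.sextets) : ∃ X₁ ∈ Cfsg.sextets, ∃ X₂ ∈ Cfsg.sextets, ∃ X₃ ∈ Cfsg.sextets, (MulAction.orbit ↥(MulAction.stabilizer Cfsg.M24 S) X₁).ncard = 90 ∧ (MulAction.orbit ↥(MulAction.stabilizer Cfsg.M24 S) X₂).ncard = 240 ∧ (MulAction.orbit ↥(MulAction.stabilizer Cfsg.M24 S) X₃).ncard = 1440 ∧ Cfsg.sextets = {S} ∪ MulAction.orbit ↥(MulAction.stabilizer Cfsg.M24 S) X₁ ∪ MulAction.orbit ↥(MulAction.stabilizer Cfsg.M24 S) X₂ ∪ MulAction.orbit ↥(MulAction.stabilizer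 Cfsg.M24 S) X₃ ∧ IsCoatom (MulAction.stabilizer Cfsg.M24 S) := by
  have hdec := sextet_sextets hS
  obtain ⟨y, h1, h2, h3⟩ := orbDec_self hS hdec (by decide)
  refine ⟨y 0, h1 0, y 1, h1 1, y 2, h1 2, h2 0, h2 1, h2 2, ?_, ?_⟩
  · ext z
    have : z ∈ sextets ↔ z ∈ ({S} ∪ ⋃ i, orbit (stabilizer M24 S) (y i) : Set _) := by rw [← h3]
    rw [this, Set.mem_union, Set.mem_iUnion, Fin.exists_fin_succ, Fin.exists_fin_succ, Fin.exists_fin_succ]
    simp only [Set.mem_union, IsEmpty.exists_iff, or_false, or_assoc]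
    rfl
  · exact isCoatom_of_orbDec isOrb_sextets hS hdec (N := 1771) ncard_sextets (by decide) (by norm_num) (by decide)

end Cfsg.Agent.S1552
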