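import Cfsg.Statements.S1554
import Cfsg.Agent.M24X.OctAlt

set_option autoImplicit false
open scoped Pointwise
open Cfsg

namespace Cfsg.Agent.S1554

open MulAction Cfsg.Agent.Golay Cfsg.Agent.Golay.Orb Cfsg.Agent.M24X
open scoped Pointwise


/-- An octad stabiliser is a split extension: the joint stabiliser of the octad and a point outside it is a complement to the pointwise stabiliser of the octad, and is isomorphic to the alternating group of degree 8. -/
theorem result (o : Finset Cfsg.GolayPt) (ho : o ∈ Cfsg.octads) (p : Cfsg.GolayPt) (hp : p ∉ o) : (Cfsg.M24 ⊓ fixingSubgroup (Equiv.Perm Cfsg.GolayPt) (o : Set Cfsg.GolayPt)) ⊓ (Cfsg.M24 ⊓ MulAction.stabilizer (Equiv.Perm Cfsg.GolayPt) o ⊓ MulAction.stabilizer (Equiv.Perm Cfsg.GolayPt) p) = ⊥ ∧ (Cfsg.M24 ⊓ fixingSubgroup (Equiv.Perm Cfsg.GolayPt) (o : Set Cfsg.GolayPt)) ⊔ (Cfsg.M24 ⊓ MulAction.stabilizer (Equiv.Perm Cfsg.GolayPt) o ⊓ MulAction.stabilizer (Equiv.Perm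 Cfsg.GolayPt) p) = (Cfsg.M24 ⊓ MulAction.stabilizer (Equiv.Perm Cfsg.GolayPt) o) ∧ Nonempty (↥(Cfsg.M24 ⊓ MulAction.stabilizer (Equiv.Perm Cfsg.GolayPt) o ⊓ MulAction.stabilizer (Equiv.Perm Cfsg.GolayPt) p) ≃* alternatingGroup (Fin 8)) := by
  classical
  have hE : ∀ {σ : Equiv.Perm GolayPt}, σ ∈ fixM24 o → σ ∈ M24 ⊓ MulAction.stabilizer (Equiv.Perm GolayPt) o := by
    intro σ hσ
    refine ⟨(mem_fixM24.1 hσ).1, stab_of_mem_iff fun x => ?_⟩
    have h := (mem_fixM24.1 hσ).2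
    constructor
    · intro hx
      have h2 := σ.injective (h _ hx)
      rwa [← h2]
    · intro hx; rw [h x hx]; exact hx
  -- factorisation
  have hfac : ∀ σ ∈ (M24 ⊓ MulAction.stabilizer (Equiv.Perm GolayPt) o : Subgroup (Equiv.Perm GolayPt)),
      ∃ τ ∈ fixM24 o, τ⁻¹ * σ ∈ (M24 ⊓ MulAction.stabilizer (Equiv.Perm GolayPt) o ⊓
        MulAction.stabilizer (Equiv.Perm GolayPt) p : Subgroup (Equiv.Perm GolayPt)) := by
    intro σ hσ
    have h1 : σ p ∉ o := fun h => hp ((mem_iff_of_stab hσ.2 p).1 h)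
    obtain ⟨τ, hτ, hτ1, hτ2⟩ := fix_trans ho hp h1
    have h2 : τ ∈ fixM24 o := mem_fixM24.2 ⟨hτ, hτ1⟩
    refine ⟨τ, h2, Subgroup.mul_mem _ (Subgroup.inv_mem _ (hE h2)) hσ, ?_⟩
    change (τ⁻¹ * σ) p = p
    rw [Equiv.Perm.mul_apply, Equiv.Perm.inv_eq_iff_eq, hτ2]
  refine ⟨?_, ?_, ?_⟩
  · rw [eq_bot_iff]
    rintro σ ⟨h1, h2⟩
    exact fix_out ho hp (mem_fixM24.1 h1).1 (mem_fixM24.1 h1).2 h2.2
  · apply le_antisymm
    · refine sup_le (fun σ hσ => hE hσ) inf_le_left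
    · intro σ hσ
      obtain ⟨τ, h1, h2⟩ := hfac σ hσ
      have : σ = τ * (τ⁻¹ * σ) := by group
      rw [this]
      exact Subgroup.mul_mem_sup h1 h2
  · let H : Subgroup (Equiv.Perm GolayPt) := M24 ⊓ MulAction.stabilizer (Equiv.Perm GolayPt) o ⊓
        MulAction.stabilizer (Equiv.Perm GolayPt) p
    let f : H →* Equiv.Perm ↥o := (resHom o).comp (Subgroup.inclusion inf_le_left)
    have hf : Function.Injective f := by
      rw [injective_iff_map_eq_one]
      intro g hg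
      apply Subtype.ext
      refine fix_out ho hp g.2.1.1 (fun q hq => ?_) g.2.2
      exact congrArg (fun e : Equiv.Perm ↥o => ((e ⟨q, hq⟩ : ↥o) : GolayPt)) hg
    have hr : f.range = alternatingGroup ↥o := by
      rw [← range_octad ho]
      apply le_antisymm
      · rintro _ ⟨g, rfl⟩; exact ⟨_, rfl⟩
      · rintro _ ⟨g, rfl⟩
        obtain ⟨τ, h1, h2⟩ := hfac g g.2
        refine ⟨⟨_, h2⟩, ?_⟩
        refine Equiv.Perm.ext fun x => Subtype.ext ?_
        change (τ⁻¹ * (g : Equiv.Perm GolayPt)) x = (g : Equiv.Perm GolayPt) x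
        have h3 : (g : Equiv.Perm GolayPt) x ∈ o := (mem_iff_of_stab g.2.2 _).2 x.2
        rw [Equiv.Perm.mul_apply, Equiv.Perm.inv_eq_iff_eq, (mem_fixM24.1 h1).2 _ h3]
    have e1 : H ≃* f.range := MonoidHom.ofInjective hf
    have e2 : f.range ≃* alternatingGroup ↥o := MulEquiv.subgroupCongr hr
    have e3 : alternatingGroup ↥o ≃* alternatingGroup (Fin 8) :=
      Equiv.altCongrHom (Finset.equivFinOfCardEq (card_octad ho))
    exact ⟨(e1.trans e2).trans e3⟩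

end Cfsg.Agent.S1554
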