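import Cfsg.Statements.S1559
import Cfsg.Agent.M24X.Self
import Cfsg.Agent.M24X.TrioTrio

set_option autoImplicit false
open scoped Pointwise
open Cfsg

namespace Cfsg.Agent.S1559

open MulAction Cfsg.Agent.Golay Cfsg.Agent.Golay.Orb Cfsg.Agent.M24X
open scoped Pointwise


/-- A trio stabiliser has five orbits on the 3795 trios, of sizes 1, 42, 56, 1008, 2688; and the stabiliser is a maximal proper subgroup. -/
theorem result (T : Finset (Finset Cfsg.GolayPt)) (hT : T ∈ Cfsg.trios) : ∃ X₁ ∈ Cfsg.trios, ∃ X₂ ∈ Cfsg.trios, ∃ X₃ ∈ Cfsg.trios, ∃ X₄ ∈ Cfsg.trios, (MulAction.orbit ↥(MulAction.stabilizer Cfsg.M24 T) X₁).ncard = 42 ∧ (MulAction.orbit ↥(MulAction.stabilizer Cfsg.M24 T) X₂).ncard = 56 ∧ (MulAction.orbit ↥(MulAction.stabilizer Cfsg.M24 T) X₃).ncard = 1008 ∧ (MulAction.orbit ↥(MulAction.stabilizer Cfsg.M24 T) X₄).ncard = 2688 ∧ Cfsg.trios = {T} ∪ MulAction.orbit ↥(MulAction.stabilizer Cfsg.M24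 T) X₁ ∪ MulAction.orbit ↥(MulAction.stabilizer Cfsg.M24 T) X₂ ∪ MulAction.orbit ↥(MulAction.stabilizer Cfsg.M24 T) X₃ ∪ MulAction.orbit ↥(MulAction.stabilizer Cfsg.M24 T) X₄ ∧ IsCoatom (MulAction.stabilizer Cfsg.M24 T) := by
  have hdec := trio_trios hT
  obtain ⟨y, h1, h2, h3⟩ := orbDec_self hT hdec (by decide)
  refine ⟨y 0, h1 0, y 1, h1 1, y 2, h1 2, y 3, h1 3, h2 0, h2 1, h2 2, h2 3, ?_, ?_⟩
  · ext z
    have : z ∈ trios ↔ z ∈ ({T} ∪ ⋃ i, orbit (stabilizer M24 T) (y i) : Set _) := by rw [← h3]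
    rw [this, Set.mem_union, Set.mem_iUnion, Fin.exists_fin_succ, Fin.exists_fin_succ, Fin.exists_fin_succ,
      Fin.exists_fin_succ]
    simp only [Set.mem_union, IsEmpty.exists_iff, or_false, or_assoc]
    rfl
  · exact isCoatom_of_orbDec isOrb_trios hT hdec (N := 3795) ncard_trios (by decide) (by norm_num) (by decide)

end Cfsg.Agent.S1559
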