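import Cfsg.Statements.S1560
import Cfsg.Agent.Golay.OrbC
import Cfsg.Agent.Golay.M12

set_option autoImplicit false
open scoped Pointwise
open Cfsg

namespace Cfsg.Agent.S1560

open MulAction Cfsg.Agent.Golay Cfsg.Agent.Golay.Orb
open scoped Pointwise


/-- Intersection numbers of dodecads: a dodecad meets every other dodecad in 0, 4, 6 or 8 points, meeting 495 of them in 4 points, 1584 in 6 points and 495 in 8 points. -/
theorem result (d : Finset Cfsg.GolayPt) (hd : d ∈ Cfsg.dodecads) : (∀ d' ∈ Cfsg.dodecads, d' ≠ d → (d ∩ d').card = 0 ∨ (d ∩ d').card = 4 ∨ (d ∩ d').card = 6 ∨ (d ∩ d').card = 8) ∧ {d' : Finset Cfsg.GolayPt | d' ∈ Cfsg.dodecads ∧ (d ∩ d').card = 4}.ncard = 495 ∧ {d' : Finset Cfsg.GolayPt | d' ∈ Cfsg.dodecads ∧ (d ∩ d').card = 6}.ncard = 1584 ∧ {d' : Finset Cfsg.GolayPt | d' ∈ Cfsg.dodecads ∧ (d ∩ d').card = 8}.ncard = 495 := by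
  obtain ⟨σ, hσ, hσd⟩ := M24_dodecad_transitive hd d0_mem
  have hcount : ∀ k N : ℕ, countBin (fun i => match Nat.beq (pop (enc i)) 12 with
      | true => Nat.beq (pop (Nat.land 340831 (enc i))) k | false => false) 12 0 = N →
      {d' : Finset Cfsg.GolayPt | d' ∈ Cfsg.dodecads ∧ (d ∩ d').card = k}.ncard = N := by
    intro k N h
    have h1 := ncard_dodecads_count (fun m => Nat.beq (pop (Nat.land 340831 m)) k) h
    rw [← h1]
    apply ncard_transfer σ
    intro s
    rw [smul_mem_dodecads hσ, Nat.beq_eq]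
    apply and_congr_right
    intro _
    rw [← card_inter_smul σ d s, hσd, d0, card_inter_mask (by norm_num)]
    rfl
  refine ⟨?_, hcount 4 495 (by decide +kernel), hcount 6 1584 (by decide +kernel), hcount 8 495 (by decide +kernel)⟩
  intro d' hd' hne
  have hd1 := (mem_dodecads_iff.1 hd)
  have hd2 := (mem_dodecads_iff.1 hd')
  have h1 : inCode (maskOf (symmDiff d d')) = true := by
    rw [maskOf_symmDiff]; exact inCode_xor hd1.1 hd2.1
  have hw : (fun m => Nat.beq (pop m) 0 || Nat.beq (pop m) 8 || Nat.beq (pop m) 12 || Nat.beq (pop m) 16 ||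
    Nat.beq (pop m) 24) (maskOf (symmDiff d d')) = true :=
    forall_inCode (p := fun m => Nat.beq (pop m) 0 || Nat.beq (pop m) 8 || Nat.beq (pop m) 12 ||
      Nat.beq (pop m) 16 || Nat.beq (pop m) 24) (by decide +kernel) h1
  simp only [Bool.or_eq_true, Nat.beq_eq, ← card_eq_pop] at hw
  have hc1 : d.card = 12 := by rw [card_eq_pop]; exact hd1.2
  have hc2 : d'.card = 12 := by rw [card_eq_pop]; exact hd2.2
  have e1 : (symmDiff d d').card + 2 * (d ∩ d').card = d.card + d'.card := by
    have a1 : (symmDiff d d').card = (d \ d').card + (d' \ d).card := by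
      rw [symmDiff_def, Finset.sup_eq_union, Finset.card_union_of_disjoint]
      exact disjoint_sdiff_sdiff
    have a2 := Finset.card_sdiff_add_card_inter d d'
    have a3 := Finset.card_sdiff_add_card_inter d' d
    rw [Finset.inter_comm d' d] at a3
    omega
  have hne0 : (symmDiff d d').card ≠ 0 := by
    rw [Ne, Finset.card_eq_zero, ← Finset.bot_eq_empty, symmDiff_eq_bot]
    exact fun h => hne h.symm
  omega

end Cfsg.Agent.S1560
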