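import Cfsg.Statements.S1563
import Cfsg.Agent.M24X.Max

set_option autoImplicit false
open scoped Pointwise
open Cfsg

namespace Cfsg.Agent.S1563

open MulAction Cfsg.Agent.Golay Cfsg.Agent.Golay.Orb Cfsg.Agent.M24X
open scoped Pointwise


/-- The stabiliser of a pair of points (setwise) is a maximal proper subgroup of the group of the length-24 code. -/
theorem result (s : Finset Cfsg.GolayPt) (hs : s.card = 2) : IsCoatom (MulAction.stabilizer Cfsg.M24 s) := by
  have hx : s ∈ {t : Finset GolayPt | t.card = 2} := hs
  have hdec : OrbDec s {t : Finset GolayPt | t.card = 2} ![1, 44, 231] := by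
    refine orbDec_of_fam (fun i : Fin 3 => {t : Finset GolayPt | t.card = 2 ∧ (s ∩ t).card = 2 - i}) ?_ ?_ ?_ ?_ ?_
    · ext t
      simp only [Set.mem_iUnion, Set.mem_setOf_eq]
      constructor
      · intro ht
        have h1 : (s ∩ t).card ≤ 2 := by
          rw [← hs]; exact Finset.card_le_card Finset.inter_subset_left
        refine ⟨⟨2 - (s ∩ t).card, by omega⟩, ht, ?_⟩
        simp only; omega
      · rintro ⟨i, h, -⟩; exact h
    · decide
    · intro i
      rw [ncard_subsets_inter hs 2 _ (Nat.sub_le _ _)]
      fin_cases i <;> rfl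
    · rintro i σ hσ h1 y ⟨hy1, hy2⟩
      refine ⟨by rw [Finset.card_smul_finset]; exact hy1, ?_⟩
      rw [← hy2]
      conv_lhs => rw [← h1]
      exact card_inter_smul _ _ _
    · rintro i y ⟨hy1, hy2⟩ y' ⟨hy1', hy2'⟩
      refine exists_map_two rfl (by rw [hy1, hy1']) (by rw [hy2, hy2']) ?_
      have := Finset.card_union_le s y
      omega
  refine isCoatom_of_orbDec (isOrb_subsets (by norm_num)) hx hdec (N := 276) ?_ (by decide) (by norm_num) (by decide)
  rw [ncard_subsets]; rfl

end Cfsg.Agent.S1563
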