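import Cfsg.Statements.S1564
import Cfsg.Agent.M24X.Triad

set_option autoImplicit false
open scoped Pointwise
open Cfsg

namespace Cfsg.Agent.S1564

open MulAction Cfsg.Agent.Golay Cfsg.Agent.Golay.Orb Cfsg.Agent.M24X
open scoped Pointwise


/-- The stabiliser of a set of three points (setwise) is a maximal proper subgroup of the group of the length-24 code. -/
theorem result (s : Finset Cfsg.GolayPt) (hs : s.card = 3) : IsCoatom (MulAction.stabilizer Cfsg.M24 s) := by
  have hdec : OrbDec s {t : Finset GolayPt | t.card = 3} ![1, 63, 630, 210, 1120] := by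
    have c3 : ∀ j : Fin 4, {t : Finset GolayPt | t.card = 3 ∧ (s ∩ t).card = j}.ncard =
        ![1330, 630, 63, 1] j := by
      intro j
      rw [ncard_subsets_inter hs 3 _ (by omega)]
      fin_cases j <;> rfl
    have kinv : ∀ k σ, σ ∈ M24 → σ • s = s → ∀ y ∈ {t : Finset GolayPt | t.card = 3 ∧ (s ∩ t).card = k},
        σ • y ∈ {t : Finset GolayPt | t.card = 3 ∧ (s ∩ t).card = k} := by
      rintro k σ hσ h1 y ⟨hy1, hy2⟩
      refine ⟨by rw [Finset.card_smul_finset]; exact hy1, ?_⟩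
      rw [← hy2]
      conv_lhs => rw [← h1]
      exact card_inter_smul _ _ _
    have ktr : ∀ k, 0 < k → ∀ y ∈ {t : Finset GolayPt | t.card = 3 ∧ (s ∩ t).card = k},
        ∀ y' ∈ {t : Finset GolayPt | t.card = 3 ∧ (s ∩ t).card = k}, ∃ σ ∈ M24, σ • s = s ∧ σ • y = y' := by
      rintro k hk y ⟨hy1, hy2⟩ y' ⟨hy1', hy2'⟩
      refine exists_map_two rfl (by rw [hy1, hy1']) (by rw [hy2, hy2']) ?_
      have := Finset.card_union_add_card_inter s y
      omega
    have oinv : ∀ σ ∈ M24, σ • s = s → ∀ y : Finset GolayPt, (∃ o ∈ octads, s ∪ y ⊆ o) →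
        (∃ o ∈ octads, s ∪ σ • y ⊆ o) := by
      rintro σ hσ h1 y ⟨o, ho, h⟩
      refine ⟨σ • o, (smul_mem_octads hσ).2 ho, ?_⟩
      have : s ∪ σ • y = σ • (s ∪ y) := by rw [Finset.smul_finset_union, h1]
      rw [this]
      exact Finset.smul_finset_subset_smul_finset h
    have dinv : ∀ σ ∈ M24, σ • s = s → ∀ y : Finset GolayPt, Disjoint s y → Disjoint s (σ • y) := by
      intro σ hσ h1 y hy
      have := Finset.disjoint_iff_inter_eq_empty.1 hy
      rw [Finset.disjoint_iff_inter_eq_empty]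
      have e1 : s ∩ σ • y = σ • (s ∩ y) := by rw [Finset.smul_finset_inter, h1]
      rw [e1, this, Finset.smul_finset_empty]
    refine orbDec_of_fam ![{t : Finset GolayPt | t.card = 3 ∧ (s ∩ t).card = 3},
      {t : Finset GolayPt | t.card = 3 ∧ (s ∩ t).card = 2}, {t : Finset GolayPt | t.card = 3 ∧ (s ∩ t).card = 1},
      {U : Finset GolayPt | U.card = 3 ∧ Disjoint s U ∧ (∃ o ∈ octads, s ∪ U ⊆ o)},
      {U : Finset GolayPt | U.card = 3 ∧ Disjoint s U ∧ ¬ (∃ o ∈ octads, s ∪ U ⊆ o)}] ?_ (by decide) ?_ ?_ ?_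
    · ext t
      rw [Set.mem_iUnion, Fin.exists_fin_succ, Fin.exists_fin_succ, Fin.exists_fin_succ, Fin.exists_fin_succ,
        Fin.exists_fin_succ]
      constructor
      · intro ht
        have h1 : (s ∩ t).card ≤ 3 := by
          rw [← hs]; exact Finset.card_le_card Finset.inter_subset_left
        have h2 : (s ∩ t).card = 3 ∨ (s ∩ t).card = 2 ∨ (s ∩ t).card = 1 ∨ (s ∩ t).card = 0 := by omega
        rcases h2 with h | h | h | h
        · left; exact ⟨ht, h⟩
        · right; left; exact ⟨ht, h⟩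
        · right; right; left; exact ⟨ht, h⟩
        · rw [Finset.card_eq_zero, ← Finset.disjoint_iff_inter_eq_empty] at h
          by_cases ho : ∃ o ∈ octads, s ∪ t ⊆ o
          · right; right; right; left; exact ⟨ht, h, ho⟩
          · right; right; right; right; left; exact ⟨ht, h, ho⟩
      · rintro (h | h | h | h | h | ⟨i, -⟩)
        · exact h.1
        · exact h.1
        · exact h.1
        · exact h.1
        · exact h.1
        · exact i.elim0
    · rw [Fin.forall_fin_succ, Fin.forall_fin_succ, Fin.forall_fin_succ, Fin.forall_fin_succ, Fin.forall_fin_succ]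
      exact ⟨c3 3, c3 2, c3 1, ncard_triad_in hs, ncard_triad_out hs, fun i => i.elim0⟩
    · rw [Fin.forall_fin_succ, Fin.forall_fin_succ, Fin.forall_fin_succ, Fin.forall_fin_succ, Fin.forall_fin_succ]
      refine ⟨kinv 3, kinv 2, kinv 1, ?_, ?_, fun i => i.elim0⟩
      · rintro σ hσ h1 y ⟨h2, h3, h4⟩
        exact ⟨by rw [Finset.card_smul_finset]; exact h2, dinv σ hσ h1 y h3, oinv σ hσ h1 y h4⟩
      · rintro σ hσ h1 y ⟨h2, h3, h4⟩
        refine ⟨by rw [Finset.card_smul_finset]; exact h2, dinv σ hσ h1 y h3, fun h5 => h4 ?_⟩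
        have h6 := oinv σ⁻¹ (M24.inv_mem hσ) (by rw [inv_smul_eq_iff, h1]) _ h5
        rwa [inv_smul_smul] at h6
    · rw [Fin.forall_fin_succ, Fin.forall_fin_succ, Fin.forall_fin_succ, Fin.forall_fin_succ, Fin.forall_fin_succ]
      refine ⟨ktr 3 (by norm_num), ktr 2 (by norm_num), ktr 1 (by norm_num), ?_, ?_, fun i => i.elim0⟩
      · rintro y ⟨h2, h3, h4⟩ y' ⟨h2', h3', h4'⟩
        exact triad_pair hs h2 h3 hs h2' h3' ⟨fun _ => h4', fun _ => h4⟩
      · rintro y ⟨h2, h3, h4⟩ y' ⟨h2', h3', h4'⟩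
        exact triad_pair hs h2 h3 hs h2' h3' ⟨fun h => absurd h h4, fun h => absurd h h4'⟩
  refine isCoatom_of_orbDec (isOrb_subsets (by norm_num)) (x := s) hs hdec (N := 2024) ?_ (by decide) (by norm_num) (by decide)
  rw [ncard_subsets]; rfl

end Cfsg.Agent.S1564
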