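import Cfsg.Statements.S1565
import Cfsg.Agent.M24X.Max

set_option autoImplicit false
open scoped Pointwise
open Cfsg

namespace Cfsg.Agent.S1565

open MulAction Cfsg.Agent.Golay Cfsg.Agent.Golay.Orb Cfsg.Agent.M24X
open scoped Pointwise


/-- The stabiliser of an octad is a maximal proper subgroup of the group of the length-24 code. -/
theorem result (o : Finset Cfsg.GolayPt) (ho : o ∈ Cfsg.octads) : IsCoatom (MulAction.stabilizer Cfsg.M24 o) := by
  have hdec : OrbDec o octads ![1, 280, 448, 30] := by
    refine orbDec_of_fam ![{o}, {x | x ∈ octads ∧ (o ∩ x).card = 4}, {x | x ∈ octads ∧ (o ∩ x).card = 2},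
      {x | x ∈ octads ∧ (o ∩ x).card = 0}] ?_ (by decide) ?_ ?_ ?_
    · ext x
      rw [Set.mem_iUnion, Fin.exists_fin_succ, Fin.exists_fin_succ, Fin.exists_fin_succ, Fin.exists_fin_succ]
      constructor
      · intro hx
        by_cases h : x = o
        · left; exact h
        · rcases octad_inter_cases ho hx (Ne.symm h) with h1 | h1 | h1
          · right; right; right; left; exact ⟨hx, h1⟩
          · right; right; left; exact ⟨hx, h1⟩
          · right; left; exact ⟨hx, h1⟩
      · rintro (h | h | h | h | ⟨i, -⟩)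
        · have : x = o := h
          rw [this]; exact ho
        · exact h.1
        · exact h.1
        · exact h.1
        · exact i.elim0
    · rw [Fin.forall_fin_succ, Fin.forall_fin_succ, Fin.forall_fin_succ, Fin.forall_fin_succ]
      refine ⟨Set.ncard_singleton _, ncard_octads_inter 4 280 (card_octads_inter_four ho),
        ncard_octads_inter 2 448 (card_octads_inter_two ho),
        ncard_octads_inter 0 30 (card_octads_inter_zero ho), fun i => i.elim0⟩
    · have key : ∀ k σ, σ ∈ M24 → σ • o = o → ∀ y ∈ {x | x ∈ octads ∧ (o ∩ x).card = k},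
          σ • y ∈ {x | x ∈ octads ∧ (o ∩ x).card = k} := by
        rintro k σ hσ h1 y ⟨hy1, hy2⟩
        refine ⟨(smul_mem_octads hσ).2 hy1, ?_⟩
        rw [← hy2]
        conv_lhs => rw [← h1]
        exact card_inter_smul _ _ _
      rw [Fin.forall_fin_succ, Fin.forall_fin_succ, Fin.forall_fin_succ, Fin.forall_fin_succ]
      refine ⟨?_, key 4, key 2, key 0, fun i => i.elim0⟩
      intro σ _ h1 y hy
      have : y = o := hy
      rw [this, h1]; exact Set.mem_singleton _
    · have key : ∀ k, ∀ y ∈ {x | x ∈ octads ∧ (o ∩ x).card = k}, ∀ y' ∈ {x | x ∈ octads ∧ (o ∩ x).card = k},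
          ∃ σ ∈ M24, σ • o = o ∧ σ • y = y' := by
        rintro k y ⟨hy1, hy2⟩ y' ⟨hy1', hy2'⟩
        exact oct_pair_trans ho hy1 ho hy1' (by rw [hy2, hy2'])
      rw [Fin.forall_fin_succ, Fin.forall_fin_succ, Fin.forall_fin_succ, Fin.forall_fin_succ]
      refine ⟨?_, key 4, key 2, key 0, fun i => i.elim0⟩
      intro y hy y' hy'
      have e1 : y = o := hy
      have e2 : y' = o := hy'
      exact ⟨1, M24.one_mem, one_smul _ _, by rw [one_smul, e1, e2]⟩
  exact isCoatom_of_orbDec isOrb_octads ho hdec (N := 759) ncard_octads (by decide) (by norm_num) (by decide)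

end Cfsg.Agent.S1565
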