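import Cfsg.Statements.S1566
import Cfsg.Agent.M24X.DodPair

set_option autoImplicit false
open scoped Pointwise
open Cfsg

namespace Cfsg.Agent.S1566

open MulAction Cfsg.Agent.Golay Cfsg.Agent.Golay.Orb Cfsg.Agent.M24X
open scoped Pointwise


/-- The setwise stabiliser of a dodecad together with its complement is a maximal proper subgroup of the group of the length-24 code. -/
theorem result (d : Finset Cfsg.GolayPt) (hd : d ∈ Cfsg.dodecads) : IsCoatom (MulAction.stabilizer Cfsg.M24 ({d, dᶜ} : Finset (Finset Cfsg.GolayPt))) := by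
  exact isCoatom_of_orbDec isOrb_dpairs ⟨d, hd, rfl⟩ (dpair_pairs hd) (N := 1288) ncard_dpairs (by decide)
    (by norm_num) (by decide)

end Cfsg.Agent.S1566
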