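import Cfsg.Statements.S1571
import Cfsg.Agent.Leech.CrossStab

set_option autoImplicit false
open scoped Pointwise
open Cfsg

namespace Cfsg.Agent.S1571

/-- The stabiliser of the standard cross in the automorphism group of the lattice is the monomial group of the code: each of its elements acts as a signed permutation with permutation part in the code's group and sign set a codeword, and it has order 4096 · 244823040. -/
theorem result : (∀ g : ↥Cfsg.Co0, (∀ v : ↥Cfsg.leechLattice, (v : Cfsg.GolayPt → ℤ) ∈ Cfsg.stdCross → ((g • v : ↥Cfsg.leechLattice) : Cfsg.GolayPt → ℤ) ∈ Cfsg.stdCross) → ∃ f ∈ Cfsg.golayMonomialMaps, ∀ v : ↥Cfsg.leechLattice, ((g • v : ↥Cfsg.leechLattice) : Cfsg.GolayPt → ℤ) = f (v : Cfsg.GolayPt → ℤ)) ∧ Nat.card {g : ↥Cfsg.Co0 // (∀ v : ↥Cfsg.leechLattice, (v : Cfsg.GolayPt → ℤ) ∈ Cfsg.stdCross → ((g • v : ↥Cfsg.leechLattice) : Cfsg.GolayPt → ℤ) ∈ Cfsg.stdCross)} = 4096 * 244823040 := by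
  refine ⟨fun g hg => ?_, ?_⟩
  · obtain ⟨c, hc, σ, hσ, rfl⟩ := Leech.mem_crossStab_mono ((Leech.mem_crossStab_iff g).2 hg)
    refine ⟨signedPerm σ (support₂ c), ⟨σ, hσ, support₂ c, ⟨c, hc, rfl⟩, rfl⟩, fun v => ?_⟩
    funext i
    rw [Leech.mono_smul]
    unfold signedPerm
    by_cases h : c i = 0
    · rw [(Leech.lift_eq_zero_iff c i).2 h, if_neg (by simp [support₂, h])]; ring
    · rw [(Leech.lift_eq_one_iff c i).2 h, if_pos (by simp [support₂, h])]; ring
  · rw [← Leech.card_crossStab]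
    apply Nat.card_congr
    exact Equiv.subtypeEquivRight (fun g => (Leech.mem_crossStab_iff g).symm)

end Cfsg.Agent.S1571
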