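import Cfsg.Statements.S1573
import Cfsg.Agent.Leech.Census

set_option autoImplicit false
open Cfsg

namespace Cfsg.Agent.S1573

/-- Census of minimal vectors by inner product with a fixed minimal vector: 4600 have customary inner product −2, 47104 have −1, and 93150 are orthogonal. -/
theorem result (v : Cfsg.GolayPt → ℤ) (hv : v ∈ Cfsg.leechLattice) (hvn : Cfsg.sqNorm v = 32) : {w : Cfsg.GolayPt → ℤ | w ∈ Cfsg.leechLattice ∧ Cfsg.sqNorm w = 32 ∧ Cfsg.dotInt v w = -16}.ncard = 4600 ∧ {w : Cfsg.GolayPt → ℤ | w ∈ Cfsg.leechLattice ∧ Cfsg.sqNorm w = 32 ∧ Cfsg.dotInt v w = -8}.ncard = 47104 ∧ {w : Cfsg.GolayPt → ℤ | w ∈ Cfsg.leechLattice ∧ Cfsg.sqNorm w = 32 ∧ Cfsg.dotInt v w = 0}.ncard = 93150 := by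
  obtain ⟨g, hg⟩ := Leech.trans_32 ⟨v, hv⟩ Spor.leechU' hvn Leech.norm_leechU'
  have key : ∀ t : ℤ, {w : GolayPt → ℤ | w ∈ leechLattice ∧ sqNorm w = 32 ∧ dotInt v w = t}.ncard =
      {x : GolayPt → ℤ | x ∈ leechLattice ∧ sqNorm x = 32 ∧ dotInt Spor.vecU' x = t ∧ dotInt 0 x = 0 ∧
        dotInt 0 x = 0}.ncard := by
    intro t
    rw [← Leech.ncard_lattice (fun w => sqNorm w = 32 ∧ dotInt v w = t),
      ← Leech.ncard_lattice (fun x => sqNorm x = 32 ∧ dotInt Spor.vecU' x = t ∧ dotInt 0 x = 0 ∧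
        dotInt 0 x = 0)]
    apply Leech.ncard_transport g
    intro x
    have h1 := Leech.co0_dot g ⟨v, hv⟩ x
    rw [hg] at h1
    have h0 : ∀ y : GolayPt → ℤ, dotInt 0 y = 0 := fun y => by simp [dotInt]
    show (sqNorm (x : GolayPt → ℤ) = 32 ∧ dotInt v x = t) ↔ (sqNorm ((g • x : leechLattice) : GolayPt → ℤ) = 32 ∧
      dotInt Spor.vecU' ((g • x : leechLattice) : GolayPt → ℤ) = t ∧ dotInt 0 _ = 0 ∧ dotInt 0 _ = 0)
    rw [Leech.co0_norm, h0]
    have h2 : dotInt Spor.vecU' ((g • x : leechLattice) : GolayPt → ℤ) = dotInt v x := h1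
    rw [h2]
    simp
  rw [key, key, key]
  exact ⟨Leech.census_32_16, Leech.census_32_8, Leech.census_32_0⟩

end Cfsg.Agent.S1573
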