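import Cfsg.Statements.S1588
import Cfsg.Agent.Leech.ModTwoAux

set_option autoImplicit false
open Matrix
open Cfsg

namespace Cfsg.Agent.S1588

/-- Second step of the characterisation: under the vector counts of the rank-24 lattice, the norm-8 vectors fall into congruence classes of exactly 48 modulo twice the lattice. -/
theorem result (B : Matrix (Fin 24) (Fin 24) ℤ) (hsymm : B.IsSymm) (hpos : ∀ x : Fin 24 → ℤ, x ≠ 0 → 0 < x ⬝ᵥ (B *ᵥ x)) (heven : ∀ x : Fin 24 → ℤ, (2 : ℤ) ∣ x ⬝ᵥ (B *ᵥ x)) (h2 : ∀ x : Fin 24 → ℤ, x ⬝ᵥ (B *ᵥ x) ≠ 2) (h4 : {x : Fin 24 → ℤ | x ⬝ᵥ (B *ᵥ x) = 4}.ncard = 196560) (h6 : {x : Fin 24 → ℤ | x ⬝ᵥ (B *ᵥ x) = 6}.ncard = 16773120) (h8 : {x : Fin 24 → ℤ | x ⬝ᵥ (B *ᵥ x) = 8}.ncard = 398034000) (x : Fin 24 → ℤ) (hx : x ⬝ᵥ (B *ᵥ x) = 8) : {y : Fin 24 → ℤ | y ⬝ᵥ (B *ᵥ y) = 8 ∧ ∀ i, (2 : ℤ) ∣ (x - y) i}.ncard = 48 := by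
  have hsym : ∀ x y : Fin 24 → ℤ, y ⬝ᵥ (B *ᵥ x) = x ⬝ᵥ (B *ᵥ y) := by
    intro x y
    rw [Matrix.dotProduct_mulVec, ← Matrix.mulVec_transpose, hsymm.eq, dotProduct_comm]
  have hb : Leech.LatForm (fun x y : Fin 24 → ℤ => x ⬝ᵥ (B *ᵥ y)) := by
    refine ⟨fun x y z => ?_, fun x y => hsym y x, fun x hx => ?_⟩
    · simp only [add_dotProduct]
    · have h1 := hpos x hx
      have h3 := h2 x
      obtain ⟨k, hk⟩ := heven x
      omega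
  have h := (Leech.main_count hb ?_ ?_ h4 h6 h8).1 x hx
  · have : {y : Fin 24 → ℤ | y ⬝ᵥ (B *ᵥ y) = 8 ∧ ∀ i, (2 : ℤ) ∣ (x - y) i} =
        {y : Fin 24 → ℤ | y ⬝ᵥ (B *ᵥ y) = 8 ∧ Leech.Cong2 x y} := by
      ext y
      simp only [Set.mem_ofPred_eq]
      apply and_congr_right
      intro _
      constructor
      · intro h
        choose z hz using h
        exact ⟨z, by ext i; rw [hz i]; simp⟩
      · rintro ⟨z, hz⟩ i
        rw [hz]; exact ⟨z i, by simp⟩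
    rw [this]; exact h
  · intro P h0 ho
    have := Leech.orth_card_le hb P h0 ho
    simpa using this
  · rw [Leech.twoSub_pi_index]; simp

end Cfsg.Agent.S1588
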