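import Cfsg.Statements.S1589
import Cfsg.Agent.S1565
import Cfsg.Agent.M24X.Idx2

set_option autoImplicit false
open scoped Pointwise
open Cfsg

namespace Cfsg.Agent.S1589

open Cfsg.Agent.M24X Cfsg.Agent.M24X.L223

theorem card_of_index {H : Subgroup M24} {n m : ℕ} (h : H.index = n) (hn : n * m = 244823040) (h0 : 0 < n) :
    Nat.card H = m := by
  have h1 := H.card_mul_index
  rw [h, card_M24x, ← hn, mul_comm] at h1
  exact Nat.eq_of_mul_eq_mul_left h0 h1

/-- Subgroups of the group of the length-24 code of index 759, 276 and 1771 are exactly the octad, duad and sextet stabilisers, and no subgroup has index 253. -/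
theorem result : (∀ H : Subgroup ↥Cfsg.M24, H.index = 759 → ∃ o ∈ Cfsg.octads, H = MulAction.stabilizer Cfsg.M24 o) ∧ (∀ H : Subgroup ↥Cfsg.M24, H.index = 276 → ∃ s : Finset Cfsg.GolayPt, s.card = 2 ∧ H = MulAction.stabilizer Cfsg.M24 s) ∧ (∀ H : Subgroup ↥Cfsg.M24, H.index = 1771 → ∃ S ∈ Cfsg.sextets, H = MulAction.stabilizer Cfsg.M24 S) ∧ ∀ H : Subgroup ↥Cfsg.M24, H.index ≠ 253 := by
  refine ⟨fun H h => Idx.idx759 (card_of_index h (by norm_num) (by norm_num)),
    fun H h => Idx.idx276 (card_of_index h (by norm_num) (by norm_num)),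
    fun H h => Idx.idx1771 (card_of_index h (by norm_num) (by norm_num)), fun H h => ?_⟩
  exact Idx.idx253 (fun o ho => Cfsg.Agent.S1565.result o ho) (card_of_index h (by norm_num) (by norm_num))

end Cfsg.Agent.S1589
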