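import Cfsg.Statements.S1593
import Cfsg.Agent.H91.TernHex


set_option autoImplicit false
open Cfsg

namespace Cfsg.Agent.S1593

open Cfsg.Agent.H91.Tern

theorem unit_cases : ∀ u : (ZMod 3)ˣ, u = 1 ∨ u = -1 := by decide


/-- The only sign changes preserving the length-12 ternary code are the identity and negation of all coordinates. -/
theorem result (c : Cfsg.ArrayPt → (ZMod 3)ˣ) (h : (∀ x ∈ Cfsg.ternaryGolayCode, Cfsg.monomialMap 1 c x ∈ Cfsg.ternaryGolayCode)) : (∀ p, c p = 1) ∨ (∀ p, c p = -1) := by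
  have h1 := diag_const h
  rcases unit_cases (c (0, 0)) with h2 | h2
  · left; intro p; rw [h1 p (0, 0), h2]
  · right; intro p; rw [h1 p (0, 0), h2]

end Cfsg.Agent.S1593
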