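import Cfsg.Statements.S1595
import Cfsg.Agent.H91.Steiner12


set_option autoImplicit false
open Cfsg

namespace Cfsg.Agent.S1595

open Cfsg.Agent.H91.Steiner12


/-- Leech triangle of S(5, 6, 12): blocks meet in 0, 2, 3 or 4 points, and a block is met exactly in a given 2-, 3- or 4-subset by 3, 2, 3 blocks respectively. -/
theorem result {α : Type*} [Fintype α] [DecidableEq α] (hα : Fintype.card α = 12) {B : Set (Finset α)} (hB : Cfsg.IsSteinerSystem 5 6 B) (b : Finset α) (hb : b ∈ B) : (∀ c ∈ B, c ≠ b → (b ∩ c).card = 0 ∨ (b ∩ c).card = 2 ∨ (b ∩ c).card = 3 ∨ (b ∩ c).card = 4) ∧ ∀ s ⊆ b, (s.card = 2 → {c : Finset α | c ∈ B ∧ b ∩ c = s}.ncard = 3) ∧ (s.card = 3 → {c : Finset α | c ∈ B ∧ b ∩ c = s}.ncard = 2) ∧ (s.card = 4 → {c : Finset α | c ∈ B ∧ b ∩ c = s}.ncard = 3) := by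
  refine ⟨?_, ?_⟩
  · intro c hc hne
    have h1 := card_meet hα hB hb (s := b ∩ c) Finset.inter_subset_left
    have h2 : (meet B b (b ∩ c)).card ≠ 0 := by
      rw [Finset.card_ne_zero]
      exact ⟨c, mem_meet.2 ⟨hc, rfl⟩⟩
    have h3 : (b ∩ c).card ≤ 6 := (hB.1 b hb) ▸ Finset.card_le_card Finset.inter_subset_left
    have h6 : (b ∩ c).card ≠ 6 := by
      intro h6
      have h7 : b ∩ c = b := Finset.eq_of_subset_of_card_le Finset.inter_subset_left (by rw [h6, hB.1 b hb])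
      have h8 : b ∩ c = c := Finset.eq_of_subset_of_card_le Finset.inter_subset_right (by rw [h6, hB.1 c hc])
      exact hne (h8.symm.trans h7)
    rw [h1] at h2
    have h5 : (b ∩ c).card ≠ 5 := fun h => h2 (by rw [h]; rfl)
    have h11 : (b ∩ c).card ≠ 1 := fun h => h2 (by rw [h]; rfl)
    omega
  · intro s hs
    rw [ncard_meet, card_meet hα hB hb hs]
    refine ⟨fun h => by rw [h]; rfl, fun h => by rw [h]; rfl, fun h => by rw [h]; rfl⟩

end Cfsg.Agent.S1595
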