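import Cfsg.Statements.S1596
import Cfsg.Agent.M24X.QuartMain

set_option autoImplicit false
open scoped Pointwise
open Cfsg

namespace Cfsg.Agent.S1596

open MulAction Cfsg.Agent.Golay Cfsg.Agent.Golay.Orb Cfsg.Agent.M24X
open scoped Pointwise


/-- A quartet of a dodecad is determined by any two of its triples: two disjoint triples uniting to a hexad extend to exactly one quartet. -/
theorem result (d : Finset Cfsg.GolayPt) (hd : d ∈ Cfsg.dodecads) (t u : Finset Cfsg.GolayPt) (ht : t.card = 3) (hu : u.card = 3) (htu : Disjoint t u) (hh : t ∪ u ∈ Cfsg.hexadsOn d) : ∃! Q : Finset (Finset Cfsg.GolayPt), Q ∈ Cfsg.quartets d ∧ t ∈ Q ∧ u ∈ Q := by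
  have htu' : t ≠ u := by
    rintro rfl
    rw [disjoint_self] at htu
    rw [htu] at ht
    exact absurd ht (by simp)
  obtain ⟨t₀, u₀, ht₀, hu₀, hne⟩ := Finset.one_lt_card_iff.1 (show 1 < Q₀.card by rw [Q₀_mem.1]; norm_num)
  obtain ⟨g, hg, h1, h2, h3⟩ := triple_pair_trans d0_mem hd (Q₀_mem.2.1 t₀ ht₀).1 (Q₀_mem.2.1 u₀ hu₀).1
    (quartet_disjoint Q₀_mem ht₀ hu₀ hne) (Q₀_mem.2.2 t₀ ht₀ u₀ hu₀ hne) ht hu htu hh
  have h4 := smul_quartets hg Q₀_mem
  rw [h1] at h4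
  refine ⟨g • Q₀, ⟨h4, ?_, ?_⟩, ?_⟩
  · rw [← h2]; exact Finset.smul_mem_smul_finset ht₀
  · rw [← h3]; exact Finset.smul_mem_smul_finset hu₀
  · rintro Q ⟨hQ, h5, h6⟩
    apply quartet_unique hd hQ h4 h5 h6 htu'
    · rw [← h2]; exact Finset.smul_mem_smul_finset ht₀
    · rw [← h3]; exact Finset.smul_mem_smul_finset hu₀

end Cfsg.Agent.S1596
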