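import Cfsg.Statements.S1599
import Cfsg.Agent.M24X.QuartMain

set_option autoImplicit false
open scoped Pointwise
open Cfsg

namespace Cfsg.Agent.S1599

open MulAction Cfsg.Agent.Golay Cfsg.Agent.Golay.Orb Cfsg.Agent.M24X
open scoped Pointwise


/-- A quartet stabiliser has five orbits on the quartets of its dodecad, of sizes 1, 12, 27, 72, 108. -/
theorem result (d : Finset Cfsg.GolayPt) (hd : d ∈ Cfsg.dodecads) (Q : Finset (Finset Cfsg.GolayPt)) (hQ : Q ∈ Cfsg.quartets d) : ∃ X₁ ∈ Cfsg.quartets d, ∃ X₂ ∈ Cfsg.quartets d, ∃ X₃ ∈ Cfsg.quartets d, ∃ X₄ ∈ Cfsg.quartets d, (MulAction.orbit ↥(MulAction.stabilizer Cfsg.M24 d ⊓ MulAction.stabilizer Cfsg.M24 Q) X₁).ncard = 12 ∧ (MulAction.orbit ↥(MulAction.stabilizer Cfsg.M24 d ⊓ MulAction.stabilizer Cfsg.M24 Q) X₂).ncard = 27 ∧ (MulAction.orbit ↥(MulAction.stabilizer Cfsg.M24 d ⊓ MulAction.stabilizer Cfsg.M24 Q) X₃).ncard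 = 72 ∧ (MulAction.orbit ↥(MulAction.stabilizer Cfsg.M24 d ⊓ MulAction.stabilizer Cfsg.M24 Q) X₄).ncard = 108 ∧ Cfsg.quartets d = {Q} ∪ MulAction.orbit ↥(MulAction.stabilizer Cfsg.M24 d ⊓ MulAction.stabilizer Cfsg.M24 Q) X₁ ∪ MulAction.orbit ↥(MulAction.stabilizer Cfsg.M24 d ⊓ MulAction.stabilizer Cfsg.M24 Q) X₂ ∪ MulAction.orbit ↥(MulAction.stabilizer Cfsg.M24 d ⊓ MulAction.stabilizer Cfsg.M24 Q) X₃ ∪ MulAction.orbit ↥(MulAction.stabilizer Cfsg.M24 d ⊓ MulAction.stabilizer Cfsg.M24 Q) X₄ := by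
  obtain ⟨X, h0, h1, h2, h3⟩ := quartet_orbits hd hQ
  refine ⟨X 1, h1 1, X 2, h1 2, X 3, h1 3, X 4, h1 4, h2 1, h2 2, h2 3, h2 4, ?_⟩
  have h4 : orbit (MulAction.stabilizer Cfsg.M24 d ⊓ MulAction.stabilizer Cfsg.M24 Q : Subgroup Cfsg.M24) (X 0) = {Q} := by
    have h5 : (orbit (KQ d Q) (X 0)).ncard = 1 := h2 0
    rw [Set.ncard_eq_one] at h5
    obtain ⟨a, ha⟩ := h5
    have h6 : X 0 ∈ orbit (KQ d Q) (X 0) := mem_orbit_self _
    rw [ha, Set.mem_singleton_iff] at h6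
    rw [← h6, h0] at ha
    rw [h0]
    exact ha
  conv_lhs => rw [h3]
  ext z
  simp only [Set.mem_iUnion, Fin.exists_fin_succ, Fin.exists_fin_zero, or_false, Set.mem_union]
  rw [← h4]
  simp only [or_assoc]
  exact Iff.rfl

end Cfsg.Agent.S1599
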