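import Cfsg.Statements.S1606
import Cfsg.Agent.M24X.M22sub

set_option autoImplicit false
open scoped Pointwise
open Cfsg

namespace Cfsg.Agent.S1606

/-- The stabiliser of two points in the group of the length-24 code has no subgroups of index 56 or 210. -/
theorem result (p q : Cfsg.GolayPt) (hpq : p ≠ q) (H : Subgroup ↥(MulAction.stabilizer Cfsg.M24 p ⊓ MulAction.stabilizer Cfsg.M24 q)) : H.index ≠ 56 ∧ H.index ≠ 210 := by
  have hs : ({p, q} : Finset Cfsg.GolayPt).card = 2 := Finset.card_pair hpq
  have hFX : M24X.FX {p, q} = MulAction.stabilizer Cfsg.M24 p ⊓ MulAction.stabilizer Cfsg.M24 q := by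
    ext g
    rw [M24X.mem_FX, Subgroup.mem_inf, MulAction.mem_stabilizer_iff, MulAction.mem_stabilizer_iff]
    simp
  have hJ : H.map (MulAction.stabilizer Cfsg.M24 p ⊓ MulAction.stabilizer Cfsg.M24 q).subtype
      ≤ M24X.FX {p, q} := by
    rw [hFX]
    rintro _ ⟨x, -, rfl⟩
    exact x.2
  have hcJ : Nat.card (H.map (MulAction.stabilizer Cfsg.M24 p ⊓ MulAction.stabilizer Cfsg.M24 q).subtype)
      = Nat.card H := Subgroup.card_map_of_injective (Subgroup.subtype_injective _)
  have hG : Nat.card (MulAction.stabilizer Cfsg.M24 p ⊓ MulAction.stabilizer Cfsg.M24 q : Subgroup Cfsg.M24)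
      = 443520 := by rw [← hFX, M24X.card_FX2 hs]
  have hmul := H.card_mul_index
  rw [hG] at hmul
  constructor
  · intro h
    rw [h] at hmul
    exact M24X.no7920 hs hJ (by rw [hcJ]; omega)
  · intro h
    rw [h] at hmul
    exact M24X.no2112 hs hJ (by rw [hcJ]; omega)

end Cfsg.Agent.S1606
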