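import Cfsg.Statements.S1609
import Cfsg.Agent.M24X.M23sub

set_option autoImplicit false
open scoped Pointwise
open Cfsg

namespace Cfsg.Agent.S1609

/-- Subgroups of index 253 in the Mathieu group of degree 23 are exactly the duad stabilisers and the heptad stabilisers. -/
theorem result (x : Cfsg.GolayPt) (H : Subgroup ↥(MulAction.stabilizer Cfsg.M24 x)) (hH : H.index = 253) : (∃ s : Finset Cfsg.GolayPt, s.card = 2 ∧ x ∉ s ∧ H = (MulAction.stabilizer Cfsg.M24 s).subgroupOf (MulAction.stabilizer Cfsg.M24 x)) ∨ ∃ o ∈ Cfsg.octads, x ∈ o ∧ H = (MulAction.stabilizer Cfsg.M24 o).subgroupOf (MulAction.stabilizer Cfsg.M24 x) := by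
  have hFX : M24X.FX {x} = MulAction.stabilizer Cfsg.M24 x := by
    ext g
    rw [M24X.mem_FX, MulAction.mem_stabilizer_iff]
    simp
  have hJ : H.map (MulAction.stabilizer Cfsg.M24 x).subtype ≤ M24X.FX {x} := by
    rw [hFX]
    rintro _ ⟨g, -, rfl⟩
    exact g.2
  have hcJ : Nat.card (H.map (MulAction.stabilizer Cfsg.M24 x).subtype)
      = Nat.card H := Subgroup.card_map_of_injective (Subgroup.subtype_injective _)
  have hG : Nat.card (MulAction.stabilizer Cfsg.M24 x) = 10200960 := by
    rw [← hFX, M24X.card_FX1 (Finset.card_singleton x)]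
  have hmul := H.card_mul_index
  rw [hG, hH] at hmul
  have hcH : Nat.card H = 40320 := by omega
  have key : ∀ K : Subgroup Cfsg.M24, H.map (MulAction.stabilizer Cfsg.M24 x).subtype ≤ K →
      Nat.card (MulAction.stabilizer Cfsg.M24 x ⊓ K : Subgroup Cfsg.M24) ≤ 40320 →
      H = K.subgroupOf (MulAction.stabilizer Cfsg.M24 x) := by
    intro K hK hc
    apply Subgroup.eq_of_le_of_card_ge
    · intro g hg
      rw [Subgroup.mem_subgroupOf]
      exact hK ⟨g, hg, rfl⟩
    · rw [hcH]
      have h1 : (K.subgroupOf (MulAction.stabilizer Cfsg.M24 x)).map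
          (MulAction.stabilizer Cfsg.M24 x).subtype = MulAction.stabilizer Cfsg.M24 x ⊓ K := by
        rw [Subgroup.subgroupOf_map_subtype, inf_comm]
      rw [← h1, Subgroup.card_map_of_injective (Subgroup.subtype_injective _)] at hc
      exact hc
  rcases M24X.order40320 hJ (hcJ.trans hcH) with ⟨d, hd, hxd, hle⟩ | ⟨o, ho, hxo, hle⟩
  · left
    exact ⟨d, hd, hxd, key _ hle (M24X.card_duad_le hd hxd)⟩
  · right
    exact ⟨o, ho, hxo, key _ hle (M24X.card_heptad ho hxo).le⟩

end Cfsg.Agent.S1609
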