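import Cfsg.Statements.S1613
import Cfsg.Agent.ThreeTransp.Fischer

set_option autoImplicit false
open Cfsg

namespace Cfsg.Agent.S1613

/-- For a transposition x of a Fischer 3-transposition group, the transpositions commuting with x (other than x) form one conjugacy class of the subgroup they generate. -/
theorem result {G : Type*} [Group G] [Finite G] (hsol : ∀ N : Subgroup G, N.Normal → Group.IsSolvable ↥N → N = ⊥) (hperf : ⁅commutator G, commutator G⁆ = commutator G) {D : Set G} (hD : Cfsg.IsThreeTranspositionClass D) (x : G) (hx : x ∈ D) : ∀ y ∈ {y : G | y ∈ D ∧ y ≠ x ∧ Commute x y}, ∀ y' ∈ {y : G | y ∈ D ∧ y ≠ x ∧ Commute x y}, ∃ g ∈ Subgroup.closure {y : G | y ∈ D ∧ y ≠ x ∧ Commute x y}, g * y * g⁻¹ = y' := by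
  have h : ThreeTransp.FischerHyp D := ⟨hD, hsol, hperf⟩
  intro y hy y' hy'
  obtain ⟨e, he, hxe⟩ := h.exists_not_commute hx
  exact ThreeTransp.perp_single_class hD (ThreeTransp.irred_of_fischer h) hx he hxe hy hy'

end Cfsg.Agent.S1613
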