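import Cfsg.Statements.S1614
import Cfsg.Agent.ThreeTransp.PolarSolv

set_option autoImplicit false
open Cfsg

namespace Cfsg.Agent.S1614

/-- If the commuting transpositions of one transposition generate a solvable group, a Fischer 3-transposition group is S5, S6, PSU(4, 2) or PSU(5, 2). -/
theorem result {G : Type*} [Group G] [Finite G] (hsol : ∀ N : Subgroup G, N.Normal → Group.IsSolvable ↥N → N = ⊥) (hperf : ⁅commutator G, commutator G⁆ = commutator G) {D : Set G} (hD : Cfsg.IsThreeTranspositionClass D) (x : G) (hx : x ∈ D) (hs : Group.IsSolvable ↥(Subgroup.closure {y : G | y ∈ D ∧ y ≠ x ∧ Commute x y})) : Nonempty (G ≃* Equiv.Perm (Fin 5)) ∨ Nonempty (G ≃* Equiv.Perm (Fin 6)) ∨ ∃ (F : Type) (_ : Field F) (_ : Fintype F), Fintype.card F = 4 ∧ (Nonempty (G ≃* Cfsg.PSU 4 F 2) ∨ Nonempty (G ≃* Cfsg.PSU 5 F 2)) := by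
  have hF : ThreeTransp.FischerHyp D := ⟨hD, hsol, hperf⟩
  by_cases ho : Cfsg.oddCore ↥(Subgroup.closure (ThreeTransp.perp D x)) ≤
      Subgroup.center ↥(Subgroup.closure (ThreeTransp.perp D x))
  · by_cases h2 : Cfsg.pCore 2 ↥(Subgroup.closure (ThreeTransp.perp D x)) ≤
        Subgroup.center ↥(Subgroup.closure (ThreeTransp.perp D x))
    · exact (hF.core_not_central hx hs h2 ho).elim
    · right
      have hV : ThreeTransp.VHyp D := hF.vhyp hx h2
      rcases hV.all_three_or_five with h3 | h5
      · left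
        obtain ⟨n, φ, vec, _, v2, v3⟩ := ThreeTransp.exists_symplectic hV h3
        obtain rfl := ThreeTransp.symp_two hV hx hs v2 v3
        obtain ⟨e⟩ := Cfsg.Agent.S0247.result (F := ZMod 2) (by simp)
        exact ⟨φ.trans e⟩
      · right
        let _ : Fintype (GaloisField 2 2) := Fintype.ofFinite _
        have hK : Fintype.card (GaloisField 2 2) = 2 ^ 2 := by
          rw [← Nat.card_eq_fintype_card, GaloisField.card 2 2 (by norm_num)]
        obtain ⟨n, φ, vec, hU⟩ := ThreeTransp.exists_udict (K := GaloisField 2 2) hV h5 hK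
        have h4 := hU.four
        have h6 := ThreeTransp.unit_le_five hK hD hx hs hU
        refine ⟨GaloisField 2 2, inferInstance, inferInstance, by rw [hK]; norm_num, ?_⟩
        have h7 : n = 4 ∨ n = 5 := by omega
        rcases h7 with rfl | rfl
        · exact Or.inl ⟨φ⟩
        · exact Or.inr ⟨φ⟩
  · exact Or.inl (hF.equiv_perm_five hx ho)

end Cfsg.Agent.S1614
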