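import Cfsg.Statements.S1616
import Cfsg.Agent.ThreeTransp.PolarMain

set_option autoImplicit false
open Cfsg

namespace Cfsg.Agent.S1616

/-- If O₂(⟨D_x⟩) is not central in ⟨D_x⟩ for some transposition x, the 3-transposition group is some Sp(2n, 2) or PSU(n, 2). -/
theorem result {G : Type*} [Group G] [Finite G] (hsol : ∀ N : Subgroup G, N.Normal → Group.IsSolvable ↥N → N = ⊥) (hperf : ⁅commutator G, commutator G⁆ = commutator G) {D : Set G} (hD : Cfsg.IsThreeTranspositionClass D) (x : G) (hx : x ∈ D) (h : ¬ Cfsg.pCore 2 ↥(Subgroup.closure {y : G | y ∈ D ∧ y ≠ x ∧ Commute x y}) ≤ Subgroup.center ↥(Subgroup.closure {y : G | y ∈ D ∧ y ≠ x ∧ Commute x y})) : (∃ n : ℕ, Nonempty (G ≃* Matrix.symplecticGroup (Fin n) (ZMod 2))) ∨ ∃ (F : Type) (_ : Field F) (_ : Fintype F) (n : ℕ), Fintype.card F = 4 ∧ Nonempty (G ≃* Cfsg.PSU n F 2) := by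
  have hV : ThreeTransp.VHyp D := ThreeTransp.FischerHyp.vhyp ⟨hD, hsol, hperf⟩ hx h
  rcases hV.all_three_or_five with h3 | h5
  · obtain ⟨n, φ, _, _, _, _⟩ := ThreeTransp.exists_symplectic hV h3
    exact Or.inl ⟨n, ⟨φ⟩⟩
  · right
    let _ : Fintype (GaloisField 2 2) := Fintype.ofFinite _
    have hK : Fintype.card (GaloisField 2 2) = 2 ^ 2 := by
      rw [← Nat.card_eq_fintype_card, GaloisField.card 2 2 (by norm_num)]
    obtain ⟨n, φ, _, _⟩ := ThreeTransp.exists_udict (K := GaloisField 2 2) hV h5 hK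
    exact ⟨GaloisField 2 2, inferInstance, inferInstance, n, by rw [hK]; norm_num, ⟨φ⟩⟩

end Cfsg.Agent.S1616
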