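import Cfsg.Statements.S1617
import Cfsg.Agent.RankThree.Main
import Cfsg.Agent.FT.Base

set_option autoImplicit false
open Cfsg

namespace Cfsg.Agent.S1617

/-- A generating conjugacy class of involutions on which the group (with trivial solvable radical) acts with rank 3 is a class of 3-transpositions. -/
theorem result {G : Type*} [Group G] [Finite G] (hsol : ∀ N : Subgroup G, N.Normal → Group.IsSolvable ↥N → N = ⊥) {D : Set G} (hinv : ∀ d ∈ D, orderOf d = 2) (hconj : ∃ d ∈ D, D = conjugatesOf d) (hgen : Subgroup.closure D = ⊤) (hrank : ∀ x ∈ D, ∃ y ∈ D, ∃ z ∈ D, {w : G | ∃ g : G, Commute g x ∧ g * y * g⁻¹ = w} ≠ {w : G | ∃ g : G, Commute g x ∧ g * x * g⁻¹ = w} ∧ {w : G | ∃ g : G, Commute g x ∧ g * z * g⁻¹ = w} ≠ {w : G | ∃ g : G, Commute g x ∧ g * x * g⁻¹ = w} ∧ {w : G | ∃ g : G, Commute g x ∧ g * y * g⁻¹ = w} ≠ {w : G | ∃ g : G, Commute g x ∧ g * z * g⁻¹ = w} ∧ D = {w : G | ∃ g : G, Commute g x ∧ g * x * g⁻¹ = w} ∪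 {w : G | ∃ g : G, Commute g x ∧ g * y * g⁻¹ = w} ∪ {w : G | ∃ g : G, Commute g x ∧ g * z * g⁻¹ = w}) : Cfsg.IsThreeTranspositionClass D := by
  have hconj' : ∀ d ∈ D, ∀ g : G, g * d * g⁻¹ ∈ D := by
    obtain ⟨d0, -, hD⟩ := hconj
    intro d hd g
    rw [hD] at hd ⊢
    have h1 : IsConj d0 d := hd
    exact h1.trans (isConj_iff.2 ⟨g, rfl⟩)
  refine ⟨⟨hinv, ?_⟩, hconj, hgen⟩
  obtain ⟨d0, hd0, hD⟩ := hconj
  obtain ⟨y, hy, z, hz, -, -, -, hU⟩ := hrank d0 hd0
  have h1 : ∀ w ∈ D, orderOf (d0 * w) = 1 ∨ orderOf (d0 * w) = orderOf (d0 * y) ∨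
      orderOf (d0 * w) = orderOf (d0 * z) := by
    intro w hw
    have hdd : d0 * d0 = 1 := by
      have := pow_orderOf_eq_one d0
      rwa [hinv d0 hd0, pow_two] at this
    rw [hU] at hw
    have key : ∀ v w g : G, Commute g d0 → g * v * g⁻¹ = w → orderOf (d0 * w) = orderOf (d0 * v) := by
      intro v w g hg hw
      have h2 : d0 * w = g * (d0 * v) * g⁻¹ := by
        rw [← hw]
        calc d0 * (g * v * g⁻¹) = (d0 * g) * v * g⁻¹ := by group
          _ = (g * d0) * v * g⁻¹ := by rw [hg.eq]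
          _ = _ := by group
      rw [h2]
      have h3 := orderOf_injective (MulAut.conj g).toMonoidHom (MulAut.conj g).injective (d0 * v)
      simpa using h3
    rcases hw with (⟨g, hg, hw⟩ | ⟨g, hg, hw⟩) | ⟨g, hg, hw⟩
    · left
      rw [key d0 w g hg hw, hdd, orderOf_one]
    · right; left
      exact key y w g hg hw
    · right; right
      exact key z w g hg hw
  intro d hd e he
  apply Cfsg.Agent.RankThree.rank_three
    (fun H _ _ hH => Cfsg.Agent.FT.solvable_of_odd hH) hsol hinv hconj' hgen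
    (orderOf (d0 * y)) (orderOf (d0 * z)) ?_ hd he
  intro x hx w hw
  have hx' := hx
  rw [hD] at hx'
  have h2 : IsConj d0 x := hx'
  obtain ⟨g, hg⟩ := isConj_iff.1 h2
  have h3 := h1 (g⁻¹ * w * g⁻¹⁻¹) (hconj' w hw g⁻¹)
  have h4 : orderOf (x * w) = orderOf (d0 * (g⁻¹ * w * g⁻¹⁻¹)) := by
    have h5 := orderOf_injective (MulAut.conj g).toMonoidHom (MulAut.conj g).injective
      (d0 * (g⁻¹ * w * g⁻¹⁻¹))
    rw [← h5]
    congr 1
    rw [← hg]
    simp only [MulEquiv.toMonoidHom_eq_coe, MonoidHom.coe_coe, MulAut.conj_apply]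
    group
  rw [h4]
  exact h3

end Cfsg.Agent.S1617
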