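import Cfsg.Statements.S1626
import Cfsg.Agent.H80.J3OOrb

set_option autoImplicit false
open scoped MatrixGroups
open Matrix
open Cfsg

namespace Cfsg.Agent.S1626

open Cfsg.Agent.H80.J3O Cfsg.Agent.J3M Cfsg.Spor

set_option maxRecDepth 1000000

section

variable {F : Type} [Field F] {ω : F}

theorem V_one (ω : F) : V ω 1 = Pi.single (0 : Cfsg.Spor.F9) (1 : F) := by
  funext z
  change cv ω 1 (e9.symm z) = _
  have h1 : (1 : ℕ) = 4 ^ 0 := by norm_num
  rw [h1, cv_pow, Pi.single_apply]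
  have h2 : ((e9.symm z : Fin 9) : ℕ) = 0 ↔ z = 0 := by
    revert z; decide
  simp only [h2]

theorem cub_eq (v : ℕ) : cub ω 9 v = ∑ z, V ω v z ^ 3 := by
  unfold cub
  rw [Finset.sum_range, ← Equiv.sum_comp e9.symm]
  rfl

/-- the codes of the orbit as a finite set -/
noncomputable def XF (T : ℕ) : Finset ℕ := (Finset.range 9).biUnion fun k =>
  (Finset.Ico (4 ^ k) (2 * 4 ^ k)).filter fun v => flag (ent T v) = 1

theorem mem_XF {T v : ℕ} : v ∈ XF T ↔ v ∈ XS T := by
  unfold XF XS Cfsg.Agent.H80.J3O.Norm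
  simp only [Finset.mem_biUnion, Finset.mem_range, Finset.mem_filter, Finset.mem_Ico, Set.mem_setOf_eq]
  constructor
  · rintro ⟨k, hk, ⟨h1, h2⟩, h3⟩
    exact ⟨⟨k, hk, h1, h2⟩, h3⟩
  · rintro ⟨⟨k, hk, h1, h2⟩, h3⟩
    exact ⟨k, hk, ⟨h1, h2⟩, h3⟩

theorem flag_lt (T v : ℕ) : flag (ent T v) < 2 := by
  have h1 : ent T v < 256 := lt_of_le_of_lt (Nat.and_le_right (n := T >>> (8 * v)) (m := 255)) (by norm_num)
  change ent T v >>> 7 < 2
  rw [Nat.shiftRight_eq_div_pow]
  omega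

theorem cntW_eq (T d : ℕ) : ∀ v, cntW T d v = ∑ u ∈ Finset.range (4 ^ d), flag (ent T (v * 4 ^ d + u)) := by
  induction d with
  | zero =>
    intro v
    rw [pow_zero, Finset.sum_range_one, mul_one, add_zero]
    rfl
  | succ d ih =>
    intro v
    have h1 : cntW T (d + 1) v = (cntW T d (4 * v) + cntW T d (4 * v + 1)) + (cntW T d (4 * v + 2) + cntW T d (4 * v + 3)) := rfl
    rw [h1, ih, ih, ih, ih, show (4 : ℕ) ^ (d + 1) = 4 ^ d + 4 ^ d + (4 ^ d + 4 ^ d) by rw [pow_succ]; ring,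
      Finset.sum_range_add, Finset.sum_range_add, Finset.sum_range_add]
    congr 1
    · congr 1
      · apply Finset.sum_congr rfl; intro u _; congr 2; ring
      · apply Finset.sum_congr rfl; intro u _; congr 2; ring
    · congr 1
      · apply Finset.sum_congr rfl; intro u _; congr 2; ring
      · apply Finset.sum_congr rfl; intro u _; congr 2; ring

theorem total_sum {T : ℕ} (hT : T = big) : ∑ k ∈ Finset.range 9, cntW T k 1 = 23256 := by
  have key : ∀ n, (@Nat.rec (fun _ => ℕ) 0 (fun k ih => fc ih fun a => Nat.add a (cntW T k 1)) n : ℕ) =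
      ∑ k ∈ Finset.range n, cntW T k 1 := by
    intro n
    induction n with
    | zero => rfl
    | succ n ih =>
      rw [Finset.sum_range_succ, ← ih]
      rfl
  rw [← key]
  have h1 := Nat.eq_of_beq_eq_true total_eq
  rw [← h1]
  subst hT
  exact (fc_eq big (fun T => (@Nat.rec (fun _ => ℕ) 0 (fun k ih => fc ih fun a => Nat.add a (cntW T k 1)) 9 : ℕ))).symm

theorem card_XF {T : ℕ} (hT : T = big) : (XF T).card = 23256 := by
  unfold XF
  rw [Finset.card_biUnion]
  · rw [← total_sum hT]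
    apply Finset.sum_congr rfl
    intro k _
    rw [cntW_eq, Finset.card_filter, Finset.sum_Ico_eq_sum_range, show 2 * 4 ^ k - 4 ^ k = 4 ^ k by omega]
    apply Finset.sum_congr rfl
    intro u _
    rw [one_mul]
    have := flag_lt T (4 ^ k + u)
    split_ifs with h
    · exact h.symm
    · omega
  · intro i _ j _ hij
    change Disjoint _ _
    rw [Finset.disjoint_left]
    intro v hv hv'
    rw [Finset.mem_filter, Finset.mem_Ico] at hv hv'
    obtain ⟨⟨h1, h2⟩, -⟩ := hv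
    obtain ⟨⟨h3, h4⟩, -⟩ := hv'
    rcases Nat.lt_or_gt_of_ne hij with h | h
    · have : (4 : ℕ) ^ (i + 1) ≤ 4 ^ j := Nat.pow_le_pow_right (by norm_num) h
      rw [pow_succ] at this; omega
    · have : (4 : ℕ) ^ (j + 1) ≤ 4 ^ i := Nat.pow_le_pow_right (by norm_num) h
      rw [pow_succ] at this; omega

theorem one_mem_XS {T : ℕ} (hT : T = big) : (1 : ℕ) ∈ XS T := by
  refine ⟨⟨0, by norm_num, by norm_num, by norm_num⟩, ?_⟩
  rw [hT]
  have h1 : Nat.beq (flag (ent big 1)) 1 = true := by decide +kernel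
  exact Nat.eq_of_beq_eq_true h1

/-- the leading coordinate of a normalized code is one -/
theorem lead {v k : ℕ} (h1 : 4 ^ k ≤ v) (h2 : v < 2 * 4 ^ k) : cv ω v k = 1 ∧ ∀ i, k < i → cv ω v i = 0 := by
  have h4 : ∀ m : ℕ, (4 : ℕ) ^ m = 2 ^ (2 * m) := fun m => by rw [pow_mul]; norm_num
  have h3 : v < 2 ^ (2 * k + 1) := by rw [pow_succ, ← h4]; omega
  have hb1 : v.testBit (2 * k + 1) = false := Nat.testBit_lt_two_pow h3
  have hb0 : v.testBit (2 * k) = true := by
    by_contra hc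
    have hc : v.testBit (2 * k) = false := by simpa using hc
    have : v < 2 ^ (2 * k) := by
      apply Nat.lt_pow_two_of_testBit
      intro j hj
      rcases Nat.eq_or_lt_of_le hj with h5 | h5
      · rw [← h5]; exact hc
      · exact Nat.testBit_lt_two_pow (lt_of_lt_of_le h3 (Nat.pow_le_pow_right (by norm_num) h5))
    rw [← h4] at this
    omega
  constructor
  · unfold cv
    rw [hb0, hb1]; simp
  · intro i hi
    apply cv_big (k := k + 1) _ hi
    rw [pow_succ]; omega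

theorem span_injOn (h : Om ω) (T : ℕ) : Set.InjOn (fun v => F ∙ V ω v) (XF T : Set ℕ) := by
  intro v hv w hw hvw
  have hv : v ∈ XS T := mem_XF.1 hv
  have hw : w ∈ XS T := mem_XF.1 hw
  simp only at hvw
  obtain ⟨u, hu⟩ := Submodule.span_singleton_eq_span_singleton.1 hvw
  obtain ⟨k, hk, h1, h2⟩ := hv.1
  obtain ⟨l, hl, h3, h4⟩ := hw.1
  obtain ⟨a1, a2⟩ := lead (ω := ω) h1 h2
  obtain ⟨b1, b2⟩ := lead (ω := ω) h3 h4
  have hc : ∀ i < 9, (u : F) * cv ω v i = cv ω w i := by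
    intro i hi
    have := congrFun hu (e9 ⟨i, hi⟩)
    change (u : F) * cv ω v (e9.symm (e9 ⟨i, hi⟩)) = cv ω w (e9.symm (e9 ⟨i, hi⟩)) at this
    rw [Equiv.symm_apply_apply] at this
    exact this
  have hkl : k = l := by
    rcases Nat.lt_trichotomy k l with h5 | h5 | h5
    · have := hc l hl
      rw [a2 l h5, b1, mul_zero] at this
      exact absurd this zero_ne_one
    · exact h5
    · have := hc k hk
      rw [a1, b2 k h5, mul_one] at this
      exact absurd this u.ne_zero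
  subst hkl
  have hu1 : (u : F) = 1 := by
    have := hc k hk
    rwa [a1, b1, mul_one] at this
  apply V_inj h hv.1.lt hw.1.lt
  rw [← hu]
  change V ω v = (u : F) • V ω v
  rw [hu1, one_smul]

theorem V_surj [Fintype F] (h : Om ω) (hF : Fintype.card F = 4) (v : F9 → F) : ∃ r < 262144, V ω r = v := by
  classical
  let f : Fin 262144 → (F9 → F) := fun r => V ω r
  have hinj : Function.Injective f := by
    intro a b hab
    exact Fin.ext (V_inj h a.2 b.2 hab)
  have hbij : Function.Bijective f := by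
    rw [Fintype.bijective_iff_injective_and_card]
    refine ⟨hinj, ?_⟩
    rw [Fintype.card_fin, Fintype.card_fun, hF, Fintype.card_prod, ZMod.card]
    norm_num
  obtain ⟨r, hr⟩ := hbij.2 v
  exact ⟨r, r.2, hr⟩

end

/-- Orbits of the triple cover of the third Janko group on lines of its 9-space over the field with 4 elements: the line through the first basis vector has exactly 23256 images, and the isotropic lines (nonzero v with Σ v_z³ = 0) form a single orbit. -/
theorem result (F : Type) [Field F] [Fintype F] (hF : Fintype.card F = 4) (ω : F) (hω : ω ^ 2 + ω + 1 = 0) : {L : Submodule F (Cfsg.Spor.F9 → F) | ∃ g ∈ Cfsg.Spor.threeJ3 F ω, L = F ∙ ((g : Matrix Cfsg.Spor.F9 Cfsg.Spor.F9 F) *ᵥ (Pi.single (0 : Cfsg.Spor.F9) (1 : F) : Cfsg.Spor.F9 → F))}.ncard = 23256 ∧ ∀ v w : Cfsg.Spor.F9 → F, v ≠ 0 → w ≠ 0 → ∑ z, (v z) ^ 3 = 0 → ∑ z, (w z) ^ 3 = 0 → ∃ g ∈ Cfsg.Spor.threeJ3 F ω, ∃ c : F, c ≠ 0 ∧ (g : Matrix Cfsg.Spor.F9 Cfsg.Spor.F9 F) *ᵥ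 v = c • w := by
  have h := Cfsg.Agent.J3M.Om.of_card hF hω
  obtain ⟨T, hT⟩ : ∃ T, T = big := ⟨_, rfl⟩
  have hfin : Finite F := inferInstance
  have hV1 : V ω 1 = Pi.single (0 : Cfsg.Spor.F9) (1 : F) := V_one ω
  constructor
  · have hset : {L : Submodule F (Cfsg.Spor.F9 → F) | ∃ g ∈ Cfsg.Spor.threeJ3 F ω, L = F ∙ ((g : Matrix Cfsg.Spor.F9 Cfsg.Spor.F9 F) *ᵥ (Pi.single (0 : Cfsg.Spor.F9) (1 : F) : Cfsg.Spor.F9 → F))} =
      (fun v => F ∙ V ω v) '' (XF T : Set ℕ) := by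
      ext L
      constructor
      · rintro ⟨g, hg, rfl⟩
        have h1 : (1 : ℕ) ∈ XS T := one_mem_XS hT
        obtain ⟨v', hv', c, hc, h2⟩ := pres_all h hT hg 1 h1
        refine ⟨v', mem_XF.2 hv', ?_⟩
        change F ∙ V ω v' = _
        rw [← hV1, h2]
        exact (Submodule.span_singleton_smul_eq (IsUnit.mk0 c hc) _).symm
      · rintro ⟨v, hv, rfl⟩
        have hv : v ∈ XS T := mem_XF.1 hv
        obtain ⟨g, hg, c, hc, h2⟩ := reach h hT _ v hv.1 (flag_ne hv.2) le_rfl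
        rw [if_pos hv.2] at h2
        refine ⟨g⁻¹, Subgroup.inv_mem _ hg, ?_⟩
        change F ∙ V ω v = _
        rw [← hV1]
        have h3 : ((g⁻¹ : GL Cfsg.Spor.F9 F) : Matrix Cfsg.Spor.F9 Cfsg.Spor.F9 F) *ᵥ V ω 1 = c⁻¹ • V ω v := by
          have h4 := congrArg (fun w => ((g⁻¹ : GL Cfsg.Spor.F9 F) : Matrix Cfsg.Spor.F9 Cfsg.Spor.F9 F) *ᵥ w) h2
          change _ = _ at h4
          rw [Matrix.mulVec_mulVec, ← Units.val_mul, inv_mul_cancel, Units.val_one, Matrix.one_mulVec,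
            Matrix.mulVec_smul] at h4
          rw [h4, smul_smul, inv_mul_cancel₀ hc, one_smul]
        rw [h3]
        exact (Submodule.span_singleton_smul_eq (IsUnit.mk0 _ (inv_ne_zero hc)) _).symm
    rw [hset, Set.ncard_image_of_injOn (span_injOn h T), Set.ncard_coe_finset, card_XF hT]
  · have key : ∀ v : Cfsg.Spor.F9 → F, v ≠ 0 → ∑ z, (v z) ^ 3 = 0 → ∃ g ∈ Cfsg.Spor.threeJ3 F ω, ∃ c : F, c ≠ 0 ∧
        (g : Matrix Cfsg.Spor.F9 Cfsg.Spor.F9 F) *ᵥ v = c • V ω 5 := by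
      intro v hv hs
      obtain ⟨r, hr, rfl⟩ := V_surj h hF v
      have hr0 : r ≠ 0 := by
        rintro rfl
        exact hv (V_zero)
      obtain ⟨c', hc', hn⟩ := nrm_V h r
      have hN := nrm_norm hr hr0
      obtain ⟨q, hl, hp⟩ := leaf_spec h hT hN
      have hq : q = false := by
        have h1 : cub ω 9 (nrm r) = 0 := by
          rw [cub_eq, hn]
          have : ∀ z, (c' • V ω r) z ^ 3 = c' ^ 3 * V ω r z ^ 3 := fun z => by
            rw [Pi.smul_apply, smul_eq_mul, mul_pow]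
          rw [Finset.sum_congr rfl (fun z _ => this z), ← Finset.mul_sum, hs, mul_zero]
        unfold Par at hp
        rw [h1] at hp
        cases q
        · rfl
        · simp at hp
      rcases leaf_cases hl with h1 | h1 | h1
      · rw [hq] at h1; exact absurd h1.2 (by decide)
      · rw [hq] at h1; exact absurd h1.2.1 (by decide)
      · obtain ⟨g, hg, c, hc, h2⟩ := reach h hT _ _ hN h1.1 le_rfl
        rw [h1.2.2.1, if_neg (by norm_num), hn, Matrix.mulVec_smul] at h2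
        refine ⟨g, hg, c'⁻¹ * c, mul_ne_zero (inv_ne_zero hc') hc, ?_⟩
        rw [mul_smul, ← h2, smul_smul, inv_mul_cancel₀ hc', one_smul]
    intro v w hv hw hsv hsw
    obtain ⟨g, hg, c, hc, h1⟩ := key v hv hsv
    obtain ⟨k, hk, d, hd, h2⟩ := key w hw hsw
    refine ⟨k⁻¹ * g, Subgroup.mul_mem _ (Subgroup.inv_mem _ hk) hg, c * d⁻¹, mul_ne_zero hc (inv_ne_zero hd), ?_⟩
    have h3 : ((k⁻¹ : GL Cfsg.Spor.F9 F) : Matrix Cfsg.Spor.F9 Cfsg.Spor.F9 F) *ᵥ V ω 5 = d⁻¹ • w := by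
      have h4 := congrArg (fun u => ((k⁻¹ : GL Cfsg.Spor.F9 F) : Matrix Cfsg.Spor.F9 Cfsg.Spor.F9 F) *ᵥ u) h2
      change _ = _ at h4
      rw [Matrix.mulVec_mulVec, ← Units.val_mul, inv_mul_cancel, Units.val_one, Matrix.one_mulVec,
        Matrix.mulVec_smul] at h4
      rw [h4, smul_smul, inv_mul_cancel₀ hd, one_smul]
    rw [Units.val_mul, ← Matrix.mulVec_mulVec, h1, Matrix.mulVec_smul, h3, smul_smul]

end Cfsg.Agent.S1626
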