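import Cfsg.Statements.S1631
import Cfsg.Agent.GeoMax.TT
import Cfsg.Agent.H43.RankOne
import Cfsg.Agent.Uni.Gen2

set_option autoImplicit false
open scoped MatrixGroups
open Cfsg

namespace Cfsg.Agent.S1631

open Cfsg.Agent.Uni Matrix

section
variable {F : Type} [Field F] [Fintype F] {n : ℕ}

private theorem tv_ex (hF : Fintype.card F = 2 ^ 2) (h2 : (2 : F) = 0) (v : Fin n → F) :
    ∃ g : Cfsg.SU n F 2, hermForm n F 2 v v = 0 → ∀ x, act g x = x + (hermForm n F 2 x v) • v := by
  by_cases hv : hermForm n F 2 v v = 0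
  · obtain ⟨g, -, hg⟩ := exists_transv (a := (1 : F)) hF hv (by linear_combination h2)
    exact ⟨g, fun _ x => by rw [hg, one_mul]⟩
  · exact ⟨1, fun h => absurd h hv⟩

private noncomputable def tv (hF : Fintype.card F = 2 ^ 2) (h2 : (2 : F) = 0) (v : Fin n → F) : Cfsg.SU n F 2 :=
  (tv_ex hF h2 v).choose

private theorem tv_act (hF : Fintype.card F = 2 ^ 2) (h2 : (2 : F) = 0) {v : Fin n → F} (hv : hermForm n F 2 v v = 0) (x : Fin n → F) :
    act (tv hF h2 v) x = x + (hermForm n F 2 x v) • v := (tv_ex hF h2 v).choose_spec hv x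

private theorem act_eq (g : Cfsg.SU n F 2) (x : Fin n → F) : ((g : Matrix.SpecialLinearGroup (Fin n) F) : Matrix (Fin n) (Fin n) F) *ᵥ x = act g x := rfl

private theorem mat_ext {A B : Matrix (Fin n) (Fin n) F} (h : ∀ x, A *ᵥ x = B *ᵥ x) : A = B := by
  ext i j
  have := congrFun (h (Pi.single j 1)) i
  simpa using this

end


/-- The unitary transvections of SU(n, 2), n ≥ 4, form a generating conjugacy class of 3-transpositions. -/
theorem result (F : Type) [Field F] [Fintype F] [DecidableEq F] (hF : Fintype.card F = 4) (n : ℕ) (hn : 4 ≤ n) : Cfsg.IsThreeTranspositionClass {g : ↥(Cfsg.SU n F 2) | (((g : Matrix.SpecialLinearGroup (Fin n) F) : Matrix (Fin n) (Fin n) F) - 1).rank = 1} := by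
  have hF' : Fintype.card F = 2 ^ 2 := by rw [hF]; norm_num
  have h2 : (2 : F) = 0 := by
    have := add_pow_q hF' (1 : F) 1
    linear_combination this
  have hc3 : ∀ c : F, c ≠ 0 → c * c ^ 2 = 1 := by
    intro c hc
    have := FiniteField.pow_card_sub_one_eq_one c hc
    rw [hF] at this
    rw [← this]; ring
  have hmul : ∀ v : Fin n → F, hermForm n F 2 v v = 0 → v ≠ 0 →
      (((tv hF' h2 v : Cfsg.SU n F 2) : Matrix.SpecialLinearGroup (Fin n) F) : Matrix (Fin n) (Fin n) F) - 1
        = vecMulVec v (fun j => (v j) ^ 2) := by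
    intro v hv hv0
    apply mat_ext
    intro x
    rw [Matrix.sub_mulVec, Matrix.one_mulVec, act_eq, tv_act hF' h2 hv, add_sub_cancel_left, Matrix.vecMulVec_mulVec]
    have : (fun j => (v j) ^ 2) ⬝ᵥ x = hermForm n F 2 x v := by
      simp only [dotProduct, Cfsg.hermForm]
      exact Finset.sum_congr rfl fun i _ => mul_comm _ _
    rw [this]
    simp
  have hset : {g : ↥(Cfsg.SU n F 2) | (((g : Matrix.SpecialLinearGroup (Fin n) F) : Matrix (Fin n) (Fin n) F) - 1).rank = 1}
      = tv hF' h2 '' {v | v ≠ 0 ∧ hermForm n F 2 v v = 0} := by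
    ext g
    constructor
    · intro hg
      obtain ⟨a, φ, ha, hφ, h⟩ := Cfsg.Agent.H43.exists_vecMulVec_of_rank_eq_one hg
      have hg1 : ((g : Matrix.SpecialLinearGroup (Fin n) F) : Matrix (Fin n) (Fin n) F) = 1 + vecMulVec a φ := by
        rw [← h]; abel
      have hgx : ∀ x, act g x = x + (φ ⬝ᵥ x) • a := by
        intro x
        rw [act_def, hg1, Matrix.add_mulVec, Matrix.one_mulVec, Matrix.vecMulVec_mulVec]
        simp
      have hdet : φ ⬝ᵥ a = 0 := by
        have h1 : (1 + vecMulVec a φ).det = 1 := by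
          rw [← hg1]; exact g.1.2
        have h3 := Cfsg.Agent.H43.det_dil a φ
        unfold Cfsg.Agent.H43.dil at h3
        rw [h1] at h3
        linear_combination -h3
      obtain ⟨j, hj⟩ := Function.ne_iff.1 hφ
      obtain ⟨x0, hx0⟩ : ∃ x, φ ⬝ᵥ x = 1 := by
        refine ⟨Pi.single j (φ j)⁻¹, ?_⟩
        rw [dotProduct_single, mul_inv_cancel₀ hj]
      have hpres : ∀ x y, (φ ⬝ᵥ x) * hermForm n F 2 a y + (φ ⬝ᵥ y) ^ 2 * hermForm n F 2 x a +
          (φ ⬝ᵥ x) * (φ ⬝ᵥ y) ^ 2 * hermForm n F 2 a a = 0 := by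
        intro x y
        have h1 := act_form g x y
        rw [hgx, hgx, hermForm_add_left, hermForm_add_right hF', hermForm_add_right hF', hermForm_smul_left,
          hermForm_smul_left, hermForm_smul_right, hermForm_smul_right] at h1
        linear_combination h1
      have haa : hermForm n F 2 a a = 0 := by
        have h1 := hpres x0 a
        rw [hx0, hdet] at h1
        linear_combination h1
      have h3 : ∀ y, hermForm n F 2 a y = (φ ⬝ᵥ y) ^ 2 * hermForm n F 2 x0 a := by
        intro y
        have h1 := hpres x0 y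
        rw [hx0, haa] at h1
        linear_combination h1 - (φ ⬝ᵥ y) ^ 2 * hermForm n F 2 x0 a * h2
      have hs : hermForm n F 2 x0 a ≠ 0 := by
        intro h0
        apply ha
        apply hermForm_nondeg hF'
        intro y
        rw [h3, h0, mul_zero]
      have h4 : ∀ y, hermForm n F 2 y a = (φ ⬝ᵥ y) * (hermForm n F 2 x0 a) ^ 2 := by
        intro y
        rw [← hermForm_symm hF' a y, h3 y, mul_pow, pow_q_pow_q hF']
      have hs1 : hermForm n F 2 x0 a = 1 := by
        have h5 := h4 x0
        rw [hx0, one_mul] at h5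
        have h6 := hc3 _ hs
        generalize hermForm n F 2 x0 a = s at h5 h6 hs
        have h7 : s * s = 1 := by rw [← h6]; congr 1
        have h8 : s ^ 2 = s := h5.symm
        rw [sq, h7] at h8
        exact h8.symm
      refine ⟨a, ⟨ha, haa⟩, ?_⟩
      apply act_ext
      intro x
      rw [tv_act hF' h2 haa, hgx, h4 x, hs1]
      simp
    · rintro ⟨v, ⟨hv0, hv⟩, rfl⟩
      show ((((tv hF' h2 v : Cfsg.SU n F 2) : Matrix.SpecialLinearGroup (Fin n) F) : Matrix (Fin n) (Fin n) F) - 1).rank = 1
      rw [hmul v hv hv0]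
      apply Cfsg.Agent.GeoMax.rank_vecMulVec_one hv0
      intro h0
      apply hv0
      ext j
      have := congrFun h0 j
      simpa using this
  have hconj : ∀ (g : Cfsg.SU n F 2) (v : Fin n → F), hermForm n F 2 v v = 0 → g * tv hF' h2 v * g⁻¹ = tv hF' h2 (act g v) := by
    intro g v hv
    apply act_ext
    intro x
    rw [act_mul, act_mul, tv_act hF' h2 hv, tv_act hF' h2 (by rw [act_form]; exact hv), act_add, act_smul, act_act_inv, act_form_left,
      inv_inv]
  have hsmul : ∀ (v : Fin n → F) (c : F), c ≠ 0 → hermForm n F 2 v v = 0 → tv hF' h2 (c • v) = tv hF' h2 v := by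
    intro v c hc hv
    apply act_ext
    intro x
    rw [tv_act hF' h2 hv, tv_act hF' h2 (by rw [hermForm_smul_left, hermForm_smul_right, hv]; ring), hermForm_smul_right, smul_smul]
    congr 2
    linear_combination (hermForm n F 2 x v) * hc3 c hc
  rw [hset]
  refine Cfsg.Agent.GeoMax.threeTransClass_of _ (tv hF' h2) (fun g v => act g v) ?_ ?_ ?_ ?_ ?_ ?_ ?_ ?_
  · rintro g v ⟨hv0, hv⟩
    exact ⟨act_ne_zero hv0, by rw [act_form]; exact hv⟩
  · intro g v hv; exact hconj g v hv.2
  · intro u hu v hv
    obtain ⟨t, -, c, hc, ht⟩ := exists_TT_isotropic hF' hu.1 hv.1 hu.2 hv.2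
    refine ⟨t, ?_⟩
    show tv hF' h2 (act t u) = _
    rw [ht, hsmul v c hc hv.2]
  · refine ⟨Pi.single ⟨0, by omega⟩ 1 + Pi.single ⟨1, by omega⟩ 1, ?_, ?_⟩
    · intro h0
      have := congrFun h0 ⟨0, by omega⟩
      simp [Pi.single_apply] at this
    · rw [hermForm_add_left, hermForm_add_right hF', hermForm_add_right hF', hermForm_single_right' hF', hermForm_single_right' hF',
        hermForm_single_right' hF', hermForm_single_right' hF']
      simp [Pi.single_apply]
      linear_combination h2
  · intro v hv h1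
    have h3 : tv hF' h2 v ∈ tv hF' h2 '' {v | v ≠ 0 ∧ hermForm n F 2 v v = 0} := ⟨v, hv, rfl⟩
    rw [← hset, h1] at h3
    simp at h3
  · intro v hv
    apply act_ext
    intro x
    rw [act_mul, tv_act hF' h2 hv.2, tv_act hF' h2 hv.2, hermForm_add_left, hermForm_smul_left, hv.2, mul_zero, add_zero, act_one,
      add_assoc, ← add_smul]
    have : hermForm n F 2 x v + hermForm n F 2 x v = 0 := by linear_combination (hermForm n F 2 x v) * h2
    rw [this, zero_smul, add_zero]
  · intro u hu v hv
    show _ ∨ tv hF' h2 (act (tv hF' h2 u) v) = tv hF' h2 (act (tv hF' h2 v) u)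
    by_cases h : hermForm n F 2 u v = 0
    · left
      have h' : hermForm n F 2 v u = 0 := (hermForm_eq_zero_comm hF').1 h
      apply act_ext
      intro x
      rw [act_mul, act_mul, tv_act hF' h2 hv.2, tv_act hF' h2 hu.2, tv_act hF' h2 hu.2, tv_act hF' h2 hv.2]
      simp only [hermForm_add_left, hermForm_smul_left, h, h', mul_zero, add_zero]
      abel
    · right
      rw [tv_act hF' h2 hu.2, tv_act hF' h2 hv.2, ← hermForm_symm hF' u v]
      have h5 := hc3 _ h
      have h6 : u + hermForm n F 2 u v • v = (hermForm n F 2 u v) • (v + (hermForm n F 2 u v) ^ 2 • u) := by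
        rw [smul_add, smul_smul, h5, one_smul, add_comm]
      rw [h6, hsmul _ _ h]
      rw [hermForm_add_left, hermForm_add_right hF', hermForm_add_right hF', hermForm_smul_left, hermForm_smul_left,
        hermForm_smul_right, hermForm_smul_right, hu.2, hv.2, ← hermForm_symm hF' u v]
      generalize hermForm n F 2 u v = s at h5 ⊢
      have : (s ^ 2) ^ 2 = s := pow_q_pow_q hF' s
      linear_combination (s * s ^ 2) * h2 + s ^ 2 * this
  · rw [eq_top_iff, ← TT_eq_top (n := n) (F := F) (q := 2) hF' (by omega) (by omega)]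
    unfold TT
    rw [Subgroup.closure_le]
    rintro A ⟨w, c, hw, hA⟩
    by_cases hA1 : A = 1
    · rw [hA1]; exact one_mem _
    apply Subgroup.subset_closure
    rw [← hset]
    show (((A : Matrix.SpecialLinearGroup (Fin n) F) : Matrix (Fin n) (Fin n) F) - 1).rank = 1
    have h7 : ((A : Matrix.SpecialLinearGroup (Fin n) F) : Matrix (Fin n) (Fin n) F) - 1 = vecMulVec (c • w) (fun j => (w j) ^ 2) := by
      rw [hA, Cfsg.unitaryTransvection, add_sub_cancel_left]
      ext i j
      simp [vecMulVec_apply, mul_assoc]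
    rw [h7]
    have h8 : A ≠ 1 → c • w ≠ 0 ∧ (fun j => (w j) ^ 2) ≠ 0 := by
      intro hne
      by_contra hcon
      apply hne
      apply act_ext
      intro x
      rw [act_def, hA, unitaryTransvection_mulVec, act_one]
      rcases not_and_or.1 hcon with h9 | h9
      · rw [not_ne_iff] at h9
        rw [mul_comm, mul_smul, h9, smul_zero, add_zero]
      · rw [not_ne_iff] at h9
        have : w = 0 := by
          ext j
          have := congrFun h9 j
          simpa using this
        rw [this, smul_zero, add_zero]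
    exact Cfsg.Agent.GeoMax.rank_vecMulVec_one (h8 hA1).1 (h8 hA1).2

end Cfsg.Agent.S1631
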