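import Cfsg.Statements.S1635
import Cfsg.Agent.Golay.Coset


set_option autoImplicit false
open Cfsg

namespace Cfsg.Agent.S1635

open Cfsg.Agent.Golay Cfsg.Agent.Golay.Coset


/-- Coset leaders of the length-24 code: a coset contains a unique word of weight ≤ 3, or else exactly six words of weight 4 and none lighter. -/
theorem result (w : Cfsg.GolayPt → ZMod 2) : ({v : Cfsg.GolayPt → ZMod 2 | hammingNorm v ≤ 4 ∧ w - v ∈ Cfsg.golayCode}.ncard = 1 ∧ ∃ v : Cfsg.GolayPt → ZMod 2, hammingNorm v ≤ 3 ∧ w - v ∈ Cfsg.golayCode) ∨ ({v : Cfsg.GolayPt → ZMod 2 | hammingNorm v ≤ 4 ∧ w - v ∈ Cfsg.golayCode}.ncard = 6 ∧ ∀ v : Cfsg.GolayPt → ZMod 2, w - v ∈ Cfsg.golayCode → hammingNorm v ≤ 4 → hammingNorm v = 4) := by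
  rw [ncard_near]
  rcases near_cases (support₂ w) with ⟨t, h1, h2⟩ | ⟨t, h1, h2⟩
  · left
    have ht : t ∈ near (support₂ w) := by rw [h1]; simp
    refine ⟨by rw [h1, Finset.card_singleton], wordOf t, ?_, ?_⟩
    · rw [hammingNorm_eq, support₂_wordOf]; exact h2
    · rw [sub_mem_iff, support₂_wordOf]; exact (mem_near.1 ht).2
  · right
    refine ⟨by rw [h1, card_sextetOf h2], ?_⟩
    intro v hv hn
    have h3 : support₂ v ∈ near (support₂ w) := mem_near.2 ⟨hn, sub_mem_iff.1 hv⟩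
    rw [h1] at h3
    rw [hammingNorm_eq]
    exact (sextetOf_mem h2).2.1 _ h3

end Cfsg.Agent.S1635
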