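import Cfsg.Statements.S1638
import Cfsg.Agent.Golay.Orb6
import Cfsg.Agent.Golay.OrbC


set_option autoImplicit false
open scoped Pointwise
open Cfsg

namespace Cfsg.Agent.S1638

open Cfsg.Agent.Golay Cfsg.Agent.Golay.Orb

theorem smul_pair (σ : Equiv.Perm Cfsg.GolayPt) (a b : Cfsg.GolayPt) :
    σ • ({a, b} : Finset Cfsg.GolayPt) = {σ a, σ b} := by
  ext x
  rw [Finset.mem_smul_finset]
  simp only [Finset.mem_insert, Finset.mem_singleton]
  constructor
  · rintro ⟨y, rfl | rfl, rfl⟩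
    · exact Or.inl rfl
    · exact Or.inr rfl
  · rintro (rfl | rfl)
    · exact ⟨a, Or.inl rfl, rfl⟩
    · exact ⟨b, Or.inr rfl, rfl⟩

theorem map5 {a b c d e a' b' c' d' e' : Cfsg.GolayPt} (h : Function.Injective ![a, b, c, d, e])
    (h' : Function.Injective ![a', b', c', d', e']) :
    ∃ σ ∈ Cfsg.M24, σ a = a' ∧ σ b = b' ∧ σ c = c' ∧ σ d = d' ∧ σ e = e' := by
  obtain ⟨σ, hσ, h1⟩ := M24_exists_map _ _ h h'
  exact ⟨σ, hσ, h1 0, h1 1, h1 2, h1 3, h1 4⟩

theorem inj5 {a b c d e : Cfsg.GolayPt} (h1 : a ≠ b) (h2 : a ≠ c) (h3 : a ≠ d) (h4 : a ≠ e)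
    (h5 : b ≠ c) (h6 : b ≠ d) (h7 : b ≠ e) (h8 : c ≠ d) (h9 : c ≠ e) (h10 : d ≠ e) :
    Function.Injective ![a, b, c, d, e] := by
  intro i j hij
  fin_cases i <;> fin_cases j <;> simp_all

theorem inj6 {a b c d e f : Cfsg.GolayPt} (h1 : a ≠ b) (h2 : a ≠ c) (h3 : a ≠ d) (h4 : a ≠ e)
    (h5 : b ≠ c) (h6 : b ≠ d) (h7 : b ≠ e) (h8 : c ≠ d) (h9 : c ≠ e) (h10 : d ≠ e)
    (k1 : a ≠ f) (k2 : b ≠ f) (k3 : c ≠ f) (k4 : d ≠ f) (k5 : e ≠ f) :
    Function.Injective ![a, b, c, d, e, f] := by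
  intro i j hij
  fin_cases i <;> fin_cases j <;> simp_all

/-- the condition on the second pair -/
def Cond (p q : Cfsg.GolayPt) (s t : Finset Cfsg.GolayPt) : Prop :=
  ∃ o ∈ Cfsg.octads, p ∈ o ∧ q ∈ o ∧ s ∪ t ⊆ o

theorem cond_iff6 {p q a b c d : Cfsg.GolayPt} :
    Cond p q {a, b} {c, d} ↔ ∃ o ∈ Cfsg.octads, ∀ i, (![p, q, a, b, c, d] : Fin 6 → Cfsg.GolayPt) i ∈ o := by
  unfold Cond
  constructor
  · rintro ⟨o, ho, h1, h2, h3⟩
    refine ⟨o, ho, ?_⟩
    have ha : a ∈ o := h3 (by simp)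
    have hb : b ∈ o := h3 (by simp)
    have hc : c ∈ o := h3 (by simp)
    have hd : d ∈ o := h3 (by simp)
    intro i
    fin_cases i <;> assumption
  · rintro ⟨o, ho, h⟩
    refine ⟨o, ho, h 0, h 1, ?_⟩
    intro x hx
    simp only [Finset.mem_union, Finset.mem_insert, Finset.mem_singleton] at hx
    rcases hx with (rfl | rfl) | (rfl | rfl)
    · exact h 2
    · exact h 3
    · exact h 4
    · exact h 5

theorem disj_case {p q : Cfsg.GolayPt} (hpq : p ≠ q) {s t t' : Finset Cfsg.GolayPt}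
    (hs : s.card = 2 ∧ p ∉ s ∧ q ∉ s) (ht : t.card = 2 ∧ p ∉ t ∧ q ∉ t) (ht' : t'.card = 2 ∧ p ∉ t' ∧ q ∉ t')
    (h1 : Disjoint s t) (h2 : Disjoint s t') (h3 : Cond p q s t ↔ Cond p q s t') :
    ∃ g ∈ Cfsg.M24, g p = p ∧ g q = q ∧ g • s = s ∧ g • t = t' := by
  obtain ⟨hs2, hps, hqs⟩ := hs
  obtain ⟨ht2, hpt, hqt⟩ := ht
  obtain ⟨ht2', hpt', hqt'⟩ := ht'
  obtain ⟨a, b, hab, rfl⟩ := Finset.card_eq_two.1 hs2
  obtain ⟨c, d, hcd, rfl⟩ := Finset.card_eq_two.1 ht2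
  obtain ⟨c', d', hcd', rfl⟩ := Finset.card_eq_two.1 ht2'
  simp only [Finset.mem_insert, Finset.mem_singleton, not_or] at hps hqs hpt hqt hpt' hqt'
  rw [Finset.disjoint_left] at h1 h2
  have e1 := h1 (a := a) (by simp)
  have e2 := h1 (a := b) (by simp)
  have e3 := h2 (a := a) (by simp)
  have e4 := h2 (a := b) (by simp)
  simp only [Finset.mem_insert, Finset.mem_singleton, not_or] at e1 e2 e3 e4
  have i1 := inj6 hpq hps.1 hps.2 hpt.1 hqs.1 hqs.2 hqt.1 hab e1.1 e2.1 hpt.2 hqt.2 e1.2 e2.2 hcd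
  have i2 := inj6 hpq hps.1 hps.2 hpt'.1 hqs.1 hqs.2 hqt'.1 hab e3.1 e4.1 hpt'.2 hqt'.2 e3.2 e4.2 hcd'
  rw [cond_iff6, cond_iff6] at h3
  have key : ∃ σ ∈ Cfsg.M24, ∀ i : Fin 6, σ ((![p, q, a, b, c, d] : Fin 6 → Cfsg.GolayPt) i) =
      (![p, q, a, b, c', d'] : Fin 6 → Cfsg.GolayPt) i := by
    by_cases h : ∃ o ∈ Cfsg.octads, ∀ i, (![p, q, a, b, c, d] : Fin 6 → Cfsg.GolayPt) i ∈ o
    · exact six_in _ _ i1 i2 h (h3.1 h)
    · exact six_out _ _ i1 i2 h (fun h' => h (h3.2 h'))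
  obtain ⟨σ, hσ, h⟩ := key
  have g0 := h 0
  have g1 := h 1
  have g2 := h 2
  have g3 := h 3
  have g4 := h 4
  have g5 := h 5
  refine ⟨σ, hσ, g0, g1, ?_, ?_⟩
  · rw [smul_pair]
    rw [show σ a = a from g2, show σ b = b from g3]
  · rw [smul_pair]
    rw [show σ c = c' from g4, show σ d = d' from g5]

/-- A pair meeting `s` in one point. -/
theorem one_case_shape {s t : Finset Cfsg.GolayPt} (hs : s.card = 2) (ht : t.card = 2) (h : (s ∩ t).card = 1) :
    ∃ a b x, s = {a, b} ∧ a ≠ b ∧ t = {a, x} ∧ x ≠ a ∧ x ≠ b := by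
  obtain ⟨a, ha⟩ := Finset.card_eq_one.1 h
  have has : a ∈ s := by
    have : a ∈ s ∩ t := by rw [ha]; simp
    exact (Finset.mem_inter.1 this).1
  have hat : a ∈ t := by
    have : a ∈ s ∩ t := by rw [ha]; simp
    exact (Finset.mem_inter.1 this).2
  have h1 : (s.erase a).card = 1 := by rw [Finset.card_erase_of_mem has, hs]
  have h2 : (t.erase a).card = 1 := by rw [Finset.card_erase_of_mem hat, ht]
  obtain ⟨b, hb⟩ := Finset.card_eq_one.1 h1
  obtain ⟨x, hx⟩ := Finset.card_eq_one.1 h2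
  have hbs : b ∈ s.erase a := by rw [hb]; simp
  have hxt : x ∈ t.erase a := by rw [hx]; simp
  rw [Finset.mem_erase] at hbs hxt
  refine ⟨a, b, x, ?_, hbs.1.symm, ?_, hxt.1, ?_⟩
  · rw [← Finset.insert_erase has, hb]
  · rw [← Finset.insert_erase hat, hx]
  · rintro rfl
    have : x ∈ s ∩ t := Finset.mem_inter.2 ⟨hbs.2, hxt.2⟩
    rw [ha, Finset.mem_singleton] at this
    exact hxt.1 this

theorem one_case {p q : Cfsg.GolayPt} (hpq : p ≠ q) {s t t' : Finset Cfsg.GolayPt}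
    (hs : s.card = 2 ∧ p ∉ s ∧ q ∉ s) (ht : t.card = 2 ∧ p ∉ t ∧ q ∉ t) (ht' : t'.card = 2 ∧ p ∉ t' ∧ q ∉ t')
    (h1 : (s ∩ t).card = 1) (h2 : (s ∩ t').card = 1) :
    ∃ g ∈ Cfsg.M24, g p = p ∧ g q = q ∧ g • s = s ∧ g • t = t' := by
  obtain ⟨hs2, hps, hqs⟩ := hs
  obtain ⟨ht2, hpt, hqt⟩ := ht
  obtain ⟨ht2', hpt', hqt'⟩ := ht'
  obtain ⟨a, b, x, e1, hab, e2, hxa, hxb⟩ := one_case_shape hs2 ht2 h1
  obtain ⟨a', b', x', e3, hab', e4, hxa', hxb'⟩ := one_case_shape hs2 ht2' h2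
  have hps' := hps
  have hqs' := hqs
  rw [e1] at hps hqs
  rw [e3] at hps' hqs'
  rw [e2] at hpt hqt
  rw [e4] at hpt' hqt'
  simp only [Finset.mem_insert, Finset.mem_singleton, not_or] at hps hqs hpt hqt hpt' hqt' hps' hqs'
  have i1 := inj5 hpq hps.1 hps.2 hpt.2 hqs.1 hqs.2 hqt.2 hab hxa.symm hxb.symm
  have i2 := inj5 hpq hps'.1 hps'.2 hpt'.2 hqs'.1 hqs'.2 hqt'.2 hab' hxa'.symm hxb'.symm
  obtain ⟨σ, hσ, g0, g1, g2, g3, g4⟩ := map5 i1 i2
  refine ⟨σ, hσ, g0, g1, ?_, ?_⟩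
  · rw [e1, smul_pair, g2, g3, ← e3, e1]
  · rw [e2, smul_pair, g2, g4, ← e4]


/-- Fix two points p ≠ q and a pair s of two further points. Among the pairs avoiding p, q and disjoint from s, exactly 30 lie in an octad together with p, q and s and exactly 160 do not; and any two pairs other than s that meet s in equally many points and agree on that octad property are carried to one another by an element of the group of the length-24 code fixing p, q and s. -/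
theorem result (p q : Cfsg.GolayPt) (hpq : p ≠ q) (s : Finset Cfsg.GolayPt) (hs : (s.card = 2 ∧ p ∉ s ∧ q ∉ s)) : {t : Finset Cfsg.GolayPt | (t.card = 2 ∧ p ∉ t ∧ q ∉ t) ∧ Disjoint s t ∧ (∃ o ∈ Cfsg.octads, p ∈ o ∧ q ∈ o ∧ s ∪ t ⊆ o)}.ncard = 30 ∧ {t : Finset Cfsg.GolayPt | (t.card = 2 ∧ p ∉ t ∧ q ∉ t) ∧ Disjoint s t ∧ ¬ (∃ o ∈ Cfsg.octads, p ∈ o ∧ q ∈ o ∧ s ∪ t ⊆ o)}.ncard = 160 ∧ ∀ t t' : Finset Cfsg.GolayPt, (t.card = 2 ∧ p ∉ t ∧ q ∉ t) → (t'.card = 2 ∧ p ∉ t' ∧ q ∉ t') → t ≠ s → t' ≠ s → (s ∩ t).card = (s ∩ t').card → ((∃ o ∈ Cfsg.octads, p ∈ o ∧ q ∈ o ∧ s ∪ t ⊆ o) ↔ (∃ o ∈ Cfsg.octads, p ∈ o ∧ q ∈ o ∧ s ∪ t' ⊆ o)) → ∃ g : Equiv.Perm Cfsg.GolayPt, g ∈ Cfsg.M24 ∧ g p = p ∧ g q = q ∧ g • s = s ∧ g • t = t' := by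
  obtain ⟨hs2, hps, hqs⟩ := hs
  set b : Finset Cfsg.GolayPt := insert p (insert q s) with hb
  have hqs' : (insert q s).card = 3 := by rw [Finset.card_insert_of_notMem hqs, hs2]
  have hpn : p ∉ insert q s := by
    rw [Finset.mem_insert, not_or]; exact ⟨hpq, hps⟩
  have hb4 : b.card = 4 := by rw [hb, Finset.card_insert_of_notMem hpn, hqs']
  set Sin : Finset (Finset Cfsg.GolayPt) := (octOver b).biUnion (fun o => (o \ b).powersetCard 2) with hSin
  set Sall : Finset (Finset Cfsg.GolayPt) := (bᶜ).powersetCard 2 with hSall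
  have hcin : Sin.card = 30 := by
    rw [hSin, Finset.card_biUnion]
    · rw [Finset.sum_congr rfl (g := fun _ => 6)]
      · rw [Finset.sum_const, card_octOver_four hb4]; rfl
      · intro o ho
        rw [mem_octOver] at ho
        rw [Finset.card_powersetCard, Finset.card_sdiff_of_subset ho.2, hb4, card_octad ho.1]
        decide
    · intro o ho o' ho' hne
      rw [Finset.mem_coe, mem_octOver] at *
      change Disjoint _ _
      rw [Finset.disjoint_left]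
      intro t ht ht'
      rw [Finset.mem_powersetCard] at ht ht'
      apply hne
      apply octad_eq_of_subset ho.1 ho'.1 (s := b ∪ t)
      · exact Finset.union_subset ho.2 (ht.1.trans Finset.sdiff_subset)
      · exact Finset.union_subset ho'.2 (ht'.1.trans Finset.sdiff_subset)
      · rw [Finset.card_union_of_disjoint, hb4, ht.2]; norm_num
        rw [Finset.disjoint_left]
        intro x hx hx'
        exact (Finset.mem_sdiff.1 (ht.1 hx')).2 hx
  have hcall : Sall.card = 190 := by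
    rw [hSall, Finset.card_powersetCard, Finset.card_compl, card_golayPt, hb4]
    decide
  have hmall : ∀ t, t ∈ Sall ↔ (t.card = 2 ∧ p ∉ t ∧ q ∉ t) ∧ Disjoint s t := by
    intro t
    rw [hSall, Finset.mem_powersetCard]
    constructor
    · rintro ⟨h1, h2⟩
      have h3 : ∀ x ∈ t, x ∉ b := fun x hx => Finset.mem_compl.1 (h1 hx)
      refine ⟨⟨h2, fun h => h3 p h (by simp [hb]), fun h => h3 q h (by simp [hb])⟩, ?_⟩
      rw [Finset.disjoint_right]
      intro x hx hxs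
      exact h3 x hx (by simp [hb, hxs])
    · rintro ⟨⟨h1, h2, h3⟩, h4⟩
      refine ⟨?_, h1⟩
      intro x hx
      rw [Finset.mem_compl, hb, Finset.mem_insert, Finset.mem_insert]
      rintro (rfl | rfl | hxs)
      · exact h2 hx
      · exact h3 hx
      · exact Finset.disjoint_left.1 h4 hxs hx
  have hmin : ∀ t, t ∈ Sin ↔ ((t.card = 2 ∧ p ∉ t ∧ q ∉ t) ∧ Disjoint s t) ∧ Cond p q s t := by
    intro t
    rw [← hmall, hSin, Finset.mem_biUnion]
    constructor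
    · rintro ⟨o, ho, ht⟩
      rw [mem_octOver] at ho
      rw [Finset.mem_powersetCard] at ht
      refine ⟨?_, o, ho.1, ho.2 (by simp [hb]), ho.2 (by simp [hb]), ?_⟩
      · rw [hSall, Finset.mem_powersetCard]
        refine ⟨fun x hx => Finset.mem_compl.2 (Finset.mem_sdiff.1 (ht.1 hx)).2, ht.2⟩
      · apply Finset.union_subset
        · exact fun x hx => ho.2 (by simp [hb, hx])
        · exact ht.1.trans Finset.sdiff_subset
    · rintro ⟨h1, o, ho, h2, h3, h4⟩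
      rw [hSall, Finset.mem_powersetCard] at h1
      refine ⟨o, ?_, ?_⟩
      · rw [mem_octOver]
        refine ⟨ho, ?_⟩
        intro x hx
        rw [hb, Finset.mem_insert, Finset.mem_insert] at hx
        rcases hx with rfl | rfl | hx
        · exact h2
        · exact h3
        · exact h4 (Finset.mem_union_left _ hx)
      · rw [Finset.mem_powersetCard]
        refine ⟨fun x hx => Finset.mem_sdiff.2 ⟨h4 (Finset.mem_union_right _ hx), Finset.mem_compl.1 (h1.1 hx)⟩, h1.2⟩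
  have hsub : Sin ⊆ Sall := fun t ht => (hmall t).2 ((hmin t).1 ht).1
  refine ⟨?_, ?_, ?_⟩
  · rw [← hcin, ← Set.ncard_coe_finset]
    congr 1
    ext t
    rw [Finset.mem_coe, hmin]
    simp only [Set.mem_ofPred_eq, and_assoc]
    rfl
  · have : (Sall \ Sin).card = 160 := by rw [Finset.card_sdiff_of_subset hsub, hcin, hcall]
    rw [← this, ← Set.ncard_coe_finset]
    congr 1
    ext t
    rw [Finset.mem_coe, Finset.mem_sdiff, hmall, hmin]
    change ((t.card = 2 ∧ p ∉ t ∧ q ∉ t) ∧ Disjoint s t ∧ ¬ Cond p q s t) ↔ _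
    tauto
  · intro t t' ht ht' hne hne' hc hcond
    change Cond p q s t ↔ Cond p q s t' at hcond
    have hle : (s ∩ t).card ≤ 2 := hs2 ▸ Finset.card_le_card Finset.inter_subset_left
    have h2 : (s ∩ t).card ≠ 2 := by
      intro h
      have h1 : s ∩ t = s := Finset.eq_of_subset_of_card_le Finset.inter_subset_left (by rw [h, hs2])
      have h3 : s ∩ t = t := Finset.eq_of_subset_of_card_le Finset.inter_subset_right (by rw [h, ht.1])
      exact hne (h3.symm.trans h1)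
    rcases (show (s ∩ t).card = 0 ∨ (s ∩ t).card = 1 by omega) with h | h
    · apply disj_case hpq ⟨hs2, hps, hqs⟩ ht ht' _ _ hcond
      · rw [Finset.disjoint_iff_inter_eq_empty]; exact Finset.card_eq_zero.1 h
      · rw [Finset.disjoint_iff_inter_eq_empty]; exact Finset.card_eq_zero.1 (hc ▸ h)
    · exact one_case hpq ⟨hs2, hps, hqs⟩ ht ht' h (hc ▸ h)

end Cfsg.Agent.S1638
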