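import Cfsg.Statements.S1643
import Cfsg.Agent.M24X.L223

set_option autoImplicit false
open scoped Pointwise
open Cfsg

namespace Cfsg.Agent.S1643

open Cfsg MulAction Cfsg.Agent.Golay Cfsg.Agent.M24X Cfsg.Agent.M24X.L223

abbrev sh (a : ZMod 23) : Equiv.Perm GolayPt := Equiv.optionCongr (Equiv.addRight a)

abbrev ml (u : (ZMod 23)ˣ) : Equiv.Perm GolayPt := Equiv.optionCongr (Units.mulLeft u)

theorem sh_mul (a b : ZMod 23) : sh a * sh b = sh (b + a) := by
  ext p : 1
  cases p with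
  | none => rfl
  | some z =>
    show some (z + b + a) = some (z + (b + a))
    rw [add_assoc]

theorem sh_one_pow (n : ℕ) : sh 1 ^ n = sh (n : ZMod 23) := by
  induction n with
  | zero =>
    ext p : 1
    cases p with
    | none => rfl
    | some z =>
      show some z = some (z + ((0 : ℕ) : ZMod 23))
      simp
  | succ n ih =>
    rw [pow_succ, ih, sh_mul]
    congr 1
    push_cast
    ring

theorem sh_mem (a : ZMod 23) : sh a ∈ Subgroup.zpowers (sh 1) := by
  refine Subgroup.mem_zpowers_iff.2 ⟨(a.val : ℤ), ?_⟩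
  rw [zpow_natCast, sh_one_pow, ZMod.natCast_val, ZMod.cast_id]

theorem ml_sh (u : (ZMod 23)ˣ) (a : ZMod 23) : ml u * sh a * (ml u)⁻¹ = sh (u * a) := by
  rw [mul_inv_eq_iff_eq_mul]
  ext p : 1
  cases p with
  | none => rfl
  | some z =>
    show some ((u : ZMod 23) * (z + a)) = some ((u : ZMod 23) * z + u * a)
    rw [mul_add]

theorem ml_inv (u : (ZMod 23)ˣ) : (ml u)⁻¹ = ml u⁻¹ := by
  rw [inv_eq_iff_mul_eq_one]
  ext p : 1
  cases p with
  | none => rfl
  | some z =>
    show some ((u : ZMod 23) * (((u⁻¹ : (ZMod 23)ˣ) : ZMod 23) * z)) = some z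
    rw [Units.mul_inv_cancel_left]

theorem conj_mem (u : (ZMod 23)ˣ) {h : Equiv.Perm GolayPt} (hh : h ∈ Subgroup.zpowers (sh 1)) :
    ml u * h * (ml u)⁻¹ ∈ Subgroup.zpowers (sh 1) := by
  obtain ⟨i, rfl⟩ := Subgroup.mem_zpowers_iff.1 hh
  rw [← conj_zpow, ml_sh]
  exact zpow_mem (sh_mem _) i

theorem ml_norm (u : (ZMod 23)ˣ) : ml u ∈ Subgroup.normalizer (Subgroup.zpowers (sh 1) : Set (Equiv.Perm GolayPt)) := by
  rw [Subgroup.mem_normalizer_iff]
  intro h
  refine ⟨conj_mem u, fun hh => ?_⟩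
  have h1 := conj_mem u⁻¹ hh
  rw [← ml_inv] at h1
  have h2 : (ml u)⁻¹ * (ml u * h * (ml u)⁻¹) * (ml u)⁻¹⁻¹ = h := by group
  rwa [h2] at h1

/-- the generators of `23:11` -/
abbrev SB : Set (Equiv.Perm GolayPt) := {Equiv.optionCongr (Equiv.addRight (1 : ZMod 23))} ∪ {g : Equiv.Perm Cfsg.GolayPt | ∃ u : (ZMod 23)ˣ, IsSquare u ∧ g = Equiv.optionCongr (Units.mulLeft u)}

abbrev SL : Set (Equiv.Perm GolayPt) := {Equiv.optionCongr (Equiv.addRight (1 : ZMod 23)), Cfsg.projInv} ∪ {g : Equiv.Perm Cfsg.GolayPt | ∃ u : (ZMod 23)ˣ, IsSquare u ∧ g = Equiv.optionCongr (Units.mulLeft u)}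

theorem sh_in : sh 1 ∈ M24 := shift_mem

theorem SB_sub : SB ⊆ SL := by
  rintro g (h | h)
  · exact Or.inl (Or.inl h)
  · exact Or.inr h

theorem L_le : Subgroup.closure SL ≤ M24 := by
  rw [Subgroup.closure_le]
  rintro g ((rfl | rfl) | ⟨u, hu, rfl⟩)
  · exact sh_in
  · exact projInv_mem
  · exact mulSquare_mem u hu

theorem B_le_L : Subgroup.closure SB ≤ Subgroup.closure SL := Subgroup.closure_mono SB_sub

theorem B_le : Subgroup.closure SB ≤ M24 ⊓ stabilizer (Equiv.Perm GolayPt) (none : GolayPt) := by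
  refine le_inf (B_le_L.trans L_le) ?_
  rw [Subgroup.closure_le]
  rintro g (rfl | ⟨u, hu, rfl⟩)
  · rfl
  · rfl

theorem B_norm : Subgroup.closure SB ≤
    Subgroup.normalizer (Subgroup.zpowers (sh 1) : Set (Equiv.Perm GolayPt)) := by
  rw [Subgroup.closure_le]
  rintro g (rfl | ⟨u, hu, rfl⟩)
  · exact Subgroup.le_normalizer (Subgroup.mem_zpowers _)
  · exact ml_norm u

def u2 : (ZMod 23)ˣ := ⟨2, 12, by decide, by decide⟩

def u5 : (ZMod 23)ˣ := ⟨5, 14, by decide, by decide⟩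

theorem u2_sq : IsSquare u2 := ⟨u5, by decide⟩

def c : M24 := ⟨sh 1, sh_in⟩

def d : M24 := ⟨ml u2, mulSquare_mem u2 u2_sq⟩

theorem c_pow : sh 1 ^ 23 = 1 := by decide +kernel

theorem c_ne : sh 1 ≠ 1 := by decide +kernel

theorem order_c : orderOf c = 23 := by
  have hp : Fact (Nat.Prime 23) := ⟨by norm_num⟩
  rw [← Subgroup.orderOf_coe]
  exact orderOf_eq_prime c_pow c_ne

theorem order_d : orderOf d = 11 := by
  have hp : Fact (Nat.Prime 11) := ⟨by norm_num⟩
  rw [← Subgroup.orderOf_coe]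
  apply orderOf_eq_prime
  · show ml u2 ^ 11 = 1
    decide +kernel
  · show ml u2 ≠ 1
    decide +kernel

abbrev B' : Subgroup M24 := (Subgroup.closure SB).subgroupOf M24

abbrev L' : Subgroup M24 := (Subgroup.closure SL).subgroupOf M24

theorem c_mem : c ∈ B' := Subgroup.mem_subgroupOf.2 (Subgroup.subset_closure (Or.inl rfl))

theorem d_mem : d ∈ B' := Subgroup.mem_subgroupOf.2 (Subgroup.subset_closure (Or.inr ⟨u2, u2_sq, rfl⟩))

theorem mem_zp {h : M24} : h ∈ Subgroup.zpowers c ↔ h.1 ∈ Subgroup.zpowers (sh 1) := by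
  rw [Subgroup.mem_zpowers_iff, Subgroup.mem_zpowers_iff]
  constructor
  · rintro ⟨k, rfl⟩
    exact ⟨k, rfl⟩
  · rintro ⟨k, hk⟩
    exact ⟨k, Subtype.ext hk⟩

theorem B'_norm : B' ≤ Subgroup.normalizer (Subgroup.zpowers c : Set M24) := by
  intro g hg
  have h1 := B_norm (Subgroup.mem_subgroupOf.1 hg)
  rw [Subgroup.mem_normalizer_iff] at h1 ⊢
  intro h
  rw [mem_zp, mem_zp]
  exact h1 h.1

theorem B'_fix : B' ≤ FX {none} := by
  intro g hg p hp
  rw [Finset.mem_singleton.1 hp]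
  exact (B_le (Subgroup.mem_subgroupOf.1 hg)).2

theorem B'_le : B' ≤ L' := fun _ hg => B_le_L hg

theorem trans_L (y : GolayPt) : ∃ g ∈ L', g • (none : GolayPt) = y := by
  cases y with
  | none => exact ⟨1, one_mem _, rfl⟩
  | some z =>
    have h1 : c ∈ L' := B'_le c_mem
    have h2 : (⟨projInv, projInv_mem⟩ : M24) ∈ L' :=
      Subgroup.mem_subgroupOf.2 (Subgroup.subset_closure (Or.inl (Or.inr rfl)))
    refine ⟨c ^ z.val * ⟨projInv, projInv_mem⟩, mul_mem (pow_mem h1 _) h2, ?_⟩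
    rw [mul_smul]
    have h3 : (⟨projInv, projInv_mem⟩ : M24) • (none : GolayPt) = some 0 := rfl
    rw [h3]
    have h4 : (c ^ z.val : M24) • (some 0 : GolayPt) = (sh 1 ^ z.val) (some 0) := rfl
    rw [h4, sh_one_pow]
    show some (0 + ((z.val : ℕ) : ZMod 23)) = some z
    rw [ZMod.natCast_val, ZMod.cast_id, zero_add]

instance : Fact (Nat.Prime 23) := ⟨by norm_num⟩

open Matrix

/-- the action of `GL₂(23)` on the projective line -/
noncomputable def φ : GL (Fin 2) (ZMod 23) →* Equiv.Perm GolayPt :=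
  MulAction.toPermHom (GL (Fin 2) (ZMod 23)) (OnePoint (ZMod 23))

theorem φ_none (g : GL (Fin 2) (ZMod 23)) :
    φ g (none : GolayPt) = if g 1 0 = 0 then none else some (g 0 0 / g 1 0) :=
  OnePoint.smul_infty_eq_ite g

theorem φ_some (g : GL (Fin 2) (ZMod 23)) (k : ZMod 23) :
    φ g (some k : GolayPt) = if g 1 0 * k + g 1 1 = 0 then none else
      some ((g 0 0 * k + g 0 1) / (g 1 0 * k + g 1 1)) :=
  OnePoint.smul_some_eq_ite

theorem L_le_range : Subgroup.closure SL ≤ φ.range := by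
  rw [Subgroup.closure_le]
  rintro g ((rfl | rfl) | ⟨u, hu, rfl⟩)
  · refine ⟨Matrix.GeneralLinearGroup.mkOfDetNeZero !![1, 1; 0, 1] (by simp), ?_⟩
    ext p : 1
    cases p with
    | none => rw [φ_none]; simp [Matrix.GeneralLinearGroup.mkOfDetNeZero]
    | some z => rw [φ_some]; simp [Matrix.GeneralLinearGroup.mkOfDetNeZero]
  · refine ⟨Matrix.GeneralLinearGroup.mkOfDetNeZero !![0, -1; 1, 0] (by simp), ?_⟩
    ext p : 1
    cases p with
    | none =>
      rw [φ_none]
      have : projInv (none : GolayPt) = some 0 := rfl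
      rw [this]
      simp [Matrix.GeneralLinearGroup.mkOfDetNeZero]
    | some z =>
      rw [φ_some]
      have h1 : projInv (some z : GolayPt) = if z = 0 then none else some (-(z ^ 21)) := rfl
      rw [h1]
      by_cases hz : z = 0
      · simp [Matrix.GeneralLinearGroup.mkOfDetNeZero, hz]
      · have h2 : z ^ 21 = z⁻¹ := by
          have h3 : z ^ 21 * z = 1 := by
            rw [← pow_succ]
            exact ZMod.pow_card_sub_one_eq_one hz
          exact eq_inv_of_mul_eq_one_left h3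
        rw [h2]
        simp [Matrix.GeneralLinearGroup.mkOfDetNeZero, hz, div_eq_mul_inv]
  · refine ⟨Matrix.GeneralLinearGroup.mkOfDetNeZero !![(u : ZMod 23), 0; 0, 1] (by simp), ?_⟩
    ext p : 1
    cases p with
    | none => rw [φ_none]; simp [Matrix.GeneralLinearGroup.mkOfDetNeZero]
    | some z => rw [φ_some]; simp [Matrix.GeneralLinearGroup.mkOfDetNeZero]

theorem card_GL_le : Nat.card (GL (Fin 2) (ZMod 23)) ≤ 279841 := by
  have h1 : Nat.card (GL (Fin 2) (ZMod 23)) ≤ Nat.card (Matrix (Fin 2) (Fin 2) (ZMod 23)) :=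
    Nat.card_le_card_of_injective (fun g : GL (Fin 2) (ZMod 23) => (g : Matrix (Fin 2) (Fin 2) (ZMod 23))) Units.val_injective
  have h2 : Nat.card (Matrix (Fin 2) (Fin 2) (ZMod 23)) = 279841 := by
    rw [Matrix, Nat.card_fun, Nat.card_fun]
    simp
  rwa [h2] at h1

theorem card_L_le : Nat.card (Subgroup.closure SL) ≤ 279841 := by
  refine (Subgroup.card_le_of_le L_le_range).trans (le_trans ?_ card_GL_le)
  exact Nat.card_le_card_of_surjective φ.rangeRestrict φ.rangeRestrict_surjective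

theorem card_sub {K : Subgroup (Equiv.Perm GolayPt)} (h : K ≤ M24) : Nat.card (K.subgroupOf M24) = Nat.card K :=
  Nat.card_congr (Subgroup.subgroupOfEquivOfLe h).toEquiv

theorem max_L' {J : Subgroup M24} (h : L' ≤ J) : Nat.card J = 6072 ∨ J = ⊤ :=
  max_L order_c order_d c_mem d_mem B'_norm B'_fix (B'_le.trans h) (fun y => by
    obtain ⟨g, hg, h1⟩ := trans_L y
    exact ⟨g, h hg, h1⟩)

theorem card_L' : Nat.card L' = 6072 := by
  rcases max_L' (le_refl L') with h | h
  · exact h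
  · exfalso
    have h1 : Nat.card L' = 244823040 := by rw [h, Subgroup.card_top, card_M24x]
    rw [card_sub L_le] at h1
    have := card_L_le
    omega

theorem coatom_L : IsCoatom L' := by
  constructor
  · intro h
    have h1 := card_L'
    rw [h, Subgroup.card_top, card_M24x] at h1
    omega
  · intro J hJ
    rcases max_L' hJ.le with h | h
    · exfalso
      exact hJ.ne (Subgroup.eq_of_le_of_card_ge hJ.le (by rw [h, card_L']))
    · exact h

theorem card_B' : Nat.card B' = 253 := card_B order_c order_d c_mem d_mem B'_norm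

theorem stab_none : stabilizer M24 (none : GolayPt) = FX {none} := by
  ext g
  rw [mem_FX, mem_stabilizer_iff]
  simp

theorem coatom_B : IsCoatom (B'.subgroupOf (stabilizer M24 (none : GolayPt))) := by
  have hle : B' ≤ stabilizer M24 (none : GolayPt) := by rw [stab_none]; exact B'_fix
  constructor
  · intro h
    have h1 : Nat.card (B'.subgroupOf (stabilizer M24 (none : GolayPt))) = 253 := by
      rw [Nat.card_congr (Subgroup.subgroupOfEquivOfLe hle).toEquiv, card_B']
    rw [h, Subgroup.card_top, stab_none, card_FX1 (Finset.card_singleton _)] at h1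
    omega
  · intro J hJ
    have hJ1 : B' ≤ J.map (stabilizer M24 (none : GolayPt)).subtype := by
      intro g hg
      exact ⟨⟨g, hle hg⟩, hJ.le (Subgroup.mem_subgroupOf.2 hg), rfl⟩
    have hJ2 : J.map (stabilizer M24 (none : GolayPt)).subtype ≤ FX {none} := by
      rw [← stab_none]
      exact Subgroup.map_subtype_le J
    rcases max_B order_c order_d c_mem d_mem B'_norm hJ1 hJ2 with h | h
    · exfalso
      apply hJ.not_ge
      intro g hg
      rw [Subgroup.mem_subgroupOf, ← h]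
      exact ⟨g, hg, rfl⟩
    · rw [eq_top_iff]
      intro g _
      have h1 : (g : M24) ∈ J.map (stabilizer M24 (none : GolayPt)).subtype := by
        rw [h, ← stab_none]
        exact g.2
      obtain ⟨g', hg', h2⟩ := h1
      have h3 : g' = g := Subtype.ext h2
      rwa [← h3]

/-- PSL(2, 23) = ⟨t ↦ t+1, t ↦ u t (u square), t ↦ −1/t⟩ is maximal of order 6072 in the group of the length-24 code, and its point stabiliser 23:11 (order 253) is maximal in the Mathieu group of degree 23. -/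
theorem result : (Subgroup.closure ({Equiv.optionCongr (Equiv.addRight (1 : ZMod 23)), Cfsg.projInv} ∪ {g : Equiv.Perm Cfsg.GolayPt | ∃ u : (ZMod 23)ˣ, IsSquare u ∧ g = Equiv.optionCongr (Units.mulLeft u)}) ≤ Cfsg.M24 ∧ Nat.card ↥(Subgroup.closure ({Equiv.optionCongr (Equiv.addRight (1 : ZMod 23)), Cfsg.projInv} ∪ {g : Equiv.Perm Cfsg.GolayPt | ∃ u : (ZMod 23)ˣ, IsSquare u ∧ g = Equiv.optionCongr (Units.mulLeft u)})) = 6072 ∧ IsCoatom ((Subgroup.closure ({Equiv.optionCongr (Equiv.addRight (1 : ZMod 23)), Cfsg.projInv} ∪ {g : Equiv.Perm Cfsg.GolayPt | ∃ u : (ZMod 23)ˣ, IsSquare u ∧ g = Equiv.optionCongr (Units.mulLeft u)})).subgroupOf Cfsg.M24)) ∧ (Subgroup.closure ({Equiv.optionCongr (Equiv.addRight (1 : ZMod 23))} ∪ {g : Equiv.Perm Cfsg.GolayPt | ∃ u : (ZMod 23)ˣ, IsSquare u ∧ g = Equiv.optionCongr (Units.mulLeft u)}) ≤ Cfsg.M24 ⊓ MulAction.stabilizer (Equiv.Perm Cfsg.GolayPt) (none : Cfsg.GolayPt) ∧ Nat.card ↥(Subgroup.closure ({Equiv.optionCongr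 (Equiv.addRight (1 : ZMod 23))} ∪ {g : Equiv.Perm Cfsg.GolayPt | ∃ u : (ZMod 23)ˣ, IsSquare u ∧ g = Equiv.optionCongr (Units.mulLeft u)})) = 253 ∧ IsCoatom (((Subgroup.closure ({Equiv.optionCongr (Equiv.addRight (1 : ZMod 23))} ∪ {g : Equiv.Perm Cfsg.GolayPt | ∃ u : (ZMod 23)ˣ, IsSquare u ∧ g = Equiv.optionCongr (Units.mulLeft u)})).subgroupOf Cfsg.M24).subgroupOf (MulAction.stabilizer Cfsg.M24 (none : Cfsg.GolayPt)))) := by
  refine ⟨⟨L_le, ?_, coatom_L⟩, B_le, ?_, coatom_B⟩
  · rw [← card_sub L_le]; exact card_L'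
  · rw [← card_sub (B_le_L.trans L_le)]; exact card_B'

end Cfsg.Agent.S1643
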