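import Cfsg.Statements.S1644
import Cfsg.Agent.JU.Iso
import Cfsg.Agent.J1.Cent
import Cfsg.Agent.J1.Theory

set_option autoImplicit false
open Cfsg

namespace Cfsg.Agent.S1644

/-- The first Janko group recognised by an involution centraliser, at the level of isomorphism: a finite simple group with abelian Sylow 2-subgroups of order 8 and an involution whose centraliser is isomorphic to Z/2 × A₅ is isomorphic to the subgroup of GL(7, 11) generated by the two explicit Janko matrices. -/
theorem result {G : Type*} [Group G] [Finite G] [IsSimpleGroup G] (S : Sylow 2 G) (hS : IsMulCommutative (S : Subgroup G)) (h8 : Nat.card S = 8) (t : G) (ht : orderOf t = 2) (e : (Subgroup.centralizer ({t} : Set G)) ≃* Multiplicative (ZMod 2) × alternatingGroup (Fin 5)) : Cfsg.Spor.IsoJ1 G := by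
  have : Fact (Nat.Prime 2) := ⟨Nat.prime_two⟩
  have ht1 : t ≠ 1 := by
    rintro rfl
    rw [orderOf_one] at ht
    exact absurd ht (by norm_num)
  obtain ⟨E, hE⟩ := Cfsg.Agent.JC.exists_emb t ht1 e
  have h16 : ¬ 16 ∣ Nat.card G := by
    intro h
    have h1 : 2 ^ 4 ∣ Nat.card S := S.pow_dvd_card_of_pow_dvd_card (n := 4) h
    rw [h8] at h1
    exact absurd h1 (by norm_num)
  have hd1 : Cfsg.Agent.J1.dJ ≠ 1 := by
    intro h
    have h1 := Cfsg.Agent.J1.orderOf_dJ
    rw [h, orderOf_one] at h1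
    exact absurd h1 (by norm_num)
  obtain ⟨f⟩ := Cfsg.Agent.J1.centralizer_iso
  obtain ⟨F, hF⟩ := Cfsg.Agent.JC.exists_emb Cfsg.Agent.J1.dJ hd1 f
  have h16' : ¬ 16 ∣ Nat.card Cfsg.Spor.J1 := by
    have h1 : Nat.card Cfsg.Spor.J1 = 175560 := Cfsg.Agent.J1.card_J
    rw [h1]
    norm_num
  have hfin : Finite Cfsg.Spor.J1 := inferInstance
  have hs : IsSimpleGroup Cfsg.Spor.J1 := Cfsg.Agent.J1.simple_J
  exact Cfsg.Agent.JC.iso_of_emb E F h16 h16'

end Cfsg.Agent.S1644
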