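import Cfsg.Statements.S1665
import Cfsg.Agent.LE.J2Iso
import Cfsg.Agent.LE.J2Weak
import Cfsg.Agent.H4.Final

set_option autoImplicit false
open Cfsg

namespace Cfsg.Agent.S1665

/-- Uniqueness of the Hall–Janko group at the level of isomorphism: a finite simple group with exactly two conjugacy classes of involutions, having an involution t whose centraliser C has a normal extraspecial subgroup Q of order 32 with no elementary abelian subgroup of order 8 whose centraliser in C lies in Q, and with C / Q isomorphic to the alternating group of degree 5, is isomorphic to the Hall–Janko group J₂ (the reflection group of the icosian Leech lattice modulo its centre). -/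
theorem result {G : Type*} [Group G] [Finite G] [IsSimpleGroup G] (t : G) (ht : orderOf t = 2) (Q : Subgroup (Subgroup.centralizer ({t} : Set G))) [Q.Normal] (hQ : Cfsg.IsExtraspecial 2 Q) (hcard : Nat.card Q = 32) (hminus : ∀ E : Subgroup Q, Cfsg.IsElementaryAbelian 2 E → Nat.card E ≤ 2 ^ 2) (h2c : Subgroup.centralizer (Q : Set (Subgroup.centralizer ({t} : Set G))) ≤ Q) (e : (Subgroup.centralizer ({t} : Set G)) ⧸ Q ≃* alternatingGroup (Fin 5)) (htwo : ∃ x y : G, orderOf x = 2 ∧ orderOf y = 2 ∧ ¬ IsConj x y ∧ ∀ z : G, orderOf z = 2 → IsConj z x ∨ IsConj z y) : Cfsg.Spor.IsoJ2 G := by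
  classical
  have hq : Nat.card ((Subgroup.centralizer ({t} : Set G)) ⧸ Q) = 60 := by
    rw [Nat.card_congr e.toEquiv, Nat.card_eq_fintype_card]
    decide
  obtain ⟨x, B⟩ := Cfsg.Agent.LE.exists_base' ht Q hQ hcard h2c hq
  obtain ⟨a, b, ha, hb, hab, _⟩ := htwo
  by_cases hw : ∀ g : G, g * t * g⁻¹ ∈ Q.map (Subgroup.centralizer ({t} : Set G)).subtype → g * t * g⁻¹ = t
  · exfalso
    obtain ⟨S, hS⟩ := B.exists_sylow
    have hz := Cfsg.Agent.H4.zstar_sylow S ht (fun g hg => B.isolated hw g (Subgroup.mem_centralizer_singleton_iff.1 (hS hg)))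
    have hodd : (Nat.card (Cfsg.pPrimeCore 2 G)).Coprime 2 := Cfsg.Agent.Solv.pPrimeCore_card_coprime 2
    rcases (inferInstance : (Cfsg.pPrimeCore 2 G).Normal).eq_bot_or_eq_top with h | h
    · rw [h] at hz
      have hc : ∀ g, g * t = t * g := by
        intro g
        have := Subgroup.mem_bot.1 (hz g)
        rw [mul_inv_eq_one, mul_inv_eq_iff_eq_mul] at this
        exact this.symm
      have hcen : t ∈ Subgroup.center G := Subgroup.mem_center_iff.2 hc
      have ht1 : t ≠ 1 := B.pl.ne_one
      rcases (inferInstance : (Subgroup.center G).Normal).eq_bot_or_eq_top with h2 | h2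
      · rw [h2, Subgroup.mem_bot] at hcen
        exact ht1 hcen
      · have h3 := Cfsg.Agent.LE.card_le_finset (Q.map (Subgroup.centralizer ({t} : Set G)).subtype) ({1, t} : Finset G) (by
          intro g _
          have hg : g ∈ Subgroup.center G := by rw [h2]; trivial
          have := B.pl.cent g (fun q _ => (Subgroup.mem_center_iff.1 hg q).symm)
          simpa using this)
        rw [B.cardQ] at h3
        have := Finset.card_le_two (a := (1 : G)) (b := t)
        omega
    · rw [h, Subgroup.card_top] at hodd
      have : orderOf t ∣ Nat.card G := orderOf_dvd_natCard t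
      rw [ht] at this
      have h2 := Nat.Coprime.eq_one_of_dvd hodd.symm this
      omega
  · push Not at hw
    obtain ⟨g, h1, h2⟩ := hw
    exact B.isoJ2 ⟨g, h1, h2⟩ ⟨a, b, ha, hb, hab⟩

end Cfsg.Agent.S1665
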