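import Cfsg.Statements.S1652
import Cfsg.Agent.LE.J3U.NC
import Cfsg.Agent.LE.J3U.Iso
import Cfsg.Agent.LE.J3U.L216

set_option autoImplicit false
open Cfsg

namespace Cfsg.Agent.S1652

/-- A group of J₃ type contains SL(2,16):2: let a finite simple group have a single conjugacy class of involutions and an involution t whose centraliser C has a normal extraspecial subgroup Q of order 32 with no elementary abelian subgroup of order 8, whose centraliser in C lies in Q, with C / Q isomorphic to the alternating group of degree 5. Then some subgroup H has a normal subgroup of index 2 isomorphic to the special linear group of dimension 2 over a field with 16 elements. -/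
theorem result {G : Type*} [Group G] [Finite G] [IsSimpleGroup G] (t : G) (ht : orderOf t = 2) (Q : Subgroup (Subgroup.centralizer ({t} : Set G))) [Q.Normal] (hQ : Cfsg.IsExtraspecial 2 Q) (hcard : Nat.card Q = 32) (hminus : ∀ E : Subgroup Q, Cfsg.IsElementaryAbelian 2 E → Nat.card E ≤ 2 ^ 2) (h2c : Subgroup.centralizer (Q : Set (Subgroup.centralizer ({t} : Set G))) ≤ Q) (e : (Subgroup.centralizer ({t} : Set G)) ⧸ Q ≃* alternatingGroup (Fin 5)) (hone : ∀ x y : G, orderOf x = 2 → orderOf y = 2 → IsConj x y) : ∃ (H : Subgroup G) (N : Subgroup H) (K : Type) (_ : Field K) (_ : Fintype K), N.Normal ∧ N.index = 2 ∧ Fintype.card K = 16 ∧ Nonempty (N ≃* Matrix.SpecialLinearGroup (Fin 2) K) := by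
  obtain ⟨_, f, y, a, c⟩ := Cfsg.Agent.LE.J3U.exists_c3' ht Q hQ hcard e hone
  obtain ⟨φ, -⟩ := c.iso
  obtain ⟨ψ, -⟩ := Cfsg.Agent.LE.J3U.iso12
  let χ : Cfsg.Agent.CosetEnum.J3.QJ ≃* G := ψ.trans φ
  let F := GaloisField 2 4
  let _ : Fintype F := Fintype.ofFinite _
  have hF : Fintype.card F = 16 := by
    rw [← Nat.card_eq_fintype_card, GaloisField.card 2 4 (by norm_num)]
    norm_num
  obtain ⟨θ⟩ := Cfsg.Agent.LE.J3U.iso216 hF
  obtain ⟨ι, -⟩ := Cfsg.Agent.CosetEnum.J3.iso4
  let A := Cfsg.Agent.CosetEnum.Cl Cfsg.Agent.CosetEnum.J3.qJ 4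
  let B := Cfsg.Agent.CosetEnum.Cl Cfsg.Agent.CosetEnum.J3.qJ 5
  have hAB : A.map χ.toMonoidHom ≤ B.map χ.toMonoidHom := Subgroup.map_mono Cfsg.Agent.CosetEnum.J3.N_le
  have hcA : Nat.card ((A.map χ.toMonoidHom).subgroupOf (B.map χ.toMonoidHom)) = 4080 := by
    rw [Nat.card_congr (Subgroup.subgroupOfEquivOfLe hAB).toEquiv, Subgroup.card_map_of_injective χ.injective]
    exact Cfsg.Agent.CosetEnum.J3.card_N
  have hcB : Nat.card (B.map χ.toMonoidHom) = 8160 := by
    rw [Subgroup.card_map_of_injective χ.injective]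
    exact Cfsg.Agent.CosetEnum.J3.card_H
  have hidx : ((A.map χ.toMonoidHom).subgroupOf (B.map χ.toMonoidHom)).index = 2 := by
    have h1 := Subgroup.card_mul_index ((A.map χ.toMonoidHom).subgroupOf (B.map χ.toMonoidHom))
    rw [hcA, hcB] at h1
    omega
  refine ⟨B.map χ.toMonoidHom, (A.map χ.toMonoidHom).subgroupOf (B.map χ.toMonoidHom), F, inferInstance, inferInstance,
    Subgroup.normal_of_index_eq_two hidx, hidx, hF, ⟨?_⟩⟩
  exact ((Subgroup.subgroupOfEquivOfLe hAB).trans (A.equivMapOfInjective χ.toMonoidHom χ.injective).symm).trans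
    (ι.symm.trans θ)

end Cfsg.Agent.S1652
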