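import Cfsg.Statements.S1658
import Cfsg.Agent.LE.J3U.NC
import Cfsg.Agent.LE.J3U.Iso
import Cfsg.Agent.J3M.Final

set_option autoImplicit false
open Cfsg

namespace Cfsg.Agent.S1658

/-- Uniqueness of the third Janko group at the level of isomorphism: a finite simple group with one conjugacy class of involutions, having an involution t whose centraliser C has a normal extraspecial subgroup Q of order 32 with no elementary abelian subgroup of order 8 whose centraliser in C lies in Q, and with C / Q isomorphic to the alternating group of degree 5, is isomorphic to the third Janko group J₃ (the explicit matrix group over the field with four elements modulo its centre). -/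
theorem result {G : Type*} [Group G] [Finite G] [IsSimpleGroup G] (t : G) (ht : orderOf t = 2) (Q : Subgroup (Subgroup.centralizer ({t} : Set G))) [Q.Normal] (hQ : Cfsg.IsExtraspecial 2 Q) (hcard : Nat.card Q = 32) (hminus : ∀ E : Subgroup Q, Cfsg.IsElementaryAbelian 2 E → Nat.card E ≤ 2 ^ 2) (h2c : Subgroup.centralizer (Q : Set (Subgroup.centralizer ({t} : Set G))) ≤ Q) (e : (Subgroup.centralizer ({t} : Set G)) ⧸ Q ≃* alternatingGroup (Fin 5)) (hone : ∀ x y : G, orderOf x = 2 → orderOf y = 2 → IsConj x y) : Cfsg.Spor.IsoJ3 G := by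
  obtain ⟨_, f, y, a, c⟩ := Cfsg.Agent.LE.J3U.exists_c3' ht Q hQ hcard e hone
  obtain ⟨φ, -⟩ := c.iso
  obtain ⟨ψ, -⟩ := Cfsg.Agent.LE.J3U.iso12
  let F := GaloisField 2 2
  let _ : Fintype F := Fintype.ofFinite _
  have hF : Fintype.card F = 4 := by
    rw [← Nat.card_eq_fintype_card, GaloisField.card 2 2 (by norm_num)]
    norm_num
  have hw : ∃ ω : F, ω ^ 2 + ω + 1 = 0 := by
    classical
    have h3 : Fintype.card Fˣ = 3 := by rw [Fintype.card_units, hF]
    obtain ⟨x, hx⟩ := Fintype.exists_ne_of_one_lt_card (by rw [h3]; norm_num) (1 : Fˣ)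
    refine ⟨x, ?_⟩
    have h1 : x ^ 3 = 1 := by rw [← h3]; exact pow_card_eq_one
    have h2 : ((x : F) - 1) * ((x : F) ^ 2 + x + 1) = 0 := by
      have : (x : F) ^ 3 = 1 := by rw [← Units.val_pow_eq_pow_val, h1, Units.val_one]
      linear_combination this
    rcases mul_eq_zero.1 h2 with h | h
    · exact absurd (Units.ext (by rw [Units.val_one]; exact sub_eq_zero.1 h)) hx
    · exact h
  obtain ⟨ω, hω⟩ := hw
  obtain ⟨-, -, -, e3, -⟩ := Cfsg.Agent.J3M.main (Cfsg.Agent.J3M.Om.of_card hF hω)
  exact ⟨F, inferInstance, inferInstance, ω, hF, hω, ⟨φ.symm.trans (ψ.symm.trans e3)⟩⟩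

end Cfsg.Agent.S1658
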