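import Cfsg.Statements.S1691

set_option autoImplicit false
open Cfsg

namespace Cfsg.Agent.S1691

open Cfsg.Spor

theorem edge_mem {x y : Fi24.Gen} (hx : x ∈ coxNodes Fi24.edges) (hy : y ∈ coxNodes Fi24.edges) :
    ((PresentedGroup.of x * PresentedGroup.of y : Fi24)) ^ coxLabel Fi24.edges x y = 1 := by
  have : (FreeGroup.of x * FreeGroup.of y) ^ coxLabel Fi24.edges x y ∈
      coxRelators Fi24.edges ∪ {r | r ∈ Fi24.extra} :=
    Set.mem_union_left _ ⟨x, hx, y, hy, rfl⟩
  have h := PresentedGroup.one_of_mem this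
  simpa [PresentedGroup.of] using h

theorem mem_nodes (x : Fi24.Gen) : x ∈ coxNodes Fi24.edges := by
  cases x <;> decide

theorem sq_one (x : Fi24.Gen) : (PresentedGroup.of x : Fi24) ^ 2 = 1 := by
  have h := edge_mem (mem_nodes x) (mem_nodes x)
  have hl : coxLabel Fi24.edges x x = 1 := by simp [coxLabel]
  rw [hl, pow_one] at h
  rw [pow_two]; exact h

/-- image of a generator in the abelianization -/
noncomputable def ab (x : Fi24.Gen) : Abelianization Fi24 := Abelianization.of (PresentedGroup.of x : Fi24)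

theorem ab_sq (x : Fi24.Gen) : ab x ^ 2 = 1 := by
  unfold ab; rw [← map_pow, sq_one, map_one]

theorem ab_eq {x y : Fi24.Gen} (h : coxLabel Fi24.edges x y = 3) : ab x = ab y := by
  have h1 := edge_mem (mem_nodes x) (mem_nodes y)
  rw [h] at h1
  have h2 : (ab x * ab y) ^ 3 = 1 := by
    unfold ab; rw [← map_mul, ← map_pow, h1, map_one]
  have hx := ab_sq x
  have hy := ab_sq y
  have h3 : ab x * ab y = 1 := by
    have : (ab x * ab y) ^ 3 = (ab x ^ 2) * (ab y ^ 2) * (ab x * ab y) := by
      rw [mul_pow]; simp only [pow_succ, pow_zero, one_mul]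
      ac_rfl
    rw [this, hx, hy] at h2
    simpa using h2
  have h4 : ab y * ab y = 1 := by rw [← pow_two]; exact hy
  exact mul_right_cancel (h3.trans h4.symm)

theorem ab_eq_d (x : Fi24.Gen) : ab x = ab Fi24.Gen.d := by
  have hlk : ab Fi24.Gen.l = ab Fi24.Gen.k := ab_eq (by decide)
  have hka : ab Fi24.Gen.k = ab Fi24.Gen.a := ab_eq (by decide)
  have hab : ab Fi24.Gen.a = ab Fi24.Gen.b := ab_eq (by decide)
  have hbc : ab Fi24.Gen.b = ab Fi24.Gen.c := ab_eq (by decide)
  have hcd : ab Fi24.Gen.c = ab Fi24.Gen.d := ab_eq (by decide)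
  have hed : ab Fi24.Gen.e = ab Fi24.Gen.d := ab_eq (by decide)
  have hfe : ab Fi24.Gen.f = ab Fi24.Gen.e := ab_eq (by decide)
  have hgf : ab Fi24.Gen.g = ab Fi24.Gen.f := ab_eq (by decide)
  have hjg : ab Fi24.Gen.j = ab Fi24.Gen.g := ab_eq (by decide)
  have hhd : ab Fi24.Gen.h = ab Fi24.Gen.d := ab_eq (by decide)
  have hih : ab Fi24.Gen.i = ab Fi24.Gen.h := ab_eq (by decide)
  cases x
  · rw [hlk, hka, hab, hbc, hcd]
  · rw [hka, hab, hbc, hcd]
  · rw [hab, hbc, hcd]
  · rw [hbc, hcd]
  · rw [hcd]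
  · rfl
  · rw [hed]
  · rw [hfe, hed]
  · rw [hgf, hfe, hed]
  · rw [hjg, hgf, hfe, hed]
  · rw [hhd]
  · rw [hih, hhd]

theorem all_ab (z : Abelianization Fi24) : z = 1 ∨ z = ab Fi24.Gen.d := by
  have hd : ab Fi24.Gen.d * ab Fi24.Gen.d = 1 := by rw [← pow_two]; exact ab_sq _
  obtain ⟨w, rfl⟩ : ∃ w, Abelianization.of w = z := QuotientGroup.mk_surjective z
  have hw : w ∈ Subgroup.closure (Set.range (PresentedGroup.of : Fi24.Gen → Fi24)) := by
    rw [PresentedGroup.closure_range_of]; trivial
  induction hw using Subgroup.closure_induction with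
  | mem x hx =>
    obtain ⟨y, rfl⟩ := hx
    right; exact ab_eq_d y
  | one => left; exact map_one _
  | mul x y _ _ hx hy =>
    rw [map_mul]
    rcases hx with hx | hx <;> rcases hy with hy | hy <;> rw [hx, hy]
    · left; simp
    · right; simp
    · right; simp
    · left; exact hd
  | inv x _ hx =>
    rw [map_inv]
    rcases hx with hx | hx <;> rw [hx]
    · left; simp
    · right; exact inv_eq_of_mul_eq_one_left hd

/-- the sign homomorphism -/
noncomputable def sgn : Fi24 →* Multiplicative (ZMod 2) :=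
  PresentedGroup.toGroup (f := fun _ => Multiplicative.ofAdd (1 : ZMod 2)) (by
    intro r hr
    have hsq : (Multiplicative.ofAdd (1 : ZMod 2)) * Multiplicative.ofAdd (1 : ZMod 2) = 1 := by decide
    rcases hr with ⟨x, _, y, _, rfl⟩ | hr
    · simp only [map_pow, map_mul, FreeGroup.lift_apply_of]
      rw [hsq, one_pow]
    · simp only [Fi24.extra, Set.mem_setOf_eq, List.mem_cons, List.not_mem_nil, or_false] at hr
      rcases hr with rfl | rfl
      · simp only [map_pow, map_mul, map_inv, FreeGroup.lift_apply_of, hsq, one_mul]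
        decide
      · simp only [map_pow, map_mul, map_inv, FreeGroup.lift_apply_of, hsq, one_mul, one_pow])

theorem ab_ne : ab Fi24.Gen.d ≠ 1 := by
  intro h
  have h1 : Abelianization.lift sgn (ab Fi24.Gen.d) = 1 := by rw [h, map_one]
  have h2 : Abelianization.lift sgn (ab Fi24.Gen.d) = Multiplicative.ofAdd (1 : ZMod 2) := by
    unfold ab
    rw [Abelianization.lift_apply_of]
    exact PresentedGroup.toGroup.of _
  rw [h2] at h1
  exact absurd h1 (by decide)

/-- The commutator subgroup of the presented group Fi₂₄ has index 2 (the presented group is Fi₂₄′:2 with Fi₂₄′ its derived subgroup). -/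
theorem result : (commutator Cfsg.Spor.Fi24).index = 2 := by
  have : (commutator Cfsg.Spor.Fi24).index = Nat.card (Abelianization Fi24) := rfl
  rw [this, Nat.card_eq_two_iff]
  exact ⟨1, ab Fi24.Gen.d, ab_ne.symm, by
    ext z; simp only [Set.mem_insert_iff, Set.mem_singleton_iff, Set.mem_univ, iff_true]
    exact all_ab z⟩

end Cfsg.Agent.S1691
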