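import Cfsg.Statements.S1714
import Cfsg.Agent.F23C.Setup
import Cfsg.Agent.FiEx.M22
import Cfsg.Agent.FiEx.M23
import Cfsg.Agent.Fi22.Uniq
import Cfsg.Agent.Fi22.Uniq23

set_option autoImplicit false
open Cfsg

namespace Cfsg.Agent.S1714

/-- The Fischer group Fi₂₃ from a transposition centraliser: let G be a finite group with an involution d such that the centraliser C of d is quasisimple, C modulo the subgroup generated by d is isomorphic to the presented Fischer group Fi₂₂, and some conjugate of d different from d commutes with d. Then G is isomorphic to the presented Fischer group Fi₂₃. -/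
theorem result {G : Type*} [Group G] [Finite G] (d : G) (hd : orderOf d = 2) (hq : Cfsg.IsQuasisimple (Subgroup.centralizer ({d} : Set G))) [((Subgroup.zpowers d).subgroupOf (Subgroup.centralizer ({d} : Set G))).Normal] (e : Cfsg.Spor.IsoFi22 ((Subgroup.centralizer ({d} : Set G)) ⧸ (Subgroup.zpowers d).subgroupOf (Subgroup.centralizer ({d} : Set G)))) (hnwc : ∃ g : G, g * d * g⁻¹ ∈ Subgroup.centralizer ({d} : Set G) ∧ g * d * g⁻¹ ≠ d) : Cfsg.Spor.IsoFi23 G := by
  obtain ⟨e⟩ := e
  obtain ⟨X, _, _, F, h1, h2, h3⟩ := FiEx.M22.exists22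
  have hX : Fi22.H22 F := Fi22.H22.of_primitive
    ⟨h1.1, fun g x hx => ThreeTransp.conj_mem h1 hx g, h1.2.2⟩ h2 h3
  obtain ⟨fX, -, -⟩ := hX.exists_iso
  have h4 := FiEx.type22_map (fX.trans e.symm) h3
  have h5 := F23C.class_map (fX.trans e.symm) h1
  have hP := F23C.locP3 d hd hq h5 h4 hnwc
  obtain ⟨f, -, -⟩ := (F23C.w23 hP).exists_iso
  exact ⟨f⟩

end Cfsg.Agent.S1714
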