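import Cfsg.Statements.S1717
import Cfsg.Agent.H29.SL52
-- import your own Cfsg.Agent.* helpers here

set_option autoImplicit false
open Cfsg

namespace Cfsg.Agent.S1717

theorem index_odd_of_center {G : Type*} [Group G] [Finite G] (z : G) (hz : orderOf z = 2)
    (C : Subgroup G) (hC : C = Subgroup.centralizer ({z} : Set G))
    (T : Sylow 2 C)
    (hc : ∀ t : C, t ∈ T → (∀ u ∈ T, t * u = u * t) → t = 1 ∨ (t : G) = z) :
    ¬ 2 ∣ ((T : Subgroup C).map C.subtype).index := by
  intro hdvd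
  haveI : Fact (Nat.Prime 2) := ⟨Nat.prime_two⟩
  set S : Subgroup G := (T : Subgroup C).map C.subtype with hS
  have hzC : z ∈ C := by
    rw [hC, Subgroup.mem_centralizer_singleton_iff]
  have hcomm : ∀ x : C, (⟨z, hzC⟩ : C) * x = x * ⟨z, hzC⟩ := by
    intro x
    apply Subtype.ext
    have h0 : (x : G) ∈ Subgroup.centralizer ({z} : Set G) := hC ▸ x.2
    exact (Subgroup.mem_centralizer_singleton_iff.mp h0).symm
  have hzT : (⟨z, hzC⟩ : C) ∈ T := by
    have hn : (Subgroup.zpowers (⟨z, hzC⟩ : C)).Normal := by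
      refine ⟨fun n hn g => ?_⟩
      obtain ⟨k, rfl⟩ := Subgroup.mem_zpowers_iff.mp hn
      have h1 : g * (⟨z, hzC⟩ : C) ^ k * g⁻¹ = (⟨z, hzC⟩ : C) ^ k := by
        have h2 : Commute g ((⟨z, hzC⟩ : C) ^ k) :=
          (show Commute g (⟨z, hzC⟩ : C) from (hcomm g).symm).zpow_right k
        rw [h2.eq, mul_inv_cancel_right]
      rw [h1]
      exact Subgroup.mem_zpowers_iff.mpr ⟨k, rfl⟩
    have hp : IsPGroup 2 (Subgroup.zpowers (⟨z, hzC⟩ : C)) := by
      apply IsPGroup.of_card (n := 1)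
      rw [Nat.card_zpowers, pow_one, ← Subgroup.orderOf_coe]
      exact hz
    exact hp.le_sylow_of_normal T (Subgroup.mem_zpowers _)
  have hzS : z ∈ S := ⟨⟨z, hzC⟩, hzT, rfl⟩
  have hSC : S ≤ C := by
    rintro _ ⟨t, _, rfl⟩; exact t.2
  have hSp : IsPGroup 2 S := T.isPGroup'.map C.subtype
  obtain ⟨n, hn⟩ := IsPGroup.iff_card.mp hSp
  have hd : 2 ^ (n + 1) ∣ Nat.card G := by
    rw [← S.card_mul_index, hn, pow_succ]
    exact Nat.mul_dvd_mul_left _ hdvd
  obtain ⟨K, hK, hSK⟩ := Sylow.exists_subgroup_card_pow_succ hd hn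
  have hidx : (S.subgroupOf K).index = 2 := by
    have h1 := (S.subgroupOf K).card_mul_index
    rw [Nat.card_congr (Subgroup.subgroupOfEquivOfLe hSK).toEquiv, hn, hK, pow_succ] at h1
    exact Nat.eq_of_mul_eq_mul_left (by positivity) h1
  have hnorm : (S.subgroupOf K).Normal := Subgroup.normal_of_index_eq_two hidx
  have hmem : ∀ u ∈ S, ∃ hu : u ∈ C, (⟨u, hu⟩ : C) ∈ T := by
    rintro _ ⟨t, ht, rfl⟩
    exact ⟨t.2, ht⟩
  have hconj : ∀ k ∈ K, ∀ u ∈ S, k * u * k⁻¹ ∈ S := by
    intro k hk u hu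
    exact hnorm.conj_mem ⟨u, hSK hu⟩ hu ⟨k, hk⟩
  have hKC : K ≤ C := by
    intro k hk
    have h1 : k * z * k⁻¹ ∈ S := hconj k hk z hzS
    have h2 : ∀ u ∈ S, (k * z * k⁻¹) * u = u * (k * z * k⁻¹) := by
      intro u hu
      have h3 : k⁻¹ * u * k⁻¹⁻¹ ∈ S := hconj k⁻¹ (K.inv_mem hk) u hu
      have h4 := hSC h3
      rw [hC, Subgroup.mem_centralizer_singleton_iff] at h4
      calc (k * z * k⁻¹) * u = k * (z * (k⁻¹ * u * k⁻¹⁻¹)) * k⁻¹ := by group
        _ = k * ((k⁻¹ * u * k⁻¹⁻¹) * z) * k⁻¹ := by rw [h4]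
        _ = u * (k * z * k⁻¹) := by group
    obtain ⟨h5, h6⟩ := hmem _ h1
    have h7 := hc ⟨k * z * k⁻¹, h5⟩ h6 (by
      intro u hu
      apply Subtype.ext
      exact h2 _ ⟨u, hu, rfl⟩)
    rcases h7 with h7 | h7
    · exfalso
      have h8 : k * z * k⁻¹ = 1 := congrArg Subtype.val h7
      have h9 : z = 1 := by
        have := congrArg (fun x => k⁻¹ * x * k) h8
        simpa [mul_assoc] using this
      rw [h9, orderOf_one] at hz
      norm_num at hz
    · rw [hC, Subgroup.mem_centralizer_singleton_iff]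
      have h8 : k * z * k⁻¹ = z := h7
      exact mul_inv_eq_iff_eq_mul.mp h8
  have hKp : IsPGroup 2 (K.subgroupOf C) := by
    apply IsPGroup.of_card (n := n + 1)
    rw [Nat.card_congr (Subgroup.subgroupOfEquivOfLe hKC).toEquiv, hK]
  have hTK : (T : Subgroup C) ≤ K.subgroupOf C := by
    intro t ht
    exact hSK ⟨t, ht, rfl⟩
  have hEq := T.is_maximal' hKp hTK
  have h1 : Nat.card (K.subgroupOf C) = 2 ^ (n + 1) := by
    rw [Nat.card_congr (Subgroup.subgroupOfEquivOfLe hKC).toEquiv, hK]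
  have h2 : Nat.card (T : Subgroup C) = 2 ^ n := by
    rw [← hn]
    exact (Nat.card_congr (Subgroup.equivMapOfInjective _ _ C.subtype_injective).toEquiv)
  rw [hEq] at h1
  have h3 : 2 ^ n = 2 ^ (n + 1) := h2.symm.trans h1
  have h4 : n = n + 1 := Nat.pow_right_injective le_rfl h3
  omega

/-- Let G be a finite group with an involution z whose centraliser C is isomorphic to the centraliser of a transvection of SL(5, 2). Then a Sylow 2-subgroup of C, viewed in G, is a Sylow 2-subgroup of G (its index in G is odd). -/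
theorem result {G : Type*} [Group G] [Finite G] (s : Matrix.SpecialLinearGroup (Fin 5) (ZMod 2)) (hs : (s : Matrix (Fin 5) (Fin 5) (ZMod 2)) = Matrix.transvection 0 1 1) (z : G) (hz : orderOf z = 2) (e : (Subgroup.centralizer ({z} : Set G)) ≃* Subgroup.centralizer ({s} : Set (Matrix.SpecialLinearGroup (Fin 5) (ZMod 2)))) (T : Sylow 2 (Subgroup.centralizer ({z} : Set G))) : ¬ 2 ∣ ((T : Subgroup (Subgroup.centralizer ({z} : Set G))).map (Subgroup.subtype (Subgroup.centralizer ({z} : Set G)))).index := by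
  haveI : Fact (Nat.Prime 2) := ⟨Nat.prime_two⟩
  have hs' : s = Cfsg.Agent.H29.tv 0 1 (by decide) := Subtype.ext hs
  set C' := Subgroup.centralizer ({s} : Set (Matrix.SpecialLinearGroup (Fin 5) (ZMod 2))) with hC'
  have hsc : ∀ u ∈ Cfsg.Agent.H29.uni, u * s = s * u := by
    intro u hu
    rw [hs']
    exact Cfsg.Agent.H29.tv_central hu
  have hUC : Cfsg.Agent.H29.uni ≤ C' := by
    intro u hu
    rw [hC', Subgroup.mem_centralizer_singleton_iff]
    exact hsc u hu
  have hsC : s ∈ C' := by rw [hC', Subgroup.mem_centralizer_singleton_iff]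
  set U : Subgroup (Subgroup.centralizer ({z} : Set G)) :=
    (Cfsg.Agent.H29.uni.subgroupOf C').map (e.symm : C' →* _) with hU
  have hUp : IsPGroup 2 U := by
    apply IsPGroup.map
    apply IsPGroup.of_card (n := 10)
    rw [Nat.card_congr (Subgroup.subgroupOfEquivOfLe hUC).toEquiv, Cfsg.Agent.H29.card_uni]
  have hUi : ¬ 2 ∣ U.index := by
    rw [hU, Subgroup.index_map_equiv]
    intro h
    apply Cfsg.Agent.H29.uni_index_odd
    exact h.trans (Subgroup.relIndex_dvd_index_of_le hUC)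
  obtain ⟨g, hg⟩ := MulAction.exists_smul_eq (Subgroup.centralizer ({z} : Set G)) T (hUp.toSylow hUi)
  have hgT : ∀ t, t ∈ T → g * t * g⁻¹ ∈ U := by
    intro t ht
    have h1 : g * t * g⁻¹ ∈ (g • T : Sylow 2 _) := by
      exact ⟨t, ht, rfl⟩
    rw [hg] at h1
    exact h1
  have hgU : ∀ u, u ∈ U → g⁻¹ * u * g ∈ T := by
    intro u hu
    have h1 : u ∈ (g • T : Sylow 2 _) := by rw [hg]; exact hu
    obtain ⟨t, ht, htu⟩ := h1
    have h2 : g * t * g⁻¹ = u := htu
    have h3 : g⁻¹ * u * g = t := by rw [← h2]; group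
    rw [h3]; exact ht
  have hes : ∀ x, e.symm ⟨s, hsC⟩ * x = x * e.symm ⟨s, hsC⟩ := by
    intro x
    apply e.injective
    rw [map_mul, map_mul, MulEquiv.apply_symm_apply]
    apply Subtype.ext
    exact (Subgroup.mem_centralizer_singleton_iff.mp (e x).2).symm
  have key : ∀ t, t ∈ T → (∀ u ∈ T, t * u = u * t) → t = 1 ∨ t = e.symm ⟨s, hsC⟩ := by
    intro t ht hct
    obtain ⟨w, hw, hwt⟩ := hgT t ht
    have hwt' : e.symm w = g * t * g⁻¹ := hwt
    have h1 : ∀ u ∈ Cfsg.Agent.H29.uni, (w : Matrix.SpecialLinearGroup (Fin 5) (ZMod 2)) * u = u * w := by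
      intro u hu
      have h2 : e.symm ⟨u, hUC hu⟩ ∈ U := ⟨⟨u, hUC hu⟩, hu, rfl⟩
      have h3 := hct _ (hgU _ h2)
      have h4 : e.symm w * e.symm ⟨u, hUC hu⟩ = e.symm ⟨u, hUC hu⟩ * e.symm w := by
        rw [hwt']
        have := congrArg (fun x => g * x * g⁻¹) h3
        calc g * t * g⁻¹ * e.symm ⟨u, hUC hu⟩ = g * (t * (g⁻¹ * e.symm ⟨u, hUC hu⟩ * g)) * g⁻¹ := by
              group
          _ = g * ((g⁻¹ * e.symm ⟨u, hUC hu⟩ * g) * t) * g⁻¹ := this
          _ = _ := by group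
      rw [← map_mul, ← map_mul] at h4
      exact congrArg Subtype.val (e.symm.injective h4)
    rcases Cfsg.Agent.H29.eq_of_central hw h1 with h2 | h2
    · left
      have h3 : w = 1 := Subtype.ext h2
      rw [h3, map_one] at hwt'
      have h4 : t = g⁻¹ * (g * t * g⁻¹) * g := by group
      rw [h4, ← hwt']; group
    · right
      have h3 : w = ⟨s, hsC⟩ := Subtype.ext (h2.trans hs'.symm)
      rw [h3] at hwt'
      have h4 : t = g⁻¹ * (g * t * g⁻¹) * g := by group
      rw [h4, ← hwt', mul_assoc, hes, inv_mul_cancel_left]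
  apply index_odd_of_center z hz _ rfl T
  intro t ht hct
  rcases key t ht hct with h | h
  · exact Or.inl h
  · right
    -- `z` itself is central in `T`
    have hzC : z ∈ Subgroup.centralizer ({z} : Set G) := Subgroup.mem_centralizer_singleton_iff.mpr rfl
    have hcomm : ∀ x : Subgroup.centralizer ({z} : Set G),
        (⟨z, hzC⟩ : Subgroup.centralizer ({z} : Set G)) * x = x * ⟨z, hzC⟩ := by
      intro x
      apply Subtype.ext
      exact (Subgroup.mem_centralizer_singleton_iff.mp x.2).symm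
    have hzT : (⟨z, hzC⟩ : Subgroup.centralizer ({z} : Set G)) ∈ T := by
      have hn : (Subgroup.zpowers (⟨z, hzC⟩ : Subgroup.centralizer ({z} : Set G))).Normal := by
        refine ⟨fun n hn g => ?_⟩
        obtain ⟨k, rfl⟩ := Subgroup.mem_zpowers_iff.mp hn
        have h2 : Commute g ((⟨z, hzC⟩ : Subgroup.centralizer ({z} : Set G)) ^ k) :=
          (show Commute g (⟨z, hzC⟩ : Subgroup.centralizer ({z} : Set G)) from
            (hcomm g).symm).zpow_right k
        rw [h2.eq, mul_inv_cancel_right]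
        exact Subgroup.mem_zpowers_iff.mpr ⟨k, rfl⟩
      have hp : IsPGroup 2 (Subgroup.zpowers (⟨z, hzC⟩ : Subgroup.centralizer ({z} : Set G))) := by
        apply IsPGroup.of_card (n := 1)
        rw [Nat.card_zpowers, pow_one, ← Subgroup.orderOf_coe]
        exact hz
      exact hp.le_sylow_of_normal T (Subgroup.mem_zpowers _)
    rcases key ⟨z, hzC⟩ hzT (fun u _ => hcomm u) with h1 | h1
    · exfalso
      have h2 : z = 1 := congrArg Subtype.val h1
      rw [h2, orderOf_one] at hz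
      norm_num at hz
    · rw [h, ← h1]

end Cfsg.Agent.S1717
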