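import Cfsg.Statements.S1753
-- import your own Cfsg.Agent.* helpers here

set_option autoImplicit false
universe u
open Cfsg

namespace Cfsg.Agent.S1753

/-- Let K be any property of groups. (1) If G is a minimal counterexample relative to K — a finite non-abelian simple group not satisfying K such that every finite non-abelian simple group of smaller order satisfies K — then every proper subgroup of G is a K-group (all its non-abelian simple sections satisfy K), since such sections have smaller order than G. (2) Consequently (induction on the order), if every finite non-abelian simple group all of whose proper subgroups are K-groups satisfies K, then every finite non-abelian simple group satisfies K. -/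
theorem result (K : ∀ (X : Type u) [Group X], Prop) :
    (∀ (G : Type u) [Group G], Cfsg.IsMinCounterexampleWith K G → Cfsg.IsKProperWith K G) ∧
      ((∀ (X : Type u) [Group X] [Finite X], IsSimpleGroup X → ¬ IsMulCommutative X → Cfsg.IsKProperWith K X → K X) →
        ∀ (G : Type u) [Group G] [Finite G], IsSimpleGroup G → ¬ IsMulCommutative G → K G) := by
  have hlt : ∀ (G : Type u) [Group G] [Finite G] (H : Subgroup G), H ≠ ⊤ →
      ∀ (L : Subgroup H) (N : Subgroup L) [N.Normal], Nat.card (L ⧸ N) < Nat.card G := by
    intro G _ _ H hH L N _
    have h1 : Nat.card H < Nat.card G := by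
      apply lt_of_le_of_ne (Nat.card_le_card_of_injective _ H.subtype_injective)
      intro h
      exact hH ((Subgroup.card_eq_iff_eq_top H).mp h)
    have h2 : Nat.card L ≤ Nat.card H := Nat.card_le_card_of_injective _ L.subtype_injective
    have h3 : Nat.card (L ⧸ N) ≤ Nat.card L :=
      Nat.card_le_card_of_surjective _ (QuotientGroup.mk'_surjective N)
    omega
  refine ⟨?_, ?_⟩
  · intro G _ hG H hH L N _ hs hc
    obtain ⟨hfin, _, _, _, hmin⟩ := hG
    exact hmin (L ⧸ N) hs hc (hlt G H hH L N)
  · intro hK
    have key : ∀ (n : ℕ) (G : Type u) [Group G] [Finite G], Nat.card G = n → IsSimpleGroup G →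
        ¬ IsMulCommutative G → K G := by
      intro n
      induction n using Nat.strong_induction_on with
      | _ n ih =>
        intro G _ _ hn hs hc
        apply hK G hs hc
        intro H hH L N _ hs' hc'
        exact ih (Nat.card (L ⧸ N)) (hn ▸ hlt G H hH L N) (L ⧸ N) rfl hs' hc'
    intro G _ _ hs hc
    exact key _ G rfl hs hc

end Cfsg.Agent.S1753
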