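import Cfsg.Statements.S1754
import Cfsg.Agent.FStar.Basic
-- import your own Cfsg.Agent.* helpers here

set_option autoImplicit false
open Cfsg

namespace Cfsg.Agent.S1754

/-- Let A be a standard subgroup of the finite group G (A quasisimple, C_G(A) tightly embedded of even order, A commuting elementwise with no other conjugate of itself, and N_G(A) = N_G(C_G(A))), and let t be an involution of G centralizing A. Then the centralizer of t lies in the normalizer of A; in particular A, viewed inside C_G(t), is a component of C_G(t). -/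
theorem result {G : Type*} [Group G] [Finite G]
    (A : Subgroup G) (hA : Cfsg.IsStandardSubgroup A) (t : G) (ht : orderOf t = 2) (htA : t ∈ Subgroup.centralizer (A : Set G)) :
    Subgroup.centralizer ({t} : Set G) ≤ Subgroup.normalizer (A : Set G) ∧
      Cfsg.IsComponent (A.subgroupOf (Subgroup.centralizer ({t} : Set G))) := by
  classical
  obtain ⟨hq, ⟨heven, htight⟩, hcomm, hnorm⟩ := hA
  set C := Subgroup.centralizer (A : Set G) with hC
  have hle : Subgroup.centralizer ({t} : Set G) ≤ Subgroup.normalizer (A : Set G) := by
    intro c hc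
    rw [hnorm]
    by_contra hcn
    have hodd := htight c hcn
    have htc : t ∈ C ⊓ C.map (MulAut.conj c).toMonoidHom := by
      refine Subgroup.mem_inf.mpr ⟨htA, t, htA, ?_⟩
      have h1 : t * c = c * t := Subgroup.mem_centralizer_iff.mp hc t rfl
      change c * t * c⁻¹ = t
      rw [← h1]; group
    have h2 : orderOf (⟨t, htc⟩ : (C ⊓ C.map (MulAut.conj c).toMonoidHom : Subgroup G)) = 2 := by
      rw [Subgroup.orderOf_mk]; exact ht
    have h3 : 2 ∣ Nat.card (C ⊓ C.map (MulAut.conj c).toMonoidHom : Subgroup G) := by
      rw [← h2]; exact orderOf_dvd_natCard _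
    exact (Nat.not_even_iff_odd.mpr hodd) (even_iff_two_dvd.mpr h3)
  refine ⟨hle, ?_, ?_⟩
  · -- normal, hence subnormal
    have hn : (A.subgroupOf (Subgroup.centralizer ({t} : Set G))).Normal := by
      refine ⟨fun x hx g => ?_⟩
      rw [Subgroup.mem_subgroupOf] at hx ⊢
      exact (Subgroup.mem_normalizer_iff.mp (hle g.2) x).mp hx
    exact hn.isSubnormal
  · -- `A ≤ C(t)`
    have hAt : A ≤ Subgroup.centralizer ({t} : Set G) := by
      intro a ha
      rw [Subgroup.mem_centralizer_iff]
      rintro _ rfl
      exact (Subgroup.mem_centralizer_iff.mp htA a ha).symm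
    let e : A.subgroupOf (Subgroup.centralizer ({t} : Set G)) ≃* A := Subgroup.subgroupOfEquivOfLe hAt
    exact Cfsg.Agent.FStar.isQuasisimple_of_equiv e.symm hq

end Cfsg.Agent.S1754
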