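import Cfsg.Statements.S1755
import Cfsg.Agent.Frob.Complement
import Cfsg.Agent.FStar.Layer
import Cfsg.Agent.Solv.MinNormal
-- import your own Cfsg.Agent.* helpers here

set_option autoImplicit false
open Cfsg

namespace Cfsg.Agent.S1755

theorem aux {G : Type*} [Group G] [Finite G] (z : G) (hz : orderOf z = 2) (C : Subgroup G)
    (hCdef : C = Subgroup.centralizer ({z} : Set G)) (Q : Subgroup C) (hQn : Q.Normal)
    (hQ : Cfsg.IsOfSymplecticType Q) (hcQ : Subgroup.center C ≤ Q) (B : Subgroup Q)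
    (hBc : B.Characteristic) (hBa : IsMulCommutative B) (g : G) :
    ((B.map Q.subtype).map C.subtype).map (MulAut.conj g).toMonoidHom =
        (B.map Q.subtype).map C.subtype ∨
      ((B.map Q.subtype).map C.subtype).map (MulAut.conj g).toMonoidHom ⊓
        (B.map Q.subtype).map C.subtype = ⊥ := by
  classical
  have h2f : Fact (Nat.Prime 2) := ⟨Nat.prime_two⟩
  obtain ⟨hQp, hQc⟩ := hQ
  have hzC : z ∈ C := by
    rw [hCdef, Subgroup.mem_centralizer_iff]
    rintro _ rfl; rfl
  let ζ : C := ⟨z, hzC⟩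
  have hζc : ζ ∈ Subgroup.center C := by
    rw [Subgroup.mem_center_iff]
    intro g
    apply Subtype.ext
    have hg2 : (g : G) ∈ Subgroup.centralizer ({z} : Set G) := by rw [← hCdef]; exact g.2
    exact (Subgroup.mem_centralizer_iff.mp hg2 z rfl).symm
  have hζQ : ζ ∈ Q := hcQ hζc
  let ζ' : Q := ⟨ζ, hζQ⟩
  have hζ'o : orderOf ζ' = 2 := by
    rw [← Subgroup.orderOf_coe, ← Subgroup.orderOf_coe]; exact hz
  have hζ'c : ζ' ∈ Subgroup.center Q := by
    rw [Subgroup.mem_center_iff]
    intro g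
    apply Subtype.ext
    exact Subgroup.mem_center_iff.mp hζc g
  -- involutions in a cyclic group are equal
  have huniq : ∀ (X : Type _) [Group X] [Finite X] [IsCyclic X] (a b : X), orderOf a = 2 →
      orderOf b = 2 → a = b := by
    intro X _ _ _ a b ha hb
    have h1 : Subgroup.zpowers a = Subgroup.zpowers b :=
      Frob.eq_of_card_eq_of_isCyclic _ _ (by rw [Nat.card_zpowers, Nat.card_zpowers, ha, hb])
    have h2 : b ∈ Subgroup.zpowers a := by rw [h1]; exact Subgroup.mem_zpowers b
    obtain ⟨k, hk⟩ := Subgroup.mem_zpowers_iff.mp h2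
    have ha2 : a ^ (2 : ℤ) = 1 := by
      have := pow_orderOf_eq_one a
      rw [ha] at this; exact_mod_cast this
    rcases Int.even_or_odd' k with ⟨m, hm | hm⟩
    · exfalso
      rw [hm, zpow_mul, ha2, one_zpow] at hk
      rw [← hk, orderOf_one] at hb
      omega
    · rw [hm, zpow_add, zpow_mul, ha2, one_zpow, one_mul, zpow_one] at hk
      exact hk
  by_cases hB1 : B = ⊥
  · left
    rw [hB1]; simp
  have hBcyc : IsCyclic B := hQc B hBc hBa
  have hZcyc : IsCyclic (Subgroup.center Q) := hQc _ inferInstance inferInstance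
  -- `ζ' ∈ B`
  have hζB : ζ' ∈ B := by
    have hnil : Group.IsNilpotent Q := hQp.isNilpotent
    have hBn : B.Normal := inferInstance
    have h1 := Solv.inf_center_ne_bot_of_nilpotent B hB1
    have h2 : IsPGroup 2 (B ⊓ Subgroup.center Q : Subgroup Q) := hQp.to_subgroup _
    have h3 : 2 ∣ Nat.card (B ⊓ Subgroup.center Q : Subgroup Q) := by
      obtain ⟨n, hn⟩ := h2.exists_card_eq
      rcases n with _ | n
      · exfalso; rw [pow_zero, Subgroup.card_eq_one] at hn; exact h1 hn
      · rw [hn]; exact dvd_pow_self 2 (by omega)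
    obtain ⟨⟨b, hb⟩, hbo⟩ := exists_prime_orderOf_dvd_card' 2 h3
    rw [Subgroup.orderOf_mk] at hbo
    obtain ⟨hbB, hbZ⟩ := Subgroup.mem_inf.mp hb
    have h4 := huniq (Subgroup.center Q) ⟨b, hbZ⟩ ⟨ζ', hζ'c⟩ (by rw [Subgroup.orderOf_mk, hbo])
      (by rw [Subgroup.orderOf_mk, hζ'o])
    have h5 : b = ζ' := congrArg Subtype.val h4
    rw [← h5]; exact hbB
  set Bg : Subgroup G := (B.map Q.subtype).map C.subtype with hBg
  -- the involution of `Bg`
  have hBginv : ∀ x ∈ Bg, orderOf x = 2 → x = z := by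
    rintro _ ⟨_, ⟨y, hy, rfl⟩, rfl⟩ ho
    have h1 : orderOf (⟨y, hy⟩ : B) = 2 := by
      rw [Subgroup.orderOf_mk, ← Subgroup.orderOf_coe, ← Subgroup.orderOf_coe]; exact ho
    have h2 := huniq B ⟨y, hy⟩ ⟨ζ', hζB⟩ h1 (by rw [Subgroup.orderOf_mk, hζ'o])
    have h3 : y = ζ' := congrArg Subtype.val h2
    rw [h3]; rfl
  by_cases hint : Bg.map (MulAut.conj g).toMonoidHom ⊓ Bg = ⊥
  · exact Or.inr hint
  left
  -- an involution in the intersection
  have hBgp : IsPGroup 2 Bg := ((hQp.to_subgroup B).map Q.subtype).map C.subtype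
  have hIp : IsPGroup 2 (Bg.map (MulAut.conj g).toMonoidHom ⊓ Bg : Subgroup G) :=
    hBgp.to_le inf_le_right
  have h3 : 2 ∣ Nat.card (Bg.map (MulAut.conj g).toMonoidHom ⊓ Bg : Subgroup G) := by
    obtain ⟨n, hn⟩ := hIp.exists_card_eq
    rcases n with _ | n
    · exfalso; rw [pow_zero, Subgroup.card_eq_one] at hn; exact hint hn
    · rw [hn]; exact dvd_pow_self 2 (by omega)
  obtain ⟨⟨y, hy⟩, hyo⟩ := exists_prime_orderOf_dvd_card' 2 h3
  rw [Subgroup.orderOf_mk] at hyo
  obtain ⟨⟨w, hw, hwy⟩, hy2⟩ := Subgroup.mem_inf.mp hy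
  have hyz := hBginv y hy2 hyo
  have hwo : orderOf w = 2 := by
    have : orderOf ((MulAut.conj g).toMonoidHom w) = orderOf w :=
      orderOf_injective _ (MulAut.conj g).injective w
    rw [← this, hwy, hyo]
  have hwz := hBginv w hw hwo
  have hgC : g ∈ C := by
    rw [hCdef, Subgroup.mem_centralizer_iff]
    intro z' hz'
    rw [Set.mem_singleton_iff.mp hz']
    have h1 : g * z * g⁻¹ = z := by
      have h2 : g * w * g⁻¹ = y := hwy
      rw [hwz, hyz] at h2; exact h2
    exact (mul_inv_eq_iff_eq_mul.mp h1).symm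
  let γ : C := ⟨g, hgC⟩
  have hmap : B.map (MulAut.conjNormal γ : MulAut Q).toMonoidHom = B :=
    Subgroup.characteristic_iff_map_eq.mp hBc _
  ext x
  constructor
  · rintro ⟨_, ⟨_, ⟨b, hb, rfl⟩, rfl⟩, rfl⟩
    refine ⟨_, ⟨(MulAut.conjNormal γ : MulAut Q) b, ?_, rfl⟩, ?_⟩
    · rw [← hmap]; exact ⟨b, hb, rfl⟩
    · rfl
  · rintro ⟨_, ⟨b, hb, rfl⟩, rfl⟩
    have hb' : b ∈ B.map (MulAut.conjNormal γ : MulAut Q).toMonoidHom := by rw [hmap]; exact hb
    obtain ⟨b', hb', rfl⟩ := hb'
    refine ⟨_, ⟨_, ⟨b', hb', rfl⟩, rfl⟩, ?_⟩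
    rfl

theorem center_le_fstar {X : Type*} [Group X] :
    Subgroup.center X ≤ Cfsg.generalizedFittingSubgroup X := by
  refine le_trans ?_ (le_sup_right : Cfsg.fittingSubgroup X ≤ _)
  refine le_sSup ⟨inferInstance, ?_⟩
  let _ : CommGroup (Subgroup.center X) :=
    { (inferInstance : Group (Subgroup.center X)) with mul_comm := mul_comm' }
  infer_instance

/-- Let G be a finite group and let z be an involution of G such that Q, the generalized Fitting subgroup of the centralizer C of z, is a 2-group of symplectic type (every characteristic abelian subgroup of Q is cyclic). Let B be a characteristic abelian subgroup of Q, viewed as a subgroup of G. Then for every g in G, the conjugate of B by g either equals B or meets B trivially. -/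
theorem result {G : Type*} [Group G] [Finite G] (z : G) (hz : orderOf z = 2) (hQ : Cfsg.IsOfSymplecticType ↥(Cfsg.generalizedFittingSubgroup ↥(Subgroup.centralizer ({z} : Set G))))
    (B : Subgroup ↥(Cfsg.generalizedFittingSubgroup ↥(Subgroup.centralizer ({z} : Set G)))) (hBc : B.Characteristic) (hBa : IsMulCommutative ↥B) (g : G) :
    ((B.map (Cfsg.generalizedFittingSubgroup ↥(Subgroup.centralizer ({z} : Set G))).subtype).map (Subgroup.centralizer ({z} : Set G)).subtype).map (MulAut.conj g).toMonoidHom =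
        (B.map (Cfsg.generalizedFittingSubgroup ↥(Subgroup.centralizer ({z} : Set G))).subtype).map (Subgroup.centralizer ({z} : Set G)).subtype ∨
      ((B.map (Cfsg.generalizedFittingSubgroup ↥(Subgroup.centralizer ({z} : Set G))).subtype).map (Subgroup.centralizer ({z} : Set G)).subtype).map (MulAut.conj g).toMonoidHom ⊓
        (B.map (Cfsg.generalizedFittingSubgroup ↥(Subgroup.centralizer ({z} : Set G))).subtype).map (Subgroup.centralizer ({z} : Set G)).subtype = ⊥ := by
  exact aux z hz _ rfl _ inferInstance hQ center_le_fstar B hBc hBa g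

end Cfsg.Agent.S1755
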