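import Cfsg.Statements.S1756
import Cfsg.Agent.Extra.More
-- import your own Cfsg.Agent.* helpers here

set_option autoImplicit false
open Cfsg

namespace Cfsg.Agent.S1756

open scoped commutatorElement

theorem isExtraspecial_congr {P Q : Type*} [Group P] [Group Q] [Finite P] (e : P ≃* Q)
    (h : Cfsg.IsExtraspecial 2 P) : Cfsg.IsExtraspecial 2 Q := by
  have h2f : Fact (Nat.Prime 2) := ⟨Nat.prime_two⟩
  have : Finite Q := Finite.of_equiv _ e.toEquiv
  rw [Extra.isExtraspecial_iff] at h ⊢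
  refine ⟨h.1.of_equiv e, fun h1 => h.2 ?_⟩
  rw [eq_top_iff]
  intro x _
  rw [Subgroup.mem_center_iff]
  intro y
  apply e.injective
  have h3 : e x ∈ Subgroup.center Q := by rw [h1]; trivial
  rw [map_mul, map_mul]
  exact Subgroup.mem_center_iff.mp h3 (e y)

/-- `Z(Q)` seen in `G` -/
theorem mem_D_iff {G : Type*} [Group G] (Q : Subgroup G) (x : Q) :
    (x : G) ∈ Q ⊓ Subgroup.centralizer (Q : Set G) ↔ x ∈ Subgroup.center Q := by
  rw [Subgroup.mem_inf, Subgroup.mem_center_iff, Subgroup.mem_centralizer_iff]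
  constructor
  · rintro ⟨_, h⟩ y
    exact Subtype.ext (h y y.2)
  · intro h
    exact ⟨x.2, fun y hy => congrArg Subtype.val (h ⟨y, hy⟩)⟩

/-- If `t` normalizes the extraspecial group `Q` and `[Q, t] ≤ Z(Q)`, then `t ∈ Q C(Q)`. -/
theorem mem_sup_of_comm {G : Type*} [Group G] [Finite G] (Q : Subgroup G)
    (hQ : Cfsg.IsExtraspecial 2 ↥Q) (t : G) (htN : t ∈ Subgroup.normalizer (Q : Set G))
    (h : ∀ x ∈ Q, t * x * t⁻¹ * x⁻¹ ∈ Q ⊓ Subgroup.centralizer (Q : Set G)) :
    t ∈ Q ⊔ Subgroup.centralizer (Q : Set G) := by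
  classical
  have h2f : Fact (Nat.Prime 2) := ⟨Nat.prime_two⟩
  have hclass := Extra.classTwo_of_isSpecial hQ.1
  set D : Subgroup G := Q ⊓ Subgroup.centralizer (Q : Set G) with hD
  -- the subgroup of elements acting trivially on `Q / Z(Q)`
  let L : Subgroup G :=
    { carrier := {g | g ∈ Subgroup.normalizer (Q : Set G) ∧ ∀ x ∈ Q, g * x * g⁻¹ * x⁻¹ ∈ D}
      one_mem' := ⟨one_mem _, fun x hx => by simp [one_mem D]⟩
      mul_mem' := by
        rintro a b ⟨ha, ha'⟩ ⟨hb, hb'⟩
        refine ⟨mul_mem ha hb, fun x hx => ?_⟩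
        have h1 : b * x * b⁻¹ ∈ Q := (Subgroup.mem_normalizer_iff.mp hb x).mp hx
        have h2 := ha' _ h1
        have e : a * b * x * (a * b)⁻¹ * x⁻¹ = (a * (b * x * b⁻¹) * a⁻¹ * (b * x * b⁻¹)⁻¹) *
          (b * x * b⁻¹ * x⁻¹) := by group
        rw [e]
        exact D.mul_mem h2 (hb' x hx)
      inv_mem' := by
        rintro a ⟨ha, ha'⟩
        refine ⟨inv_mem ha, fun x hx => ?_⟩
        have h1 : a⁻¹ * x * a ∈ Q := by
          have := (Subgroup.mem_normalizer_iff.mp (inv_mem ha) x).mp hx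
          simpa using this
        have h2 := ha' _ h1
        have e : a⁻¹ * x * a⁻¹⁻¹ * x⁻¹ = (a * (a⁻¹ * x * a) * a⁻¹ * (a⁻¹ * x * a)⁻¹)⁻¹ := by
          group
        rw [e]
        exact D.inv_mem h2 }
  have hQL : Q ≤ L := by
    intro q hq
    refine ⟨Subgroup.le_normalizer hq, fun x hx => ?_⟩
    have h1 := hclass.mem ⟨q, hq⟩ ⟨x, hx⟩
    exact (mem_D_iff Q _).mpr h1
  have htL : t ∈ L := ⟨htN, h⟩
  have hE : Cfsg.IsExtraspecial 2 (Q.subgroupOf L) :=
    isExtraspecial_congr (Subgroup.subgroupOfEquivOfLe hQL).symm hQ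
  have h1 := Extra.sup_centralizer_eq_top (Q.subgroupOf L) hE (by
    rw [Subgroup.commutator_le]
    intro g _ x hx
    have hx' := Subgroup.mem_subgroupOf.mp hx
    have h2 := g.2.2 x hx'
    obtain ⟨h3, h4⟩ := Subgroup.mem_inf.mp h2
    refine Subgroup.mem_inf.mpr ⟨h3, ?_⟩
    rw [Subgroup.mem_centralizer_iff]
    intro y hy
    exact Subtype.ext (Subgroup.mem_centralizer_iff.mp h4 y (Subgroup.mem_subgroupOf.mp hy)))
  have hn : (Q.subgroupOf L).Normal := by
    refine ⟨fun x hx g => ?_⟩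
    rw [Subgroup.mem_subgroupOf] at hx ⊢
    exact (Subgroup.mem_normalizer_iff.mp g.2.1 x).mp hx
  have h2 : (⟨t, htL⟩ : L) ∈ Q.subgroupOf L ⊔ Subgroup.centralizer (Q.subgroupOf L : Set L) := by
    rw [h1]; trivial
  obtain ⟨a, ha, b, hb, hab⟩ := Subgroup.mem_sup_of_normal_left.mp h2
  have h3 : t = (a : G) * (b : G) := (congrArg Subtype.val hab).symm
  rw [h3]
  refine Subgroup.mul_mem_sup (Subgroup.mem_subgroupOf.mp ha) ?_
  rw [Subgroup.mem_centralizer_iff]
  intro y hy
  exact congrArg Subtype.val (Subgroup.mem_centralizer_iff.mp hb ⟨y, hQL hy⟩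
    (Subgroup.mem_subgroupOf.mpr hy))

/-- Let Q be an extraspecial 2-subgroup of the finite group G (special with centre of order 2) and t an involution of G normalizing Q such that the centralizer of t in Q has index at most 2 in Q. Then t lies in the product of Q with the centralizer of Q. -/
theorem result {G : Type*} [Group G] [Finite G] (Q : Subgroup G)
    (hQ : Cfsg.IsExtraspecial 2 ↥Q) (t : G) (ht : orderOf t = 2) (htN : t ∈ Subgroup.normalizer (Q : Set G))
    (hi : (Subgroup.centralizer ({t} : Set G) ⊓ Q).relIndex Q ≤ 2) :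
    t ∈ Q ⊔ Subgroup.centralizer (Q : Set G) := by
  classical
  have h2f : Fact (Nat.Prime 2) := ⟨Nat.prime_two⟩
  have hclass := Extra.classTwo_of_isSpecial hQ.1
  have hges := Extra.ges_of_isExtraspecial hQ
  have htt : t * t = 1 := by
    have := pow_orderOf_eq_one t
    rwa [ht, pow_two] at this
  have hti : t⁻¹ = t := inv_eq_of_mul_eq_one_left htt
  apply mem_sup_of_comm Q hQ t htN
  -- elements of `Q` centralized by `t`
  set H : Subgroup Q := (Subgroup.centralizer ({t} : Set G) ⊓ Q).subgroupOf Q with hH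
  have hHmem : ∀ x : Q, x ∈ H ↔ t * x * t⁻¹ = x := by
    intro x
    rw [hH, Subgroup.mem_subgroupOf, Subgroup.mem_inf, Subgroup.mem_centralizer_iff]
    constructor
    · rintro ⟨h1, _⟩
      exact mul_inv_eq_iff_eq_mul.mpr (h1 t rfl)
    · intro h1
      refine ⟨?_, x.2⟩
      rintro _ rfl
      exact mul_inv_eq_iff_eq_mul.mp h1
  have hHi : H.index ≤ 2 := hi
  have hHi0 : H.index ≠ 0 := Subgroup.index_ne_zero_of_finite
  intro x hx
  rw [← hti] at htN
  rw [hti] at htN
  have htx : t * x * t⁻¹ ∈ Q := (Subgroup.mem_normalizer_iff.mp htN x).mp hx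
  by_cases hxH : (⟨x, hx⟩ : Q) ∈ H
  · have h1 := (hHmem _).mp hxH
    have h2 : t * x * t⁻¹ * x⁻¹ = 1 := mul_inv_eq_one.mpr h1
    rw [h2]; exact one_mem _
  have hidx : H.index = 2 := by
    have h1 : H.index ≠ 1 := by
      intro h1
      rw [Subgroup.index_eq_one] at h1
      exact hxH (by rw [h1]; trivial)
    omega
  have hHn : H.Normal := Subgroup.normal_of_index_eq_two hidx
  -- `v = (t x t⁻¹) x⁻¹` centralizes `H`
  set v : Q := ⟨t * x * t⁻¹ * x⁻¹, Q.mul_mem htx (Q.inv_mem hx)⟩ with hv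
  rw [show t * x * t⁻¹ * x⁻¹ = (v : G) from rfl, mem_D_iff]
  by_contra hvc
  set X : Q := ⟨x, hx⟩ with hX
  have htxv : t * x * t⁻¹ = v * x := by rw [hv]; group
  have hvH : ∀ k ∈ H, v * k = k * v := by
    intro k hk
    have h1 : X⁻¹ * k * X ∈ H := by
      have := hHn.conj_mem k hk X⁻¹
      simpa using this
    have h2 := (hHmem _).mp h1
    have h3 := (hHmem _).mp hk
    have h4 : (v * X)⁻¹ * k * (v * X) = X⁻¹ * k * X := by
      apply Subtype.ext
      push_cast
      rw [← htxv, hX]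
      rw [hX] at h2
      push_cast at h2
      have e : (t * x * t⁻¹)⁻¹ * (k : G) * (t * x * t⁻¹) = t * (x⁻¹ * (t⁻¹ * k * t) * x) * t⁻¹ := by
        group
      have e2 : t⁻¹ * (k : G) * t = k := by rw [hti]; rw [hti] at h3; exact h3
      rw [e, e2, h2]
    have h5 : v⁻¹ * k * v = k := by
      have e : v⁻¹ * k * v = X * ((v * X)⁻¹ * k * (v * X)) * X⁻¹ := by group
      rw [e, h4]; group
    calc v * k = v * (v⁻¹ * k * v) := by rw [h5]
      _ = k * v := by group
  -- the centralizer of `v` is `H`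
  have hCv : Subgroup.centralizer ({v} : Set Q) = H := by
    have h1 : H ≤ Subgroup.centralizer ({v} : Set Q) := by
      intro k hk
      rw [Subgroup.mem_centralizer_iff]
      rintro _ rfl
      exact hvH k hk
    have h2 : Subgroup.centralizer ({v} : Set Q) ≠ ⊤ := by
      intro h2
      apply hvc
      rw [Subgroup.mem_center_iff]
      intro g
      have : g ∈ Subgroup.centralizer ({v} : Set Q) := by rw [h2]; trivial
      exact (Subgroup.mem_centralizer_iff.mp this v rfl).symm
    have h3 := Subgroup.relIndex_mul_index h1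
    rw [hidx] at h3
    have h4 : (Subgroup.centralizer ({v} : Set Q)).index ≠ 1 := by
      rwa [Ne, Subgroup.index_eq_one]
    have h5 : (Subgroup.centralizer ({v} : Set Q)).index ∣ 2 := Dvd.intro_left _ h3
    have h6 := (Nat.dvd_prime Nat.prime_two).mp h5
    have h7 : (Subgroup.centralizer ({v} : Set Q)).index = 2 := by tauto
    rw [h7] at h3
    have h8 : H.relIndex (Subgroup.centralizer ({v} : Set Q)) = 1 := by omega
    rw [Subgroup.relIndex_eq_one] at h8
    exact le_antisymm h8 h1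
  have hvv : v ∈ H := by
    rw [← hCv, Subgroup.mem_centralizer_iff]
    rintro _ rfl; rfl
  have htv := (hHmem _).mp hvv
  -- `v² = 1`
  have hv2 : (v : G) * v = 1 := by
    have e : x = t * (t * x * t⁻¹) * t⁻¹ := by
      have : t * (t * x * t⁻¹) * t⁻¹ = (t * t) * x * (t * t)⁻¹ := by group
      rw [this, htt]; simp
    rw [htxv] at e
    have e2 : t * ((v : G) * x) * t⁻¹ = (t * v * t⁻¹) * (t * x * t⁻¹) := by group
    rw [e2, htv, htxv] at e
    have e3 : (v : G) * v * x = x := by rw [mul_assoc]; exact e.symm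
    exact mul_eq_right.mp e3
  -- `x²` is central in `Q`
  have hx2 : X ^ 2 ∈ Subgroup.center Q := hges.pow_mem_center X
  have hx2t : t * ((X ^ 2 : Q) : G) * t⁻¹ = ((X ^ 2 : Q) : G) := by
    -- central elements are in `H = C(v)`
    have : X ^ 2 ∈ H := by
      rw [← hCv, Subgroup.mem_centralizer_iff]
      rintro _ rfl
      exact Subgroup.mem_center_iff.mp hx2 v
    exact (hHmem _).mp this
  apply hxH
  rw [← hCv, Subgroup.mem_centralizer_iff]
  rintro _ rfl
  apply Subtype.ext
  change (v : G) * x = x * v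
  have h1 : ((v : G) * x) * (v * x) = x * x := by
    rw [← htxv]
    have e : t * x * t⁻¹ * (t * x * t⁻¹) = t * (x * x) * t⁻¹ := by group
    rw [e]
    have : ((X ^ 2 : Q) : G) = x * x := by rw [pow_two]; rfl
    rw [← this]; exact hx2t
  have h2 : (v : G) * x * v = x := by
    have : (v : G) * x * v * x = x * x := by rw [← h1]; group
    exact mul_right_cancel this
  calc (v : G) * x = v * x * (v * v) := by rw [hv2, mul_one]
    _ = (v * x * v) * v := by group
    _ = x * v := by rw [h2]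

end Cfsg.Agent.S1756
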