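import Cfsg.Statements.S1757
import Cfsg.Agent.Frob.Center
-- import your own Cfsg.Agent.* helpers here

set_option autoImplicit false
open Cfsg

namespace Cfsg.Agent.S1757

/-- Let p be a prime and A, B p-subgroups of the finite group G, each of which meets every conjugate of itself other than itself trivially. Suppose the order of A is at most that of B, A and B intersect trivially, and B normalizes A. Then A and B commute elementwise. -/
theorem result {G : Type*} [Group G] [Finite G] (p : ℕ) [Fact p.Prime] (A B : Subgroup G)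
    (hA : IsPGroup p ↥A) (hB : IsPGroup p ↥B)
    (hAti : ∀ g : G, A.map (MulAut.conj g).toMonoidHom = A ∨ A.map (MulAut.conj g).toMonoidHom ⊓ A = ⊥)
    (hBti : ∀ g : G, B.map (MulAut.conj g).toMonoidHom = B ∨ B.map (MulAut.conj g).toMonoidHom ⊓ B = ⊥)
    (hle : Nat.card ↥A ≤ Nat.card ↥B) (hAB : A ⊓ B = ⊥) (hN : B ≤ Subgroup.normalizer (A : Set G)) : ⁅A, B⁆ = ⊥ := by
  classical
  -- it is enough that `A` normalizes `B`
  suffices hmain : A ≤ Subgroup.normalizer (B : Set G) by
    rw [eq_bot_iff, ← hAB, Subgroup.commutator_le]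
    intro a ha b hb
    refine Subgroup.mem_inf.mpr ⟨?_, ?_⟩
    · have h1 : b * a⁻¹ * b⁻¹ ∈ A :=
        (Subgroup.mem_normalizer_iff.mp (hN hb) a⁻¹).mp (A.inv_mem ha)
      change a * b * a⁻¹ * b⁻¹ ∈ A
      have e : a * b * a⁻¹ * b⁻¹ = a * (b * a⁻¹ * b⁻¹) := by group
      rw [e]; exact A.mul_mem ha h1
    · have h1 : a * b * a⁻¹ ∈ B := (Subgroup.mem_normalizer_iff.mp (hmain ha) b).mp hb
      change a * b * a⁻¹ * b⁻¹ ∈ B
      exact B.mul_mem h1 (B.inv_mem hb)
  set P : Subgroup G := A ⊔ B with hP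
  have hPcard : Nat.card P = Nat.card A * Nat.card B :=
    Frob.card_sup_of_disjoint_of_le_normalizer A B (disjoint_iff.mpr hAB) hN
  have hPp : IsPGroup p P := by
    obtain ⟨n, hn⟩ := hA.exists_card_eq
    obtain ⟨m, hm⟩ := hB.exists_card_eq
    rw [IsPGroup.iff_card]
    exact ⟨n + m, by rw [hPcard, hn, hm, pow_add]⟩
  have hAP : A ≤ P := le_sup_left
  have hBP : B ≤ P := le_sup_right
  by_contra hcon
  -- `B` is not normal in `P`; take `a` normalizing `N_P(B)` but not `B`
  set M : Subgroup G := P ⊓ Subgroup.normalizer (B : Set G) with hM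
  have hMP : M ≠ P := by
    intro h
    apply hcon
    have : P ≤ Subgroup.normalizer (B : Set G) := by rw [← h]; exact inf_le_right
    exact hAP.trans this
  have hnil : Group.IsNilpotent P := hPp.isNilpotent
  obtain ⟨a, haP, haM, haN⟩ : ∃ a ∈ P, a ∉ M ∧ a ∈ Subgroup.normalizer (M : Set G) := by
    have h1 : M.subgroupOf P < ⊤ := by
      rw [lt_top_iff_ne_top, Ne, Subgroup.subgroupOf_eq_top]
      intro h
      exact hMP (le_antisymm inf_le_left h)
    have h2 := Group.normalizerCondition_of_isNilpotent (G := P) _ h1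
    obtain ⟨x, hx, hx'⟩ := SetLike.exists_of_lt h2
    refine ⟨x, x.2, fun h => hx' (Subgroup.mem_subgroupOf.mpr h), ?_⟩
    rw [Subgroup.mem_normalizer_iff]
    intro y
    rw [Subgroup.mem_normalizer_iff] at hx
    constructor
    · intro hy
      have := (hx ⟨y, (Subgroup.mem_inf.mp hy).1⟩).mp (Subgroup.mem_subgroupOf.mpr hy)
      exact Subgroup.mem_subgroupOf.mp this
    · intro hy
      have hyP : y ∈ P := by
        have h3 : (x : G) * y * (x : G)⁻¹ ∈ P := (Subgroup.mem_inf.mp hy).1
        have e : y = (x : G)⁻¹ * ((x : G) * y * (x : G)⁻¹) * x := by group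
        rw [e]
        exact P.mul_mem (P.mul_mem (P.inv_mem x.2) h3) x.2
      have := (hx ⟨y, hyP⟩).mpr (Subgroup.mem_subgroupOf.mpr hy)
      exact Subgroup.mem_subgroupOf.mp this
  have haB : a ∉ Subgroup.normalizer (B : Set G) := fun h => haM (Subgroup.mem_inf.mpr ⟨haP, h⟩)
  have hdisj : B.map (MulAut.conj a).toMonoidHom ⊓ B = ⊥ := by
    rcases hBti a with h | h
    · exfalso
      apply haB
      rw [Subgroup.mem_normalizer_iff_map_conj_eq]
      exact h
    · exact h
  set B' : Subgroup G := B.map (MulAut.conj a).toMonoidHom with hB'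
  have hBM : B ≤ M := le_inf hBP Subgroup.le_normalizer
  have hB'M : B' ≤ M := by
    rintro _ ⟨y, hy, rfl⟩
    exact (Subgroup.mem_normalizer_iff.mp haN y).mp (hBM hy)
  have hB'card : Nat.card B' = Nat.card B :=
    Subgroup.card_map_of_injective (MulAut.conj a).injective
  have hB'n : B' ≤ Subgroup.normalizer (B : Set G) := hB'M.trans inf_le_right
  have h1 : Nat.card (B ⊔ B' : Subgroup G) = Nat.card B * Nat.card B' :=
    Frob.card_sup_of_disjoint_of_le_normalizer B B' (by rw [disjoint_comm, disjoint_iff]; exact hdisj)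
      hB'n
  have h2 : B ⊔ B' ≤ M := sup_le hBM hB'M
  have h3 : Nat.card (B ⊔ B' : Subgroup G) ≤ Nat.card M := Subgroup.card_le_of_le h2
  have h4 : Nat.card M < Nat.card P := by
    apply lt_of_le_of_ne (Subgroup.card_le_of_le inf_le_left)
    intro h
    exact hMP (Subgroup.eq_of_le_of_card_ge inf_le_left h.ge)
  rw [h1, hB'card] at h3
  rw [hPcard] at h4
  have h5 : Nat.card A * Nat.card B ≤ Nat.card B * Nat.card B := Nat.mul_le_mul_right _ hle
  omega

end Cfsg.Agent.S1757
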