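import Cfsg.Statements.S1775
import Cfsg.Agent.Bal.BProp

set_option autoImplicit false
open Cfsg

namespace Cfsg.Agent.S1775

theorem aux_subnormal {G : Type*} [Group G] [Finite G] (Cx Cy D : Subgroup G)
    (hD : D = (Cfsg.pLayer 2 ↥Cx).map Cx.subtype ⊓ Cy) :
    D ≤ Cx ⊓ Cy ∧ (D.subgroupOf (Cx ⊓ Cy)).IsSubnormal := by
  have hDle : D ≤ Cx ⊓ Cy := by rw [hD]; exact inf_le_inf_right _ (Subgroup.map_subtype_le _)
  refine ⟨hDle, ?_⟩
  have hn : (D.subgroupOf (Cx ⊓ Cy)).Normal := by
    rw [Subgroup.normal_subgroupOf_iff_le_normalizer hDle]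
    intro g hg
    apply Cfsg.Agent.Bal.mem_normalizer_of_forall
    intro d hd
    rw [hD] at hd ⊢
    obtain ⟨⟨l, hl, hld⟩, hdy⟩ := hd
    refine ⟨⟨⟨g, hg.1⟩ * l * ⟨g, hg.1⟩⁻¹, ?_, ?_⟩, Cy.mul_mem (Cy.mul_mem hg.2 hdy) (Cy.inv_mem hg.2)⟩
    · have := Cfsg.Agent.H23.pLayer_normal 2 ↥Cx
      exact this.conj_mem l hl _
    · rw [← hld]; rfl
  exact hn.isSubnormal

/-- Let G be a finite group whose generalized Fitting subgroup is a non-abelian simple group and in which every proper section (every quotient H/N of a proper subgroup H, or of G by a nontrivial normal subgroup) has the B-property. Let x, y be commuting involutions, let D be the intersection of the 2-layer of C_G(x) with C_G(y), and let J be a 2-component of D. Write Q for the quotient of C_G(y) by its largest normal odd-order subgroup. Then (i) the image of J in Q is a component of the centralizer in Q of the image of x; and (ii) for every J-invariant subgroup E of odd order of C_G(x) ∩ C_G(y), the commutator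 subgroup [J, E] lies in the largest normal odd-order subgroup of C_G(y). -/
theorem result {G : Type*} [Group G] [Finite G]
    (hF : IsSimpleGroup ↥(Cfsg.generalizedFittingSubgroup G)) (hF' : ¬ IsMulCommutative ↥(Cfsg.generalizedFittingSubgroup G))
    (hsec : ∀ (H : Subgroup G) (N : Subgroup ↥H) [N.Normal], (H ≠ ⊤ ∨ N ≠ ⊥) → Cfsg.HasBProperty (↥H ⧸ N))
    (x y : G) (hx : orderOf x = 2) (hy : orderOf y = 2) (hxy : x * y = y * x)
    (J : Subgroup ↥((Cfsg.pLayer 2 ↥(Subgroup.centralizer ({x} : Set G))).map (Subgroup.centralizer ({x} : Set G)).subtype ⊓ Subgroup.centralizer ({y} : Set G)))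
    (hJ : Cfsg.IsPComponent 2 J) :
    Cfsg.IsComponent
        ((((J.map (Subgroup.subtype _)).subgroupOf (Subgroup.centralizer ({y} : Set G))).map (QuotientGroup.mk' (Cfsg.oddCore ↥(Subgroup.centralizer ({y} : Set G))))).subgroupOf
          (Subgroup.centralizer ({(QuotientGroup.mk' (Cfsg.oddCore ↥(Subgroup.centralizer ({y} : Set G))) ⟨x, Subgroup.mem_centralizer_singleton_iff.mpr hxy⟩ : ↥(Subgroup.centralizer ({y} : Set G)) ⧸ Cfsg.oddCore ↥(Subgroup.centralizer ({y} : Set G)))} : Set _))) ∧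
      ∀ E : Subgroup G, E ≤ Subgroup.centralizer ({x} : Set G) ⊓ Subgroup.centralizer ({y} : Set G) → Odd (Nat.card ↥E) →
        (∀ j ∈ J.map (Subgroup.subtype _), ∀ e ∈ E, j * e * j⁻¹ ∈ E) →
          ⁅J.map (Subgroup.subtype _), E⁆ ≤ (Cfsg.oddCore ↥(Subgroup.centralizer ({y} : Set G))).map (Subgroup.centralizer ({y} : Set G)).subtype := by
  have hxy' : x ∈ Subgroup.centralizer ({y} : Set G) := Subgroup.mem_centralizer_singleton_iff.mpr hxy
  have hJ1 := Cfsg.Agent.Bal.isPComponentOf_of_sub hJ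
  obtain ⟨hDle, hn⟩ := aux_subnormal _ _ _ (rfl : (Cfsg.pLayer 2 ↥(Subgroup.centralizer ({x} : Set G))).map (Subgroup.centralizer ({x} : Set G)).subtype ⊓ Subgroup.centralizer ({y} : Set G) = _)
  have hJ2 := Cfsg.Agent.Bal.isPComponentOf_of_isSubnormal hJ1 hDle hn
  have hy1 : y ≠ 1 := by rintro rfl; rw [orderOf_one] at hy; omega
  have hB := hsec (Subgroup.centralizer ({y} : Set G)) (Cfsg.oddCore ↥(Subgroup.centralizer ({y} : Set G)))
    (Or.inl (Cfsg.Agent.Bal.centralizer_ne_top hF hF' hy1))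
  obtain ⟨h1, h2⟩ := Cfsg.Agent.Bal.bar_component hx hxy' hB hJ2
  refine ⟨h1, fun E hE hodd hJE => h2 E hE hodd ?_⟩
  intro j hj
  exact Cfsg.Agent.Bal.mem_normalizer_of_forall (fun e he => hJE j hj e he)

end Cfsg.Agent.S1775
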