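import Cfsg.Statements.S1780
-- import your own Cfsg.Agent.* helpers here

set_option autoImplicit false
open Cfsg

namespace Cfsg.Agent.S1780

theorem aux1 {A : Type*} [CommGroup A] (t : MulAut A) (hC : ∀ a : A, t (t a) = a → t a = a) (m : ℕ) :
    ∀ c : A, t (t c) = c⁻¹ → c ^ (2 ^ m) = 1 → c ^ 2 = 1 := by
  induction m with
  | zero => intro c _ h; simp at h; simp [h]
  | succ m ih =>
    intro c hc h
    have h1 : (c ^ 2) ^ (2 ^ m) = 1 := by rw [← pow_mul, ← pow_succ']; exact h
    have h2 : t (t (c ^ 2)) = (c ^ 2)⁻¹ := by rw [map_pow, map_pow, hc, inv_pow]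
    have h3 := ih (c ^ 2) h2 h1
    have h4 : (c ^ 2)⁻¹ = c ^ 2 := by
      rw [inv_eq_iff_mul_eq_one, ← pow_two, h3]
    have h5 : t (c ^ 2) = c ^ 2 := hC _ (h2.trans h4)
    have hd2 : (c⁻¹ * t c) ^ 2 = 1 := by
      rw [mul_pow, ← map_pow, h5, inv_pow, inv_mul_cancel]
    have hd : t (t (c⁻¹ * t c)) = c⁻¹ * t c := by
      have e1 : t (t (c⁻¹ * t c)) = (c⁻¹ * t c)⁻¹ := by
        rw [map_mul, map_mul, map_inv, map_inv, hc, map_inv, mul_inv]
      rw [e1, inv_eq_iff_mul_eq_one, ← pow_two, hd2]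
    have h6 := hC _ hd
    rw [map_mul, map_inv, hc] at h6
    have h7 : (t c) ^ 2 = 1 := by
      have : (t c)⁻¹ = t c := by
        have := congrArg (fun x => x * c) h6
        simpa [mul_comm, mul_assoc, mul_left_comm] using this
      rw [pow_two]
      nth_rewrite 1 [← this]
      simp
    rw [← map_pow] at h7
    exact (map_eq_one_iff t t.injective).1 h7

theorem aux2 {A : Type*} [CommGroup A] (hA : IsPGroup 2 A) (t : MulAut A)
    (hC : ∀ a : A, t (t a) = a → t a = a) (a : A) (h : t (t (t (t a))) = a) : t a = a := by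
  have hb : t (a * t (t a)) = a * t (t a) := by
    apply hC
    rw [map_mul, map_mul, h, mul_comm]
  have hc : t (t (t a * a⁻¹)) = (t a * a⁻¹)⁻¹ := by
    rw [map_mul] at hb
    have e : t (t (t a)) = (t a)⁻¹ * (a * t (t a)) := by rw [← hb]; simp
    rw [map_mul, map_mul, map_inv, map_inv, e, mul_inv, inv_inv]
    simp [mul_assoc]
  obtain ⟨m, hm⟩ := hA (t a * a⁻¹)
  have h2 := aux1 t hC m _ hc hm
  have h3 : t (t a * a⁻¹) = t a * a⁻¹ := by
    apply hC
    rw [hc, inv_eq_iff_mul_eq_one, ← pow_two, h2]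
  apply hC
  have h4 : t (t a) = (t a * a⁻¹) ^ 2 * a := by
    rw [pow_two]
    nth_rewrite 1 [← h3]
    simp [mul_assoc]
  rw [h4, h2, one_mul]

theorem aux3 {A : Type*} [CommGroup A] (hA : IsPGroup 2 A) (k : ℕ) :
    ∀ t : MulAut A, (∀ a : A, t (t a) = a → t a = a) → ∀ a : A, (t ^ (2 ^ k)) a = a → t a = a := by
  induction k with
  | zero => intro t _ a h; simpa using h
  | succ k ih =>
    intro t hC a h
    apply hC
    have := ih (t ^ 2) (by
      intro b hb
      simp only [pow_two, MulAut.mul_apply] at hb ⊢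
      have := aux2 hA t hC b hb
      rw [this, this]) a (by rw [← pow_mul, ← pow_succ']; exact h)
    simpa [pow_two] using this

/-- Let A be a finite abelian 2-group and t an automorphism of A whose order is a power of 2. If every element of A fixed by t² is fixed by t, then t fixes every element of A. -/
theorem result {A : Type*} [CommGroup A] [Finite A]
    (hA : IsPGroup 2 A) (t : MulAut A) (ht : ∃ k : ℕ, orderOf t = 2 ^ k) (hC : ∀ a : A, t (t a) = a → t a = a) :
    ∀ a : A, t a = a := by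
  intro a
  obtain ⟨k, hk⟩ := ht
  apply aux3 hA k t hC a
  rw [← hk, pow_orderOf_eq_one, MulAut.one_apply]

end Cfsg.Agent.S1780
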