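import Cfsg.Statements.S1781
import Cfsg.Agent.S1780

set_option autoImplicit false
open Cfsg

namespace Cfsg.Agent.S1781

theorem key {G : Type*} [Group G] [Finite G] (A B : Subgroup G)
    (hB2 : IsPGroup 2 ↥B) (hBa : IsMulCommutative ↥B)
    (hti : ∀ b ∈ B, A.map (MulAut.conj b).toMonoidHom = A ∨ A.map (MulAut.conj b).toMonoidHom ⊓ A = ⊥)
    (hAB : A ⊓ B = ⊥) (t : G) (htA : t ∈ A) (htn : t ∈ Subgroup.normalizer (B : Set G))
    (ht2 : t ^ 2 ≠ 1) (htk : ∃ k : ℕ, t ^ (2 ^ k) = 1) (b : G) (hb : b ∈ B) : t * b = b * t := by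
  have := hBa
  let _ : CommGroup ↥B := { (inferInstance : Group ↥B) with mul_comm := fun a b => mul_comm' a b }
  have h1 := Cfsg.Agent.S1780.result hB2 (B.normalizerMonoidHom ⟨t, htn⟩) ?_ ?_ ⟨b, hb⟩
  · have h2 := congrArg Subtype.val h1
    change t * b * t⁻¹ = b at h2
    exact mul_inv_eq_iff_eq_mul.1 h2
  · obtain ⟨k, hk⟩ := htk
    have h3 : (B.normalizerMonoidHom ⟨t, htn⟩) ^ (2 ^ k) = 1 := by
      rw [← map_pow]
      have : (⟨t, htn⟩ : Subgroup.normalizer (B : Set G)) ^ (2 ^ k) = 1 := Subtype.ext hk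
      rw [this, map_one]
    obtain ⟨j, _, hj⟩ := (Nat.dvd_prime_pow Nat.prime_two).1 (orderOf_dvd_of_pow_eq_one h3)
    exact ⟨j, hj⟩
  · rintro ⟨c, hc⟩ h
    have h' : t * (t * c * t⁻¹) * t⁻¹ = c := congrArg Subtype.val h
    have hcomm : t ^ 2 * c = c * t ^ 2 := by
      have : c * t ^ 2 = t * (t * c * t⁻¹) * t⁻¹ * t ^ 2 := by rw [h']
      rw [this]; simp [pow_two, mul_assoc]
    have hA : A.map (MulAut.conj c).toMonoidHom = A := by
      rcases hti c hc with h | h
      · exact h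
      · exfalso
        have : t ^ 2 ∈ A.map (MulAut.conj c).toMonoidHom ⊓ A := by
          refine ⟨⟨t ^ 2, A.pow_mem htA 2, ?_⟩, A.pow_mem htA 2⟩
          change c * t ^ 2 * c⁻¹ = t ^ 2
          rw [← hcomm, mul_inv_cancel_right]
        rw [h] at this
        exact ht2 (Subgroup.mem_bot.1 this)
    have hc1 : c * t⁻¹ * c⁻¹ ∈ A := by
      rw [← hA]
      exact ⟨t⁻¹, A.inv_mem htA, rfl⟩
    have h4 : t * c * t⁻¹ * c⁻¹ ∈ A ⊓ B := by
      refine ⟨?_, ?_⟩
      · have := A.mul_mem htA hc1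
        simpa [mul_assoc] using this
      · exact B.mul_mem ((htn c).1 hc) (B.inv_mem hc)
    rw [hAB, Subgroup.mem_bot] at h4
    apply Subtype.ext
    change t * c * t⁻¹ = c
    exact mul_inv_eq_one.1 h4

/-- Let A be an abelian 2-subgroup of the finite group G such that every conjugate of A equals A or meets A trivially, and let g ∈ G with g A g⁻¹ ≠ A. Then either the subgroup of those elements of A that normalize g A g⁻¹ is an elementary abelian 2-group, or A and g A g⁻¹ commute elementwise. -/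
theorem result {G : Type*} [Group G] [Finite G] (A : Subgroup G)
    (hA2 : IsPGroup 2 ↥A) (hAa : IsMulCommutative ↥A)
    (hti : ∀ h : G, A.map (MulAut.conj h).toMonoidHom = A ∨ A.map (MulAut.conj h).toMonoidHom ⊓ A = ⊥)
    (g : G) (hg : A.map (MulAut.conj g).toMonoidHom ≠ A) :
    Cfsg.IsElementaryAbelian 2 (A ⊓ Subgroup.normalizer ((A.map (MulAut.conj g).toMonoidHom : Subgroup G) : Set G)) ∨
      ⁅A, A.map (MulAut.conj g).toMonoidHom⁆ = ⊥ := by
  have := hAa
  set B := A.map (MulAut.conj g).toMonoidHom with hB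
  have hBA : B ⊓ A = ⊥ := (hti g).resolve_left hg
  have hAB : A ⊓ B = ⊥ := by rw [inf_comm]; exact hBA
  have hB2 : IsPGroup 2 ↥B := hA2.map _
  have hBa : IsMulCommutative ↥B := inferInstance
  -- TI property for B
  have htiB : ∀ h : G, B.map (MulAut.conj h).toMonoidHom = B ∨ B.map (MulAut.conj h).toMonoidHom ⊓ B = ⊥ := by
    intro h
    have e1 : B.map (MulAut.conj h).toMonoidHom =
        (A.map (MulAut.conj (g⁻¹ * h * g)).toMonoidHom).map (MulAut.conj g).toMonoidHom := by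
      rw [hB, Subgroup.map_map, Subgroup.map_map]
      congr 1
      ext x
      simp [mul_assoc]
    rcases hti (g⁻¹ * h * g) with h1 | h1
    · left; rw [e1, h1]
    · right
      rw [e1, hB, ← Subgroup.map_inf_eq _ _ _ (MulAut.conj g).injective, h1, Subgroup.map_bot]
  by_cases hel : Cfsg.IsElementaryAbelian 2 (A ⊓ Subgroup.normalizer (B : Set G))
  · exact Or.inl hel
  right
  have hex : ∃ t ∈ A, t ∈ Subgroup.normalizer (B : Set G) ∧ t ^ 2 ≠ 1 := by
    by_contra hcon
    push Not at hcon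
    apply hel
    refine ⟨?_, fun a ha => hcon a ha.1 ha.2⟩
    refine ⟨⟨fun a b => ?_⟩⟩
    have := mul_comm' (⟨a.1, a.2.1⟩ : A) ⟨b.1, b.2.1⟩
    have h5 : (a : G) * b = b * a := congrArg (fun x : A => (x : G)) this
    exact Subtype.ext h5
  obtain ⟨t, htA, htn, ht2⟩ := hex
  have htk : ∃ k : ℕ, t ^ (2 ^ k) = 1 := by
    obtain ⟨k, hk⟩ := hA2 ⟨t, htA⟩
    exact ⟨k, congrArg Subtype.val hk⟩
  have h1 : ∀ b ∈ B, t * b = b * t := key A B hB2 hBa (fun b _ => hti b) hAB t htA htn ht2 htk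
  have ht1 : t ≠ 1 := by rintro rfl; simp at ht2
  -- B normalizes A
  have hBN : ∀ b ∈ B, b ∈ Subgroup.normalizer (A : Set G) := by
    intro b hb
    rw [Subgroup.mem_normalizer_iff_map_conj_eq]
    rcases hti b with h | h
    · exact h
    · exfalso
      have : t ∈ A.map (MulAut.conj b).toMonoidHom ⊓ A := by
        refine ⟨⟨t, htA, ?_⟩, htA⟩
        change b * t * b⁻¹ = t
        rw [← h1 b hb, mul_inv_cancel_right]
      rw [h] at this
      exact ht1 (Subgroup.mem_bot.1 this)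
  -- s = g t g⁻¹ in B centralizes A
  have h2 : ∀ a ∈ A, (g * t * g⁻¹) * a = a * (g * t * g⁻¹) := by
    refine key B A hA2 hAa (fun b _ => htiB b) hBA (g * t * g⁻¹) ⟨t, htA, rfl⟩ (hBN _ ⟨t, htA, rfl⟩) ?_ ?_
    · intro h
      apply ht2
      have : g * t ^ 2 * g⁻¹ = 1 := by rw [← h]; simp [pow_two, mul_assoc]
      simpa using this
    · obtain ⟨k, hk⟩ := htk
      exact ⟨k, by rw [conj_pow, hk]; simp⟩
  have hAN : ∀ a ∈ A, a ∈ Subgroup.normalizer (B : Set G) := by
    intro a ha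
    rw [Subgroup.mem_normalizer_iff_map_conj_eq]
    rcases htiB a with h | h
    · exact h
    · exfalso
      have : g * t * g⁻¹ ∈ B.map (MulAut.conj a).toMonoidHom ⊓ B := by
        refine ⟨⟨g * t * g⁻¹, ⟨t, htA, rfl⟩, ?_⟩, ⟨t, htA, rfl⟩⟩
        change a * (g * t * g⁻¹) * a⁻¹ = g * t * g⁻¹
        rw [← h2 a ha, mul_inv_cancel_right]
      rw [h] at this
      have h3 := Subgroup.mem_bot.1 this
      apply ht1
      simpa using h3
  rw [eq_bot_iff, Subgroup.commutator_le]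
  intro a ha b hb
  rw [← hAB, commutatorElement_def]
  refine ⟨?_, ?_⟩
  · have := (hBN b hb a⁻¹).1 (A.inv_mem ha)
    have := A.mul_mem ha this
    simpa [mul_assoc] using this
  · exact B.mul_mem ((hAN a ha b).1 hb) (B.inv_mem hb)

end Cfsg.Agent.S1781
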