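import Cfsg.Statements.S1784
import Cfsg.Agent.H90.LargePair
import Cfsg.Agent.FStar.Layer

set_option autoImplicit false
open Cfsg

namespace Cfsg.Agent.S1784

open Cfsg.Agent.H90

theorem mem_zp {G : Type*} [Group G] {Q : Subgroup G} {z : G} (h : XS Q z) {x : G} :
    x ∈ Subgroup.zpowers z ↔ x = 1 ∨ x = z := by
  rw [← h.center_eq]
  constructor
  · rintro ⟨y, hy, rfl⟩
    exact (h.mem_center_iff y).mp hy
  · rintro (h1 | h1)
    · rw [h1]; exact ⟨1, Subgroup.one_mem _, rfl⟩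
    · rw [h1]; exact ⟨⟨z, h.mem⟩, (h.mem_center_iff _).mpr (Or.inr rfl), rfl⟩

theorem core {G : Type*} [Group G] [Finite G] {Q : Subgroup G} {z α : G} (h : XS Q z) (hα : α * α = 1)
    (hαz : α * z = z * α) (hαQ : ∀ q ∈ Q, α * q * α⁻¹ ∈ Q) (hC : ¬ ∀ q ∈ Q, α * q * α⁻¹ = q) (Q₀ : Subgroup G)
    (hQ₀ : ∀ q : G, q ∈ Q₀ ↔ (q ∈ Q ∧ α * q * α⁻¹ * q⁻¹ ∈ Subgroup.zpowers z)) :
    Subgroup.closure ((fun q : G => α * q * α⁻¹ * q⁻¹) '' (Q : Set G)) = (Subgroup.center ↥Q₀).map Q₀.subtype ∧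
      (¬ Q₀ ≤ (Q ⊓ Subgroup.centralizer ({α} : Set G)) ⊔ Subgroup.zpowers z → ∃ q ∈ Q, q * α * q⁻¹ = α * z) := by
  have hαi : α⁻¹ = α := inv_eq_of_mul_eq_one_left hα
  have hzc : α * z * α⁻¹ = z := by rw [hαz, mul_inv_cancel_right]
  have hQ₀' : ∀ q : G, q ∈ Q₀ ↔ (q ∈ Q ∧ (α * q * α⁻¹ * q⁻¹ = 1 ∨ α * q * α⁻¹ * q⁻¹ = z)) := by
    intro q
    rw [hQ₀ q, mem_zp h]
  set W := Subgroup.closure ((fun q : G => α * q * α⁻¹ * q⁻¹) '' (Q : Set G)) with hW
  have hgen : ∀ q ∈ Q, α * q * α⁻¹ * q⁻¹ ∈ W := fun q hq => Subgroup.subset_closure ⟨q, hq, rfl⟩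
  have hWQ : W ≤ Q := by
    rw [hW, Subgroup.closure_le]
    rintro _ ⟨q, hq, rfl⟩
    exact Q.mul_mem (hαQ q hq) (Q.inv_mem hq)
  have hzW : z ∈ W := by
    by_contra hz
    apply hC
    intro q hq
    have hwQ := hWQ (hgen q hq)
    have h1 : α * q * α⁻¹ * q⁻¹ = 1 ∨ α * q * α⁻¹ * q⁻¹ = z := by
      apply h.nondeg _ hwQ
      intro p hp
      rcases h.conj_eq hwQ hp with h2 | h2
      · rw [mul_inv_eq_iff_eq_mul] at h2
        exact h2.symm
      · exfalso
        apply hz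
        have h3 : p * (α * q * α⁻¹ * q⁻¹) * p⁻¹ ∈ W := by
          have e : p * (α * q * α⁻¹ * q⁻¹) * p⁻¹ = (α * p * α⁻¹ * p⁻¹)⁻¹ * (α * (p * q) * α⁻¹ * (p * q)⁻¹) := by group
          rw [e]
          exact W.mul_mem (W.inv_mem (hgen p hp)) (hgen _ (Q.mul_mem hp hq))
        rw [h2] at h3
        have h4 := W.mul_mem (W.inv_mem (hgen q hq)) h3
        rwa [inv_mul_cancel_left] at h4
    rcases h1 with h1 | h1
    · exact mul_inv_eq_one.mp h1
    · exact absurd (h1 ▸ hgen q hq) hz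
  have hWQ₀ : W ≤ Q₀ := by
    rw [hW, Subgroup.closure_le]
    rintro _ ⟨q, hq, rfl⟩
    change α * q * α⁻¹ * q⁻¹ ∈ Q₀
    rw [hQ₀']
    have hw := hWQ (hgen q hq)
    refine ⟨hw, ?_⟩
    have e : α * (α * q * α⁻¹ * q⁻¹) * α⁻¹ * (α * q * α⁻¹ * q⁻¹)⁻¹ =
        ((α * q * α⁻¹ * q⁻¹) * (α * q * α⁻¹ * q⁻¹))⁻¹ := by
      rw [hαi]
      have e1 : α * (α * q * α * q⁻¹) * α * (α * q * α * q⁻¹)⁻¹ = (α * α) * q * α * q⁻¹ * (α * q) * α⁻¹ * q⁻¹ * α⁻¹ := by
        group
      have e2 : ((α * q * α * q⁻¹) * (α * q * α * q⁻¹))⁻¹ = q * α⁻¹ * q⁻¹ * α⁻¹ * q * α⁻¹ * q⁻¹ * α⁻¹ := by group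
      rw [e1, e2, hα, hαi]
      group
    rw [e]
    rcases h.sqr hw with h1 | h1 <;> rw [h1]
    · left; rw [inv_one]
    · right; exact h.inv_z
  -- `Q₀` is the centralizer of `W` in `Q`
  have key : ∀ q ∈ Q, ∀ p ∈ Q, ∀ e : G, (e = 1 ∨ e = z) → q * p = e * (p * q) →
      (q * (α * p * α⁻¹) = e * (α * p * α⁻¹ * q) ↔ q * (α * p * α⁻¹ * p⁻¹) = (α * p * α⁻¹ * p⁻¹) * q) := by
    intro q hq p hp e he hqp
    have hec : ∀ x ∈ Q, x * e = e * x := by
      rcases he with rfl | rfl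
      · intro x _; rw [mul_one, one_mul]
      · exact h.central
    have hee : e * e = 1 := by
      rcases he with rfl | rfl
      · exact mul_one 1
      · exact h.sq
    have hp' := hαQ p hp
    set p' := α * p * α⁻¹ with hp'def
    have hqp1 : q * p⁻¹ = e * (p⁻¹ * q) := by
      have h1 : p⁻¹ * (q * p) * p⁻¹ = p⁻¹ * (e * (p * q)) * p⁻¹ := by rw [hqp]
      have h2 : p⁻¹ * (e * (p * q)) * p⁻¹ = e * (q * p⁻¹) := by
        rw [← mul_assoc p⁻¹ e, hec p⁻¹ (Q.inv_mem hp)]; group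
      rw [h2] at h1
      have h3 : p⁻¹ * (q * p) * p⁻¹ = p⁻¹ * q := by group
      rw [h3] at h1
      rw [h1, ← mul_assoc, hee, one_mul]
    constructor
    · intro h1
      calc q * (p' * p⁻¹) = (q * p') * p⁻¹ := by group
        _ = e * p' * (q * p⁻¹) := by rw [h1]; group
        _ = e * (p' * e) * (p⁻¹ * q) := by rw [hqp1]; group
        _ = (e * e) * p' * (p⁻¹ * q) := by rw [hec p' hp']; group
        _ = p' * p⁻¹ * q := by rw [hee]; group
    · intro h1
      calc q * p' = (q * (p' * p⁻¹)) * p := by group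
        _ = p' * p⁻¹ * (q * p) := by rw [h1]; group
        _ = p' * p⁻¹ * e * (p * q) := by rw [hqp]; group
        _ = e * (p' * q) := by rw [hec _ (Q.mul_mem hp' (Q.inv_mem hp))]; group
  have hcomm : ∀ q ∈ Q, ∀ p ∈ Q, ∃ e : G, (e = 1 ∨ e = z) ∧ q * p = e * (p * q) := by
    intro q hq p hp
    rcases h.comm q hq p hp with h1 | h1
    · exact ⟨1, Or.inl rfl, by rw [one_mul]; exact h1⟩
    · exact ⟨z, Or.inr rfl, h1⟩
  have hinv : ∀ x : G, α * (α * x * α⁻¹) * α⁻¹ = x := by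
    intro x
    have e1 : α * (α * x * α⁻¹) * α⁻¹ = (α * α) * x * (α * α)⁻¹ := by group
    rw [e1, hα]; group
  have hαe : ∀ e : G, (e = 1 ∨ e = z) → α * e * α⁻¹ = e := by
    rintro e (rfl | rfl)
    · group
    · exact hzc
  have hQ₀W : Q₀ = Q ⊓ Subgroup.centralizer (W : Set G) := by
    ext q
    rw [Subgroup.mem_inf, hQ₀']
    constructor
    · rintro ⟨hq, hq1⟩
      refine ⟨hq, ?_⟩
      rw [hW, Subgroup.centralizer_closure]
      rw [Subgroup.mem_centralizer_iff]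
      rintro _ ⟨p, hp, rfl⟩
      obtain ⟨e, he, hqp⟩ := hcomm q hq p hp
      apply ((key q hq p hp e he hqp).mp _).symm
      obtain ⟨d, hd, hdq⟩ : ∃ d : G, (d = 1 ∨ d = z) ∧ α * q * α⁻¹ = d * q := by
        rcases hq1 with h1 | h1
        · exact ⟨1, Or.inl rfl, by rw [one_mul]; exact mul_inv_eq_one.mp h1⟩
        · exact ⟨z, Or.inr rfl, by rw [← h1]; group⟩
      have hdc : ∀ x ∈ Q, x * d = d * x := by
        rcases hd with rfl | rfl
        · intro x _; rw [mul_one, one_mul]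
        · exact h.central
      have h2 : (α * q * α⁻¹) * (α * p * α⁻¹) = e * ((α * p * α⁻¹) * (α * q * α⁻¹)) := by
        have e1 : (α * q * α⁻¹) * (α * p * α⁻¹) = α * (q * p) * α⁻¹ := by group
        have e2 : e * ((α * p * α⁻¹) * (α * q * α⁻¹)) = (α * e * α⁻¹) * ((α * p * α⁻¹) * (α * q * α⁻¹)) := by
          rw [hαe e he]
        rw [e1, e2, hqp]; group
      rw [hdq] at h2
      have h3 : e * ((α * p * α⁻¹) * (d * q)) = d * (e * (α * p * α⁻¹ * q)) := by
        have hec : e * d = d * e := by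
          rcases he with rfl | rfl
          · rw [mul_one, one_mul]
          · exact (hdc _ h.mem)
        calc e * ((α * p * α⁻¹) * (d * q)) = e * ((α * p * α⁻¹) * d) * q := by group
          _ = e * d * (α * p * α⁻¹) * q := by rw [hdc _ (hαQ p hp)]; group
          _ = _ := by rw [hec]; group
      rw [h3, mul_assoc] at h2
      exact mul_left_cancel h2
    · rintro ⟨hq, hqc⟩
      refine ⟨hq, ?_⟩
      apply h.nondeg _ (hWQ (hgen q hq))
      intro p hp
      obtain ⟨e, he, hpq⟩ := hcomm p hp q hq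
      have hee : e * e = 1 := by
        rcases he with rfl | rfl
        · exact mul_one 1
        · exact h.sq
      have hec : ∀ x ∈ Q, x * e = e * x := by
        rcases he with rfl | rfl
        · intro x _; rw [mul_one, one_mul]
        · exact h.central
      have hqp : q * p = e * (p * q) := by rw [hpq, ← mul_assoc, hee, one_mul]
      have h1 : q * (α * p * α⁻¹ * p⁻¹) = (α * p * α⁻¹ * p⁻¹) * q :=
        (Subgroup.mem_centralizer_iff.mp hqc _ (hgen p hp)).symm
      have h2 := (key q hq p hp e he hqp).mpr h1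
      have h3 : (α * q * α⁻¹) * p = e * (p * (α * q * α⁻¹)) := by
        have e1 : (α * q * α⁻¹) * p = α * (q * (α * p * α⁻¹)) * α⁻¹ := by
          have e2 : α * (q * (α * p * α⁻¹)) * α⁻¹ = (α * q * α⁻¹) * (α * (α * p * α⁻¹) * α⁻¹) := by group
          rw [e2, hinv]
        have e3 : e * (p * (α * q * α⁻¹)) = α * (e * ((α * p * α⁻¹) * q)) * α⁻¹ := by
          have e2 : α * (e * ((α * p * α⁻¹) * q)) * α⁻¹ = (α * e * α⁻¹) * (α * (α * p * α⁻¹) * α⁻¹) * (α * q * α⁻¹) := by group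
          rw [e2, hinv, hαe e he]; group
        rw [e1, e3, h2]
      have h4 : p * (α * q * α⁻¹) = e * ((α * q * α⁻¹) * p) := by
        rw [h3]
        have e5 : e * (e * (p * (α * q * α⁻¹))) = (e * e) * (p * (α * q * α⁻¹)) := by group
        rw [e5, hee, one_mul]
      exact ((key p hp q hq e he hpq).mp h4).symm
  have hdc : Q ⊓ Subgroup.centralizer (Q₀ : Set G) = W := by
    rw [hQ₀W]
    exact h.double_centralizer W hWQ hzW
  have hQ₀Q : Q₀ ≤ Q := fun q hq => ((hQ₀ q).mp hq).1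
  refine ⟨?_, ?_⟩
  · ext x
    constructor
    · intro hx
      have hx1 : x ∈ Q ⊓ Subgroup.centralizer (Q₀ : Set G) := by rw [hdc]; exact hx
      refine ⟨⟨x, hWQ₀ hx⟩, ?_, rfl⟩
      refine Subgroup.mem_center_iff.mpr ?_
      rintro ⟨y, hy⟩
      exact Subtype.ext (Subgroup.mem_centralizer_iff.mp hx1.2 y hy)
    · rintro ⟨⟨y, hy⟩, hyc, rfl⟩
      rw [← hdc]
      refine ⟨hQ₀Q hy, Subgroup.mem_centralizer_iff.mpr fun w hw => ?_⟩
      exact congrArg Subtype.val ((Subgroup.mem_center_iff.mp hyc) ⟨w, hw⟩)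
  · intro hne
    by_contra hcon
    push Not at hcon
    apply hne
    intro q hq
    apply Subgroup.mem_sup_left
    obtain ⟨hqQ, h1⟩ := (hQ₀' q).mp hq
    refine ⟨hqQ, Subgroup.mem_centralizer_singleton_iff.mpr ?_⟩
    rcases h1 with h1 | h1
    · rw [mul_inv_eq_one, mul_inv_eq_iff_eq_mul] at h1
      exact h1.symm
    · exfalso
      apply hcon q hqQ
      have h2 : q * α * q⁻¹ = α * (α * q * α⁻¹ * q⁻¹)  := by
        rw [hαi]
        have e : α * (α * q * α * q⁻¹) = (α * α) * q * α * q⁻¹ := by group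
        rw [e, hα, one_mul]
      rw [h2, h1]

/-- Let G be a finite group and let z be an involution of G such that Q, the generalized Fitting subgroup of the centralizer C of z, is a 2-group of symplectic type (every characteristic abelian subgroup of Q is cyclic); suppose Q is extraspecial, and view Q inside G. Let α be an involution of C that is not in Q, and let Q₀ be the subgroup of those q ∈ Q whose commutator with α lies in the subgroup generated by z. Then (a) the subgroup generated by the commutators α q α⁻¹ q⁻¹, q ∈ Q, equals the centre of Q₀; and (b) if Q₀ is not contained in the product of the centralizer of α in Q with the subgroup generated by z, then some element of Q conjugates α to α z. -/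
theorem result {G : Type*} [Group G] [Finite G] (z : G) (hz : orderOf z = 2) (hQ : Cfsg.IsOfSymplecticType ↥(Cfsg.generalizedFittingSubgroup ↥(Subgroup.centralizer ({z} : Set G)))) (hE : Cfsg.IsExtraspecial 2 ↥(Cfsg.generalizedFittingSubgroup ↥(Subgroup.centralizer ({z} : Set G))))
    (α : G) (hα : orderOf α = 2) (hαC : α ∈ Subgroup.centralizer ({z} : Set G)) (hαQ : α ∉ (Cfsg.generalizedFittingSubgroup ↥(Subgroup.centralizer ({z} : Set G))).map (Subgroup.centralizer ({z} : Set G)).subtype)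
    (Q₀ : Subgroup G) (hQ₀ : ∀ q : G, q ∈ Q₀ ↔ (q ∈ (Cfsg.generalizedFittingSubgroup ↥(Subgroup.centralizer ({z} : Set G))).map (Subgroup.centralizer ({z} : Set G)).subtype ∧ α * q * α⁻¹ * q⁻¹ ∈ Subgroup.zpowers z)) :
    Subgroup.closure ((fun q : G => α * q * α⁻¹ * q⁻¹) '' ((Cfsg.generalizedFittingSubgroup ↥(Subgroup.centralizer ({z} : Set G))).map (Subgroup.centralizer ({z} : Set G)).subtype : Set G)) = (Subgroup.center ↥Q₀).map Q₀.subtype ∧
      (¬ Q₀ ≤ ((Cfsg.generalizedFittingSubgroup ↥(Subgroup.centralizer ({z} : Set G))).map (Subgroup.centralizer ({z} : Set G)).subtype ⊓ Subgroup.centralizer ({α} : Set G)) ⊔ Subgroup.zpowers z →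
        ∃ q ∈ (Cfsg.generalizedFittingSubgroup ↥(Subgroup.centralizer ({z} : Set G))).map (Subgroup.centralizer ({z} : Set G)).subtype, q * α * q⁻¹ = α * z) := by
  obtain ⟨z', hz', -⟩ := XS.of_isExtraspecial hE
  have hFn : (Cfsg.generalizedFittingSubgroup ↥(Subgroup.centralizer ({z} : Set G))).Normal := inferInstance
  have hzM : z ∈ Subgroup.centralizer ({z} : Set G) := Subgroup.mem_centralizer_singleton_iff.mpr rfl
  have hzc : ∀ x : ↥(Subgroup.centralizer ({z} : Set G)), x * ⟨z, hzM⟩ = ⟨z, hzM⟩ * x := fun x =>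
    Subtype.ext (Subgroup.mem_centralizer_singleton_iff.mp x.2)
  have hz1 : z ≠ 1 := by rintro rfl; rw [orderOf_one] at hz; omega
  have hzF : (⟨z, hzM⟩ : ↥(Subgroup.centralizer ({z} : Set G))) ∈
      Cfsg.generalizedFittingSubgroup ↥(Subgroup.centralizer ({z} : Set G)) := by
    apply FStar.centralizer_generalizedFitting_le
    rw [Subgroup.mem_centralizer_iff]
    intro x _
    exact hzc x
  obtain rfl : z' = ⟨z, hzM⟩ := by
    rcases hz'.nondeg _ hzF (fun y _ => (hzc y).symm) with h1 | h1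
    · exact absurd (congrArg Subtype.val h1) hz1
    · exact h1.symm
  have hX : XS ((Cfsg.generalizedFittingSubgroup ↥(Subgroup.centralizer ({z} : Set G))).map
      (Subgroup.centralizer ({z} : Set G)).subtype) z := by
    refine ⟨⟨_, hz'.mem, rfl⟩, hz1, ?_, ?_, ?_, ?_⟩
    · exact congrArg Subtype.val hz'.sq
    · rintro _ ⟨q, hq, rfl⟩
      exact congrArg Subtype.val (hz'.central q hq)
    · rintro _ ⟨x, hx, rfl⟩ _ ⟨y, hy, rfl⟩
      rcases hz'.comm x hx y hy with h1 | h1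
      · left; exact congrArg Subtype.val h1
      · right; exact congrArg Subtype.val h1
    · rintro _ ⟨x, hx, rfl⟩ hcx
      rcases hz'.nondeg x hx (fun y hy => Subtype.ext (hcx y ⟨y, hy, rfl⟩)) with h1 | h1
      · left; rw [h1]; rfl
      · right; rw [h1]; rfl
  have hαα : α * α = 1 := by rw [← pow_two, ← hα, pow_orderOf_eq_one]
  refine core hX hαα (Subgroup.mem_centralizer_singleton_iff.mp hαC) ?_ ?_ Q₀ hQ₀
  · rintro _ ⟨q, hq, rfl⟩
    exact ⟨⟨α, hαC⟩ * q * ⟨α, hαC⟩⁻¹, hFn.conj_mem q hq _, rfl⟩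
  · intro hall
    apply hαQ
    refine ⟨⟨α, hαC⟩, ?_, rfl⟩
    apply FStar.centralizer_generalizedFitting_le
    rw [Subgroup.mem_centralizer_iff]
    intro x hx
    have h1 := hall x ⟨x, hx, rfl⟩
    rw [mul_inv_eq_iff_eq_mul] at h1
    exact Subtype.ext h1.symm

end Cfsg.Agent.S1784
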