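import Cfsg.Statements.S1785
import Cfsg.Agent.H30.ElemAb

set_option autoImplicit false
open Cfsg

namespace Cfsg.Agent.S1785

open Cfsg.Agent.H30

theorem card_pow_ge {X : Type*} [Group X] [Finite X] (hX : IsPGroup 2 X) (C : Subgroup X) {n k : ℕ}
    (h : 2 ^ n ≤ Nat.card ↥C ^ 2) (hk : 2 * k ≤ n + 1) : 2 ^ k ≤ Nat.card ↥C := by
  obtain ⟨m, hm⟩ := (hX.to_subgroup C).exists_card_eq
  rw [hm] at h ⊢
  rw [← pow_mul] at h
  have h1 : n ≤ m * 2 := (Nat.pow_le_pow_iff_right (by norm_num)).1 h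
  exact Nat.pow_le_pow_right (by norm_num) (by omega)

theorem mem_zpowers_two {X : Type*} [Group X] {b y : X} (hb : b ^ 2 = 1) (hy : y ∈ Subgroup.zpowers b) :
    y = 1 ∨ y = b := by
  obtain ⟨n, rfl⟩ := hy
  rcases Int.even_or_odd' n with ⟨k, rfl | rfl⟩
  · left
    show b ^ (2 * k) = 1
    rw [zpow_mul]
    have : b ^ (2 : ℤ) = 1 := by exact_mod_cast hb
    rw [this, one_zpow]
  · right
    show b ^ (2 * k + 1) = b
    rw [zpow_add, zpow_mul]
    have : b ^ (2 : ℤ) = 1 := by exact_mod_cast hb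
    rw [this, one_zpow, one_mul, zpow_one]

section
variable {X : Type*} [Group X] [Finite X] (hX : IsPGroup 2 X) (E : Subgroup X) [hN : E.Normal]
  (hE : Cfsg.IsElementaryAbelian 2 E)

include hX hE in
theorem cent_one {n k : ℕ} (F : Subgroup X) (hFE : F ≤ E) (hF : 2 ^ n ≤ Nat.card ↥F) (hk : 2 * k ≤ n + 1)
    {a : X} (ha : a ^ 2 = 1) (haF : ∀ f ∈ F, a * f * a⁻¹ ∈ F) :
    2 ^ k ≤ Nat.card ↥(F ⊓ Subgroup.centralizer ({a} : Set X)) :=
  card_pow_ge hX _ (hF.trans (card_le_card_centralizer_sq (IsElementaryAbelian.mono hE hFE) ha haF)) hk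

include hX hE in
theorem cent_all (hE32 : 32 ≤ Nat.card ↥E) {a b c : X} (ha : a ^ 2 = 1) (hb : b ^ 2 = 1) (hc : c ^ 2 = 1)
    (hab : a * b = b * a) (hac : a * c = c * a) (hbc : b * c = c * b) :
    2 ^ 3 ≤ Nat.card ↥(E ⊓ Subgroup.centralizer ({a} : Set X)) ∧
    2 ^ 2 ≤ Nat.card ↥(E ⊓ Subgroup.centralizer ({a} : Set X) ⊓ Subgroup.centralizer ({b} : Set X)) ∧
    2 ^ 1 ≤ Nat.card ↥(E ⊓ Subgroup.centralizer ({a} : Set X) ⊓ Subgroup.centralizer ({b} : Set X) ⊓
      Subgroup.centralizer ({c} : Set X)) := by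
  have aux : ∀ {x y f : X}, x * y = y * x → f ∈ Subgroup.centralizer ({x} : Set X) →
      y * f * y⁻¹ ∈ Subgroup.centralizer ({x} : Set X) := by
    intro x y f hxy hf
    apply mul_mem (mul_mem _ hf) (inv_mem _) <;>
      exact Subgroup.mem_centralizer_singleton_iff.2 hxy.symm
  have h1 := cent_one hX E hE (n := 5) (k := 3) E le_rfl (by norm_num; exact hE32) (by norm_num) ha
    (fun f hf => hN.conj_mem f hf a)
  have h2 := cent_one hX E hE (n := 3) (k := 2) _ inf_le_left h1 (by norm_num) hb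
    (fun f hf => Subgroup.mem_inf.2 ⟨hN.conj_mem f hf.1 b, aux hab hf.2⟩)
  have h3 := cent_one hX E hE (n := 2) (k := 1) _ (inf_le_left.trans inf_le_left) h2 (by norm_num) hc
    (fun f hf => Subgroup.mem_inf.2 ⟨Subgroup.mem_inf.2 ⟨hN.conj_mem f hf.1.1 c, aux hac hf.1.2⟩, aux hbc hf.2⟩)
  exact ⟨h1, h2, h3⟩

end

theorem comm_le_centralizer {X : Type*} [Group X] {A : Subgroup X} (h : Cfsg.IsElementaryAbelian 2 A) :
    A ≤ Subgroup.centralizer (A : Set X) := by
  intro x hx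
  rw [Subgroup.mem_centralizer_iff]
  intro y hy
  exact (isElementaryAbelian_iff.1 h).1 y hy x hx

theorem exists_not_mem {X : Type*} [Group X] [Finite X] (A B : Subgroup X)
    (h : Nat.card ↥B < Nat.card ↥A) : ∃ x ∈ A, x ∉ B := by
  by_contra hcon
  push Not at hcon
  exact absurd (Subgroup.card_le_of_le (fun x hx => hcon x hx)) (not_le.2 h)

theorem chain {X : Type*} [Group X] [Finite X]
    (hX : IsPGroup 2 X) (E : Subgroup X) [E.Normal] (hE : Cfsg.IsElementaryAbelian 2 E) (hE32 : 32 ≤ Nat.card ↥E)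
    (A : Subgroup X) (hA : Cfsg.IsElementaryAbelian 2 A) (hA8 : Nat.card ↥A = 8) :
    ∃ D : Subgroup X, D ≤ E ∧ Cfsg.IsElementaryAbelian 2 D ∧ Nat.card ↥D = 8 ∧
      Relation.ReflTransGen
          (fun C D : Subgroup X => Cfsg.IsElementaryAbelian 2 C ∧ Nat.card ↥C = 8 ∧ Cfsg.IsElementaryAbelian 2 D ∧ Nat.card ↥D = 8 ∧ ⁅C, D⁆ = ⊥)
          A D := by
  have h2 : Fact (Nat.Prime 2) := ⟨Nat.prime_two⟩
  by_cases hAE : A ≤ E
  · exact ⟨A, hAE, hA, hA8, Relation.ReflTransGen.refl⟩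
  obtain ⟨a, haA, haE⟩ := SetLike.not_le_iff_exists.1 hAE
  have hA' := isElementaryAbelian_iff.1 hA
  have hE' := isElementaryAbelian_iff.1 hE
  have ha1 : a ≠ 1 := fun h => haE (h ▸ E.one_mem)
  have ha2 : a ^ 2 = 1 := hA'.2 a haA
  have hca : Nat.card ↥(Subgroup.zpowers a) = 2 := by
    rw [Nat.card_zpowers]; exact orderOf_eq_prime ha2 ha1
  -- generate A by a, b0, c0
  obtain ⟨b0, hb0A, hb0⟩ := exists_not_mem A (Subgroup.zpowers a) (by rw [hca, hA8]; norm_num)
  have hcomm : ∀ x ∈ A, ∀ v ∈ Subgroup.zpowers x, ∀ y ∈ A, v * y = y * v := by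
    rintro x hx v hv y hy
    exact hA'.1 v ((Subgroup.zpowers_le.2 hx) hv) y hy
  have hV0 : Nat.card ↥(Subgroup.zpowers a ⊔ Subgroup.zpowers b0) = 4 := by
    rw [card_sup_zpowers (hA'.2 b0 hb0A) (fun v hv => hcomm a haA v hv b0 hb0A) hb0, hca]
  have hV0A : Subgroup.zpowers a ⊔ Subgroup.zpowers b0 ≤ A :=
    sup_le (Subgroup.zpowers_le.2 haA) (Subgroup.zpowers_le.2 hb0A)
  obtain ⟨c0, hc0A, hc0⟩ := exists_not_mem A (Subgroup.zpowers a ⊔ Subgroup.zpowers b0) (by rw [hV0, hA8]; norm_num)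
  have hAeq : Subgroup.zpowers a ⊔ Subgroup.zpowers b0 ⊔ Subgroup.zpowers c0 = A := by
    apply Subgroup.eq_of_le_of_card_ge (sup_le hV0A (Subgroup.zpowers_le.2 hc0A))
    rw [card_sup_zpowers (hA'.2 c0 hc0A) (fun v hv => hA'.1 v (hV0A hv) c0 hc0A) hc0, hV0, hA8]
  obtain ⟨-, -, h1⟩ := cent_all hX E hE hE32 ha2 (hA'.2 b0 hb0A) (hA'.2 c0 hc0A)
    (hA'.1 _ haA _ hb0A) (hA'.1 _ haA _ hc0A) (hA'.1 _ hb0A _ hc0A)
  obtain ⟨e, heC, he1⟩ := exists_not_mem (E ⊓ Subgroup.centralizer ({a} : Set X) ⊓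
    Subgroup.centralizer ({b0} : Set X) ⊓ Subgroup.centralizer ({c0} : Set X)) (⊥ : Subgroup X)
    (by rw [Subgroup.card_bot]; exact h1)
  have he1 : e ≠ 1 := fun h => he1 (Subgroup.mem_bot.2 h)
  have heE : e ∈ E := heC.1.1.1
  have heA : A ≤ Subgroup.centralizer ({e} : Set X) := by
    rw [← hAeq]
    refine sup_le (sup_le ?_ ?_) ?_ <;> rw [Subgroup.zpowers_le, Subgroup.mem_centralizer_singleton_iff]
    · exact (Subgroup.mem_centralizer_singleton_iff.1 heC.1.1.2).symm
    · exact (Subgroup.mem_centralizer_singleton_iff.1 heC.1.2).symm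
    · exact (Subgroup.mem_centralizer_singleton_iff.1 heC.2).symm
  have heA' : ∀ x ∈ A, x * e = e * x := fun x hx => Subgroup.mem_centralizer_singleton_iff.1 (heA hx)
  have he2 : e ^ 2 = 1 := hE'.2 e heE
  -- choose b
  have hcae : Nat.card ↥(Subgroup.zpowers a ⊔ Subgroup.zpowers e) = 4 := by
    rw [card_sup_zpowers he2 (fun v hv => heA' v ((Subgroup.zpowers_le.2 haA) hv)) ?_, hca]
    intro h
    rcases mem_zpowers_two ha2 h with h | h
    · exact he1 h
    · exact haE (h ▸ heE)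
  obtain ⟨b, hbA, hb⟩ := exists_not_mem A (Subgroup.zpowers a ⊔ Subgroup.zpowers e) (by rw [hcae, hA8]; norm_num)
  have hb2 := hA'.2 b hbA
  have hba : b ∉ Subgroup.zpowers a := fun h => hb ((le_sup_left : Subgroup.zpowers a ≤ _) h)
  set V := Subgroup.zpowers a ⊔ Subgroup.zpowers b with hVdef
  have hV : Nat.card ↥V = 4 := by
    rw [hVdef, card_sup_zpowers hb2 (fun v hv => hcomm a haA v hv b hbA) hba, hca]
  have hVA : V ≤ A := sup_le (Subgroup.zpowers_le.2 haA) (Subgroup.zpowers_le.2 hbA)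
  have haV : a ∈ V := (le_sup_left : Subgroup.zpowers a ≤ _) (Subgroup.mem_zpowers a)
  have hVE := IsElementaryAbelian.mono hA hVA
  have heV : e ∉ V := by
    intro h
    rw [hVdef, mem_sup_of_commute (by
      intro x hx y hy
      exact hA'.1 x ((Subgroup.zpowers_le.2 haA) hx) y ((Subgroup.zpowers_le.2 hbA) hy))] at h
    obtain ⟨x, hx, y, hy, hxy⟩ := h
    rcases mem_zpowers_two hb2 hy with rfl | rfl
    · rw [mul_one] at hxy
      rcases mem_zpowers_two ha2 hx with h | h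
      · exact he1 (hxy ▸ h)
      · exact haE (by rw [← h, hxy]; exact heE)
    · apply hb
      have : y = x⁻¹ * e := by rw [← hxy]; group
      rw [this]
      exact mul_mem (inv_mem ((le_sup_left : Subgroup.zpowers a ≤ _) hx))
        ((le_sup_right : Subgroup.zpowers e ≤ _) (Subgroup.mem_zpowers e))
  set A1 := V ⊔ Subgroup.zpowers e with hA1
  have hA1c : Nat.card ↥A1 = 8 := by
    rw [hA1, card_sup_zpowers he2 (fun v hv => heA' v (hVA hv)) heV, hV]
  have hA1E : Cfsg.IsElementaryAbelian 2 A1 :=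
    isElementaryAbelian_sup_zpowers hVE he2 (fun v hv => heA' v (hVA hv))
  have hAA1 : ⁅A, A1⁆ = ⊥ := by
    rw [Subgroup.commutator_eq_bot_iff_le_centralizer, Subgroup.le_centralizer_iff]
    refine sup_le ?_ ?_
    · exact hVA.trans (comm_le_centralizer hA)
    · rw [Subgroup.zpowers_le, Subgroup.mem_centralizer_iff]
      exact heA'
  -- W
  obtain ⟨hCa, hCab, -⟩ := cent_all hX E hE hE32 ha2 hb2 he2
    (hA'.1 _ haA _ hbA) (heA' _ haA) (heA' _ hbA)
  obtain ⟨W, hWle, hW4⟩ := Sylow.exists_subgroup_le_card_pow_prime_of_le_card Nat.prime_two hX hCab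
  have hWE : W ≤ E := hWle.trans (inf_le_left.trans inf_le_left)
  have hWV : W ≤ Subgroup.centralizer (V : Set X) := by
    rw [Subgroup.le_centralizer_iff]
    refine sup_le ?_ ?_ <;> rw [Subgroup.zpowers_le, Subgroup.mem_centralizer_iff] <;> intro w hw
    · exact Subgroup.mem_centralizer_singleton_iff.1 (hWle hw).1.2
    · exact Subgroup.mem_centralizer_singleton_iff.1 (hWle hw).2
  have hWa : ∀ w ∈ W, w * a = a * w := fun w hw => Subgroup.mem_centralizer_singleton_iff.1 (hWle hw).1.2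
  set A2 := W ⊔ Subgroup.zpowers a with hA2
  have hA2c : Nat.card ↥A2 = 8 := by
    rw [hA2, card_sup_zpowers ha2 hWa (fun h => haE (hWE h)), hW4]
    norm_num
  have hA2E : Cfsg.IsElementaryAbelian 2 A2 :=
    isElementaryAbelian_sup_zpowers (IsElementaryAbelian.mono hE hWE) ha2 hWa
  have hA1A2 : ⁅A1, A2⁆ = ⊥ := by
    rw [Subgroup.commutator_eq_bot_iff_le_centralizer, Subgroup.le_centralizer_iff]
    refine sup_le ?_ ?_
    · rw [Subgroup.le_centralizer_iff]
      refine sup_le (Subgroup.le_centralizer_iff.1 hWV) ?_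
      rw [Subgroup.zpowers_le, Subgroup.mem_centralizer_iff]
      intro w hw
      exact hE'.1 w (hWE hw) e heE
    · rw [Subgroup.zpowers_le]
      have : A1 ≤ Subgroup.centralizer ({a} : Set X) := by
        refine sup_le ?_ ?_
        · intro v hv
          exact Subgroup.mem_centralizer_singleton_iff.2 (hA'.1 v (hVA hv) a haA)
        · rw [Subgroup.zpowers_le]
          exact Subgroup.mem_centralizer_singleton_iff.2 (heA' a haA).symm
      rw [Subgroup.mem_centralizer_iff]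
      intro x hx
      exact Subgroup.mem_centralizer_singleton_iff.1 (this hx)
  -- D
  obtain ⟨D, hDle, hD8⟩ := Sylow.exists_subgroup_le_card_pow_prime_of_le_card Nat.prime_two hX hCa
  have hDE : D ≤ E := hDle.trans inf_le_left
  have hDEA := IsElementaryAbelian.mono hE hDE
  have hA2D : ⁅A2, D⁆ = ⊥ := by
    rw [Subgroup.commutator_eq_bot_iff_le_centralizer]
    refine sup_le ?_ ?_
    · intro w hw
      rw [Subgroup.mem_centralizer_iff]
      intro d hd
      exact hE'.1 d (hDE hd) w (hWE hw)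
    · rw [Subgroup.zpowers_le, Subgroup.mem_centralizer_iff]
      intro d hd
      exact Subgroup.mem_centralizer_singleton_iff.1 (hDle hd).2
  refine ⟨D, hDE, hDEA, by rw [hD8]; norm_num, ?_⟩
  have hD8' : Nat.card ↥D = 8 := by rw [hD8]; norm_num
  exact ((Relation.ReflTransGen.single ⟨hA, hA8, hA1E, hA1c, hAA1⟩).tail
    ⟨hA1E, hA1c, hA2E, hA2c, hA1A2⟩).tail ⟨hA2E, hA2c, hDEA, hD8', hA2D⟩

/-- Let X be a finite 2-group having a normal elementary abelian subgroup of order at least 32. Then (a) for any two elementary abelian subgroups A, B of X of order 8 there is a chain A = A₁, A₂, …, Aₙ = B of elementary abelian subgroups of order 8 in which consecutive members commute elementwise; and (b) every elementary abelian subgroup of X of order 4 is contained in an elementary abelian subgroup of order 8. -/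
theorem result {X : Type*} [Group X] [Finite X]
    (hX : IsPGroup 2 X) (E : Subgroup X) [E.Normal] (hE : Cfsg.IsElementaryAbelian 2 E) (hE32 : 32 ≤ Nat.card ↥E) :
    (∀ A B : Subgroup X, Cfsg.IsElementaryAbelian 2 A → Nat.card ↥A = 8 → Cfsg.IsElementaryAbelian 2 B → Nat.card ↥B = 8 →
        Relation.ReflTransGen
          (fun C D : Subgroup X => Cfsg.IsElementaryAbelian 2 C ∧ Nat.card ↥C = 8 ∧ Cfsg.IsElementaryAbelian 2 D ∧ Nat.card ↥D = 8 ∧ ⁅C, D⁆ = ⊥)
          A B) ∧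
      (∀ V : Subgroup X, Cfsg.IsElementaryAbelian 2 V → Nat.card ↥V = 4 →
        ∃ A : Subgroup X, V ≤ A ∧ Cfsg.IsElementaryAbelian 2 A ∧ Nat.card ↥A = 8) := by
  have h2 : Fact (Nat.Prime 2) := ⟨Nat.prime_two⟩
  have hE' := isElementaryAbelian_iff.1 hE
  constructor
  · intro A B hA hA8 hB hB8
    obtain ⟨D, hDE, hD, hD8, hAD⟩ := chain hX E hE hE32 A hA hA8
    obtain ⟨D', hDE', hD', hD8', hBD⟩ := chain hX E hE hE32 B hB hB8
    have hsymm : ∀ {P Q : Subgroup X}, Relation.ReflTransGen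
          (fun C D : Subgroup X => Cfsg.IsElementaryAbelian 2 C ∧ Nat.card ↥C = 8 ∧ Cfsg.IsElementaryAbelian 2 D ∧ Nat.card ↥D = 8 ∧ ⁅C, D⁆ = ⊥)
          P Q → Relation.ReflTransGen
          (fun C D : Subgroup X => Cfsg.IsElementaryAbelian 2 C ∧ Nat.card ↥C = 8 ∧ Cfsg.IsElementaryAbelian 2 D ∧ Nat.card ↥D = 8 ∧ ⁅C, D⁆ = ⊥)
          Q P := by
      intro P Q h
      induction h with
      | refl => exact Relation.ReflTransGen.refl
      | tail _ h ih =>
        obtain ⟨h1, h2, h3, h4, h5⟩ := h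
        exact (Relation.ReflTransGen.single ⟨h3, h4, h1, h2, by rw [Subgroup.commutator_comm]; exact h5⟩).trans ih
    refine (hAD.tail ⟨hD, hD8, hD', hD8', ?_⟩).trans (hsymm hBD)
    rw [Subgroup.commutator_eq_bot_iff_le_centralizer]
    intro x hx
    rw [Subgroup.mem_centralizer_iff]
    intro y hy
    exact hE'.1 y (hDE' hy) x (hDE hx)
  · intro V hV hV4
    have hV' := isElementaryAbelian_iff.1 hV
    obtain ⟨a, haV, ha⟩ := exists_not_mem V (⊥ : Subgroup X) (by rw [Subgroup.card_bot, hV4]; norm_num)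
    have ha1 : a ≠ 1 := fun h => ha (Subgroup.mem_bot.2 h)
    have ha2 := hV'.2 a haV
    have hca : Nat.card ↥(Subgroup.zpowers a) = 2 := by
      rw [Nat.card_zpowers]; exact orderOf_eq_prime ha2 ha1
    obtain ⟨b, hbV, hb⟩ := exists_not_mem V (Subgroup.zpowers a) (by rw [hca, hV4]; norm_num)
    have hb2 := hV'.2 b hbV
    have hVeq : Subgroup.zpowers a ⊔ Subgroup.zpowers b = V := by
      apply Subgroup.eq_of_le_of_card_ge (sup_le (Subgroup.zpowers_le.2 haV) (Subgroup.zpowers_le.2 hbV))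
      rw [card_sup_zpowers hb2 (fun v hv => hV'.1 v (Subgroup.zpowers_le.2 haV hv) b hbV) hb, hca, hV4]
    obtain ⟨-, hCab, -⟩ := cent_all hX E hE hE32 ha2 hb2 ha2 (hV'.1 _ haV _ hbV) rfl (hV'.1 _ hbV _ haV)
    set C := E ⊓ Subgroup.centralizer ({a} : Set X) ⊓ Subgroup.centralizer ({b} : Set X) with hC
    have hex : ∃ e ∈ C, e ∉ V := by
      by_contra hcon
      push Not at hcon
      have hCV : C = V := Subgroup.eq_of_le_of_card_ge (fun x hx => hcon x hx) (by rw [hV4]; exact hCab)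
      have hVE : V ≤ E := by rw [← hCV]; exact inf_le_left.trans inf_le_left
      have hEC : E ≤ C := by
        intro x hx
        refine Subgroup.mem_inf.2 ⟨Subgroup.mem_inf.2 ⟨hx, ?_⟩, ?_⟩ <;> rw [Subgroup.mem_centralizer_singleton_iff]
        · exact hE'.1 x hx a (hVE haV)
        · exact hE'.1 x hx b (hVE hbV)
      have := Subgroup.card_le_of_le hEC
      rw [hCV, hV4] at this
      omega
    obtain ⟨e, heC, heV⟩ := hex
    have he : V ≤ Subgroup.centralizer ({e} : Set X) := by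
      rw [← hVeq]
      refine sup_le ?_ ?_ <;> rw [Subgroup.zpowers_le, Subgroup.mem_centralizer_singleton_iff]
      · exact (Subgroup.mem_centralizer_singleton_iff.1 heC.1.2).symm
      · exact (Subgroup.mem_centralizer_singleton_iff.1 heC.2).symm
    have hc : ∀ v ∈ V, v * e = e * v := fun v hv => Subgroup.mem_centralizer_singleton_iff.1 (he hv)
    have he2 := hE'.2 e heC.1.1
    refine ⟨V ⊔ Subgroup.zpowers e, le_sup_left, isElementaryAbelian_sup_zpowers hV he2 hc, ?_⟩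
    rw [card_sup_zpowers he2 hc heV, hV4]

end Cfsg.Agent.S1785
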