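import Cfsg.Statements.S1850
import Cfsg.Agent.H1.PCon

set_option autoImplicit false
open Cfsg

namespace Cfsg.Agent.S1850

/-- Let G be a non-abelian finite simple QTKE-group and T a Sylow 2-subgroup of G. If U is a nontrivial 2-subgroup of G with U ∩ Z(T) ≠ 1, then F*(N_G(U)) = O₂(N_G(U)). -/
theorem result {G : Type*} [Group G] [Finite G] [IsSimpleGroup G]
    (hG : ¬ IsMulCommutative G) (hQ : Cfsg.IsQTKE G) (T : Sylow 2 G) (U : Subgroup G)
    (hU : IsPGroup 2 ↥U) (hZ : U ⊓ ((T : Subgroup G) ⊓ Subgroup.centralizer ((T : Subgroup G) : Set G)) ≠ ⊥) :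
    Subgroup.normalizer (U : Set G) ∈ Cfsg.calHe G := by
  classical
  have hp2 : Fact (Nat.Prime 2) := ⟨Nat.prime_two⟩
  set Z := U ⊓ ((T : Subgroup G) ⊓ Subgroup.centralizer ((T : Subgroup G) : Set G)) with hZdef
  have hZp : IsPGroup 2 Z := hU.to_le inf_le_left
  have hnt : Nontrivial Z := (Subgroup.nontrivial_iff_ne_bot Z).2 hZ
  have h2 : 2 ∣ Nat.card Z := by
    obtain ⟨n, hn0, hn⟩ := (IsPGroup.nontrivial_iff_card hZp).1 hnt
    rw [hn]; exact dvd_pow_self 2 hn0.ne'
  obtain ⟨z, hz⟩ := exists_prime_orderOf_dvd_card' 2 h2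
  have hzG : orderOf ((z : G)) = 2 := by rw [Subgroup.orderOf_coe, hz]
  have hzU : (z : G) ∈ U := z.2.1
  have hzT : (z : G) ∈ Subgroup.centralizer ((T : Subgroup G) : Set G) := z.2.2.2
  have hzp : IsPGroup 2 (Subgroup.zpowers (z : G)) := by
    rw [IsPGroup.iff_card]
    exact ⟨1, by rw [Nat.card_zpowers, hzG]; rfl⟩
  have hz1 : Subgroup.zpowers (z : G) ≠ ⊥ := by
    rw [Ne, Subgroup.zpowers_eq_bot]
    intro h
    rw [h, orderOf_one] at hzG
    omega
  have hTN : (T : Subgroup G) ≤ Subgroup.normalizer ((Subgroup.zpowers (z : G) : Subgroup G) : Set G) := by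
    refine le_trans ?_ (Subgroup.centralizer_le_normalizer _)
    intro t ht
    rw [Subgroup.zpowers_eq_closure, Subgroup.centralizer_closure, Subgroup.mem_centralizer_singleton_iff]
    exact (Subgroup.mem_centralizer_iff.1 hzT t ht)
  have h3 : H36.PConstr.CharP 2 (Subgroup.normalizer ((Subgroup.zpowers (z : G) : Subgroup G) : Set G)) :=
    hQ.2.2 _ ⟨_, hzp, hz1, rfl⟩ ⟨T, hTN⟩
  have h4 := H1.charP_centralizer_of_le hzp Subgroup.le_normalizer h3 (Subgroup.centralizer_le_normalizer _)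
  have h5 := H1.charP_centralizer_mono hU _ (Subgroup.zpowers (z : G)) le_rfl (by rwa [Subgroup.zpowers_le]) h4
  have h6 : H36.PConstr.CharP 2 (Subgroup.normalizer (U : Set G)) :=
    H1.charP_of_centralizer hU Subgroup.le_normalizer le_rfl (Subgroup.centralizer_le_normalizer _) h5
  exact SigF.PC.charP_iff_eq.1 h6

end Cfsg.Agent.S1850
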