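import Cfsg.Statements.S1851
import Cfsg.Agent.H1.FMod
import Cfsg.Agent.H1.PCon
import Cfsg.Agent.H49.CharP

set_option autoImplicit false
open Cfsg

namespace Cfsg.Agent.S1851

/-- Let G be a non-abelian finite simple QTKE-group and T a Sylow 2-subgroup of G, and let L be a member of ℒ_f(G, T) (a member of ℒ(G, T) that lies in 𝒳 — L ≠ 1, L = O²(L), F*(L) = O₂(L) — and acts nontrivially on Ω₁(Z(O₂(L)))). Then (1) every member K of ℒ(G, T) containing L is again in ℒ_f(G, T) (a sharper form of (1) also compares the modules [Ω₁(Z(R)), L] and [Ω₁(Z(R')), K] for suitable 2-subgroups R, R'; that comparison is not included); and (2) if L is maximal under inclusion among the members of ℒ_f(G, T), then L is a maximal member of ℒ(G, T), hence a member of ℒ_f*(G, T). -/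
theorem result {G : Type*} [Group G] [Finite G] [IsSimpleGroup G]
    (hG : ¬ IsMulCommutative G) (hQ : Cfsg.IsQTKE G) (T : Sylow 2 G) (L : Subgroup G)
    (hL : L ∈ Cfsg.calLf (T : Subgroup G)) :
    (∀ K ∈ Cfsg.calL (T : Subgroup G), L ≤ K → K ∈ Cfsg.calLf (T : Subgroup G)) ∧
    ((∀ K ∈ Cfsg.calLf (T : Subgroup G), L ≤ K → K = L) → L ∈ Cfsg.calLfMax (T : Subgroup G)) := by
  classical
  have hp2 : Fact (Nat.Prime 2) := ⟨Nat.prime_two⟩
  -- data of a member of `calL T`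
  have key : ∀ K ∈ calL (T : Subgroup G), (K ≤ K ⊔ (T : Subgroup G)) ∧
      (K.subgroupOf (K ⊔ (T : Subgroup G))).IsSubnormal ∧ ⁅K, K⁆ = K ∧ K ≠ ⊥ ∧
      H47.CharP' 2 (K ⊔ (T : Subgroup G)) ∧ pCoreOf 2 (K ⊔ (T : Subgroup G)) ≤ (T : Subgroup G) := by
    intro K hK
    obtain ⟨⟨h1, h2, h3, -⟩, -, h5⟩ := hK
    have hKH : K ≤ K ⊔ (T : Subgroup G) := le_sup_left
    have hTH : (T : Subgroup G) ≤ K ⊔ (T : Subgroup G) := le_sup_right
    set H := K ⊔ (T : Subgroup G) with hH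
    have hKmap : (K.subgroupOf H).map H.subtype = K := Subgroup.map_subgroupOf_eq_of_le hKH
    have hRne : pCoreOf 2 H ≠ ⊥ := fun h => h5 (H47.pCore_eq_bot_iff.2 h)
    have hRp := H47.pCoreOf_isPGroup 2 H
    have hHR := H47.le_normalizer_pCoreOf 2 H
    have hRT : pCoreOf 2 H ≤ (T : Subgroup G) := H1.le_sylow_of_normalized T hRp (hTH.trans hHR)
    refine ⟨hKH, h3, ?_, ?_, ?_, hRT⟩
    · have h6 := congrArg (Subgroup.map H.subtype) h2
      rwa [Subgroup.map_commutator, hKmap] at h6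
    · rintro rfl
      apply h1
      exact Subgroup.bot_subgroupOf H
    · -- even characteristic
      set N := Subgroup.normalizer ((pCoreOf 2 H : Subgroup G) : Set G) with hN
      have hNc : H36.PConstr.CharP 2 N := hQ.2.2 N ⟨_, hRp, hRne, rfl⟩ ⟨T, hTH.trans hHR⟩
      have hNc' : H47.CharP' 2 N := H47.charP'_iff.1 hNc
      have h6 : pCoreOf 2 N ≤ (T : Subgroup G) :=
        H1.le_sylow_of_normalized T (H47.pCoreOf_isPGroup 2 N)
          ((hTH.trans hHR).trans (H47.le_normalizer_pCoreOf 2 N))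
      have h7 : pCoreOf 2 N ≤ pCoreOf 2 H :=
        H47.le_pCoreOf (h6.trans hTH) (hHR.trans (H47.le_normalizer_pCoreOf 2 N)) (H47.pCoreOf_isPGroup 2 N)
      intro x hx
      apply h7
      apply hNc'
      exact ⟨hHR hx.1, Subgroup.centralizer_le h7 hx.2⟩
  have hodd : ∀ K : Subgroup G, Cfsg.oddGenerated K = H47.pRes 2 K := by
    intro K
    rw [H47.pRes_eq_closure]
    unfold Cfsg.oddGenerated
    congr 1
    ext x
    simp only [Set.mem_ofPred_eq, Nat.coprime_two_right]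
  have hmod : ∀ K : Subgroup G, moduleV K = ⁅H1.OZ 2 (pCoreOf 2 K), K⁆ := fun K => rfl
  have hpart1 : ∀ K ∈ Cfsg.calL (T : Subgroup G), L ≤ K → K ∈ Cfsg.calLf (T : Subgroup G) := by
    intro K hK hLK
    obtain ⟨kle, ksn, kperf, kne, kch, kT⟩ := key K hK
    obtain ⟨lle, lsn, lperf, lne, lch, lT⟩ := key L hL.1
    have hpK : H47.pRes 2 K = K := H1.pRes_eq_of_perfect kperf
    have hpL : H47.pRes 2 L = L := H1.pRes_eq_of_perfect lperf
    have hHH : L ⊔ (T : Subgroup G) ≤ K ⊔ (T : Subgroup G) := sup_le_sup_right hLK _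
    have hTK : (T : Subgroup G) ≤ K ⊔ (T : Subgroup G) := le_sup_right
    have hTL : (T : Subgroup G) ≤ L ⊔ (T : Subgroup G) := le_sup_right
    refine ⟨hK, ⟨kne, ?_, ?_⟩, ?_⟩
    · rw [hodd, hpK]
    · -- `K ∈ ℋ^e`
      have h1 : H36.PConstr.CharP 2 ↥(K ⊔ (T : Subgroup G)) := H47.charP'_iff.2 kch
      have h2 := H49.charP_of_isSubnormal h1 _ ksn
      have h3 : H36.PConstr.CharP 2 ↥K := H49.charP_of_equiv (Subgroup.subgroupOfEquivOfLe kle) h2
      exact SigF.PC.charP_iff_eq.1 h3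
    · rw [hmod, Ne, Subgroup.commutator_eq_bot_iff_le_centralizer, Subgroup.le_centralizer_iff]
      intro h
      have h1 := H1.centralizes_OZ_up kle ksn hpK h
      -- `Ω₁Z(R_L) ≤ Ω₁Z(R_K)`
      have hRR : pCoreOf 2 (K ⊔ (T : Subgroup G)) ≤ pCoreOf 2 (L ⊔ (T : Subgroup G)) :=
        H47.le_pCoreOf (kT.trans hTL) (hHH.trans (H47.le_normalizer_pCoreOf 2 _)) (H47.pCoreOf_isPGroup 2 _)
      have h2 : H1.OZ 2 (pCoreOf 2 (L ⊔ (T : Subgroup G))) ≤ H1.OZ 2 (pCoreOf 2 (K ⊔ (T : Subgroup G))) := by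
        intro x hx
        obtain ⟨h3, h4, h5⟩ := H1.mem_OZ.1 hx
        have h6 := Subgroup.centralizer_le hRR h4
        exact H1.mem_OZ.2 ⟨kch ⟨hTK (lT h3), h6⟩, h6, h5⟩
      have h3 : L ≤ Subgroup.centralizer (H1.OZ 2 (pCoreOf 2 (L ⊔ (T : Subgroup G))) : Set G) :=
        (hLK.trans h1).trans (Subgroup.centralizer_le h2)
      have h4 := H1.centralizes_OZ_down lle lsn hpL h3
      apply hL.2.2
      rw [hmod, Subgroup.commutator_eq_bot_iff_le_centralizer, Subgroup.le_centralizer_iff]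
      exact h4
  refine ⟨hpart1, fun hmax => ⟨⟨hL.1, fun K hK hLK => hmax K (hpart1 K hK hLK) hLK⟩, hL.2⟩⟩

end Cfsg.Agent.S1851
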