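import Cfsg.Statements.S1957
import Cfsg.Agent.H33.FourGroup

set_option autoImplicit false
open Cfsg

namespace Cfsg.Agent.S1957

/-- Let `G` be a finite non-abelian simple group in which every local subgroup is solvable and which is of characteristic 2 type. Let `P` be a Sylow 2-subgroup of `G` and `U` a normal subgroup of `P` that is a four-group, with `U` central in `P` if the centre of `P` is not cyclic. Then `U` centralizes every subgroup of odd order of `G` that it normalizes. -/
theorem result {G : Type*} [Group G] [Finite G]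
    [IsSimpleGroup G] (hna : ¬ IsMulCommutative G) (hN : Cfsg.IsNGroup G) (h2 : Cfsg.IsCharacteristicTwoType G)
    (P : Sylow 2 G) (U : Subgroup G) (hUP : U ≤ (P : Subgroup G)) (hUn : (P : Subgroup G) ≤ Subgroup.normalizer (U : Set G))
    (hU4 : IsKleinFour ↥U)
    (hUZ : ¬ IsCyclic ↥((P : Subgroup G) ⊓ Subgroup.centralizer ((P : Subgroup G) : Set G)) →
      U ≤ Subgroup.centralizer ((P : Subgroup G) : Set G))
    (K : Subgroup G) (hK : Odd (Nat.card K)) (hUK : U ≤ Subgroup.normalizer (K : Set G)) :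
    U ≤ Subgroup.centralizer (K : Set G) := by
  classical
  haveI : Fact (Nat.Prime 2) := ⟨Nat.prime_two⟩
  have hUp : IsPGroup 2 U := P.2.to_le hUP
  -- the main claim
  have main : ∀ u ∈ U, u ≠ 1 → ∀ k ∈ K, k * u = u * k → ∀ v ∈ U, v * k = k * v := by
    intro u hu hu1 k hk hku v hv
    have huu := H33.klein_sq hU4 hu
    obtain ⟨T, hT, hTU⟩ := H33.exists_sylow_normalizing P U hUP hUn hU4 hUZ hu hu1
    set M := Subgroup.centralizer ({u} : Set G) with hM
    have hMm : ∀ x, x ∈ M ↔ x * u = u * x := fun x => by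
      rw [hM, Subgroup.mem_centralizer_singleton_iff]
    have hnorm : Subgroup.normalizer ((Subgroup.zpowers u : Subgroup G) : Set G) = M := by
      apply le_antisymm
      · intro x hx
        rw [hMm]
        have h1 := (Subgroup.mem_normalizer_iff.1 hx u).1 (Subgroup.mem_zpowers u)
        obtain ⟨n, hn⟩ := Subgroup.mem_zpowers_iff.1 h1
        have h2 : x * u * x⁻¹ = u ∨ x * u * x⁻¹ = 1 := by
          rw [← hn]
          rcases Int.even_or_odd n with ⟨m, hm⟩ | ⟨m, hm⟩
          · right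
            rw [hm, ← two_mul, zpow_mul, zpow_ofNat, pow_two, huu, one_zpow]
          · left
            rw [hm, zpow_add, zpow_mul, zpow_ofNat, pow_two, huu, one_zpow, one_mul, zpow_one]
        rcases h2 with h2 | h2
        · exact mul_inv_eq_iff_eq_mul.1 h2
        · exfalso
          apply hu1
          have : u = x⁻¹ * (x * u * x⁻¹) * x := by group
          rw [this, h2]; group
      · intro x hx
        rw [hMm] at hx
        rw [Subgroup.mem_normalizer_iff]
        have hx' : ∀ n : ℤ, x * u ^ n * x⁻¹ = u ^ n := by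
          intro n
          have : Commute x (u ^ n) := (show Commute x u from hx).zpow_right n
          rw [this.eq]; group
        intro y
        constructor
        · intro hy
          obtain ⟨n, rfl⟩ := Subgroup.mem_zpowers_iff.1 hy
          rw [hx']; exact Subgroup.zpow_mem_zpowers u n
        · intro hy
          obtain ⟨n, hn⟩ := Subgroup.mem_zpowers_iff.1 hy
          have : y = x⁻¹ * (x * y * x⁻¹) * x := by group
          rw [this, ← hn]
          have h3 := hx' n
          have h4 : x⁻¹ * u ^ n * x = u ^ n := by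
            conv_lhs => rw [← h3]
            group
          rw [h4]; exact Subgroup.zpow_mem_zpowers u n
    have hzne : Subgroup.zpowers u ≠ ⊥ := by rwa [Ne, Subgroup.zpowers_eq_bot]
    have hchar := h2.2 (Subgroup.zpowers u) (hUp.to_le (Subgroup.zpowers_le.2 hu)) hzne
    rw [hnorm] at hchar
    have huM : u ∈ M := (hMm u).2 rfl
    have hUM : ∀ w ∈ U, w ∈ M := fun w hw => (hMm w).2 (H33.klein_comm hU4 hw hu)
    -- `O_2(M) ≤ T`
    have hRT : ∀ r : M, r ∈ Cfsg.pCore 2 M → (r : G) ∈ T := by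
      intro r hr
      have h3 : IsPGroup 2 (Cfsg.pCore 2 M) := Solv.pCore_isPGroup 2
      have h4 := h3.le_sylow_of_normal hT.toSylow hr
      exact h4
    have hvR : (⟨v, hUM v hv⟩ : M) ∈ Cfsg.pCore 2 M := by
      apply H33.mem_pCore_of_quad hchar ⟨u, huM⟩
      · intro g; exact Subtype.ext ((hMm g).1 g.2)
      · exact Subtype.ext huu
      · intro r hr
        have h3 := H33.klein_act hU4 hu hu1 hv (hTU (hRT r hr)) (by
          have := (hMm r).1 r.2
          rw [this]; group)
        obtain ⟨n, hn⟩ := Subgroup.mem_zpowers_iff.1 (inv_mem h3)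
        rw [Subgroup.mem_zpowers_iff]
        refine ⟨n, Subtype.ext ?_⟩
        change u ^ n = v * r * v⁻¹ * (r : G)⁻¹
        rw [hn]; group
    have hkM : k ∈ M := (hMm k).2 hku
    -- the commutator
    have h3 : v * k * v⁻¹ * k⁻¹ ∈ K := by
      have := (Subgroup.mem_normalizer_iff.1 (hUK hv) k).1 hk
      exact mul_mem this (inv_mem hk)
    have h4 : (⟨v, hUM v hv⟩ : M) * ⟨k, hkM⟩ * (⟨v, hUM v hv⟩ : M)⁻¹ * (⟨k, hkM⟩ : M)⁻¹ ∈ Cfsg.pCore 2 M := by
      have h5 := (inferInstance : (Cfsg.pCore 2 M).Normal).conj_mem _ (inv_mem hvR) ⟨k, hkM⟩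
      have h6 := mul_mem hvR h5
      have e : (⟨v, hUM v hv⟩ : M) * (⟨k, hkM⟩ * (⟨v, hUM v hv⟩ : M)⁻¹ * (⟨k, hkM⟩ : M)⁻¹) =
          (⟨v, hUM v hv⟩ : M) * ⟨k, hkM⟩ * (⟨v, hUM v hv⟩ : M)⁻¹ * (⟨k, hkM⟩ : M)⁻¹ := by group
      rwa [e] at h6
    obtain ⟨j, hj⟩ := (Solv.pCore_isPGroup 2 : IsPGroup 2 (Cfsg.pCore 2 M)) ⟨_, h4⟩
    have h5 : (v * k * v⁻¹ * k⁻¹) ^ 2 ^ j = 1 := 
      congrArg (fun z : Cfsg.pCore 2 M => ((z : M) : G)) hj
    have h6 : (v * k * v⁻¹ * k⁻¹) = 1 := by
      have h7 : (v * k * v⁻¹ * k⁻¹) ^ Nat.card K = 1 := by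
        have := pow_card_eq_one' (x := (⟨_, h3⟩ : K))
        exact congrArg Subtype.val this
      have h8 : (2 ^ j).Coprime (Nat.card K) := (Nat.coprime_two_left.2 hK).pow_left j
      have := pow_gcd_eq_one.2 ⟨h5, h7⟩
      rwa [h8, pow_one] at this
    rw [mul_inv_eq_one, mul_inv_eq_iff_eq_mul] at h6
    exact h6
  -- generation
  have hel : Cfsg.IsElementaryAbelian 2 U := by
    refine ⟨?_, fun a ha => by rw [pow_two]; exact H33.klein_sq hU4 ha⟩
    haveI := hU4
    exact IsKleinFour.isMulCommutative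
  have hKn : ¬ 2 ∣ Nat.card K := by
    rw [← even_iff_two_dvd, Nat.not_even_iff_odd]; exact hK
  have hgen := SigF.eq_of_hyperplane_fixed_le (p := 2) (A := U) (K := K)
    (H := K ⊓ Subgroup.centralizer (U : Set G)) hel hKn hUK inf_le_left (by
      intro B hBU hi
      have hB : B ≠ ⊥ := by
        rintro rfl
        rw [Subgroup.relIndex_bot_left] at hi
        rw [hU4.card_four] at hi
        norm_num at hi
      obtain ⟨⟨u, hu⟩, hu1⟩ := Subgroup.ne_bot_iff_exists_ne_one.1 hB
      have hu1' : u ≠ 1 := fun h => hu1 (Subtype.ext h)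
      rintro k ⟨hk, hkB⟩
      refine ⟨hk, Subgroup.mem_centralizer_iff.2 fun v hv => ?_⟩
      exact main u (hBU hu) hu1' k hk (Subgroup.mem_centralizer_iff.1 hkB u hu).symm v hv)
  rw [Subgroup.le_centralizer_iff]
  rw [← hgen]
  exact inf_le_right

end Cfsg.Agent.S1957
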