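import Cfsg.Statements.S1966
import Cfsg.Agent.Solv.Core
import Cfsg.Agent.H33.Alperin

set_option autoImplicit false
open Cfsg

namespace Cfsg.Agent.S1966

/-- Let p be a prime, G a finite group with Sylow p-subgroup S and 𝓕 a conjugation family for S in G. Then the members of 𝓕 containing O_p(G) still form a conjugation family for S in G. -/
theorem result {G : Type*} [Group G] [Finite G] {p : ℕ} [Fact p.Prime] (S : Sylow p G) (𝓕 : Set (Subgroup G)) (h : Cfsg.IsConjugationFamily 𝓕 (S : Subgroup G)) : Cfsg.IsConjugationFamily {T : Subgroup G | T ∈ 𝓕 ∧ Cfsg.pCore p G ≤ T} (S : Subgroup G) := by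
  refine ⟨fun T hT => h.1 T hT.1, fun A g hA hAS hg => ?_⟩
  have hQS : Cfsg.pCore p G ≤ (S : Subgroup G) := Solv.pCore_le_sylow S
  have hQ : ∀ x : G, (fun a => x⁻¹ * a * x) '' (Cfsg.pCore p G : Set G) = (Cfsg.pCore p G : Set G) := by
    intro x
    have := H33.rc_coe x (Cfsg.pCore p G)
    rw [H33.cj_normal] at this
    exact this
  obtain ⟨n, T, x, h1, h2, h3, h4, h5⟩ := h.2 (A ∪ (Cfsg.pCore p G : Set G)) g (hA.mono Set.subset_union_left)
    (Set.union_subset hAS hQS) (by
      rw [Set.image_union, hQ]
      exact Set.union_subset hg hQS)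
  refine ⟨n, T, x, h1, ?_, h3, ?_, ?_⟩
  · rintro ⟨i, hi⟩
    refine ⟨h2 _, ?_⟩
    cases i with
    | zero => exact Set.subset_union_right.trans (h4 hi)
    | succ j =>
      have := h5 ⟨j, by omega⟩ hi
      rw [Set.image_union, hQ] at this
      exact Set.subset_union_right.trans this
  · intro hn; exact Set.subset_union_left.trans (h4 hn)
  · intro i hi
    have := h5 i hi
    rw [Set.image_union] at this
    exact Set.subset_union_left.trans this

end Cfsg.Agent.S1966
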