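import Cfsg.Statements.S1970
import Cfsg.Agent.H33.SecTransfer

set_option autoImplicit false
universe u
open Cfsg

namespace Cfsg.Agent.S1970

/-- Let p be a prime, G a finite group and W an isomorphism-invariant p-group functor (W assigns to every group Q a subgroup W(Q), nontrivial whenever Q is a nontrivial finite p-group, and every isomorphism from a finite p-group Q onto a group R carries W(Q) onto W(R)). Suppose that for every section G* = K/R of G with C_{G*}(O_p(G*)) ≤ O_p(G*) and every Sylow p-subgroup S* of G*, one has O_p(G*) ∩ (G*)' = O_p(G*) ∩ (N_{G*}(W(S*)))'. Then W controls transfer in every section G* of G: S* ∩ (G*)' = S* ∩ (N_{G*}(W(S*)))' for a Sylow p-subgroup S* of G*. -/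
theorem result {G : Type u} [Group G] [Finite G] {p : ℕ} [Fact p.Prime] (W : ∀ (Q : Type u) [Group Q], Subgroup Q) (hW : Cfsg.IsCharPFunctor.{u} p W) (hloc : ∀ (K R : Subgroup G) [hR : (R.subgroupOf K).Normal], Subgroup.centralizer ((Cfsg.pCore p (↥K ⧸ R.subgroupOf K) : Subgroup (↥K ⧸ R.subgroupOf K)) : Set (↥K ⧸ R.subgroupOf K)) ≤ Cfsg.pCore p (↥K ⧸ R.subgroupOf K) → ∀ T : Sylow p (↥K ⧸ R.subgroupOf K), Cfsg.pCore p (↥K ⧸ R.subgroupOf K) ⊓ commutator (↥K ⧸ R.subgroupOf K) = Cfsg.pCore p (↥K ⧸ R.subgroupOf K) ⊓ ⁅Subgroup.normalizer ((Cfsg.inducedFunctor (G := (↥K ⧸ R.subgroupOf K)) W ((T : Subgroup (↥K ⧸ R.subgroupOf K))) : Subgroup (↥K ⧸ R.subgroupOf K)) : Set (↥K ⧸ R.subgroupOf K)), Subgroup.normalizer ((Cfsg.inducedFunctor (G := (↥K ⧸ R.subgroupOf K)) W ((T : Subgroup (↥K ⧸ R.subgroupOf K))) : Subgroup (↥K ⧸ R.subgroupOf K)) : Set (↥K ⧸ R.subgroupOf K))⁆) : ∀ (K R : Subgroup G) [hR : (R.subgroupOf K).Normal],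 Cfsg.ControlsTransferIn p (Cfsg.inducedFunctor (G := (↥K ⧸ R.subgroupOf K)) W) ⊤ := by
  intro K R hR
  have h𝓦 : ∀ W' ∈ ({@W} : Set (∀ (Q : Type u) [Group Q], Subgroup Q)), Cfsg.IsCharPFunctor.{u} p W' := by
    rintro W' rfl; exact hW
  have e1 : ∀ (X : Type u) [Group X], H33.ind X ({@W} : Set (∀ (Q : Type u) [Group Q], Subgroup Q)) =
      {Cfsg.inducedFunctor (G := X) W} := by
    intro X _
    exact Set.image_singleton
  have hsec : H2.Sec (↥K ⧸ R.subgroupOf K) G :=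
    (H2.Sec.quotient (R.subgroupOf K)).trans (H2.Sec.subgroup K)
  rw [H33.controlsT_iff_family, ← e1]
  refine H33.tr_of_quotients h𝓦 ?_ (↥K ⧸ R.subgroupOf K) hsec
  intro K R hR hc S
  refine le_trans (le_of_eq (hloc K R hc S)) ?_
  refine le_trans ?_ (H33.le_trE (𝓦 := H33.ind (↥K ⧸ R.subgroupOf K) {@W})
    (W := Cfsg.inducedFunctor (G := (↥K ⧸ R.subgroupOf K)) W) ⟨@W, rfl, rfl⟩)
  rw [top_inf_eq]
  exact inf_le_inf_right _ (Cfsg.Agent.Solv.pCore_le_sylow S)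

end Cfsg.Agent.S1970
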