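import Cfsg.Statements.S1981
import Cfsg.Agent.H33.KInf

set_option autoImplicit false
open Cfsg

namespace Cfsg.Agent.S1981

/-- Let P be a finite p-group generated by its abelian normal subgroups. Then both K-infinity subgroups of P equal P. -/
theorem result {P : Type*} [Group P] [Finite P] {p : ℕ} [Fact p.Prime] (hP : IsPGroup p P) (hgen : ⨆ A ∈ {A : Subgroup P | A.Normal ∧ IsMulCommutative ↥A}, A = ⊤) : Cfsg.kInfLower P = ⊤ ∧ Cfsg.kInfUpper P = ⊤ := by
  have h1 : ∀ Q : Subgroup P, sSup (Cfsg.kLowerStarFamily Q) = ⊤ := by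
    intro Q
    rw [eq_top_iff, ← hgen]
    refine iSup₂_le (fun A hA => ?_)
    have := hA.1
    exact le_sSup ((H33.abelian_normal_mem A (H33.isMulCommutative_iff.1 hA.2)).2 Q).1
  have h2 : ∀ Q : Subgroup P, sSup (Cfsg.kUpperStarFamily Q) = ⊤ := by
    intro Q
    rw [eq_top_iff, ← hgen]
    refine iSup₂_le (fun A hA => ?_)
    have := hA.1
    exact le_sSup ((H33.abelian_normal_mem A (H33.isMulCommutative_iff.1 hA.2)).2 Q).2
  constructor
  · rw [eq_top_iff, ← h1 (Cfsg.kSeqOdd P 0)]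
    exact le_iSup (Cfsg.kSeqEven P) 0
  · rw [eq_top_iff]
    refine le_iInf (fun n => ?_)
    cases n with
    | zero => exact le_top
    | succ n => exact (h2 (Cfsg.kSeqEven P n)).ge

end Cfsg.Agent.S1981
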