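import Cfsg.Statements.S1990
import Cfsg.Agent.H2.PAP

set_option autoImplicit false
universe u
open Cfsg

namespace Cfsg.Agent.S1990

/-- Let p be an odd prime, G a finite group with Sylow p-subgroup S, and W an isomorphism-invariant p-group functor (W assigns to every group Q a subgroup W(Q), nontrivial whenever Q is a nontrivial finite p-group, and every isomorphism from a finite p-group Q onto a group R carries W(Q) onto W(R)). Suppose N_G(W(S)) has a normal p-complement, and W(T) controls strong fusion in every section G* = K/R of G all of whose sections are p-stable in the normalizer form, for every Sylow p-subgroup T of G*. Then G has a normal p-complement. -/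
theorem result {G : Type u} [Group G] [Finite G] {p : ℕ} [Fact p.Prime] (hp : p ≠ 2) (W : ∀ (Q : Type u) [Group Q], Subgroup Q) (hW : Cfsg.IsCharPFunctor.{u} p W) (S : Sylow p G) (hN : Cfsg.HasNormalPComplement p ↥(Subgroup.normalizer ((Cfsg.inducedFunctor (G := G) W (S : Subgroup G) : Subgroup G) : Set G))) (hctl : ∀ (K R : Subgroup G) [hR : (R.subgroupOf K).Normal], (∀ (K' R' : Subgroup (↥K ⧸ R.subgroupOf K)) [hR' : (R'.subgroupOf K').Normal], Cfsg.IsNormalizerPStable p (↥K' ⧸ R'.subgroupOf K')) → ∀ T : Sylow p (↥K ⧸ R.subgroupOf K), Cfsg.ControlsStrongFusion p (Cfsg.inducedFunctor (G := (↥K ⧸ R.subgroupOf K)) W (T : Subgroup (↥K ⧸ R.subgroupOf K)))) : Cfsg.HasNormalPComplement p G := by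
  by_contra hG
  obtain ⟨K, R, hR, hgood⟩ := Cfsg.Agent.H2.exists_goodSec_quotient hW hG S hN
  haveI : Finite (↥K ⧸ R.subgroupOf K) := inferInstance
  have hpap := hgood.pap
  apply hgood.not_npc
  have h1 := hctl K R (by
    intro K' R' hR'
    apply Cfsg.Agent.H2.PAP.isNormalizerPStable hp
    exact hpap.sec ((Cfsg.Agent.H2.Sec.quotient (R'.subgroupOf K')).trans
      (Cfsg.Agent.H2.Sec.subgroup K'))) default
  exact Cfsg.Agent.H2.hasNPC_of_controlsStrongFusion h1 (hgood.npcw default)

end Cfsg.Agent.S1990
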