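import Cfsg.Statements.S2007
import Cfsg.Agent.Transfer.Fusion

set_option autoImplicit false
open Cfsg

namespace Cfsg.Agent.S2007

/-- Let p be a prime, G a finite group with Sylow p-subgroup S, and T a normal subgroup of S containing C_S(T). If N_G(T)/C_G(T) is a p-group (every element of N_G(T) of order prime to p centralizes T), then N_G(T) has a normal p-complement. -/
theorem result {G : Type*} [Group G] [Finite G] {p : ℕ} [Fact p.Prime] (S : Sylow p G) (T : Subgroup G) (hTS : T ≤ (S : Subgroup G)) (hTn : (S : Subgroup G) ≤ Subgroup.normalizer ((T : Subgroup G) : Set G)) (hC : (S : Subgroup G) ⊓ Subgroup.centralizer ((T : Subgroup G) : Set G) ≤ T) (hN : ∀ g ∈ Subgroup.normalizer ((T : Subgroup G) : Set G), (orderOf g).Coprime p → g ∈ Subgroup.centralizer ((T : Subgroup G) : Set G)) : Cfsg.HasNormalPComplement p ↥(Subgroup.normalizer ((T : Subgroup G) : Set G)) := by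
  set N : Subgroup G := Subgroup.normalizer ((T : Subgroup G) : Set G) with hN'
  set C : Subgroup G := Subgroup.centralizer ((T : Subgroup G) : Set G) with hC'
  have hCN : C ≤ N := by
    intro c hc
    rw [hN', Subgroup.mem_normalizer_iff]
    have hc1 := Subgroup.mem_centralizer_iff.mp hc
    intro x
    constructor
    · intro hx
      have : c * x * c⁻¹ = x := by rw [← hc1 x hx]; group
      rwa [this]
    · intro hx
      have h1 := hc1 _ hx
      have h2 : x = c * x * c⁻¹ := by
        have : c⁻¹ * (c * x * c⁻¹ * c) * c⁻¹ = c⁻¹ * (c * (c * x * c⁻¹)) * c⁻¹ := by rw [h1]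
        calc x = c⁻¹ * (c * x * c⁻¹ * c) := by group
          _ = c⁻¹ * (c * (c * x * c⁻¹)) := by rw [h1]
          _ = c * x * c⁻¹ := by group
      rwa [← h2] at hx
  have hCnN : (C.subgroupOf N).Normal := by
    constructor
    intro c hc g
    show (g : G) * (c : G) * (g : G)⁻¹ ∈ C
    have hc1 : (c : G) ∈ C := hc
    rw [hC', Subgroup.mem_centralizer_iff] at hc1 ⊢
    intro t ht
    have h1 : (g : G)⁻¹ * t * (g : G) ∈ T := by
      have := (Subgroup.mem_normalizer_iff.mp (inv_mem g.2) t).mp ht
      rwa [inv_inv] at this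
    have h2 := hc1 _ h1
    calc t * ((g : G) * c * (g : G)⁻¹) = (g : G) * (((g : G)⁻¹ * t * g) * c) * (g : G)⁻¹ := by group
      _ = (g : G) * (c * ((g : G)⁻¹ * t * g)) * (g : G)⁻¹ := by rw [h2]
      _ = (g : G) * c * (g : G)⁻¹ * t := by group
  -- S as Sylow subgroup of N
  let SN : Sylow p N := S.subtype hTn
  let TC : Sylow p (C.subgroupOf N) := Cfsg.Agent.Transfer.sylowInf SN (C.subgroupOf N)
  have hTC : ∀ x : C.subgroupOf N, x ∈ (TC : Subgroup (C.subgroupOf N)) → ((x : N) : G) ∈ T := by
    intro x hx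
    have h1 : x ∈ ((SN : Subgroup N).subgroupOf (C.subgroupOf N)) := hx
    have h2 : ((x : N) : G) ∈ (S : Subgroup G) := h1
    exact hC (Subgroup.mem_inf.mpr ⟨h2, x.2⟩)
  have hNC : Cfsg.HasNormalPComplement p (C.subgroupOf N) := by
    apply Cfsg.Agent.Transfer.hasNPC_of_normalizer_le_centralizer TC
    intro g _
    rw [Subgroup.mem_centralizer_iff]
    intro x hx
    apply Subtype.ext
    apply Subtype.ext
    show ((x : N) : G) * ((g : N) : G) = ((g : N) : G) * ((x : N) : G)
    have h1 : ((g : N) : G) ∈ C := g.2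
    exact (Subgroup.mem_centralizer_iff.mp h1) _ (hTC x hx)
  obtain ⟨k, hk⟩ : ∃ k, (C.subgroupOf N).index = p ^ k := by
    apply Cfsg.Agent.Transfer.pResidual_le_iff_index.mp
    rw [Cfsg.pResidual, Subgroup.closure_le]
    intro x hx
    show (x : G) ∈ C
    apply hN x x.2
    rw [Subgroup.orderOf_coe]
    exact hx
  exact Cfsg.Agent.Transfer.HasNPC.of_normal_index_pow hk hNC

end Cfsg.Agent.S2007
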