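import Cfsg.Statements.S1988
import Cfsg.Agent.S1990
import Cfsg.Agent.S2007
import Cfsg.Agent.S1978
import Cfsg.Agent.H2.KInfFun
import Cfsg.Agent.BG.Core
import Cfsg.Agent.S1987

set_option autoImplicit false
universe u
open Cfsg

namespace Cfsg.Agent.S1988

/-- Let p be an odd prime, G a finite group with Sylow p-subgroup S and K the lower K-infinity subgroup of S. If N_G(K) has a normal p-complement, or if N_G(K)/C_G(K) is a p-group (every element of N_G(K) of order prime to p centralizes K), then G has a normal p-complement. -/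
theorem result {G : Type u} [Group G] [Finite G] {p : ℕ} [Fact p.Prime] (hp : p ≠ 2) (S : Sylow p G) (h : Cfsg.HasNormalPComplement p ↥(Subgroup.normalizer ((Cfsg.inducedFunctor Cfsg.kInfLower (S : Subgroup G) : Subgroup G) : Set G)) ∨ ∀ g ∈ Subgroup.normalizer ((Cfsg.inducedFunctor Cfsg.kInfLower (S : Subgroup G) : Subgroup G) : Set G), (orderOf g).Coprime p → g ∈ Subgroup.centralizer ((Cfsg.inducedFunctor Cfsg.kInfLower (S : Subgroup G) : Subgroup G) : Set G)) : Cfsg.HasNormalPComplement p G := by
  set W := Cfsg.inducedFunctor Cfsg.kInfLower (S : Subgroup G) with hWdef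
  have hSp : IsPGroup p (S : Subgroup G) := S.2
  have hcN : Cfsg.HasNormalPComplement p ↥(Subgroup.normalizer ((W : Subgroup G) : Set G)) := by
    rcases h with h | h
    · exact h
    · have hchar : (Cfsg.kInfLower ↥(S : Subgroup G)).Characteristic :=
        Subgroup.characteristic_iff_map_eq.2 fun φ => Cfsg.Agent.H33.kInfLower_equiv φ
      refine Cfsg.Agent.S2007.result S W (Subgroup.map_subtype_le _) ?_ ?_ h
      · haveI := hchar
        exact Cfsg.Agent.BG.le_normalizer_map_normal _ _
      · have h1 := (Cfsg.Agent.S1978.result hSp).1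
        rintro x ⟨hxS, hxW⟩
        have h2 : (⟨x, hxS⟩ : (S : Subgroup G)) ∈ Cfsg.kInfLower ↥(S : Subgroup G) := by
          apply h1
          rw [Subgroup.mem_centralizer_iff]
          intro y hy
          exact Subtype.ext (Subgroup.mem_centralizer_iff.1 hxW (y : G) ⟨y, hy, rfl⟩)
        exact ⟨_, h2, rfl⟩
  refine Cfsg.Agent.S1990.result hp (fun Q _ => Cfsg.kInfLower Q) ?_ S hcN ?_
  · exact Cfsg.Agent.H2.isCharPFunctor_kInfLower p
  · intro K R hR hst T
    exact Cfsg.Agent.S1987.result hp hst T

end Cfsg.Agent.S1988
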