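import Cfsg.Statements.S1998
import Cfsg.Agent.H33.MinNC

set_option autoImplicit false
universe u
open Cfsg

namespace Cfsg.Agent.S1998

/-- Let p be a prime, G a finite group with Sylow p-subgroup S, and 𝓦 a nonempty set of isomorphism-invariant p-group functors (W assigns to every group Q a subgroup W(Q), nontrivial whenever Q is a nontrivial finite p-group, and every isomorphism from a finite p-group Q onto a group R carries W(Q) onto W(R)). Suppose the induced conjugacy functors control transfer in every section of G other than G itself, but not in G. Let T be the subgroup generated by the S ∩ (N_G(W(S)))', W ∈ 𝓦, and M = N_G(T ∩ O_p(G)). Then: C_G(O_p(G)) ≤ O_p(G); M is a proper subgroup of G containing every proper subgroup of G that contains S (the unique maximal subgroup over S); [O_p(G), M] ≤ O_p(G) ∩ M' ≤ O_p(G) ∩ T; and every element u of S outside O_p(G) satisfies [X, u, …, u] ≰ Y with p − 1 entries u, for some chief factor X/Y of G with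 X ≤ O_p(G). -/
theorem result {G : Type u} [Group G] [Finite G] {p : ℕ} [Fact p.Prime] (S : Sylow p G) (𝓦 : Set (∀ (Q : Type u) [Group Q], Subgroup Q)) (h𝓦 : ∀ W ∈ 𝓦, Cfsg.IsCharPFunctor.{u} p W) (hne : 𝓦.Nonempty) (hsec : ∀ (K R : Subgroup G) [hR : (R.subgroupOf K).Normal], (K = ⊤ → R ≠ ⊥) → Cfsg.FamilyControlsTransferIn p ((fun W => Cfsg.inducedFunctor (G := (↥K ⧸ R.subgroupOf K)) W) '' 𝓦) ⊤) (hG : ¬ Cfsg.FamilyControlsTransferIn p ((fun W => Cfsg.inducedFunctor (G := G) W) '' 𝓦) ⊤) (T M : Subgroup G) (hT : T = (⨆ W ∈ 𝓦, (S : Subgroup G) ⊓ ⁅Subgroup.normalizer ((Cfsg.inducedFunctor (G := G) W (S : Subgroup G) : Subgroup G) : Set G), Subgroup.normalizer ((Cfsg.inducedFunctor (G := G) W (S : Subgroup G) : Subgroup G) : Set G)⁆)) (hM : M = Subgroup.normalizer ((T ⊓ Cfsg.pCore p G : Subgroup G) : Set G)) : Subgroup.centralizer ((Cfsg.pCore p G : Subgroup G) : Set G) ≤ Cfsg.pCore p G ∧ (M ≠ ⊤ ∧ ∀ H : Subgroup G, (S : Subgroup G) ≤ H → H ≠ ⊤ → H ≤ M)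 ∧ (⁅Cfsg.pCore p G, M⁆ ≤ Cfsg.pCore p G ⊓ ⁅M, M⁆ ∧ Cfsg.pCore p G ⊓ ⁅M, M⁆ ≤ Cfsg.pCore p G ⊓ T) ∧ ∀ u : G, u ∈ (S : Subgroup G) → u ∉ Cfsg.pCore p G → ∃ U V : Subgroup G, Cfsg.IsChiefFactor U V ∧ U ≤ Cfsg.pCore p G ∧ ¬ Cfsg.iterCommutator U (Subgroup.zpowers u) (p - 1) ≤ V := by
  classical
  have hTdef : T = H33.trE (H33.ind G 𝓦) ⊤ (S : Subgroup G) := by
    rw [hT]
    unfold H33.trE
    apply le_antisymm
    · refine iSup₂_le (fun W hW => ?_)
      refine le_iSup₂_of_le (Cfsg.inducedFunctor (G := G) W) ⟨W, hW, rfl⟩ ?_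
      rw [top_inf_eq]
    · refine iSup₂_le ?_
      rintro _ ⟨W, hW, rfl⟩
      rw [top_inf_eq]
      exact le_iSup₂_of_le (f := fun W _ => (S : Subgroup G) ⊓ ⁅Subgroup.normalizer ((Cfsg.inducedFunctor (G := G) W (S : Subgroup G) : Subgroup G) : Set G), Subgroup.normalizer ((Cfsg.inducedFunctor (G := G) W (S : Subgroup G) : Subgroup G) : Set G)⁆) W hW le_rfl
  have h : H33.MinNC p G 𝓦 := by
    refine ⟨h𝓦, hne, ?_, ?_, hG⟩
    · intro K hK
      have hn : ((⊥ : Subgroup G).subgroupOf K).Normal := by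
        rw [Subgroup.bot_subgroupOf]; infer_instance
      have h1 := hsec K ⊥ (fun h => absurd h hK)
      refine H33.familyT_subgroup h𝓦 (H33.familyT_congr h𝓦 ?_ h1)
      exact (QuotientGroup.quotientMulEquivOfEq (Subgroup.bot_subgroupOf K)).trans QuotientGroup.quotientBot
    · intro N hN hNne
      have hn : (N.subgroupOf ⊤).Normal := inferInstance
      have h1 := hsec ⊤ N (fun _ => hNne)
      refine H33.familyT_congr h𝓦 ?_ h1
      exact QuotientGroup.congr (N.subgroupOf ⊤) N Subgroup.topEquiv (by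
        rw [Subgroup.subgroupOf]
        ext x
        constructor
        · rintro ⟨y, hy, rfl⟩; exact hy
        · intro hx; exact ⟨⟨x, Subgroup.mem_top x⟩, hx, rfl⟩)
  have hSne : (S : Subgroup G) ≠ ⊤ := by
    intro h1
    apply h.norm_S_ne S
    rw [h1]
    exact Subgroup.normalizer_eq_top _
  have hover : ∀ H : Subgroup G, (S : Subgroup G) ≤ H → H ≠ ⊤ → H ≤ M := by
    intro H h1 h2
    rw [hM, hTdef]; exact h.over_norm S h1 h2
  have hMne : M ≠ ⊤ := by rw [hM, hTdef]; exact h.M_ne S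
  have hSM : (S : Subgroup G) ≤ M := hover _ le_rfl hSne
  refine ⟨h.cent, ⟨hMne, hover⟩, ⟨?_, ?_⟩, ?_⟩
  · refine le_inf (Subgroup.commutator_le_left _ _) ?_
    exact Subgroup.commutator_mono ((h.lt_S S).le.trans hSM) le_rfl
  · refine le_inf inf_le_left ?_
    rw [hTdef]
    exact (inf_le_inf_right _ (h.lt_S S).le).trans (h.over_le S hSM hMne)
  · intro u hu huQ
    exact h.exists_chief S u hu huQ

end Cfsg.Agent.S1998
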