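import Cfsg.Statements.S2008
import Cfsg.Agent.H34.Inv

set_option autoImplicit false
open Cfsg

namespace Cfsg.Agent.S2008

/-- Let H be a finite group and z an involution such that every proper normal subgroup of H meets the centralizer of z trivially, and suppose z lies in a Klein four-subgroup E of H all three of whose involutions are conjugate to z in H. Then H has no non-trivial abelian normal subgroup. -/
theorem result {H : Type*} [Group H] [Finite H] (z : H) (hz : orderOf z = 2) (hN : ∀ N : Subgroup H, N.Normal → N ≠ ⊤ → N ⊓ Subgroup.centralizer ({z} : Set H) = ⊥) (E : Subgroup H) (hE : IsKleinFour ↥E) (hzE : z ∈ E) (hc : ∀ e ∈ E, e ≠ 1 → IsConj z e) (N : Subgroup H) [N.Normal] (hab : IsMulCommutative ↥N) : N = ⊥ := by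
  by_contra hne
  have htop : N = ⊤ := by
    by_contra h
    exact hne (Cfsg.Agent.H34.eq_bot_of_normal_of_klein z hz hN E hE hzE hc N h)
  subst htop
  have hcomm : ∀ a b : H, a * b = b * a := fun a b =>
    congrArg Subtype.val (hab.is_comm.comm (⟨a, trivial⟩ : (⊤ : Subgroup H)) ⟨b, trivial⟩)
  have hall : ∀ e ∈ E, e ≠ 1 → e = z := by
    intro e he he1
    obtain ⟨c, hc'⟩ := isConj_iff.mp (hc e he he1)
    rw [← hc', hcomm c z, mul_inv_cancel_right]
  have hsub : (Set.univ : Set E) ⊆ {1, ⟨z, hzE⟩} := by
    rintro ⟨x, hx⟩ -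
    by_cases h1 : x = 1
    · left; ext; exact h1
    · right
      have := hall x hx h1
      simp only [Set.mem_singleton_iff]
      ext; exact this
  have hcard := IsKleinFour.card_four (G := E)
  have h5 : Nat.card E ≤ 2 := by
    have := Set.ncard_le_ncard hsub (Set.toFinite _)
    rw [Set.ncard_univ] at this
    exact this.trans (Set.ncard_insert_le _ _ |>.trans (by simp))
  omega

end Cfsg.Agent.S2008
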