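import Cfsg.Statements.S2051
import Cfsg.Agent.MulX.RuExt
import Cfsg.Agent.H90.RuL.Aut5


set_option autoImplicit false
open Cfsg

namespace Cfsg.Agent.S2051

/-- The Schur multiplier of the Rudvalis group (the unitary automorphism group of the rank-28 Gaussian lattice modulo its centre) is cyclic of order 2; here the Schur multiplier is described through stem extensions, as in the definitions: surjective homomorphisms onto the group from a finite group, whose kernel is central in that finite group and contained in that finite group's commutator subgroup. -/
theorem result : Cfsg.HasCyclicSchurMultiplier Cfsg.Spor.Ru 2 := by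
  exact Cfsg.Agent.MulX.RuExt.main Cfsg.Agent.H90.RuL.final.2.some.symm Cfsg.Agent.H90.RuL.finG

end Cfsg.Agent.S2051
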