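import Cfsg.Statements.S2086
import Cfsg.Agent.Mult.SLMult
import Cfsg.Agent.S2117
import Cfsg.Agent.ClassBase.SL
import Cfsg.Agent.H32.SL2Five
-- import your own Cfsg.Agent.* helpers here

set_option autoImplicit false
open Cfsg

namespace Cfsg.Agent.S2086

/-- Schur multipliers of the linear groups: for n ≥ 2 and a field F with q elements (q ≥ 4 when n = 2), apart from the five exceptional pairs (n, q) = (2, 4), (2, 9), (3, 2), (3, 4), (4, 2), the Schur multiplier of PSL_n(F) is cyclic of order gcd(n, q − 1); here the Schur multiplier is described through stem extensions, as in the definitions. -/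
theorem result {F : Type*} [Field F] [Fintype F] {q : ℕ} (hF : Fintype.card F = q) (n : ℕ) (hn : 2 ≤ n) (h2 : n = 2 → 4 ≤ q) (hexc : (n, q) ∉ ({(2, 4), (2, 9), (3, 2), (3, 4), (4, 2)} : Set (ℕ × ℕ))) : Cfsg.HasCyclicSchurMultiplier (Matrix.ProjectiveSpecialLinearGroup (Fin n) F) (Nat.gcd n (q - 1)) := by
  subst hF
  have hcF : Nat.card F = Fintype.card F := Nat.card_eq_fintype_card
  simp only [Set.mem_insert_iff, Set.mem_singleton_iff, Prod.mk.injEq, not_or, not_and] at hexc
  obtain ⟨e1, e2, e3, e4, e5⟩ := hexc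
  have hn0 : 0 < n := by omega
  -- the special linear group is perfect with trivial multiplier
  have key : commutator (Matrix.SpecialLinearGroup (Fin n) F) = ⊤ ∧
      HasCyclicSchurMultiplier (Matrix.SpecialLinearGroup (Fin n) F) 1 := by
    rcases Nat.eq_or_lt_of_le hn with h | h
    · subst h
      refine ⟨?_, Cfsg.Agent.S2117.result (e1 rfl) (e2 rfl)⟩
      have h4 := h2 rfl
      by_cases hex : ∃ x : F, x ≠ 0 ∧ x ^ 2 ≠ 1
      · obtain ⟨x, hx, hx2⟩ := hex
        exact H32.sl2_commutator_eq_top x hx hx2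
      · exfalso
        push Not at hex
        have h3 : ∀ c : Fˣ, c ^ 2 = 1 := fun c => Units.ext (by push_cast; exact hex c c.ne_zero)
        obtain ⟨g, hg⟩ := IsCyclic.exists_generator (α := Fˣ)
        have h5 : orderOf g = Nat.card F - 1 := by
          rw [orderOf_eq_card_of_forall_mem_zpowers hg, Nat.card_units]
        have h6 := Nat.le_of_dvd (by norm_num) (orderOf_dvd_of_pow_eq_one (h3 g))
        omega
    · refine ⟨ClassBase.sl_fin_commutator_eq_top n h, ?_⟩
      refine Mult.sl_mult_one n h (fun h3 => ⟨?_, ?_⟩) (fun h4 => ?_)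
      · rw [hcF]; exact e3 h3
      · rw [hcF]; exact e4 h3
      · rw [hcF]; exact e5 h4
  obtain ⟨e⟩ := Mult.center_sl_cyclic (F := F) n hn0
  rw [hcF] at e
  have hker : (QuotientGroup.mk' (Subgroup.center (Matrix.SpecialLinearGroup (Fin n) F))).ker =
      Subgroup.center (Matrix.SpecialLinearGroup (Fin n) F) := QuotientGroup.ker_mk' _
  exact Mult.mult_of_central key.1 key.2 (QuotientGroup.mk' (Subgroup.center (Matrix.SpecialLinearGroup (Fin n) F)))
    (QuotientGroup.mk'_surjective _) hker.le ((MulEquiv.subgroupCongr hker).trans e)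

end Cfsg.Agent.S2086
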