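import Cfsg.Statements.S2088
import Cfsg.Agent.MulX.L34B
import Cfsg.Agent.S0243
import Cfsg.Agent.ClassBase.RelHom

set_option autoImplicit false
open Cfsg

namespace Cfsg.Agent.S2088

/-- Exceptional Schur multiplier: over the field with 4 elements, PSL₃ has Schur multiplier isomorphic to the product of cyclic groups of orders 3, 4 and 4 (order 48, not cyclic; here the Schur multiplier is described through stem extensions, as in the definitions). -/
theorem result {F : Type*} [Field F] [Fintype F] (hF : Fintype.card F = 4) : Cfsg.HasSchurMultiplier (Matrix.ProjectiveSpecialLinearGroup (Fin 3) F) (Multiplicative (ZMod 3 × ZMod 4 × ZMod 4)) := by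
  have e : Cfsg.Agent.MulX.K4 ≃+* F :=
    FiniteField.ringEquivOfCardEq (by rw [hF, Cfsg.Agent.MulX.K4.card])
  have card : Nat.card (Matrix.ProjectiveSpecialLinearGroup (Fin 3) Cfsg.Agent.MulX.K4) = 20160 := by
    have h := Cfsg.Agent.S0243.result Cfsg.Agent.MulX.K4.card 3 (by norm_num)
    rw [Fin.prod_univ_three] at h
    have e : (4 ^ 3 - 4 ^ ((0 : Fin 3) : ℕ)) * (4 ^ 3 - 4 ^ ((1 : Fin 3) : ℕ)) * (4 ^ 3 - 4 ^ ((2 : Fin 3) : ℕ)) = 181440 := by
      decide
    rw [e] at h
    have e2 : Nat.gcd 3 (4 - 1) = 3 := by decide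
    rw [e2] at h
    omega
  exact Cfsg.Agent.SchurMult.hasSchurMultiplier_of_equiv (Cfsg.Agent.ClassBase.pslCongr (n := Fin 3) e)
    (Cfsg.Agent.MulX.L34.mult card)

end Cfsg.Agent.S2088
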