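import Cfsg.Statements.S2090
import Cfsg.Agent.MulX.U43
import Cfsg.Agent.S0280
import Cfsg.Agent.ClassO.Iso6n
import Cfsg.Agent.ClassBase.RelHom

set_option autoImplicit false
open Cfsg

namespace Cfsg.Agent.S2090

/-- Exceptional Schur multiplier: PSU₄(3), realised over the field with 9 elements, has Schur multiplier isomorphic to the product of cyclic groups of orders 4, 3 and 3 (order 36, not cyclic; here the Schur multiplier is described through stem extensions, as in the definitions). -/
theorem result {F : Type*} [Field F] [Fintype F] (hF : Fintype.card F = 9) : Cfsg.HasSchurMultiplier (Cfsg.PSU 4 F 3) (Multiplicative (ZMod 4 × ZMod 3 × ZMod 3)) := by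
  have e : Cfsg.Agent.ClassBase.PSL29.K9 ≃+* F :=
    FiniteField.ringEquivOfCardEq (by rw [hF, Cfsg.Agent.ClassBase.PSL29.card_k9])
  have card : Nat.card (Cfsg.PSU 4 Cfsg.Agent.ClassBase.PSL29.K9 3) = 3265920 := by
    have h := Cfsg.Agent.S0280.result (q := 3) Cfsg.Agent.ClassBase.PSL29.card_k9 4 (by norm_num)
    have e1 : Nat.gcd 4 (3 + 1) = 4 := by decide
    have e2 : (∏ i ∈ Finset.range 4, (if Even i then 3 ^ (i + 1) + 1 else 3 ^ (i + 1) - 1)) = 71680 := by decide
    rw [e1, e2] at h
    norm_num at h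
    omega
  exact Cfsg.Agent.SchurMult.hasSchurMultiplier_of_equiv
    (Cfsg.Agent.ClassBase.quotCenterCongr (Cfsg.Agent.ClassO.suCongr e 3)) (Cfsg.Agent.MulX.U43.mult card)

end Cfsg.Agent.S2090
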