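import Cfsg.Statements.S2101
import Cfsg.Agent.MulX.G23
import Cfsg.Agent.S1059
import Cfsg.Agent.Chev.FieldAut

set_option autoImplicit false
open Cfsg

namespace Cfsg.Agent.S2101

/-- Exceptional Schur multiplier: over the field with 3 elements the Chevalley group of type G₂ has Schur multiplier cyclic of order 3 (here the Schur multiplier is described through stem extensions, as in the definitions). -/
theorem result {F : Type*} [Field F] [Fintype F] (hF : Fintype.card F = 3) : Cfsg.HasCyclicSchurMultiplier ↥(Cfsg.Lie.chevG2.group F) 3 := by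
  have e : ZMod 3 ≃+* F := FiniteField.ringEquivOfCardEq (by rw [hF, ZMod.card])
  have card : Nat.card ↥(Cfsg.Lie.chevG2.group (ZMod 3)) = 4245696 := by
    rw [Cfsg.Agent.S1059.result (ZMod.card 3)]; norm_num
  exact Cfsg.Agent.SchurMult.hasSchurMultiplier_of_equiv (Cfsg.Agent.Chev.fAut Cfsg.Lie.chevG2 e)
    (Cfsg.Agent.MulX.G23.mult card)

end Cfsg.Agent.S2101
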