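import Cfsg.Statements.S2102
import Cfsg.Agent.MRel.ChevRing
import Cfsg.Agent.MRel.G24X
import Cfsg.Agent.G24.Main

set_option autoImplicit false
open Cfsg

namespace Cfsg.Agent.S2102

/-- Exceptional Schur multiplier: over the field with 4 elements the Chevalley group of type G₂ has Schur multiplier cyclic of order 2 (here the Schur multiplier is described through stem extensions, as in the definitions). -/
theorem result {F : Type*} [Field F] [Fintype F] (hF : Fintype.card F = 4) : Cfsg.HasCyclicSchurMultiplier ↥(Cfsg.Lie.chevG2.group F) 2 := by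
  have h0 : Cfsg.HasCyclicSchurMultiplier Cfsg.Agent.CosetEnum.Suz.Q6 2 := Cfsg.Agent.MRel.G24X.mult_Q6
  obtain ⟨f⟩ := Cfsg.Agent.G24.exists_iso
  have e : Cfsg.Agent.CosetEnum.He.K4 ≃+* F :=
    FiniteField.ringEquivOfCardEq (K := Cfsg.Agent.CosetEnum.He.K4) (K' := F) (by rw [hF]; rfl)
  obtain ⟨g⟩ := Cfsg.Agent.MRel.group_equiv Cfsg.Lie.chevG2 e
  exact Cfsg.Agent.SchurMult.hasSchurMultiplier_of_equiv (f.trans g) h0

end Cfsg.Agent.S2102
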