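import Cfsg.Statements.S2103
import Cfsg.Agent.Mult.Final
import Cfsg.Agent.S1078

set_option autoImplicit false
open Cfsg

namespace Cfsg.Agent.S2103

/-- Schur multipliers of the Chevalley groups of type F₄: over a finite field with more than 2 elements the Schur multiplier of F₄(q) is trivial (here the Schur multiplier is described through stem extensions, as in the definitions); q = 2 is exceptional. -/
theorem result {F : Type*} [Field F] [Fintype F] (hF : 3 ≤ Fintype.card F) : Cfsg.HasCyclicSchurMultiplier ↥(Cfsg.Lie.chevF4.group F) 1 := by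
  have : Finite F := Finite.of_fintype F
  have hs : ∃ s : Finset F, 2 < s.card := Cfsg.Agent.Mult.finset_of_card (by omega)
  have hD : Cfsg.Lie.chevF4 ∈ Cfsg.Agent.Chev.data := by simp [Cfsg.Agent.Chev.data]
  refine Cfsg.Agent.Mult.multiplier_of hD
    (Cfsg.Agent.Mult.perf_torus Cfsg.Agent.Steinb.sp_F4 (Cfsg.Agent.Mult.stP (Cfsg.Agent.Chev.good_of_mem hD) F)
      (Cfsg.Agent.Mult.stP_gen _ F) (Cfsg.Agent.Mult.BigF.of_finset (by simpa using hs)) Cfsg.Agent.Mult.chkPf_F4)
    (fun Γ _ σ C => Cfsg.Agent.Mult.exists_pre_F4 hs C _) ?_ (Or.inl rfl)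
  rw [Cfsg.Agent.S1078.result _ (by simp)]
  exact Subgroup.card_bot

end Cfsg.Agent.S2103
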