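import Cfsg.Statements.S2107
import Cfsg.Agent.Mult.E
import Cfsg.Agent.S1078

set_option autoImplicit false
open Cfsg

namespace Cfsg.Agent.S2107

/-- Schur multipliers of the Chevalley groups of type E₈: over every finite field the Schur multiplier of E₈(q) is trivial (here the Schur multiplier is described through stem extensions, as in the definitions). -/
theorem result {F : Type*} [Field F] [Fintype F] : Cfsg.HasCyclicSchurMultiplier ↥(Cfsg.Lie.chevE8.group F) 1 := by
  have : Finite F := Finite.of_fintype F
  refine Cfsg.Agent.Mult.slData_E8.multiplier (by simp [Cfsg.Agent.Chev.data]) Cfsg.Agent.Mult.adj_E8 ?_ (Or.inl rfl)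
  rw [Cfsg.Agent.S1078.result _ (by simp)]
  exact Subgroup.card_bot

end Cfsg.Agent.S2107
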