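import Cfsg.Statements.S2114
import Cfsg.Agent.MulF4.OddD
import Cfsg.Agent.MulF4.Odd
import Cfsg.Agent.AutTF4.Main

set_option autoImplicit false
open Cfsg

namespace Cfsg.Agent.S2114

open Cfsg.Lie Cfsg.Agent.Chev Cfsg.Agent.ChevGrp Cfsg.Agent.ChevGrp.DData Cfsg.Agent.ChevWeyl Cfsg.Agent.ChevTw
  Cfsg.Agent.Tw3 Cfsg.Agent.ChevGrp.RGrp Cfsg.Agent.Tw4 Cfsg.Agent.AutTF4 Cfsg.Agent.AutChev Cfsg.Agent.MulTw Cfsg.Agent.MulF4

theorem comm_top_congr {G H : Type*} [Group G] [Group H] (e : G ≃* H) (h : commutator H = ⊤) : commutator G = ⊤ := by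
  have h1 := Subgroup.map_commutator (⊤ : Subgroup H) ⊤ e.symm.toMonoidHom
  have h2 : (⊤ : Subgroup H).map e.symm.toMonoidHom = ⊤ :=
    Subgroup.map_top_of_surjective _ e.symm.surjective
  rw [h2, ← commutator_def, ← commutator_def, h, h2] at h1
  exact h1.symm

/-- Schur multipliers of the large Ree groups: for q = 2^(2m+1) with m ≥ 1 the Schur multiplier of ²F₄(q) is trivial (here the Schur multiplier is described through stem extensions, as in the definitions). -/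
theorem result {K : Type*} [Field K] [Fintype K] {m : ℕ} (hm : 1 ≤ m) (hK : Fintype.card K = 2 ^ (2 * m + 1)) : Cfsg.HasCyclicSchurMultiplier ↥(Cfsg.Lie.twistedF4 K (2 ^ m)) 1 := by
  obtain ⟨Z, hZ⟩ := exists_Sg hK
  apply mult_one_of_prime
  intro Γ _ _ σ r hr hσ hc
  have hG : (tF Z).G1 = (twistedF4 K (2 ^ m)).subgroupOf (chevF4.group K) := hG_F4 Z hZ
  have e : ↥(twistedF4 K (2 ^ m)) ≃* ↥(tF Z).G1 := ((MulEquiv.subgroupCongr hG).trans (Subgroup.subgroupOfEquivOfLe hle_F4)).symm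
  obtain ⟨hσ', hker⟩ := stem_comp hσ e
  have hperf : commutator ↥(tF Z).G1 = ⊤ := comm_top_congr e.symm (Cfsg.Agent.Tw4.perf_F4 hK hm)
  by_cases hr2 : r = 2
  · subst hr2
    exact two_part Z hσ' (by omega) hK (by rw [hker]; exact hc)
  · refine odd_part Z hσ' (n := 2 * m + 1) (by omega) hK hperf hr hr2 (by rw [hker]; exact hc)
      (fun P hP => cyc_L1 Z (n := 2 * m + 1) (by omega) hK hr hr2 P hP) ?_
    have h1 := H1_dvd Z
    have h2 := two_le_q (K := K) (n := 2 * m + 1) (by omega) hK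
    exact Nat.le_of_dvd (by omega) h1

end Cfsg.Agent.S2114
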