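import Cfsg.Statements.S2118
import Cfsg.Agent.MulX.SL29

set_option autoImplicit false
open Cfsg

namespace Cfsg.Agent.S2118

/-- For the field with 9 elements, the special linear group SL₂ has Schur multiplier cyclic of order 3 (here the Schur multiplier is described through stem extensions, as in the definitions). -/
theorem result {F : Type*} [Field F] [Fintype F] (hF : Fintype.card F = 9) : Cfsg.HasCyclicSchurMultiplier (Matrix.SpecialLinearGroup (Fin 2) F) 3 := by
  have e0 : Fintype.card F = Fintype.card Cfsg.Agent.ClassBase.PSL29.K9 := by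
    rw [hF, Cfsg.Agent.ClassBase.PSL29.card_k9]
  have e : Cfsg.Agent.ClassBase.PSL29.K9 ≃+* F := FiniteField.ringEquivOfCardEq e0.symm
  exact Cfsg.Agent.SchurMult.hasSchurMultiplier_of_equiv (Cfsg.Agent.ClassBase.slCongr (n := Fin 2) e)
    Cfsg.Agent.MulX.SL29.mult

end Cfsg.Agent.S2118
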