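import Cfsg.Statements.S2140
import Cfsg.Agent.H36.PSLIndex6

set_option autoImplicit false
set_option linter.all false
open Cfsg

namespace Cfsg.Agent.S2140

open scoped LinearAlgebra.Projectivization in
/-- the point stabiliser in PSL has index the number of points -/
theorem exists_point_stab {F : Type*} [Field F] [Finite F] {n : ℕ} (hn : 3 ≤ n) :
    ∃ H : Subgroup (Matrix.ProjectiveSpecialLinearGroup (Fin n) F), H.index = ∑ k ∈ Finset.range n, Nat.card F ^ k := by
  have hne : (Pi.single (⟨0, by omega⟩ : Fin n) (1 : F) : Fin n → F) ≠ 0 := by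
    intro h
    have := congrFun h ⟨0, by omega⟩
    simp at this
  let p : ℙ F (Fin n → F) := Projectivization.mk F (Pi.single ⟨0, by omega⟩ 1) hne
  refine ⟨MulAction.stabilizer _ p, ?_⟩
  rw [MulAction.index_stabilizer]
  haveI : MulAction.IsPretransitive (Matrix.ProjectiveSpecialLinearGroup (Fin n) F) (ℙ F (Fin n → F)) := inferInstance
  rw [MulAction.orbit_eq_univ, Set.ncard_univ]
  exact Projectivization.card_of_finrank F (Fin n → F) (by simp)

theorem result {F : Type*} [Field F] [Fintype F] {q : ℕ} (hF : Fintype.card F = q) (n : ℕ) (hn : 3 ≤ n) (hexc : ¬ (n = 4 ∧ q = 2)) : (∀ H : Subgroup (Matrix.ProjectiveSpecialLinearGroup (Fin n) F), H ≠ ⊤ → (q ^ n - 1) / (q - 1) ≤ H.index) ∧ (∃ H : Subgroup (Matrix.ProjectiveSpecialLinearGroup (Fin n) F), H.index = (q ^ n - 1) / (q - 1)) := by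
  have hq : Nat.card F = q := by rw [Nat.card_eq_fintype_card, hF]
  have hq2 : 2 ≤ q := by
    rw [← hF]
    exact Fintype.one_lt_card
  have hgeom : (q ^ n - 1) / (q - 1) = ∑ k ∈ Finset.range n, Nat.card F ^ k := by
    rw [hq, Nat.geomSum_eq hq2]
  rw [hgeom]
  refine ⟨?_, exists_point_stab hn⟩
  intro H hH
  have h1 : (H.comap (QuotientGroup.mk' (Subgroup.center (Matrix.SpecialLinearGroup (Fin n) F)))).index = H.index :=
    Subgroup.index_comap_of_surjective H (QuotientGroup.mk'_surjective _)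
  rw [← h1]
  apply Cfsg.Agent.H36.SLT.index_ge hn (by rw [hq]; exact hexc)
  intro h
  apply hH
  rw [eq_top_iff]
  intro x _
  obtain ⟨g, rfl⟩ := QuotientGroup.mk'_surjective _ x
  have : g ∈ H.comap (QuotientGroup.mk' (Subgroup.center (Matrix.SpecialLinearGroup (Fin n) F))) := by rw [h]; trivial
  exact this

end Cfsg.Agent.S2140
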