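import Cfsg.Statements.S2141
import Cfsg.Agent.MinS.Main

set_option autoImplicit false
open Cfsg

namespace Cfsg.Agent.S2141

/-- Minimal index of a proper subgroup of the symplectic groups over fields with at least 3 elements: for m ≥ 2 and a field F with q ≥ 3 elements, (m, q) ≠ (2, 3), every proper subgroup of PSp_2m(F) has index at least (q^(2m) − 1)/(q − 1), and that index is attained. -/
theorem result {F : Type*} [Field F] [Fintype F] {q : ℕ} (hF : Fintype.card F = q) (m : ℕ) (hm : 2 ≤ m) (hq : 3 ≤ q) (hexc : ¬ (m = 2 ∧ q = 3)) : (∀ H : Subgroup (Cfsg.PSp m F), H ≠ ⊤ → (q ^ (2 * m) - 1) / (q - 1) ≤ H.index) ∧ (∃ H : Subgroup (Cfsg.PSp m F), H.index = (q ^ (2 * m) - 1) / (q - 1)) := by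
  classical
  subst hF
  have hcl : Fintype.card (Fin m) = m := Fintype.card_fin m
  have hN : ∀ k : ℕ, Nat.card (Cfsg.Agent.MinS.Vc (Fin m) F) ≤ k * (Fintype.card F - 1) + 1 ↔
      (Fintype.card F ^ (2 * m) - 1) / (Fintype.card F - 1) ≤ k := by
    intro k
    rw [Cfsg.Agent.MinS.card_Vc, hcl]
    have h1 : 0 < Fintype.card F - 1 := by omega
    have h2 : (Fintype.card F - 1) ∣ (Fintype.card F ^ (2 * m) - 1) := by
      have := Nat.sub_dvd_pow_sub_pow (Fintype.card F) 1 (2 * m)
      rwa [one_pow] at this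
    obtain ⟨c, hc⟩ := h2
    have h3 : 1 ≤ Fintype.card F ^ (2 * m) := Nat.one_le_pow _ _ (by omega)
    rw [hc, Nat.mul_div_cancel_left _ h1]
    have h4 : Fintype.card F ^ (2 * m) = (Fintype.card F - 1) * c + 1 := by omega
    rw [h4, Nat.add_le_add_iff_right, mul_comm k]
    exact Nat.mul_le_mul_left_iff h1
  constructor
  · intro H hH
    let K := H.comap (QuotientGroup.mk' (Subgroup.center (Matrix.symplecticGroup (Fin m) F)))
    have hK : K.index = H.index :=
      Subgroup.index_comap_of_surjective H (QuotientGroup.mk'_surjective _)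
    have hKt : K ≠ ⊤ := by
      intro h
      apply hH
      rw [← Subgroup.index_eq_one, ← hK, h, Subgroup.index_top]
    rw [← hK, ← hN]
    exact Cfsg.Agent.MinS.main_index hq (by rw [hcl]; exact hm) (by rw [hcl]; exact hexc) hKt
  · have hne : Nonempty (Fin m) := ⟨⟨0, by omega⟩⟩
    obtain ⟨u, hu⟩ : ∃ u : Cfsg.Agent.MinS.Vc (Fin m) F, u ≠ 0 := exists_ne 0
    refine ⟨(Cfsg.Agent.MinS.PP u).map
      (QuotientGroup.mk' (Subgroup.center (Matrix.symplecticGroup (Fin m) F))), ?_⟩
    have hi : ((Cfsg.Agent.MinS.PP u).map (QuotientGroup.mk'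
        (Subgroup.center (Matrix.symplecticGroup (Fin m) F)))).index =
        (Cfsg.Agent.MinS.PP u).index := by
      apply Subgroup.index_map_eq
      · exact QuotientGroup.mk'_surjective _
      · rw [QuotientGroup.ker_mk']
        exact Cfsg.Agent.MinS.center_le_PP u
    rw [hi]
    have h1 := Cfsg.Agent.MinS.index_PP (F := F) hu
    apply le_antisymm
    · by_contra hlt
      push Not at hlt
      have h2 := (hN ((Fintype.card F ^ (2 * m) - 1) / (Fintype.card F - 1))).2 le_rfl
      have h3 : ((Fintype.card F ^ (2 * m) - 1) / (Fintype.card F - 1) + 1) *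
          (Fintype.card F - 1) ≤ (Cfsg.Agent.MinS.PP u).index * (Fintype.card F - 1) :=
        Nat.mul_le_mul_right _ hlt
      rw [add_mul, one_mul] at h3
      omega
    · rw [← hN, h1]

end Cfsg.Agent.S2141
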