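import Cfsg.Statements.S2142
import Cfsg.Agent.Mdx.Sp2f

set_option autoImplicit false
open Cfsg

namespace Cfsg.Agent.S2142

/-- Minimal index of a proper subgroup of the symplectic groups over the field with 2 elements: for m ≥ 3, every proper subgroup of Sp_2m(2) has index at least 2^(m−1)(2^m − 1), and that index is attained. -/
theorem result {F : Type*} [Field F] [Fintype F] (hF : Fintype.card F = 2) (m : ℕ) (hm : 3 ≤ m) : (∀ H : Subgroup (Cfsg.PSp m F), H ≠ ⊤ → 2 ^ (m - 1) * (2 ^ m - 1) ≤ H.index) ∧ (∃ H : Subgroup (Cfsg.PSp m F), H.index = 2 ^ (m - 1) * (2 ^ m - 1)) := by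
  classical
  have hcenter : Subgroup.center (Matrix.symplecticGroup (Fin m) F) = ⊥ := by
    have : Nonempty (Fin m) := ⟨⟨0, by omega⟩⟩
    have h := Cfsg.Agent.ClassSp.card_center (l := Fin m) (F := F)
    rw [hF] at h
    exact Subgroup.card_eq_one.1 (by rw [h]; rfl)
  have hpow : ∀ n : ℕ, (2 ^ (2 * m) ≤ 2 * n + 2 ^ m ↔ 2 ^ (m - 1) * (2 ^ m - 1) ≤ n) ∧
      (2 ^ (2 * m) = 2 * n + 2 ^ m ↔ n = 2 ^ (m - 1) * (2 ^ m - 1)) := by
    intro n
    obtain ⟨k, rfl⟩ : ∃ k, m = k + 1 := ⟨m - 1, by omega⟩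
    have h1 : 2 ^ (2 * (k + 1)) = 2 * (2 ^ k * (2 ^ (k + 1) - 1)) + 2 ^ (k + 1) := by
      have h2 : 1 ≤ 2 ^ (k + 1) := Nat.one_le_two_pow
      obtain ⟨c, hc⟩ : ∃ c, 2 ^ (k + 1) = c + 1 := ⟨2 ^ (k + 1) - 1, by omega⟩
      have h3 : 2 ^ (2 * (k + 1)) = 2 ^ (k + 1) * 2 ^ (k + 1) := by ring
      have h4 : 2 ^ (k + 1) = 2 * 2 ^ k := by ring
      rw [h3, hc, Nat.add_sub_cancel]
      have h5 : c + 1 = 2 * 2 ^ k := by rw [← hc, h4]
      calc (c + 1) * (c + 1) = (c + 1) * c + (c + 1) := by ring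
        _ = 2 * (2 ^ k * c) + (c + 1) := by rw [h5]; ring
    simp only [Nat.add_sub_cancel]
    rw [h1]
    constructor <;> constructor <;> intro h <;> omega
  constructor
  · intro H hH
    let K := H.comap (QuotientGroup.mk' (Subgroup.center (Matrix.symplecticGroup (Fin m) F)))
    have hK : K.index = H.index := Subgroup.index_comap_of_surjective H (QuotientGroup.mk'_surjective _)
    have hKt : K ≠ ⊤ := by
      intro h
      apply hH
      rw [← Subgroup.index_eq_one, ← hK, h, Subgroup.index_top]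
    have : Nontrivial (Matrix.symplecticGroup (Fin m) F ⧸ K) := by
      rw [← Finite.one_lt_card_iff_nontrivial]
      change 1 < K.index
      have h1 : K.index ≠ 1 := fun h => hKt (Subgroup.index_eq_one.1 h)
      have h2 : K.index ≠ 0 := Subgroup.index_ne_zero_of_finite
      omega
    have key := Cfsg.Agent.Mdx.Sp2.card_ge (l := Fin m) (F := F)
      (Z := Matrix.symplecticGroup (Fin m) F ⧸ K) hF (by rw [Fintype.card_fin]; exact hm)
    rw [Fintype.card_fin] at key
    rw [← hK]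
    exact ((hpow K.index).1).1 key
  · have : Nonempty (Fin m) := ⟨⟨0, by omega⟩⟩
    obtain ⟨H, hH⟩ := Cfsg.Agent.Mdx.Sp2.exists_index (l := Fin m) (F := F) hF
    rw [Fintype.card_fin] at hH
    refine ⟨H.map (QuotientGroup.mk' (Subgroup.center (Matrix.symplecticGroup (Fin m) F))), ?_⟩
    rw [← ((hpow H.index).2).1 hH.symm]
    have hle : Subgroup.center (Matrix.symplecticGroup (Fin m) F) ≤ H := by rw [hcenter]; exact bot_le
    rw [Subgroup.index_map, QuotientGroup.ker_mk', sup_eq_left.2 hle]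
    rw [(MonoidHom.range_eq_top (f := QuotientGroup.mk' _)).2 (QuotientGroup.mk'_surjective _), Subgroup.index_top, mul_one]

end Cfsg.Agent.S2142
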