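import Cfsg.Statements.S2143
import Cfsg.Agent.Mdx.OOdd

set_option autoImplicit false
open Cfsg
open QuadraticMap Cfsg.Agent.Orth Cfsg.Agent.OMax Cfsg.Agent.Mdx.Ort

namespace Cfsg.Agent.S2143

theorem aux7 {q r k a p : ℕ} (hr : q = r + 1) (hk : a = k + 1) (ha : 25 ≤ a) (h5 : 5 ≤ q)
    (hp5 : 5 ≤ p ∨ (p = 3 ∧ 9 ≤ q)) : 2 * (q * (q * a)) ≤ p * (r * r * k) := by
  obtain ⟨R, hR⟩ : ∃ R, R = r * r := ⟨_, rfl⟩
  obtain ⟨T, hT⟩ : ∃ T, T = q * q := ⟨_, rfl⟩
  have hRk : R * 24 ≤ R * k := Nat.mul_le_mul_left _ (by omega)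
  have e1 : 2 * (q * (q * a)) = 2 * (T * a) := by rw [hT]; ring
  have e2 : R * (k + 1) = R * k + R := by ring
  rw [e1, ← hR]
  rcases hp5 with h | ⟨h, h9⟩
  · have h1 : 16 * T ≤ 25 * R := by
      rw [hT, hR, hr]; rw [hr] at h5; nlinarith
    have h8 : 5 * (R * k) ≤ p * (R * k) := Nat.mul_le_mul_right _ h
    have h2 : 16 * T * a ≤ 25 * R * a := Nat.mul_le_mul_right _ h1
    rw [mul_assoc, mul_assoc, hk, e2] at h2
    rw [hk]
    omega
  · have h1 : 64 * T ≤ 81 * R := by
      rw [hT, hR, hr]; rw [hr] at h9; nlinarith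
    have h2 : 64 * T * a ≤ 81 * R * a := Nat.mul_le_mul_right _ h1
    rw [mul_assoc, mul_assoc, hk, e2] at h2
    rw [hk, h]
    omega

/-- Minimal index of a proper subgroup of the odd-dimensional orthogonal groups: for m ≥ 3 and a field F with q elements, q odd and q ≥ 5, every proper subgroup of PΩ_(2m+1)(F) (for the form x₀² + Σ xᵢyᵢ) has index at least (q^(2m) − 1)/(q − 1), and that index is attained. -/
theorem result {F : Type*} [Field F] [Fintype F] {q : ℕ} (hF : Fintype.card F = q) (hodd : Odd q) (h5 : 5 ≤ q) (m : ℕ) (hm : 3 ≤ m) : (∀ H : Subgroup (Cfsg.POmega F (Cfsg.quadFormOdd m F)), H ≠ ⊤ → (q ^ (2 * m) - 1) / (q - 1) ≤ H.index) ∧ (∃ H : Subgroup (Cfsg.POmega F (Cfsg.quadFormOdd m F)), H.index = (q ^ (2 * m) - 1) / (q - 1)) := by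
  classical
  subst hF
  obtain ⟨p, hchar⟩ := CharP.exists F
  obtain ⟨n, hp, hpn⟩ := FiniteField.card F p
  have : Fact p.Prime := ⟨hp⟩
  have hp2 : p ≠ 2 := by
    rintro rfl
    rw [hpn] at hodd
    have : Even (2 ^ (n : ℕ)) := (Nat.even_pow.2 ⟨even_two, n.pos.ne'⟩)
    exact (Nat.not_even_iff_odd.2 hodd) this
  have h2 : (2 : F) ≠ 0 := by
    intro h
    apply hp2
    have h' : ((2 : ℕ) : F) = 0 := by exact_mod_cast h
    rw [CharP.cast_eq_zero_iff F p 2] at h'
    exact (Nat.prime_dvd_prime_iff_eq hp Nat.prime_two).1 h'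
  have hp5 : 5 ≤ p ∨ (p = 3 ∧ 9 ≤ Fintype.card F) := by
    by_cases h3 : p = 3
    · right
      refine ⟨h3, ?_⟩
      rw [hpn, h3] at h5 ⊢
      have : 2 ≤ (n : ℕ) := by
        by_contra h
        have hn1 : (n : ℕ) = 1 := by have := n.pos; omega
        rw [hn1] at h5; omega
      calc 9 = 3 ^ 2 := by norm_num
        _ ≤ 3 ^ (n : ℕ) := Nat.pow_le_pow_right (by norm_num) this
    · left
      have := hp.two_le
      have h4 : p ≠ 4 := by rintro rfl; exact absurd hp (by norm_num)
      omega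
  obtain ⟨r, hr⟩ : ∃ r, Fintype.card F = r + 1 := ⟨Fintype.card F - 1, by omega⟩
  obtain ⟨σ, hσ⟩ : ∃ σ, r = 2 * σ := by
    obtain ⟨k, hk⟩ := hodd
    exact ⟨k, by omega⟩
  obtain ⟨m', rfl⟩ : ∃ m', m = m' + 1 := ⟨m - 1, by omega⟩
  obtain ⟨a, ha⟩ : ∃ a, a = Fintype.card F ^ m' := ⟨_, rfl⟩
  have ha25 : 25 ≤ a := by
    rw [ha]
    calc 25 = 5 ^ 2 := by norm_num
      _ ≤ Fintype.card F ^ 2 := Nat.pow_le_pow_left h5 2
      _ ≤ Fintype.card F ^ m' := Nat.pow_le_pow_right (by omega) (by omega)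
  obtain ⟨B, hB⟩ : ∃ B, Fintype.card F ^ (2 * (m' + 1)) = r * B + 1 := by
    have h := Nat.sub_dvd_pow_sub_pow (Fintype.card F) 1 (2 * (m' + 1))
    rw [one_pow] at h
    obtain ⟨B, hB⟩ := h
    refine ⟨B, ?_⟩
    have h1 : 1 ≤ Fintype.card F ^ (2 * (m' + 1)) := Nat.one_le_pow _ _ (by omega)
    have h2 : Fintype.card F - 1 = r := by omega
    rw [h2] at hB
    omega
  have hBd : (Fintype.card F ^ (2 * (m' + 1)) - 1) / (Fintype.card F - 1) = B := by
    rw [hB, hr, Nat.add_sub_cancel, Nat.add_sub_cancel, Nat.mul_div_cancel_left _ (by omega)]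
  rw [hBd]
  have hB1 : 1 ≤ B := by
    by_contra h
    have h0 : B = 0 := by omega
    rw [h0] at hB
    have : 1 < Fintype.card F ^ (2 * (m' + 1)) := Nat.one_lt_pow (by omega) (by omega)
    omega
  have hnum := num_odd (m := m' + 1) h2 hr hσ (by omega) (by rw [pow_succ, ← ha, mul_comm]) (by omega) hB hB1
  have hn : 7 ≤ Fintype.card (Unit ⊕ (Fin (m' + 1) ⊕ Fin (m' + 1))) := by
    simp only [Fintype.card_sum, Fintype.card_unit, Fintype.card_fin]
    omega
  have hn' : 7 ≤ Module.finrank F (Unit ⊕ (Fin (m' + 1) ⊕ Fin (m' + 1)) → F) := by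
    rwa [Module.finrank_fintype_fun_eq_card]
  have hQ := qfOdd_nondegenerate (m' + 1) F h2
  have e1 : B - 1 + 1 = B := by omega
  constructor
  · refine index_ge (Q := qfOdd (m' + 1) F) hQ hn ?_
    intro K hK
    refine le_index_of_num hQ hn' hnum p ?_ ?_ ?_ K hK
    · have hP2 : Fintype.card F ^ (2 * (m' + 1)) = Fintype.card F * (Fintype.card F * (a * a)) := by
        rw [ha, two_mul, pow_add, pow_succ]; ring
      obtain ⟨k, hk⟩ : ∃ k, a = k + 1 := ⟨a - 1, by omega⟩
      have hk0 : Fintype.card F * (a * a) - Fintype.card F * a = Fintype.card F * (a * k) := by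
        have : a * a = a * k + a := by rw [hk]; ring
        rw [this, mul_add]; omega
      rw [hk0]
      have h6 : r * (Fintype.card F * B) ≤ r * (p * (σ * (Fintype.card F * (a * k)))) := by
        have e : r * (Fintype.card F * B) + Fintype.card F =
            Fintype.card F * (Fintype.card F * (Fintype.card F * (a * a))) := by rw [← hP2, hB]; ring
        have e7 : 2 * (Fintype.card F * (Fintype.card F * a)) ≤ p * (r * r * k) := by
          exact aux7 hr hk ha25 h5 hp5
        have e8 : 2 * (Fintype.card F * (Fintype.card F * (Fintype.card F * (a * a)))) ≤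
            2 * (r * (p * (σ * (Fintype.card F * (a * k))))) := by
          calc 2 * (Fintype.card F * (Fintype.card F * (Fintype.card F * (a * a))))
              = (2 * (Fintype.card F * (Fintype.card F * a))) * (Fintype.card F * a) := by ring
            _ ≤ (p * (r * r * k)) * (Fintype.card F * a) := Nat.mul_le_mul_right _ e7
            _ = 2 * (r * (p * (σ * (Fintype.card F * (a * k))))) := by rw [hσ]; ring
        omega
      exact Nat.le_of_mul_le_mul_left h6 (by omega)
    · intro E hE hE'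
      have h7 : E ≤ perp (qfOdd (m' + 1) F) E := by
        intro x hx y hy
        have h8 := hE _ (Submodule.add_mem _ hy hx)
        rw [qadd, hE x hx, hE y hy] at h8
        simpa using h8
      have h9 : perp (qfOdd (m' + 1) F) E ≤ E := by
        intro x hx
        rw [← perp_perp hQ E]
        intro y hy
        have h8 := hE' _ (Submodule.add_mem _ hy hx)
        rw [qadd, hE' x hx, hE' y hy] at h8
        simpa using h8
      have h10 := finrank_perp hQ E
      rw [le_antisymm h9 h7, finrank_odd] at h10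
      omega
    · have h11 : ((Finset.univ : Finset F) \ {0, 1, -1}).Nonempty := by
        rw [← Finset.card_pos]
        have h12 := Finset.le_card_sdiff ({0, 1, -1} : Finset F) Finset.univ
        have h13 : ({0, 1, -1} : Finset F).card ≤ 3 := Finset.card_le_three
        rw [Finset.card_univ] at h12
        omega
      obtain ⟨d, hd⟩ := h11
      simp only [Finset.mem_sdiff, Finset.mem_univ, true_and, Finset.mem_insert, Finset.mem_singleton,
        not_or] at hd
      refine ⟨d, hd.1, fun h => ?_⟩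
      rcases mul_self_eq_one_iff.1 h with h | h
      · exact hd.2.1 h
      · exact hd.2.2 h
  · obtain ⟨y, hy, h⟩ := exists_lineStab_sing hQ hn' hr (by omega) hnum.hS
    rw [e1] at h
    exact exists_index (Q := qfOdd (m' + 1) F) hQ hn hy h

end Cfsg.Agent.S2143
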