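import Cfsg.Statements.S2144
import Cfsg.Agent.Mdx.OThree

set_option autoImplicit false
open Cfsg Cfsg.Agent.Mdx.Ort

namespace Cfsg.Agent.S2144

/-- Minimal index of a proper subgroup of the odd-dimensional orthogonal groups over the field with 3 elements: for m ≥ 3, every proper subgroup of PΩ_(2m+1)(3) (for the form x₀² + Σ xᵢyᵢ) has index at least 3^m(3^m − 1)/2, and that index is attained. -/
theorem result {F : Type*} [Field F] [Fintype F] (hF : Fintype.card F = 3) (m : ℕ) (hm : 3 ≤ m) : (∀ H : Subgroup (Cfsg.POmega F (Cfsg.quadFormOdd m F)), H ≠ ⊤ → 3 ^ m * (3 ^ m - 1) / 2 ≤ H.index) ∧ (∃ H : Subgroup (Cfsg.POmega F (Cfsg.quadFormOdd m F)), H.index = 3 ^ m * (3 ^ m - 1) / 2) := by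
  obtain ⟨m', rfl⟩ : ∃ m', m = m' + 1 := ⟨m - 1, by omega⟩
  obtain ⟨a, ha⟩ : ∃ a, 3 ^ (m' + 1) = 3 * a := ⟨3 ^ m', by rw [pow_succ, mul_comm]⟩
  have ha0 : 0 < a := by
    have : 0 < 3 ^ (m' + 1) := by positivity
    omega
  obtain ⟨k, hk⟩ : ∃ k, 3 * a = 2 * k + 1 := by
    have : Odd (3 ^ (m' + 1)) := Odd.pow (by decide)
    rw [ha] at this
    exact this
  have e : 3 ^ (m' + 1) * (3 ^ (m' + 1) - 1) / 2 = 3 * a * k := by
    rw [ha]
    have e1 : 3 * a - 1 = 2 * k := by omega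
    rw [e1, show 3 * a * (2 * k) = 2 * (3 * a * k) by ring, Nat.mul_div_cancel_left _ (by norm_num)]
  rw [e]
  refine main_three hF hm ha ?_
  have : 2 * (3 * a * k) + 3 * a = 3 * a * (2 * k + 1) := by ring
  rw [this, ← hk]; ring

end Cfsg.Agent.S2144
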