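import Cfsg.Statements.S2145
import Cfsg.Agent.Mdx.OP8

set_option autoImplicit false
open Cfsg Cfsg.Agent.Mdx.Ort

namespace Cfsg.Agent.S2145

/-- Minimal index of a proper subgroup of the even-dimensional orthogonal groups of plus type: for m ≥ 4 and a field F with q ≥ 4 elements, every proper subgroup of PΩ⁺_2m(F) (for the form Σ xᵢyᵢ) has index at least (q^m − 1)(q^(m−1) + 1)/(q − 1), and that index is attained (the singular points). -/
theorem result {F : Type*} [Field F] [Fintype F] {q : ℕ} (hF : Fintype.card F = q) (hq : 4 ≤ q) (m : ℕ) (hm : 4 ≤ m) : (∀ H : Subgroup (Cfsg.POmega F (Cfsg.quadFormPlus m F)), H ≠ ⊤ → (q ^ m - 1) * (q ^ (m - 1) + 1) / (q - 1) ≤ H.index) ∧ (∃ H : Subgroup (Cfsg.POmega F (Cfsg.quadFormPlus m F)), H.index = (q ^ m - 1) * (q ^ (m - 1) + 1) / (q - 1)) := by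
  subst hF
  obtain ⟨m', rfl⟩ : ∃ m', m = m' + 1 := ⟨m - 1, by omega⟩
  obtain ⟨r, hr⟩ : ∃ r, Fintype.card F = r + 1 := ⟨Fintype.card F - 1, by omega⟩
  obtain ⟨B, hB⟩ : ∃ B, (Fintype.card F ^ (m' + 1) - 1) * (Fintype.card F ^ (m' + 1 - 1) + 1) / (Fintype.card F - 1) = B :=
    ⟨_, rfl⟩
  rw [hB]
  refine main_plus m' (by omega) hq hr rfl ?_
  rw [Nat.add_sub_cancel, pow_succ, mul_comm (Fintype.card F ^ m')] at hB
  have hr' : Fintype.card F - 1 = r := by omega
  have hdvd : Fintype.card F - 1 ∣ Fintype.card F ^ (m' + 1) - 1 := by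
    have := Nat.sub_dvd_pow_sub_pow (Fintype.card F) 1 (m' + 1)
    rwa [one_pow] at this
  rw [pow_succ, mul_comm (Fintype.card F ^ m')] at hdvd
  rw [hr'] at hB hdvd
  rw [← hB, Nat.mul_div_cancel' (Dvd.dvd.mul_right hdvd _)]

end Cfsg.Agent.S2145
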