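import Cfsg.Statements.S2147
import Cfsg.Agent.Mdx.OMinus2

set_option autoImplicit false
open Cfsg Cfsg.Agent.Mdx.Ort

namespace Cfsg.Agent.S2147

/-- Minimal index of a proper subgroup of the even-dimensional orthogonal groups of minus type: for m ≥ 4 and a field F with q elements, every proper subgroup of PΩ⁻_2m(F) (for the form Σ_{i<m−1} xᵢyᵢ + z₁² + a z₁z₂ + b z₂² with anisotropic binary part) has index at least (q^m + 1)(q^(m−1) − 1)/(q − 1), and that index is attained. -/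
theorem result {F : Type*} [Field F] [Fintype F] {q : ℕ} (hF : Fintype.card F = q) (m : ℕ) (hm : 4 ≤ m) (a b : F) (hab : ∀ z₁ z₂ : F, z₁ ^ 2 + a * z₁ * z₂ + b * z₂ ^ 2 = 0 → z₁ = 0 ∧ z₂ = 0) : (∀ H : Subgroup (Cfsg.POmega F (Cfsg.quadFormMinus (m - 1) F a b)), H ≠ ⊤ → (q ^ m + 1) * (q ^ (m - 1) - 1) / (q - 1) ≤ H.index) ∧ (∃ H : Subgroup (Cfsg.POmega F (Cfsg.quadFormMinus (m - 1) F a b)), H.index = (q ^ m + 1) * (q ^ (m - 1) - 1) / (q - 1)) := by
  subst hF
  obtain ⟨m', rfl⟩ : ∃ m', m = m' + 1 := ⟨m - 1, by omega⟩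
  obtain ⟨x, hx⟩ : ∃ x, x = Fintype.card F ^ m' := ⟨_, rfl⟩
  have h1 : 1 < Fintype.card F := Fintype.one_lt_card
  obtain ⟨r, hr⟩ : ∃ r, Fintype.card F = r + 1 := ⟨Fintype.card F - 1, by omega⟩
  obtain ⟨B, hB⟩ : ∃ B, (Fintype.card F * x + 1) * (x - 1) = r * B := by
    have h := Nat.sub_dvd_pow_sub_pow (Fintype.card F) 1 m'
    rw [one_pow, ← hx] at h
    have h2 : Fintype.card F - 1 = r := by omega
    rw [h2] at h
    exact h.mul_left _
  have e : (Fintype.card F ^ (m' + 1) + 1) * (Fintype.card F ^ (m' + 1 - 1) - 1) / (Fintype.card F - 1) = B := by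
    rw [Nat.add_sub_cancel, pow_succ, ← hx, mul_comm x, hB, hr, Nat.add_sub_cancel,
      Nat.mul_div_cancel_left _ (by omega)]
  rw [e, Nat.add_sub_cancel]
  exact main_minus m' (by omega) hab hr hx.symm hB.symm

end Cfsg.Agent.S2147
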