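import Cfsg.Statements.S2150
import Cfsg.Agent.MinU.N4R

set_option autoImplicit false
open Cfsg

namespace Cfsg.Agent.S2150

/-- Minimal index of a proper subgroup of the four-dimensional unitary groups: for a field F with q² elements, every proper subgroup of PSU₄(q) has index at least (q + 1)(q³ + 1), and that index is attained. -/
theorem result {F : Type*} [Field F] [Fintype F] (q : ℕ) (hF : Fintype.card F = q ^ 2) (hq : 2 ≤ q) : (∀ H : Subgroup (Cfsg.PSU 4 F q), H ≠ ⊤ → (q + 1) * (q ^ 3 + 1) ≤ H.index) ∧ (∃ H : Subgroup (Cfsg.PSU 4 F q), H.index = (q + 1) * (q ^ 3 + 1)) := by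
  obtain ⟨e, e', hee⟩ := Cfsg.Agent.MinU.exists_e2 hF
  have he0 := hee.left_ne
  have hu : hermForm (2 + 2) F q (Cfsg.Agent.MinU.kp e (0 : Fin 2 → F))
      (Cfsg.Agent.MinU.kp e 0) = 0 := by
    rw [Cfsg.Agent.MinU.kp_form, hee.1, Cfsg.Agent.Uni.hermForm_zero_left, add_zero]
  exact Cfsg.Agent.MinU.psu_of_su _ (fun M hM => Cfsg.Agent.MinU.main4 hF M hM)
    ⟨_, Cfsg.Agent.MinU.center_le_stab hF (by omega) _ _,
      Cfsg.Agent.MinU.index_line_std hF he0 hee.1 he0 hee.1⟩

end Cfsg.Agent.S2150
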