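import Cfsg.Statements.S2151
import Cfsg.Agent.MinU.Fin3

set_option autoImplicit false
open Cfsg

namespace Cfsg.Agent.S2151

/-- Minimal index of a proper subgroup of the unitary groups of odd dimension n ≥ 5: for a field F with q² elements, every proper subgroup of PSU_n(q) has index at least (q^n + 1)(q^(n−1) − 1)/(q² − 1), and that index is attained. -/
theorem result {F : Type*} [Field F] [Fintype F] (q : ℕ) (hF : Fintype.card F = q ^ 2) (hq : 2 ≤ q) (n : ℕ) (hn : 5 ≤ n) (hodd : Odd n) : (∀ H : Subgroup (Cfsg.PSU n F q), H ≠ ⊤ → (q ^ n + 1) * (q ^ (n - 1) - 1) / (q ^ 2 - 1) ≤ H.index) ∧ (∃ H : Subgroup (Cfsg.PSU n F q), H.index = (q ^ n + 1) * (q ^ (n - 1) - 1) / (q ^ 2 - 1)) := by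
  obtain ⟨m, rfl⟩ : ∃ m, n = m + 2 := ⟨n - 2, by omega⟩
  have hev : Odd m := by
    rw [Nat.odd_add] at hodd
    exact hodd.2 (by decide)
  obtain ⟨u, hu0, hu⟩ := Cfsg.Agent.Uni.exists_isotropic hF (n := m + 2) (by omega)
  have h1 := Cfsg.Agent.MinU.index_PP_iso hF (by omega) hu0 hu
  have hpow : ((-1 : ℤ)) ^ (m + 2) = (-1) ^ m := by rw [pow_add]; norm_num
  rw [hpow, show m + 2 - 1 = m + 1 by omega, hev.neg_one_pow] at h1
  have hq1 : 1 ≤ q ^ (m + 1) := Nat.one_le_pow _ _ (by omega)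
  have hq2 : 1 ≤ q ^ 2 := Nat.one_le_pow _ _ (by omega)
  have hq3 : 0 < q ^ 2 - 1 := by
    have : 2 ^ 2 ≤ q ^ 2 := Nat.pow_le_pow_left (by omega) 2
    omega
  have h2 : (Cfsg.Agent.MinU.PP (q := q) u).index * (q ^ 2 - 1) =
      (q ^ (m + 2) + 1) * (q ^ (m + 2 - 1) - 1) := by
    rw [show m + 2 - 1 = m + 1 by omega]
    zify [hq1, hq2]
    rw [h1]; ring
  rw [← h2, Nat.mul_div_cancel _ hq3]
  exact Cfsg.Agent.MinU.psu_of_su _
    (fun M hM => Cfsg.Agent.MinU.bound_iso3 hF (by omega) (Or.inr hev) M hM hu0 hu)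
    ⟨_, Cfsg.Agent.MinU.center_le_PP hF (by omega) u, rfl⟩

end Cfsg.Agent.S2151
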