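import Cfsg.Statements.S2153
import Cfsg.Agent.MinU.Fin

set_option autoImplicit false
open Cfsg

namespace Cfsg.Agent.S2153

/-- Minimal index of a proper subgroup of the unitary groups PSU_n(2) with n divisible by 6, realised over the field with 4 elements: every proper subgroup has index at least 2^(n−1)(2^n − 1)/3, and that index is attained. -/
theorem result {F : Type*} [Field F] [Fintype F] (hF : Fintype.card F = 4) (n : ℕ) (hn : 6 ∣ n) (hpos : 6 ≤ n) : (∀ H : Subgroup (Cfsg.PSU n F 2), H ≠ ⊤ → 2 ^ (n - 1) * (2 ^ n - 1) / 3 ≤ H.index) ∧ (∃ H : Subgroup (Cfsg.PSU n F 2), H.index = 2 ^ (n - 1) * (2 ^ n - 1) / 3) := by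
  obtain ⟨m, rfl⟩ : ∃ m, n = m + 2 := ⟨n - 2, by omega⟩
  have hF' : Fintype.card F = 2 ^ 2 := by rw [hF]; norm_num
  have hev : Even m := by
    have h2 : 2 ∣ m + 2 := Dvd.dvd.trans (by norm_num) hn
    rw [← even_iff_two_dvd, Nat.even_add] at h2
    exact h2.2 (by decide)
  obtain ⟨u, -, hu1⟩ := (Cfsg.Agent.Uni.nd_top (F := F) (q := 2) (n := m + 2) hF').exists_unit hF' (by
    intro h
    have h1 := Module.finrank_fin_fun (R := F) (n := m + 2)
    rw [← finrank_top, h, finrank_bot] at h1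
    omega)
  have hu : hermForm (m + 2) F 2 u u ≠ 0 := by rw [hu1]; exact one_ne_zero
  have h1 := Cfsg.Agent.MinU.index_PP_ani hF' (by omega) hu
  have hpow : ((-1 : ℤ)) ^ (m + 2) = (-1) ^ m := by rw [pow_add]; norm_num
  rw [hpow, show m + 2 - 1 = m + 1 by omega, hev.neg_one_pow] at h1
  have hq1 : 1 ≤ 2 ^ (m + 2) := Nat.one_le_pow _ _ (by omega)
  have h2 : (Cfsg.Agent.MinU.PP (q := 2) u).index * 3 =
      2 ^ (m + 2 - 1) * (2 ^ (m + 2) - 1) := by
    rw [show m + 2 - 1 = m + 1 by omega]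
    zify [hq1]
    push_cast at h1
    linarith
  rw [← h2, Nat.mul_div_cancel _ (by norm_num)]
  exact Cfsg.Agent.MinU.psu_of_su _
    (fun M hM => Cfsg.Agent.MinU.bound_ani hF' (by omega) hev M hM hu)
    ⟨_, Cfsg.Agent.MinU.center_le_PP hF' (by omega) u, rfl⟩

end Cfsg.Agent.S2153
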