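import Cfsg.Statements.S2155
import Cfsg.Agent.ChevU.CentU
import Cfsg.Agent.SigF.PC
import Cfsg.Agent.Fus.Alperin

set_option autoImplicit false
open Cfsg

namespace Cfsg.Agent.S2155

/-- In a Chevalley group of type G₂, B₂, D₄, F₄, E₆, E₇ or E₈ over a finite field of characteristic p (for types G₂ and B₂ the field is assumed to have at least 3 elements, so that the group is simple), the generalized Fitting subgroup of every proper standard parabolic subgroup P_J is a p-group (P_J is p-constrained with trivial largest normal subgroup of order prime to p). -/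
theorem result {F : Type*} [Field F] [Fintype F] (p : ℕ) [Fact p.Prime] [CharP F p] (D : Cfsg.Lie.ChevalleyDatum) (hD : D ∈ [Cfsg.Lie.chevG2, Cfsg.Lie.chevB2, Cfsg.Lie.chevD4, Cfsg.Lie.chevF4, Cfsg.Lie.chevE6, Cfsg.Lie.chevE7, Cfsg.Lie.chevE8]) (hq : (D = Cfsg.Lie.chevG2 ∨ D = Cfsg.Lie.chevB2) → 3 ≤ Fintype.card F) (J : Set ℕ) (hJ : ∃ i, i < D.rank ∧ i ∉ J) : IsPGroup p ↥(Cfsg.generalizedFittingSubgroup ↥(D.parabolicSubgroup F J)) := by
  classical
  set J' : Set ℕ := {j | j ∈ J ∧ j < D.rank} with hJ'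
  have hPJ : D.parabolicSubgroup F J = D.parabolicSubgroup F J' := by
    unfold Cfsg.Lie.ChevalleyDatum.parabolicSubgroup
    congr 2
    ext g
    constructor
    · rintro ⟨j, h1, h2, h3⟩; exact ⟨j, ⟨h1, h2⟩, h2, h3⟩
    · rintro ⟨j, h1, h2, h3⟩; exact ⟨j, h1.1, h2, h3⟩
  rw [hPJ]
  have hJ1 : ∀ j ∈ J', j < D.rank := fun j hj => hj.2
  have hJ2 : ∃ i, i < D.rank ∧ i ∉ J' := by
    obtain ⟨i, hi, hiJ⟩ := hJ
    exact ⟨i, hi, fun h => hiJ h.1⟩
  obtain ⟨E⟩ := Cfsg.Agent.ChevGrp.DData.nonempty_of_mem hD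
  have R := Cfsg.Agent.ChevU.rootFacts hD
  have G := Cfsg.Agent.Chev.good_of_mem hD
  have hC := Cfsg.Agent.ChevU.centralizer_le_radical (F := F) R G E p (Cfsg.Agent.ChevU.conn_of_mem hD) hJ1 hJ2
  have hPN := Cfsg.Agent.ChevU.parabolic_le_normalizer (F := F) R G J'
  have hPG := Cfsg.Agent.ChevU.parabolic_le_group (F := F) R G J'
  have hUP : D.unipotentRadical F J' ≤ D.parabolicSubgroup F J' := by
    rw [← (Cfsg.Agent.ChevU.levi_decomposition (F := F) R G J').2.1]
    exact le_sup_left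
  have : Finite (GL D.Idx F) := inferInstance
  rw [← Cfsg.Agent.SigF.PC.charP_iff]
  set Q := (D.unipotentRadical F J').subgroupOf (D.parabolicSubgroup F J') with hQ
  have hQn : Q.Normal := by
    rw [hQ]
    exact Subgroup.normal_subgroupOf_iff_le_normalizer hUP |>.mpr hPN
  have hQp : IsPGroup p ↥Q := by
    have h1 : IsPGroup p ↥(D.unipotentRadical F J') :=
      (Cfsg.Agent.ChevU.posUnipotent_isPGroup R G p).to_le (Cfsg.Agent.ChevU.radical_le_pos J')
    exact h1.of_equiv (Subgroup.subgroupOfEquivOfLe hUP).symm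
  have hle : Q ≤ Cfsg.pCore p ↥(D.parabolicSubgroup F J') := Cfsg.Agent.Fus.le_pCore hQn hQp
  show Subgroup.centralizer (Cfsg.pCore p ↥(D.parabolicSubgroup F J') : Set ↥(D.parabolicSubgroup F J')) ≤ _
  refine le_trans ?_ hle
  intro x hx
  rw [hQ, Subgroup.mem_subgroupOf]
  apply hC
  refine ⟨?_, hPG x.2⟩
  show (x : GL D.Idx F) ∈ Subgroup.centralizer (D.unipotentRadical F J' : Set (GL D.Idx F))
  rw [Subgroup.mem_centralizer_iff]
  intro u hu
  have h1 := Subgroup.mem_centralizer_iff.mp hx ⟨u, hUP hu⟩ (hle (show (⟨u, hUP hu⟩ : ↥(D.parabolicSubgroup F J')) ∈ Q from hu))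
  exact congrArg Subtype.val h1

end Cfsg.Agent.S2155
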