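import Cfsg.Statements.S2160
import Cfsg.Agent.Chev.Gen
import Cfsg.Agent.Chev.Desc

set_option autoImplicit false
open Cfsg

namespace Cfsg.Agent.S2160

open Cfsg.Agent.Chev Cfsg.Lie

/-- In a Chevalley group of type G₂, B₂, D₄, F₄, E₆, E₇ or E₈ over a finite field, every field automorphism commutes with every graph automorphism. -/
theorem result {F : Type*} [Field F] [Finite F] (D : Cfsg.Lie.ChevalleyDatum) (hD : D ∈ [Cfsg.Lie.chevG2, Cfsg.Lie.chevB2, Cfsg.Lie.chevD4, Cfsg.Lie.chevF4, Cfsg.Lie.chevE6, Cfsg.Lie.chevE7, Cfsg.Lie.chevE8]) (f g : ↥(D.group F) ≃* ↥(D.group F))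
    (hf : D.IsFieldAut f) (hg : D.IsGraphAut g) (y : ↥(D.group F)) : f (g y) = g (f y) := by
  have H := good_of_mem hD
  have H2 := H.toGood2
  obtain ⟨σ, hσ⟩ := hf
  obtain ⟨π, -, hπ⟩ := hg
  have hfx : ∀ r < D.nroots, ∀ t : F, f (xG H2 r t) = xG H2 r (σ t) := fun r hr t =>
    eq_xG H2 (hσ (xG H2 r t) r t hr rfl)
  have hg1 : ∀ (i : Fin D.rank) (t : F), g (xG H2 (D.simple i) t) =
      xG H2 (D.simple (π i)) (t ^ D.graphExp (ringChar F) i (π i)) := fun i t =>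
    eq_xG H2 ((hπ (xG H2 (D.simple i) t) i t).1 rfl)
  have hg2 : ∀ (i : Fin D.rank) (t : F), g (xG H2 (D.neg (D.simple i)) t) =
      xG H2 (D.neg (D.simple (π i))) (t ^ D.graphExp (ringChar F) i (π i)) := fun i t =>
    eq_xG H2 ((hπ (xG H2 (D.neg (D.simple i)) t) i t).2 rfl)
  have key : (f : ↥(D.group F) →* ↥(D.group F)).comp (g : ↥(D.group F) →* ↥(D.group F)) =
      (g : ↥(D.group F) →* ↥(D.group F)).comp (f : ↥(D.group F) →* ↥(D.group F)) := by
    apply aut_ext H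
    intro i hi t
    have h1 := H.simple_lt i hi
    have h2 := H.simple_lt (π ⟨i, hi⟩) (π ⟨i, hi⟩).2
    have a1 := hg1 ⟨i, hi⟩
    have a2 := hg2 ⟨i, hi⟩
    simp only at a1 a2
    constructor
    · show f (g (xG H2 (D.simple i) t)) = g (f (xG H2 (D.simple i) t))
      rw [a1, hfx _ h2, hfx _ h1, a1, map_pow]
    · show f (g (xG H2 (D.neg (D.simple i)) t)) = g (f (xG H2 (D.neg (D.simple i)) t))
      rw [a2, hfx _ (neg_lt H.toGood1 h2), hfx _ (neg_lt H.toGood1 h1), a2, map_pow]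
  exact DFunLike.congr_fun key y

end Cfsg.Agent.S2160
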