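import Cfsg.Statements.S2161
import Cfsg.Agent.Chev.GraphData
import Cfsg.Agent.Chev.Gen

set_option autoImplicit false
set_option maxRecDepth 100000
open Cfsg

namespace Cfsg.Agent.S2161

open Cfsg.Agent.Chev Cfsg.Lie

/-- roots are determined by their coefficient vectors -/
lemma vec_inj {D : ChevalleyDatum} (H : Good1 D) {a b : ℕ} (ha : a < D.nroots) (hb : b < D.nroots)
    (h : ∀ j < D.rank, vec D a j = vec D b j) : a = b := by
  have hmono : ∀ m : ℕ, ∀ a, a + (m + 1) < D.nroots → ordv D a < ordv D (a + (m + 1)) := by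
    intro m
    induction m with
    | zero => intro a h; exact H.ord_succ a h
    | succ m ih =>
      intro a h
      exact lt_trans (ih a (by omega)) (H.ord_succ (a + (m + 1)) h)
  have he : ordv D a = ordv D b := by
    unfold ordv
    exact sumN_congr (fun k hk => by rw [h k hk])
  rcases lt_trichotomy a b with hlt | heq | hlt
  · have := hmono (b - a - 1) a (by omega)
    rw [show a + (b - a - 1 + 1) = b by omega] at this
    omega
  · exact heq
  · have := hmono (a - b - 1) b (by omega)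
    rw [show b + (a - b - 1 + 1) = a by omega] at this
    omega

lemma permRoot_eq {D : ChevalleyDatum} (H : Good1 D) (hv : vecTab D = D.coroot) {gp gq : ℕ} {pi pj : ℕ → ℕ}
    (G : GOK D gp gq pi) (hp : PiOK D.rank pi pj) (hj : ∀ i < D.rank, pj i < D.rank) (π : Equiv.Perm (Fin D.rank)) (hπ : ∀ i : Fin D.rank, (π i).val = pi i.val)
    {r : ℕ} (hr : r < D.nroots) : D.permRoot π r = wv gp r := by
  have hpred : ∀ s < D.nroots, (((List.finRange D.rank).all fun i =>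
      (D.coroot.getD s #[]).getD (π i).val 0 == (D.coroot.getD r #[]).getD i.val 0) = true) → s = wv gp r := by
    intro s hs h
    apply vec_inj H hs (G.lt r hr)
    intro j hj'
    rw [List.all_eq_true] at h
    have h1 := h ⟨pj j, hj j hj'⟩ (List.mem_finRange _)
    rw [beq_iff_eq, hπ] at h1
    simp only [hp.1 j hj'] at h1
    have h2 := G.ccg r hr (pj j) (hj j hj')
    rw [hp.1 j hj'] at h2
    unfold vec
    rw [hv]
    unfold cc at h2
    rw [h1, h2]
  have hsat : (((List.finRange D.rank).all fun i =>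
      (D.coroot.getD (wv gp r) #[]).getD (π i).val 0 == (D.coroot.getD r #[]).getD i.val 0) = true) := by
    rw [List.all_eq_true]
    intro i _
    rw [beq_iff_eq, hπ]
    exact G.ccg r hr i.val i.2
  unfold ChevalleyDatum.permRoot
  cases hf : ((List.range D.nroots).find? fun s => (List.finRange D.rank).all fun i =>
      (D.coroot.getD s #[]).getD (π i).val 0 == (D.coroot.getD r #[]).getD i.val 0) with
  | none =>
    rw [List.find?_eq_none] at hf
    exact absurd hsat (hf _ (List.mem_range.2 (G.lt r hr)))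
  | some s =>
    have h1 := List.find?_some hf
    have h2 := List.mem_range.1 (List.mem_of_find?_eq_some hf)
    simp only [Option.getD_some]
    exact hpred s h2 h1

/-- the conclusion of the statement -/
lemma main {F : Type*} [Field F] {D : ChevalleyDatum} (H : Good D) (hv : vecTab D = D.coroot)
    (π : Equiv.Perm (Fin D.rank)) (φ : ↥(D.group F) ≃* ↥(D.group F))
    (hφ : ∀ (g : ↥(D.group F)) (i : Fin D.rank) (t : F),
      (((g : GL D.Idx F) : Matrix D.Idx D.Idx F) = D.x F (D.simple i) t →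
        ((φ g : GL D.Idx F) : Matrix D.Idx D.Idx F) = D.x F (D.simple (π i)) t) ∧
      (((g : GL D.Idx F) : Matrix D.Idx D.Idx F) = D.x F (D.neg (D.simple i)) t →
        ((φ g : GL D.Idx F) : Matrix D.Idx D.Idx F) = D.x F (D.neg (D.simple (π i))) t))
    (h : ∃ (gp gq : ℕ) (pi pj : ℕ → ℕ), GOK D gp gq pi ∧ PiOK D.rank pi pj ∧ (∀ i < D.rank, pj i < D.rank) ∧
      (∀ i < D.rank, wv gp (D.simple i) = D.simple (pi i) ∧ wb gp (D.simple i) = 0) ∧
      ∀ i : Fin D.rank, (π i).val = pi i.val)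
    (r : ℕ) (hr : r < D.nroots) :
    ∃ ε : F, (ε = 1 ∨ ε = -1) ∧ ∀ (g : ↥(D.group F)) (t : F),
      ((g : GL D.Idx F) : Matrix D.Idx D.Idx F) = D.x F r t →
        ((φ g : GL D.Idx F) : Matrix D.Idx D.Idx F) = D.x F (D.permRoot π r) (ε * t) := by
  obtain ⟨gp, gq, pi, pj, G, hp, hj, hs, hπ⟩ := h
  have H2 := H.toGood2
  have heq : (φ : ↥(D.group F) →* ↥(D.group F)) = (gAut F H2 G hp hj : ↥(D.group F) →* ↥(D.group F)) := by
    apply aut_ext H
    intro i hi t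
    have h1 : gs gp (D.simple i) = 1 := by unfold gs; rw [(hs i hi).2]; rfl
    have hri := H.simple_lt i hi
    have a1 := (hφ (xG H2 (D.simple i) t) ⟨i, hi⟩ t).1 rfl
    have a2 := (hφ (xG H2 (D.neg (D.simple i)) t) ⟨i, hi⟩ t).2 rfl
    constructor
    · show φ _ = gAut F H2 G hp hj _
      rw [gAut_xG H2 G hp hj hri, h1, (hs i hi).1]
      rw [Int.cast_one, one_mul]
      rw [hπ] at a1
      exact eq_xG H2 a1
    · show φ _ = gAut F H2 G hp hj _
      rw [gAut_xG H2 G hp hj (neg_lt H.toGood1 hri), G.sneg _ hri, h1, G.neg _ hri, (hs i hi).1]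
      rw [Int.cast_one, one_mul]
      rw [hπ] at a2
      exact eq_xG H2 a2
  refine ⟨((gs gp r : ℤ) : F), ?_, ?_⟩
  · rcases gs_or gp r with h1 | h1 <;> rw [h1] <;> simp
  · intro g t hg
    have h1 : φ g = gAut F H2 G hp hj g := DFunLike.congr_fun heq g
    rw [h1, gAut_x H2 G hp hj hr t hg, permRoot_eq H.toGood1 hv G hp hj π hπ hr]

/-- number of bonds of D4 -/
def bD4 : List (List ℤ) := [[4, 1, 0, 0], [1, 4, 1, 1], [0, 1, 4, 0], [0, 1, 0, 4]]
/-- number of bonds of E6 -/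
def bE6 : List (List ℤ) := [[4, 0, 1, 0, 0, 0], [0, 4, 0, 1, 0, 0], [1, 0, 4, 1, 0, 0], [0, 1, 1, 4, 1, 0],
  [0, 0, 0, 1, 4, 1], [0, 0, 0, 0, 1, 4]]

/-- table entry -/
def bt (b : List (List ℤ)) (i j : ℕ) : ℤ := (b.getD i []).getD j 0

lemma bonds_D4 : ∀ i < 4, ∀ j < 4, chevD4.bonds i j = bt bD4 i j := by decide +kernel
lemma bonds_E6 : ∀ i < 6, ∀ j < 6, chevE6.bonds i j = bt bE6 i j := by decide +kernel

lemma enum_D4 : ∀ a : Fin 4, ∀ b : Fin 4, (b ≠ a ∧ bt bD4 a b = bt bD4 0 1) → ∀ c : Fin 4,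
    (c ≠ a ∧ c ≠ b ∧ bt bD4 a c = bt bD4 0 2 ∧ bt bD4 b c = bt bD4 1 2) → ∀ d : Fin 4,
    (d ≠ a ∧ d ≠ b ∧ d ≠ c ∧ bt bD4 a d = bt bD4 0 3 ∧ bt bD4 b d = bt bD4 1 3 ∧ bt bD4 c d = bt bD4 2 3) →
    [a, b, c, d] = [0, 1, 2, 3] ∨ [a, b, c, d] = [2, 1, 3, 0] ∨ [a, b, c, d] = [3, 1, 0, 2] ∨
    [a, b, c, d] = [2, 1, 0, 3] ∨ [a, b, c, d] = [3, 1, 2, 0] ∨ [a, b, c, d] = [0, 1, 3, 2] := by
  decide +kernel

set_option synthInstance.maxHeartbeats 1000000 in
set_option synthInstance.maxSize 10000 in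
lemma enum_E6 : ∀ a : Fin 6, ∀ b : Fin 6, (b ≠ a ∧ bt bE6 a b = bt bE6 0 1) → ∀ c : Fin 6,
    (c ≠ a ∧ c ≠ b ∧ bt bE6 a c = bt bE6 0 2 ∧ bt bE6 b c = bt bE6 1 2) → ∀ d : Fin 6,
    (d ≠ a ∧ d ≠ b ∧ d ≠ c ∧ bt bE6 a d = bt bE6 0 3 ∧ bt bE6 b d = bt bE6 1 3 ∧ bt bE6 c d = bt bE6 2 3) → ∀ e : Fin 6,
    (e ≠ a ∧ e ≠ b ∧ e ≠ c ∧ e ≠ d ∧ bt bE6 a e = bt bE6 0 4 ∧ bt bE6 b e = bt bE6 1 4 ∧ bt bE6 c e = bt bE6 2 4 ∧
      bt bE6 d e = bt bE6 3 4) → ∀ f : Fin 6,
    (f ≠ a ∧ f ≠ b ∧ f ≠ c ∧ f ≠ d ∧ f ≠ e ∧ bt bE6 a f = bt bE6 0 5 ∧ bt bE6 b f = bt bE6 1 5 ∧ bt bE6 c f = bt bE6 2 5 ∧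
      bt bE6 d f = bt bE6 3 5 ∧ bt bE6 e f = bt bE6 4 5) →
    [a, b, c, d, e, f] = [0, 1, 2, 3, 4, 5] ∨ [a, b, c, d, e, f] = [5, 1, 4, 3, 2, 0] := by
  decide +kernel

/-- For the Chevalley groups of types D₄ and E₆ (one root length) over any field: if `π` is a symmetry of the Dynkin diagram and `φ` is an automorphism sending `x_{p_i}(t)` to `x_{p_{π i}}(t)` and `x_{-p_i}(t)` to `x_{-p_{π i}}(t)` for every fundamental root `p_i`, then for every root `r` there is a sign `ε = ±1` with `φ(x_r(t)) = x_{π·r}(ε t)` for all `t`, where `π·r` is the root whose coefficients are those of `r` permuted by `π`. -/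
theorem result {F : Type*} [Field F] (D : Cfsg.Lie.ChevalleyDatum) (hD : D ∈ [Cfsg.Lie.chevD4, Cfsg.Lie.chevE6])
    (π : Equiv.Perm (Fin D.rank)) (hπ : D.IsDiagramSymmetry π) (φ : ↥(D.group F) ≃* ↥(D.group F))
    (hφ : ∀ (g : ↥(D.group F)) (i : Fin D.rank) (t : F),
      (((g : GL D.Idx F) : Matrix D.Idx D.Idx F) = D.x F (D.simple i) t →
        ((φ g : GL D.Idx F) : Matrix D.Idx D.Idx F) = D.x F (D.simple (π i)) t) ∧
      (((g : GL D.Idx F) : Matrix D.Idx D.Idx F) = D.x F (D.neg (D.simple i)) t →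
        ((φ g : GL D.Idx F) : Matrix D.Idx D.Idx F) = D.x F (D.neg (D.simple (π i))) t))
    (r : ℕ) (hr : r < D.nroots) :
    ∃ ε : F, (ε = 1 ∨ ε = -1) ∧ ∀ (g : ↥(D.group F)) (t : F),
      ((g : GL D.Idx F) : Matrix D.Idx D.Idx F) = D.x F r t →
        ((φ g : GL D.Idx F) : Matrix D.Idx D.Idx F) = D.x F (D.permRoot π r) (ε * t) := by
  simp only [List.mem_cons, List.not_mem_nil, or_false] at hD
  rcases hD with rfl | rfl
  · apply main (good_of_mem (by simp [data])) rfl π φ hφ ?_ r hr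
    change Equiv.Perm (Fin 4) at π
    have hsym : ∀ i j : Fin 4, i ≠ j → bt bD4 (π i) (π j) = bt bD4 i j := by
      intro i j hij
      exact (bonds_D4 _ (π i).2 _ (π j).2).symm.trans ((hπ i j hij).trans (bonds_D4 _ i.2 _ j.2))
    have hinj : ∀ i j : Fin 4, i ≠ j → π i ≠ π j := fun i j hij h => hij (π.injective h)
    have hall : ∀ l : List ℕ, [(π 0).val, (π 1).val, (π 2).val, (π 3).val] = l → ∀ i : Fin 4, (π i).val = lpm l i.val := by
      intro l hl i
      subst hl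
      fin_cases i <;> rfl
    have h := enum_D4 (π 0) (π 1) ⟨hinj _ _ (by decide), hsym 0 1 (by decide)⟩ (π 2)
      ⟨hinj _ _ (by decide), hinj _ _ (by decide), hsym 0 2 (by decide), hsym 1 2 (by decide)⟩ (π 3)
      ⟨hinj _ _ (by decide), hinj _ _ (by decide), hinj _ _ (by decide), hsym 0 3 (by decide), hsym 1 3 (by decide), hsym 2 3 (by decide)⟩
    have conv : ∀ l : List (Fin 4), [π 0, π 1, π 2, π 3] = l → [(π 0).val, (π 1).val, (π 2).val, (π 3).val] = l.map Fin.val := by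
      intro l hl; subst hl; rfl
    rcases h with h | h | h | h | h | h
    · exact ⟨_, _, _, _, gok_D4_0, piok_D4_0, pj_D4_0, simp_D4_0, hall _ (conv _ h)⟩
    · exact ⟨_, _, _, _, gok_D4_1, piok_D4_1, pj_D4_1, simp_D4_1, hall _ (conv _ h)⟩
    · exact ⟨_, _, _, _, gok_D4_2, piok_D4_2, pj_D4_2, simp_D4_2, hall _ (conv _ h)⟩
    · exact ⟨_, _, _, _, gok_D4_3, piok_D4_3, pj_D4_3, simp_D4_3, hall _ (conv _ h)⟩
    · exact ⟨_, _, _, _, gok_D4_4, piok_D4_4, pj_D4_4, simp_D4_4, hall _ (conv _ h)⟩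
    · exact ⟨_, _, _, _, gok_D4_5, piok_D4_5, pj_D4_5, simp_D4_5, hall _ (conv _ h)⟩
  · apply main (good_of_mem (by simp [data])) rfl π φ hφ ?_ r hr
    change Equiv.Perm (Fin 6) at π
    have hsym : ∀ i j : Fin 6, i ≠ j → bt bE6 (π i) (π j) = bt bE6 i j := by
      intro i j hij
      exact (bonds_E6 _ (π i).2 _ (π j).2).symm.trans ((hπ i j hij).trans (bonds_E6 _ i.2 _ j.2))
    have hinj : ∀ i j : Fin 6, i ≠ j → π i ≠ π j := fun i j hij h => hij (π.injective h)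
    have hall : ∀ l : List ℕ, [(π 0).val, (π 1).val, (π 2).val, (π 3).val, (π 4).val, (π 5).val] = l → ∀ i : Fin 6, (π i).val = lpm l i.val := by
      intro l hl i
      subst hl
      fin_cases i <;> rfl
    have h := enum_E6 (π 0) (π 1) ⟨hinj _ _ (by decide), hsym 0 1 (by decide)⟩ (π 2)
      ⟨hinj _ _ (by decide), hinj _ _ (by decide), hsym 0 2 (by decide), hsym 1 2 (by decide)⟩ (π 3)
      ⟨hinj _ _ (by decide), hinj _ _ (by decide), hinj _ _ (by decide), hsym 0 3 (by decide), hsym 1 3 (by decide), hsym 2 3 (by decide)⟩ (π 4)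
      ⟨hinj _ _ (by decide), hinj _ _ (by decide), hinj _ _ (by decide), hinj _ _ (by decide), hsym 0 4 (by decide), hsym 1 4 (by decide), hsym 2 4 (by decide), hsym 3 4 (by decide)⟩ (π 5)
      ⟨hinj _ _ (by decide), hinj _ _ (by decide), hinj _ _ (by decide), hinj _ _ (by decide), hinj _ _ (by decide), hsym 0 5 (by decide), hsym 1 5 (by decide), hsym 2 5 (by decide), hsym 3 5 (by decide), hsym 4 5 (by decide)⟩
    have conv : ∀ l : List (Fin 6), [π 0, π 1, π 2, π 3, π 4, π 5] = l → [(π 0).val, (π 1).val, (π 2).val, (π 3).val, (π 4).val, (π 5).val] = l.map Fin.val := by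
      intro l hl; subst hl; rfl
    rcases h with h | h
    · exact ⟨_, _, _, _, gok_E6_0, piok_E6_0, pj_E6_0, simp_E6_0, hall _ (conv _ h)⟩
    · exact ⟨_, _, _, _, gok_E6_1, piok_E6_1, pj_E6_1, simp_E6_1, hall _ (conv _ h)⟩

end Cfsg.Agent.S2161
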