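import Cfsg.Statements.S2298
import Cfsg.Agent.H34.Deg3

set_option autoImplicit false
open Cfsg

namespace Cfsg.Agent.S2298

/-- Over a finite field F with q elements, every irreducible complex character of GL₂ has degree 1, q − 1, q or q + 1; and when q ≥ 3 (so that these four numbers are distinct) there are exactly q − 1 irreducible characters of degree 1, exactly q − 1 of degree q, exactly (q − 1)(q − 2)/2 of degree q + 1 and exactly q(q − 1)/2 of degree q − 1. -/
theorem result {F : Type*} [Field F] [Fintype F] :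
    (∀ χ : Matrix.GeneralLinearGroup (Fin 2) F → ℂ, Cfsg.IsIrrCharacter (Matrix.GeneralLinearGroup (Fin 2) F) χ →
      χ 1 = 1 ∨ χ 1 = (Fintype.card F : ℂ) - 1 ∨ χ 1 = (Fintype.card F : ℂ) ∨ χ 1 = (Fintype.card F : ℂ) + 1) ∧
    (3 ≤ Fintype.card F →
      Nat.card {χ : Cfsg.IrrCharacter (Matrix.GeneralLinearGroup (Fin 2) F) // (χ : Matrix.GeneralLinearGroup (Fin 2) F → ℂ) 1 = 1} = Fintype.card F - 1 ∧
      Nat.card {χ : Cfsg.IrrCharacter (Matrix.GeneralLinearGroup (Fin 2) F) // (χ : Matrix.GeneralLinearGroup (Fin 2) F → ℂ) 1 = (Fintype.card F : ℂ)} = Fintype.card F - 1 ∧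
      Nat.card {χ : Cfsg.IrrCharacter (Matrix.GeneralLinearGroup (Fin 2) F) // (χ : Matrix.GeneralLinearGroup (Fin 2) F → ℂ) 1 = (Fintype.card F : ℂ) + 1} = (Fintype.card F - 1) * (Fintype.card F - 2) / 2 ∧
      Nat.card {χ : Cfsg.IrrCharacter (Matrix.GeneralLinearGroup (Fin 2) F) // (χ : Matrix.GeneralLinearGroup (Fin 2) F → ℂ) 1 = (Fintype.card F : ℂ) - 1} = Fintype.card F * (Fintype.card F - 1) / 2) := by
  classical
  obtain ⟨k1, k2, k3⟩ := H34.Deg.deg_gl (F := F)
  constructor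
  · intro χ hχ
    rcases k1 ⟨χ, hχ⟩ with ⟨α, h⟩ | ⟨α, h⟩ | h | h
    · left
      rw [show χ = _ from h, map_one]
    · right; right; left
      rw [show χ = _ from h, Pi.sub_apply, H39.pGL_one, map_one]
      ring
    · exact Or.inr (Or.inr (Or.inr h.1))
    · exact Or.inr (Or.inl h.1)
  · intro hq
    obtain ⟨l1, l2, l3⟩ := k3 hq
    refine ⟨l1, l2, ?_, ?_⟩
    · obtain ⟨n, hn⟩ : ∃ n, Fintype.card F = n + 2 := ⟨Fintype.card F - 2, by omega⟩
      rw [hn] at k2 ⊢
      rw [show n + 2 - 1 = n + 1 by omega] at k2 ⊢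
      rw [show n + 2 - 2 = n by omega]
      have : (n + 1) * (n + 2) = (n + 1) * n + 2 * (n + 1) := by ring
      omega
    · rw [mul_comm] at l3
      have : Fintype.card F * (Fintype.card F - 1) = (Fintype.card F - 1) * Fintype.card F := mul_comm _ _
      omega

end Cfsg.Agent.S2298
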