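import Cfsg.Statements.S2299
import Cfsg.Agent.H34.Deg5

set_option autoImplicit false
open Cfsg

namespace Cfsg.Agent.S2299

/-- Over a finite field F with q elements, q odd, every irreducible complex character of SL₂ has degree 1, q, q + 1, q − 1, (q + 1)/2 or (q − 1)/2; and when q ≥ 5 (so that these six numbers are distinct) there are exactly one irreducible character of degree 1, one of degree q, (q − 3)/2 of degree q + 1, (q − 1)/2 of degree q − 1, two of degree (q + 1)/2 and two of degree (q − 1)/2. -/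
theorem result {F : Type*} [Field F] [Fintype F] (hodd : Odd (Fintype.card F)) :
    (∀ χ : Matrix.SpecialLinearGroup (Fin 2) F → ℂ, Cfsg.IsIrrCharacter (Matrix.SpecialLinearGroup (Fin 2) F) χ →
      χ 1 = 1 ∨ χ 1 = (Fintype.card F : ℂ) ∨ χ 1 = (Fintype.card F : ℂ) + 1 ∨ χ 1 = (Fintype.card F : ℂ) - 1 ∨
        χ 1 = (((Fintype.card F + 1) / 2 : ℕ) : ℂ) ∨ χ 1 = (((Fintype.card F - 1) / 2 : ℕ) : ℂ)) ∧
    (5 ≤ Fintype.card F →
      Nat.card {χ : Cfsg.IrrCharacter (Matrix.SpecialLinearGroup (Fin 2) F) // (χ : Matrix.SpecialLinearGroup (Fin 2) F → ℂ) 1 = 1} = 1 ∧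
      Nat.card {χ : Cfsg.IrrCharacter (Matrix.SpecialLinearGroup (Fin 2) F) // (χ : Matrix.SpecialLinearGroup (Fin 2) F → ℂ) 1 = (Fintype.card F : ℂ)} = 1 ∧
      Nat.card {χ : Cfsg.IrrCharacter (Matrix.SpecialLinearGroup (Fin 2) F) // (χ : Matrix.SpecialLinearGroup (Fin 2) F → ℂ) 1 = (Fintype.card F : ℂ) + 1} = (Fintype.card F - 3) / 2 ∧
      Nat.card {χ : Cfsg.IrrCharacter (Matrix.SpecialLinearGroup (Fin 2) F) // (χ : Matrix.SpecialLinearGroup (Fin 2) F → ℂ) 1 = (Fintype.card F : ℂ) - 1} = (Fintype.card F - 1) / 2 ∧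
      Nat.card {χ : Cfsg.IrrCharacter (Matrix.SpecialLinearGroup (Fin 2) F) // (χ : Matrix.SpecialLinearGroup (Fin 2) F → ℂ) 1 = (((Fintype.card F + 1) / 2 : ℕ) : ℂ)} = 2 ∧
      Nat.card {χ : Cfsg.IrrCharacter (Matrix.SpecialLinearGroup (Fin 2) F) // (χ : Matrix.SpecialLinearGroup (Fin 2) F → ℂ) 1 = (((Fintype.card F - 1) / 2 : ℕ) : ℂ)} = 2) := by
  classical
  obtain ⟨k, ⟨D⟩⟩ := H34.Deg.exists_oddData F hodd
  have hk := D.hk
  have hk0 := D.k_pos
  have e0 : (Fintype.card F : ℂ) + 1 = ((2 * k + 2 : ℕ) : ℂ) := by rw [hk]; push_cast; ring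
  have e1 : (Fintype.card F : ℂ) - 1 = ((2 * k : ℕ) : ℂ) := by rw [hk]; push_cast; ring
  have e2 : (Fintype.card F + 1) / 2 = k + 1 := by omega
  have e3 : (Fintype.card F - 1) / 2 = k := by omega
  have e4 : (Fintype.card F : ℂ) = ((2 * k + 1 : ℕ) : ℂ) := by rw [hk]
  have e5 : (1 : ℂ) = ((1 : ℕ) : ℂ) := by norm_num
  rw [e0, e1, e2, e3, e4, e5]
  constructor
  · intro χ hχ
    have h1 := D.deg_eq_iff ⟨χ, hχ⟩
    simp only at h1
    rw [h1, h1, h1, h1, h1, h1]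
    rcases D.six ⟨χ, hχ⟩ with ⟨h, h'⟩ | ⟨h, h'⟩ | ⟨h, h'⟩ | ⟨h, h'⟩ | ⟨h, h'⟩ | ⟨h, h'⟩ <;> rw [h, h'] <;> omega
  · intro hq
    have h2 : 2 ≤ k := by omega
    have hb := D.by_deg h2
    have h3 := D.n3
    have h4 : (Fintype.card F - 3) / 2 = k - 1 := by omega
    refine ⟨(Nat.card_congr (Equiv.subtypeEquivRight fun χ => (D.deg_eq_iff χ _).trans (hb χ).1)).trans D.n1,
      (Nat.card_congr (Equiv.subtypeEquivRight fun χ => (D.deg_eq_iff χ _).trans (hb χ).2.1)).trans D.n2,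
      (Nat.card_congr (Equiv.subtypeEquivRight fun χ => (D.deg_eq_iff χ _).trans (hb χ).2.2.1)).trans ?_,
      (Nat.card_congr (Equiv.subtypeEquivRight fun χ => (D.deg_eq_iff χ _).trans (hb χ).2.2.2.2.1)).trans D.n5,
      (Nat.card_congr (Equiv.subtypeEquivRight fun χ => (D.deg_eq_iff χ _).trans (hb χ).2.2.2.1)).trans D.n4,
      (Nat.card_congr (Equiv.subtypeEquivRight fun χ => (D.deg_eq_iff χ _).trans (hb χ).2.2.2.2.2)).trans D.n6⟩
    omega

end Cfsg.Agent.S2299
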