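import Cfsg.Statements.S2301
import Mathlib

set_option autoImplicit false
open Cfsg

namespace Cfsg.Agent.S2301

open Matrix

/-- the upper unitriangular matrix with entry `b` -/
def ub {F : Type*} [Field F] (b : F) : SpecialLinearGroup (Fin 2) F := ⟨!![1, b; 0, 1], by simp [det_fin_two]⟩

theorem ub_coe {F : Type*} [Field F] (b : F) : (ub b : Matrix (Fin 2) (Fin 2) F) = !![1, b; 0, 1] := rfl

theorem exists_mk {F : Type*} [Field F] (a b c d : F) (h : a * d - b * c = 1) :
    ∃ P : SpecialLinearGroup (Fin 2) F, (P : Matrix (Fin 2) (Fin 2) F) = !![a, b; c, d] :=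
  ⟨⟨!![a, b; c, d], by rw [det_fin_two_of]; exact h⟩, rfl⟩

/-- an element with `trace = 2` is conjugate to some `ub b` or is one -/
theorem conj_ub {F : Type*} [Field F] (g : SpecialLinearGroup (Fin 2) F)
    (hg : (g : Matrix (Fin 2) (Fin 2) F) 0 0 + (g : Matrix (Fin 2) (Fin 2) F) 1 1 = 2) (hg1 : g ≠ 1) :
    ∃ b : F, b ≠ 0 ∧ IsConj (ub b) g := by
  have hdet := g.det_coe
  rw [det_fin_two] at hdet
  by_cases hc : (g : Matrix (Fin 2) (Fin 2) F) 1 0 = 0
  · have ha : (g : Matrix (Fin 2) (Fin 2) F) 0 0 = 1 := by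
      have : ((g : Matrix (Fin 2) (Fin 2) F) 0 0 - 1) ^ 2 = 0 := by
        rw [hc] at hdet
        linear_combination -hdet + (g : Matrix (Fin 2) (Fin 2) F) 0 0 * hg
      exact sub_eq_zero.1 (pow_eq_zero_iff (two_ne_zero) |>.1 this)
    have hd : (g : Matrix (Fin 2) (Fin 2) F) 1 1 = 1 := by linear_combination hg - ha
    have hgb : g = ub ((g : Matrix (Fin 2) (Fin 2) F) 0 1) := by
      ext i j
      fin_cases i <;> fin_cases j <;> simp [ub_coe, hc, ha, hd]
    refine ⟨_, ?_, by rw [← hgb]⟩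
    intro hb
    apply hg1
    ext i j
    fin_cases i <;> fin_cases j <;> simp [hb, hc, ha, hd]
  · refine ⟨-(g : Matrix (Fin 2) (Fin 2) F) 1 0, neg_ne_zero.2 hc, isConj_iff.2 ?_⟩
    obtain ⟨P, hP⟩ := exists_mk (-((g : Matrix (Fin 2) (Fin 2) F) 0 0 - 1) / (g : Matrix (Fin 2) (Fin 2) F) 1 0) 1 (-1) 0 (by ring)
    refine ⟨P, mul_inv_eq_iff_eq_mul.2 ?_⟩
    have hd : (g : Matrix (Fin 2) (Fin 2) F) 1 1 = 2 - (g : Matrix (Fin 2) (Fin 2) F) 0 0 := by linear_combination hg
    ext i j
    fin_cases i <;> fin_cases j <;> simp [hP, ub_coe, mul_apply, Fin.sum_univ_two]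
    · field_simp
      rw [hd] at hdet
      linear_combination -hdet
    · field_simp
      ring
    · field_simp
      linear_combination hg

theorem orderOf_ub {F : Type*} [Field F] (p : ℕ) [Fact p.Prime] [CharP F p] (b : F) (hb : b ≠ 0) :
    orderOf (ub b) = p := by
  have hpow : ∀ n : ℕ, (ub b) ^ n = ub (n * b) := by
    intro n
    induction n with
    | zero =>
      ext i j
      fin_cases i <;> fin_cases j <;> simp [ub_coe]
    | succ n ih =>
      rw [pow_succ, ih]
      ext i j
      fin_cases i <;> fin_cases j <;> simp [ub_coe, mul_apply, Fin.sum_univ_two]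
      ring
  apply orderOf_eq_prime
  · rw [hpow]
    ext i j
    fin_cases i <;> fin_cases j <;> simp [ub_coe]
  · intro h
    have := congrArg (fun z : SpecialLinearGroup (Fin 2) F => (z : Matrix (Fin 2) (Fin 2) F) 0 1) h
    simp [ub_coe] at this
    exact hb this

theorem trace_eq {F : Type*} [Field F] (p : ℕ) [Fact p.Prime] [CharP F p] (g : SpecialLinearGroup (Fin 2) F)
    (hg : orderOf g = p) :
    (g : Matrix (Fin 2) (Fin 2) F) 0 0 + (g : Matrix (Fin 2) (Fin 2) F) 1 1 = 2 := by
  have h1 : g ^ p = 1 := by rw [← hg]; exact pow_orderOf_eq_one g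
  have h2 : (g : Matrix (Fin 2) (Fin 2) F) ^ p = 1 := by
    have := congrArg (fun z : SpecialLinearGroup (Fin 2) F => (z : Matrix (Fin 2) (Fin 2) F)) h1
    simpa using this
  have : CharP (Matrix (Fin 2) (Fin 2) F) p := inferInstance
  have h3 : ((g : Matrix (Fin 2) (Fin 2) F) - 1) ^ p = 0 := by
    have := sub_pow_char_of_commute p (Commute.one_right (g : Matrix (Fin 2) (Fin 2) F))
    rw [this, h2, one_pow, sub_self]
  have h4 : IsNilpotent ((g : Matrix (Fin 2) (Fin 2) F) - 1) := ⟨p, h3⟩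
  have h5 := (Matrix.isNilpotent_trace_of_isNilpotent h4)
  have h6 := (isReduced_iff _).1 inferInstance _ h5
  rw [trace_fin_two, Matrix.sub_apply, Matrix.sub_apply, Matrix.one_apply_eq, Matrix.one_apply_eq] at h6
  linear_combination h6

theorem conj_ub_iff {F : Type*} [Field F] (b b' : F) (hb : b ≠ 0) (hb' : b' ≠ 0) :
    IsConj (ub b) (ub b') ↔ IsSquare (b * b') := by
  rw [isConj_iff]
  constructor
  · rintro ⟨P, hP⟩
    have hP' : P * ub b = ub b' * P := mul_inv_eq_iff_eq_mul.1 hP
    have h : ((P * ub b : SpecialLinearGroup (Fin 2) F) : Matrix (Fin 2) (Fin 2) F) =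
      ((ub b' * P : SpecialLinearGroup (Fin 2) F) : Matrix (Fin 2) (Fin 2) F) := by rw [hP']
    rw [Matrix.SpecialLinearGroup.coe_mul, Matrix.SpecialLinearGroup.coe_mul, ub_coe, ub_coe] at h
    have e00 := congrFun (congrFun h 0) 0
    have e01 := congrFun (congrFun h 0) 1
    simp [mul_apply, Fin.sum_univ_two] at e00 e01
    have hz : (P : Matrix (Fin 2) (Fin 2) F) 1 0 = 0 := by
      rcases e00 with h | h
      · exact absurd h hb'
      · exact h
    have hdet := P.det_coe
    rw [det_fin_two, hz] at hdet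
    refine ⟨b' * (P : Matrix (Fin 2) (Fin 2) F) 1 1, ?_⟩
    linear_combination b' * (P : Matrix (Fin 2) (Fin 2) F) 1 1 * e01 - b * b' * hdet
  · rintro ⟨s, hs⟩
    have hs0 : s ≠ 0 := by
      rintro rfl
      simp at hs
      exact hs.elim hb hb'
    obtain ⟨P, hP⟩ := exists_mk (b' / s) 0 0 (s / b') (by field_simp; ring)
    refine ⟨P, mul_inv_eq_iff_eq_mul.2 ?_⟩
    ext i j
    fin_cases i <;> fin_cases j <;> simp [hP, ub_coe, mul_apply, Fin.sum_univ_two]
    field_simp
    linear_combination hs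

/-- the conjugate of `ub b` by a matrix with first column `v` -/
def phi {F : Type*} [Field F] (b : F) (v : F × F) : SpecialLinearGroup (Fin 2) F :=
  ⟨!![1 - b * v.1 * v.2, b * v.1 ^ 2; -b * v.2 ^ 2, 1 + b * v.1 * v.2], by rw [det_fin_two_of]; ring⟩

theorem phi_coe {F : Type*} [Field F] (b : F) (v : F × F) : (phi b v : Matrix (Fin 2) (Fin 2) F) =
  !![1 - b * v.1 * v.2, b * v.1 ^ 2; -b * v.2 ^ 2, 1 + b * v.1 * v.2] := rfl

theorem mem_class_iff {F : Type*} [Field F] (b : F) (g : SpecialLinearGroup (Fin 2) F) :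
    IsConj (ub b) g ↔ ∃ v : F × F, v ≠ 0 ∧ phi b v = g := by
  rw [isConj_iff]
  constructor
  · rintro ⟨P, rfl⟩
    have hdet := P.det_coe
    rw [det_fin_two] at hdet
    refine ⟨((P : Matrix (Fin 2) (Fin 2) F) 0 0, (P : Matrix (Fin 2) (Fin 2) F) 1 0), ?_, ?_⟩
    · intro h
      have h1 : (P : Matrix (Fin 2) (Fin 2) F) 0 0 = 0 := congrArg Prod.fst h
      have h2 : (P : Matrix (Fin 2) (Fin 2) F) 1 0 = 0 := congrArg Prod.snd h
      rw [h1, h2] at hdet
      simp at hdet
    · rw [eq_mul_inv_iff_mul_eq]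
      ext i j
      fin_cases i <;> fin_cases j <;> simp [phi_coe, ub_coe, mul_apply, Fin.sum_univ_two]
      · ring
      · linear_combination b * (P : Matrix (Fin 2) (Fin 2) F) 0 0 * hdet
      · ring
      · linear_combination b * (P : Matrix (Fin 2) (Fin 2) F) 1 0 * hdet
  · rintro ⟨⟨x, z⟩, hv, rfl⟩
    obtain ⟨y, w, hyw⟩ : ∃ y w : F, x * w - y * z = 1 := by
      by_cases hx : x = 0
      · have hz : z ≠ 0 := by
          rintro rfl
          apply hv; rw [hx]; rfl
        exact ⟨-z⁻¹, 0, by field_simp; ring⟩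
      · exact ⟨0, x⁻¹, by field_simp; ring⟩
    obtain ⟨P, hP⟩ := exists_mk x y z w hyw
    refine ⟨P, mul_inv_eq_iff_eq_mul.2 ?_⟩
    ext i j
    fin_cases i <;> fin_cases j <;> simp [hP, phi_coe, ub_coe, mul_apply, Fin.sum_univ_two]
    · ring
    · linear_combination - b * x * hyw
    · ring
    · linear_combination - b * z * hyw

theorem card_class {F : Type*} [Field F] [Fintype F] (h2 : (2 : F) ≠ 0) (b : F) (hb : b ≠ 0) :
    Nat.card (ConjClasses.mk (ub b)).carrier = (Fintype.card F ^ 2 - 1) / 2 := by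
  classical
  have hset : (ConjClasses.mk (ub b)).carrier = ↑((Finset.univ.filter (fun v : F × F => v ≠ 0)).image (phi b)) := by
    ext g
    rw [ConjClasses.mem_carrier_iff_mk_eq, eq_comm, ConjClasses.mk_eq_mk_iff_isConj, mem_class_iff]
    simp
  have hinj : ∀ v w : F × F, phi b v = phi b w ↔ (v = w ∨ v = -w) := by
    rintro ⟨x, z⟩ ⟨x', z'⟩
    constructor
    · intro h
      have h' := congrArg (fun z : SpecialLinearGroup (Fin 2) F => (z : Matrix (Fin 2) (Fin 2) F)) h
      simp only [phi_coe] at h'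
      have e00 := congrFun (congrFun h' 0) 0
      have e01 := congrFun (congrFun h' 0) 1
      have e10 := congrFun (congrFun h' 1) 0
      simp [hb] at e00 e01 e10
      have e00' : x * z = x' * z' := by
        apply mul_left_cancel₀ hb
        linear_combination e00
      rcases sq_eq_sq_iff_eq_or_eq_neg.1 e01 with hx | hx
      · by_cases hx0 : x' = 0
        · rw [hx0] at hx
          rcases sq_eq_sq_iff_eq_or_eq_neg.1 e10 with hz | hz
          · left; rw [hx, hz, hx0]
          · right; rw [hx, hz, hx0]; simp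
        · left
          rw [hx] at e00'
          rw [hx, mul_left_cancel₀ hx0 e00']
      · by_cases hx0 : x' = 0
        · rw [hx0] at hx
          rcases sq_eq_sq_iff_eq_or_eq_neg.1 e10 with hz | hz
          · left; rw [hx, hz, hx0]; simp
          · right; rw [hx, hz, hx0]; simp
        · right
          rw [hx] at e00'
          have : z = - z' := by
            apply mul_left_cancel₀ hx0
            linear_combination -e00'
          rw [hx, this]; rfl
    · rintro (h | h)
      · rw [h]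
      · rw [h]
        ext i j
        fin_cases i <;> fin_cases j <;> simp [phi_coe]
  have hsum := Finset.card_eq_sum_card_image (phi b) (Finset.univ.filter (fun v : F × F => v ≠ 0))
  have hfib : ∀ g ∈ (Finset.univ.filter (fun v : F × F => v ≠ 0)).image (phi b),
      ((Finset.univ.filter (fun v : F × F => v ≠ 0)).filter (fun v => phi b v = g)).card = 2 := by
    intro g hg
    obtain ⟨v, hv, rfl⟩ := Finset.mem_image.1 hg
    have hv0 : v ≠ 0 := (Finset.mem_filter.1 hv).2
    have : (Finset.univ.filter (fun v : F × F => v ≠ 0)).filter (fun w => phi b w = phi b v) = {v, -v} := by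
      ext w
      simp only [Finset.mem_filter, Finset.mem_univ, true_and, Finset.mem_insert, Finset.mem_singleton, hinj]
      constructor
      · exact fun h => h.2
      · rintro (rfl | rfl)
        · exact ⟨hv0, Or.inl rfl⟩
        · exact ⟨neg_ne_zero.2 hv0, Or.inr rfl⟩
    rw [this, Finset.card_pair]
    intro h
    apply hv0
    have h1 : v.1 = - v.1 := congrArg Prod.fst h
    have h3 : v.2 = - v.2 := congrArg Prod.snd h
    have h1' : v.1 = 0 := by
      have : 2 * v.1 = 0 := by linear_combination h1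
      exact (mul_eq_zero.1 this).resolve_left h2
    have h3' : v.2 = 0 := by
      have : 2 * v.2 = 0 := by linear_combination h3
      exact (mul_eq_zero.1 this).resolve_left h2
    exact Prod.ext h1' h3'
  rw [Finset.sum_congr rfl hfib, Finset.sum_const, smul_eq_mul] at hsum
  have hc : (Finset.univ.filter (fun v : F × F => v ≠ 0)).card = Fintype.card F ^ 2 - 1 := by
    rw [Finset.filter_ne', Finset.card_erase_of_mem (Finset.mem_univ _), Finset.card_univ, Fintype.card_prod, sq]
  rw [hset, Nat.card_eq_card_toFinset, Finset.toFinset_coe]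
  omega

theorem result {F : Type*} [Field F] [Fintype F] (p : ℕ) [Fact p.Prime] [CharP F p] (hp : p ≠ 2) :
    Nat.card {C : ConjClasses (Matrix.SpecialLinearGroup (Fin 2) F) // ∃ g : Matrix.SpecialLinearGroup (Fin 2) F, orderOf g = p ∧ ConjClasses.mk g = C} = 2 ∧
    (∀ g : Matrix.SpecialLinearGroup (Fin 2) F, orderOf g = p → Nat.card (ConjClasses.mk g).carrier = (Fintype.card F ^ 2 - 1) / 2) ∧
    ∀ g h : Matrix.SpecialLinearGroup (Fin 2) F, (g : Matrix (Fin 2) (Fin 2) F) 0 0 = 1 → (g : Matrix (Fin 2) (Fin 2) F) 1 1 = 1 → (g : Matrix (Fin 2) (Fin 2) F) 1 0 = 0 → (g : Matrix (Fin 2) (Fin 2) F) 0 1 ≠ 0 →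
      (h : Matrix (Fin 2) (Fin 2) F) 0 0 = 1 → (h : Matrix (Fin 2) (Fin 2) F) 1 1 = 1 → (h : Matrix (Fin 2) (Fin 2) F) 1 0 = 0 → (h : Matrix (Fin 2) (Fin 2) F) 0 1 ≠ 0 →
      (IsConj g h ↔ IsSquare ((g : Matrix (Fin 2) (Fin 2) F) 0 1 * (h : Matrix (Fin 2) (Fin 2) F) 0 1)) := by
  classical
  have hpp : p.Prime := Fact.out
  have hchar : ringChar F ≠ 2 := by
    rw [ringChar.eq F p]; exact hp
  have h2 : (2 : F) ≠ 0 := Ring.two_ne_zero hchar
  have hne1 : ∀ g : Matrix.SpecialLinearGroup (Fin 2) F, orderOf g = p → g ≠ 1 := by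
    rintro g hg rfl
    rw [orderOf_one] at hg
    exact hpp.one_lt.ne hg
  have hrep : ∀ g : Matrix.SpecialLinearGroup (Fin 2) F, orderOf g = p → ∃ b : F, b ≠ 0 ∧ IsConj (ub b) g :=
    fun g hg => conj_ub g (trace_eq p g hg) (hne1 g hg)
  refine ⟨?_, ?_, ?_⟩
  · obtain ⟨ν, hν⟩ := FiniteField.exists_nonsquare hchar
    have hν0 : ν ≠ 0 := by
      rintro rfl
      exact hν ⟨0, by simp⟩
    have hset : {C : ConjClasses (Matrix.SpecialLinearGroup (Fin 2) F) | ∃ g : Matrix.SpecialLinearGroup (Fin 2) F, orderOf g = p ∧ ConjClasses.mk g = C} =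
        {ConjClasses.mk (ub 1), ConjClasses.mk (ub ν)} := by
      ext C
      simp only [Set.mem_ofPred_eq, Set.mem_insert_iff, Set.mem_singleton_iff]
      constructor
      · rintro ⟨g, hg, rfl⟩
        obtain ⟨b, hb, hbg⟩ := hrep g hg
        have e : ConjClasses.mk g = ConjClasses.mk (ub b) := ConjClasses.mk_eq_mk_iff_isConj.2 hbg.symm
        rw [e, ConjClasses.mk_eq_mk_iff_isConj, ConjClasses.mk_eq_mk_iff_isConj, conj_ub_iff _ _ hb one_ne_zero,
          conj_ub_iff _ _ hb hν0, mul_one]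
        by_cases hsq : IsSquare b
        · exact Or.inl hsq
        · right
          have hb1 := quadraticChar_neg_one_iff_not_isSquare.2 hsq
          have hν1 := quadraticChar_neg_one_iff_not_isSquare.2 hν
          rw [← quadraticChar_one_iff_isSquare (mul_ne_zero hb hν0), map_mul, hb1, hν1]
          norm_num
      · rintro (rfl | rfl)
        · exact ⟨_, orderOf_ub p 1 one_ne_zero, rfl⟩
        · exact ⟨_, orderOf_ub p ν hν0, rfl⟩
    have : Nat.card {C : ConjClasses (Matrix.SpecialLinearGroup (Fin 2) F) // ∃ g : Matrix.SpecialLinearGroup (Fin 2) F, orderOf g = p ∧ ConjClasses.mk g = C} =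
      Set.ncard {C : ConjClasses (Matrix.SpecialLinearGroup (Fin 2) F) | ∃ g : Matrix.SpecialLinearGroup (Fin 2) F, orderOf g = p ∧ ConjClasses.mk g = C} := rfl
    rw [this, hset, Set.ncard_pair]
    intro h
    rw [ConjClasses.mk_eq_mk_iff_isConj, conj_ub_iff _ _ one_ne_zero hν0, one_mul] at h
    exact hν h
  · intro g hg
    obtain ⟨b, hb, hbg⟩ := hrep g hg
    rw [← ConjClasses.mk_eq_mk_iff_isConj.2 hbg]
    exact card_class h2 b hb
  · intro g h g00 g11 g10 g01 h00 h11 h10 h01
    have hg : g = ub ((g : Matrix (Fin 2) (Fin 2) F) 0 1) := by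
      ext i j
      fin_cases i <;> fin_cases j <;> simp [ub_coe, g00, g11, g10]
    have hh : h = ub ((h : Matrix (Fin 2) (Fin 2) F) 0 1) := by
      ext i j
      fin_cases i <;> fin_cases j <;> simp [ub_coe, h00, h11, h10]
    conv_lhs => rw [hg, hh]
    exact conj_ub_iff _ _ g01 h01

end Cfsg.Agent.S2301
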