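import Cfsg.Statements.S2303
import Mathlib

set_option autoImplicit false
open Cfsg

namespace Cfsg.Agent.S2303

theorem mem_cent_iff {F : Type*} [Field F] (g x : Matrix.GeneralLinearGroup (Fin 2) F) :
    x ∈ Subgroup.centralizer ({g} : Set (Matrix.GeneralLinearGroup (Fin 2) F)) ↔
      (x : Matrix (Fin 2) (Fin 2) F) * (g : Matrix (Fin 2) (Fin 2) F) =
        (g : Matrix (Fin 2) (Fin 2) F) * (x : Matrix (Fin 2) (Fin 2) F) := by
  rw [Subgroup.mem_centralizer_singleton_iff, ← Units.val_inj]
  rfl

theorem card_nonzero_pairs {F : Type*} [Field F] [Fintype F] :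
    Nat.card {v : F × F // v ≠ 0} = Fintype.card F ^ 2 - 1 := by
  classical
  rw [Nat.card_eq_fintype_card, Fintype.card_subtype_compl, Fintype.card_prod, Fintype.card_subtype_eq]
  ring_nf

theorem result {F : Type*} [Field F] [Fintype F] (g : Matrix.GeneralLinearGroup (Fin 2) F) :
    ((g : Matrix (Fin 2) (Fin 2) F) 0 1 = 0 → (g : Matrix (Fin 2) (Fin 2) F) 1 0 = 0 → (g : Matrix (Fin 2) (Fin 2) F) 0 0 ≠ (g : Matrix (Fin 2) (Fin 2) F) 1 1 →
      Nat.card (Subgroup.centralizer ({g} : Set (Matrix.GeneralLinearGroup (Fin 2) F))) = (Fintype.card F - 1) ^ 2) ∧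
    ((∀ (c : F) (v : Fin 2 → F), v ≠ 0 → (g : Matrix (Fin 2) (Fin 2) F).mulVec v ≠ c • v) →
      Nat.card (Subgroup.centralizer ({g} : Set (Matrix.GeneralLinearGroup (Fin 2) F))) = Fintype.card F ^ 2 - 1) := by
  classical
  constructor
  · intro h01 h10 hne
    have hcomm : ∀ x : Matrix.GeneralLinearGroup (Fin 2) F,
        x ∈ Subgroup.centralizer ({g} : Set (Matrix.GeneralLinearGroup (Fin 2) F)) ↔
          ((x : Matrix (Fin 2) (Fin 2) F) 0 1 = 0 ∧ (x : Matrix (Fin 2) (Fin 2) F) 1 0 = 0) := by
      intro x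
      rw [mem_cent_iff]
      constructor
      · intro h
        have e1 := congrFun (congrFun h 0) 1
        have e2 := congrFun (congrFun h 1) 0
        simp only [Matrix.mul_apply, Fin.sum_univ_two, h01, h10] at e1 e2
        constructor
        · have : (x : Matrix (Fin 2) (Fin 2) F) 0 1 * ((g : Matrix (Fin 2) (Fin 2) F) 1 1 - (g : Matrix (Fin 2) (Fin 2) F) 0 0) = 0 := by
            linear_combination e1
          rcases mul_eq_zero.1 this with h | h
          · exact h
          · exact absurd (sub_eq_zero.1 h).symm hne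
        · have : (x : Matrix (Fin 2) (Fin 2) F) 1 0 * ((g : Matrix (Fin 2) (Fin 2) F) 0 0 - (g : Matrix (Fin 2) (Fin 2) F) 1 1) = 0 := by
            linear_combination e2
          rcases mul_eq_zero.1 this with h | h
          · exact h
          · exact absurd (sub_eq_zero.1 h) hne
      · rintro ⟨h1, h2⟩
        ext i j
        fin_cases i <;> fin_cases j <;> simp [Matrix.mul_apply, Fin.sum_univ_two, h01, h10, h1, h2, mul_comm]
    let e : Fˣ × Fˣ → Subgroup.centralizer ({g} : Set (Matrix.GeneralLinearGroup (Fin 2) F)) := fun p =>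
      ⟨Matrix.GeneralLinearGroup.mkOfDetNeZero !![(p.1 : F), 0; 0, (p.2 : F)] (by simp [Matrix.det_fin_two]), by
        rw [hcomm]
        simp [Matrix.GeneralLinearGroup.mkOfDetNeZero]⟩
    have he : Function.Bijective e := by
      constructor
      · rintro ⟨a, b⟩ ⟨a', b'⟩ h
        have h' := congrArg (fun z : Subgroup.centralizer ({g} : Set (Matrix.GeneralLinearGroup (Fin 2) F)) =>
          ((z : Matrix.GeneralLinearGroup (Fin 2) F) : Matrix (Fin 2) (Fin 2) F)) h
        have h1 := congrFun (congrFun h' 0) 0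
        have h2 := congrFun (congrFun h' 1) 1
        simp only [e, Matrix.GeneralLinearGroup.mkOfDetNeZero] at h1 h2
        simp at h1 h2
        exact Prod.ext (Units.ext h1) (Units.ext h2)
      · rintro ⟨x, hx⟩
        obtain ⟨hx1, hx2⟩ := (hcomm x).1 hx
        have hdet : (x : Matrix (Fin 2) (Fin 2) F) 0 0 * (x : Matrix (Fin 2) (Fin 2) F) 1 1 ≠ 0 := by
          have := Matrix.GeneralLinearGroup.det_ne_zero x
          rw [Matrix.det_fin_two, hx1] at this
          simpa using this
        refine ⟨(Units.mk0 _ (left_ne_zero_of_mul hdet), Units.mk0 _ (right_ne_zero_of_mul hdet)), ?_⟩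
        apply Subtype.ext
        apply Units.ext
        ext i j
        fin_cases i <;> fin_cases j <;> simp [e, Matrix.GeneralLinearGroup.mkOfDetNeZero, hx1, hx2]
    rw [← Nat.card_congr (Equiv.ofBijective e he), Nat.card_prod, Nat.card_eq_fintype_card, Fintype.card_units, sq]
  · intro hno
    have h10 : (g : Matrix (Fin 2) (Fin 2) F) 1 0 ≠ 0 := by
      intro h
      apply hno ((g : Matrix (Fin 2) (Fin 2) F) 0 0) ![1, 0] (by
        intro h'; have := congrFun h' 0; simp at this)
      ext i
      fin_cases i <;> simp [Matrix.mulVec, Matrix.vecHead, h]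
    have hdet : ∀ a b : F, (a, b) ≠ (0 : F × F) →
        (Matrix.scalar (Fin 2) a + b • (g : Matrix (Fin 2) (Fin 2) F)).det ≠ 0 := by
      intro a b hab hd
      by_cases hb : b = 0
      · subst hb
        simp [Matrix.det_fin_two] at hd
        apply hab
        simp [hd]
      · obtain ⟨v, hv, hv'⟩ := Matrix.exists_mulVec_eq_zero_iff.2 hd
        apply hno (-a / b) v hv
        rw [Matrix.add_mulVec, Matrix.smul_mulVec] at hv'
        have e1 : (Matrix.scalar (Fin 2) a).mulVec v = a • v := by
          ext i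
          simp [Matrix.mulVec_diagonal]
        rw [e1] at hv'
        have e2 : b • (g : Matrix (Fin 2) (Fin 2) F).mulVec v = -(a • v) := by
          rw [eq_neg_iff_add_eq_zero, add_comm]; exact hv'
        have e3 : (g : Matrix (Fin 2) (Fin 2) F).mulVec v = b⁻¹ • (b • (g : Matrix (Fin 2) (Fin 2) F).mulVec v) := by
          rw [smul_smul, inv_mul_cancel₀ hb, one_smul]
        rw [e3, e2, smul_neg, smul_smul, ← neg_smul]
        congr 1
        field_simp
    let e : {v : F × F // v ≠ 0} → Subgroup.centralizer ({g} : Set (Matrix.GeneralLinearGroup (Fin 2) F)) := fun p =>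
      ⟨Matrix.GeneralLinearGroup.mkOfDetNeZero (Matrix.scalar (Fin 2) p.1.1 + p.1.2 • (g : Matrix (Fin 2) (Fin 2) F))
        (hdet _ _ p.2), by
        rw [mem_cent_iff]
        change (Matrix.scalar (Fin 2) p.1.1 + p.1.2 • (g : Matrix (Fin 2) (Fin 2) F)) * (g : Matrix (Fin 2) (Fin 2) F) =
          (g : Matrix (Fin 2) (Fin 2) F) * (Matrix.scalar (Fin 2) p.1.1 + p.1.2 • (g : Matrix (Fin 2) (Fin 2) F))
        rw [add_mul, mul_add, Matrix.smul_mul, Matrix.mul_smul]
        congr 1
        exact (Matrix.scalar_commute _ (fun r => Commute.all _ _) _).eq⟩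
    have he : Function.Bijective e := by
      constructor
      · rintro ⟨⟨a, b⟩, hab⟩ ⟨⟨a', b'⟩, hab'⟩ h
        have h' := congrArg (fun z : Subgroup.centralizer ({g} : Set (Matrix.GeneralLinearGroup (Fin 2) F)) =>
          ((z : Matrix.GeneralLinearGroup (Fin 2) F) : Matrix (Fin 2) (Fin 2) F)) h
        have h1 := congrFun (congrFun h' 0) 0
        have h2 := congrFun (congrFun h' 1) 0
        simp only [e, Matrix.GeneralLinearGroup.mkOfDetNeZero] at h1 h2
        simp [h10] at h1 h2
        subst h2
        simp at h1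
        subst h1
        rfl
      · rintro ⟨x, hx⟩
        rw [mem_cent_iff] at hx
        have e1 := congrFun (congrFun hx 0) 0
        have e2 := congrFun (congrFun hx 1) 0
        simp only [Matrix.mul_apply, Fin.sum_univ_two] at e1 e2
        set b := (x : Matrix (Fin 2) (Fin 2) F) 1 0 / (g : Matrix (Fin 2) (Fin 2) F) 1 0 with hb
        set a := (x : Matrix (Fin 2) (Fin 2) F) 0 0 - b * (g : Matrix (Fin 2) (Fin 2) F) 0 0 with ha
        have hb' : b * (g : Matrix (Fin 2) (Fin 2) F) 1 0 = (x : Matrix (Fin 2) (Fin 2) F) 1 0 := by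
          rw [hb]; field_simp
        have hx01 : (x : Matrix (Fin 2) (Fin 2) F) 0 1 = b * (g : Matrix (Fin 2) (Fin 2) F) 0 1 := by
          apply mul_right_cancel₀ h10
          linear_combination e1 - (g : Matrix (Fin 2) (Fin 2) F) 0 1 * hb'
        have hx11 : (x : Matrix (Fin 2) (Fin 2) F) 1 1 = a + b * (g : Matrix (Fin 2) (Fin 2) F) 1 1 := by
          apply mul_right_cancel₀ h10
          rw [ha]
          linear_combination e2 - (g : Matrix (Fin 2) (Fin 2) F) 1 1 * hb' + (g : Matrix (Fin 2) (Fin 2) F) 0 0 * hb'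
        have hmat : (x : Matrix (Fin 2) (Fin 2) F) = Matrix.scalar (Fin 2) a + b • (g : Matrix (Fin 2) (Fin 2) F) := by
          ext i j
          fin_cases i <;> fin_cases j
          · simp [ha]
          · simp [hx01]
          · simp [← hb']
          · simp [hx11]
        have hab : (a, b) ≠ (0 : F × F) := by
          intro h
          have ha0 : a = 0 := congrArg Prod.fst h
          have hb0 : b = 0 := congrArg Prod.snd h
          rw [ha0, hb0] at hmat
          have := Matrix.GeneralLinearGroup.det_ne_zero x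
          apply this
          rw [hmat]
          simp
        refine ⟨⟨(a, b), hab⟩, ?_⟩
        apply Subtype.ext
        apply Units.ext
        exact hmat.symm
    rw [← Nat.card_congr (Equiv.ofBijective e he), card_nonzero_pairs]

end Cfsg.Agent.S2303
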