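import Cfsg.Statements.S2305
import Cfsg.Agent.H39.PrincipalTwo

set_option autoImplicit false
open Cfsg

namespace Cfsg.Agent.S2305

open Cfsg.Agent.H39 Cfsg.Agent.Char Cfsg.Agent.CharBase Matrix
open scoped ComplexConjugate

theorem eq_of_norm_zero {G : Type*} [Group G] [Fintype G] (f : G → ℂ) (h : classInner f f = 0) : f = 0 := by
  have hG := cardG_ne_zero_complex G
  rw [classInner, mul_eq_zero] at h
  have h1 := h.resolve_left (inv_ne_zero hG)
  have h2 : ∀ g, f g * conj (f g) = ((Complex.normSq (f g) : ℝ) : ℂ) := fun g => Complex.mul_conj _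
  rw [Finset.sum_congr rfl (fun g _ => h2 g), ← Complex.ofReal_sum] at h1
  have h3 : ∑ g : G, Complex.normSq (f g) = 0 := by exact_mod_cast h1
  rw [Finset.sum_eq_zero_iff_of_nonneg (fun g _ => Complex.normSq_nonneg _)] at h3
  funext g
  exact Complex.normSq_eq_zero.1 (h3 g (Finset.mem_univ _))

/-- Over a finite field F, for multiplicative characters α, β, α′, β′ of F, the characters of GL₂ induced from the linear characters b ↦ α(b₁₁) β(b₂₂) and b ↦ α′(b₁₁) β′(b₂₂) of the upper triangular subgroup coincide exactly when {α, β} = {α′, β′} as unordered pairs. -/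
theorem result {F : Type*} [Field F] [Fintype F] [DecidableEq F] (α β α' β' : MulChar F ℂ) :
    Cfsg.indFun (Cfsg.upperTriangularGL 2 F) (fun b => α (((b : Matrix.GeneralLinearGroup (Fin 2) F) : Matrix (Fin 2) (Fin 2) F) 0 0) * β (((b : Matrix.GeneralLinearGroup (Fin 2) F) : Matrix (Fin 2) (Fin 2) F) 1 1)) = Cfsg.indFun (Cfsg.upperTriangularGL 2 F) (fun b => α' (((b : Matrix.GeneralLinearGroup (Fin 2) F) : Matrix (Fin 2) (Fin 2) F) 0 0) * β' (((b : Matrix.GeneralLinearGroup (Fin 2) F) : Matrix (Fin 2) (Fin 2) F) 1 1)) ↔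
      (α = α' ∧ β = β') ∨ (α = β' ∧ β = α') := by
  classical
  have key : ∀ α β : MulChar F ℂ, Cfsg.indFun (Cfsg.upperTriangularGL 2 F) (fun b => α (((b : Matrix.GeneralLinearGroup (Fin 2) F) : Matrix (Fin 2) (Fin 2) F) 0 0) * β (((b : Matrix.GeneralLinearGroup (Fin 2) F) : Matrix (Fin 2) (Fin 2) F) 1 1)) =
      indFun (B2 (MonoidHom.id (GL (Fin 2) F))) (lam (MonoidHom.id (GL (Fin 2) F)) α β) := fun α β => rfl
  rw [key, key]
  constructor
  · intro h
    have h1 := classInner_prinGL α β α β
    have h2 := classInner_prinGL α β α' β'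
    rw [← h, h1] at h2
    by_cases h3 : α = α' ∧ β = β'
    · exact Or.inl h3
    · by_cases h4 : α = β' ∧ β = α'
      · exact Or.inr h4
      · exfalso
        rw [if_neg h3, if_neg h4, if_pos ⟨rfl, rfl⟩] at h2
        split_ifs at h2 <;> norm_num at h2
  · rintro (⟨rfl, rfl⟩ | ⟨rfl, rfl⟩)
    · rfl
    · rw [← sub_eq_zero]
      apply eq_of_norm_zero
      rw [classInner_sub_left, classInner_sub_right, classInner_sub_right, classInner_prinGL, classInner_prinGL,
        classInner_prinGL, classInner_prinGL]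
      by_cases h5 : α = β
      · subst h5
        simp
      · have h6 : ¬ (α = β ∧ β = α) := fun h => h5 h.1
        have h7 : ¬ (β = α ∧ α = β) := fun h => h5 h.2
        simp [h6, h7]

end Cfsg.Agent.S2305
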