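import Cfsg.Statements.S2306
import Cfsg.Agent.H39.PrincipalTwo

set_option autoImplicit false
open Cfsg

namespace Cfsg.Agent.S2306

open Cfsg.Agent.H39 Cfsg.Agent.Char Cfsg.Agent.CharBase Matrix
open scoped ComplexConjugate

theorem ind_eq {F : Type*} [Field F] [Fintype F] [DecidableEq F] (α : MulChar F ℂ) :
    Cfsg.indFun ((Cfsg.upperTriangularGL 2 F).comap Matrix.SpecialLinearGroup.toGL) (fun b => α (((b : Matrix.SpecialLinearGroup (Fin 2) F) : Matrix (Fin 2) (Fin 2) F) 0 0)) =
    indFun (B2 (SpecialLinearGroup.toGL : SpecialLinearGroup (Fin 2) F →* GL (Fin 2) F)) (lam _ α 1) := by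
  congr 1
  funext b
  obtain ⟨⟨a, x⟩, rfl⟩ := bSL_bijective.2 b
  rw [lam_bSL]
  rfl

/-- Over a finite field F, for a multiplicative character α of F, the function induced to SL₂ from the linear character b ↦ α(b₁₁) of the upper triangular subgroup is an irreducible character if and only if α² ≠ 1. -/
theorem result {F : Type*} [Field F] [Fintype F] [DecidableEq F] (α : MulChar F ℂ) :
    Cfsg.IsIrrCharacter (Matrix.SpecialLinearGroup (Fin 2) F) (Cfsg.indFun ((Cfsg.upperTriangularGL 2 F).comap Matrix.SpecialLinearGroup.toGL) (fun b => α (((b : Matrix.SpecialLinearGroup (Fin 2) F) : Matrix (Fin 2) (Fin 2) F) 0 0))) ↔ α ^ 2 ≠ 1 := by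
  classical
  rw [ind_eq, isIrrCharacter_iff (indFun_isCharacter _ _ (isCharacter_lam _ _)), classInner_prinSL, if_pos rfl]
  rw [sq]
  by_cases h : α * α = 1
  · simp [h]
  · simp [h]

end Cfsg.Agent.S2306
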