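import Cfsg.Statements.S2307
import Cfsg.Agent.H39.PrinSL

set_option autoImplicit false
open Cfsg

namespace Cfsg.Agent.S2307

open Cfsg.Agent.H39 Cfsg.Agent.Char Cfsg.Agent.CharBase Matrix
open scoped ComplexConjugate

/-- Over a finite field F with q elements, q odd, let α be the multiplicative character of F of order 2. The character of SL₂ induced from the linear character b ↦ α(b₁₁) of the upper triangular subgroup is the sum of two distinct irreducible characters, each of degree (q + 1)/2, which are conjugate under GL₂: some fixed element of GL₂ conjugates the one into the other. -/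
theorem result {F : Type*} [Field F] [Fintype F] [DecidableEq F] (hodd : Odd (Fintype.card F)) (α : MulChar F ℂ)
    (hα : α ^ 2 = 1) (hα1 : α ≠ 1) :
    ∃ χ₁ χ₂ : Matrix.SpecialLinearGroup (Fin 2) F → ℂ, Cfsg.IsIrrCharacter (Matrix.SpecialLinearGroup (Fin 2) F) χ₁ ∧ Cfsg.IsIrrCharacter (Matrix.SpecialLinearGroup (Fin 2) F) χ₂ ∧ χ₁ ≠ χ₂ ∧
      Cfsg.indFun ((Cfsg.upperTriangularGL 2 F).comap Matrix.SpecialLinearGroup.toGL) (fun b => α (((b : Matrix.SpecialLinearGroup (Fin 2) F) : Matrix (Fin 2) (Fin 2) F) 0 0)) = χ₁ + χ₂ ∧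
      χ₁ 1 = (((Fintype.card F + 1) / 2 : ℕ) : ℂ) ∧ χ₂ 1 = (((Fintype.card F + 1) / 2 : ℕ) : ℂ) ∧
      ∃ x : Matrix.GeneralLinearGroup (Fin 2) F, ∀ g h : Matrix.SpecialLinearGroup (Fin 2) F,
        Matrix.SpecialLinearGroup.toGL h = x * Matrix.SpecialLinearGroup.toGL g * x⁻¹ → χ₂ h = χ₁ g := by
  classical
  have key : Cfsg.indFun ((Cfsg.upperTriangularGL 2 F).comap Matrix.SpecialLinearGroup.toGL) (fun b => α (((b : Matrix.SpecialLinearGroup (Fin 2) F) : Matrix (Fin 2) (Fin 2) F) 0 0)) =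
    pSL α := by
    unfold pSL
    congr 1
    funext b
    obtain ⟨⟨a, x⟩, rfl⟩ := bSL_bijective.2 b
    rw [lam_bSL]
    rfl
  have hα2 : α * α = 1 := by rw [← sq]; exact hα
  have h2 : classInner (pSL α) (pSL α) = 2 := by
    rw [classInner_prinSL, if_pos rfl, if_pos hα2]
    norm_num
  obtain ⟨χ₁, χ₂, hne, hadd⟩ := exists_add_of_norm_two (isCharacter_pSL α) h2
  obtain ⟨d1, d2⟩ := halves_degree hα1 hne hadd
  obtain ⟨c, hc⟩ := halves hα1 hne hadd
  have hhalf : (((Fintype.card F + 1) / 2 : ℕ) : ℂ) * 2 = (Fintype.card F : ℂ) + 1 := by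
    have : (Fintype.card F + 1) / 2 * 2 = Fintype.card F + 1 := by
      obtain ⟨k, hk⟩ := hodd
      omega
    exact_mod_cast this
  refine ⟨χ₁, χ₂, χ₁.2, χ₂.2, fun h => hne (Subtype.ext h), by rw [key, hadd], ?_, ?_, (dG c)⁻¹, ?_⟩
  · linear_combination (1 / 2 : ℂ) * d1 - (1 / 2 : ℂ) * hhalf
  · linear_combination (1 / 2 : ℂ) * d2 - (1 / 2 : ℂ) * hhalf
  · intro g h hgh
    rw [hc h]
    have h5 : sgm c h = g := by
      apply (frameSL F).inj
      rw [toGL_sgm, hgh]
      group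
    rw [h5]

end Cfsg.Agent.S2307
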