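import Cfsg.Statements.S2308
import Cfsg.Agent.H39.PrinValues

set_option autoImplicit false
open Cfsg

namespace Cfsg.Agent.S2308

open Cfsg.Agent.H39 Cfsg.Agent.Char Cfsg.Agent.CharBase Matrix
open scoped ComplexConjugate

/-- Values of the permutation character of GL₂ over a finite field F with q elements on the cosets of its upper triangular subgroup (equivalently, the number of lines of F² that an element maps to themselves): q + 1 at a scalar matrix, 2 at a diagonal matrix with two different diagonal entries, 0 at an element with no eigenvector in F², and 1 at an upper triangular matrix with equal diagonal entries and non-zero upper right entry. -/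
theorem result {F : Type*} [Field F] [Fintype F] (g : Matrix.GeneralLinearGroup (Fin 2) F) :
    ((∃ a : F, (g : Matrix (Fin 2) (Fin 2) F) = a • (1 : Matrix (Fin 2) (Fin 2) F)) → Cfsg.fixedPointCharacter (Cfsg.upperTriangularGL 2 F) g = Fintype.card F + 1) ∧
    ((g : Matrix (Fin 2) (Fin 2) F) 0 1 = 0 → (g : Matrix (Fin 2) (Fin 2) F) 1 0 = 0 → (g : Matrix (Fin 2) (Fin 2) F) 0 0 ≠ (g : Matrix (Fin 2) (Fin 2) F) 1 1 →
      Cfsg.fixedPointCharacter (Cfsg.upperTriangularGL 2 F) g = 2) ∧
    ((∀ (c : F) (v : Fin 2 → F), v ≠ 0 → (g : Matrix (Fin 2) (Fin 2) F).mulVec v ≠ c • v) → Cfsg.fixedPointCharacter (Cfsg.upperTriangularGL 2 F) g = 0) ∧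
    ((g : Matrix (Fin 2) (Fin 2) F) 1 0 = 0 → (g : Matrix (Fin 2) (Fin 2) F) 0 0 = (g : Matrix (Fin 2) (Fin 2) F) 1 1 → (g : Matrix (Fin 2) (Fin 2) F) 0 1 ≠ 0 →
      Cfsg.fixedPointCharacter (Cfsg.upperTriangularGL 2 F) g = 1) := by
  classical
  have key : Cfsg.fixedPointCharacter (Cfsg.upperTriangularGL 2 F) =
      indFun (B2 (MonoidHom.id (GL (Fin 2) F))) (lam (MonoidHom.id (GL (Fin 2) F)) 1 1) := by
    rw [lam_one_one]
    exact fixedPointCharacter_eq _
  rw [key]
  refine ⟨?_, ?_, ?_, ?_⟩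
  · rintro ⟨a, ha⟩
    have ha0 : a ≠ 0 := by
      rintro rfl
      have h1 := (Matrix.isUnits_det_units g).ne_zero
      rw [ha] at h1
      simp at h1
    rw [(frameGL F).prin_scalar 1 1 g a ha, MulChar.one_apply (IsUnit.mk0 a ha0)]
    ring
  · intro h01 h10 hne
    have hB : g ∈ B2 (MonoidHom.id (GL (Fin 2) F)) := by rw [mem_B2]; exact h10
    obtain ⟨h1, h2⟩ := mt_diag_ne_zero hB
    rw [(frameGL F).prin_split 1 1 g h01 h10 hne, MulChar.one_apply (IsUnit.mk0 _ h1), MulChar.one_apply (IsUnit.mk0 _ h2)]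
    norm_num
  · intro h
    exact (frameGL F).prin_elliptic 1 1 g h
  · intro h10 he h01
    have hB : g ∈ B2 (MonoidHom.id (GL (Fin 2) F)) := by rw [mem_B2]; exact h10
    obtain ⟨h1, h2⟩ := mt_diag_ne_zero hB
    rw [(frameGL F).prin_uni 1 1 g h10 h01 he, MulChar.one_apply (IsUnit.mk0 _ h1), MulChar.one_apply (IsUnit.mk0 _ h2)]
    norm_num

end Cfsg.Agent.S2308
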