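import Cfsg.Statements.S2309
import Cfsg.Agent.H39.PrinGL

set_option autoImplicit false
open Cfsg

namespace Cfsg.Agent.S2309

open Cfsg.Agent.H39 Cfsg.Agent.Char Cfsg.Agent.CharBase Matrix
open scoped ComplexConjugate

/-- Over a finite field F with q elements: every irreducible complex character of GL₂ of degree q − 1 vanishes at every diagonal matrix with two distinct entries, and every irreducible complex character of degree q + 1 vanishes at every element with no eigenvector in F². -/
theorem result {F : Type*} [Field F] [Fintype F] (χ : Matrix.GeneralLinearGroup (Fin 2) F → ℂ) (hχ : Cfsg.IsIrrCharacter (Matrix.GeneralLinearGroup (Fin 2) F) χ) (g : Matrix.GeneralLinearGroup (Fin 2) F) :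
    (χ 1 = (Fintype.card F : ℂ) - 1 → (g : Matrix (Fin 2) (Fin 2) F) 0 1 = 0 → (g : Matrix (Fin 2) (Fin 2) F) 1 0 = 0 → (g : Matrix (Fin 2) (Fin 2) F) 0 0 ≠ (g : Matrix (Fin 2) (Fin 2) F) 1 1 → χ g = 0) ∧
    (χ 1 = (Fintype.card F : ℂ) + 1 → (∀ (c : F) (v : Fin 2 → F), v ≠ 0 → (g : Matrix (Fin 2) (Fin 2) F).mulVec v ≠ c • v) → χ g = 0) := by
  classical
  have hq : 1 < Fintype.card F := Fintype.one_lt_card
  have hcast : ∀ a b : ℕ, (a : ℂ) = b → a = b := fun a b h => by exact_mod_cast h
  refine ⟨?_, ?_⟩
  · intro h1 h01 h10 hne
    by_cases h0 : ∑ x : F, χ (uG x) = 0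
    · exact (frameGL F).split_eq_zero (isCharacter_of_isIrr hχ) h0 g h01 h10 hne
    · exfalso
      rcases prinGL_cases hχ h0 with ⟨α, β, rfl⟩ | ⟨α, rfl⟩ | ⟨α, rfl⟩
      · rw [pGL_one] at h1
        have : (2 : ℂ) = 0 := by linear_combination h1
        norm_num at this
      · rw [map_one] at h1
        have h2 : ((2 : ℕ) : ℂ) = (Fintype.card F : ℂ) := by push_cast; linear_combination h1
        have h3 := hcast _ _ h2
        -- over the field with two elements there is no regular split element
        have hB : g ∈ B2 (idGL F) := by rw [mem_B2]; exact h10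
        obtain ⟨e1, e2⟩ := mt_diag_ne_zero hB
        apply hne
        have h4 : Fintype.card Fˣ = 1 := by
          rw [Fintype.card_units]
          omega
        obtain ⟨a, ha⟩ := Fintype.card_eq_one_iff.1 h4
        have h5 := (ha (Units.mk0 _ e1)).trans (ha (Units.mk0 _ e2)).symm
        exact congrArg Units.val h5
      · rw [Pi.sub_apply, pGL_one, map_one] at h1
        have : (1 : ℂ) = 0 := by linear_combination h1
        norm_num at this
  · intro h1 hg
    by_cases h0 : ∑ x : F, χ (uG x) = 0
    · exfalso
      obtain ⟨e, he1, -, he2⟩ := cuspGL hχ h0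
      rw [h1] at he1
      obtain ⟨n, hn⟩ : ∃ n, Fintype.card F = n + 2 := ⟨Fintype.card F - 2, by omega⟩
      rw [hn] at he1 he2
      have h2 : n + 3 = e * (n + 1) := by
        apply hcast
        push_cast at he1 ⊢
        linear_combination he1
      have h3 : e ≤ 3 := by nlinarith
      interval_cases e
      · omega
      · omega
      · have : n = 1 := by omega
        subst this
        omega
      · have : n = 0 := by omega
        subst this
        omega
    · rcases prinGL_cases hχ h0 with ⟨α, β, rfl⟩ | ⟨α, rfl⟩ | ⟨α, rfl⟩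
      · exact (frameGL F).prin_elliptic α β g hg
      · exfalso
        rw [map_one] at h1
        have h2 : (Fintype.card F : ℂ) = ((0 : ℕ) : ℂ) := by push_cast; linear_combination -h1
        have := hcast _ _ h2
        omega
      · exfalso
        rw [Pi.sub_apply, pGL_one, map_one] at h1
        have : (1 : ℂ) = 0 := by linear_combination -h1
        norm_num at this

end Cfsg.Agent.S2309
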