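import Cfsg.Statements.S2310
import Cfsg.Agent.H39.PrinGL

set_option autoImplicit false
open Cfsg

namespace Cfsg.Agent.S2310

open Cfsg.Agent.H39 Cfsg.Agent.Char Cfsg.Agent.CharBase Matrix
open scoped ComplexConjugate

/-- Over a finite field F with q ≥ 3 elements, let u be the upper unitriangular matrix of GL₂ with off-diagonal entry 1. An irreducible complex character χ of GL₂ takes at u the value 1 if χ has degree 1 or q + 1, the value −1 if χ has degree q − 1, and the value 0 if χ has degree q. -/
theorem result {F : Type*} [Field F] [Fintype F] (hq : 3 ≤ Fintype.card F) (χ : Matrix.GeneralLinearGroup (Fin 2) F → ℂ) (hχ : Cfsg.IsIrrCharacter (Matrix.GeneralLinearGroup (Fin 2) F) χ)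
    (u : Matrix.GeneralLinearGroup (Fin 2) F) (hu : (u : Matrix (Fin 2) (Fin 2) F) = !![1, 1; 0, 1]) :
    (χ 1 = 1 → χ u = 1) ∧ (χ 1 = (Fintype.card F : ℂ) + 1 → χ u = 1) ∧
    (χ 1 = (Fintype.card F : ℂ) - 1 → χ u = -1) ∧ (χ 1 = (Fintype.card F : ℂ) → χ u = 0) := by
  classical
  have hq1 : 1 < Fintype.card F := Fintype.one_lt_card
  have hcast : ∀ a b : ℕ, (a : ℂ) = b → a = b := fun a b h => by exact_mod_cast h
  have hu' : u = uG 1 := Units.ext hu
  subst hu'
  by_cases h0 : ∑ x : F, χ (uG x) = 0
  · obtain ⟨e, he1, he3, he2⟩ := cuspGL hχ h0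
    obtain ⟨n, hn⟩ : ∃ n, Fintype.card F = n + 3 := ⟨Fintype.card F - 3, by omega⟩
    rw [hn] at he1 he2 ⊢
    refine ⟨?_, ?_, ?_, ?_⟩
    · intro h1
      exfalso
      rw [h1] at he1
      have h2 : 1 = e * (n + 2) := by
        apply hcast
        push_cast at he1 ⊢
        linear_combination he1
      have := Nat.eq_one_of_mul_eq_one_left h2.symm
      omega
    · intro h1
      exfalso
      rw [h1] at he1
      have h2 : n + 4 = e * (n + 2) := by
        apply hcast
        push_cast at he1 ⊢
        linear_combination he1
      have h3 : e ≤ 2 := by nlinarith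
      interval_cases e
      · omega
      · omega
      · have : n = 0 := by omega
        subst this
        omega
    · intro h1
      rw [h1] at he1
      have h2 : n + 2 = e * (n + 2) := by
        apply hcast
        push_cast at he1 ⊢
        linear_combination he1
      have h3 : e = 1 := by
        have h4 : 1 * (n + 2) = e * (n + 2) := by rw [one_mul]; exact h2
        exact (Nat.eq_of_mul_eq_mul_right (by omega) h4).symm
      rw [he3, h3]
      norm_num
    · intro h1
      exfalso
      rw [h1] at he1
      have h2 : n + 3 = e * (n + 2) := by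
        apply hcast
        push_cast at he1 ⊢
        linear_combination he1
      have h3 : e ≤ 1 := by
        by_contra hc
        push Not at hc
        nlinarith
      interval_cases e
      · omega
      · omega
  · rcases prinGL_cases hχ h0 with ⟨α, β, rfl⟩ | ⟨α, rfl⟩ | ⟨α, rfl⟩
    · rw [pGL_one, pGL_u]
      refine ⟨fun _ => rfl, fun _ => rfl, fun h1 => ?_, fun h1 => ?_⟩
      · exfalso
        have : (2 : ℂ) = 0 := by linear_combination h1
        norm_num at this
      · exfalso
        have : (1 : ℂ) = 0 := by linear_combination h1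
        norm_num at this
    · rw [map_one, detHom_u]
      refine ⟨fun _ => rfl, fun _ => rfl, fun h1 => ?_, fun h1 => ?_⟩
      · exfalso
        have h2 : ((2 : ℕ) : ℂ) = (Fintype.card F : ℂ) := by push_cast; linear_combination h1
        have := hcast _ _ h2
        omega
      · exfalso
        have h2 : ((1 : ℕ) : ℂ) = (Fintype.card F : ℂ) := by push_cast; linear_combination h1
        have := hcast _ _ h2
        omega
    · rw [Pi.sub_apply, Pi.sub_apply, pGL_one, pGL_u, map_one, detHom_u]
      refine ⟨fun h1 => ?_, fun h1 => ?_, fun h1 => ?_, fun h1 => ?_⟩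
      · exfalso
        have h2 : (Fintype.card F : ℂ) = ((1 : ℕ) : ℂ) := by push_cast; linear_combination h1
        have := hcast _ _ h2
        omega
      · exfalso
        have : (1 : ℂ) = 0 := by linear_combination -h1
        norm_num at this
      · exfalso
        have : (1 : ℂ) = 0 := by linear_combination h1
        norm_num at this
      · norm_num

end Cfsg.Agent.S2310
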