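import Cfsg.Statements.S2312
import Cfsg.Agent.H39.StChevP
import Cfsg.Agent.H39.StVal2

set_option autoImplicit false
open Cfsg

namespace Cfsg.Agent.S2312

/-- In a Chevalley group of type G₂, B₂, D₄, F₄, E₆, E₇ or E₈ over a finite field of characteristic p, the value of the Steinberg character at an element g of order prime to p (a semisimple element) is, up to sign, the largest power of p dividing the order of the centralizer of g. -/
theorem result {F : Type*} [Field F] [Fintype F] (p : ℕ) [Fact p.Prime] [CharP F p] (D : Cfsg.Lie.ChevalleyDatum) (hD : D ∈ [Cfsg.Lie.chevG2, Cfsg.Lie.chevB2, Cfsg.Lie.chevD4, Cfsg.Lie.chevF4, Cfsg.Lie.chevE6, Cfsg.Lie.chevE7, Cfsg.Lie.chevE8]) (g : ↥(D.group F)) (hg : ¬ p ∣ orderOf g) :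
    D.steinbergCharacter F g = ((p ^ (Nat.card ↥(Subgroup.centralizer ({g} : Set ↥(D.group F)))).factorization p : ℕ) : ℂ) ∨
      D.steinbergCharacter F g = -((p ^ (Nat.card ↥(Subgroup.centralizer ({g} : Set ↥(D.group F)))).factorization p : ℕ) : ℂ) := by
  obtain ⟨E⟩ := Cfsg.Agent.ChevGrp.DData.nonempty_of_mem hD
  have H := Cfsg.Agent.Chev.good_of_mem hD
  rw [Cfsg.Agent.H39.St.steinberg_eq E H]
  unfold Cfsg.Agent.H39.St.steinC
  rcases Cfsg.Agent.H39.St.stein_value (R := Cfsg.Agent.ChevGrp.chevG E H F) (Cfsg.Agent.ChevGrp.chevG_Grp E H)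
    (Cfsg.Agent.H39.St.isPGroup_U E H hD p) (Cfsg.Agent.H39.St.not_dvd_index_U E H hD p) hg with h | h
  · left; rw [h]; push_cast; rfl
  · right; rw [h]; push_cast; rfl

end Cfsg.Agent.S2312
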