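import Cfsg.Statements.S2315
import Cfsg.Agent.H39.PElt
import Cfsg.Agent.ClRG.SLp
import Cfsg.Agent.H4.CardSL
import Cfsg.Agent.S0263

set_option autoImplicit false
open Cfsg

namespace Cfsg.Agent.S2315

/-- Steinberg's count of unipotent elements for the general linear group: over a finite field with q elements of characteristic p, the number of elements of GL_n of p-power order (the unipotent matrices) is q^(n(n−1)). -/
theorem result {F : Type*} [Field F] [Fintype F] (p : ℕ) [Fact p.Prime] [CharP F p] (n : ℕ) :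
    Nat.card {g : Matrix.GeneralLinearGroup (Fin n) F // ∃ k : ℕ, orderOf g = p ^ k} = Fintype.card F ^ (n * (n - 1)) := by
  classical
  have hprime : p.Prime := Fact.out
  rcases n with _ | l
  · haveI : Subsingleton (Matrix.GeneralLinearGroup (Fin 0) F) := by
      constructor
      intro a b
      apply Units.ext
      exact Subsingleton.elim _ _
    haveI : Subsingleton {g : Matrix.GeneralLinearGroup (Fin 0) F // ∃ k : ℕ, orderOf g = p ^ k} := inferInstance
    rw [Nat.card_of_subsingleton (⟨1, 0, by rw [orderOf_one, pow_zero]⟩ :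
      {g : Matrix.GeneralLinearGroup (Fin 0) F // ∃ k : ℕ, orderOf g = p ^ k})]
    simp
  -- the elements are in SL
  let e : {g : Matrix.SpecialLinearGroup (Fin (l + 1)) F // ∃ k : ℕ, orderOf g = p ^ k} →
      {g : Matrix.GeneralLinearGroup (Fin (l + 1)) F // ∃ k : ℕ, orderOf g = p ^ k} :=
    fun g => ⟨Matrix.SpecialLinearGroup.toGL g.1, by
      obtain ⟨k, hk⟩ := g.2
      exact ⟨k, by rw [← hk]; exact orderOf_injective _ Matrix.SpecialLinearGroup.toGL_injective _⟩⟩
  have he : Function.Bijective e := by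
    constructor
    · intro a b hab
      exact Subtype.ext (Matrix.SpecialLinearGroup.toGL_injective (congrArg Subtype.val hab))
    · rintro ⟨g, k, hk⟩
      have hdet : (g : Matrix (Fin (l + 1)) (Fin (l + 1)) F).det = 1 := by
        have h1 : (g : Matrix (Fin (l + 1)) (Fin (l + 1)) F).det ^ p ^ k = 1 := by
          rw [← Matrix.det_pow, ← Units.val_pow_eq_pow_val, ← hk, pow_orderOf_eq_one, Units.val_one, Matrix.det_one]
        have h2 : ((g : Matrix (Fin (l + 1)) (Fin (l + 1)) F).det - 1) ^ p ^ k = 0 := by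
          rw [sub_pow_char_pow, one_pow, h1, sub_self]
        exact sub_eq_zero.1 (pow_eq_zero_iff (pow_ne_zero _ hprime.ne_zero) |>.1 h2)
      have h3 : Matrix.SpecialLinearGroup.toGL (⟨g, hdet⟩ : Matrix.SpecialLinearGroup (Fin (l + 1)) F) = g :=
        Units.ext rfl
      refine ⟨⟨⟨g, hdet⟩, k, ?_⟩, Subtype.ext h3⟩
      rw [← hk]
      conv_rhs => rw [← h3]
      exact (orderOf_injective _ Matrix.SpecialLinearGroup.toGL_injective _).symm
  rw [← Nat.card_congr (Equiv.ofBijective e he)]
  obtain ⟨P⟩ : Nonempty (Sylow p (Matrix.SpecialLinearGroup (Fin (l + 1)) F)) := inferInstance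
  obtain ⟨P'⟩ : Nonempty (Sylow p (Matrix.GeneralLinearGroup (Fin (l + 1)) F)) := inferInstance
  rw [Cfsg.Agent.H39.St.card_pelt_sylow (Cfsg.Agent.ClRG.rgSL l F) Cfsg.Agent.ClRG.rgSL_Grp
    (Cfsg.Agent.ClRG.isPGroup_U_SL p) (Cfsg.Agent.ClRG.not_dvd_H_SL p) P]
  have h1 : Nat.card P = Nat.card P' := by
    rw [show Nat.card P = Nat.card (P : Subgroup (Matrix.SpecialLinearGroup (Fin (l + 1)) F)) from rfl,
      show Nat.card P' = Nat.card (P' : Subgroup (Matrix.GeneralLinearGroup (Fin (l + 1)) F)) from rfl,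
      P.card_eq_multiplicity, P'.card_eq_multiplicity]
    congr 1
    have h6 : (Fintype.card F - 1).factorization p = 0 := by
      apply Nat.factorization_eq_zero_of_not_dvd
      intro h
      have h2 : p ∣ Fintype.card F := by
        obtain ⟨f, -, hq⟩ := FiniteField.card F p
        rw [hq]
        exact dvd_pow_self p f.ne_zero
      have h4 := (Nat.dvd_sub h2 h)
      rw [Nat.sub_sub_self Fintype.card_pos] at h4
      exact hprime.one_lt.ne' (Nat.dvd_one.mp h4)
    rw [← Cfsg.Agent.H4.card_SL_mul (F := F) (l + 1) (by omega), Nat.factorization_mul, Finsupp.add_apply,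
      h6, zero_add]
    · have := Fintype.one_lt_card (α := F)
      omega
    · exact Nat.card_pos.ne'
  rw [h1, Cfsg.Agent.S0263.result rfl p (l + 1) P', ← pow_mul]
  congr 1
  have h5 : Even ((l + 1) * (l + 1 - 1)) := by
    rw [Nat.add_sub_cancel, mul_comm]
    exact Nat.even_mul_succ_self l
  exact Nat.div_mul_cancel h5.two_dvd

end Cfsg.Agent.S2315
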