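import Cfsg.Statements.S2316
import Cfsg.Agent.H39.PElt
import Cfsg.Agent.ClBN.SpI
import Cfsg.Agent.ClassSp.Order

set_option autoImplicit false
open Cfsg

namespace Cfsg.Agent.S2316

/-- Steinberg's count of unipotent elements for the symplectic group: over a finite field with q elements of characteristic p, the number of elements of Sp_{2m} of p-power order is q^(2m²). -/
theorem result {F : Type*} [Field F] [Fintype F] (p : ℕ) [Fact p.Prime] [CharP F p] (m : ℕ) :
    Nat.card {g : ↥(Matrix.symplecticGroup (Fin m) F) // ∃ k : ℕ, orderOf g = p ^ k} = Fintype.card F ^ (2 * m ^ 2) := by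
  have hprime : p.Prime := Fact.out
  obtain ⟨P⟩ : Nonempty (Sylow p (Matrix.symplecticGroup (Fin m) F)) := inferInstance
  rw [Cfsg.Agent.H39.St.HasR.card_pelt (Cfsg.Agent.ClBN.hasR_Sp m p) P]
  have h1 : Nat.card P = Fintype.card F ^ (m ^ 2) := by
    obtain ⟨f, hpr, hq⟩ := FiniteField.card F p
    have hf : (f : ℕ) ≠ 0 := f.ne_zero
    have hprod : ¬ p ∣ ∏ i ∈ Finset.range m, (Fintype.card F ^ (2 * (i + 1)) - 1) := by
      rw [Prime.dvd_finsetProd_iff hprime.prime]
      rintro ⟨i, _, hdvd⟩
      have h2 : p ∣ Fintype.card F ^ (2 * (i + 1)) := by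
        rw [hq]
        exact dvd_pow (dvd_pow_self p hf) (by omega)
      have h3 : 1 ≤ Fintype.card F ^ (2 * (i + 1)) := Nat.one_le_pow _ _ Fintype.card_pos
      have h4 := (Nat.dvd_sub h2 hdvd)
      rw [Nat.sub_sub_self h3] at h4
      exact hprime.one_lt.ne' (Nat.dvd_one.mp h4)
    rw [show Nat.card P = Nat.card (P : Subgroup (Matrix.symplecticGroup (Fin m) F)) from rfl, P.card_eq_multiplicity,
      Cfsg.Agent.ClassSp.card_fin, Nat.factorization_mul, Finsupp.add_apply, Nat.factorization_eq_zero_of_not_dvd hprod,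
      add_zero, Nat.factorization_pow, Finsupp.smul_apply, hq, hprime.factorization_pow]
    · rw [Finsupp.single_eq_same, ← pow_mul, smul_eq_mul, mul_comm]
    · exact pow_ne_zero _ Fintype.card_pos.ne'
    · intro h0
      exact hprod (h0 ▸ dvd_zero p)
  rw [h1, ← pow_mul, mul_comm (m ^ 2) 2]

end Cfsg.Agent.S2316
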