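import Cfsg.Statements.S2317
import Cfsg.Agent.H43.OrderP

set_option autoImplicit false
open Cfsg

namespace Cfsg.Agent.S2317

open Matrix Cfsg.Agent.H43

theorem pow_pow_eq_one_iff_nil {F ν : Type*} [Field F] [Fintype ν] [DecidableEq ν] {p : ℕ} [Fact p.Prime] [CharP F p]
    (g : GL ν F) (k : ℕ) :
    g ^ p ^ k = 1 ↔ (Matrix.toLin' (g : Matrix ν ν F) - 1 : Module.End F (ν → F)) ^ p ^ k = 0 := by
  rcases isEmpty_or_nonempty ν with hν | hν
  · constructor
    · intro _
      exact Subsingleton.elim _ _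
    · intro _
      apply Units.ext
      exact Subsingleton.elim _ _
  have hcp : CharP (Matrix ν ν F) p := Matrix.charP p
  have h1 : (Matrix.toLin' (g : Matrix ν ν F) - 1 : Module.End F (ν → F)) ^ p ^ k =
      Matrix.toLin' ((g : Matrix ν ν F) ^ p ^ k - 1) := by
    rw [← toLin'_sub_one, ← Matrix.toLin'_pow, sub_pow_char_pow_of_commute p k (Commute.one_right _), one_pow]
  rw [h1, (Matrix.toLin' (R := F) (m := ν) (n := ν)).map_eq_zero_iff, sub_eq_zero, Units.ext_iff]
  rfl

theorem pelt_iff_nil {F ν : Type*} [Field F] [Fintype ν] [DecidableEq ν] {p : ℕ} [hp : Fact p.Prime] [CharP F p]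
    (g : GL ν F) :
    (∃ k : ℕ, orderOf g = p ^ k) ↔ IsNilpotent (Matrix.toLin' (g : Matrix ν ν F) - 1 : Module.End F (ν → F)) := by
  constructor
  · rintro ⟨k, hk⟩
    exact ⟨p ^ k, (pow_pow_eq_one_iff_nil g k).1 (by rw [← hk]; exact pow_orderOf_eq_one g)⟩
  · rintro ⟨m, hm⟩
    have h1 : (Matrix.toLin' (g : Matrix ν ν F) - 1 : Module.End F (ν → F)) ^ p ^ m = 0 := by
      have h2 : m ≤ p ^ m := (Nat.lt_pow_self hp.out.one_lt).le
      rw [← Nat.sub_add_cancel h2, pow_add, hm, mul_zero]
    have h2 := (pow_pow_eq_one_iff_nil g m).2 h1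
    obtain ⟨k, -, hk⟩ := (Nat.dvd_prime_pow hp.out).1 (orderOf_dvd_of_pow_eq_one h2)
    exact ⟨k, hk⟩

/-- Over a finite field of characteristic p, the conjugacy classes of GL_n consisting of elements of p-power order (the unipotent classes) are as many as the partitions of n. -/
theorem result {F : Type*} [Field F] [Fintype F] (p : ℕ) [Fact p.Prime] [CharP F p] (n : ℕ) :
    Nat.card {C : ConjClasses (Matrix.GeneralLinearGroup (Fin n) F) //
      ∃ g : Matrix.GeneralLinearGroup (Fin n) F, (∃ k : ℕ, orderOf g = p ^ k) ∧ ConjClasses.mk g = C} =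
      Fintype.card (Nat.Partition n) := by
  classical
  -- representing data
  have hrep : ∀ μ : Nat.Partition n, ∃ (t : ℕ) (d : Fin t → ℕ), Multiset.map d Finset.univ.val = μ.parts := by
    intro μ
    obtain ⟨l, hl⟩ := Quot.exists_rep μ.parts
    refine ⟨l.length, l.get, ?_⟩
    rw [Fin.univ_val_map, List.ofFn_get]
    exact hl
  choose t d hd using hrep
  have hsum : ∀ μ, ∑ k, d μ k = n := by
    intro μ
    rw [← μ.parts_sum, ← hd μ]
    rfl
  choose g b hb using fun μ => exists_gl_of_type F (d μ) (hsum μ)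
  have hcount : ∀ μ j, (Finset.univ.filter (fun k => d μ k = j)).card = μ.parts.count j := by
    intro μ j
    rw [← hd μ, Multiset.count_map]
    change Multiset.card _ = _
    congr 1
    rw [Finset.filter_val]
    refine Multiset.filter_congr ?_
    intro k _
    exact eq_comm
  have hgp : ∀ μ, ∃ k : ℕ, orderOf (g μ) = p ^ k := by
    intro μ
    rw [pelt_iff_nil]
    refine ⟨∑ k, d μ k, (hb μ).pow_zero _ fun k => ?_⟩
    exact Finset.single_le_sum (f := d μ) (fun _ _ => Nat.zero_le _) (Finset.mem_univ k)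
  rw [← Nat.card_eq_fintype_card]
  symm
  refine Nat.card_congr (Equiv.ofBijective (fun μ : Nat.Partition n =>
    (⟨ConjClasses.mk (g μ), g μ, hgp μ, rfl⟩ : {C : ConjClasses (Matrix.GeneralLinearGroup (Fin n) F) //
      ∃ g : Matrix.GeneralLinearGroup (Fin n) F, (∃ k : ℕ, orderOf g = p ^ k) ∧ ConjClasses.mk g = C})) ⟨?_, ?_⟩)
  · intro μ μ' h
    have h1 : ConjClasses.mk (g μ) = ConjClasses.mk (g μ') := congrArg Subtype.val h
    rw [ConjClasses.mk_eq_mk_iff_isConj] at h1
    apply Nat.Partition.ext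
    rw [Multiset.ext]
    intro j
    rcases Nat.eq_zero_or_pos j with rfl | hj
    · rw [Multiset.count_eq_zero_of_notMem, Multiset.count_eq_zero_of_notMem]
      · intro h2; exact absurd (μ'.parts_pos h2) (lt_irrefl 0)
      · intro h2; exact absurd (μ.parts_pos h2) (lt_irrefl 0)
    · rw [← hcount, ← hcount]
      exact JB_card_eq_of_isConj h1 (hb μ) (hb μ') j hj
  · rintro ⟨C, x, hx, rfl⟩
    rw [pelt_iff_nil] at hx
    obtain ⟨t', d', b', hd', hb'⟩ := exists_JB _ hx
    have hsum' : ∑ k, d' k = n := by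
      have h1 := Module.finrank_eq_card_basis b'
      rw [Module.finrank_fintype_fun_eq_card, Fintype.card_fin, Fintype.card_sigma] at h1
      simp only [Fintype.card_fin] at h1
      exact h1.symm
    let μ : Nat.Partition n := ⟨Multiset.map d' Finset.univ.val, by
      intro i hi
      rw [Multiset.mem_map] at hi
      obtain ⟨k, _, rfl⟩ := hi
      exact hd' k, hsum'⟩
    have hμ : ∀ j, (Finset.univ.filter (fun k => d' k = j)).card = μ.parts.count j := by
      intro j
      change _ = (Multiset.map d' Finset.univ.val).count j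
      rw [Multiset.count_map]
      change Multiset.card _ = _
      congr 1
      rw [Finset.filter_val]
      refine Multiset.filter_congr ?_
      intro k _
      exact eq_comm
    obtain ⟨σ, hσ⟩ := exists_equiv_of_card d' (d μ) (fun j => by rw [hμ, hcount])
    obtain ⟨b'', hb''⟩ := hb'.reindex σ hσ
    have hc : IsConj (g μ) x := isConj_of_JB (hb μ) hb''
    exact ⟨μ, Subtype.ext (ConjClasses.mk_eq_mk_iff_isConj.2 hc)⟩

end Cfsg.Agent.S2317
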