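import Cfsg.Statements.S2318
import Cfsg.Agent.H39.StDefCh
import Cfsg.Agent.H39.StDef0
import Cfsg.Agent.H39.StChevP
import Cfsg.Agent.Glaub.PGroup

set_option autoImplicit false
open Cfsg

namespace Cfsg.Agent.S2318

/-- In a Chevalley group of type G₂, B₂, D₄, F₄, E₆, E₇ or E₈ over a finite field of characteristic p (for types G₂ and B₂ the field is assumed to have at least 3 elements, so that the group is perfect), the Steinberg character is the only irreducible complex character whose degree is divisible by the full power of p dividing the group order (the only irreducible character of p-defect zero). -/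
theorem result {F : Type*} [Field F] [Fintype F] (p : ℕ) [Fact p.Prime] [CharP F p] (D : Cfsg.Lie.ChevalleyDatum) (hD : D ∈ [Cfsg.Lie.chevG2, Cfsg.Lie.chevB2, Cfsg.Lie.chevD4, Cfsg.Lie.chevF4, Cfsg.Lie.chevE6, Cfsg.Lie.chevE7, Cfsg.Lie.chevE8]) (hq : (D = Cfsg.Lie.chevG2 ∨ D = Cfsg.Lie.chevB2) → 3 ≤ Fintype.card F)
    (χ : ↥(D.group F) → ℂ) (hχ : Cfsg.IsIrrCharacter ↥(D.group F) χ)
    (hdeg : ∃ d : ℕ, χ 1 = (d : ℂ) ∧ p ^ (Nat.card ↥(D.group F)).factorization p ∣ d) :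
    χ = D.steinbergCharacter F := by
  classical
  obtain ⟨E⟩ := Cfsg.Agent.ChevGrp.DData.nonempty_of_mem hD
  have H := Cfsg.Agent.Chev.good_of_mem hD
  have hfin : Finite ↥(D.group F) := inferInstance
  have := Fintype.ofFinite ↥(D.group F)
  obtain ⟨d, hd, hdiv⟩ := hdeg
  have hT := Cfsg.Agent.ChevGrp.chevG_Grp E H (K := F)
  rw [Cfsg.Agent.H39.St.steinberg_eq E H]
  by_contra hne
  obtain ⟨M, hM⟩ := Cfsg.Agent.Glaub.exists_isPModular (p := p) (Fact.out)
  haveI := Cfsg.Agent.Blk.isPrime_of_isPModular hM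
  haveI := Cfsg.Agent.Blk.charP_kM hM
  have hSt := Cfsg.Agent.H39.St.isIrrCharacter_stein (R := Cfsg.Agent.ChevGrp.chevG E H F) hT
  have hSt1 : Cfsg.Agent.H39.St.steinC (Cfsg.Agent.ChevGrp.chevG E H F) 1 =
      ((Nat.card (Cfsg.Agent.ChevGrp.chevG E H F).U : ℕ) : ℂ) := by
    unfold Cfsg.Agent.H39.St.steinC
    rw [Cfsg.Agent.H39.St.stein_one hT]; simp
  have hdiv' : p ^ (Nat.card ↥(D.group F)).factorization p ∣ Nat.card (Cfsg.Agent.ChevGrp.chevG E H F).U := by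
    rw [Cfsg.Agent.H39.St.factorization_card E H hD p]
  obtain ⟨a1, a2, a3, a4⟩ := Cfsg.Agent.H39.St.redc_Ec hM hχ hd hdiv
  obtain ⟨b1, b2, b3, b4⟩ := Cfsg.Agent.H39.St.redc_Ec hM hSt hSt1 hdiv'
  exact Cfsg.Agent.H39.St.mul_ne_zero_of_defect_zero (Cfsg.Agent.H39.St.torData E H hD F) hT
    (Cfsg.Agent.H39.St.isPGroup_U E H hD p) a1 b1 a2 b2 a3 b3 a4 b4
    (Cfsg.Agent.H39.St.redc_Ec_mul hM hχ hSt hd hSt1 hdiv hdiv' hne)

end Cfsg.Agent.S2318
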