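import Cfsg.Statements.S2319
import Cfsg.Agent.H39.HeckeCon
import Cfsg.Agent.H39.PrinValues
import Cfsg.Agent.ChevGrp.Types

set_option autoImplicit false
open Cfsg

namespace Cfsg.Agent.S2319

/-- In a Chevalley group of type G₂, B₂, D₄, F₄, E₆, E₇ or E₈ over a finite field, the number of distinct irreducible constituents of the permutation character on the cosets of B = UH equals the number of conjugacy classes (equivalently, of irreducible characters) of the Weyl group, the Coxeter group of the type with nodes numbered as the fundamental roots. -/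
theorem result {F : Type*} [Field F] [Fintype F]
    (dw : Cfsg.Lie.ChevalleyDatum × (Σ n : ℕ, CoxeterMatrix (Fin n)))
    (hdw : dw ∈ [(Cfsg.Lie.chevG2, ⟨2, CoxeterMatrix.G₂⟩), (Cfsg.Lie.chevB2, ⟨2, CoxeterMatrix.B 2⟩), (Cfsg.Lie.chevD4, ⟨4, Cfsg.Lie.coxeterD4⟩), (Cfsg.Lie.chevF4, ⟨4, CoxeterMatrix.F₄⟩),
      (Cfsg.Lie.chevE6, ⟨6, CoxeterMatrix.E₆⟩), (Cfsg.Lie.chevE7, ⟨7, CoxeterMatrix.E₇⟩), (Cfsg.Lie.chevE8, ⟨8, CoxeterMatrix.E₈⟩)]) :
    Nat.card {χ : Cfsg.IrrCharacter ↥(dw.1.group F) //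
      ∃ φ : ↥(dw.1.group F) → ℂ, Cfsg.IsCharacter ↥(dw.1.group F) φ ∧
        Cfsg.fixedPointCharacter ((dw.1.borelSubgroup F).subgroupOf (dw.1.group F)) = (χ : ↥(dw.1.group F) → ℂ) + φ} =
      Nat.card (ConjClasses dw.2.2.Group) := by
  classical
  have key : ∀ (D : Cfsg.Lie.ChevalleyDatum) (M : CoxeterMatrix (Fin D.rank)) (E : Cfsg.Agent.ChevGrp.DData D)
      (_ : Cfsg.Agent.Chev.Good D) (_ : Cfsg.Agent.ChevWeyl.CoxData E.rp M),
      Nat.card {χ : Cfsg.IrrCharacter ↥(D.group F) //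
        ∃ φ : ↥(D.group F) → ℂ, Cfsg.IsCharacter ↥(D.group F) φ ∧
          Cfsg.fixedPointCharacter ((D.borelSubgroup F).subgroupOf (D.group F)) = (χ : ↥(D.group F) → ℂ) + φ} =
        Nat.card (ConjClasses M.Group) := by
    intro D M E H C
    have := Fintype.ofFinite (D.group F)
    rw [Cfsg.Agent.H39.Hecke.card_constituents E H (Cfsg.Agent.H39.fixedPointCharacter_eq _)]
    exact (Cfsg.Agent.H39.Hecke.card_conjClasses_congr (C.equiv M.toCoxeterSystem)).symm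
  simp only [List.mem_cons, List.not_mem_nil, or_false] at hdw
  rcases hdw with rfl | rfl | rfl | rfl | rfl | rfl | rfl
  · obtain ⟨E⟩ := Cfsg.Agent.ChevGrp.DData.nonempty_of_mem (D := Cfsg.Lie.chevG2) (by simp)
    exact key _ _ E (Cfsg.Agent.Chev.good_of_mem (by simp)) (Cfsg.Agent.ChevGrp.coxd_G2 E)
  · obtain ⟨E⟩ := Cfsg.Agent.ChevGrp.DData.nonempty_of_mem (D := Cfsg.Lie.chevB2) (by simp)
    exact key _ _ E (Cfsg.Agent.Chev.good_of_mem (by simp)) (Cfsg.Agent.ChevGrp.coxd_B2 E)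
  · obtain ⟨E⟩ := Cfsg.Agent.ChevGrp.DData.nonempty_of_mem (D := Cfsg.Lie.chevD4) (by simp)
    exact key _ _ E (Cfsg.Agent.Chev.good_of_mem (by simp)) (Cfsg.Agent.ChevGrp.coxd_D4 E)
  · obtain ⟨E⟩ := Cfsg.Agent.ChevGrp.DData.nonempty_of_mem (D := Cfsg.Lie.chevF4) (by simp)
    exact key _ _ E (Cfsg.Agent.Chev.good_of_mem (by simp)) (Cfsg.Agent.ChevGrp.coxd_F4 E)
  · obtain ⟨E⟩ := Cfsg.Agent.ChevGrp.DData.nonempty_of_mem (D := Cfsg.Lie.chevE6) (by simp)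
    exact key _ _ E (Cfsg.Agent.Chev.good_of_mem (by simp)) (Cfsg.Agent.ChevGrp.coxd_E6 E)
  · obtain ⟨E⟩ := Cfsg.Agent.ChevGrp.DData.nonempty_of_mem (D := Cfsg.Lie.chevE7) (by simp)
    exact key _ _ E (Cfsg.Agent.Chev.good_of_mem (by simp)) (Cfsg.Agent.ChevGrp.coxd_E7 E)
  · obtain ⟨E⟩ := Cfsg.Agent.ChevGrp.DData.nonempty_of_mem (D := Cfsg.Lie.chevE8) (by simp)
    exact key _ _ E (Cfsg.Agent.Chev.good_of_mem (by simp)) (Cfsg.Agent.ChevGrp.coxd_E8 E)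

end Cfsg.Agent.S2319
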