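import Cfsg.Statements.S2320
import Cfsg.Agent.H39.PrinGL

set_option autoImplicit false
open Cfsg

namespace Cfsg.Agent.S2320

open Cfsg.Agent.H39 Cfsg.Agent.Char Cfsg.Agent.CharBase Matrix
open scoped ComplexConjugate

/-- Over a finite field F with q elements, every irreducible complex character of GL₂ of degree q takes a value of absolute value 1 at every diagonal matrix with two different diagonal entries and at every element with no eigenvector in F². -/
theorem result {F : Type*} [Field F] [Fintype F] (χ : Matrix.GeneralLinearGroup (Fin 2) F → ℂ) (hχ : Cfsg.IsIrrCharacter (Matrix.GeneralLinearGroup (Fin 2) F) χ) (hdeg : χ 1 = (Fintype.card F : ℂ)) (g : Matrix.GeneralLinearGroup (Fin 2) F) :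
    ((g : Matrix (Fin 2) (Fin 2) F) 0 1 = 0 → (g : Matrix (Fin 2) (Fin 2) F) 1 0 = 0 → (g : Matrix (Fin 2) (Fin 2) F) 0 0 ≠ (g : Matrix (Fin 2) (Fin 2) F) 1 1 → ‖χ g‖ = 1) ∧
    ((∀ (c : F) (v : Fin 2 → F), v ≠ 0 → (g : Matrix (Fin 2) (Fin 2) F).mulVec v ≠ c • v) → ‖χ g‖ = 1) := by
  classical
  have hq1 : 1 < Fintype.card F := Fintype.one_lt_card
  have hcast : ∀ a b : ℕ, (a : ℂ) = b → a = b := fun a b h => by exact_mod_cast h
  by_cases h0 : ∑ x : F, χ (uG x) = 0
  · exfalso
    obtain ⟨e, he1, he3, he2⟩ := cuspGL hχ h0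
    obtain ⟨n, hn⟩ : ∃ n, Fintype.card F = n + 2 := ⟨Fintype.card F - 2, by omega⟩
    rw [hn] at he1 he2 hdeg
    rw [hdeg] at he1
    have h2 : n + 2 = e * (n + 1) := by
      apply hcast
      push_cast at he1 ⊢
      linear_combination he1
    have h3 : e ≤ 2 := by nlinarith
    interval_cases e
    · omega
    · omega
    · have : n = 0 := by omega
      subst this
      omega
  · rcases prinGL_cases hχ h0 with ⟨α, β, rfl⟩ | ⟨α, rfl⟩ | ⟨α, rfl⟩
    · exfalso
      rw [pGL_one] at hdeg
      have : (1 : ℂ) = 0 := by linear_combination hdeg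
      norm_num at this
    · exfalso
      rw [map_one] at hdeg
      have h2 : ((1 : ℕ) : ℂ) = (Fintype.card F : ℂ) := by push_cast; linear_combination hdeg
      have := hcast _ _ h2
      omega
    · have hdet := (Matrix.isUnits_det_units g).ne_zero
      refine ⟨fun h01 h10 hne => ?_, fun hg => ?_⟩
      · rw [Pi.sub_apply, pGL, (frameGL F).prin_split α α g h01 h10 hne]
        have h1 : detHom α g = α ((g : Matrix (Fin 2) (Fin 2) F) 0 0) * α ((g : Matrix (Fin 2) (Fin 2) F) 1 1) := by
          show α (g : Matrix (Fin 2) (Fin 2) F).det = _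
          rw [Matrix.det_fin_two, h10, mul_zero, sub_zero, map_mul]
        have h2 : detHom α g = α (g : Matrix (Fin 2) (Fin 2) F).det := rfl
        have h3 : mt (MonoidHom.id (GL (Fin 2) F)) g = (g : Matrix (Fin 2) (Fin 2) F) := rfl
        rw [h3]
        have h4 : α ((g : Matrix (Fin 2) (Fin 2) F) 0 0) * α ((g : Matrix (Fin 2) (Fin 2) F) 1 1) +
            α ((g : Matrix (Fin 2) (Fin 2) F) 1 1) * α ((g : Matrix (Fin 2) (Fin 2) F) 0 0) - detHom α g =
            α (g : Matrix (Fin 2) (Fin 2) F).det := by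
          rw [← h2, h1]; ring
        rw [h4]
        exact norm_mulChar α hdet
      · rw [Pi.sub_apply, pGL, (frameGL F).prin_elliptic α α g hg, zero_sub, norm_neg]
        exact norm_mulChar α hdet

end Cfsg.Agent.S2320
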