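import Cfsg.Statements.S2321
import Cfsg.Agent.H39.UniSL

set_option autoImplicit false
open Cfsg

namespace Cfsg.Agent.S2321

open Cfsg.Agent.H39 Cfsg.Agent.Char Cfsg.Agent.CharBase Matrix
open scoped ComplexConjugate

/-- Over a finite field F with q elements, an irreducible complex character of SL₂ of degree q (the Steinberg character) takes the value 1 at every diagonal matrix whose diagonal entry a has a² ≠ 1, the value −1 at every element with no eigenvector in F², and the value 0 at every upper triangular matrix with equal diagonal entries and non-zero upper right entry. -/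
theorem result {F : Type*} [Field F] [Fintype F] (χ : Matrix.SpecialLinearGroup (Fin 2) F → ℂ) (hχ : Cfsg.IsIrrCharacter (Matrix.SpecialLinearGroup (Fin 2) F) χ) (hdeg : χ 1 = (Fintype.card F : ℂ)) (g : Matrix.SpecialLinearGroup (Fin 2) F) :
    ((g : Matrix (Fin 2) (Fin 2) F) 0 1 = 0 → (g : Matrix (Fin 2) (Fin 2) F) 1 0 = 0 → (g : Matrix (Fin 2) (Fin 2) F) 0 0 ^ 2 ≠ 1 → χ g = 1) ∧
    ((∀ (c : F) (v : Fin 2 → F), v ≠ 0 → (g : Matrix (Fin 2) (Fin 2) F).mulVec v ≠ c • v) → χ g = -1) ∧
    ((g : Matrix (Fin 2) (Fin 2) F) 1 0 = 0 → (g : Matrix (Fin 2) (Fin 2) F) 0 0 = (g : Matrix (Fin 2) (Fin 2) F) 1 1 → (g : Matrix (Fin 2) (Fin 2) F) 0 1 ≠ 0 → χ g = 0) := by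
  classical
  have hq1 : 1 < Fintype.card F := Fintype.one_lt_card
  have hcast : ∀ a b : ℕ, (a : ℂ) = b → a = b := fun a b h => by exact_mod_cast h
  have hcl := isClassFunction_of_isCharacter (isCharacter_of_isIrr hχ)
  have h0 : ∑ x : F, χ (uSL x) ≠ 0 := by
    intro h0
    by_cases hF : ringChar F = 2
    · have h2 : (2 : F) = 0 := by
        have := ringChar.Nat.cast_ringChar (R := F)
        rw [hF] at this
        exact_mod_cast this
      obtain ⟨e, he1, he3, he2⟩ := even_data h2 hχ h0
      obtain ⟨n, hn⟩ : ∃ n, Fintype.card F = n + 2 := ⟨Fintype.card F - 2, by omega⟩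
      rw [hn] at he1 he2 hdeg
      rw [hdeg] at he1
      have h2 : n + 2 = e * (n + 1) := by
        apply hcast
        push_cast at he1 ⊢
        linear_combination he1
      have h3 : e ≤ 2 := by nlinarith
      interval_cases e
      · omega
      · omega
      · have : n = 0 := by omega
        subst this
        omega
    · obtain ⟨ν, hν⟩ := FiniteField.exists_nonsquare hF
      obtain ⟨ψ, hψ⟩ := exists_primitive F
      choose m hm using (frameSL F).hat_nat (isCharacter_of_isIrr hχ) ψ
      have hm0 : m 0 = 0 := by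
        have h1 := mult_zero hm
        rw [h0] at h1
        have h3 := (mul_eq_zero.1 h1.symm).resolve_left (card_ne F)
        exact_mod_cast h3
      have hodd := FiniteField.odd_card_of_char_ne_two hF
      obtain ⟨k, hk⟩ : ∃ k, Fintype.card F = 2 * k + 1 := ⟨Fintype.card F / 2, by omega⟩
      have hk0 : 0 < k := by omega
      obtain ⟨hd, hb⟩ := bound_odd hF hχ hψ hm hν hk hk0 hm0
      rw [hdeg, hk] at hd
      exact (num_odd hk0 hb).1 (hcast _ _ hd).symm
  rcases prinSL_cases hχ h0 with ⟨α, rfl⟩ | rfl | rfl | ⟨α, χ₁, χ₂, hα, hα1, hne, hadd, rfl⟩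
  · exfalso
    rw [pSL_one] at hdeg
    have : (1 : ℂ) = 0 := by linear_combination hdeg
    norm_num at this
  · exfalso
    have h2 : ((1 : ℕ) : ℂ) = (Fintype.card F : ℂ) := by push_cast; linear_combination hdeg
    have := hcast _ _ h2
    omega
  · have hone : ∀ {a : F}, a ≠ 0 → (1 : MulChar F ℂ) a = 1 := fun ha => MulChar.one_apply (IsUnit.mk0 _ ha)
    have hdet : (g : Matrix (Fin 2) (Fin 2) F) 0 0 * (g : Matrix (Fin 2) (Fin 2) F) 1 1 -
        (g : Matrix (Fin 2) (Fin 2) F) 0 1 * (g : Matrix (Fin 2) (Fin 2) F) 1 0 = 1 := by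
      have h1 : (g : Matrix (Fin 2) (Fin 2) F).det = 1 := g.2
      rwa [Matrix.det_fin_two] at h1
    refine ⟨fun h01 h10 hne => ?_, fun hg => ?_, fun h10 he h01 => ?_⟩
    · have hB : g ∈ B2 (inSL F) := by rw [mem_B2]; exact h10
      obtain ⟨e1, e2⟩ := mt_diag_ne_zero hB
      rw [Pi.sub_apply, pSL, (frameSL F).prin_split 1 1 g h01 h10 ?_, hone e1, hone e2]
      · norm_num
      · intro heq
        apply hne
        have heq' : (g : Matrix (Fin 2) (Fin 2) F) 0 0 = (g : Matrix (Fin 2) (Fin 2) F) 1 1 := heq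
        rw [h10, ← heq'] at hdet
        linear_combination hdet
    · rw [Pi.sub_apply, pSL, (frameSL F).prin_elliptic 1 1 g hg]
      norm_num
    · have hB : g ∈ B2 (inSL F) := by rw [mem_B2]; exact h10
      obtain ⟨e1, e2⟩ := mt_diag_ne_zero hB
      rw [Pi.sub_apply, pSL, (frameSL F).prin_uni 1 1 g h10 h01 he, hone e1, hone e2]
      norm_num
  · exfalso
    obtain ⟨d1, -⟩ := halves_degree hα1 hne hadd
    rw [hdeg] at d1
    have h2 : (Fintype.card F : ℂ) = ((1 : ℕ) : ℂ) := by push_cast; linear_combination d1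
    have := hcast _ _ h2
    omega

end Cfsg.Agent.S2321
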