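import Cfsg.Statements.S2323
import Cfsg.Agent.H39.UniSL

set_option autoImplicit false
open Cfsg

namespace Cfsg.Agent.S2323

open Cfsg.Agent.H39 Cfsg.Agent.Char Cfsg.Agent.CharBase Matrix
open scoped ComplexConjugate

/-- Over a finite field F with q ≥ 4 elements, let u be the upper unitriangular matrix of SL₂ with off-diagonal entry 1. An irreducible complex character of SL₂ takes at u the value 1 if its degree is q + 1 and the value −1 if its degree is q − 1. -/
theorem result {F : Type*} [Field F] [Fintype F] (hq : 4 ≤ Fintype.card F) (χ : Matrix.SpecialLinearGroup (Fin 2) F → ℂ) (hχ : Cfsg.IsIrrCharacter (Matrix.SpecialLinearGroup (Fin 2) F) χ)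
    (u : Matrix.SpecialLinearGroup (Fin 2) F) (hu : (u : Matrix (Fin 2) (Fin 2) F) = !![1, 1; 0, 1]) :
    (χ 1 = (Fintype.card F : ℂ) + 1 → χ u = 1) ∧ (χ 1 = (Fintype.card F : ℂ) - 1 → χ u = -1) := by
  classical
  have hq1 : 1 < Fintype.card F := Fintype.one_lt_card
  have hcast : ∀ a b : ℕ, (a : ℂ) = b → a = b := fun a b h => by exact_mod_cast h
  have hcl := isClassFunction_of_isCharacter (isCharacter_of_isIrr hχ)
  have hu' : u = uSL 1 := Subtype.ext hu
  subst hu'
  by_cases h0 : ∑ x : F, χ (uSL x) = 0
  · by_cases hF : ringChar F = 2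
    · have h2 : (2 : F) = 0 := by
        have := ringChar.Nat.cast_ringChar (R := F)
        rw [hF] at this
        exact_mod_cast this
      obtain ⟨e, he1, he3, he2⟩ := even_data h2 hχ h0
      obtain ⟨n, hn⟩ : ∃ n, Fintype.card F = n + 4 := ⟨Fintype.card F - 4, by omega⟩
      rw [hn] at he1 he2 ⊢
      refine ⟨fun hd => ?_, fun hd => ?_⟩
      · exfalso
        rw [hd] at he1
        have h2 : n + 5 = e * (n + 3) := by
          apply hcast
          push_cast at he1 ⊢
          linear_combination he1
        have h3 : e ≤ 1 := by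
          by_contra hc
          have : 2 * (n + 3) ≤ e * (n + 3) := Nat.mul_le_mul_right _ (by omega)
          omega
        interval_cases e <;> omega
      · rw [hd] at he1
        have h2 : 1 * (n + 3) = e * (n + 3) := by
          apply hcast
          push_cast at he1 ⊢
          linear_combination he1
        have h3 : 1 = e := Nat.eq_of_mul_eq_mul_right (by omega) h2
        rw [he3, ← h3]
        norm_num
    · obtain ⟨ν, hν⟩ := FiniteField.exists_nonsquare hF
      obtain ⟨ψ, hψ⟩ := exists_primitive F
      choose m hm using (frameSL F).hat_nat (isCharacter_of_isIrr hχ) ψ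
      have hm0 : m 0 = 0 := by
        have h1 := mult_zero hm
        rw [h0] at h1
        have h3 := (mul_eq_zero.1 h1.symm).resolve_left (card_ne F)
        exact_mod_cast h3
      have hodd := FiniteField.odd_card_of_char_ne_two hF
      obtain ⟨k, hk⟩ : ∃ k, Fintype.card F = 2 * k + 1 := ⟨Fintype.card F / 2, by omega⟩
      have hk0 : 0 < k := by omega
      obtain ⟨hd', hb⟩ := bound_odd hF hχ hψ hm hν hk hk0 hm0
      obtain ⟨-, n2, -, n4, -⟩ := num_odd hk0 hb
      rw [hk]
      refine ⟨fun hd => ?_, fun hd => ?_⟩
      · exfalso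
        apply n2
        apply hcast
        rw [← hd', hd]
        push_cast
        ring
      · obtain ⟨a1, b1⟩ := n4 (hcast _ _ (by rw [← hd', hd]; push_cast; ring))
        rw [(value_odd hF hcl hψ hm hν).2 1 one_ne_zero, hm0, a1, b1]
        norm_num
  · rcases prinSL_cases hχ h0 with ⟨α, rfl⟩ | rfl | rfl | ⟨α, χ₁, χ₂, hα, hα1, hne, hadd, rfl⟩
    · rw [pSL_one, pSL_u α one_ne_zero]
      refine ⟨fun _ => rfl, fun hd => ?_⟩
      exfalso
      have : (2 : ℂ) = 0 := by linear_combination hd
      norm_num at this
    · refine ⟨fun _ => rfl, fun hd => ?_⟩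
      exfalso
      have h2 : ((2 : ℕ) : ℂ) = (Fintype.card F : ℂ) := by push_cast; linear_combination hd
      have := hcast _ _ h2
      omega
    · rw [Pi.sub_apply, pSL_one]
      refine ⟨fun hd => ?_, fun hd => ?_⟩
      · exfalso
        have : (1 : ℂ) = 0 := by linear_combination -hd
        norm_num at this
      · exfalso
        have : (1 : ℂ) = 0 := by linear_combination hd
        norm_num at this
    · obtain ⟨d1, -⟩ := halves_degree hα1 hne hadd
      refine ⟨fun hd => ?_, fun hd => ?_⟩
      · exfalso
        rw [hd] at d1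
        have h2 : ((2 * Fintype.card F + 2 : ℕ) : ℂ) = ((Fintype.card F + 1 : ℕ) : ℂ) := by push_cast; linear_combination d1
        have := hcast _ _ h2
        omega
      · exfalso
        rw [hd] at d1
        have h2 : ((2 * Fintype.card F : ℕ) : ℂ) = ((Fintype.card F + 3 : ℕ) : ℂ) := by push_cast; linear_combination d1
        have := hcast _ _ h2
        omega

end Cfsg.Agent.S2323
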