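import Cfsg.Statements.S2324
import Cfsg.Agent.H39.UniSL
import Cfsg.Agent.CharBase.Column

set_option autoImplicit false
open Cfsg

namespace Cfsg.Agent.S2324

open Cfsg.Agent.H39 Cfsg.Agent.Char Cfsg.Agent.CharBase Matrix
open scoped ComplexConjugate

section
variable {F : Type*} [Field F] [Fintype F] [DecidableEq F]

theorem eta_unique (hF : ringChar F ≠ 2) {α : MulChar F ℂ} (h : α * α = 1) (h1 : α ≠ 1) : α = eta F := by
  have hsq : ∀ a : F, a ≠ 0 → α a * α a = 1 := by
    intro a ha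
    rw [← MulChar.mul_apply, h, MulChar.one_apply (IsUnit.mk0 a ha)]
  obtain ⟨b, hb⟩ := MulChar.ne_one_iff.1 h1
  have hb1 : α b = -1 := by
    have := hsq b b.ne_zero
    have h2 : (α b - 1) * (α b + 1) = 0 := by linear_combination this
    rcases mul_eq_zero.1 h2 with h3 | h3
    · exact absurd (by linear_combination h3) hb
    · linear_combination h3
  have hbs : ¬ IsSquare (b : F) := by
    rintro ⟨c, hc⟩
    have hc0 : c ≠ 0 := by
      rintro rfl
      exact b.ne_zero (by rw [hc, mul_zero])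
    apply hb
    rw [hc, map_mul, hsq c hc0]
  ext a
  by_cases ha : IsSquare (a : F)
  · obtain ⟨c, hc⟩ := ha
    have hc0 : c ≠ 0 := by
      rintro rfl
      exact a.ne_zero (by rw [hc, mul_zero])
    rw [hc, map_mul, hsq c hc0, map_mul, eta_sq_one hc0]
  · have h2 : IsSquare ((a : F) * b) := by
      rw [← quadraticChar_one_iff_isSquare (mul_ne_zero a.ne_zero b.ne_zero), map_mul,
        quadraticChar_neg_one_iff_not_isSquare.2 ha, quadraticChar_neg_one_iff_not_isSquare.2 hbs]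
      norm_num
    obtain ⟨c, hc⟩ := h2
    have hc0 : c ≠ 0 := by
      rintro rfl
      rw [mul_zero] at hc
      exact mul_ne_zero a.ne_zero b.ne_zero hc
    have h3 : α a * α b = 1 := by rw [← map_mul, hc, map_mul, hsq c hc0]
    rw [hb1] at h3
    rw [eta_apply, quadraticChar_neg_one_iff_not_isSquare.2 ha]
    push_cast
    linear_combination -h3

/-- multiplicities of the small characters -/
theorem type_small (hF : ringChar F ≠ 2) {k : ℕ} (hk : Fintype.card F = 2 * k + 1) (hk2 : 2 ≤ k)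
    {χ : SpecialLinearGroup (Fin 2) F → ℂ} (hχ : IsIrrCharacter (SpecialLinearGroup (Fin 2) F) χ)
    {ψ : AddChar F ℂ} (hψ : ψ.IsPrimitive) {m : F → ℕ} (hm : ∀ a, hatC ψ (fun x => χ (uSL x)) a = m a)
    {ν : F} (hν : ¬ IsSquare ν) :
    (χ 1 = (k + 1 : ℕ) → m 0 = 1 ∧ m 1 + m ν = 1 ∧ ∃ χ₁ χ₂ : IrrCharacter (SpecialLinearGroup (Fin 2) F), χ₁ ≠ χ₂ ∧
      pSL (eta F) = (χ₁ : SpecialLinearGroup (Fin 2) F → ℂ) + (χ₂ : SpecialLinearGroup (Fin 2) F → ℂ) ∧ χ = χ₁) ∧
    (χ 1 = (k : ℕ) → m 0 = 0 ∧ m 1 + m ν = 1) := by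
  have hcast : ∀ a b : ℕ, (a : ℂ) = b → a = b := fun a b h => by exact_mod_cast h
  have hcl := isClassFunction_of_isCharacter (isCharacter_of_isIrr hχ)
  have hk0 : 0 < k := by omega
  by_cases h0 : ∑ x : F, χ (uSL x) = 0
  · have hm0 : m 0 = 0 := by
      have h1 := mult_zero hm
      rw [h0] at h1
      have h3 := (mul_eq_zero.1 h1.symm).resolve_left (card_ne F)
      exact_mod_cast h3
    obtain ⟨hd', hb⟩ := bound_odd hF hχ hψ hm hν hk hk0 hm0
    obtain ⟨-, -, n3, -, n5⟩ := num_odd hk0 hb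
    refine ⟨fun hd => ?_, fun hd => ?_⟩
    · exfalso
      have := (n3 (hcast _ _ (by rw [← hd', hd]))).1
      omega
    · have := n5 (hcast _ _ (by rw [← hd', hd]))
      omega
  · rcases prinSL_cases hχ h0 with ⟨α, rfl⟩ | rfl | rfl | ⟨α, χ₁, χ₂, hα, hα1, hne, hadd, rfl⟩
    · rw [pSL_one, hk]
      refine ⟨fun hd => ?_, fun hd => ?_⟩
      · exfalso
        have h4 : ((2 * k + 2 : ℕ) : ℂ) = ((k + 1 : ℕ) : ℂ) := by push_cast at hd ⊢; linear_combination hd
        have := hcast _ _ h4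
        omega
      · exfalso
        have h4 : ((2 * k + 2 : ℕ) : ℂ) = ((k : ℕ) : ℂ) := by push_cast at hd ⊢; linear_combination hd
        have := hcast _ _ h4
        omega
    · refine ⟨fun hd => ?_, fun hd => ?_⟩
      · exfalso
        have h4 : ((1 : ℕ) : ℂ) = ((k + 1 : ℕ) : ℂ) := by push_cast at hd ⊢; linear_combination hd
        have := hcast _ _ h4
        omega
      · exfalso
        have h4 : ((1 : ℕ) : ℂ) = ((k : ℕ) : ℂ) := by push_cast at hd ⊢; linear_combination hd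
        have := hcast _ _ h4
        omega
    · rw [Pi.sub_apply, pSL_one, hk]
      refine ⟨fun hd => ?_, fun hd => ?_⟩
      · exfalso
        have h4 : ((2 * k + 1 : ℕ) : ℂ) = ((k + 1 : ℕ) : ℂ) := by push_cast at hd ⊢; linear_combination hd
        have := hcast _ _ h4
        omega
      · exfalso
        have h4 : ((2 * k + 1 : ℕ) : ℂ) = ((k : ℕ) : ℂ) := by push_cast at hd ⊢; linear_combination hd
        have := hcast _ _ h4
        omega
    · obtain ⟨d1, -⟩ := halves_degree hα1 hne hadd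
      rw [hk] at d1
      refine ⟨fun hd => ?_, fun hd => ?_⟩
      · have hαe := eta_unique hF hα hα1
        subst hαe
        have hin : ∀ χ : IrrCharacter (SpecialLinearGroup (Fin 2) F), (χ = χ₁ ∨ χ = χ₂) →
            classInner (χ : SpecialLinearGroup (Fin 2) F → ℂ) (pSL (eta F)) = 1 := by
          intro χ hχ
          classical
          rw [hadd, classInner_add_right, classInner_irr, classInner_irr]
          rcases hχ with rfl | rfl
          · rw [if_pos rfl, if_neg hne, add_zero]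
          · rw [if_neg hne.symm, if_pos rfl, zero_add]
        choose m₂ hm₂ using (frameSL F).hat_nat (irr_isCharacter χ₂) ψ
        have hpos : ∀ (χ : IrrCharacter (SpecialLinearGroup (Fin 2) F)) (m : F → ℕ) (hm : ∀ a, hatC ψ (fun x => (χ : SpecialLinearGroup (Fin 2) F → ℂ) (uSL x)) a = m a),
            (χ = χ₁ ∨ χ = χ₂) → 1 ≤ m 0 := by
          intro χ m hm hχ
          by_contra hc
          have h0 : m 0 = 0 := by omega
          have h1 := hm 0
          rw [h0] at h1
          simp only [hatC, zero_mul, AddChar.map_zero_eq_one, map_one, mul_one, Nat.cast_zero, mul_eq_zero, inv_eq_zero] at h1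
          have h2 := h1.resolve_left (card_ne F)
          refine sum_ne_zero_of_pSL (irr_isCharacter χ) (α := eta F) ?_ h2
          rw [hin χ hχ]
          exact one_ne_zero
        have p1 := hpos χ₁ m hm (Or.inl rfl)
        have p2 := hpos χ₂ m₂ hm₂ (Or.inr rfl)
        have hsum : m 0 + m₂ 0 = 2 := by
          have h1 := hat_pSL hψ (eta F) 0
          rw [hadd] at h1
          have h2 : hatC ψ (fun x => ((χ₁ : SpecialLinearGroup (Fin 2) F → ℂ) + (χ₂ : SpecialLinearGroup (Fin 2) F → ℂ)) (uSL x)) 0 =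
              hatC ψ (fun x => (χ₁ : SpecialLinearGroup (Fin 2) F → ℂ) (uSL x)) 0 + hatC ψ (fun x => (χ₂ : SpecialLinearGroup (Fin 2) F → ℂ) (uSL x)) 0 := by
            simp only [hatC, Pi.add_apply, add_mul, Finset.sum_add_distrib, mul_add]
          rw [h2, hm, hm₂, if_pos rfl] at h1
          exact_mod_cast h1
        have hm0 : m 0 = 1 := by omega
        refine ⟨hm0, ?_, χ₁, χ₂, hne, hadd, rfl⟩
        have h5 := (value_odd hF hcl hψ hm hν).1
        rw [hd, hm0, hk] at h5
        have h6 : k + 1 = 1 + (m 1 + m ν) * k := by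
          apply hcast
          push_cast at h5 ⊢
          linear_combination h5
        have h7 : (m 1 + m ν) * k = 1 * k := by omega
        exact Nat.eq_of_mul_eq_mul_right hk0 h7
      · exfalso
        rw [hd] at d1
        have h4 : ((2 * k : ℕ) : ℂ) = ((2 * k + 2 : ℕ) : ℂ) := by push_cast at d1 ⊢; linear_combination d1
        have := hcast _ _ h4
        omega

theorem gauss_sq (hF : ringChar F ≠ 2) {ψ : AddChar F ℂ} (hψ : ψ.IsPrimitive) :
    gaussSum (eta F) ψ ^ 2 = (-1 : ℂ) ^ ((Fintype.card F - 1) / 2) * (Fintype.card F : ℂ) := by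
  have hodd := FiniteField.odd_card_of_char_ne_two hF
  have hquad : (eta F).IsQuadratic := (quadraticChar_isQuadratic F).comp _
  rw [gaussSum_sq (eta_ne_one hF) hquad hψ, eta_apply, quadraticChar_neg_one hF, ZMod.χ₄_eq_neg_one_pow hodd]
  have h2 : Fintype.card F / 2 = (Fintype.card F - 1) / 2 := by omega
  rw [h2]
  push_cast
  rfl

theorem gauss_normSq (hF : ringChar F ≠ 2) {ψ : AddChar F ℂ} (hψ : ψ.IsPrimitive) :
    Complex.normSq (gaussSum (eta F) ψ) = (Fintype.card F : ℝ) := by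
  have h1 := congrArg Complex.normSq (gauss_sq hF hψ)
  rw [map_pow, map_mul, map_pow, Complex.normSq_neg, Complex.normSq_one, one_pow, one_mul, Complex.normSq_natCast] at h1
  have h2 : (0 : ℝ) ≤ Complex.normSq (gaussSum (eta F) ψ) := Complex.normSq_nonneg _
  have h3 : (0 : ℝ) ≤ Fintype.card F := Nat.cast_nonneg _
  nlinarith

/-- the two values of a small character -/
theorem val_small (hF : ringChar F ≠ 2) {χ : SpecialLinearGroup (Fin 2) F → ℂ}
    (hcl : IsClassFunction (SpecialLinearGroup (Fin 2) F) χ)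
    {ψ : AddChar F ℂ} (hψ : ψ.IsPrimitive) {m : F → ℕ} (hm : ∀ a, hatC ψ (fun x => χ (uSL x)) a = m a)
    {ν : F} (hν : ¬ IsSquare ν) (hs : m 1 + m ν = 1) :
    ∃ s : ℂ, (s = 1 ∨ s = -1) ∧ χ (uSL 1) = m 0 - 1 / 2 + s / 2 * gaussSum (eta F) ψ ∧
      χ (uSL ν) = m 0 - 1 / 2 - s / 2 * gaussSum (eta F) ψ := by
  have hν0 : ν ≠ 0 := by rintro rfl; exact hν (by simp)
  have h1 := (value_odd hF hcl hψ hm hν).2
  have hs' : (m 1 : ℂ) + m ν = 1 := by exact_mod_cast hs
  refine ⟨(m 1 : ℂ) - m ν, ?_, ?_, ?_⟩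
  · rcases (show (m 1 = 1 ∧ m ν = 0) ∨ (m 1 = 0 ∧ m ν = 1) by omega) with ⟨a, b⟩ | ⟨a, b⟩
    · left; rw [a, b]; norm_num
    · right; rw [a, b]; norm_num
  · rw [h1 1 one_ne_zero, hs', map_one]
    ring
  · have h2 : eta F ν = -1 := by
      rw [eta_apply, quadraticChar_neg_one_iff_not_isSquare.2 hν]
      norm_num
    rw [h1 ν hν0, hs', h2]
    ring

theorem card_centralizer_u (hF : ringChar F ≠ 2) {x : F} (hx : x ≠ 0) :
    Nat.card (Subgroup.centralizer ({uSL x} : Set (SpecialLinearGroup (Fin 2) F))) = 2 * Fintype.card F := by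
  have m0 : ∀ i, mt (inSL F) (zpm i) = !![cpm F i, 0; 0, cpm F i] := by
    intro i
    rw [mt_zpm]
    ext j k
    fin_cases j <;> fin_cases k <;> simp
  have hmem : ∀ p : Bool × F, zpm p.1 * uSL p.2 ∈ Subgroup.centralizer ({uSL x} : Set (SpecialLinearGroup (Fin 2) F)) := by
    intro p
    rw [Subgroup.mem_centralizer_iff]
    rintro _ rfl
    have h1 := (frameSL F).central (mt_zpm p.1)
    rw [← mul_assoc, ← h1, mul_assoc, mul_assoc, ← (frameSL F).u_add, ← (frameSL F).u_add, add_comm]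
  have hbij : Function.Bijective (fun p : Bool × F => (⟨zpm p.1 * uSL p.2, hmem p⟩ :
      Subgroup.centralizer ({uSL x} : Set (SpecialLinearGroup (Fin 2) F)))) := by
    constructor
    · rintro ⟨s, y⟩ ⟨s', y'⟩ hh
      have h1 := congrArg (fun g : Subgroup.centralizer ({uSL x} : Set (SpecialLinearGroup (Fin 2) F)) =>
        mt (inSL F) (g : SpecialLinearGroup (Fin 2) F)) hh
      simp only [mt_mul, m0] at h1
      rw [(frameSL F).hu, (frameSL F).hu] at h1
      have e00 := congrFun (congrFun h1 0) 0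
      have e01 := congrFun (congrFun h1 0) 1
      simp [Matrix.mul_apply, Fin.sum_univ_two] at e00 e01
      have hs := cpm_injective hF e00
      subst hs
      have hy := mul_left_cancel₀ (cpm_ne_zero s) e01
      rw [hy]
    · rintro ⟨g, hg⟩
      rw [Subgroup.mem_centralizer_iff] at hg
      have h1 := congrArg (fun g => mt (inSL F) g) (hg (uSL x) rfl)
      simp only [mt_mul] at h1
      rw [(frameSL F).hu] at h1
      have e00 := congrFun (congrFun h1 0) 0
      have e01 := congrFun (congrFun h1 0) 1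
      simp [Matrix.mul_apply, Fin.sum_univ_two] at e00 e01
      change mt (inSL F) g 0 1 + x * mt (inSL F) g 1 1 = mt (inSL F) g 0 0 * x + mt (inSL F) g 0 1 at e01
      have g10 : mt (inSL F) g 1 0 = 0 := e00.resolve_left hx
      have g11 : mt (inSL F) g 1 1 = mt (inSL F) g 0 0 := by
        have : x * (mt (inSL F) g 1 1 - mt (inSL F) g 0 0) = 0 := by linear_combination e01
        exact sub_eq_zero.1 ((mul_eq_zero.1 this).resolve_left hx)
      have hdet : (mt (inSL F) g).det = 1 := g.2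
      rw [Matrix.det_fin_two, g10, g11] at hdet
      have h4 : ∃ s, mt (inSL F) g 0 0 = cpm F s := by
        have h3 : (mt (inSL F) g 0 0 - 1) * (mt (inSL F) g 0 0 + 1) = 0 := by linear_combination hdet
        rcases mul_eq_zero.1 h3 with h4 | h4
        · exact ⟨true, by simp only [cpm, if_true]; linear_combination h4⟩
        · refine ⟨false, ?_⟩
          have h5 : cpm F false = -1 := by simp [cpm]
          rw [h5]
          linear_combination h4
      obtain ⟨s, hs⟩ := h4
      refine ⟨(s, cpm F s * mt (inSL F) g 0 1), ?_⟩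
      apply Subtype.ext
      apply (frameSL F).ext
      show mt (inSL F) (zpm s * uSL (cpm F s * mt (inSL F) g 0 1)) = mt (inSL F) g
      rw [mt_mul, m0, (frameSL F).hu]
      have hcc : cpm F s * cpm F s = 1 := by rcases s with _ | _ <;> simp [cpm]
      ext i j
      fin_cases i <;> fin_cases j
      · simp [hs]
      · simp
        rw [← mul_assoc, hcc, one_mul]
      · simp [g10]
      · simp [g11, hs]
  rw [← Nat.card_congr (Equiv.ofBijective _ hbij), Nat.card_prod, Nat.card_eq_fintype_card, Fintype.card_bool,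
    Nat.card_eq_fintype_card]

theorem not_isConj_u {ν : F} (hν : ¬ IsSquare ν) : ¬ IsConj (uSL (1 : F)) (uSL ν) := by
  intro h
  have hν0 : ν ≠ 0 := by rintro rfl; exact hν (by simp)
  have h1 : uSL (1 : F) = uniSL 1 1 (one_mul 1) := rfl
  have h2 : uSL ν = uniSL 1 ν (one_mul 1) := rfl
  rw [h1, h2] at h
  obtain ⟨s, -, hs⟩ := (of_isConj_uniSL _ _ one_ne_zero h).2 rfl
  exact hν ⟨s, by rw [hs, mul_one]⟩

theorem sum_D (hF : ringChar F ≠ 2) [Fintype (IrrCharacter (SpecialLinearGroup (Fin 2) F))] {ν : F} (hν : ¬ IsSquare ν) :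
    ∑ χ : IrrCharacter (SpecialLinearGroup (Fin 2) F), Complex.normSq ((χ : SpecialLinearGroup (Fin 2) F → ℂ) (uSL 1) -
      (χ : SpecialLinearGroup (Fin 2) F → ℂ) (uSL ν)) = 4 * Fintype.card F := by
  have hν0 : ν ≠ 0 := by rintro rfl; exact hν (by simp)
  have h1 : ((∑ χ : IrrCharacter (SpecialLinearGroup (Fin 2) F), Complex.normSq ((χ : SpecialLinearGroup (Fin 2) F → ℂ) (uSL 1) -
      (χ : SpecialLinearGroup (Fin 2) F → ℂ) (uSL ν)) : ℝ) : ℂ) = 4 * Fintype.card F := by
    push_cast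
    have h2 : ∀ χ : IrrCharacter (SpecialLinearGroup (Fin 2) F),
        ((Complex.normSq ((χ : SpecialLinearGroup (Fin 2) F → ℂ) (uSL 1) -
      (χ : SpecialLinearGroup (Fin 2) F → ℂ) (uSL ν)) : ℝ) : ℂ) =
      (χ : SpecialLinearGroup (Fin 2) F → ℂ) (uSL 1) * conj ((χ : SpecialLinearGroup (Fin 2) F → ℂ) (uSL 1)) +
      (χ : SpecialLinearGroup (Fin 2) F → ℂ) (uSL ν) * conj ((χ : SpecialLinearGroup (Fin 2) F → ℂ) (uSL ν)) -
      (χ : SpecialLinearGroup (Fin 2) F → ℂ) (uSL 1) * conj ((χ : SpecialLinearGroup (Fin 2) F → ℂ) (uSL ν)) -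
      (χ : SpecialLinearGroup (Fin 2) F → ℂ) (uSL ν) * conj ((χ : SpecialLinearGroup (Fin 2) F → ℂ) (uSL 1)) := by
      intro χ
      rw [← Complex.mul_conj, map_sub]
      ring
    rw [Finset.sum_congr rfl (fun χ _ => h2 χ), Finset.sum_sub_distrib, Finset.sum_sub_distrib, Finset.sum_add_distrib,
      column_orthogonality_of_isConj (IsConj.refl _), column_orthogonality_of_isConj (IsConj.refl _),
      column_orthogonality_of_not_isConj (not_isConj_u hν),
      column_orthogonality_of_not_isConj (fun h => not_isConj_u hν h.symm), card_centralizer_u hF one_ne_zero,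
      card_centralizer_u hF hν0]
    push_cast
    ring
  exact_mod_cast h1

end

/-- Over a finite field F with q elements, q odd and q ≥ 5, let u be the upper unitriangular matrix of SL₂ with off-diagonal entry 1 and let δ = (−1)^((q−1)/2). Every irreducible complex character χ of SL₂ of degree (q + 1)/2 satisfies (2χ(u) − 1)² = δq, and every irreducible complex character χ of degree (q − 1)/2 satisfies (2χ(u) + 1)² = δq; that is, χ(u) = (1 ± √(δq))/2 in the first case and χ(u) = (−1 ± √(δq))/2 in the second. Moreover two different irreducible characters of degree (q + 1)/2 take the two different values (their values at u add up to 1), and likewise for degree (q − 1)/2 (values adding up to −1). -/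
theorem result {F : Type*} [Field F] [Fintype F] (hodd : Odd (Fintype.card F)) (hq : 5 ≤ Fintype.card F)
    (u : Matrix.SpecialLinearGroup (Fin 2) F) (hu : (u : Matrix (Fin 2) (Fin 2) F) = !![1, 1; 0, 1]) :
    (∀ χ : Matrix.SpecialLinearGroup (Fin 2) F → ℂ, Cfsg.IsIrrCharacter (Matrix.SpecialLinearGroup (Fin 2) F) χ → χ 1 = (((Fintype.card F + 1) / 2 : ℕ) : ℂ) → (2 * χ u - 1) ^ 2 = (-1 : ℂ) ^ ((Fintype.card F - 1) / 2) * (Fintype.card F : ℂ)) ∧
    (∀ χ : Matrix.SpecialLinearGroup (Fin 2) F → ℂ, Cfsg.IsIrrCharacter (Matrix.SpecialLinearGroup (Fin 2) F) χ → χ 1 = (((Fintype.card F - 1) / 2 : ℕ) : ℂ) → (2 * χ u + 1) ^ 2 = (-1 : ℂ) ^ ((Fintype.card F - 1) / 2) * (Fintype.card F : ℂ)) ∧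
    (∀ χ₁ χ₂ : Matrix.SpecialLinearGroup (Fin 2) F → ℂ, Cfsg.IsIrrCharacter (Matrix.SpecialLinearGroup (Fin 2) F) χ₁ → Cfsg.IsIrrCharacter (Matrix.SpecialLinearGroup (Fin 2) F) χ₂ → χ₁ ≠ χ₂ →
      χ₁ 1 = (((Fintype.card F + 1) / 2 : ℕ) : ℂ) → χ₂ 1 = (((Fintype.card F + 1) / 2 : ℕ) : ℂ) → χ₁ u + χ₂ u = 1) ∧
    (∀ χ₁ χ₂ : Matrix.SpecialLinearGroup (Fin 2) F → ℂ, Cfsg.IsIrrCharacter (Matrix.SpecialLinearGroup (Fin 2) F) χ₁ → Cfsg.IsIrrCharacter (Matrix.SpecialLinearGroup (Fin 2) F) χ₂ → χ₁ ≠ χ₂ →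
      χ₁ 1 = (((Fintype.card F - 1) / 2 : ℕ) : ℂ) → χ₂ 1 = (((Fintype.card F - 1) / 2 : ℕ) : ℂ) → χ₁ u + χ₂ u = -1) := by
  classical
  have hF := ringChar_ne_two hodd
  have hcast : ∀ a b : ℕ, (a : ℂ) = b → a = b := fun a b h => by exact_mod_cast h
  have hu' : u = uSL 1 := Subtype.ext hu
  subst hu'
  obtain ⟨k, hk⟩ := hodd
  have hk2 : 2 ≤ k := by omega
  have e1 : (Fintype.card F - 1) / 2 = k := by omega
  have e2 : (Fintype.card F + 1) / 2 = k + 1 := by omega
  obtain ⟨ν, hν⟩ := FiniteField.exists_nonsquare hF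
  have hν0 : ν ≠ 0 := by rintro rfl; exact hν (by simp)
  obtain ⟨ψ, hψ⟩ := exists_primitive F
  have hg := gauss_sq hF hψ
  have hgn := gauss_normSq hF hψ
  rw [e1] at hg
  rw [e1, e2]
  set γ := gaussSum (eta F) ψ with hγ
  have hγ0 : γ ≠ 0 := by
    intro h0
    rw [h0, map_zero] at hgn
    have : (Fintype.card F : ℝ) ≠ 0 := by exact_mod_cast Fintype.card_ne_zero
    exact this hgn.symm
  have hsq : ∀ s : ℂ, (s = 1 ∨ s = -1) → s ^ 2 = 1 := by rintro s (rfl | rfl) <;> norm_num
  have big : ∀ χ : SpecialLinearGroup (Fin 2) F → ℂ, IsIrrCharacter (SpecialLinearGroup (Fin 2) F) χ → χ 1 = ((k + 1 : ℕ) : ℂ) →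
      (∃ s : ℂ, (s = 1 ∨ s = -1) ∧ χ (uSL 1) = 1 / 2 + s / 2 * γ ∧ χ (uSL ν) = 1 / 2 - s / 2 * γ) ∧
      ∃ χ₁ χ₂ : IrrCharacter (SpecialLinearGroup (Fin 2) F), χ₁ ≠ χ₂ ∧
        pSL (eta F) = (χ₁ : SpecialLinearGroup (Fin 2) F → ℂ) + (χ₂ : SpecialLinearGroup (Fin 2) F → ℂ) ∧ χ = χ₁ := by
    intro χ hχ hd
    have hcl := isClassFunction_of_isCharacter (isCharacter_of_isIrr hχ)
    choose m hm using (frameSL F).hat_nat (isCharacter_of_isIrr hχ) ψ
    obtain ⟨t0, t1, t2⟩ := (type_small hF hk hk2 hχ hψ hm hν).1 hd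
    obtain ⟨s, hs, v1, v2⟩ := val_small hF hcl hψ hm hν t1
    rw [t0] at v1 v2
    refine ⟨⟨s, hs, ?_, ?_⟩, t2⟩
    · rw [v1]; push_cast; ring
    · rw [v2]; push_cast; ring
  have small : ∀ χ : SpecialLinearGroup (Fin 2) F → ℂ, IsIrrCharacter (SpecialLinearGroup (Fin 2) F) χ → χ 1 = ((k : ℕ) : ℂ) →
      (∃ s : ℂ, (s = 1 ∨ s = -1) ∧ χ (uSL 1) = -1 / 2 + s / 2 * γ ∧ χ (uSL ν) = -1 / 2 - s / 2 * γ) := by
    intro χ hχ hd
    have hcl := isClassFunction_of_isCharacter (isCharacter_of_isIrr hχ)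
    choose m hm using (frameSL F).hat_nat (isCharacter_of_isIrr hχ) ψ
    obtain ⟨t0, t1⟩ := (type_small hF hk hk2 hχ hψ hm hν).2 hd
    obtain ⟨s, hs, v1, v2⟩ := val_small hF hcl hψ hm hν t1
    rw [t0] at v1 v2
    refine ⟨s, hs, ?_, ?_⟩
    · rw [v1]; push_cast; ring
    · rw [v2]; push_cast; ring
  refine ⟨?_, ?_, ?_, ?_⟩
  · intro χ hχ hd
    obtain ⟨⟨s, hs, v1, -⟩, -⟩ := big χ hχ hd
    rw [v1, ← hg]
    linear_combination (γ ^ 2) * hsq s hs
  · intro χ hχ hd
    obtain ⟨s, hs, v1, -⟩ := small χ hχ hd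
    rw [v1, ← hg]
    linear_combination (γ ^ 2) * hsq s hs
  · intro χ₁ χ₂ h1 h2 hne d1 d2
    obtain ⟨-, a, b, hab, hadd, rfl⟩ := big χ₁ h1 d1
    obtain ⟨-, a', b', hab', hadd', rfl⟩ := big χ₂ h2 d2
    have h3 : classInner (a' : SpecialLinearGroup (Fin 2) F → ℂ) ((a : SpecialLinearGroup (Fin 2) F → ℂ) + (b : SpecialLinearGroup (Fin 2) F → ℂ)) ≠ 0 := by
      rw [← hadd, hadd', classInner_add_right, classInner_irr, classInner_irr, if_pos rfl, if_neg hab', add_zero]
      exact one_ne_zero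
    rcases eq_or_eq_of_add h2 h3 with h4 | h4
    · exact absurd h4.symm hne
    · rw [h4]
      have h5 := pSL_u (eta F) (one_ne_zero (α := F))
      rw [hadd] at h5
      exact h5
  · intro χ₁ χ₂ h1 h2 hne d1 d2
    obtain ⟨s₁, hs1, v1, w1⟩ := small χ₁ h1 d1
    obtain ⟨s₂, hs2, v2, w2⟩ := small χ₂ h2 d2
    by_cases hss : s₁ = s₂
    · exfalso
      subst hss
      -- the six characters
      haveI : Fintype (IrrCharacter (SpecialLinearGroup (Fin 2) F)) := Fintype.ofFinite _
      have hnorm2 : classInner (pSL (eta F)) (pSL (eta F)) = 2 := by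
        have h3 : eta F * eta F = 1 := by
          ext a
          rw [MulChar.mul_apply, eta_sq_one a.ne_zero, MulChar.one_apply_coe]
        rw [classInner_prinSL, if_pos rfl, if_pos h3]
        norm_num
      obtain ⟨A, B, hAB, hadd⟩ := exists_add_of_norm_two (isCharacter_pSL (eta F)) hnorm2
      obtain ⟨dA, dB⟩ := halves_degree (eta_ne_one hF) hAB hadd
      have dA' : (A : SpecialLinearGroup (Fin 2) F → ℂ) 1 = ((k + 1 : ℕ) : ℂ) := by
        rw [hk] at dA
        push_cast at dA ⊢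
        linear_combination (1 / 2 : ℂ) * dA
      have dB' : (B : SpecialLinearGroup (Fin 2) F → ℂ) 1 = ((k + 1 : ℕ) : ℂ) := by
        rw [hk] at dB
        push_cast at dB ⊢
        linear_combination (1 / 2 : ℂ) * dB
      obtain ⟨c, hc⟩ : ∃ c : Fˣ, (c : F) = ν := ⟨Units.mk0 ν hν0, rfl⟩
      have tw : ∀ χ : SpecialLinearGroup (Fin 2) F → ℂ, IsIrrCharacter (SpecialLinearGroup (Fin 2) F) χ →
          IsIrrCharacter (SpecialLinearGroup (Fin 2) F) (fun g => χ (sgm c g)) := fun χ hχ =>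
        isIrrCharacter_comp_surjective hχ (sgm c) (sgm_surjective c)
      have tw1 : ∀ χ : SpecialLinearGroup (Fin 2) F → ℂ, IsIrrCharacter (SpecialLinearGroup (Fin 2) F) χ →
          χ (sgm c (uSL 1)) = χ (uSL ν) ∧ χ (sgm c (uSL ν)) = χ (uSL 1) := by
        intro χ hχ
        rw [sgm_u, sgm_u, hc, mul_one]
        refine ⟨rfl, ?_⟩
        have h3 := bSL_conj (Units.mk0 ν hν0) (1 : F)
        rw [Units.val_mk0, mul_one] at h3
        rw [← h3]
        exact isClassFunction_of_isCharacter (isCharacter_of_isIrr hχ) _ _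
      let C1 : IrrCharacter (SpecialLinearGroup (Fin 2) F) := ⟨χ₁, h1⟩
      let C2 : IrrCharacter (SpecialLinearGroup (Fin 2) F) := ⟨χ₂, h2⟩
      let D1 : IrrCharacter (SpecialLinearGroup (Fin 2) F) := ⟨_, tw χ₁ h1⟩
      let D2 : IrrCharacter (SpecialLinearGroup (Fin 2) F) := ⟨_, tw χ₂ h2⟩
      have hkc : ((k + 1 : ℕ) : ℂ) ≠ (k : ℂ) := by
        intro h
        have := hcast _ _ h
        omega
      have degne : ∀ X Y : IrrCharacter (SpecialLinearGroup (Fin 2) F), (X : SpecialLinearGroup (Fin 2) F → ℂ) 1 = ((k + 1 : ℕ) : ℂ) →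
          (Y : SpecialLinearGroup (Fin 2) F → ℂ) 1 = ((k : ℕ) : ℂ) → X ≠ Y := by
        intro X Y hX hY hXY
        rw [hXY, hY] at hX
        exact hkc hX.symm
      have dC1 : (C1 : SpecialLinearGroup (Fin 2) F → ℂ) 1 = ((k : ℕ) : ℂ) := d1
      have dC2 : (C2 : SpecialLinearGroup (Fin 2) F → ℂ) 1 = ((k : ℕ) : ℂ) := d2
      have dD1 : (D1 : SpecialLinearGroup (Fin 2) F → ℂ) 1 = ((k : ℕ) : ℂ) := by
        show χ₁ (sgm c 1) = _
        rw [map_one]; exact d1
      have dD2 : (D2 : SpecialLinearGroup (Fin 2) F → ℂ) 1 = ((k : ℕ) : ℂ) := by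
        show χ₂ (sgm c 1) = _
        rw [map_one]; exact d2
      have vC1 : (C1 : SpecialLinearGroup (Fin 2) F → ℂ) (uSL 1) = -1 / 2 + s₁ / 2 * γ := v1
      have vC2 : (C2 : SpecialLinearGroup (Fin 2) F → ℂ) (uSL 1) = -1 / 2 + s₁ / 2 * γ := v2
      have vD1 : (D1 : SpecialLinearGroup (Fin 2) F → ℂ) (uSL 1) = -1 / 2 - s₁ / 2 * γ := by
        show χ₁ (sgm c (uSL 1)) = _
        rw [(tw1 χ₁ h1).1, w1]
      have vD2 : (D2 : SpecialLinearGroup (Fin 2) F → ℂ) (uSL 1) = -1 / 2 - s₁ / 2 * γ := by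
        show χ₂ (sgm c (uSL 1)) = _
        rw [(tw1 χ₂ h2).1, w2]
      have hs0 : s₁ ≠ 0 := by rcases hs1 with rfl | rfl <;> norm_num
      have typne : ∀ X Y : IrrCharacter (SpecialLinearGroup (Fin 2) F), (X : SpecialLinearGroup (Fin 2) F → ℂ) (uSL 1) = -1 / 2 + s₁ / 2 * γ →
          (Y : SpecialLinearGroup (Fin 2) F → ℂ) (uSL 1) = -1 / 2 - s₁ / 2 * γ → X ≠ Y := by
        intro X Y hX hY hXY
        rw [hXY, hY] at hX
        have : s₁ * γ = 0 := by linear_combination -hX
        exact mul_ne_zero hs0 hγ0 this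
      have hCC : C1 ≠ C2 := fun h => hne (congrArg Subtype.val h)
      have hDD : D1 ≠ D2 := by
        intro h
        apply hne
        funext g
        obtain ⟨g', rfl⟩ := sgm_surjective c g
        exact congrFun (congrArg Subtype.val h) g'
      have hval : ∀ X : IrrCharacter (SpecialLinearGroup (Fin 2) F), X ∈ ({A, B, C1, C2, D1, D2} : Finset (IrrCharacter (SpecialLinearGroup (Fin 2) F))) →
          Complex.normSq ((X : SpecialLinearGroup (Fin 2) F → ℂ) (uSL 1) - (X : SpecialLinearGroup (Fin 2) F → ℂ) (uSL ν)) = Fintype.card F := by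
        have hn : ∀ s : ℂ, (s = 1 ∨ s = -1) → Complex.normSq (s * γ) = Fintype.card F := by
          intro s hs
          rw [map_mul, hgn]
          rcases hs with rfl | rfl <;> simp
        intro X hX
        simp only [Finset.mem_insert, Finset.mem_singleton] at hX
        rcases hX with rfl | rfl | rfl | rfl | rfl | rfl
        · obtain ⟨⟨s, hs, e3, e4⟩, -⟩ := big _ X.2 dA'
          rw [e3, e4, ← hn s hs]
          congr 1
          ring
        · obtain ⟨⟨s, hs, e3, e4⟩, -⟩ := big _ X.2 dB'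
          rw [e3, e4, ← hn s hs]
          congr 1
          ring
        · show Complex.normSq (χ₁ (uSL 1) - χ₁ (uSL ν)) = _
          rw [v1, w1, ← hn s₁ hs1]
          congr 1
          ring
        · show Complex.normSq (χ₂ (uSL 1) - χ₂ (uSL ν)) = _
          rw [v2, w2, ← hn s₁ hs1]
          congr 1
          ring
        · show Complex.normSq (χ₁ (sgm c (uSL 1)) - χ₁ (sgm c (uSL ν))) = _
          rw [(tw1 χ₁ h1).1, (tw1 χ₁ h1).2, v1, w1, ← hn s₁ hs1, ← Complex.normSq_neg]
          congr 1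
          ring
        · show Complex.normSq (χ₂ (sgm c (uSL 1)) - χ₂ (sgm c (uSL ν))) = _
          rw [(tw1 χ₂ h2).1, (tw1 χ₂ h2).2, v2, w2, ← hn s₁ hs1, ← Complex.normSq_neg]
          congr 1
          ring
      have hcard : ({A, B, C1, C2, D1, D2} : Finset (IrrCharacter (SpecialLinearGroup (Fin 2) F))).card = 6 := by
        rw [Finset.card_insert_of_notMem, Finset.card_insert_of_notMem, Finset.card_insert_of_notMem,
          Finset.card_insert_of_notMem, Finset.card_pair hDD]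
        · simp only [Finset.mem_insert, Finset.mem_singleton, not_or]
          exact ⟨typne _ _ vC2 vD1, typne _ _ vC2 vD2⟩
        · simp only [Finset.mem_insert, Finset.mem_singleton, not_or]
          exact ⟨hCC, typne _ _ vC1 vD1, typne _ _ vC1 vD2⟩
        · simp only [Finset.mem_insert, Finset.mem_singleton, not_or]
          exact ⟨degne _ _ dB' dC1, degne _ _ dB' dC2, degne _ _ dB' dD1, degne _ _ dB' dD2⟩
        · simp only [Finset.mem_insert, Finset.mem_singleton, not_or]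
          exact ⟨hAB, degne _ _ dA' dC1, degne _ _ dA' dC2, degne _ _ dA' dD1, degne _ _ dA' dD2⟩
      have htot := sum_D hF hν
      have hle : ∑ χ ∈ ({A, B, C1, C2, D1, D2} : Finset (IrrCharacter (SpecialLinearGroup (Fin 2) F))),
          Complex.normSq ((χ : SpecialLinearGroup (Fin 2) F → ℂ) (uSL 1) - (χ : SpecialLinearGroup (Fin 2) F → ℂ) (uSL ν)) ≤
          4 * Fintype.card F := by
        rw [← htot]
        exact Finset.sum_le_sum_of_subset_of_nonneg (Finset.subset_univ _) (fun χ _ _ => Complex.normSq_nonneg _)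
      rw [Finset.sum_congr rfl hval, Finset.sum_const, hcard, nsmul_eq_mul] at hle
      have hpos : (0 : ℝ) < Fintype.card F := by exact_mod_cast Fintype.card_pos
      push_cast at hle
      linarith
    · rw [v1, v2]
      have : s₁ + s₂ = 0 := by
        rcases hs1 with rfl | rfl <;> rcases hs2 with rfl | rfl
        · exact absurd rfl hss
        · norm_num
        · norm_num
        · exact absurd rfl hss
      linear_combination (γ / 2) * this

end Cfsg.Agent.S2324
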