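import Cfsg.Statements.S2329
import Cfsg.Agent.H39.Class2

set_option autoImplicit false
open Cfsg

namespace Cfsg.Agent.S2329

open Matrix Cfsg.Agent.H39

/-- Over a finite field of characteristic p, any two elements of order p of GL₂ are conjugate: there is a single conjugacy class of non-identity unipotent elements. -/
theorem result {F : Type*} [Field F] [Fintype F] (p : ℕ) [Fact p.Prime] [CharP F p] (g h : Matrix.GeneralLinearGroup (Fin 2) F)
    (hg : orderOf g = p) (hh : orderOf h = p) : IsConj g h := by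
  have hp : p.Prime := Fact.out
  have key : ∀ g : GL (Fin 2) F, orderOf g = p → ¬ Scal2 (g : Matrix (Fin 2) (Fin 2) F) ∧
      (g : Matrix (Fin 2) (Fin 2) F).trace = 2 ∧ (g : Matrix (Fin 2) (Fin 2) F).det = 1 := by
    intro g hg
    have h1 : (g : Matrix (Fin 2) (Fin 2) F) ^ p = 1 := by
      rw [← Units.val_pow_eq_pow_val, ← hg, pow_orderOf_eq_one, Units.val_one]
    haveI : CharP (Matrix (Fin 2) (Fin 2) F) p := Matrix.charP p
    have h2 : ((g : Matrix (Fin 2) (Fin 2) F) - 1) ^ p = 0 := by
      rw [sub_pow_char_of_commute p (Commute.one_right _), h1, one_pow, sub_self]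
    set N := (g : Matrix (Fin 2) (Fin 2) F) - 1 with hN
    have hg1 : (g : Matrix (Fin 2) (Fin 2) F) = 1 + N := by rw [hN]; abel
    have h3 : N.trace = 0 := by
      have h3 : IsNilpotent N := ⟨p, h2⟩
      exact (Matrix.isNilpotent_trace_of_isNilpotent h3).eq_zero
    have h4 : N.det = 0 := by
      have h4 := congrArg Matrix.det h2
      rw [Matrix.det_pow, Matrix.det_zero] at h4
      exact pow_eq_zero_iff hp.ne_zero |>.1 h4
    refine ⟨?_, ?_, ?_⟩
    · rintro ⟨h5, h6, h7⟩
      have e1 : N 0 1 = 0 := by rw [hN]; simp [h5]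
      have e2 : N 1 0 = 0 := by rw [hN]; simp [h6]
      have e3 : N 0 0 = N 1 1 := by rw [hN]; simp [h7]
      rw [Matrix.det_fin_two, e1, e3] at h4
      have e4 : N 1 1 = 0 := by simpa using h4
      have e5 : N = 0 := by
        ext i j
        fin_cases i <;> fin_cases j <;> simp [e1, e2, e3, e4]
      rw [e5, add_zero] at hg1
      have e6 : g = 1 := Units.ext hg1
      rw [e6, orderOf_one] at hg
      exact hp.one_lt.ne hg
    · rw [hg1, Matrix.trace_add, h3, Matrix.trace_one]
      simp
    · rw [hg1, Matrix.det_fin_two]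
      rw [Matrix.det_fin_two] at h4
      rw [Matrix.trace_fin_two] at h3
      simp
      linear_combination h3 + h4
  obtain ⟨a1, a2, a3⟩ := key g hg
  obtain ⟨b1, b2, b3⟩ := key h hh
  exact isConj_gl_of_eq g h a1 b1 (a2.trans b2.symm) (a3.trans b3.symm)

end Cfsg.Agent.S2329
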