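import Cfsg.Statements.S2363
import Cfsg.Agent.H83b.LieOrd
import Cfsg.Agent.S0243
import Cfsg.Agent.S0245
import Cfsg.Agent.S0246
import Cfsg.Agent.S0280
import Cfsg.Agent.S0292
import Cfsg.Agent.S0293
import Cfsg.Agent.S0294
import Cfsg.Agent.S1059
import Cfsg.Agent.S1062
import Cfsg.Agent.S1063
import Cfsg.Agent.S1064
import Cfsg.Agent.S1065
import Cfsg.Agent.S1066
import Cfsg.Agent.S1067
import Cfsg.Agent.S1068
import Cfsg.Agent.S1069
import Cfsg.Agent.S1163

set_option autoImplicit false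
open Cfsg

namespace Cfsg.Agent.S2363
open Cfsg.Agent.H83b.LieOrd

/-- conclusion for groups other than `PSL₂` -/
theorem concl {G H : Type*} [Group G] [Finite G] [Group H] {p : ℕ} (e : Nonempty (G ≃* H))
    (h : 0 < Nat.card H → Bd p (Nat.card H)) :
    Nat.card G < p ^ (3 * (Nat.card G).factorization p) ∧
      ((¬ ∃ (F : Type) (_ : Field F) (_ : Fintype F), Fintype.card F = p ^ (Nat.card G).factorization p ∧
          Nonempty (G ≃* Matrix.ProjectiveSpecialLinearGroup (Fin 2) F)) →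
        Nat.card G ^ 3 < p ^ (8 * (Nat.card G).factorization p)) := by
  obtain ⟨e⟩ := e
  have hpos : 0 < Nat.card G := Nat.card_pos
  rw [Nat.card_congr e.toEquiv] at hpos ⊢
  exact ⟨(h hpos).1, fun _ => (h hpos).2⟩

theorem char_card (F : Type*) [Field F] [Fintype F] (p : ℕ) [CharP F p] : ∃ f, 1 ≤ f ∧ Fintype.card F = p ^ f := by
  obtain ⟨n, -, h⟩ := FiniteField.card F p
  exact ⟨n, n.2, h⟩

theorem root_card {p : ℕ} (hp : p.Prime) {K : Type*} [Field K] [Fintype K] [CharP K p] {q k : ℕ} (hk : k ≠ 0) (h : Fintype.card K = q ^ k) :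
    ∃ f, 1 ≤ f ∧ q = p ^ f := by
  obtain ⟨f, hf, h'⟩ := char_card K p
  have h1 : q ∣ p ^ f := by rw [← h', h]; exact dvd_pow_self q hk
  obtain ⟨a, -, rfl⟩ := (Nat.dvd_prime_pow hp).1 h1
  refine ⟨a, ?_, rfl⟩
  by_contra ha
  have : a = 0 := by omega
  subst this
  rw [pow_zero, one_pow] at h
  have := Fintype.one_lt_card (α := K)
  omega

theorem coprime_two {p f : ℕ} (h : Odd (p ^ f)) (hf : 1 ≤ f) : Nat.Coprime 2 p := by
  rw [Nat.coprime_two_left]
  rcases Nat.even_or_odd p with he | ho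
  · exfalso
    have : Even (p ^ f) := he.pow_of_ne_zero (by omega)
    exact (Nat.not_even_iff_odd.2 h) this
  · exact ho

/-- `PSL₂` -/
theorem psl_two {p : ℕ} (hp : p.Prime) {F : Type} [Field F] [Fintype F] {f : ℕ} (hf : 1 ≤ f) (hF : Fintype.card F = p ^ f) :
    (Nat.card (Matrix.ProjectiveSpecialLinearGroup (Fin 2) F)).factorization p = f ∧
      Nat.card (Matrix.ProjectiveSpecialLinearGroup (Fin 2) F) < p ^ (3 * f) := by
  have hq : 1 < p ^ f := Nat.one_lt_pow (by omega) hp.one_lt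
  have h := Cfsg.Agent.S0243.result (F := F) rfl 2 le_rfl
  rw [prod_GL (by rw [hF]; exact hq), hF] at h
  simp only [Finset.prod_range_succ, Finset.sum_range_succ, Finset.prod_range_zero, Finset.sum_range_zero, zero_add,
    pow_one, one_mul, Nat.reduceAdd] at h
  set X := Nat.card (Matrix.ProjectiveSpecialLinearGroup (Fin 2) F) with hX
  have h1 : Nat.gcd 2 (p ^ f - 1) * X = p ^ f * ((p ^ f) ^ 2 - 1) := by
    apply Nat.eq_of_mul_eq_mul_left (show 0 < p ^ f - 1 by omega)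
    calc (p ^ f - 1) * (Nat.gcd 2 (p ^ f - 1) * X) = Nat.gcd 2 (p ^ f - 1) * ((p ^ f - 1) * X) := by ring
      _ = _ := by rw [h]; ring
  have hc : 0 < Nat.gcd 2 (p ^ f - 1) := Nat.gcd_pos_of_pos_left _ (by norm_num)
  have hcp : Nat.Coprime (Nat.gcd 2 (p ^ f - 1)) p :=
    coprime_of_dvd_sub hf le_rfl hp (by rw [pow_one]; exact Nat.gcd_dvd_right _ _)
  have h2 : Nat.Coprime ((p ^ f) ^ 2 - 1) p := coprime_of_dvd_sub hf (by norm_num : 1 ≤ 2) hp dvd_rfl
  have hXpos : X ≠ 0 := by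
    intro h0
    rw [h0, mul_zero] at h1
    have : 0 < p ^ f * ((p ^ f) ^ 2 - 1) := by
      apply Nat.mul_pos (by omega)
      have : 1 < (p ^ f) ^ 2 := Nat.one_lt_pow (by norm_num) hq
      omega
    omega
  constructor
  · have h3 := congrArg (fun n => n.factorization p) h1
    rw [Nat.factorization_mul hc.ne' hXpos, Nat.factorization_mul (by omega) (by
      have : 1 < (p ^ f) ^ 2 := Nat.one_lt_pow (by norm_num) hq
      omega)] at h3
    simp only [Finsupp.add_apply] at h3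
    rw [Nat.factorization_eq_zero_of_not_dvd (fun hd => hp.one_lt.ne' (Nat.eq_one_of_dvd_coprimes hcp hd dvd_rfl)),
      Nat.factorization_eq_zero_of_not_dvd (n := (p ^ f) ^ 2 - 1)
        (fun hd => hp.one_lt.ne' (Nat.eq_one_of_dvd_coprimes h2 hd dvd_rfl)),
      hp.factorization_pow] at h3
    simpa using h3
  · have h4 : X ≤ p ^ f * ((p ^ f) ^ 2 - 1) := by rw [← h1]; exact Nat.le_mul_of_pos_left X hc
    calc X ≤ p ^ f * ((p ^ f) ^ 2 - 1) := h4
      _ < p ^ f * (p ^ f) ^ 2 := Nat.mul_lt_mul_of_pos_left (sub_one_lt hq) (by omega)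
      _ = p ^ (3 * f) := by rw [← pow_succ', ← pow_mul]; congr 1; ring

/-- Let G be a finite simple group of Lie type in characteristic p and let p^k be the exact power of p dividing the order of G. Then the order of G is less than p^(3k); and unless G is isomorphic to PSL(2, F) for the field F with p^k elements, the cube of the order of G is less than p^(8k) (that is, the order is below p^(8k/3)). -/
theorem result {G : Type*} [Group G] [Finite G] (p : ℕ) (hp : p.Prime) (hG : Cfsg.IsLieTypeChar p G) :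
    Nat.card G < p ^ (3 * (Nat.card G).factorization p) ∧
      ((¬ ∃ (F : Type) (_ : Field F) (_ : Fintype F), Fintype.card F = p ^ (Nat.card G).factorization p ∧
          Nonempty (G ≃* Matrix.ProjectiveSpecialLinearGroup (Fin 2) F)) →
        Nat.card G ^ 3 < p ^ (8 * (Nat.card G).factorization p)) := by
  rcases hG with ⟨F, iF, iFt, iC, n, hn, hn2, e⟩ | ⟨F, iF, iFt, iC, m, hm, hm2, e⟩ | ⟨F, iF, iFt, iC, n, q, hq, hn, hn2, e⟩ |
    ⟨F, iF, iFt, iC, m, hm, hodd, e⟩ | ⟨F, iF, iFt, iC, m, hm, e⟩ | ⟨F, iF, iFt, iC, m, a, b, hm, hab, e⟩ |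
    ⟨F, iF, iFt, iC, e⟩ | ⟨K, iF, iFt, iC, q, hq, e⟩ | ⟨rfl, F, iF, iFt, m, hm, hF, e⟩ | ⟨rfl, F, iF, iFt, m, hm, hF, e⟩ |
    ⟨rfl, F, iF, iFt, m, hm, hF, e⟩
  · -- PSL
    obtain ⟨f, hf, hF⟩ := char_card F p
    rcases Nat.lt_or_ge 2 n with h3 | h3
    · refine concl e fun hpos => ?_
      have h := Cfsg.Agent.S0243.result (F := F) rfl n hn
      rw [hF] at h
      exact bd_A hp hf h3 hpos (Nat.gcd_pos_of_pos_left _ (by omega))
        (coprime_of_dvd_sub hf le_rfl hp (by rw [pow_one]; exact Nat.gcd_dvd_right _ _)) h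
    · have : n = 2 := by omega
      subst this
      obtain ⟨h1, h2⟩ := psl_two hp hf hF
      obtain ⟨e⟩ := e
      rw [Nat.card_congr e.toEquiv, h1]
      exact ⟨h2, fun hno => absurd ⟨F, iF, iFt, hF, ⟨e⟩⟩ hno⟩
  · -- PSp
    obtain ⟨f, hf, hF⟩ := char_card F p
    refine concl e fun hpos => ?_
    have h1 := Cfsg.Agent.S0245.result (F := F) rfl m
    have h2 := Cfsg.Agent.S0246.result (F := F) rfl m (by omega)
    have h3 := Subgroup.card_eq_card_quotient_mul_card_subgroup (Subgroup.center (Matrix.symplecticGroup (Fin m) F))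
    rw [h1, h2, hF] at h3
    exact bd_C hp hf hm hpos (Nat.gcd_pos_of_pos_left _ (by norm_num))
      (coprime_of_dvd_sub hf le_rfl hp (by rw [pow_one]; exact Nat.gcd_dvd_right _ _)) ((mul_comm _ _).trans h3.symm)
  · -- PSU
    obtain ⟨f, hf, rfl⟩ := root_card hp (by norm_num) hq
    refine concl e fun hpos => ?_
    exact bd_U hp hf hn hpos (Nat.gcd_pos_of_pos_left _ (by omega))
      (coprime_of_dvd_add hf le_rfl hp (by rw [pow_one]; exact Nat.gcd_dvd_right _ _)) (Cfsg.Agent.S0280.result hq n (by omega))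
  · -- odd orthogonal
    obtain ⟨f, hf, hF⟩ := char_card F p
    refine concl e fun hpos => ?_
    have h := Cfsg.Agent.S0292.result (F := F) rfl hodd m hm
    rw [hF] at h hodd
    exact bd_C hp hf (by omega) hpos (by norm_num) (coprime_two hodd hf) h
  · -- plus type
    obtain ⟨f, hf, hF⟩ := char_card F p
    refine concl e fun hpos => ?_
    have h := Cfsg.Agent.S0293.result (F := F) rfl m hm
    rw [hF] at h
    exact bd_Dp hp hf hm hpos (Nat.gcd_pos_of_pos_left _ (by norm_num))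
      (coprime_of_dvd_sub hf (by omega : 1 ≤ m) hp (Nat.gcd_dvd_right _ _)) h
  · -- minus type
    obtain ⟨f, hf, hF⟩ := char_card F p
    refine concl e fun hpos => ?_
    have h := Cfsg.Agent.S0294.result (F := F) rfl m hm a b hab
    rw [hF] at h
    exact bd_Dm hp hf hm hpos (Nat.gcd_pos_of_pos_left _ (by norm_num))
      (coprime_of_dvd_add hf (by omega : 1 ≤ m) hp (Nat.gcd_dvd_right _ _)) h
  · -- exceptional
    obtain ⟨f, hf, hF⟩ := char_card F p
    have hq : 1 < p ^ f := Nat.one_lt_pow (by omega) hp.one_lt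
    rcases e with ⟨-, e⟩ | e | e | e | e
    · refine concl e fun hpos => ?_
      have h := Cfsg.Agent.S1059.result (F := F) rfl
      rw [hF] at h
      refine bd_of (c := 1) (N := 6) (M := ((p ^ f) ^ 2 - 1) * ((p ^ f) ^ 6 - 1)) hp hpos one_pos (Nat.coprime_one_left _)
        (by rw [one_mul, h]; ring) (cube_lt hq (mul_lt' hq (sub_one_lt hq) sub_one_le) (by norm_num))
    · refine concl e fun hpos => ?_
      have h := Cfsg.Agent.S1062.result (F := F) rfl
      rw [hF] at h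
      refine bd_of (c := 1) (N := 24) (M := ((p ^ f) ^ 2 - 1) * ((p ^ f) ^ 6 - 1) * ((p ^ f) ^ 8 - 1) * ((p ^ f) ^ 12 - 1)) hp hpos
        one_pos (Nat.coprime_one_left _) (by rw [one_mul, h]; ring)
        (cube_lt hq (mul_lt' hq (mul_lt' hq (mul_lt' hq (sub_one_lt hq) sub_one_le) sub_one_le) sub_one_le) (by norm_num))
    · refine concl e fun hpos => ?_
      have h := Cfsg.Agent.S1063.result (F := F) rfl
      rw [hF] at h
      refine bd_of (c := Nat.gcd 3 (p ^ f - 1)) (N := 36) (M := ((p ^ f) ^ 2 - 1) * ((p ^ f) ^ 5 - 1) * ((p ^ f) ^ 6 - 1) * ((p ^ f) ^ 8 - 1) * ((p ^ f) ^ 9 - 1) *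
        ((p ^ f) ^ 12 - 1)) hp hpos (Nat.gcd_pos_of_pos_left _ (by norm_num))
        (coprime_of_dvd_sub hf le_rfl hp (by rw [pow_one]; exact Nat.gcd_dvd_right _ _)) (by rw [h]; ring)
        (cube_lt hq (mul_lt' hq (mul_lt' hq (mul_lt' hq (mul_lt' hq (mul_lt' hq (sub_one_lt hq) sub_one_le) sub_one_le)
          sub_one_le) sub_one_le) sub_one_le) (by norm_num))
    · refine concl e fun hpos => ?_
      have h := Cfsg.Agent.S1064.result (F := F) rfl
      rw [hF] at h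
      refine bd_of (c := Nat.gcd 2 (p ^ f - 1)) (N := 63) (M := ((p ^ f) ^ 2 - 1) * ((p ^ f) ^ 6 - 1) * ((p ^ f) ^ 8 - 1) * ((p ^ f) ^ 10 - 1) * ((p ^ f) ^ 12 - 1) *
        ((p ^ f) ^ 14 - 1) * ((p ^ f) ^ 18 - 1)) hp hpos (Nat.gcd_pos_of_pos_left _ (by norm_num))
        (coprime_of_dvd_sub hf le_rfl hp (by rw [pow_one]; exact Nat.gcd_dvd_right _ _)) (by rw [h]; ring)
        (cube_lt hq (mul_lt' hq (mul_lt' hq (mul_lt' hq (mul_lt' hq (mul_lt' hq (mul_lt' hq (sub_one_lt hq) sub_one_le)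
          sub_one_le) sub_one_le) sub_one_le) sub_one_le) sub_one_le) (by norm_num))
    · refine concl e fun hpos => ?_
      have h := Cfsg.Agent.S1065.result (F := F) rfl
      rw [hF] at h
      refine bd_of (c := 1) (N := 120) (M := ((p ^ f) ^ 2 - 1) * ((p ^ f) ^ 8 - 1) * ((p ^ f) ^ 12 - 1) * ((p ^ f) ^ 14 - 1) *
        ((p ^ f) ^ 18 - 1) * ((p ^ f) ^ 20 - 1) * ((p ^ f) ^ 24 - 1) * ((p ^ f) ^ 30 - 1)) hp hpos one_pos (Nat.coprime_one_left _)
        (by rw [one_mul, h]; ring)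
        (cube_lt hq (mul_lt' hq (mul_lt' hq (mul_lt' hq (mul_lt' hq (mul_lt' hq (mul_lt' hq (mul_lt' hq (sub_one_lt hq)
          sub_one_le) sub_one_le) sub_one_le) sub_one_le) sub_one_le) sub_one_le) sub_one_le) (by norm_num))
  · rcases e with ⟨hK, e⟩ | ⟨hK, e⟩
    · obtain ⟨f, hf, rfl⟩ := root_card hp (by norm_num) hK
      have hq1 : 1 < p ^ f := Nat.one_lt_pow (by omega) hp.one_lt
      refine concl e fun hpos => ?_
      have h := Cfsg.Agent.S1066.result hq hK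
      refine bd_of (c := Nat.gcd 3 (p ^ f + 1)) (N := 36) (M := ((p ^ f) ^ 2 - 1) * ((p ^ f) ^ 5 + 1) * ((p ^ f) ^ 6 - 1) * ((p ^ f) ^ 8 - 1) * ((p ^ f) ^ 9 + 1) *
        ((p ^ f) ^ 12 - 1)) hp hpos (Nat.gcd_pos_of_pos_left _ (by norm_num))
        (coprime_of_dvd_add hf le_rfl hp (by rw [pow_one]; exact Nat.gcd_dvd_right _ _)) (by rw [h]; ring)
        (cube_lt hq1 (mul_lt' hq1 (mul_lt' hq1 (mul_lt' hq1 (mul_lt' hq1 (mul_lt' hq1 (sub_one_lt hq1)
          (add_one_le hq1 (by norm_num : 1 ≤ 5))) sub_one_le) sub_one_le) (add_one_le hq1 (by norm_num : 1 ≤ 9))) sub_one_le)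
          (by norm_num))
    · obtain ⟨f, hf, rfl⟩ := root_card hp (by norm_num) hK
      have hq1 : 1 < p ^ f := Nat.one_lt_pow (by omega) hp.one_lt
      refine concl e fun hpos => ?_
      have h := Cfsg.Agent.S1067.result hq hK
      have h8 : (p ^ f) ^ 8 + (p ^ f) ^ 4 + 1 ≤ (p ^ f) ^ 10 := by
        have a1 : (p ^ f) ^ 4 + 1 ≤ (p ^ f) ^ 5 := add_one_le hq1 (show 1 ≤ 4 by norm_num)
        have a2 : (p ^ f) ^ 5 ≤ (p ^ f) ^ 8 := Nat.pow_le_pow_right (by omega) (by norm_num)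
        have a3 : 2 * (p ^ f) ^ 8 ≤ (p ^ f) ^ 9 := by rw [pow_succ, mul_comm]; exact Nat.mul_le_mul_left _ hq1
        have a4 : (p ^ f) ^ 9 ≤ (p ^ f) ^ 10 := Nat.pow_le_pow_right (by omega) (by norm_num)
        omega
      refine bd_of (c := 1) (N := 12) (M := ((p ^ f) ^ 2 - 1) * ((p ^ f) ^ 6 - 1) * ((p ^ f) ^ 8 + (p ^ f) ^ 4 + 1)) hp hpos
        one_pos (Nat.coprime_one_left _) (by rw [one_mul, h]; ring)
        (cube_lt hq1 (mul_lt' hq1 (mul_lt' hq1 (sub_one_lt hq1) sub_one_le) h8) (by norm_num))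
  · refine concl e fun hpos => ?_
    have h := (Cfsg.Agent.S1163.result hm hF).1
    have hq1 : 1 < 2 ^ (2 * m + 1) := Nat.one_lt_pow (by omega) (by norm_num)
    refine bd_of (c := 1) (N := 2) (f := 2 * m + 1) (M := (2 ^ (2 * m + 1) - 1) * ((2 ^ (2 * m + 1)) ^ 2 + 1)) hp hpos
      one_pos (Nat.coprime_one_left _) (by rw [one_mul, h]; ring) ?_
    have h1 : (2 ^ (2 * m + 1) - 1) * ((2 ^ (2 * m + 1)) ^ 2 + 1) < (2 ^ (2 * m + 1)) ^ 3 := by
      obtain ⟨b, hb⟩ := Nat.exists_eq_add_of_lt hq1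
      rw [hb, show 1 + b + 1 - 1 = b + 1 by omega]
      ring_nf; nlinarith
    exact cube_lt hq1 h1 (by norm_num)
  · refine concl e fun hpos => ?_
    have h := Cfsg.Agent.S1068.result hF
    have hq1 : 1 < 2 ^ (2 * m + 1) := Nat.one_lt_pow (by omega) (by norm_num)
    refine bd_of (c := 1) (N := 12) (f := 2 * m + 1) (M := ((2 ^ (2 * m + 1)) ^ 1 - 1) * ((2 ^ (2 * m + 1)) ^ 3 + 1) *
      ((2 ^ (2 * m + 1)) ^ 4 - 1) * ((2 ^ (2 * m + 1)) ^ 6 + 1)) hp hpos one_pos (Nat.coprime_one_left _)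
      (by rw [one_mul, h, pow_one]; ring)
      (cube_lt hq1 (mul_lt' hq1 (mul_lt' hq1 (mul_lt' hq1 (sub_one_lt hq1) (add_one_le hq1 (by norm_num : 1 ≤ 3))) sub_one_le)
        (add_one_le hq1 (by norm_num : 1 ≤ 6))) (by norm_num))
  · refine concl e fun hpos => ?_
    have h := Cfsg.Agent.S1069.result hF
    have hq1 : 1 < 3 ^ (2 * m + 1) := Nat.one_lt_pow (by omega) (by norm_num)
    refine bd_of (c := 1) (N := 3) (f := 2 * m + 1) (M := ((3 ^ (2 * m + 1)) ^ 1 - 1) * ((3 ^ (2 * m + 1)) ^ 3 + 1)) hp hpos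
      one_pos (Nat.coprime_one_left _) (by rw [one_mul, h, pow_one]; ring)
      (cube_lt hq1 (mul_lt' hq1 (sub_one_lt hq1) (add_one_le hq1 (by norm_num : 1 ≤ 3))) (by norm_num))

end Cfsg.Agent.S2363
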