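import Cfsg.Statements.S2364
import Cfsg.Agent.H39.CentP

set_option autoImplicit false
open Cfsg

namespace Cfsg.Agent.S2364

open Cfsg.Agent.H39.CentP

/-- Let F be a finite field of characteristic p, n ≥ 4, and let a, b be commuting elements of PSL(n, F) with a of order p. Then every prime divisor of the order of b divides the order of SL(n − 2, F). -/
theorem result {F : Type*} [Field F] [Fintype F] (p : ℕ) [Fact p.Prime] [CharP F p] (n : ℕ) (hn : 4 ≤ n)
    (a b : Matrix.ProjectiveSpecialLinearGroup (Fin n) F) (ha : orderOf a = p) (hab : Commute a b) :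
    (orderOf b).primeFactors ⊆ (Nat.card (Matrix.SpecialLinearGroup (Fin (n - 2)) F)).primeFactors := by
  classical
  have hp : p.Prime := Fact.out
  set q := Fintype.card F with hq
  have hq2 : 2 ≤ q := Fintype.one_lt_card
  obtain ⟨c, hc0, hc⟩ := FiniteField.card F p
  have hpq : p ∣ q := by rw [hq, hc]; exact dvd_pow_self p c.ne_zero
  intro r hr
  have hrp := Nat.prime_of_mem_primeFactors hr
  have hrb := Nat.dvd_of_mem_primeFactors hr
  have := Fact.mk hrp
  rw [Nat.mem_primeFactors]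
  refine ⟨hrp, ?_, Nat.card_pos.ne'⟩
  by_contra hnot
  -- arithmetic consequences
  have hrq : ¬ r ∣ q := fun h => hnot (dvd_card_SL (by omega) (Or.inl h))
  have hrj : ∀ j, 1 ≤ j → j ≤ n - 2 → ¬ r ∣ q ^ j - 1 := fun j h1 h2 h3 =>
    hnot (dvd_card_SL (by omega) (Or.inr ⟨j, h1, h2, h3⟩))
  have hr1 : ¬ r ∣ q - 1 := by
    have := hrj 1 le_rfl (by omega)
    rwa [pow_one] at this
  have hrnp : r ≠ p := fun h => hrq (by rw [h]; exact hpq)
  -- the element of order `r`
  set m := orderOf b / r with hm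
  have hb0 : 0 < orderOf b := orderOf_pos b
  set b' := b ^ m with hb'
  have hob' : orderOf b' = r := orderOf_pow_orderOf_div hb0.ne' hrb
  have hcomm : Commute a b' := hab.pow_right m
  -- the centre
  set Z := Subgroup.center (Matrix.SpecialLinearGroup (Fin n) F) with hZ
  have hZc : Nat.card Z = Nat.gcd n (q - 1) := Cfsg.Agent.H4.card_center_SL n (by omega)
  have hZq : ∀ z ∈ Z, z ^ (q - 1) = 1 := by
    intro z hz
    have h1 : (⟨z, hz⟩ : Z) ^ (q - 1) = 1 := by
      apply orderOf_dvd_iff_pow_eq_one.1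
      refine (orderOf_dvd_natCard _).trans ?_
      rw [hZc]; exact Nat.gcd_dvd_right _ _
    exact congrArg Subtype.val h1
  have hpq1 : p.Coprime (q - 1) := by
    rw [hp.coprime_iff_not_dvd]
    intro h
    have h2 : p ∣ q - (q - 1) := Nat.dvd_sub hpq h
    rw [show q - (q - 1) = 1 by omega] at h2
    exact hp.one_lt.ne' (Nat.dvd_one.1 h2)
  have hZp : ∀ z ∈ Z, z ^ p = 1 → z = 1 := by
    intro z hz h
    have h1 := orderOf_dvd_of_pow_eq_one h
    have h2 := orderOf_dvd_of_pow_eq_one (hZq z hz)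
    have h3 := Nat.dvd_gcd h1 h2
    rw [hpq1.gcd_eq_one, Nat.dvd_one, orderOf_eq_one_iff] at h3
    exact h3
  -- lift of `a`
  obtain ⟨A₀, rfl⟩ := QuotientGroup.mk_surjective a
  have hA₀ : A₀ ^ p ∈ Z := by
    rw [← QuotientGroup.eq_one_iff, QuotientGroup.mk_pow, ← ha]
    exact pow_orderOf_eq_one _
  obtain ⟨w, hw, hwp⟩ : ∃ w ∈ Z, w ^ p = (A₀ ^ p)⁻¹ := by
    have h1 : (Nat.card Z).Coprime p := by
      rw [hZc]
      exact (Nat.Coprime.coprime_dvd_right (Nat.gcd_dvd_right _ _) hpq1).symm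
    obtain ⟨w, hw⟩ := (powCoprime h1).surjective (⟨(A₀ ^ p)⁻¹, Z.inv_mem hA₀⟩ : Z)
    exact ⟨w, w.2, congrArg Subtype.val hw⟩
  set A := A₀ * w with hA
  have hwc : Commute A₀ w := (Subgroup.mem_center_iff.1 hw A₀)
  have hAp : A ^ p = 1 := by rw [hA, hwc.mul_pow, hwp, mul_inv_cancel]
  have hmkA : (QuotientGroup.mk A : Matrix.ProjectiveSpecialLinearGroup (Fin n) F) = QuotientGroup.mk A₀ := by
    rw [QuotientGroup.eq, hA]
    have : (A₀ * w)⁻¹ * A₀ = w⁻¹ := by group
    rw [this]; exact Z.inv_mem hw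
  have hA1 : A ≠ 1 := by
    intro h
    rw [← hmkA, h] at ha
    rw [QuotientGroup.mk_one, orderOf_one] at ha
    exact hp.one_lt.ne ha
  -- lift of `b'`
  obtain ⟨B₀, hB₀⟩ := QuotientGroup.mk_surjective b'
  have hB₀r : B₀ ^ r ∈ Z := by
    rw [← QuotientGroup.eq_one_iff, QuotientGroup.mk_pow, hB₀, ← hob']
    exact pow_orderOf_eq_one _
  -- commutation
  have hd : A * B₀ * A⁻¹ * B₀⁻¹ ∈ Z := by
    rw [← QuotientGroup.eq_one_iff]
    simp only [QuotientGroup.mk_mul, QuotientGroup.mk_inv]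
    rw [hmkA, hB₀]
    have h1 : (QuotientGroup.mk A₀ : Matrix.ProjectiveSpecialLinearGroup (Fin n) F) * b' = b' * QuotientGroup.mk A₀ := hcomm
    rw [h1]; group
  have hAB : A * B₀ = B₀ * A := by
    set d := A * B₀ * A⁻¹ * B₀⁻¹ with hdd
    have h1 : ∀ k : ℕ, A ^ k * B₀ * (A ^ k)⁻¹ = d ^ k * B₀ := by
      intro k
      induction k with
      | zero => simp
      | succ k ih =>
        have h2 : A * B₀ * A⁻¹ = d * B₀ := by rw [hdd]; group
        have h3 : A ^ (k + 1) * B₀ * (A ^ (k + 1))⁻¹ = A * (A ^ k * B₀ * (A ^ k)⁻¹) * A⁻¹ := by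
          rw [pow_succ']; group
        have h4 : A * d ^ k = d ^ k * A := Subgroup.mem_center_iff.1 (Z.pow_mem hd k) A
        rw [h3, ih]
        calc A * (d ^ k * B₀) * A⁻¹ = (A * d ^ k) * B₀ * A⁻¹ := by group
          _ = d ^ k * (A * B₀ * A⁻¹) := by rw [h4]; group
          _ = d ^ (k + 1) * B₀ := by rw [h2, pow_succ]; group
    have h2 := h1 p
    rw [hAp] at h2
    have h3 : d ^ p = 1 := by
      have h5 : d ^ p * B₀ = 1 * B₀ := by rw [← h2]; simp
      exact mul_right_cancel h5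
    have h4 := hZp d hd h3
    rw [hdd, mul_inv_eq_one, mul_inv_eq_iff_eq_mul] at h4
    exact h4
  set B := B₀ ^ (q - 1) with hB
  have hBr : B ^ r = 1 := by rw [hB, ← pow_mul, mul_comm, pow_mul]; exact hZq _ hB₀r
  have hABc : A * B = B * A := (show Commute A B₀ from hAB).pow_right (q - 1)
  have hB1 : B ≠ 1 := by
    intro h
    have h1 : b' ^ (q - 1) = 1 := by rw [← hB₀, ← QuotientGroup.mk_pow, ← hB, h]; rfl
    have h2 := orderOf_dvd_of_pow_eq_one h1
    rw [hob'] at h2
    exact hr1 h2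
  -- matrices
  let AM : (Fin n → F) →ₗ[F] (Fin n → F) := Matrix.toLin' (A : Matrix (Fin n) (Fin n) F)
  let BM : (Fin n → F) →ₗ[F] (Fin n → F) := Matrix.toLin' (B : Matrix (Fin n) (Fin n) F)
  have hmul : ∀ X Y : Matrix.SpecialLinearGroup (Fin n) F,
      Matrix.toLin' ((X * Y : Matrix.SpecialLinearGroup (Fin n) F) : Matrix (Fin n) (Fin n) F) =
        Matrix.toLin' (X : Matrix (Fin n) (Fin n) F) * Matrix.toLin' (Y : Matrix (Fin n) (Fin n) F) := by
    intro X Y
    rw [Matrix.SpecialLinearGroup.coe_mul, Matrix.toLin'_mul]; rfl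
  have hone : Matrix.toLin' ((1 : Matrix.SpecialLinearGroup (Fin n) F) : Matrix (Fin n) (Fin n) F) = 1 := by
    rw [Matrix.SpecialLinearGroup.coe_one, Matrix.toLin'_one]; rfl
  have hpow : ∀ (X : Matrix.SpecialLinearGroup (Fin n) F) (k : ℕ),
      Matrix.toLin' ((X ^ k : Matrix.SpecialLinearGroup (Fin n) F) : Matrix (Fin n) (Fin n) F) =
        (Matrix.toLin' (X : Matrix (Fin n) (Fin n) F)) ^ k := by
    intro X k
    induction k with
    | zero => rw [pow_zero, pow_zero, hone]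
    | succ k ih => rw [pow_succ, hmul, ih, pow_succ]
  have hinj : ∀ X : Matrix.SpecialLinearGroup (Fin n) F, Matrix.toLin' (X : Matrix (Fin n) (Fin n) F) = 1 → X = 1 := by
    intro X hX
    rw [← hone] at hX
    exact Subtype.ext (Matrix.toLin'.injective hX)
  have hAMp : AM ^ p = 1 := by
    show (Matrix.toLin' (A : Matrix (Fin n) (Fin n) F)) ^ p = 1
    rw [← hpow, hAp, hone]
  have hBMr : BM ^ r = 1 := by
    show (Matrix.toLin' (B : Matrix (Fin n) (Fin n) F)) ^ r = 1
    rw [← hpow, hBr, hone]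
  have hcM : BM * AM = AM * BM := by
    show Matrix.toLin' (B : Matrix (Fin n) (Fin n) F) * Matrix.toLin' (A : Matrix (Fin n) (Fin n) F) = _
    rw [← hmul, ← hABc, hmul]
  haveI : CharP ((Fin n → F) →ₗ[F] (Fin n → F)) p := by
    haveI : Nonempty (Fin n) := ⟨⟨0, by omega⟩⟩
    exact charP_of_injective_algebraMap (algebraMap F (Module.End F (Fin n → F))).injective p
  have hnil : IsNilpotent (AM - 1) := by
    refine ⟨p, ?_⟩
    rw [sub_pow_char_of_commute p (Commute.one_right AM), one_pow, hAMp, sub_self]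
  have hne : AM - 1 ≠ 0 := by
    intro h
    exact hA1 (hinj A (sub_eq_zero.1 h))
  obtain ⟨k, hk⟩ : ∃ k, (AM - 1) ^ k ≠ 0 ∧ (AM - 1) ^ (k + 1) = 0 ∧ 1 ≤ k := by
    have h1 := Nat.find_spec hnil
    set c := Nat.find hnil with hcdef
    have hc2 : 2 ≤ c := by
      by_contra hlt
      have h2 : c = 0 ∨ c = 1 := by omega
      rcases h2 with h2 | h2
      · rw [h2, pow_zero] at h1
        exact hne (by rw [← mul_one (AM - 1), h1, mul_zero])
      · rw [h2, pow_one] at h1
        exact hne h1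
    refine ⟨c - 1, ?_, ?_, by omega⟩
    · exact Nat.find_min hnil (m := c - 1) (by rw [← hcdef]; omega)
    · rw [Nat.sub_add_cancel (by omega)]; exact h1
  have hN2 : (AM - 1) ^ k * (AM - 1) ^ k = 0 := by
    rw [← pow_add, show k + k = (k + 1) + (k - 1) by omega, pow_add, hk.2.1, zero_mul]
  have hcN : BM * (AM - 1) ^ k = (AM - 1) ^ k * BM := by
    have h1 : Commute BM (AM - 1) := (show Commute BM AM from hcM).sub_right (Commute.one_right BM)
    exact h1.pow_right k
  have h3 := sub_one_pow_three hn (by simp) hrp hrj hrq hk.1 hN2 hcN hBMr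
  have h4 := eq_one_of_unipotent (p := p) h3 ((Nat.coprime_primes hrp hp).2 hrnp) hBMr
  exact hB1 (hinj B h4)

end Cfsg.Agent.S2364
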