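import Cfsg.Statements.S2365
import Cfsg.Agent.H39.CentU

set_option autoImplicit false
open Cfsg

namespace Cfsg.Agent.S2365

open Cfsg.Agent.H39.CentU

/-- Let q be a power of the prime p, F the field with q² elements, m ≥ 4, and let a, b be commuting elements of PSU(m, q) with a of order p. Then every prime divisor of the order of b divides the order of SU(m − 2, q). -/
theorem result {F : Type*} [Field F] [Fintype F] (p : ℕ) [Fact p.Prime] [CharP F p] (m q : ℕ) (hm : 4 ≤ m) (hF : Fintype.card F = q ^ 2)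
    (a b : Cfsg.PSU m F q) (ha : orderOf a = p) (hab : Commute a b) :
    (orderOf b).primeFactors ⊆ (Nat.card ↥(Cfsg.SU (m - 2) F q)).primeFactors := by
  classical
  have hp : p.Prime := Fact.out
  have hq2 : 2 ≤ q := Cfsg.Agent.Uni.two_le_q hF
  obtain ⟨c, hc0, hc⟩ := FiniteField.card F p
  have hpq : p ∣ q := by
    have h1 : p ∣ q ^ 2 := by rw [← hF, hc]; exact dvd_pow_self p c.ne_zero
    exact hp.dvd_of_dvd_pow h1
  intro r hr
  have hrp := Nat.prime_of_mem_primeFactors hr
  have hrb := Nat.dvd_of_mem_primeFactors hr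
  have := Fact.mk hrp
  rw [Nat.mem_primeFactors]
  refine ⟨hrp, ?_, Nat.card_pos.ne'⟩
  by_contra hnot
  have hrq : ¬ r ∣ q := fun h => hnot (dvd_card_SU hF (by omega) (Or.inl h))
  have hrj : ∀ i < m - 2, ¬ r ∣ fac q i := fun i h1 h2 =>
    hnot (dvd_card_SU hF (by omega) (Or.inr ⟨i, h1, h2⟩))
  have hr1 : ¬ r ∣ q + 1 := by
    have := hrj 0 (by omega)
    simpa [fac] using this
  have hrnp : r ≠ p := fun h => hrq (by rw [h]; exact hpq)
  have hpq1 : p.Coprime (q + 1) := by
    rw [hp.coprime_iff_not_dvd]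
    intro h
    have h2 : p ∣ (q + 1) - q := Nat.dvd_sub h hpq
    rw [show q + 1 - q = 1 by omega] at h2
    exact hp.one_lt.ne' (Nat.dvd_one.1 h2)
  have hZq : ∀ z ∈ Subgroup.center (Cfsg.SU m F q), z ^ (q + 1) = 1 := by
    intro z hz
    have h1 : (⟨z, hz⟩ : Subgroup.center (Cfsg.SU m F q)) ^ (q + 1) = 1 := by
      apply orderOf_dvd_iff_pow_eq_one.1
      refine (orderOf_dvd_natCard _).trans ?_
      rw [Cfsg.Agent.Uni.card_center_SU hF (by omega)]; exact Nat.gcd_dvd_right _ _
    exact congrArg Subtype.val h1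
  obtain ⟨A, B, hAp, hA1, hABc, hBr, hB1⟩ := lift_pair hp hrp hpq1 hr1 (Subgroup.center (Cfsg.SU m F q))
    (fun z hz g => Subgroup.mem_center_iff.1 hz g) hZq ha hrb (orderOf_pos b) hab
  let L : Cfsg.SU m F q → ((Fin m → F) →ₗ[F] (Fin m → F)) := fun X =>
    Matrix.toLin' ((X : Matrix.SpecialLinearGroup (Fin m) F) : Matrix (Fin m) (Fin m) F)
  have hmul : ∀ X Y, L (X * Y) = L X * L Y := by
    intro X Y
    show Matrix.toLin' _ = _
    rw [Subgroup.coe_mul, Matrix.SpecialLinearGroup.coe_mul, Matrix.toLin'_mul]; rfl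
  have hone : L 1 = 1 := by
    show Matrix.toLin' _ = _
    rw [Subgroup.coe_one, Matrix.SpecialLinearGroup.coe_one, Matrix.toLin'_one]; rfl
  have hpow : ∀ (X : Cfsg.SU m F q) (k : ℕ), L (X ^ k) = (L X) ^ k := by
    intro X k
    induction k with
    | zero => rw [pow_zero, pow_zero, hone]
    | succ k ih => rw [pow_succ, hmul, ih, pow_succ]
  have hinj : ∀ X : Cfsg.SU m F q, L X = 1 → X = 1 := by
    intro X hX
    rw [← hone] at hX
    exact Subtype.ext (Subtype.ext (Matrix.toLin'.injective hX))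
  have hH := Cfsg.Agent.H42.Herm.std_isH (n := m) hF
  have hiso : ∀ X : Cfsg.SU m F q, ∀ x y, Cfsg.hermForm m F q (L X x) (L X y) = Cfsg.hermForm m F q x y :=
    fun X x y => Cfsg.Agent.Uni.SU_pres X x y
  have hAMp : (L A) ^ p = 1 := by rw [← hpow, hAp, hone]
  have hBMr : (L B) ^ r = 1 := by rw [← hpow, hBr, hone]
  have hcM : L B * L A = L A * L B := by rw [← hmul, ← hABc, hmul]
  haveI : CharP ((Fin m → F) →ₗ[F] (Fin m → F)) p := by
    haveI : Nonempty (Fin m) := ⟨⟨0, by omega⟩⟩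
    exact charP_of_injective_algebraMap (algebraMap F (Module.End F (Fin m → F))).injective p
  have hnil : IsNilpotent (L A - 1) := by
    refine ⟨p, ?_⟩
    rw [sub_pow_char_of_commute p (Commute.one_right (L A)), one_pow, hAMp, sub_self]
  have hne : L A - 1 ≠ 0 := by
    intro h
    exact hA1 (hinj A (sub_eq_zero.1 h))
  obtain ⟨k, hk⟩ : ∃ k, (L A - 1) ^ k ≠ 0 ∧ (L A - 1) ^ (k + 1) = 0 ∧ 1 ≤ k := by
    have h1 := Nat.find_spec hnil
    set c := Nat.find hnil with hcdef
    have hc2 : 2 ≤ c := by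
      by_contra hlt
      have h2 : c = 0 ∨ c = 1 := by omega
      rcases h2 with h2 | h2
      · rw [h2, pow_zero] at h1
        exact hne (by rw [← mul_one (L A - 1), h1, mul_zero])
      · rw [h2, pow_one] at h1
        exact hne h1
    refine ⟨c - 1, ?_, ?_, by omega⟩
    · exact Nat.find_min hnil (m := c - 1) (by rw [← hcdef]; omega)
    · rw [Nat.sub_add_cancel (by omega)]; exact h1
  have hN2 : (L A - 1) ^ k * (L A - 1) ^ k = 0 := by
    rw [← pow_add, show k + k = (k + 1) + (k - 1) by omega, pow_add, hk.2.1, zero_mul]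
  have hcN : L B * (L A - 1) ^ k = (L A - 1) ^ k * L B := by
    have h1 : Commute (L B) (L A - 1) := (show Commute (L B) (L A) from hcM).sub_right (Commute.one_right (L B))
    exact h1.pow_right k
  have hε : ((-1 : F)) ^ k = 1 ∨ ((-1 : F)) ^ k = -1 := neg_one_pow_eq_or F k
  have h3 := sub_one_pow_three hF hm (by simp) hrp hrq hrj hH hε hk.1 hN2
    (adj_of_top hF hH (hiso A) k hk.2.1) hcN (hiso B) hBMr
  have h4 := Cfsg.Agent.H39.CentP.eq_one_of_unipotent (p := p) h3 ((Nat.coprime_primes hrp hp).2 hrnp) hBMr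
  exact hB1 (hinj B h4)

end Cfsg.Agent.S2365
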