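import Cfsg.Statements.S2366
import Cfsg.Agent.H42.HermProd

set_option autoImplicit false
open Cfsg

namespace Cfsg.Agent.S2366


open Module Polynomial
open Cfsg.Agent.H42 (ScalOrd)
open Cfsg.Agent.H42.Herm Cfsg.Agent.H42.IrrLin
open Cfsg.Agent.H42.SpSpec (exists_orderOf_unit)

section arith

theorem arith_A {q : ℕ} : (q ^ 2 - q + 1) + q = q ^ 2 + 1 := by
  have h : q ≤ q ^ 2 := Nat.le_self_pow (by norm_num) q
  omega

theorem arith_cube {q A : ℕ} (hA : A + q = q ^ 2 + 1) : (q + 1) * A = q ^ 3 + 1 := by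
  zify at hA ⊢
  linear_combination ((q : ℤ) + 1) * hA

theorem arith_four {q A : ℕ} (hA : A + q = q ^ 2 + 1) : (q ^ 2 + q + 1) * A = 1 + q ^ 2 + q ^ 4 := by
  zify at hA ⊢
  linear_combination ((q : ℤ) ^ 2 + q + 1) * hA

theorem arith_sq {q A : ℕ} (hA : A + q = q ^ 2 + 1) : A + q * 3 = (q + 1) * (q + 1) := by
  zify at hA ⊢
  linear_combination hA

theorem dvd_A {q A : ℕ} (hA : A + q = q ^ 2 + 1) : Nat.gcd 3 (q + 1) ∣ A := by
  have h1 : Nat.gcd 3 (q + 1) ∣ A + q * 3 := by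
    rw [arith_sq hA]
    exact Dvd.dvd.mul_right (Nat.gcd_dvd_right _ _) _
  exact (Nat.dvd_add_left (Dvd.dvd.mul_left (Nat.gcd_dvd_left _ _) _)).mp h1

theorem sq_sub_one (q : ℕ) : q ^ 2 - 1 = (q + 1) * (q - 1) := by
  have h6 := Nat.sq_sub_sq q 1
  rw [one_pow] at h6
  exact h6

end arith

section

variable {F : Type*} [Field F] [Fintype F] {q : ℕ}

theorem pow_sq_sub_one (hF : Fintype.card F = q ^ 2) {b : F} (hb : b ≠ 0) : b ^ (q ^ 2 - 1) = 1 := by
  rw [← hF]
  exact FiniteField.pow_card_sub_one_eq_one b hb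

variable (p : ℕ) [Fact p.Prime] [CharP F p]

theorem upper_nondec (hF : Fintype.card F = q ^ 2) {σ : ℕ} (h : BadOdd q F (FiniteField.Extension F p 3) 3 σ) :
    σ ∣ (q ^ 2 - q + 1) / Nat.gcd 3 (q + 1) := by
  obtain ⟨ε, h1, h2, h3⟩ := h
  have hA := arith_A (q := q)
  set A := q ^ 2 - q + 1 with hAdef
  clear_value A
  have hn : ε ^ (1 + q ^ 2 + q ^ 4) = 1 := by
    have e1 := FiniteField.algebraMap_norm_eq_pow_sum (K := F) (L := FiniteField.Extension F p 3) (x := ε)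
    rw [h2, map_one, FiniteField.finrank_extension F p 3, Finset.sum_range_succ, Finset.sum_range_succ,
      Finset.sum_range_succ, Finset.sum_range_zero, Nat.card_eq_fintype_card, hF, ← pow_mul, ← pow_mul, ← pow_mul] at e1
    rw [show 1 + q ^ 2 + q ^ 4 = 0 + q ^ (2 * 0) + q ^ (2 * 1) + q ^ (2 * 2) by ring]
    exact e1.symm
  have hεA : ε ^ A = 1 := by
    rw [← arith_four hA, show (q ^ 2 + q + 1) * A = ((q + 1) * A) * q + A by ring, pow_add, pow_mul,
      arith_cube hA, h1, one_pow, one_mul] at hn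
    exact hn
  obtain ⟨B, hB⟩ := dvd_A hA
  obtain ⟨e, he⟩ := Nat.gcd_dvd_right 3 (q + 1)
  have hd0 : 0 < Nat.gcd 3 (q + 1) := Nat.gcd_pos_of_pos_left _ (by norm_num)
  have hAB : A / Nat.gcd 3 (q + 1) = B := by
    rw [hB, Nat.mul_div_cancel_left _ hd0]
  rw [hAB, ← h3]
  have hq0 := Uni.q_pos hF
  obtain ⟨c, hc⟩ := mem_range_of_pow_card (K := F) (ε ^ B) (by
    rw [Nat.card_eq_fintype_card, hF]
    have e4 : (ε ^ B) ^ (q ^ 2) = (ε ^ B) ^ (q ^ 2 - 1) * ε ^ B := by
      rw [← pow_succ, Nat.sub_add_cancel (Nat.one_le_pow _ _ hq0)]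
    rw [e4, sq_sub_one, he, ← pow_mul, show B * (Nat.gcd 3 (q + 1) * e * (q - 1)) = (Nat.gcd 3 (q + 1) * B) * (e * (q - 1)) by ring,
      ← hB, pow_mul, hεA, one_pow, one_mul])
  exact ⟨c, hc.symm⟩

variable {V : Type*} [AddCommGroup V] [Module F V] [Module.Finite F V] {H : V → V → F}

theorem upper_dec_aux (hF : Fintype.card F = q ^ 2) {a : ℕ} (hq : q = p ^ a) (hH : IsH q H)
    {T : V →ₗ[F] V} (hT : ∀ u v, H (T u) (T v) = H u v) (hdet : LinearMap.det T = 1)
    {M : ℕ} (hM : 0 < M) (hMF : (M : F) ≠ 0) (hTM : T ^ M = 1)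
    {V₁ V₂ : Submodule F V} (hc : IsCompl V₁ V₂) (d1 : finrank F V₁ = 1) (d2 : finrank F V₂ = 2)
    (hA1 : ∀ v ∈ V₁, T v ∈ V₁) (hA2 : ∀ v ∈ V₂, T v ∈ V₂) (ho : ∀ u ∈ V₁, ∀ v ∈ V₂, H u v = 0) :
    T ^ (q + 1) = 1 ∨ ∃ c : F, T ^ ((q ^ 2 - 1) / Nat.gcd 3 (q + 1)) = c • (1 : V →ₗ[F] V) := by
  have ho' : ∀ u ∈ V₂, ∀ v ∈ V₁, H u v = 0 := fun u hu v hv => hH.comm_zero hF (ho v hv u hu)
  obtain ⟨a, ha, ha1⟩ := line_scalar hF (restrict_isH hF hH hc ho) d1 (T := T.restrict hA1) (fun u v => hT u v)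
  have ha2 : ∀ v ∈ V₁, T v = a • v := fun v hv => congrArg Subtype.val (LinearMap.congr_fun ha1 ⟨v, hv⟩)
  have hTM2 : (T.restrict hA2) ^ M = 1 := by
    apply LinearMap.ext
    intro x
    apply Subtype.ext
    rw [coe_pow_restrict, hTM]
    rfl
  rcases two_dim p hF hq (restrict_isH hF hH hc.symm ho') d2 (T := T.restrict hA2) (fun u v => hT u v) hM hMF hTM2
    with h1 | ⟨b, c, hbc, hdet2, W₁, W₂, hcc, hW1, hW2⟩
  · left
    apply LinearMap.ext
    intro v
    obtain ⟨x, hx, y, hy, rfl⟩ := Submodule.mem_sup.mp (by rw [hc.sup_eq_top]; trivial : v ∈ V₁ ⊔ V₂)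
    have e4 : (T ^ (q + 1)) y = y := by
      have e5 := coe_pow_restrict T V₂ hA2 (q + 1) ⟨y, hy⟩
      rw [h1] at e5
      exact e5.symm
    rw [map_add, pow_apply_of_smul (ha2 x hx), ha, one_smul, e4]
    rfl
  · right
    have hb0 : b ≠ 0 := by
      rintro rfl
      rw [zero_pow (Uni.q_ne_zero hF), mul_zero] at hbc
      exact zero_ne_one hbc
    rw [det_of_compl hc hA1 hA2, ha1, det_scalar, d1, pow_one, hdet2] at hdet
    set d := Nat.gcd 3 (q + 1) with hd
    have hd0 : 0 < d := Nat.gcd_pos_of_pos_left _ (by norm_num)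
    obtain ⟨e, he⟩ : d ∣ q + 1 := Nat.gcd_dvd_right 3 (q + 1)
    obtain ⟨f, hf⟩ : d ∣ 3 := Nat.gcd_dvd_left 3 (q + 1)
    have hm : (q ^ 2 - 1) / d = e * (q - 1) := by
      rw [sq_sub_one, he, mul_assoc, Nat.mul_div_cancel_left _ hd0]
    have hb1 := pow_sq_sub_one hF hb0
    rw [hm]
    set β := b ^ (e * (q - 1)) with hβ
    have hβ1 : β ^ (q + 1) = 1 := by
      rw [hβ, ← pow_mul, he, show e * (q - 1) * (d * e) = ((d * e) * (q - 1)) * e by ring, ← he, ← sq_sub_one,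
        pow_mul, hb1, one_pow]
    have hβ3 : β ^ 3 = 1 := by
      rw [hβ, ← pow_mul]
      nth_rewrite 1 [hf]
      rw [show e * (q - 1) * (d * f) = ((d * e) * (q - 1)) * f by ring, ← he, ← sq_sub_one,
        pow_mul, hb1, one_pow]
    have hβ0 : β ≠ 0 := pow_ne_zero _ hb0
    have hcm : c ^ (e * (q - 1)) = β := by
      have e1 : c ^ (e * (q - 1)) * β ^ q = 1 := by
        rw [hβ, ← pow_mul, mul_comm (e * (q - 1)) q, pow_mul b q, ← mul_pow, hbc, one_pow]
      have e2 : β * β ^ q = 1 := by rw [← pow_succ']; exact hβ1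
      exact mul_right_cancel₀ (pow_ne_zero q hβ0) (e1.trans e2.symm)
    have ham : a ^ (e * (q - 1)) = β := by
      have e1 : a ^ (e * (q - 1)) * (β * β) = 1 := by
        nth_rewrite 2 [← hcm]
        rw [hβ, ← mul_pow, ← mul_pow, hdet, one_pow]
      have e2 : β * (β * β) = 1 := by rw [← hβ3]; ring
      exact mul_right_cancel₀ (mul_ne_zero hβ0 hβ0) (e1.trans e2.symm)
    refine ⟨β, ?_⟩
    apply LinearMap.ext
    intro v
    obtain ⟨x, hx, y, hy, rfl⟩ := Submodule.mem_sup.mp (by rw [hc.sup_eq_top]; trivial : v ∈ V₁ ⊔ V₂)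
    have e4 : (T ^ (e * (q - 1))) y = β • y := by
      obtain ⟨y₁, hy₁, y₂, hy₂, hy12⟩ := Submodule.mem_sup.mp (by rw [hcc.sup_eq_top]; trivial : (⟨y, hy⟩ : V₂) ∈ W₁ ⊔ W₂)
      have e5 : (y₁ : V) + (y₂ : V) = y := congrArg Subtype.val hy12
      have e6 : T (y₁ : V) = b • (y₁ : V) := congrArg Subtype.val (hW1 y₁ hy₁)
      have e7 : T (y₂ : V) = c • (y₂ : V) := congrArg Subtype.val (hW2 y₂ hy₂)
      rw [← e5, map_add, pow_apply_of_smul e6, pow_apply_of_smul e7, hcm, smul_add]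
    rw [map_add, pow_apply_of_smul (ha2 x hx), ham, e4]
    show β • x + β • y = β • (x + y)
    rw [smul_add]

theorem upper_dec (hF : Fintype.card F = q ^ 2) {a : ℕ} (hq : q = p ^ a) (hV : finrank F V = 3) (hH : IsH q H)
    {T : V →ₗ[F] V} (hT : ∀ u v, H (T u) (T v) = H u v) (hdet : LinearMap.det T = 1)
    {M : ℕ} (hM : 0 < M) (hMF : (M : F) ≠ 0) (hTM : T ^ M = 1) (hdec : DecH H T) :
    T ^ (q + 1) = 1 ∨ ∃ c : F, T ^ ((q ^ 2 - 1) / Nat.gcd 3 (q + 1)) = c • (1 : V →ₗ[F] V) := by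
  obtain ⟨V₁, V₂, hc, h1, h2, hA1, hA2, ho⟩ := hdec
  have e0 := Submodule.finrank_add_eq_of_isCompl hc
  have e1 : 0 < finrank F V₁ := by rwa [Module.finrank_pos_iff, Submodule.nontrivial_iff_ne_bot]
  have e2 : 0 < finrank F V₂ := by rwa [Module.finrank_pos_iff, Submodule.nontrivial_iff_ne_bot]
  by_cases h3 : finrank F V₁ = 1
  · exact upper_dec_aux p hF hq hH hT hdet hM hMF hTM hc h3 (by omega) hA1 hA2 ho
  · exact upper_dec_aux p hF hq hH hT hdet hM hMF hTM hc.symm (by omega) (by omega) hA2 hA1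
      (fun u hu v hv => hH.comm_zero hF (ho v hv u hu))

theorem upper_p (hF : Fintype.card F = q ^ 2) {a : ℕ} (ha : 1 ≤ a) (hq : q = p ^ a) (hp2 : p ≠ 2) (hV : finrank F V = 3)
    (hH : IsH q H) {T : V →ₗ[F] V} (hT : ∀ u v, H (T u) (T v) = H u v) (hdet : LinearMap.det T = 1)
    {j σ : ℕ} (hs : ScalOrd T (p ^ (j + 1) * σ)) (hσ : ¬ p ∣ σ) :
    j = 0 ∧ σ ∣ (q + 1) / Nat.gcd 3 (q + 1) := by
  have hp : p.Prime := Fact.out
  have hp3 : 3 ≤ p := by
    have := hp.two_le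
    omega
  haveI : Nontrivial V := Module.finrank_pos_iff.mp (by omega : 0 < finrank F V)
  have hσ0 : 0 < σ := Nat.pos_of_ne_zero (by rintro rfl; exact hσ (dvd_zero _))
  have hTk := pow_isom (T := T) hT
  obtain ⟨c, hc⟩ := (hs _).mpr dvd_rfl
  have hcq := scal_pow_norm hH hF hT hc
  set M := σ * (q + 1) with hMdef
  have hMF : (M : F) ≠ 0 := cast_ne p ha hq hσ
  have hTM : (T ^ M) ^ p ^ (j + 1) = 1 := by
    rw [← pow_mul, hMdef, show σ * (q + 1) * p ^ (j + 1) = (p ^ (j + 1) * σ) * (q + 1) by ring, pow_mul, hc,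
      _root_.smul_pow, hcq, one_pow, one_smul]
  have hpq : ¬ p ∣ q + 1 := by
    intro h
    have h1 : p ∣ q := by rw [hq]; exact dvd_pow_self p (by omega)
    have h2 : p ∣ 1 := (Nat.dvd_add_right h1).mp h
    exact hp.one_lt.ne' (Nat.dvd_one.mp h2)
  have hTM2 : (T ^ M) ^ p ^ j ≠ 1 := by
    intro h
    rw [← pow_mul] at h
    have h1 := (hs _).mp ⟨1, by rw [one_smul]; exact h⟩
    rw [hMdef, show σ * (q + 1) * p ^ j = (p ^ j * σ) * (q + 1) by ring, pow_succ,
      show p ^ j * p * σ = (p ^ j * σ) * p by ring] at h1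
    exact hpq ((Nat.mul_dvd_mul_iff_left (Nat.mul_pos (pow_pos hp.pos j) hσ0)).mp h1)
  have hord : orderOf (T ^ M) = p ^ (j + 1) := orderOf_eq_prime_pow hTM2 hTM
  obtain ⟨t, hjt, ht1, ht0⟩ := Cfsg.Agent.H42.SpSpec.exists_top_pow p (T ^ M) hord
  have h1 := Cfsg.Agent.H42.IrrLin.mul_finrank_range_le (T ^ M - 1) t ht1
  have h2 : 0 < finrank F (LinearMap.range ((T ^ M - 1) ^ t)) := by
    rw [Module.finrank_pos_iff, Submodule.nontrivial_iff_ne_bot, Ne, LinearMap.range_eq_bot]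
    exact ht0
  rw [hV] at h1
  have ht1' : 1 ≤ t := le_trans (Nat.one_le_pow _ _ hp.pos) hjt
  have ht2 : t ≤ 2 := by
    have h3 : t + 1 ≤ (t + 1) * finrank F (LinearMap.range ((T ^ M - 1) ^ t)) := Nat.le_mul_of_pos_right _ h2
    omega
  have hr1 : finrank F (LinearMap.range ((T ^ M - 1) ^ t)) = 1 := by
    by_contra hne
    have h3 : 2 ≤ finrank F (LinearMap.range ((T ^ M - 1) ^ t)) := by omega
    have h4 : (t + 1) * 2 ≤ (t + 1) * finrank F (LinearMap.range ((T ^ M - 1) ^ t)) := Nat.mul_le_mul_left _ h3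
    omega
  have hj0 : j = 0 := by
    by_contra hj
    have h3 : p ^ 1 ≤ p ^ j := Nat.pow_le_pow_right hp.pos (by omega)
    rw [pow_one] at h3
    omega
  subst hj0
  refine ⟨rfl, ?_⟩
  rw [zero_add, pow_one] at hTM hs hc
  -- notation
  set U := T ^ M with hU
  set N := U - 1 with hN
  set U' := U ^ (p - 1) with hU'
  have hUU' : U * U' = 1 := by rw [hU', ← pow_succ', Nat.sub_add_cancel hp.pos, hTM]
  have hU'U : U' * U = 1 := by rw [hU', ← pow_succ, Nat.sub_add_cancel hp.pos, hTM]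
  set N' := U' - 1 with hN'
  have hN'N : N' = (-U') * N := by
    rw [hN, hN', mul_sub, neg_mul, hU'U, mul_one]
    abel
  have hcUN : Commute U' N := by
    rw [hN, hU']
    exact ((Commute.refl U).pow_left _).sub_right (Commute.one_right _)
  have hadj1 : ∀ u v, H (u) (N v) = H (N' u) v := by
    intro u v
    show H u (U v - v) = H (U' u - u) v
    rw [hH.sub_right hF, hH.sub_left]
    congr 1
    have e1 : U (U' u) = u := by rw [← Module.End.mul_apply, hUU']; rfl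
    conv_lhs => rw [← e1]
    exact hTk M _ _
  have hadj : ∀ (k : ℕ) u v, H u ((N ^ k) v) = H ((N' ^ k) u) v := by
    intro k
    induction k with
    | zero => intro u v; rfl
    | succ k ih =>
      intro u v
      rw [pow_succ, pow_succ', Module.End.mul_apply, Module.End.mul_apply, ih, hadj1]
  have hN't : N' ^ t = (-U') ^ t * N ^ t := by
    rw [hN'N, (hcUN.neg_left).mul_pow]
  obtain ⟨w', hw', hw'1⟩ := finrank_eq_one_iff'.mp hr1
  obtain ⟨x, hx⟩ := w'.2
  set w : V := (w' : V) with hw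
  have hw0 : w ≠ 0 := fun h => hw' (Subtype.ext h)
  have hwl : ∀ v, ∃ l : F, (N ^ t) v = l • w := by
    intro v
    obtain ⟨l, hl⟩ := hw'1 ⟨(N ^ t) v, v, rfl⟩
    exact ⟨l, (congrArg Subtype.val hl).symm⟩
  set S := T ^ p with hS
  have hSk := fun k : ℕ => pow_isom (T := S) (hTk p) k
  have hcSN : Commute S (N ^ t) := by
    rw [hS, hN, hU]
    exact (((Commute.refl T).pow_pow p M).sub_right (Commute.one_right _)).pow_right t
  obtain ⟨α, hα⟩ : ∃ α : F, S w = α • w := by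
    obtain ⟨l, hl⟩ := hwl (S x)
    refine ⟨l, ?_⟩
    rw [← hl, ← hx]
    exact LinearMap.congr_fun hcSN.eq x
  have hSM : S ^ M = 1 := by
    rw [hS, ← pow_mul, mul_comm, pow_mul]
    exact hTM
  have hM0 : 0 < M := Nat.mul_pos hσ0 (Nat.succ_pos q)
  have hα0 : α ≠ 0 := by
    rintro rfl
    rw [zero_smul] at hα
    apply hw0
    have e1 : (S ^ M) w = w := by rw [hSM]; rfl
    rw [← e1]
    obtain ⟨m, hm⟩ : ∃ m, M = m + 1 := ⟨M - 1, by omega⟩
    rw [hm, pow_succ, Module.End.mul_apply, hα, map_zero]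
  have hαM : α ^ M = 1 := by
    have e1 := pow_apply_of_smul hα M
    rw [hSM] at e1
    have e2 : (1 : F) • w = α ^ M • w := by rw [one_smul]; exact e1
    exact (smul_left_injective F hw0 e2).symm
  have hker : ∀ v, (N ^ t) v = 0 → H v w = 0 := by
    intro v hv
    rw [← hx, hadj, hN't, Module.End.mul_apply, hv, map_zero, hH.zero_left]
  have hxw : H x w ≠ 0 := by
    intro h0
    apply hw0
    apply hH.nondeg' hF
    intro v
    obtain ⟨l, hl⟩ := hwl v
    have e1 : (N ^ t) (v - l • x) = 0 := by rw [map_sub, map_smul, hx, hl, sub_self]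
    have e2 := hker _ e1
    rw [hH.sub_left, hH.smul_left, h0, mul_zero, sub_zero] at e2
    exact e2
  have hα1 : α ^ (q + 1) = 1 := by
    have e1 : (N ^ t) (S x - α • x) = 0 := by
      rw [map_sub, map_smul, hx]
      have e2 : (N ^ t) (S x) = S ((N ^ t) x) := (LinearMap.congr_fun hcSN.eq x).symm
      rw [e2, hx, hα, sub_self]
    have e2 := hker _ e1
    rw [hH.sub_left, hH.smul_left, sub_eq_zero] at e2
    have e3 : H (S x) (S w) = H x w := hTk p x w
    rw [hα, hH.smul_right, e2, ← mul_assoc, ← pow_succ] at e3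
    exact mul_right_cancel₀ hxw (by rw [e3, one_mul])
  have hww : H w w = 0 := by
    apply hker
    rw [← hx, ← Module.End.mul_apply, ← pow_add]
    have e1 : N ^ (t + t) = N ^ (t - 1) * N ^ (t + 1) := by rw [← pow_add]; congr 1; omega
    rw [e1, ht1, mul_zero]
    rfl
  -- the eigenspace
  set D : V →ₗ[F] V := S - α • 1 with hD
  have hDa : ∀ v, D v = S v - α • v := fun v => rfl
  have hKm : ∀ v, v ∈ LinearMap.ker D ↔ S v = α • v := by
    intro v
    rw [LinearMap.mem_ker, hDa, sub_eq_zero]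
  have hdisj : Disjoint (LinearMap.ker D) (LinearMap.range D) := by
    rw [Submodule.disjoint_def]
    rintro v hv ⟨z, hz⟩
    rw [hKm] at hv
    have e1 : S z = α • z + v := by rw [← hz, hDa]; abel
    have e2 : ∀ m : ℕ, (S ^ (m + 1)) z = α ^ (m + 1) • z + ((m + 1 : ℕ) * α ^ m) • v := by
      intro m
      induction m with
      | zero => simp [e1]
      | succ m ih =>
        rw [pow_succ', Module.End.mul_apply, ih, map_add, map_smul, map_smul, e1, hv]
        push_cast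
        module
    have e3 := e2 (M - 1)
    rw [Nat.sub_add_cancel hM0, hSM, hαM, one_smul] at e3
    have e4 : ((M : F) * α ^ (M - 1)) • v = 0 := by
      have e5 : z = z + ((M : F) * α ^ (M - 1)) • v := e3
      exact (add_eq_left.mp e5.symm)
    rcases smul_eq_zero.mp e4 with e5 | e5
    · exact absurd e5 (mul_ne_zero hMF (pow_ne_zero _ hα0))
    · exact e5
  have hrk := LinearMap.finrank_range_add_finrank_ker D
  have hcc : IsCompl (LinearMap.ker D) (LinearMap.range D) :=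
    ⟨hdisj, codisjoint_iff.mpr (Submodule.eq_top_of_disjoint _ _ (by omega) hdisj)⟩
  have hαq : α⁻¹ = α ^ q := by
    rw [inv_eq_iff_eq_inv]
    apply eq_inv_of_mul_eq_one_left
    rw [← pow_succ']
    exact hα1
  have ho : ∀ u ∈ LinearMap.ker D, ∀ v ∈ LinearMap.range D, H u v = 0 := by
    rintro u hu _ ⟨z, rfl⟩
    rw [hKm] at hu
    rw [hDa, hH.sub_right hF, hH.smul_right]
    have e1 : H (S u) (S z) = H u z := hTk p u z
    rw [hu, hH.smul_left] at e1
    have e2 : H u (S z) = α⁻¹ * H u z := by rw [← e1, ← mul_assoc, inv_mul_cancel₀ hα0, one_mul]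
    rw [e2, hαq, sub_self]
  have hwK : w ∈ LinearMap.ker D := (hKm w).mpr hα
  have hK1 : 0 < finrank F (LinearMap.ker D) := by
    haveI : Nontrivial (LinearMap.ker D) := ⟨⟨⟨w, hwK⟩, 0, fun h => hw0 (congrArg Subtype.val h)⟩⟩
    exact Module.finrank_pos
  have hK2 : finrank F (LinearMap.ker D) ≠ 1 := by
    intro h3
    apply hw0
    apply hH.nondeg
    intro v
    obtain ⟨y, hy, z, hz, rfl⟩ := Submodule.mem_sup.mp (by rw [hcc.sup_eq_top]; trivial : v ∈ LinearMap.ker D ⊔ LinearMap.range D)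
    obtain ⟨l, hl⟩ := (finrank_eq_one_iff_of_nonzero' (⟨w, hwK⟩ : LinearMap.ker D)
      (fun h => hw0 (congrArg Subtype.val h))).mp h3 ⟨y, hy⟩
    have e1 : l • w = y := congrArg Subtype.val hl
    rw [hH.add_right hF, ho w hwK z hz, add_zero, ← e1, hH.smul_right, hww, mul_zero]
  have hSs : ScalOrd S σ := by
    intro m
    rw [hS, ← pow_mul, hs]
    exact Nat.mul_dvd_mul_iff_left hp.pos
  have hcR : Commute S D := by
    rw [hD]
    refine (Commute.refl S).sub_right ?_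
    exact (Commute.one_right S).smul_right α
  have hA1 : ∀ v ∈ LinearMap.ker D, S v ∈ LinearMap.ker D := by
    intro v hv
    rw [(hKm v).mp hv]
    exact Submodule.smul_mem _ _ hv
  have hA2 : ∀ v ∈ LinearMap.range D, S v ∈ LinearMap.range D := by
    rintro _ ⟨z, rfl⟩
    exact ⟨S z, (LinearMap.congr_fun hcR.eq z).symm⟩
  by_cases hR : finrank F (LinearMap.range D) = 0
  · have e1 : LinearMap.range D = ⊥ := Submodule.finrank_eq_zero.mp hR
    have e2 : S ^ 1 = α • (1 : V →ₗ[F] V) := by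
      rw [pow_one]
      exact sub_eq_zero.mp (LinearMap.range_eq_bot.mp e1)
    have e3 := (hSs 1).mp ⟨α, e2⟩
    exact e3.trans (one_dvd _)
  · have hR1 : finrank F (LinearMap.range D) = 1 := by omega
    have hK2' : finrank F (LinearMap.ker D) = 2 := by omega
    obtain ⟨β, hβ, hβ1⟩ := line_scalar hF (restrict_isH hF hH hcc.symm
      (fun u hu v hv => hH.comm_zero hF (ho v hv u hu))) hR1 (T := S.restrict hA2) (fun u v => hTk p u v)
    have hα2 : S.restrict hA1 = α • (1 : LinearMap.ker D →ₗ[F] LinearMap.ker D) := by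
      apply LinearMap.ext
      intro v
      apply Subtype.ext
      exact (hKm v).mp v.2
    have hdS : LinearMap.det S = 1 := by rw [hS, map_pow, hdet, one_pow]
    rw [det_of_compl hcc hA1 hA2, hα2, hβ1, det_scalar, det_scalar, hK2', hR1, pow_one] at hdS
    set d := Nat.gcd 3 (q + 1) with hd
    have hd0 : 0 < d := Nat.gcd_pos_of_pos_left _ (by norm_num)
    obtain ⟨e, he⟩ : d ∣ q + 1 := Nat.gcd_dvd_right 3 (q + 1)
    obtain ⟨f, hf⟩ : d ∣ 3 := Nat.gcd_dvd_left 3 (q + 1)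
    have hm : (q + 1) / d = e := by rw [he, Nat.mul_div_cancel_left _ hd0]
    rw [hm, ← hSs]
    have hαe3 : (α ^ e) ^ 3 = 1 := by
      rw [← pow_mul]
      nth_rewrite 1 [hf]
      rw [show e * (d * f) = (d * e) * f by ring, ← he, pow_mul, hα1, one_pow]
    have hβe : β ^ e = α ^ e := by
      have e1 : β ^ e * (α ^ e) ^ 2 = 1 := by
        rw [← pow_mul, mul_comm e 2, pow_mul, ← mul_pow, mul_comm β, hdS, one_pow]
      have e2 : α ^ e * (α ^ e) ^ 2 = 1 := by rw [← hαe3]; ring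
      exact mul_right_cancel₀ (pow_ne_zero 2 (pow_ne_zero e hα0)) (e1.trans e2.symm)
    refine ⟨α ^ e, ?_⟩
    apply LinearMap.ext
    intro v
    obtain ⟨y, hy, z, hz, rfl⟩ := Submodule.mem_sup.mp (by rw [hcc.sup_eq_top]; trivial : v ∈ LinearMap.ker D ⊔ LinearMap.range D)
    have e4 : S z = β • z := congrArg Subtype.val (LinearMap.congr_fun hβ1 ⟨z, hz⟩)
    rw [map_add, pow_apply_of_smul ((hKm y).mp hy), pow_apply_of_smul e4, hβe, ← smul_add]
    rfl

end


section lower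

variable {F : Type*} [Field F] [Fintype F] {q : ℕ}

theorem exists_of_dvd {G : Type*} [Group G] {N s : ℕ} (hN : 0 < N) (hy : ∃ y : G, orderOf y = N) (hs : s ∣ N) :
    ∃ y : G, orderOf y = s := by
  obtain ⟨y, hy⟩ := hy
  obtain ⟨k, rfl⟩ := hs
  have hk : 0 < k := Nat.pos_of_mul_pos_left hN
  refine ⟨y ^ k, ?_⟩
  rw [orderOf_pow_of_dvd hk.ne' (by rw [hy]; exact Dvd.intro_left _ rfl), hy, Nat.mul_div_cancel _ hk]

theorem prodMap_pow {V W : Type*} [AddCommGroup V] [Module F V] [AddCommGroup W] [Module F W]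
    (T : V →ₗ[F] V) (T' : W →ₗ[F] W) (m : ℕ) : (T.prodMap T') ^ m = (T ^ m).prodMap (T' ^ m) := by
  induction m with
  | zero => rfl
  | succ m ih => rw [pow_succ, ih, pow_succ, pow_succ]; rfl

theorem lower_one (hF : Fintype.card F = q ^ 2) : ∃ y : Cfsg.PSU 3 F q, orderOf y = q + 1 := by
  have hq0 := Uni.q_pos hF
  obtain ⟨a, ha0, ha⟩ := exists_orderOf_unit (E := F) (N := q + 1) (by
    rw [Nat.card_eq_fintype_card, hF, sq_sub_one]
    exact Dvd.intro _ rfl)
  have ha1 : a ^ (q + 1) = 1 := by rw [← ha]; exact pow_orderOf_eq_one a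
  have hai : (a⁻¹) ^ (q + 1) = 1 := by rw [inv_pow, ha1, inv_one]
  refine exists_psu_of_end hF (by norm_num) (V := F × (F × F)) (by
      rw [Module.finrank_prod, Module.finrank_prod, Module.finrank_self])
    (prod_isH hF (line_isH hF) (prod_isH hF (line_isH hF) (line_isH hF)))
    ((a • (1 : F →ₗ[F] F)).prodMap ((a⁻¹ • (1 : F →ₗ[F] F)).prodMap (1 : F →ₗ[F] F))) ?_ ?_ ?_
  · rw [LinearMap.det_prodMap, LinearMap.det_prodMap, det_scalar, det_scalar, Module.finrank_self, pow_one, pow_one,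
      map_one, mul_one, mul_inv_cancel₀ ha0]
  · rintro ⟨u, v, w⟩ ⟨u', v', w'⟩
    show (a * u) * (a * u') ^ q + ((a⁻¹ * v) * (a⁻¹ * v') ^ q + w * w' ^ q) = u * u' ^ q + (v * v' ^ q + w * w' ^ q)
    rw [mul_pow, mul_pow, show (a * u) * (a ^ q * u' ^ q) = a ^ (q + 1) * (u * u' ^ q) by ring,
      show (a⁻¹ * v) * ((a⁻¹) ^ q * v' ^ q) = (a⁻¹) ^ (q + 1) * (v * v' ^ q) by ring, ha1, hai, one_mul, one_mul]
  · intro m
    rw [prodMap_pow, prodMap_pow, one_pow, smul_one_pow, smul_one_pow]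
    constructor
    · rintro ⟨c, hc⟩
      have h1 := LinearMap.congr_fun hc ((1, 0, 1) : F × (F × F))
      have h2 : a ^ m * 1 = c * 1 := congrArg Prod.fst h1
      have h3 : (1 : F) = c * 1 := congrArg (fun z => z.2.2) h1
      rw [← ha]
      apply orderOf_dvd_of_pow_eq_one
      rw [← mul_one (a ^ m), h2, ← h3]
    · intro h
      have h1 : a ^ m = 1 := by
        rw [← orderOf_dvd_iff_pow_eq_one, ha]
        exact h
      refine ⟨1, ?_⟩
      rw [inv_pow, h1, inv_one, one_smul, one_smul]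
      rfl

theorem pow_eq_of_gcd {F' : Type*} [Field F'] {a : F'} {N k m : ℕ} (ha : orderOf a = N) (hN : 0 < N) :
    a ^ (m * k) = 1 ↔ N / Nat.gcd k N ∣ m := by
  rw [← orderOf_dvd_iff_pow_eq_one, ha]
  have hg : 0 < Nat.gcd k N := Nat.gcd_pos_of_pos_right _ hN
  obtain ⟨N', hN'⟩ := Nat.gcd_dvd_right k N
  obtain ⟨k', hk'⟩ := Nat.gcd_dvd_left k N
  have hcop : Nat.Coprime k' N' := by
    have h := Nat.coprime_div_gcd_div_gcd hg
    nth_rewrite 1 [hk'] at h
    rw [Nat.mul_div_cancel_left _ hg] at h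
    have h2 : N / Nat.gcd k N = N' := by
      nth_rewrite 1 [hN']
      rw [Nat.mul_div_cancel_left _ hg]
    rwa [h2] at h
  have h2 : N / Nat.gcd k N = N' := by
    nth_rewrite 1 [hN']
    rw [Nat.mul_div_cancel_left _ hg]
  rw [h2]
  constructor
  · intro h
    have h3 : Nat.gcd k N * N' ∣ Nat.gcd k N * (m * k') := by
      rw [← hN', show Nat.gcd k N * (m * k') = m * (Nat.gcd k N * k') by ring, ← hk']
      exact h
    exact hcop.symm.dvd_of_dvd_mul_right ((Nat.mul_dvd_mul_iff_left hg).mp h3)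
  · rintro ⟨r, rfl⟩
    rw [show N' * r * k = r * (k * N') by ring]
    apply Dvd.dvd.mul_left
    have e1 : k * N' = N * k' := by
      calc k * N' = (Nat.gcd k N * k') * N' := by rw [← hk']
        _ = (Nat.gcd k N * N') * k' := by ring
        _ = N * k' := by rw [← hN']
    rw [e1]
    exact Dvd.intro _ rfl

theorem lower_three (hF : Fintype.card F = q ^ 2) (hq2 : 2 ≤ q) :
    ∃ y : Cfsg.PSU 3 F q, orderOf y = (q ^ 2 - 1) / Nat.gcd 3 (q + 1) := by
  have hq0 := Uni.q_pos hF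
  obtain ⟨t, ht0, ht⟩ := exists_orderOf_unit (E := F) (N := q ^ 2 - 1) (by
    rw [Nat.card_eq_fintype_card, hF])
  have ht1 : t ^ (q ^ 2) = t := by rw [← hF]; exact FiniteField.pow_card t
  have htq : t ^ (q ^ 2 - 1) = 1 := pow_sq_sub_one hF ht0
  have ht2 : ((t ^ q)⁻¹) ^ q = t⁻¹ := by
    rw [inv_pow, ← pow_mul, ← sq, ht1]
  have h3 : t ^ (q - 1) * (t ^ (q - 1)) ^ q = 1 := by
    rw [← pow_succ', ← pow_mul, mul_comm, ← sq_sub_one, htq]
  have hq1 : t ^ (q - 1) * t = t ^ q := by rw [← pow_succ, Nat.sub_add_cancel hq0]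
  refine exists_psu_of_end hF (by norm_num) (V := F × (F × F)) (by
      rw [Module.finrank_prod, Module.finrank_prod, Module.finrank_self])
    (prod_isH hF (line_isH hF) (hyp_isH hF))
    ((t ^ (q - 1) • (1 : F →ₗ[F] F)).prodMap ((t • (1 : F →ₗ[F] F)).prodMap ((t ^ q)⁻¹ • (1 : F →ₗ[F] F)))) ?_ ?_ ?_
  · rw [LinearMap.det_prodMap, LinearMap.det_prodMap, det_scalar, det_scalar, det_scalar, Module.finrank_self, pow_one,
      pow_one, pow_one, ← mul_assoc, hq1, mul_inv_cancel₀ (pow_ne_zero _ ht0)]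
  · rintro ⟨u, v, w⟩ ⟨u', v', w'⟩
    show (t ^ (q - 1) * u) * (t ^ (q - 1) * u') ^ q + ((t * v) * ((t ^ q)⁻¹ * w') ^ q + ((t ^ q)⁻¹ * w) * (t * v') ^ q) =
      u * u' ^ q + (v * w' ^ q + w * v' ^ q)
    have e1 : (t ^ (q - 1) * u) * (t ^ (q - 1) * u') ^ q = u * u' ^ q := by
      rw [mul_pow]
      linear_combination (u * u' ^ q) * h3
    have e2 : (t * v) * ((t ^ q)⁻¹ * w') ^ q = v * w' ^ q := by
      rw [mul_pow, ht2]
      linear_combination (v * w' ^ q) * mul_inv_cancel₀ ht0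
    have e3 : ((t ^ q)⁻¹ * w) * (t * v') ^ q = w * v' ^ q := by
      rw [mul_pow]
      linear_combination (w * v' ^ q) * inv_mul_cancel₀ (pow_ne_zero q ht0)
    rw [e1, e2, e3]
  · intro m
    rw [prodMap_pow, prodMap_pow, smul_one_pow, smul_one_pow, smul_one_pow]
    -- t^(m (q+1)) = 1 and t ^ (m (q - 2)) = 1
    obtain ⟨k, rfl⟩ : ∃ k, q = k + 2 := ⟨q - 2, by omega⟩
    have hN : 0 < (k + 2) ^ 2 - 1 := by
      have : 2 ^ 2 ≤ (k + 2) ^ 2 := Nat.pow_le_pow_left (by omega) 2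
      omega
    have hgcd : ∀ z : F, z ^ (k + 2 + 1) = 1 → (z ^ k = 1 ↔ z ^ 3 = 1) := by
      intro z hz
      have e1 : z ^ k * z ^ 3 = 1 := by rw [← pow_add]; exact hz
      constructor
      · intro h; rwa [h, one_mul] at e1
      · intro h; rwa [h, mul_one] at e1
    have hdd : ∀ m : ℕ, ((k + 2) ^ 2 - 1) / Nat.gcd 3 (k + 2 + 1) ∣ m ↔ (t ^ (m * 3) = 1 ∧ t ^ (m * (k + 2 + 1)) = 1) := by
      intro m
      have h1 : Nat.gcd (Nat.gcd 3 (k + 2 + 1)) ((k + 2) ^ 2 - 1) = Nat.gcd 3 (k + 2 + 1) := by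
        apply Nat.gcd_eq_left
        rw [sq_sub_one]
        exact Dvd.dvd.mul_right (Nat.gcd_dvd_right _ _) _
      have h2 := pow_eq_of_gcd (a := t) (k := Nat.gcd 3 (k + 2 + 1)) (m := m) ht hN
      rw [h1] at h2
      rw [← h2]
      constructor
      · intro h
        obtain ⟨r, hr⟩ := Nat.gcd_dvd_left 3 (k + 2 + 1)
        obtain ⟨r', hr'⟩ := Nat.gcd_dvd_right 3 (k + 2 + 1)
        constructor
        · rw [hr, ← mul_assoc, pow_mul, h, one_pow]
        · rw [hr', ← mul_assoc, pow_mul, h, one_pow]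
      · rintro ⟨h3, h4⟩
        have h5 : orderOf (t ^ m) ∣ Nat.gcd 3 (k + 2 + 1) := by
          apply Nat.dvd_gcd
          · apply orderOf_dvd_of_pow_eq_one
            rw [← pow_mul]
            exact h3
          · apply orderOf_dvd_of_pow_eq_one
            rw [← pow_mul]
            exact h4
        rw [pow_mul]
        exact orderOf_dvd_iff_pow_eq_one.mp h5
    rw [hdd]
    have htm0 : t ^ m ≠ 0 := pow_ne_zero _ ht0
    constructor
    · rintro ⟨c, hc⟩
      have h1 := LinearMap.congr_fun hc ((1, 1, 1) : F × (F × F))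
      have h2 : (t ^ (k + 2 - 1)) ^ m * 1 = c * 1 := congrArg Prod.fst h1
      have h3 : t ^ m * 1 = c * 1 := congrArg (fun z => z.2.1) h1
      have h4 : ((t ^ (k + 2))⁻¹) ^ m * 1 = c * 1 := congrArg (fun z => z.2.2) h1
      rw [mul_one, mul_one] at h2 h3 h4
      have h5 : (t ^ m) ^ (k + 2 + 1) = 1 := by
        rw [pow_succ]
        nth_rewrite 2 [h3]
        rw [← h4, ← pow_mul, mul_comm m, pow_mul, ← mul_pow, mul_inv_cancel₀ (pow_ne_zero _ ht0), one_pow]
      have h6 : (t ^ m) ^ k = 1 := by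
        have h7 : (t ^ m) ^ k * t ^ m = 1 * t ^ m := by
          rw [← pow_succ, one_mul, ← pow_mul, mul_comm m, pow_mul]
          rw [h3, ← h2]
          rfl
        exact mul_right_cancel₀ htm0 h7
      rw [pow_mul, pow_mul]
      exact ⟨(hgcd _ h5).mp h6, h5⟩
    · rintro ⟨h5, h6⟩
      rw [pow_mul] at h5 h6
      have h7 := (hgcd _ h6).mpr h5
      refine ⟨t ^ m, ?_⟩
      have e1 : (t ^ (k + 2 - 1)) ^ m = t ^ m := by
        have : k + 2 - 1 = k + 1 := by omega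
        rw [this, ← pow_mul, mul_comm, pow_mul, pow_succ, h7, one_mul]
      have e2 : ((t ^ (k + 2))⁻¹) ^ m = t ^ m := by
        rw [inv_pow, ← pow_mul, mul_comm, pow_mul, inv_eq_iff_eq_inv]
        apply eq_inv_of_mul_eq_one_left
        rw [← pow_succ]
        exact h6
      rw [e1, e2]
      rfl

variable (p : ℕ) [Fact p.Prime] [CharP F p]

theorem lower_two (hF : Fintype.card F = q ^ 2) {a : ℕ} (ha : 1 ≤ a) (hq : q = p ^ a) :
    ∃ y : Cfsg.PSU 3 F q, orderOf y = p * (q + 1) / Nat.gcd 3 (q + 1) := by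
  have hp : p.Prime := Fact.out
  obtain ⟨t, ⟨H, hH, hHt⟩, hto⟩ := unip (F := F) p hF (k := 2) (j := 0) (by norm_num)
  rw [zero_add, pow_one] at hto
  haveI := finite_unip (F := F) 2
  have hfr : finrank F (AdjoinRoot ((X - 1 : F[X]) ^ 2)) = 2 := finrank_unip
  haveI : Nontrivial (AdjoinRoot ((X - 1 : F[X]) ^ 2)) :=
    Module.finrank_pos_iff (R := F).mp (by rw [hfr]; omega)
  obtain ⟨b, hb0, hb⟩ := exists_orderOf_unit (E := F) (N := q + 1) (by
    rw [Nat.card_eq_fintype_card, hF, sq_sub_one]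
    exact Dvd.intro _ rfl)
  have hb1 : b ^ (q + 1) = 1 := by rw [← hb]; exact pow_orderOf_eq_one b
  have hbi : ((b ^ 2)⁻¹) ^ (q + 1) = 1 := by rw [inv_pow, ← pow_mul, mul_comm, pow_mul, hb1, one_pow, inv_one]
  have hpow : ∀ m : ℕ, (LinearMap.mulLeft F t) ^ m = 1 ↔ p ∣ m := by
    intro m
    rw [← hto, ← orderOf_dvd_iff_pow_eq_one, Cfsg.Agent.H42.SpSpec.orderOf_mulLeft]
  have hdt : LinearMap.det (LinearMap.mulLeft F t) = 1 := by
    have h1 : (LinearMap.det (LinearMap.mulLeft F t)) ^ p = 1 := by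
      rw [← map_pow, (hpow _).mpr dvd_rfl, map_one]
    have h2 : (LinearMap.det (LinearMap.mulLeft F t) - 1) ^ p = 0 := by
      rw [sub_pow_char, one_pow, h1, sub_self]
    exact sub_eq_zero.mp (pow_eq_zero_iff hp.ne_zero |>.mp h2)
  refine exists_psu_of_end hF (by norm_num) (V := F × AdjoinRoot ((X - 1 : F[X]) ^ 2)) (by
      rw [Module.finrank_prod, Module.finrank_self, hfr])
    (prod_isH hF (line_isH hF) hH)
    (((b ^ 2)⁻¹ • (1 : F →ₗ[F] F)).prodMap (b • LinearMap.mulLeft F t)) ?_ ?_ ?_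
  · rw [LinearMap.det_prodMap, det_scalar, LinearMap.det_smul, hdt, Module.finrank_self, hfr, pow_one, mul_one,
      inv_mul_cancel₀ (pow_ne_zero _ hb0)]
  · rintro ⟨u, v⟩ ⟨u', v'⟩
    show (((b ^ 2)⁻¹ * u) * ((b ^ 2)⁻¹ * u') ^ q + H (b • (t * v)) (b • (t * v'))) = u * u' ^ q + H v v'
    rw [hH.smul_left, hH.smul_right, hHt, mul_pow,
      show ((b ^ 2)⁻¹ * u) * (((b ^ 2)⁻¹) ^ q * u' ^ q) = ((b ^ 2)⁻¹) ^ (q + 1) * (u * u' ^ q) by ring, hbi, one_mul,
      show b * (b ^ q * H v v') = b ^ (q + 1) * H v v' by ring, hb1, one_mul]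
  · intro m
    rw [prodMap_pow, smul_one_pow, _root_.smul_pow]
    have hgd : Nat.gcd 3 (q + 1) ∣ q + 1 := Nat.gcd_dvd_right _ _
    rw [Nat.mul_div_assoc _ hgd]
    have hpq : ¬ p ∣ q + 1 := by
      intro h
      have h1 : p ∣ q := by rw [hq]; exact dvd_pow_self p (by omega)
      have h2 : p ∣ 1 := (Nat.dvd_add_right h1).mp h
      exact hp.one_lt.ne' (Nat.dvd_one.mp h2)
    have hcop : Nat.Coprime p ((q + 1) / Nat.gcd 3 (q + 1)) := by
      rw [Nat.Prime.coprime_iff_not_dvd hp]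
      intro h
      exact hpq (h.trans (Nat.div_dvd_of_dvd hgd))
    have hdv : ∀ m : ℕ, p * ((q + 1) / Nat.gcd 3 (q + 1)) ∣ m ↔ (p ∣ m ∧ b ^ (m * 3) = 1) := by
      intro m
      rw [pow_eq_of_gcd (a := b) (k := 3) (m := m) hb (Nat.succ_pos q)]
      constructor
      · intro h
        exact ⟨(Dvd.intro _ rfl).trans h, (Dvd.intro_left _ rfl).trans h⟩
      · rintro ⟨h1, h2⟩
        exact hcop.mul_dvd_of_dvd_of_dvd h1 h2
    rw [hdv, ← hpow]
    have hbm0 : b ^ m ≠ 0 := pow_ne_zero _ hb0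
    constructor
    · rintro ⟨c, hc⟩
      have h1 : (((b ^ 2)⁻¹) ^ m) * 1 = c * 1 := congrArg Prod.fst (LinearMap.congr_fun hc ((1, 0) : F × _))
      have h2 : b ^ m • (LinearMap.mulLeft F t) ^ m = c • (1 : AdjoinRoot ((X - 1 : F[X]) ^ 2) →ₗ[F] _) := by
        apply LinearMap.ext
        intro v
        exact congrArg Prod.snd (LinearMap.congr_fun hc ((0, v) : F × _))
      rw [mul_one, mul_one] at h1
      have hc0 : c ≠ 0 := by
        rw [← h1]
        exact pow_ne_zero _ (inv_ne_zero (pow_ne_zero _ hb0))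
      -- the unipotent part is scalar
      have h3 : (LinearMap.mulLeft F t) ^ m = ((b ^ m)⁻¹ * c) • (1 : AdjoinRoot ((X - 1 : F[X]) ^ 2) →ₗ[F] _) := by
        rw [mul_smul, ← h2, smul_smul, inv_mul_cancel₀ hbm0, one_smul]
      have h4 : ((b ^ m)⁻¹ * c) ^ p = 1 := by
        have e1 : ((LinearMap.mulLeft F t) ^ m) ^ p = 1 := by
          rw [← pow_mul, hpow]
          exact Dvd.intro_left _ rfl
        rw [h3, smul_one_pow] at e1
        have e2 := LinearMap.congr_fun e1 1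
        have e3 : ((b ^ m)⁻¹ * c) ^ p • (1 : AdjoinRoot ((X - 1 : F[X]) ^ 2)) = (1 : F) • 1 := by
          rw [one_smul]; exact e2
        exact smul_left_injective F (one_ne_zero) e3
      have h5 : (b ^ m)⁻¹ * c = 1 := by
        have e2 : ((b ^ m)⁻¹ * c - 1) ^ p = 0 := by
          rw [sub_pow_char, one_pow, h4, sub_self]
        exact sub_eq_zero.mp (pow_eq_zero_iff hp.ne_zero |>.mp e2)
      refine ⟨by rw [h3, h5, one_smul], ?_⟩
      have h6 : c = b ^ m := by
        rw [← one_mul c, ← mul_inv_cancel₀ hbm0, mul_assoc, h5, mul_one]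
      rw [h6] at h1
      rw [show m * 3 = m + 2 * m by ring, pow_add, pow_mul b 2 m]
      nth_rewrite 1 [← h1]
      rw [← mul_pow, inv_mul_cancel₀ (pow_ne_zero _ hb0), one_pow]
    · rintro ⟨h1, h2⟩
      refine ⟨b ^ m, ?_⟩
      rw [h1]
      have e1 : ((b ^ 2)⁻¹) ^ m = b ^ m := by
        rw [inv_pow, inv_eq_iff_eq_inv]
        apply eq_inv_of_mul_eq_one_left
        rw [← pow_mul, ← pow_add, show 2 * m + m = m * 3 by ring]
        exact h2
      rw [e1]
      rfl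

theorem lower_four (hF : Fintype.card F = q ^ 2) {a : ℕ} (hq : q = p ^ a) (hq2 : 2 ≤ q) :
    ∃ y : Cfsg.PSU 3 F q, orderOf y = (q ^ 2 - q + 1) / Nat.gcd 3 (q + 1) := by
  have hA := arith_A (q := q)
  set A := q ^ 2 - q + 1 with hAdef
  have hA0 : 0 < A := Nat.succ_pos _
  clear_value A
  let E := FiniteField.Extension F p 3
  have hE : Nat.card E = q ^ 6 := by
    rw [FiniteField.natCard_extension F p 3, Nat.card_eq_fintype_card, hF, ← pow_mul]
  have hq6 : q ^ 6 - 1 = A * ((q + 1) * (q ^ 3 - 1)) := by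
    have h1 : (q ^ 3) ^ 2 - 1 = (q ^ 3 + 1) * (q ^ 3 - 1) := sq_sub_one (q ^ 3)
    rw [← pow_mul] at h1
    rw [h1, ← arith_cube hA]
    ring
  obtain ⟨ε, hε0, hε⟩ := exists_orderOf_unit (E := E) (N := A) (by
    rw [hE, hq6]
    exact Dvd.intro _ rfl)
  have hεA : ε ^ A = 1 := by rw [← hε]; exact pow_orderOf_eq_one ε
  refine BadOdd.exists_psu p hF hq (by norm_num) (by decide) (σ := A / Nat.gcd 3 (q + 1)) ⟨ε, ?_, ?_, ?_⟩
  · rw [← arith_cube hA, mul_comm, pow_mul, hεA, one_pow]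
  · have e1 := FiniteField.algebraMap_norm_eq_pow_sum (K := F) (L := FiniteField.Extension F p 3) (x := ε)
    rw [FiniteField.finrank_extension F p 3, Finset.sum_range_succ, Finset.sum_range_succ,
      Finset.sum_range_succ, Finset.sum_range_zero, Nat.card_eq_fintype_card, hF, ← pow_mul, ← pow_mul, ← pow_mul,
      show 0 + q ^ (2 * 0) + q ^ (2 * 1) + q ^ (2 * 2) = 1 + q ^ 2 + q ^ 4 by ring, ← arith_four hA, mul_comm, pow_mul,
      hεA, one_pow] at e1
    apply (algebraMap F (FiniteField.Extension F p 3)).injective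
    rw [e1, map_one]
  · intro m
    have hmem : (∃ c : F, ε ^ m = algebraMap F E c) ↔ ε ^ (m * (q ^ 2 - 1)) = 1 := by
      constructor
      · rintro ⟨c, hc⟩
        have hc0 : c ≠ 0 := by
          rintro rfl
          rw [map_zero] at hc
          exact pow_ne_zero _ hε0 hc
        rw [pow_mul, hc, ← map_pow, pow_sq_sub_one hF hc0, map_one]
      · intro h
        obtain ⟨c, hc⟩ := mem_range_of_pow_card (K := F) (ε ^ m) (by
          rw [Nat.card_eq_fintype_card, hF]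
          have e4 : (ε ^ m) ^ (q ^ 2) = (ε ^ m) ^ (q ^ 2 - 1) * ε ^ m := by
            rw [← pow_succ, Nat.sub_add_cancel (Nat.one_le_pow _ _ (Uni.q_pos hF))]
          rw [e4, ← pow_mul ε, h, one_mul])
        exact ⟨c, hc.symm⟩
    rw [hmem]
    have hgcd : Nat.gcd (q ^ 2 - 1) A = Nat.gcd 3 (q + 1) := by
      have h1 : Nat.Coprime (q - 1) A := by
        have h2 : Nat.gcd (q - 1) A ∣ 1 := by
          have h3 : Nat.gcd (q - 1) A ∣ q - 1 := Nat.gcd_dvd_left _ _
          have h4 : Nat.gcd (q - 1) A ∣ A := Nat.gcd_dvd_right _ _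
          have h5 : A = (q - 1) * q + 1 := by
            obtain ⟨k, rfl⟩ : ∃ k, q = k + 1 := ⟨q - 1, by omega⟩
            rw [Nat.add_sub_cancel]
            have : A + (k + 1) = ((k * (k + 1)) + 1) + (k + 1) := by rw [hA]; ring
            omega
          rw [h5] at h3 h4 ⊢
          exact (Nat.dvd_add_right (Dvd.dvd.mul_right h3 q)).mp h4
        exact Nat.dvd_one.mp h2
      rw [sq_sub_one, mul_comm, h1.gcd_mul_left_cancel]
      apply Nat.dvd_antisymm
      · apply Nat.dvd_gcd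
        · have h3 : Nat.gcd (q + 1) A ∣ q + 1 := Nat.gcd_dvd_left _ _
          have h4 : Nat.gcd (q + 1) A ∣ A := Nat.gcd_dvd_right _ _
          -- A + 3 q = (q+1)^2 => g | 3 q, g coprime to q
          have h5 : Nat.gcd (q + 1) A ∣ q * 3 := by
            have h6 : Nat.gcd (q + 1) A ∣ A + q * 3 := by
              rw [arith_sq hA]
              exact Dvd.dvd.mul_right h3 _
            exact (Nat.dvd_add_right h4).mp h6
          have h7 : Nat.Coprime (Nat.gcd (q + 1) A) q := by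
            apply Nat.Coprime.coprime_dvd_left h3
            simp
          exact h7.dvd_of_dvd_mul_left h5
        · exact Nat.gcd_dvd_left _ _
      · exact Nat.dvd_gcd (Nat.gcd_dvd_right _ _) (dvd_A hA)
    have hc : ε ^ (m * (q ^ 2 - 1)) = 1 ↔ A / Nat.gcd (q ^ 2 - 1) A ∣ m := pow_eq_of_gcd hε hA0
    rw [hc, hgcd]

end lower

/-- The set of element orders of PSU(3, q) for an odd prime power q = p^n: writing d = gcd(3, q + 1), a positive integer is the order of some element exactly when it divides one of q + 1, p(q + 1)/d, (q² − 1)/d, (q² − q + 1)/d. -/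
theorem result {F : Type*} [Field F] [Fintype F] (p : ℕ) [Fact p.Prime] [CharP F p] (hp : p ≠ 2) (q : ℕ) (hF : Fintype.card F = q ^ 2) :
    Set.range (orderOf : Cfsg.PSU 3 F q → ℕ) =
      {s : ℕ | s ∣ q + 1} ∪ {s : ℕ | s ∣ p * (q + 1) / Nat.gcd 3 (q + 1)} ∪
        {s : ℕ | s ∣ (q ^ 2 - 1) / Nat.gcd 3 (q + 1)} ∪ {s : ℕ | s ∣ (q ^ 2 - q + 1) / Nat.gcd 3 (q + 1)} := by
  classical
  have hp' : p.Prime := Fact.out
  obtain ⟨a, ha, hq⟩ : ∃ a, 1 ≤ a ∧ q = p ^ a := by
    obtain ⟨k, -, hk⟩ := FiniteField.card F p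
    rw [hF] at hk
    obtain ⟨a, -, ha⟩ := (Nat.dvd_prime_pow hp').mp (by rw [← hk]; exact dvd_pow_self q two_ne_zero : q ∣ p ^ (k : ℕ))
    refine ⟨a, ?_, ha⟩
    by_contra h0
    have h1 : a = 0 := by omega
    rw [ha, h1, pow_zero, one_pow] at hk
    have h2 : 1 < p ^ (k : ℕ) := Nat.one_lt_pow k.ne_zero hp'.one_lt
    omega
  have hq2 : 2 ≤ q := by
    rw [hq]
    calc 2 ≤ p := hp'.two_le
      _ = p ^ 1 := (pow_one p).symm
      _ ≤ p ^ a := Nat.pow_le_pow_right hp'.pos ha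
  have hgd : Nat.gcd 3 (q + 1) ∣ q + 1 := Nat.gcd_dvd_right _ _
  have hg0 : 0 < Nat.gcd 3 (q + 1) := Nat.gcd_pos_of_pos_left _ (by norm_num)
  ext s
  simp only [Set.mem_union, Set.mem_setOf_eq, Set.mem_range]
  constructor
  · rintro ⟨x, rfl⟩
    obtain ⟨T, hdet, hT, hs⟩ := exists_end_of_psu hF (by norm_num : 2 ≤ 3) x
    have hdim : finrank F (Fin 3 → F) = 3 := Module.finrank_fin_fun F
    haveI : Nontrivial (Fin 3 → F) := Module.finrank_pos_iff.mp (by rw [hdim]; omega : 0 < finrank F (Fin 3 → F))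
    have hs0 : 0 < orderOf x := orderOf_pos x
    obtain ⟨j, σ, hσ, hx⟩ := Nat.exists_eq_pow_mul_and_not_dvd hs0.ne' p hp'.ne_one
    rcases Nat.eq_zero_or_pos j with hj | hj
    · rw [hj, pow_zero, one_mul] at hx
      rw [hx] at hs hs0 ⊢
      by_cases hdec : DecH (Cfsg.hermForm 3 F q) T
      · obtain ⟨c, hc⟩ := (hs σ).mpr dvd_rfl
        have hcq := scal_pow_norm (std_isH hF) hF hT hc
        have hM : T ^ (σ * (q + 1)) = 1 := by
          rw [pow_mul, hc, _root_.smul_pow, hcq, one_pow, one_smul]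
        rcases upper_dec p hF hq hdim (std_isH hF) hT hdet (Nat.mul_pos hs0 (Nat.succ_pos q)) (cast_ne p ha hq hσ) hM
          hdec with h | ⟨c, hc⟩
        · left; left; left
          rw [← hs]
          exact ⟨1, by rw [one_smul]; exact h⟩
        · left; right
          rw [← hs]
          exact ⟨c, hc⟩
      · right
        have hs' : ScalOrd T (p ^ 0 * σ) := by rw [pow_zero, one_mul]; exact hs
        exact upper_nondec p hF ((bad_main p hF ha hq (by norm_num) hdim (std_isH hF) hT hdet hdec hs' hσ).1 (by decide))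
    · obtain ⟨j', rfl⟩ : ∃ j', j = j' + 1 := ⟨j - 1, by omega⟩
      rw [hx] at hs
      obtain ⟨hj0, hσ2⟩ := upper_p p hF ha hq hp hdim (std_isH hF) hT hdet hs hσ
      left; left; right
      rw [hx, hj0, zero_add, pow_one, Nat.mul_div_assoc _ hgd]
      exact Nat.mul_dvd_mul_left p hσ2
  · rintro (((h | h) | h) | h)
    · exact exists_of_dvd (Nat.succ_pos q) (lower_one hF) h
    · refine exists_of_dvd ?_ (lower_two p hF ha hq) h
      exact Nat.div_pos (Nat.le_of_dvd (Nat.mul_pos hp'.pos (Nat.succ_pos q)) (Dvd.dvd.mul_left hgd _)) hg0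
    · refine exists_of_dvd ?_ (lower_three hF hq2) h
      have h1 : 0 < q ^ 2 - 1 := by
        have : 2 ^ 2 ≤ q ^ 2 := Nat.pow_le_pow_left hq2 2
        omega
      exact Nat.div_pos (Nat.le_of_dvd h1 (by rw [sq_sub_one]; exact Dvd.dvd.mul_right hgd _)) hg0
    · refine exists_of_dvd ?_ (lower_four p hF hq hq2) h
      exact Nat.div_pos (Nat.le_of_dvd (Nat.succ_pos _) (dvd_A arith_A)) hg0

end Cfsg.Agent.S2366
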