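import Cfsg.Statements.S2367
import Mathlib

set_option autoImplicit false
open Cfsg

namespace Cfsg.Agent.S2367

lemma fact_mono {p n m : ℕ} (h : n ≤ m) : (n.factorial).factorization p ≤ (m.factorial).factorization p :=
  (Nat.factorization_le_iff_dvd (Nat.factorial_ne_zero _) (Nat.factorial_ne_zero _)).2 (Nat.factorial_dvd_factorial h) p

lemma two_val (n : ℕ) : n / 2 + n / 4 ≤ (n.factorial).factorization 2 := by
  have h1 : ((2 * (n/2)).factorial).factorization 2 ≤ (n.factorial).factorization 2 := fact_mono (by omega)
  rw [Nat.factorization_factorial_mul Nat.prime_two] at h1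
  have h2 : ((2 * (n/4)).factorial).factorization 2 ≤ ((n/2).factorial).factorization 2 := fact_mono (by omega)
  rw [Nat.factorization_factorial_mul Nat.prime_two] at h2
  omega

lemma alt_case (n p : ℕ) (hp : p.Prime) (hodd : p ≠ 2) (h3 : (n.factorial).factorization p = 3) (k : ℕ)
    (hk : (n.factorial).factorization 2 = k + 1) : p ^ 3 < 2 ^ k := by
  have hp3 : 3 ≤ p := by
    have := hp.two_le; omega
  have hn : 3 * p ≤ n := by
    by_contra hcon
    push Not at hcon
    have h1 : n < p ^ 2 := by nlinarith
    rw [Nat.factorization_factorial hp (Nat.log_lt_of_lt_pow' (by norm_num) h1)] at h3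
    have : n / p < 3 := (Nat.div_lt_iff_lt_mul hp.pos).2 hcon
    rw [show Finset.Ico 1 2 = {1} from rfl, Finset.sum_singleton, pow_one] at h3
    omega
  have hp5 : 5 ≤ p := by
    by_contra hcon
    have : p = 3 := by
      have : p ≠ 4 := by rintro rfl; revert hp; norm_num
      omega
    subst this
    have h1 : ((3 * 3).factorial).factorization 3 ≤ (n.factorial).factorization 3 := fact_mono (by omega)
    rw [Nat.factorization_factorial_mul Nat.prime_three] at h1
    have h2 : ((3 * 1).factorial).factorization 3 = (Nat.factorial 1).factorization 3 + 1 :=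
      Nat.factorization_factorial_mul Nat.prime_three
    norm_num at h2
    rw [show (3 : ℕ).factorial = 6 by rfl] at h1

    omega
  have h1 := two_val n
  have hk2 : 2 * p - 1 ≤ k := by omega
  have h4 : ∀ m : ℕ, 5 ≤ m → m ^ 3 < 2 ^ (2 * m - 1) := by
    intro m hm
    induction m, hm using Nat.le_induction with
    | base => norm_num
    | succ m hm ih =>
      have e : 2 ^ (2 * (m + 1) - 1) = 4 * 2 ^ (2 * m - 1) := by
        rw [show 2 * (m + 1) - 1 = (2 * m - 1) + 2 by omega, pow_add]; ring
      rw [e]
      have : (m+1)^3 ≤ 4 * m^3 := by nlinarith [mul_le_mul hm hm (by norm_num) (by omega : 0 ≤ m), sq_nonneg m]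
      omega
  calc p ^ 3 < 2 ^ (2 * p - 1) := h4 p hp5
    _ ≤ 2 ^ k := Nat.pow_le_pow_right (by norm_num) hk2

/-- the primes up to 71 -/
def smallPrimes : List ℕ := [2, 3, 5, 7, 11, 13, 17, 19, 23, 29, 31, 37, 41, 43, 47, 53, 59, 61, 67, 71]

lemma smallPrimes_prime : ∀ q ∈ smallPrimes, q.Prime := by
  intro q hq
  simp only [smallPrimes, List.mem_cons, List.not_mem_nil, or_false] at hq
  rcases hq with h|h|h|h|h|h|h|h|h|h|h|h|h|h|h|h|h|h|h|h <;> rw [h] <;> norm_num

lemma spor_case (N k : ℕ) (hN : N ≠ 0) (hdiv : N ∣ (smallPrimes.prod) ^ 60) (h2 : 2 ^ k ∣ N)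
    (hc : ∀ q ∈ smallPrimes, q = 2 ∨ q ^ 3 < 2 ^ k ∨ q ^ 4 ∣ N ∨ ¬ q ^ 3 ∣ N)
    (p : ℕ) (hp : p.Prime) (hodd : p ≠ 2) (h3 : N.factorization p = 3) :
    p ^ 3 < 2 ^ N.factorization 2 := by
  have hk : k ≤ N.factorization 2 := (Nat.prime_two.pow_dvd_iff_le_factorization hN).1 h2
  have hpN : p ∣ N := by
    have := (hp.pow_dvd_iff_le_factorization hN (k := 1)).2 (by omega)
    simpa using this
  have hpL : p ∣ smallPrimes.prod := hp.dvd_of_dvd_pow (hpN.trans hdiv)
  obtain ⟨q, hq, hpq⟩ := (Nat.Prime.prime hp).dvd_prod_iff.1 hpL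
  have : p = q := (Nat.prime_dvd_prime_iff_eq hp (smallPrimes_prime q hq)).1 hpq
  subst this
  rcases hc p hq with h | h | h | h
  · exact absurd h hodd
  · exact lt_of_lt_of_le h (Nat.pow_le_pow_right (by norm_num) hk)
  · have := (hp.pow_dvd_iff_le_factorization hN).1 h
    omega
  · exact absurd ((hp.pow_dvd_iff_le_factorization hN).2 (by omega)) h

/-- Let G be an alternating group of degree at least 5 or a simple group with the order of one of the 26 sporadic groups, and let p be an odd prime such that p³ is the exact power of p dividing the order of G. Then p³ is less than the 2-part of the order of G. -/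
theorem result {G : Type*} [Group G] [Finite G] (hG : Cfsg.IsAlternating G ∨ Cfsg.IsSporadic G)
    (p : ℕ) (hp : p.Prime) (hodd : p ≠ 2) (h3 : (Nat.card G).factorization p = 3) :
    p ^ 3 < 2 ^ (Nat.card G).factorization 2 := by
  rcases hG with ⟨n, hn, ⟨e⟩⟩ | hG
  · haveI : Nontrivial (Fin n) := Fin.nontrivial_iff_two_le.2 (by omega)
    have hc : 2 * Nat.card G = n.factorial := by
      rw [Nat.card_congr e.toEquiv, two_mul_nat_card_alternatingGroup, Nat.card_perm, Nat.card_eq_fintype_card, Fintype.card_fin]
    have hG0 : Nat.card G ≠ 0 := Nat.card_pos.ne'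
    apply alt_case n p hp hodd
    · rw [← hc, Nat.factorization_mul (by norm_num) hG0, Finsupp.add_apply, h3, Nat.Prime.factorization Nat.prime_two,
        Finsupp.single_apply, if_neg (Ne.symm hodd)]
    · rw [← hc, Nat.factorization_mul (by norm_num) hG0, Finsupp.add_apply, Nat.Prime.factorization Nat.prime_two,
        Finsupp.single_apply, if_pos rfl, add_comm]
  · rcases hG with ⟨_, h⟩|⟨_, h⟩|⟨_, h⟩|⟨_, h⟩|⟨_, h⟩|⟨_, h⟩|⟨_, h⟩|⟨_, h⟩|⟨_, h⟩|⟨_, h⟩|⟨_, h⟩|⟨_, h⟩|⟨_, h⟩|⟨_, h⟩|⟨_, h⟩|⟨_, h⟩|⟨_, h⟩|⟨_, h⟩|⟨_, h⟩|⟨_, h⟩|⟨_, h⟩|⟨_, h⟩|⟨_, h⟩|⟨_, h⟩|⟨_, h⟩|⟨_, h⟩ <;>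
    rw [h] at h3 ⊢
    · exact spor_case _ 4 (by norm_num) (by decide +kernel) (by decide +kernel) (by decide +kernel) p hp hodd h3
    · exact spor_case _ 6 (by norm_num) (by decide +kernel) (by decide +kernel) (by decide +kernel) p hp hodd h3
    · exact spor_case _ 7 (by norm_num) (by decide +kernel) (by decide +kernel) (by decide +kernel) p hp hodd h3
    · exact spor_case _ 7 (by norm_num) (by decide +kernel) (by decide +kernel) (by decide +kernel) p hp hodd h3
    · exact spor_case _ 10 (by norm_num) (by decide +kernel) (by decide +kernel) (by decide +kernel) p hp hodd h3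
    · exact spor_case _ 3 (by norm_num) (by decide +kernel) (by decide +kernel) (by decide +kernel) p hp hodd h3
    · exact spor_case _ 7 (by norm_num) (by decide +kernel) (by decide +kernel) (by decide +kernel) p hp hodd h3
    · exact spor_case _ 7 (by norm_num) (by decide +kernel) (by decide +kernel) (by decide +kernel) p hp hodd h3
    · exact spor_case _ 21 (by norm_num) (by decide +kernel) (by decide +kernel) (by decide +kernel) p hp hodd h3
    · exact spor_case _ 21 (by norm_num) (by decide +kernel) (by decide +kernel) (by decide +kernel) p hp hodd h3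
    · exact spor_case _ 18 (by norm_num) (by decide +kernel) (by decide +kernel) (by decide +kernel) p hp hodd h3
    · exact spor_case _ 10 (by norm_num) (by decide +kernel) (by decide +kernel) (by decide +kernel) p hp hodd h3
    · exact spor_case _ 17 (by norm_num) (by decide +kernel) (by decide +kernel) (by decide +kernel) p hp hodd h3
    · exact spor_case _ 18 (by norm_num) (by decide +kernel) (by decide +kernel) (by decide +kernel) p hp hodd h3
    · exact spor_case _ 21 (by norm_num) (by decide +kernel) (by decide +kernel) (by decide +kernel) p hp hodd h3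
    · exact spor_case _ 9 (by norm_num) (by decide +kernel) (by decide +kernel) (by decide +kernel) p hp hodd h3
    · exact spor_case _ 7 (by norm_num) (by decide +kernel) (by decide +kernel) (by decide +kernel) p hp hodd h3
    · exact spor_case _ 10 (by norm_num) (by decide +kernel) (by decide +kernel) (by decide +kernel) p hp hodd h3
    · exact spor_case _ 14 (by norm_num) (by decide +kernel) (by decide +kernel) (by decide +kernel) p hp hodd h3
    · exact spor_case _ 13 (by norm_num) (by decide +kernel) (by decide +kernel) (by decide +kernel) p hp hodd h3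
    · exact spor_case _ 9 (by norm_num) (by decide +kernel) (by decide +kernel) (by decide +kernel) p hp hodd h3
    · exact spor_case _ 14 (by norm_num) (by decide +kernel) (by decide +kernel) (by decide +kernel) p hp hodd h3
    · exact spor_case _ 8 (by norm_num) (by decide +kernel) (by decide +kernel) (by decide +kernel) p hp hodd h3
    · exact spor_case _ 15 (by norm_num) (by decide +kernel) (by decide +kernel) (by decide +kernel) p hp hodd h3
    · exact spor_case _ 41 (by norm_num) (by decide +kernel) (by decide +kernel) (by decide +kernel) p hp hodd h3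
    · exact spor_case _ 46 (by norm_num) (by decide +kernel) (by decide +kernel) (by decide +kernel) p hp hodd h3

end Cfsg.Agent.S2367
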