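import Cfsg.Statements.S2368
import Mathlib

set_option autoImplicit false
open Cfsg

namespace Cfsg.Agent.S2368

open Matrix

lemma nilp_pow {F : Type*} [Field F] {m : ℕ} (A : Matrix (Fin m) (Fin m) F) (hA : IsNilpotent A) : A ^ m = 0 := by
  have h1 := Matrix.isNilpotent_charpoly_sub_pow_of_isNilpotent hA
  have h2 : A.charpoly - Polynomial.X ^ (Fintype.card (Fin m)) = 0 := h1.eq_zero
  have h3 := Matrix.aeval_self_charpoly A
  rw [sub_eq_zero] at h2
  rw [h2] at h3
  simpa using h3

/-- shift matrix -/
def shift (F : Type*) [Field F] (m r : ℕ) : Matrix (Fin m) (Fin m) F :=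
  Matrix.of fun i j => if i.val + r = j.val then 1 else 0

lemma shift_zero (F : Type*) [Field F] (m : ℕ) : shift F m 0 = 1 := by
  ext i j
  simp only [shift, Matrix.of_apply, add_zero, Matrix.one_apply, Fin.ext_iff]

lemma shift_mul (F : Type*) [Field F] (m r : ℕ) : shift F m r * shift F m 1 = shift F m (r+1) := by
  ext i j
  simp only [shift, Matrix.mul_apply, Matrix.of_apply]
  by_cases h : i.val + (r + 1) = j.val
  · have hk : i.val + r < m := by have := j.2; omega
    rw [Finset.sum_eq_single (⟨i.val + r, hk⟩ : Fin m)]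
    · have e1 : i.val + r + 1 = j.val := by omega
      simp [h, e1]
    · intro b _ hb
      have : ¬ (i.val + r = b.val) := by
        intro hh; apply hb; ext; exact hh.symm
      simp [this]
    · simp
  · rw [if_neg h]
    apply Finset.sum_eq_zero
    intro k _
    by_cases h1 : i.val + r = k.val
    · by_cases h2 : k.val + 1 = j.val
      · omega
      · simp [h2]
    · simp [h1]

lemma shift_pow (F : Type*) [Field F] (m r : ℕ) : shift F m 1 ^ r = shift F m r := by
  induction r with
  | zero => rw [pow_zero, shift_zero]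
  | succ r ih => rw [pow_succ, ih, shift_mul]

lemma shift_ne_zero (F : Type*) [Field F] (m r : ℕ) (h : r < m) : shift F m r ≠ 0 := by
  intro h0
  have := congrFun (congrFun h0 ⟨0, by omega⟩) ⟨r, h⟩
  simp [shift] at this

lemma shift_big (F : Type*) [Field F] (m : ℕ) : shift F m m = 0 := by
  ext i j
  have : ¬ (i.val + m = j.val) := by have := j.2; omega
  simp [shift, this]

/-- Let F be a finite field of characteristic p and m ≥ 1. Every element of GL(m, F) of p-power order has order less than p·m, and GL(m, F) has an element of p-power order at least m; so the largest order of a p-element of GL(m, F) is the least power of p that is at least m. -/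
theorem result {F : Type*} [Field F] [Fintype F] (p : ℕ) [Fact p.Prime] [CharP F p] (m : ℕ) (hm : 1 ≤ m) :
    (∀ g : Matrix.GeneralLinearGroup (Fin m) F, (∃ j : ℕ, orderOf g = p ^ j) → orderOf g < p * m) ∧
      ∃ g : Matrix.GeneralLinearGroup (Fin m) F, (∃ j : ℕ, orderOf g = p ^ j) ∧ m ≤ orderOf g := by
  have hp : p.Prime := Fact.out
  have hp1 : 1 < p := hp.one_lt
  haveI : Nonempty (Fin m) := ⟨⟨0, hm⟩⟩
  haveI : ExpChar F p := ExpChar.prime hp
  haveI hcp : CharP (Matrix (Fin m) (Fin m) F) p := inferInstance
  haveI : ExpChar (Matrix (Fin m) (Fin m) F) p := ExpChar.prime hp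
  have hfrob : ∀ (A : Matrix (Fin m) (Fin m) F) (k : ℕ), (A - 1) ^ (p ^ k) = A ^ (p ^ k) - 1 := by
    intro A k
    have := sub_pow_expChar_pow_of_commute (p := p) (n := k) (Commute.one_right A)
    simpa using this
  have hpk : m ≤ p ^ Nat.clog p m := Nat.le_pow_clog hp1 m
  have hpk2 : p ^ Nat.clog p m < p * m := by
    rcases Nat.lt_or_ge 1 m with h | h
    · have h2 := Nat.pow_pred_clog_lt_self hp1 h
      have h3 : 0 < Nat.clog p m := Nat.clog_pos hp1 h
      calc p ^ Nat.clog p m = p * p ^ (Nat.clog p m).pred := by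
            conv_lhs => rw [← Nat.succ_pred_eq_of_pos h3, pow_succ']
        _ < p * m := by
            apply Nat.mul_lt_mul_of_pos_left h2 hp.pos
    · have : m = 1 := by omega
      subst this
      simpa using hp1
  constructor
  · rintro g ⟨j, hj⟩
    have h1 : (g : Matrix (Fin m) (Fin m) F) ^ (p ^ j) = 1 := by
      rw [← Units.val_pow_eq_pow_val, ← hj, pow_orderOf_eq_one]; rfl
    have h2 : IsNilpotent ((g : Matrix (Fin m) (Fin m) F) - 1) := ⟨p ^ j, by rw [hfrob, h1, sub_self]⟩
    have h3 := nilp_pow _ h2
    have h4 : ((g : Matrix (Fin m) (Fin m) F) - 1) ^ (p ^ Nat.clog p m) = 0 := pow_eq_zero_of_le hpk h3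
    rw [hfrob, sub_eq_zero] at h4
    have h5 : g ^ (p ^ Nat.clog p m) = 1 := by
      apply Units.ext
      rw [Units.val_pow_eq_pow_val, h4]; rfl
    exact lt_of_le_of_lt (Nat.le_of_dvd (pow_pos hp.pos _) (orderOf_dvd_of_pow_eq_one h5)) hpk2
  · have hnil : IsNilpotent (shift F m 1) := ⟨m, by rw [shift_pow, shift_big]⟩
    have hunit : IsUnit (1 + shift F m 1) := hnil.isUnit_one_add
    refine ⟨hunit.unit, ?_, ?_⟩
    · have : hunit.unit ^ (p ^ Nat.clog p m) = 1 := by
        apply Units.ext
        rw [Units.val_pow_eq_pow_val, IsUnit.unit_spec]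
        have h := hfrob (1 + shift F m 1) (Nat.clog p m)
        rw [add_sub_cancel_left, pow_eq_zero_of_le hpk (by rw [shift_pow, shift_big])] at h
        rw [eq_comm, sub_eq_zero] at h
        rw [h]; rfl
      obtain ⟨j, _, hj⟩ := (Nat.dvd_prime_pow hp).1 (orderOf_dvd_of_pow_eq_one this)
      exact ⟨j, hj⟩
    · by_contra hcon
      push Not at hcon
      have : hunit.unit ^ (p ^ Nat.clog p m) = 1 := by
        apply Units.ext
        rw [Units.val_pow_eq_pow_val, IsUnit.unit_spec]
        have h := hfrob (1 + shift F m 1) (Nat.clog p m)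
        rw [add_sub_cancel_left, pow_eq_zero_of_le hpk (by rw [shift_pow, shift_big])] at h
        rw [eq_comm, sub_eq_zero] at h
        rw [h]; rfl
      obtain ⟨j, _, hj⟩ := (Nat.dvd_prime_pow hp).1 (orderOf_dvd_of_pow_eq_one this)
      have h1 : (1 + shift F m 1) ^ (p ^ j) = 1 := by
        have := congrArg Units.val (pow_orderOf_eq_one hunit.unit)
        rw [Units.val_pow_eq_pow_val, IsUnit.unit_spec, hj] at this
        simpa using this
      have h := hfrob (1 + shift F m 1) j
      rw [add_sub_cancel_left, h1, sub_self, shift_pow] at h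
      exact shift_ne_zero F m (p ^ j) (by rw [← hj]; exact hcon) h

end Cfsg.Agent.S2368
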