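import Cfsg.Statements.S2369
import Cfsg.Agent.BTs.Prime

set_option autoImplicit false
open Cfsg

namespace Cfsg.Agent.S2369

/-- Let q = 2^(2m+1) with m ≥ 1 and let a, b be commuting elements of the large Ree group ²F₄(q) with a an involution. Then every prime divisor of the order of b divides q(q⁴ − 1). -/
theorem result {K : Type*} [Field K] [Fintype K] (m : ℕ) (hm : 1 ≤ m) (hK : Fintype.card K = 2 ^ (2 * m + 1))
    (a b : ↥(Cfsg.Lie.twistedF4 K (2 ^ m))) (ha : orderOf a = 2) (hab : Commute a b) :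
    (orderOf b).primeFactors ⊆ (2 ^ (2 * m + 1) * ((2 ^ (2 * m + 1)) ^ 4 - 1)).primeFactors := by
  classical
  have hq := Cfsg.Agent.Tw4.card_F4 hK
  obtain ⟨Z, hZ⟩ := Cfsg.Agent.Tw4.exists_Sg hK
  have h2 : CharP K 2 := by
    have h3 : (2 : K) = 0 := Z.two
    exact CharTwo.of_one_ne_zero_of_two_eq_zero one_ne_zero h3
  have hle := Cfsg.Agent.Tw4.hle_F4 (K := K) (e := 2 ^ m)
  have hfix : ∀ x : ↥(Cfsg.Lie.twistedF4 K (2 ^ m)), Z.σ ⟨x, hle x.2⟩ = ⟨x, hle x.2⟩ := by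
    intro x
    have h4 : (⟨x, hle x.2⟩ : ↥(Cfsg.Lie.chevF4.group K)) ∈ (Cfsg.Agent.Tw4.twF Z).G1 := by
      rw [Cfsg.Agent.Tw4.G1_F4 Z hZ]
      exact x.2
    rw [(Cfsg.Agent.Tw4.twF Z).G1_eq] at h4
    have h5 : Subgroup.closure {x | (Cfsg.Agent.Tw4.twF Z).σ x = x} ≤ (MonoidHom.eqLocus Z.σ.toMonoidHom (MonoidHom.id _)) := by
      rw [Subgroup.closure_le]
      intro y hy
      exact hy
    exact h5 (Subgroup.closure_mono (fun y hy => hy.1) h4)
  set a' : ↥(Cfsg.Lie.chevF4.group K) := ⟨a, hle a.2⟩ with ha'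
  set b' : ↥(Cfsg.Lie.chevF4.group K) := ⟨b, hle b.2⟩ with hb'
  have oa : orderOf a' = 2 := by
    rw [← ha, ← Subgroup.orderOf_coe a, ← Subgroup.orderOf_coe a']
  have ob : orderOf b' = orderOf b := by
    rw [← Subgroup.orderOf_coe b, ← Subgroup.orderOf_coe b']
  have hc0 : (b : GL Cfsg.Lie.chevF4.Idx K) * a = a * b := congrArg Subtype.val hab.symm.eq
  have hc : b' * a' = a' * b' := Subtype.ext hc0
  have hcard : Nat.card K = 2 ^ (2 * m + 1) := by rw [Nat.card_eq_fintype_card, hK]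
  intro r hr
  rw [Nat.mem_primeFactors] at hr ⊢
  refine ⟨hr.1, ?_, ?_⟩
  · have := Cfsg.Agent.BTs.prime_dvd Z oa (hfix a) hc hr.1 (by rw [ob]; exact hr.2.1)
    rwa [hcard] at this
  · have h6 : 2 ^ 1 ≤ 2 ^ (2 * m + 1) := Nat.pow_le_pow_right (by norm_num) (by omega)
    have h7 : 2 ^ 4 ≤ (2 ^ (2 * m + 1)) ^ 4 := Nat.pow_le_pow_left (by omega) 4
    apply Nat.mul_ne_zero
    · omega
    · omega

end Cfsg.Agent.S2369
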