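import Cfsg.Statements.S2370
import Cfsg.Agent.ChevTw.SpAut
import Cfsg.Agent.ChevTw.Inst

set_option autoImplicit false
open Cfsg

namespace Cfsg.Agent.S2370


open Cfsg.Lie Cfsg.Agent.Chev Cfsg.Agent.ChevGrp Cfsg.Agent.ChevTw
open scoped Matrix

/-- nilpotent matrices commuting past a matrix of small rank -/
lemma pow_mul_eq_zero {n : Type*} [Fintype n] [DecidableEq n] {K : Type*} [Field K] (N T Y : Matrix n n K)
    (hNT : N * T = T * Y) {k : ℕ} (hN : N ^ k = 0) {d : ℕ} (hd : T.rank ≤ d) : N ^ d * T = 0 := by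
  set V : Submodule K (n → K) := LinearMap.range T.mulVecLin with hV
  have hinv : ∀ v ∈ V, N.mulVecLin v ∈ V := by
    rintro v ⟨w, rfl⟩
    refine ⟨Y *ᵥ w, ?_⟩
    simp only [Matrix.mulVecLin_apply, Matrix.mulVec_mulVec, hNT]
  have hpow : ∀ i : ℕ, (N.mulVecLin) ^ i = (N ^ i).mulVecLin := by
    intro i
    induction i with
    | zero => simp only [pow_zero]; exact Matrix.mulVecLin_one.symm
    | succ i ih => rw [pow_succ, pow_succ, ih, Matrix.mulVecLin_mul]; rfl
  set f : Module.End K V := N.mulVecLin.restrict hinv with hf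
  have hfp : ∀ i : ℕ, ∀ v : V, ((f ^ i) v : n → K) = (N ^ i) *ᵥ (v : n → K) := by
    intro i v
    rw [hf, Module.End.pow_restrict]
    rw [LinearMap.coe_restrict_apply, hpow]
    rfl
  have hnil : IsNilpotent f := by
    refine ⟨k, ?_⟩
    apply LinearMap.ext
    intro v
    apply Subtype.ext
    rw [hfp, hN]
    simp
  have h1 : f ^ Module.finrank K V = 0 := by
    have h2 := LinearMap.aeval_self_charpoly f
    rw [IsNilpotent.charpoly_eq_X_pow_finrank hnil] at h2
    simpa using h2
  have h2 : f ^ d = 0 := pow_eq_zero_of_le hd h1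
  apply Matrix.ext_of_mulVec_single
  intro j
  rw [← Matrix.mulVec_mulVec, Matrix.zero_mulVec]
  have h3 := hfp d ⟨T *ᵥ Pi.single j 1, ⟨Pi.single j 1, rfl⟩⟩
  rw [h2] at h3
  rw [← h3]
  rfl

open scoped Classical in
lemma rank_TH (K : Type*) [Field K] : (TH chevF4 K thF4).rank ≤ 32 := by
  let e : chevF4.Idx → K := fun i => match i with
    | Sum.inl i => if (thF4.getD i.val none).isSome then 1 else 0
    | Sum.inr s => if (thF4.getD (chevF4.rank + s.val) none).isSome then 1 else 0
  have h1 : TH chevF4 K thF4 = TH chevF4 K thF4 * Matrix.diagonal e := by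
    ext a b
    rw [Matrix.mul_diagonal]
    rcases b with i | s
    · simp only [TH, Matrix.of_apply, e]
      cases h : thF4.getD i.val none with
      | none => simp [basO]
      | some k => simp
    · simp only [TH, Matrix.of_apply, e]
      cases h : thF4.getD (chevF4.rank + s.val) none with
      | none => simp [basO]
      | some k => simp
  rw [h1]
  refine (Matrix.rank_mul_le_right _ _).trans ?_
  rw [Matrix.rank_diagonal]
  have h2 : Fintype.card {i // e i ≠ 0} = Fintype.card {i : Fin 4 ⊕ Fin 48 // (match i with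
      | Sum.inl i => (thF4.getD i.val none).isSome
      | Sum.inr s => (thF4.getD (4 + s.val) none).isSome) = true} := by
    apply Fintype.card_congr
    apply Equiv.subtypeEquiv (Equiv.refl _)
    intro i
    rcases i with i | s
    · simp only [e, Equiv.refl_apply]
      split_ifs with h
      · simp only [ne_eq, one_ne_zero, not_false_eq_true, true_iff]; exact h
      · simp only [ne_eq, not_true_eq_false, false_iff]; exact h
    · simp only [e, Equiv.refl_apply]
      split_ifs with h
      · simp only [ne_eq, one_ne_zero, not_false_eq_true, true_iff]; exact h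
      · simp only [ne_eq, not_true_eq_false, false_iff]; exact h
  rw [h2]
  decide +kernel

/-- Let q = 2^(2m+1) with m ≥ 1. Every element of 2-power order of the large Ree group ²F₄(q) has order at most 32. -/
theorem result {K : Type*} [Field K] [Fintype K] (m : ℕ) (hm : 1 ≤ m) (hK : Fintype.card K = 2 ^ (2 * m + 1))
    (x : ↥(Cfsg.Lie.twistedF4 K (2 ^ m))) (hx : ∃ j : ℕ, orderOf x = 2 ^ j) : orderOf x ≤ 32 := by
  obtain ⟨j, hj⟩ := hx
  haveI : Fact (Nat.Prime 2) := ⟨Nat.prime_two⟩
  haveI : CharP K 2 := charP_of_card_eq_prime_pow hK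
  have hperf : ∀ x : K, ∃ y : K, y ^ 2 = x := by
    intro x
    obtain ⟨y, hy⟩ := (PerfectRing.bijective_frobenius (R := K) (p := 2)).2 x
    exact ⟨y, hy⟩
  have A := spAll_F4
  have hF : Faith chevF4 K thF4 := A.faith (exists_rinst A.mem A.good K) hperf
  set g : ↥(chevF4.group K) := ⟨x.1, genSub_le A.good.toGood2 _ x.2⟩ with hg
  obtain ⟨y, hy⟩ := spHom_surjective A.good.toGood2 A.sp hF Nat.prime_two hperf g
  have hrel := spHom_rel A.good.toGood2 A.sp hF y
  rw [hy] at hrel
  unfold Chev.Rel at hrel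
  set M : Matrix chevF4.Idx chevF4.Idx K := ((g : GL chevF4.Idx K) : Matrix chevF4.Idx chevF4.Idx K) with hM
  set Y : Matrix chevF4.Idx chevF4.Idx K := ((y : GL chevF4.Idx K) : Matrix chevF4.Idx chevF4.Idx K) with hY
  set T := TH chevF4 K thF4 with hT
  have hMp : ∀ i : ℕ, (((g ^ i : ↥(chevF4.group K)) : GL chevF4.Idx K) : Matrix chevF4.Idx chevF4.Idx K) = M ^ i := by
    intro i
    rw [SubmonoidClass.coe_pow, Units.val_pow_eq_pow_val]
  have hxp : x ^ 2 ^ j = 1 := by rw [← hj]; exact pow_orderOf_eq_one x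
  have hgp : g ^ 2 ^ j = 1 := by
    apply Subtype.ext
    have := congrArg Subtype.val hxp
    simpa [hg] using this
  haveI : Nonempty chevF4.Idx := ⟨Sum.inl ⟨0, by decide⟩⟩
  have hchar : CharP (Matrix chevF4.Idx chevF4.Idx K) 2 := inferInstance
  have hsub : ∀ i : ℕ, (M - 1) ^ 2 ^ i = M ^ 2 ^ i - 1 := by
    intro i
    rw [sub_pow_char_pow_of_commute 2 i (Commute.one_right M), one_pow]
  have hN : (M - 1) ^ 2 ^ j = 0 := by
    rw [hsub, ← hMp, hgp]
    simp
  have hNT : (M - 1) * T = T * (Y - 1) := by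
    rw [sub_mul, mul_sub, hrel, one_mul, mul_one]
  have h1 := pow_mul_eq_zero (M - 1) T (Y - 1) hNT hN (rank_TH K)
  have h2 : (M - 1) ^ 32 = M ^ 32 - 1 := hsub 5
  rw [h2, sub_mul, one_mul, sub_eq_zero, ← hMp] at h1
  have h3 := hF _ h1
  have h4 : x ^ 32 = 1 := by
    apply Subtype.ext
    have := congrArg Subtype.val h3
    simpa [hg] using this
  exact orderOf_le_of_pow_eq_one (by norm_num) h4

end Cfsg.Agent.S2370
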