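import Cfsg.Statements.S2379
import Cfsg.Agent.H41.SylHomo

set_option autoImplicit false
open Cfsg

namespace Cfsg.Agent.S2379

open Function

theorem card_filter_eq (d n : ℕ) (hd : 2 ≤ d) : ((Finset.Icc 2 n).filter (fun i => d ∣ i)).card = n / d := by
  rw [← Nat.card_multiples n d]
  symm
  apply Finset.card_bij (fun (i : ℕ) _ => i + 1)
  · intro i hi
    rw [Finset.mem_filter, Finset.mem_range] at hi
    rw [Finset.mem_filter, Finset.mem_Icc]
    have := Nat.le_of_dvd (by omega) hi.2
    exact ⟨⟨by omega, by omega⟩, hi.2⟩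
  · intro i _ j _ h
    exact Nat.succ_injective h
  · intro j hj
    rw [Finset.mem_filter, Finset.mem_Icc] at hj
    refine ⟨j - 1, ?_, by omega⟩
    rw [Finset.mem_filter, Finset.mem_range]
    have h1 : j - 1 + 1 = j := by omega
    rw [h1]
    exact ⟨by omega, hj.2⟩

/-- the diagonal torus of SL -/
def diagHom (F : Type*) [Field F] (m : ℕ) : (Fin m → Fˣ) →* Matrix.SpecialLinearGroup (Fin (m + 1)) F where
  toFun t := ⟨Matrix.diagonal (Fin.cons (((∏ i, t i)⁻¹ : Fˣ) : F) (fun i => (t i : F))), by
    rw [Matrix.det_diagonal, Fin.prod_univ_succ]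
    simp only [Fin.cons_zero, Fin.cons_succ]
    rw [← Units.coe_prod, ← Units.val_mul, inv_mul_cancel, Units.val_one]⟩
  map_one' := by
    apply Subtype.ext
    show Matrix.diagonal _ = 1
    rw [← Matrix.diagonal_one]
    congr 1
    funext i
    refine Fin.cases ?_ (fun j => ?_) i
    · simp
    · simp
  map_mul' := by
    intro s t
    apply Subtype.ext
    show Matrix.diagonal _ = Matrix.diagonal _ * Matrix.diagonal _
    rw [Matrix.diagonal_mul_diagonal]
    congr 1
    funext i
    refine Fin.cases ?_ (fun j => ?_) i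
    · simp [Finset.prod_mul_distrib, mul_comm]
    · simp

theorem diagHom_injective (F : Type*) [Field F] (m : ℕ) : Injective (diagHom F m) := by
  intro s t h
  funext i
  have h1 := congrArg (fun x : Matrix.SpecialLinearGroup (Fin (m + 1)) F => (x : Matrix _ _ F) i.succ i.succ) h
  simp only [diagHom] at h1
  apply Units.ext
  have h2 : ∀ u : Fin m → Fˣ, (Matrix.diagonal (Fin.cons (((∏ i, u i)⁻¹ : Fˣ) : F) (fun i => (u i : F))) :
      Matrix (Fin (m + 1)) (Fin (m + 1)) F) i.succ i.succ = u i := by
    intro u
    rw [Matrix.diagonal_apply_eq, Fin.cons_succ]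
  exact (h2 s).symm.trans (h1.trans (h2 t))

/-- Sylow subgroups of `SL_n(q)` for large primes. Let `F` be a field with `q` elements and `r` a prime with `r > n` and `r ∤ q` (so `r` does not divide the order `n!` of the Weyl group). Let `d` be the multiplicative order of `q` modulo `r`, `a` the number of integers `i` with `2 ≤ i ≤ n` divisible by `d` (the degrees of the Weyl group are `2, …, n`), and `m` the `r`-part of the value at `q` of the `d`-th cyclotomic polynomial. Then every Sylow `r`-subgroup of `SL_n(q)` is a direct product of `a` cyclic groups of order `m`. -/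
theorem result {F : Type*} [Field F] [Fintype F] {q : ℕ} (hq : Fintype.card F = q) (n : ℕ)
    (r : ℕ) [Fact r.Prime] (hrn : n < r) (hrq : ¬ r ∣ q) (P : Sylow r (Matrix.SpecialLinearGroup (Fin n) F)) :
    Nonempty (↥(P : Subgroup (Matrix.SpecialLinearGroup (Fin n) F)) ≃*
      (Fin ((Finset.Icc 2 n).filter (fun i => orderOf (q : ZMod r) ∣ i)).card →
        Multiplicative (ZMod (r ^ padicValNat r ((Polynomial.cyclotomic (orderOf (q : ZMod r)) ℤ).eval (q : ℤ)).natAbs)))) := by
  have hq2 : 2 ≤ q := hq ▸ Fintype.one_lt_card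
  rw [H41.fact_cyclotomic hq2 hrq]
  have hr : r.Prime := Fact.out
  rcases Nat.eq_zero_or_pos n with hn | hn
  · subst hn
    refine H41.sylow_equiv_of_inj (1 : _ →* Matrix.SpecialLinearGroup (Fin 0) F) ?_ ?_ P
    · intro s t _
      funext i
      exact absurd i.2 (by
        have := i.2
        simp at this)
    · rw [H41.card_target]
      simp
  have hSL := H4.card_SL_mul (F := F) n hn
  rw [hq] at hSL
  have hSL0 : Nat.card (Matrix.SpecialLinearGroup (Fin n) F) ≠ 0 := Nat.card_pos.ne'
  have hcardGL : Nat.card (GL (Fin n) F) = ∏ i : Fin n, (q ^ n - q ^ (i : ℕ)) := by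
    rw [Matrix.card_GL_field, hq]
  have hf : ((q - 1) * Nat.card (Matrix.SpecialLinearGroup (Fin n) F)).factorization r =
    (Nat.card (GL (Fin n) F)).factorization r := by rw [hSL]
  rw [Nat.factorization_mul (by omega) hSL0, Finsupp.add_apply, hcardGL, H41.fact_gl hq2 hrq n hrn] at hf
  rcases Nat.lt_or_ge 1 (orderOf (q : ZMod r)) with hd | hd
  · have h1 : (q - 1).factorization r = 0 := by
      apply Nat.factorization_eq_zero_of_not_dvd
      intro h
      have h2 := (H41.dvd_pow_sub_one_iff (r := r) (q := q) (by omega) 1).mp (by rwa [pow_one])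
      exact absurd (Nat.le_of_dvd one_pos h2) (by omega)
    rw [h1, zero_add] at hf
    have hPc := P.card_eq_multiplicity
    let f : Matrix.SpecialLinearGroup (Fin n) F →* GL (Fin n) F := Matrix.SpecialLinearGroup.toGL
    have hfi : Injective f := Matrix.SpecialLinearGroup.toGL_injective
    let P' : Subgroup (GL (Fin n) F) := (P : Subgroup (Matrix.SpecialLinearGroup (Fin n) F)).map f
    have e : ↥(P : Subgroup (Matrix.SpecialLinearGroup (Fin n) F)) ≃* ↥P' :=
      (P : Subgroup (Matrix.SpecialLinearGroup (Fin n) F)).equivMapOfInjective f hfi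
    have hc : Nat.card P' = r ^ (Nat.card (GL (Fin n) F)).factorization r := by
      rw [← Nat.card_congr e.toEquiv, hPc, hf, hcardGL, H41.fact_gl hq2 hrq n hrn]
    obtain ⟨e2⟩ := H41.gl_sylow hq n r hrn hrq (Sylow.ofCard P' hc)
    rw [card_filter_eq _ _ (by omega)]
    exact ⟨e.trans e2⟩
  · have hd1 : orderOf (q : ZMod r) = 1 := by
      have := H41.orderOf_pos_zmod hrq
      omega
    rw [hd1]
    rw [hd1, pow_one, Nat.div_one] at hf
    obtain ⟨m, rfl⟩ : ∃ m, n = m + 1 := ⟨n - 1, by omega⟩
    have hcf : ((Finset.Icc 2 (m + 1)).filter (fun i => 1 ∣ i)).card = m := by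
      rw [Finset.filter_true_of_mem (fun i _ => one_dvd i), Nat.card_Icc]
      omega
    rw [hcf, pow_one]
    have hC : Nat.card Fˣ = q - 1 := by
      rw [Nat.card_units, Nat.card_eq_fintype_card, hq]
    obtain ⟨g, hg⟩ := H41.exists_cyc_hom (C := Fˣ) (k := r ^ (q - 1).factorization r)
      (by rw [hC]; exact Nat.ordProj_dvd _ _)
    refine H41.sylow_equiv_of_inj ((diagHom F m).comp (MonoidHom.compLeft g (Fin m))) ?_ ?_ P
    · exact (diagHom_injective F m).comp (fun s t h => by
        funext i
        exact hg (congrFun h i))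
    · rw [H41.card_target]
      congr 1
      have : (m + 1) * (q - 1).factorization r = (q - 1).factorization r + m * (q - 1).factorization r := by ring
      omega

end Cfsg.Agent.S2379
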