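import Cfsg.Statements.S2381
import Cfsg.Agent.H94.WrNR2
import Cfsg.Agent.ClGeo.SpDecomp
import Cfsg.Agent.ClGeo.SpBlocks
import Cfsg.Agent.ClassSp.Order

set_option autoImplicit false
open Cfsg

namespace Cfsg.Agent.S2381

open Matrix Subgroup Cfsg.Agent.H94.Wr Cfsg.Agent

/-- the block sum on `Fin` -/
noncomputable def spSum (a b : ℕ) (F : Type*) [Field F] :
    symplecticGroup (Fin a) F × symplecticGroup (Fin b) F →* symplecticGroup (Fin (a + b)) F :=
  (ClassSp.reindexSp finSumFinEquiv).toMonoidHom.comp (ClGeo.bsHom (Fin a) (Fin b) F)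

theorem spSum_injective (a b : ℕ) (F : Type*) [Field F] : Function.Injective (spSum a b F) :=
  (ClassSp.reindexSp finSumFinEquiv).injective.comp ClGeo.bsHom_injective

def piSucc (a : ℕ) (C : Type*) [Group C] : C × (Fin a → C) ≃* (Fin (a + 1) → C) where
  toFun x := Fin.cons x.1 x.2
  invFun f := (f 0, fun i => f i.succ)
  left_inv x := by simp
  right_inv f := by
    funext i
    refine Fin.cases ?_ (fun i => ?_) i <;> simp
  map_mul' x y := by
    funext i
    refine Fin.cases ?_ (fun i => ?_) i <;> simp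

section
variable {r : ℕ} [hr : Fact r.Prime] {F : Type*} [Field F] [Fintype F]

theorem fac_sp_succ (hrq : ¬ r ∣ Fintype.card F) (n : ℕ) : (Nat.card (symplecticGroup (Fin n) F)).factorization r =
    ∑ i ∈ Finset.range n, (Fintype.card F ^ (2 * (i + 1)) - 1).factorization r := by
  have hq1 : 1 < Fintype.card F := Fintype.one_lt_card
  have h2 : ∀ i ∈ Finset.range n, Fintype.card F ^ (2 * (i + 1)) - 1 ≠ 0 := by
    intro i _
    have := Nat.one_lt_pow (n := 2 * (i + 1)) (by omega) hq1
    omega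
  rw [ClassSp.card_fin, Nat.factorization_mul (pow_ne_zero _ (by omega)) (Finset.prod_ne_zero_iff.mpr h2),
    Nat.factorization_prod h2]
  simp only [Finsupp.add_apply, Finsupp.finsetSum_apply]
  rw [Nat.factorization_eq_zero_of_not_dvd (fun h => hrq (hr.out.dvd_of_dvd_pow h)), zero_add]

theorem fac_sp_div (hr2 : r ≠ 2) (hrq : ¬ r ∣ Fintype.card F) {d n' : ℕ} (hs : Shape r (Fintype.card F) d)
    (hn' : ∀ i, d ∣ 2 * i ↔ n' ∣ i) (n : ℕ) (hn : n < r) :
    (Nat.card (symplecticGroup (Fin n) F)).factorization r = (n / n') * (Fintype.card F ^ d - 1).factorization r := by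
  rw [fac_sp_succ hrq]
  have h1 : ∀ i ∈ Finset.range n, (Fintype.card F ^ (2 * (i + 1)) - 1).factorization r =
      if n' ∣ i + 1 then (Fintype.card F ^ d - 1).factorization r else 0 := by
    intro i hi
    rw [Finset.mem_range] at hi
    by_cases h : d ∣ 2 * (i + 1)
    · rw [if_pos ((hn' _).mp h)]
      obtain ⟨j, hj⟩ := h
      have hj0 : j ≠ 0 := by rintro rfl; omega
      have hj1 : j.factorization r = 0 := by
        apply Nat.factorization_eq_zero_of_not_dvd
        intro hrj
        have h3 : r ∣ 2 * (i + 1) := by rw [hj]; exact hrj.mul_left d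
        rcases (Nat.Prime.dvd_mul hr.out).mp h3 with h4 | h4
        · exact hr2 ((Nat.prime_dvd_prime_iff_eq hr.out Nat.prime_two).mp h4)
        · have := Nat.le_of_dvd (by omega) h4
          omega
      rw [hj, hs.2.2 j hj0, hj1, add_zero]
    · rw [if_neg (fun h' => h ((hn' _).mpr h')), hs.2.1 _ (by omega) h]
  rw [Finset.sum_congr rfl h1, ← Finset.sum_filter, Finset.sum_const, Nat.card_multiples, smul_eq_mul]

/-- Sylow subgroups of `GL_d` are cyclic -/
theorem cyc_GL (hrq : ¬ r ∣ Fintype.card F) {d : ℕ} (hs : Shape r (Fintype.card F) d) (P : Sylow r (GL (Fin d) F)) :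
    IsCyclic (P : Subgroup (GL (Fin d) F)) := by
  obtain ⟨K, hK, hfin, f, hf, hc⟩ := exists_singer_hom (F := F) d hs.1
  obtain ⟨R⟩ := (inferInstance : Nonempty (Sylow r Kˣ))
  obtain ⟨e⟩ := sylow_equiv f hf (by rw [hc, fac_GL_e hrq hs]) P R
  exact isCyclic_of_surjective e e.surjective

theorem cyc_sp (hr2 : r ≠ 2) (hrq : ¬ r ∣ Fintype.card F) {d n' : ℕ} (hs : Shape r (Fintype.card F) d)
    (hn' : ∀ i, d ∣ 2 * i ↔ n' ∣ i) (hd : d = 2 * n' ∨ d = n') (hn : n' < r) (hn0 : n' ≠ 0) (P : Sylow r (symplecticGroup (Fin n') F)) :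
    IsCyclic (P : Subgroup (symplecticGroup (Fin n') F)) := by
  have hfac := fac_sp_div hr2 hrq hs hn' n' hn
  rw [Nat.div_self (Nat.pos_of_ne_zero hn0), one_mul] at hfac
  obtain ⟨R⟩ := (inferInstance : Nonempty (Sylow r (GL (Fin d) F)))
  have hR := cyc_GL hrq hs R
  rcases hd with hd | hd
  · have e : Fin n' ⊕ Fin n' ≃ Fin d := finSumFinEquiv.trans (finCongr (by omega))
    obtain ⟨e1⟩ := sylow_equiv ((greidx e F).toMonoidHom.comp (symplecticGroup (Fin n') F).subtype.toHomUnits) (by
      refine (greidx e F).injective.comp ?_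
      intro a b h
      exact Subtype.ext (congrArg Units.val h)) (by rw [hfac, fac_GL_e hrq hs]) R P
    exact isCyclic_of_surjective e1.symm e1.symm.surjective
  · subst hd
    obtain ⟨e1⟩ := sylow_equiv (ClGeo.leviHom d F) ClGeo.leviHom_injective (by rw [hfac, fac_GL_e hrq hs]) P R
    exact isCyclic_of_surjective e1 e1.surjective

theorem sylow_sp (hr2 : r ≠ 2) (hrq : ¬ r ∣ Fintype.card F) {d n' : ℕ} (hs : Shape r (Fintype.card F) d)
    (hn' : ∀ i, d ∣ 2 * i ↔ n' ∣ i) (hd : d = 2 * n' ∨ d = n') (hn0 : n' ≠ 0) (s : ℕ) (hsn : s < n') (a : ℕ) :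
    ∀ n, n < r → n = n' * a + s → ∀ P : Sylow r (symplecticGroup (Fin n) F),
    Nonempty ((P : Subgroup (symplecticGroup (Fin n) F)) ≃* (Fin a → Multiplicative (ZMod (r ^ (Fintype.card F ^ d - 1).factorization r)))) := by
  induction a with
  | zero =>
    intro n hn hnn P
    have h1 : Nat.card (P : Subgroup (symplecticGroup (Fin n) F)) = 1 := by
      rw [card_sylow P, fac_sp_div hr2 hrq hs hn' n hn]
      have : n / n' = 0 := Nat.div_eq_of_lt (by omega)
      rw [this]; simp
    have : Subsingleton (P : Subgroup (symplecticGroup (Fin n) F)) := (Nat.card_eq_one_iff_unique.mp h1).1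
    have : Unique (P : Subgroup (symplecticGroup (Fin n) F)) := ⟨⟨1⟩, fun a => Subsingleton.elim _ _⟩
    exact ⟨MulEquiv.ofUnique⟩
  | succ a ih =>
    intro n hn hnn P
    have hnn' : n = n' + (n' * a + s) := by rw [hnn]; ring
    subst hnn'
    obtain ⟨P1⟩ := (inferInstance : Nonempty (Sylow r (symplecticGroup (Fin n') F)))
    obtain ⟨P2⟩ := (inferInstance : Nonempty (Sylow r (symplecticGroup (Fin (n' * a + s)) F)))
    obtain ⟨R⟩ := (inferInstance : Nonempty (Sylow r (symplecticGroup (Fin n') F × symplecticGroup (Fin (n' * a + s)) F)))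
    obtain ⟨e2⟩ := ih (n' * a + s) (by omega) rfl P2
    have hc := cyc_sp hr2 hrq hs hn' hd (by omega) hn0 P1
    have hfac := fac_sp_div hr2 hrq hs hn' n' (by omega)
    rw [Nat.div_self (Nat.pos_of_ne_zero hn0), one_mul] at hfac
    have e1 := (zmodCyclicMulEquiv hc).symm
    rw [card_sylow P1, hfac] at e1
    obtain ⟨e3⟩ := sylow_prod_equiv P1 P2 R
    obtain ⟨e4⟩ := sylow_equiv (spSum n' (n' * a + s) F) (spSum_injective _ _ F) (by
      rw [Nat.card_prod, Nat.factorization_mul Nat.card_pos.ne' Nat.card_pos.ne']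
      simp only [Finsupp.add_apply]
      rw [fac_sp_div hr2 hrq hs hn' _ hn, hfac, fac_sp_div hr2 hrq hs hn' _ (by omega)]
      have h1 : (n' + (n' * a + s)) / n' = (n' * a + s) / n' + 1 := by
        rw [add_comm, Nat.add_div_right _ (Nat.pos_of_ne_zero hn0)]
      rw [h1]; ring) P R
    exact ⟨e4.symm.trans (e3.symm.trans ((MulEquiv.prodCongr e1 e2).trans (piSucc a _)))⟩

theorem fac_cyclotomic (hrq : ¬ r ∣ Fintype.card F) {d : ℕ} (hs : Shape r (Fintype.card F) d) :
    padicValNat r ((Polynomial.cyclotomic d ℤ).eval (Fintype.card F : ℤ)).natAbs = (Fintype.card F ^ d - 1).factorization r := by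
  have hq1 : 1 < Fintype.card F := Fintype.one_lt_card
  set q := Fintype.card F with hq
  have h1 : ∀ n, 0 < n → ∏ e ∈ n.divisors, ((Polynomial.cyclotomic e ℤ).eval (q : ℤ)).natAbs = q ^ n - 1 := by
    intro n hn
    have h2 := congrArg (Polynomial.eval (q : ℤ)) (Polynomial.prod_cyclotomic_eq_X_pow_sub_one hn ℤ)
    rw [Polynomial.eval_prod] at h2
    have h3 := congrArg Int.natAbs h2
    rw [← Int.natAbsHom_apply, map_prod] at h3
    simp only [Int.natAbsHom_apply] at h3
    rw [h3]
    simp only [Polynomial.eval_sub, Polynomial.eval_pow, Polynomial.eval_X, Polynomial.eval_one]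
    have h4 : ((q : ℤ) ^ n - 1) = ((q ^ n - 1 : ℕ) : ℤ) := by
      rw [Nat.cast_sub (Nat.one_le_pow _ _ (by omega))]; simp
    rw [h4, Int.natAbs_natCast]
  have hne : ∀ n, 0 < n → ∀ e ∈ n.divisors, ((Polynomial.cyclotomic e ℤ).eval (q : ℤ)).natAbs ≠ 0 := by
    intro n hn
    have h2 := h1 n hn
    have h3 : q ^ n - 1 ≠ 0 := by
      have := Nat.one_lt_pow (n := n) (by omega) hq1
      omega
    rw [← h2] at h3
    exact Finset.prod_ne_zero_iff.mp h3
  have hd : 0 < d := Nat.pos_of_ne_zero hs.1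
  rw [← Nat.factorization_def _ hr.out, ← h1 d hd, Nat.factorization_prod (hne d hd), Finsupp.finsetSum_apply,
    Finset.sum_eq_single_of_mem d (Nat.mem_divisors_self d hs.1)]
  intro e he hed
  have he0 : 0 < e := Nat.pos_of_mem_divisors he
  have h5 := hs.2.1 e he0.ne' (fun h => hed (Nat.dvd_antisymm (Nat.dvd_of_mem_divisors he) h))
  rw [← h1 e he0, Nat.factorization_prod (hne e he0), Finsupp.finsetSum_apply, Finset.sum_eq_zero_iff] at h5
  exact h5 e (Nat.mem_divisors_self e he0.ne')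

end

/-- Sylow subgroups of `Sp_{2n}(q)` for large primes. Let `F` be a field with `q` elements and `r` an odd prime with `r > n` and `r ∤ q` (so `r` does not divide the order `2^n n!` of the Weyl group). Let `d` be the multiplicative order of `q` modulo `r`, `a` the number of `i` with `1 ≤ i ≤ n` and `d ∣ 2i` (the degrees being `2, 4, …, 2n`), and `m` the `r`-part of the value at `q` of the `d`-th cyclotomic polynomial. Then every Sylow `r`-subgroup of the symplectic group `Sp_{2n}(q)` is a direct product of `a` cyclic groups of order `m`. -/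
theorem result {F : Type*} [Field F] [Fintype F] {q : ℕ} (hq : Fintype.card F = q) (n : ℕ)
    (r : ℕ) [Fact r.Prime] (hr2 : r ≠ 2) (hrn : n < r) (hrq : ¬ r ∣ q) (P : Sylow r ↥(Matrix.symplecticGroup (Fin n) F)) :
    Nonempty (↥(P : Subgroup ↥(Matrix.symplecticGroup (Fin n) F)) ≃*
      (Fin ((Finset.Icc 1 n).filter (fun i => orderOf (q : ZMod r) ∣ 2 * i)).card →
        Multiplicative (ZMod (r ^ padicValNat r ((Polynomial.cyclotomic (orderOf (q : ZMod r)) ℤ).eval (q : ℤ)).natAbs)))) := by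
  subst hq
  have hq1 : 1 < Fintype.card F := Fintype.one_lt_card
  have hs := shape_odd (p := r) hr2 hq1 hrq
  rw [fac_cyclotomic hrq hs]
  set d := orderOf ((Fintype.card F : ℕ) : ZMod r) with hd
  obtain ⟨n', hn', hdn, hn0⟩ : ∃ n' : ℕ, (∀ i, d ∣ 2 * i ↔ n' ∣ i) ∧ (d = 2 * n' ∨ d = n') ∧ n' ≠ 0 := by
    rcases Nat.even_or_odd' d with ⟨m, hm | hm⟩
    · refine ⟨m, fun i => ?_, Or.inl hm, ?_⟩
      · rw [hm]; exact Nat.mul_dvd_mul_iff_left two_pos
      · rintro rfl; exact hs.1 hm
    · refine ⟨d, fun i => ?_, Or.inr rfl, hs.1⟩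
      exact ⟨fun h => (Nat.Coprime.dvd_mul_left (by rw [Nat.coprime_two_right, Nat.odd_iff]; omega)).mp h, fun h => h.mul_left 2⟩
  have hcard : ((Finset.Icc 1 n).filter (fun i => d ∣ 2 * i)).card = n / n' := by
    rw [← Nat.card_multiples n n']
    refine Finset.card_bij' (fun i _ => i - 1) (fun i _ => i + 1) ?_ ?_ ?_ ?_
    · intro i hi
      rw [Finset.mem_filter, Finset.mem_Icc] at hi
      rw [Finset.mem_filter, Finset.mem_range, Nat.sub_add_cancel hi.1.1]
      exact ⟨by omega, (hn' i).mp hi.2⟩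
    · intro i hi
      rw [Finset.mem_filter, Finset.mem_range] at hi
      rw [Finset.mem_filter, Finset.mem_Icc]
      exact ⟨by omega, (hn' _).mpr hi.2⟩
    · intro i hi
      rw [Finset.mem_filter, Finset.mem_Icc] at hi
      omega
    · intro i hi
      omega
  rw [hcard]
  exact sylow_sp hr2 hrq hs hn' hdn hn0 (n % n') (Nat.mod_lt _ (Nat.pos_of_ne_zero hn0)) (n / n') n hrn (Nat.div_add_mod n n').symm P

end Cfsg.Agent.S2381
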