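import Cfsg.Statements.S2383
import Mathlib
import Cfsg.Agent.H53.CRRows

set_option autoImplicit false
open Cfsg

namespace Cfsg.Agent.S2383

/-- Steinberg's count of semisimple classes in characteristic 2 for the types B₂, D₄, E₇, where the finite simply connected group has trivial centre and so coincides with the Chevalley group: for the Chevalley group of type B₂, D₄ or E₇ over a field with `q` elements of characteristic 2, the conjugacy classes of elements of odd order number exactly `q^l`, `l` the rank. -/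
theorem result {F : Type*} [Field F] [Fintype F] {q : ℕ} (hq : Fintype.card F = q) [CharP F 2]
    (D : Cfsg.Lie.ChevalleyDatum) (hD : D ∈ [Cfsg.Lie.chevB2, Cfsg.Lie.chevD4, Cfsg.Lie.chevE7]) :
    Nat.card {c : ConjClasses ↥(D.group F) // ∃ g : ↥(D.group F), ConjClasses.mk g = c ∧ Odd (orderOf g)} = q ^ D.rank := by
  have hp2 : Fact (Nat.Prime 2) := ⟨Nat.prime_two⟩
  have hodd : ∀ m : ℕ, Odd m ↔ m.Coprime 2 := fun m => Nat.coprime_two_right.symm
  have hcop : (Fintype.card F - 1).Coprime 2 := by
    obtain ⟨m, -, hm⟩ := FiniteField.card F 2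
    rw [hm, Nat.coprime_two_right]
    have h1 : Even (2 ^ (m : ℕ)) := Nat.even_pow.2 ⟨even_two, m.pos.ne'⟩
    have h2 : 0 < 2 ^ (m : ℕ) := by positivity
    exact Nat.Even.sub_odd h2 h1 odd_one
  simp only [List.mem_cons, List.not_mem_nil, or_false] at hD
  simp only [hodd]
  rcases hD with rfl | rfl | rfl
  · rw [Cfsg.Agent.H53.CR.count_B2 2 hcop, hq]; rfl
  · rw [Cfsg.Agent.H53.CR.count_D4 2 hcop, hq]; rfl
  · rw [Cfsg.Agent.H53.CR.count_E7 2 hcop, hq]; rfl

end Cfsg.Agent.S2383
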