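import Cfsg.Statements.S2388
import Cfsg.Agent.H41.SemisMat

set_option autoImplicit false
set_option linter.unusedSimpArgs false
open Cfsg

namespace Cfsg.Agent.S2388

open Cfsg.Agent.H41

/-- In `SL_n(q)`, `q` a power of the prime `p`, two elements of order prime to `p` with the same characteristic polynomial are conjugate in `SL_n(q)` (not merely in `GL_n`). -/
theorem result {F : Type*} [Field F] [Fintype F] (p : ℕ) [Fact p.Prime] [CharP F p] (n : ℕ)
    (g h : Matrix.SpecialLinearGroup (Fin n) F) (hg : (orderOf g).Coprime p) (hh : (orderOf h).Coprime p)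
    (hc : (g : Matrix (Fin n) (Fin n) F).charpoly = (h : Matrix (Fin n) (Fin n) F).charpoly) : IsConj g h := by
  have hcop : (orderOf g * orderOf h).Coprime p := Nat.Coprime.mul_left hg hh
  have hm : ((orderOf g * orderOf h : ℕ) : F) ≠ 0 := by
    rw [Ne, CharP.cast_eq_zero_iff F p]
    intro h1
    exact (Nat.Prime.coprime_iff_not_dvd Fact.out).mp hcop.symm h1
  obtain ⟨P, hP, hPgh⟩ := exists_sl_simil (g : Matrix (Fin n) (Fin n) F) (h : Matrix (Fin n) (Fin n) F) _ hm
    (by rw [← Matrix.SpecialLinearGroup.coe_pow, pow_mul, pow_orderOf_eq_one, one_pow]; rfl)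
    (by rw [← Matrix.SpecialLinearGroup.coe_pow, mul_comm, pow_mul, pow_orderOf_eq_one, one_pow]; rfl) hc
  obtain ⟨Q, hQ⟩ : ∃ Q : Matrix.SpecialLinearGroup (Fin n) F, (Q : Matrix (Fin n) (Fin n) F) = P := ⟨⟨P, hP⟩, rfl⟩
  rw [isConj_iff]
  refine ⟨Q, ?_⟩
  rw [mul_inv_eq_iff_eq_mul]
  apply Subtype.ext
  rw [Matrix.SpecialLinearGroup.coe_mul, Matrix.SpecialLinearGroup.coe_mul, hQ, hPgh]

end Cfsg.Agent.S2388
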