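import Cfsg.Statements.S2384
import Cfsg.Agent.H41.SemisCount
import Cfsg.Agent.S2388

set_option autoImplicit false
set_option linter.unusedSimpArgs false
open Cfsg

namespace Cfsg.Agent.S2384

open Cfsg.Agent.H41 Polynomial

/-- In `SL_n(q)`, `q` a power of the prime `p`, the number of conjugacy classes of elements of order prime to `p` (the semisimple classes) is `q^(n-1)`. -/
theorem result {F : Type*} [Field F] [Fintype F] {q : ℕ} (hq : Fintype.card F = q) (p : ℕ) [Fact p.Prime] [CharP F p] (n : ℕ) (hn : 1 ≤ n) :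
    Nat.card {c : ConjClasses (Matrix.SpecialLinearGroup (Fin n) F) //
      ∃ g : Matrix.SpecialLinearGroup (Fin n) F, ConjClasses.mk g = c ∧ (orderOf g).Coprime p} = q ^ (n - 1) := by
  classical
  obtain ⟨n, rfl⟩ : ∃ m, n = m + 1 := ⟨n - 1, by omega⟩
  have hpp : p.Prime := Fact.out
  rw [card_classes_eq (n + 1) (fun g : Matrix.SpecialLinearGroup (Fin (n + 1)) F => (orderOf g).Coprime p) {a : Fin (n + 1) → F | a 0 = (-1) ^ (n + 1)}
    (fun g => (g : Matrix (Fin (n + 1)) (Fin (n + 1)) F).charpoly) (fun g => Matrix.charpoly_monic _)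
    (fun g => by rw [Matrix.charpoly_natDegree_eq_dim, Fintype.card_fin])]
  · have e : {a : Fin (n + 1) → F | a 0 = (-1) ^ (n + 1)} ≃ (Fin n → F) :=
      { toFun := fun a i => a.1 i.succ
        invFun := fun x => ⟨Fin.cons ((-1) ^ (n + 1)) x, by change (Fin.cons ((-1) ^ (n + 1)) x : Fin (n + 1) → F) 0 = _; rw [Fin.cons_zero]⟩
        left_inv := fun a => by
          apply Subtype.ext
          funext i
          refine Fin.cases ?_ (fun j => ?_) i
          · have := a.2
            change a.1 0 = _ at this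
            simp [this]
          · simp
        right_inv := fun x => by
          funext i
          simp }
    rw [Nat.card_congr e, Nat.card_fun, Nat.card_eq_fintype_card (α := F), hq, Nat.card_eq_fintype_card (α := Fin n), Fintype.card_fin, Nat.add_sub_cancel]
  · intro g h hgh
    obtain ⟨c, hc⟩ := isConj_iff.mp hgh
    have h2 := congrArg Matrix.SpecialLinearGroup.toGL hc
    rw [map_mul, map_mul, map_inv] at h2
    have h1 : (h : Matrix (Fin (n + 1)) (Fin (n + 1)) F) = (Matrix.SpecialLinearGroup.toGL c : GL (Fin (n + 1)) F) * g *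
        ((Matrix.SpecialLinearGroup.toGL c : GL (Fin (n + 1)) F)⁻¹ : GL (Fin (n + 1)) F) := by
      exact (congrArg Units.val h2).symm
    change (g : Matrix (Fin (n + 1)) (Fin (n + 1)) F).charpoly = (h : Matrix (Fin (n + 1)) (Fin (n + 1)) F).charpoly
    rw [h1, Matrix.coe_units_inv]
    exact (Matrix.charpoly_units_conj _ _).symm
  · intro g h hg hh hc
    exact Cfsg.Agent.S2388.result p (n + 1) g h hg hh hc
  · intro g hg
    have h1 := Matrix.det_eq_sign_charpoly_coeff (g : Matrix (Fin (n + 1)) (Fin (n + 1)) F)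
    rw [g.2, Fintype.card_fin] at h1
    change (g : Matrix (Fin (n + 1)) (Fin (n + 1)) F).charpoly.coeff ((0 : Fin (n + 1)) : ℕ) = _
    rw [Fin.val_zero]
    have h2 : ((-1 : F) ^ (n + 1)) * (-1) ^ (n + 1) = 1 := by rw [← mul_pow]; norm_num
    calc _ = ((-1 : F) ^ (n + 1)) * ((-1) ^ (n + 1) * (g : Matrix (Fin (n + 1)) (Fin (n + 1)) F).charpoly.coeff 0) := by rw [← mul_assoc, h2, one_mul]
      _ = _ := by rw [← h1, mul_one]
  · intro a ha
    obtain ⟨A, hA⟩ := exists_charpoly_eq (n + 1) (monicOf (n + 1) a) (monicOf_monic _ _) (monicOf_natDegree _ _)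
    have hdet : A.det = 1 := by
      rw [Matrix.det_eq_sign_charpoly_coeff, hA, Fintype.card_fin]
      have := monicOf_coeff (n + 1) a 0
      rw [Fin.val_zero] at this
      rw [this, show a 0 = _ from ha, ← mul_pow]; norm_num
    obtain ⟨B, hB⟩ : ∃ B : Matrix.SpecialLinearGroup (Fin (n + 1)) F, (B : Matrix (Fin (n + 1)) (Fin (n + 1)) F) = A := ⟨⟨A, hdet⟩, rfl⟩
    obtain ⟨j, hj⟩ := exists_coprime_pow p hpp (Fintype.card F) (by
      obtain ⟨m, hm0, hm⟩ := FiniteField.card F p
      rw [hm]; exact dvd_pow_self _ m.ne_zero) B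
    refine ⟨_, hj, ?_⟩
    rw [Matrix.SpecialLinearGroup.coe_pow, charpoly_pow_card_pow, hB, hA]

end Cfsg.Agent.S2384
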