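import Cfsg.Statements.S2387
import Cfsg.Agent.H41.SemisCount

set_option autoImplicit false
set_option linter.unusedSimpArgs false
open Cfsg

namespace Cfsg.Agent.S2387

open Cfsg.Agent.H41 Polynomial

/-- In `GL_n(q)` with `n ≥ 1`, `q` a power of the prime `p`, the number of conjugacy classes of elements of order prime to `p` (diagonalisable over the algebraic closure; determined by the characteristic polynomial) is `(q - 1) q^(n-1)`. -/
theorem result {F : Type*} [Field F] [Fintype F] {q : ℕ} (hq : Fintype.card F = q) (p : ℕ) [Fact p.Prime] [CharP F p] (n : ℕ) (hn : 1 ≤ n) :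
    Nat.card {c : ConjClasses (GL (Fin n) F) // ∃ g : GL (Fin n) F, ConjClasses.mk g = c ∧ (orderOf g).Coprime p} = (q - 1) * q ^ (n - 1) := by
  classical
  obtain ⟨n, rfl⟩ : ∃ m, n = m + 1 := ⟨n - 1, by omega⟩
  have hpp : p.Prime := Fact.out
  rw [card_classes_eq (n + 1) (fun g : GL (Fin (n + 1)) F => (orderOf g).Coprime p) {a : Fin (n + 1) → F | a 0 ≠ 0}
    (fun g => (g : Matrix (Fin (n + 1)) (Fin (n + 1)) F).charpoly) (fun g => Matrix.charpoly_monic _)
    (fun g => by rw [Matrix.charpoly_natDegree_eq_dim, Fintype.card_fin])]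
  · have e : {a : Fin (n + 1) → F | a 0 ≠ 0} ≃ {x : F // x ≠ 0} × (Fin n → F) :=
      { toFun := fun a => (⟨a.1 0, a.2⟩, fun i => a.1 i.succ)
        invFun := fun x => ⟨Fin.cons x.1.1 x.2, by change (Fin.cons x.1.1 x.2 : Fin (n + 1) → F) 0 ≠ 0; rw [Fin.cons_zero]; exact x.1.2⟩
        left_inv := fun a => by
          apply Subtype.ext
          funext i
          refine Fin.cases ?_ (fun j => ?_) i
          · simp
          · simp
        right_inv := fun x => by
          ext i
          · simp
          · simp }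
    rw [Nat.card_congr e, Nat.card_prod, Nat.card_fun, Nat.card_eq_fintype_card (α := F), hq, Nat.card_eq_fintype_card, Fintype.card_subtype_compl,
      Fintype.card_subtype_eq, hq, Nat.card_eq_fintype_card (α := Fin n), Fintype.card_fin, Nat.add_sub_cancel]
  · intro g h hgh
    obtain ⟨c, hc⟩ := isConj_iff.mp hgh
    have h1 : (h : Matrix (Fin (n + 1)) (Fin (n + 1)) F) = c * g * (c⁻¹ : GL (Fin (n + 1)) F) := by rw [← hc]; rfl
    change (g : Matrix (Fin (n + 1)) (Fin (n + 1)) F).charpoly = (h : Matrix (Fin (n + 1)) (Fin (n + 1)) F).charpoly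
    rw [h1, Matrix.coe_units_inv]
    exact (Matrix.charpoly_units_conj c _).symm
  · intro g h hg hh hc
    have hcop : (orderOf g * orderOf h).Coprime p := Nat.Coprime.mul_left hg hh
    have hm : ((orderOf g * orderOf h : ℕ) : F) ≠ 0 := by
      rw [Ne, CharP.cast_eq_zero_iff F p]
      intro h1
      exact (Nat.Prime.coprime_iff_not_dvd Fact.out).mp hcop.symm h1
    obtain ⟨P, hP, hPgh⟩ := exists_simil_of_charpoly (g : Matrix (Fin (n + 1)) (Fin (n + 1)) F) (h : Matrix (Fin (n + 1)) (Fin (n + 1)) F) _ hm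
      (by
        have : g ^ (orderOf g * orderOf h) = 1 := by rw [pow_mul, pow_orderOf_eq_one, one_pow]
        exact congrArg Units.val this)
      (by
        have : h ^ (orderOf g * orderOf h) = 1 := by rw [mul_comm, pow_mul, pow_orderOf_eq_one, one_pow]
        exact congrArg Units.val this) hc
    rw [isConj_iff]
    refine ⟨Matrix.GeneralLinearGroup.mkOfDetNeZero P hP, ?_⟩
    rw [mul_inv_eq_iff_eq_mul]
    apply Units.ext
    exact hPgh
  · intro g hg
    have h1 := Matrix.det_eq_sign_charpoly_coeff (g : Matrix (Fin (n + 1)) (Fin (n + 1)) F)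
    intro h2
    change (g : Matrix (Fin (n + 1)) (Fin (n + 1)) F).charpoly.coeff ((0 : Fin (n + 1)) : ℕ) = 0 at h2
    rw [Fin.val_zero] at h2
    rw [h2, mul_zero] at h1
    have h3 := (Matrix.GeneralLinearGroup.det g).ne_zero
    exact h3 h1
  · intro a ha
    obtain ⟨A, hA⟩ := exists_charpoly_eq (n + 1) (monicOf (n + 1) a) (monicOf_monic _ _) (monicOf_natDegree _ _)
    have hdet : A.det ≠ 0 := by
      rw [Matrix.det_eq_sign_charpoly_coeff, hA]
      apply mul_ne_zero (pow_ne_zero _ (by norm_num))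
      have := monicOf_coeff (n + 1) a 0
      rw [Fin.val_zero] at this
      rw [this]; exact ha
    obtain ⟨j, hj⟩ := exists_coprime_pow p hpp (Fintype.card F) (by
      obtain ⟨m, hm0, hm⟩ := FiniteField.card F p
      rw [hm]; exact dvd_pow_self _ m.ne_zero) (Matrix.GeneralLinearGroup.mkOfDetNeZero A hdet)
    refine ⟨_, hj, ?_⟩
    have h1 : (((Matrix.GeneralLinearGroup.mkOfDetNeZero A hdet) ^ (Fintype.card F ^ j) : GL (Fin (n + 1)) F) : Matrix (Fin (n + 1)) (Fin (n + 1)) F) =
        A ^ (Fintype.card F ^ j) := by rw [Units.val_pow_eq_pow_val]; rfl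
    rw [h1, charpoly_pow_card_pow, hA]

end Cfsg.Agent.S2387
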