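import Cfsg.Statements.S2391

set_option autoImplicit false
open Cfsg

namespace Cfsg.Agent.S2391

open Matrix

/-- iterated fixed spaces -/
def fixFlag {F : Type*} [Field F] {n : ℕ} (U : Subgroup (Matrix.SpecialLinearGroup (Fin n) F)) :
    ℕ → Submodule F (Fin n → F)
  | 0 => ⊥
  | (i+1) => ⨅ u ∈ U, (fixFlag U i).comap (Matrix.mulVecLin (u : Matrix (Fin n) (Fin n) F) - LinearMap.id)

variable {F : Type*} [Field F] {n : ℕ} (U : Subgroup (Matrix.SpecialLinearGroup (Fin n) F))

lemma mem_fixFlag_succ (i : ℕ) (v : Fin n → F) :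
    v ∈ fixFlag U (i+1) ↔ ∀ u ∈ U, (u : Matrix (Fin n) (Fin n) F) *ᵥ v - v ∈ fixFlag U i := by
  simp [fixFlag, Submodule.mem_iInf]

lemma fixFlag_le_succ (i : ℕ) : fixFlag U i ≤ fixFlag U (i+1) := by
  induction i with
  | zero => simp [fixFlag]
  | succ i ih =>
    intro v hv
    rw [mem_fixFlag_succ] at hv ⊢
    intro u hu
    exact ih (hv u hu)

lemma fixFlag_stable (i : ℕ) (u : Matrix.SpecialLinearGroup (Fin n) F) (hu : u ∈ U) (v : Fin n → F)
    (hv : v ∈ fixFlag U i) : (u : Matrix (Fin n) (Fin n) F) *ᵥ v ∈ fixFlag U i := by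
  have h1 := fixFlag_le_succ U i hv
  rw [mem_fixFlag_succ] at h1
  have := (fixFlag U i).add_mem (h1 u hu) hv
  simpa using this

lemma fixFlag_map_le (i : ℕ) (g : Matrix.SpecialLinearGroup (Fin n) F)
    (hg : ∀ u ∈ U, g⁻¹ * u * g ∈ U) (v : Fin n → F)
    (hv : v ∈ fixFlag U i) : (g : Matrix (Fin n) (Fin n) F) *ᵥ v ∈ fixFlag U i := by
  induction i generalizing v with
  | zero =>
    simp only [fixFlag, Submodule.mem_bot] at hv ⊢
    simp [hv]
  | succ i ih =>
    rw [mem_fixFlag_succ] at hv ⊢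
    intro u hu
    have h := ih _ (hv _ (hg u hu))
    have e : (g : Matrix (Fin n) (Fin n) F) *ᵥ (((g⁻¹ * u * g : Matrix.SpecialLinearGroup (Fin n) F) : Matrix (Fin n) (Fin n) F) *ᵥ v - v)
        = (u : Matrix (Fin n) (Fin n) F) *ᵥ ((g : Matrix (Fin n) (Fin n) F) *ᵥ v) - (g : Matrix (Fin n) (Fin n) F) *ᵥ v := by
      have key : g * (g⁻¹ * u * g) = u * g := by group
      rw [Matrix.mulVec_sub, Matrix.mulVec_mulVec, Matrix.mulVec_mulVec, ← Matrix.SpecialLinearGroup.coe_mul,
        ← Matrix.SpecialLinearGroup.coe_mul, key]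
    rw [e] at h
    exact h

lemma fixFlag_mono : Monotone (fixFlag U) := monotone_nat_of_le_succ (fixFlag_le_succ U)

lemma fixFlag_lt {p : ℕ} [Fact p.Prime] [CharP F p] [Fintype F] (hU : IsPGroup p ↥U) (i : ℕ) (h : fixFlag U i ≠ ⊤) :
    fixFlag U i < fixFlag U (i+1) := by
  refine lt_of_le_of_ne (fixFlag_le_succ U i) ?_
  intro heq
  -- action of U on quotient
  let W := fixFlag U i
  let f : ↥U → ((Fin n → F) ⧸ W) → ((Fin n → F) ⧸ W) := fun u =>
    W.mapQ W (Matrix.mulVecLin ((u : Matrix.SpecialLinearGroup (Fin n) F) : Matrix (Fin n) (Fin n) F))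
      (fun v hv => fixFlag_stable U i u u.2 v hv)
  have hf : ∀ (u : ↥U) (v : Fin n → F), f u (Submodule.Quotient.mk v) = Submodule.Quotient.mk
      (((u : Matrix.SpecialLinearGroup (Fin n) F) : Matrix (Fin n) (Fin n) F) *ᵥ v) := fun u v => rfl
  letI : MulAction ↥U ((Fin n → F) ⧸ W) :=
    { smul := f
      one_smul := by
        intro x
        induction x using Submodule.Quotient.induction_on with
        | _ v => change f 1 _ = _; rw [hf]; simp
      mul_smul := by
        intro a b x
        induction x using Submodule.Quotient.induction_on with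
        | _ v =>
          change f (a * b) _ = f a (f b _)
          rw [hf, hf, hf]
          simp [Matrix.mulVec_mulVec] }
  have hsm : ∀ (u : ↥U) (v : Fin n → F), u • (Submodule.Quotient.mk v : (Fin n → F) ⧸ W) = Submodule.Quotient.mk
      (((u : Matrix.SpecialLinearGroup (Fin n) F) : Matrix (Fin n) (Fin n) F) *ᵥ v) := fun u v => rfl
  haveI : Finite ((Fin n → F) ⧸ W) := inferInstance
  have hcard : p ∣ Nat.card ((Fin n → F) ⧸ W) := by
    haveI : Nontrivial ((Fin n → F) ⧸ W) := Submodule.Quotient.nontrivial_iff.2 h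
    rw [Module.natCard_eq_pow_finrank (K := F)]
    apply Dvd.dvd.trans _ (dvd_pow_self _ (Module.finrank_pos (R := F) (M := (Fin n → F) ⧸ W)).ne')
    haveI := Fintype.ofFinite F
    rw [Nat.card_eq_fintype_card]
    obtain ⟨k, hp, hk⟩ := FiniteField.card F p
    rw [hk]
    exact dvd_pow_self p k.ne_zero
  obtain ⟨b, hb, hb0⟩ := hU.exists_fixed_point_of_prime_dvd_card_of_fixed_point ((Fin n → F) ⧸ W) hcard
    (a := 0) (by
      intro u
      have := hsm u 0
      simpa using this)
  induction b using Submodule.Quotient.induction_on with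
  | _ v =>
    apply hb0
    symm
    rw [Submodule.Quotient.mk_eq_zero]
    change v ∈ fixFlag U i
    rw [heq, mem_fixFlag_succ]
    intro u hu
    have := hb ⟨u, hu⟩
    rw [hsm, Submodule.Quotient.eq] at this
    exact this

/-- The Borel–Tits property of `SL_n(q)` in flag form: for a field `F` of characteristic `p` with finitely many elements and a non-trivial `p`-subgroup `U` of `SL_n(F)`, there is a flag `0 = V₀ < V₁ < ⋯ < V_{k+1} = F^n` with at least one proper non-zero member such that every element of the normaliser of `U` maps each `V_i` onto itself and every element of `U` acts trivially on each quotient `V_{i+1}/V_i` (so the normaliser lies in the parabolic subgroup of the flag and `U` in its unipotent radical). -/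
theorem result {F : Type*} [Field F] [Fintype F] (p : ℕ) [Fact p.Prime] [CharP F p] (n : ℕ)
    (U : Subgroup (Matrix.SpecialLinearGroup (Fin n) F)) (hU : IsPGroup p ↥U) (hne : U ≠ ⊥) :
    ∃ (k : ℕ) (V : Fin (k + 2) → Submodule F (Fin n → F)), 1 ≤ k ∧ StrictMono V ∧ V 0 = ⊥ ∧ V (Fin.last (k + 1)) = ⊤ ∧
      (∀ g ∈ Subgroup.normalizer (U : Set (Matrix.SpecialLinearGroup (Fin n) F)), ∀ i, (V i).map (Matrix.mulVecLin (g : Matrix (Fin n) (Fin n) F)) = V i) ∧
      (∀ u ∈ U, ∀ i : Fin (k + 1), ∀ v ∈ V i.succ, (u : Matrix (Fin n) (Fin n) F).mulVec v - v ∈ V (Fin.castSucc i)) := by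
  classical
  have hex : ∃ N, fixFlag U N = ⊤ := by
    by_contra hcon
    push Not at hcon
    have hlt : ∀ i, fixFlag U i < fixFlag U (i+1) := fun i => fixFlag_lt U hU i (hcon i)
    have hs : StrictMono (fixFlag U) := strictMono_nat_of_lt_succ hlt
    exact not_injective_infinite_finite _ hs.injective
  set N := Nat.find hex with hN
  have hNtop : fixFlag U N = ⊤ := Nat.find_spec hex
  have hNmin : ∀ m < N, fixFlag U m ≠ ⊤ := fun m hm => Nat.find_min hex hm
  have hlt : ∀ i < N, fixFlag U i < fixFlag U (i+1) := fun i hi => fixFlag_lt U hU i (hNmin i hi)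
  have hN2 : 2 ≤ N := by
    by_contra hcon
    apply hne
    rw [eq_bot_iff]
    intro u hu
    have h1 : fixFlag U 1 = ⊤ := by
      rw [eq_top_iff, ← hNtop]
      exact fixFlag_mono U (by omega)
    have h2 : ∀ v, (u : Matrix (Fin n) (Fin n) F) *ᵥ v - v = 0 := by
      intro v
      have : v ∈ fixFlag U (0+1) := by rw [zero_add, h1]; trivial
      rw [mem_fixFlag_succ] at this
      simpa [fixFlag] using this u hu
    rw [Subgroup.mem_bot]
    apply Subtype.ext
    apply Matrix.toLin'.injective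
    ext1 i
    apply LinearMap.ext
    intro c
    have := h2 (LinearMap.single F (fun _ => F) i c)
    rw [sub_eq_zero] at this
    simp only [LinearMap.comp_apply, Matrix.toLin'_apply]
    rw [this]
    simp only [Matrix.SpecialLinearGroup.coe_one, Matrix.one_mulVec]
  obtain ⟨k, hk⟩ : ∃ k, N = k + 1 := ⟨N - 1, by omega⟩
  refine ⟨k, fun i => fixFlag U i.val, by omega, ?_, rfl, ?_, ?_, ?_⟩
  · rw [Fin.strictMono_iff_lt_succ]
    intro i
    simp only [Fin.val_castSucc, Fin.val_succ]
    exact hlt _ (by have := i.2; omega)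
  · simp only [Fin.val_last]
    rw [← hk]; exact hNtop
  · intro g hg i
    have hg1 : ∀ u ∈ U, g⁻¹ * u * g ∈ U := by
      intro u hu
      have := (Subgroup.mem_normalizer_iff''.1 hg u).1 hu
      exact this
    have hg2 : ∀ u ∈ U, (g⁻¹)⁻¹ * u * g⁻¹ ∈ U := by
      intro u hu
      rw [inv_inv]
      exact (Subgroup.mem_normalizer_iff.1 hg u).1 hu
    apply le_antisymm
    · rintro _ ⟨v, hv, rfl⟩
      exact fixFlag_map_le U _ g hg1 v hv
    · intro v hv
      refine ⟨((g⁻¹ : Matrix.SpecialLinearGroup (Fin n) F) : Matrix (Fin n) (Fin n) F) *ᵥ v, fixFlag_map_le U _ g⁻¹ hg2 v hv, ?_⟩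
      rw [Matrix.mulVecLin_apply, Matrix.mulVec_mulVec, ← Matrix.SpecialLinearGroup.coe_mul]
      simp
  · intro u hu i v hv
    simp only [Fin.val_castSucc, Fin.val_succ] at hv ⊢
    rw [mem_fixFlag_succ] at hv
    exact hv u hu

end Cfsg.Agent.S2391
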