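import Cfsg.Statements.S2392
import Cfsg.Agent.H41.CrossChar
import Cfsg.Agent.H14.SLTrans

set_option autoImplicit false
open scoped MatrixGroups
open Cfsg

namespace Cfsg.Agent.S2392

open Cfsg.Agent.H41 Matrix
open scoped Classical

section
variable {F : Type*} [Field F] {m : ℕ}

/-- change of index type -/
def reidx (e : Fin (m + 1) ≃ Unit ⊕ Fin m) : SpecialLinearGroup (Unit ⊕ Fin m) F →* SpecialLinearGroup (Fin (m + 1)) F where
  toFun A := ⟨(A : Matrix _ _ F).submatrix e e, by rw [Matrix.det_submatrix_equiv_self]; exact A.det_coe⟩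
  map_one' := by
    apply Subtype.ext
    exact Matrix.submatrix_one_equiv e
  map_mul' A B := by
    apply Subtype.ext
    exact (Matrix.submatrix_mul_equiv (A : Matrix _ _ F) (B : Matrix _ _ F) e e e).symm

theorem reidx_injective (e : Fin (m + 1) ≃ Unit ⊕ Fin m) : Function.Injective (reidx (F := F) e) := by
  intro A B h
  apply Subtype.ext
  have h1 := congrArg Subtype.val h
  ext i j
  have h2 : (A : Matrix _ _ F) (e (e.symm i)) (e (e.symm j)) = (B : Matrix _ _ F) (e (e.symm i)) (e (e.symm j)) :=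
    congrFun (congrFun h1 (e.symm i)) (e.symm j)
  simpa using h2

def xm (u : Fin m → F) : SpecialLinearGroup (Unit ⊕ Fin m) F :=
  ⟨fromBlocks 1 (replicateRow Unit u) 0 1, by rw [det_fromBlocks_zero₂₁]; simp⟩

def dm (h : SpecialLinearGroup (Fin m) F) : SpecialLinearGroup (Unit ⊕ Fin m) F :=
  ⟨fromBlocks 1 0 0 (h : Matrix (Fin m) (Fin m) F), by rw [det_fromBlocks_zero₂₁]; simp⟩

theorem xm_add (u v : Fin m → F) : xm (u + v) = xm u * xm v := by
  apply Subtype.ext
  show fromBlocks _ _ _ _ = fromBlocks _ _ _ _ * fromBlocks _ _ _ _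
  rw [fromBlocks_multiply]
  congr 1
  · simp
  · ext i j; simp [add_comm]
  · simp
  · simp

theorem xm_dm (u : Fin m → F) (h : SpecialLinearGroup (Fin m) F) :
    xm u * dm h = dm h * xm (u ᵥ* (h : Matrix (Fin m) (Fin m) F)) := by
  apply Subtype.ext
  show fromBlocks _ _ _ _ * fromBlocks _ _ _ _ = fromBlocks _ _ _ _ * fromBlocks _ _ _ _
  rw [fromBlocks_multiply, fromBlocks_multiply]
  congr 1
  · simp
  · ext i j; simp [Matrix.mul_apply, vecMul, dotProduct]
  · simp
  · simp

end

/-- A lower bound for representations in cross characteristic: for `n ≥ 3` and a field `F` with `q` elements, every homomorphism from `SL_n(F)` to `GL_d(K)`, `K` a field of characteristic different from that of `F`, whose kernel is central has `d ≥ q^(n-1) - 1`. -/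
theorem result {F : Type*} [Field F] [Fintype F] {q : ℕ} (hq : Fintype.card F = q) (n : ℕ) (hn : 3 ≤ n)
    {K : Type*} [Field K] (hK : ringChar K ≠ ringChar F) {d : ℕ}
    (ρ : Matrix.SpecialLinearGroup (Fin n) F →* GL (Fin d) K) (hker : ρ.ker ≤ Subgroup.center (Matrix.SpecialLinearGroup (Fin n) F)) :
    q ^ (n - 1) - 1 ≤ d := by
  obtain ⟨m, rfl⟩ : ∃ m, n = m + 1 := ⟨n - 1, by omega⟩
  have hm : 2 ≤ m := by omega
  obtain ⟨e⟩ : Nonempty (Fin (m + 1) ≃ Unit ⊕ Fin m) := ⟨Fintype.equivOfCardEq (by simp [add_comm])⟩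
  obtain ⟨i0, hi0⟩ : ∃ i : Fin m, i = ⟨0, by omega⟩ := ⟨_, rfl⟩
  obtain ⟨i1, hi1⟩ : ∃ i : Fin m, i = ⟨1, by omega⟩ := ⟨_, rfl⟩
  have h01 : i0 ≠ i1 := by
    rw [hi0, hi1]; intro h; simpa using congrArg Fin.val h
  obtain ⟨a, ha, hle⟩ := cross_bound hK ρ (fun u => reidx e (xm u)) (fun u v => by rw [xm_add, map_mul]) (Pi.single i0 1) (by
    intro h
    have h1 : reidx e (xm (Pi.single i0 1)) ∈ ρ.ker := h
    have h2 := hker h1
    rw [Subgroup.mem_center_iff] at h2
    have h3 := h2 (reidx e (dm (SpecialLinearGroup.transvection h01 1)))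
    rw [← map_mul, ← map_mul] at h3
    have h4 := reidx_injective e h3
    rw [xm_dm] at h4
    have h5 := mul_left_cancel h4
    have h6 := congrFun (congrFun (congrArg Subtype.val h5) (Sum.inl ())) (Sum.inr i1)
    have h7 : (Pi.single i0 1 : Fin m → F) i1 = ((Pi.single i0 1 : Fin m → F) ᵥ* (SpecialLinearGroup.transvection h01 (1 : F) : Matrix (Fin m) (Fin m) F)) i1 := h6
    rw [Matrix.single_vecMul] at h7
    simp [SpecialLinearGroup.transvection, Matrix.transvection, h01.symm, h01] at h7)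
    (fun _ => Finset.univ.filter (fun b => b ≠ 0)) (by
    intro a ha b hb
    rw [Finset.mem_filter] at hb
    have ha0 : a ≠ 0 := by rintro rfl; simp at ha
    obtain ⟨g, hg⟩ := Cfsg.Agent.H14.SLTrans.exists_SL_mulVec_single h01 a ha0
    obtain ⟨h, hh⟩ := Cfsg.Agent.H14.SLTrans.exists_SL_mulVec_single h01 b hb.2
    refine ⟨reidx e (dm (h * g⁻¹)), fun u => u ᵥ* ((h * g⁻¹ : SpecialLinearGroup (Fin m) F) : Matrix (Fin m) (Fin m) F), ?_, ?_⟩
    · intro u
      rw [← map_mul, ← map_mul, xm_dm]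
    · intro u
      rw [dotProduct_comm, ← Matrix.dotProduct_mulVec, dotProduct_comm]
      congr 1
      have h9 : ((h * g⁻¹ : SpecialLinearGroup (Fin m) F) : Matrix (Fin m) (Fin m) F) * (g : Matrix (Fin m) (Fin m) F) = h := by
        have := congrArg (fun x : SpecialLinearGroup (Fin m) F => (x : Matrix (Fin m) (Fin m) F)) (inv_mul_cancel_right h g)
        exact this
      rw [← hg, Matrix.mulVec_mulVec, h9, hh])
  refine le_trans ?_ hle
  rw [Finset.filter_ne', Finset.card_erase_of_mem (Finset.mem_univ _), Finset.card_univ, Fintype.card_fun, Fintype.card_fin, hq,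
    Nat.add_sub_cancel]

end Cfsg.Agent.S2392
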