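import Cfsg.Statements.S2393
import Cfsg.Agent.H41.CrossChar

set_option autoImplicit false
open scoped MatrixGroups
open Cfsg

namespace Cfsg.Agent.S2393

open Cfsg.Agent.H41 Matrix
open scoped Classical

section
variable {F : Type*} [Field F] {n : ℕ}

/-- the symmetric matrix `e uᵀ + u eᵀ` -/
def bm (e u : Fin n → F) : Matrix (Fin n) (Fin n) F := vecMulVec e u + vecMulVec u e

theorem bm_transpose (e u : Fin n → F) : (bm e u)ᵀ = bm e u := by
  unfold bm
  rw [transpose_add, transpose_vecMulVec, transpose_vecMulVec, add_comm]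

theorem bm_add (e u v : Fin n → F) : bm e (u + v) = bm e u + bm e v := by
  unfold bm
  rw [vecMulVec_add, add_vecMulVec]
  abel

theorem xm_mem (B : Matrix (Fin n) (Fin n) F) (hB : Bᵀ = B) : fromBlocks 1 B 0 1 ∈ symplecticGroup (Fin n) F := by
  rw [SymplecticGroup.fromBlocks_mem_iff]
  simp [hB]

theorem dm_mem (k k' : Matrix (Fin n) (Fin n) F) (h : k' * k = 1) : fromBlocks k' 0 0 kᵀ ∈ symplecticGroup (Fin n) F := by
  rw [SymplecticGroup.fromBlocks_mem_iff]
  have h1 : k'ᵀ * kᵀ = 1 := by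
    rw [← transpose_mul]
    have h2 : k * k' = 1 := mul_eq_one_comm.mp h
    rw [h2, transpose_one]
  simp [h1]

def xm (e u : Fin n → F) : symplecticGroup (Fin n) F := ⟨fromBlocks 1 (bm e u) 0 1, xm_mem _ (bm_transpose e u)⟩

theorem xm_add (e u v : Fin n → F) : xm e (u + v) = xm e u * xm e v := by
  apply Subtype.ext
  show fromBlocks _ _ _ _ = fromBlocks _ _ _ _ * fromBlocks _ _ _ _
  rw [fromBlocks_multiply, bm_add, add_comm]
  simp

/-- `k e = s e` -/
theorem xm_dm (e u : Fin n → F) (s : F) (k k' : Matrix (Fin n) (Fin n) F) (h : k' * k = 1) (hk : k *ᵥ e = s • e) :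
    xm e u * ⟨fromBlocks k' 0 0 kᵀ, dm_mem k k' h⟩ = ⟨fromBlocks k' 0 0 kᵀ, dm_mem k k' h⟩ * xm e (s • (k *ᵥ u)) := by
  apply Subtype.ext
  show fromBlocks _ _ _ _ * fromBlocks _ _ _ _ = fromBlocks _ _ _ _ * fromBlocks _ _ _ _
  rw [fromBlocks_multiply, fromBlocks_multiply]
  congr 1
  · simp
  · have h1 : k * bm e u * kᵀ = bm e (s • (k *ᵥ u)) := by
      unfold bm
      rw [Matrix.mul_add, Matrix.add_mul, mul_vecMulVec, mul_vecMulVec, vecMulVec_mul, vecMulVec_mul, vecMul_transpose,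
        vecMul_transpose, hk, smul_vecMulVec, vecMulVec_smul, vecMulVec_smul, smul_vecMulVec]
    have h2 : bm e u * kᵀ = k' * (k * bm e u * kᵀ) := by
      rw [← Matrix.mul_assoc, ← Matrix.mul_assoc, h, Matrix.one_mul]
    simp [h1, h2]
  · simp
  · simp

end

/-- squares of nonzero elements -/
theorem card_sq {F : Type*} [Field F] [Fintype F] : Fintype.card F - 1 ≤
    2 * ((Finset.univ.filter (fun s : F => s ≠ 0)).image (fun s => s ^ 2)).card := by
  have h1 : (Finset.univ.filter (fun s : F => s ≠ 0)).card = Fintype.card F - 1 := by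
    rw [Finset.filter_ne', Finset.card_erase_of_mem (Finset.mem_univ _), Finset.card_univ]
  rw [← h1]
  apply Finset.card_le_mul_card_image
  intro b hb
  obtain ⟨s, hs, rfl⟩ := Finset.mem_image.mp hb
  have : (Finset.univ.filter (fun s : F => s ≠ 0)).filter (fun x => x ^ 2 = s ^ 2) ⊆ {s, -s} := by
    intro x hx
    rw [Finset.mem_filter] at hx
    rw [Finset.mem_insert, Finset.mem_singleton]
    exact sq_eq_sq_iff_eq_or_eq_neg.mp hx.2
  exact (Finset.card_le_card this).trans Finset.card_le_two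

/-- the matrix `k` with `k e₀ = s e₀` and `kᵀ a = s⁻¹ b` -/
theorem exists_k {F : Type*} [Field F] {m : ℕ} (a b : Fin (m + 1) → F) (s : F) (hs : s ≠ 0) (ha : a 0 ≠ 0) (hab : b 0 = s ^ 2 * a 0) :
    ∃ k k' : Matrix (Fin (m + 1)) (Fin (m + 1)) F, k' * k = 1 ∧ k *ᵥ (Pi.single 0 1) = s • Pi.single 0 1 ∧
      ∀ u, a ⬝ᵥ (s • (k *ᵥ u)) = b ⬝ᵥ u := by
  obtain ⟨c, hc⟩ : ∃ c : Fin (m + 1) → F, c = fun i => if i = 0 then s - 1 else (a 0)⁻¹ * (s⁻¹ * b i - a i) := ⟨_, rfl⟩
  obtain ⟨k, hk⟩ : ∃ k : Matrix (Fin (m + 1)) (Fin (m + 1)) F, k = 1 + vecMulVec (Pi.single 0 1) c := ⟨_, rfl⟩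
  have hkm : ∀ u, k *ᵥ u = u + (c ⬝ᵥ u) • Pi.single 0 1 := by
    intro u
    rw [hk, add_mulVec, one_mulVec, vecMulVec_mulVec]
    simp
  have hdet : IsUnit k.det := by
    have h1 : k.det = s := by
      rw [hk, vecMulVec_eq Unit, det_one_add_replicateCol_mul_replicateRow, dotProduct_single, hc]
      simp
    rw [h1]; exact isUnit_iff_ne_zero.mpr hs
  refine ⟨k, k⁻¹, Matrix.nonsing_inv_mul _ hdet, ?_, ?_⟩
  · rw [hkm, dotProduct_single, hc]
    simp [sub_smul]
  · intro u
    rw [hkm]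
    have h1 : b = s • (a + a 0 • c) := by
      funext i
      rw [hc]
      by_cases hi : i = 0
      · subst hi
        simp only [Pi.smul_apply, Pi.add_apply, if_pos, smul_eq_mul]
        rw [hab]; ring
      · simp only [Pi.smul_apply, Pi.add_apply, if_neg hi, smul_eq_mul]
        field_simp
        ring
    rw [h1, dotProduct_smul, dotProduct_add, dotProduct_smul, smul_dotProduct, add_dotProduct, smul_dotProduct,
      dotProduct_single]
    simp only [smul_eq_mul]
    ring

/-- A lower bound for representations in cross characteristic: for `n ≥ 2` and a field `F` with `q` elements, `q` odd, every homomorphism from the symplectic group `Sp_{2n}(F)` to `GL_d(K)`, `K` a field of characteristic different from that of `F`, whose kernel is central has `d ≥ q^(n-1)(q-1)/2`. -/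
theorem result {F : Type*} [Field F] [Fintype F] {q : ℕ} (hq : Fintype.card F = q) (hodd : Odd q) (n : ℕ) (hn : 2 ≤ n)
    {K : Type*} [Field K] (hK : ringChar K ≠ ringChar F) {d : ℕ}
    (ρ : ↥(Matrix.symplecticGroup (Fin n) F) →* GL (Fin d) K) (hker : ρ.ker ≤ Subgroup.center ↥(Matrix.symplecticGroup (Fin n) F)) :
    q ^ (n - 1) * (q - 1) / 2 ≤ d := by
  obtain ⟨m, rfl⟩ : ∃ m, n = m + 1 := ⟨n - 1, by omega⟩
  have h2 : (2 : F) ≠ 0 := by
    have h3 : ringChar F ≠ 2 := by
      intro h4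
      have := FiniteField.even_card_of_char_two h4
      rw [hq] at this
      rw [Nat.odd_iff] at hodd
      omega
    exact Ring.two_ne_zero h3
  obtain ⟨e, he⟩ : ∃ e : Fin (m + 1) → F, e = Pi.single 0 1 := ⟨_, rfl⟩
  obtain ⟨Sq, hSq⟩ : ∃ Sq : Finset F, Sq = (Finset.univ.filter (fun s : F => s ≠ 0)).image (fun s => s ^ 2) := ⟨_, rfl⟩
  have hSqc := card_sq (F := F)
  rw [← hSq, hq] at hSqc
  obtain ⟨a, ha, hle⟩ := cross_bound hK ρ (fun u => xm e u) (fun u v => xm_add e u v) e (by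
    intro h
    have h1 : xm e e ∈ ρ.ker := h
    have h3 := hker h1
    rw [Subgroup.mem_center_iff] at h3
    have hJ : (J (Fin (m + 1)) F) ∈ symplecticGroup (Fin (m + 1)) F := SymplecticGroup.J_mem _ _
    have h4 := congrArg Subtype.val (h3 ⟨J (Fin (m + 1)) F, hJ⟩)
    have h5 : J (Fin (m + 1)) F * fromBlocks 1 (bm e e) 0 1 = fromBlocks 1 (bm e e) 0 1 * J (Fin (m + 1)) F := h4
    rw [J, fromBlocks_multiply, fromBlocks_multiply] at h5
    have h6 := congrFun (congrFun h5 (Sum.inl 0)) (Sum.inl 0)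
    simp [bm, he, vecMulVec_apply] at h6
    apply h2
    rw [← one_add_one_eq_two]
    exact h6.symm)
    (fun a => (Sq ×ˢ (Finset.univ : Finset (Fin m → F))).image (fun p => Fin.cons (p.1 * a 0) p.2)) (by
    intro a ha b hb
    rw [he, dotProduct_single, mul_one] at ha
    obtain ⟨⟨t, v⟩, hp, hpb⟩ := Finset.mem_image.mp hb
    rw [Finset.mem_product, hSq] at hp
    obtain ⟨s, hs, hst⟩ := Finset.mem_image.mp hp.1
    rw [Finset.mem_filter] at hs
    have hb0 : b 0 = s ^ 2 * a 0 := by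
      have hst' : s ^ 2 = t := hst
      rw [← hpb, hst']
      simp
    obtain ⟨k, k', hkk, hke, hkab⟩ := exists_k a b s hs.2 ha hb0
    rw [← he] at hke
    exact ⟨_, _, fun u => xm_dm e u s k k' hkk hke, hkab⟩)
  have ha' : a 0 ≠ 0 := by rwa [he, dotProduct_single, mul_one] at ha
  rw [Finset.card_image_of_injective, Finset.card_product, Finset.card_univ, Fintype.card_fun, Fintype.card_fin, hq] at hle
  · rw [Nat.add_sub_cancel]
    apply Nat.div_le_of_le_mul
    calc q ^ m * (q - 1) ≤ q ^ m * (2 * Sq.card) := Nat.mul_le_mul_left _ hSqc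
      _ = 2 * (Sq.card * q ^ m) := by ring
      _ ≤ 2 * d := Nat.mul_le_mul_left _ hle
  · rintro ⟨t, v⟩ ⟨t', v'⟩ h
    have h1 := congrFun h 0
    simp only [Fin.cons_zero] at h1
    have h3 := mul_right_cancel₀ ha' h1
    subst h3
    have h4 : v = v' := by
      funext i
      have := congrFun h i.succ
      simpa using this
    rw [h4]

end Cfsg.Agent.S2393
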