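import Cfsg.Statements.S2394
import Cfsg.Agent.H41.RingChar
import Cfsg.Agent.H41.Torus

set_option autoImplicit false
open scoped MatrixGroups
open Cfsg

namespace Cfsg.Agent.S2394

open Cfsg.Agent.H41 Matrix
open scoped Classical

/-- A symmetric separating set of weights modulo `N` has at least `2n` elements. -/
theorem card_symm_set {N n : ℕ} [NeZero N] (hN : 3 ≤ N) (M : Finset (Fin n → ZMod N)) (hneg : ∀ m ∈ M, -m ∈ M)
    (hsep : ∀ u : Fin n → ZMod N, u ≠ 0 → ∃ m ∈ M, m ⬝ᵥ u ≠ 0) : 2 * n ≤ M.card := by
  -- the prime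
  obtain ⟨l, hl, hlN, hl2⟩ : ∃ l : ℕ, l.Prime ∧ l ∣ N ∧ (l ≠ 2 ∨ 4 ∣ N) := by
    by_cases h : ∃ l : ℕ, l.Prime ∧ l ∣ N ∧ l ≠ 2
    · obtain ⟨l, h1, h2, h3⟩ := h
      exact ⟨l, h1, h2, Or.inl h3⟩
    · push Not at h
      have h1 : N = 2 ^ N.primeFactorsList.length := Nat.eq_prime_pow_of_unique_prime_dvd (by omega) (fun {d} hd hdN => h d hd hdN)
      refine ⟨2, Nat.prime_two, ?_, Or.inr ?_⟩
      · rw [h1]
        apply dvd_pow_self
        intro h0; rw [h0] at h1; omega
      · rw [h1]
        have h2 : 2 ≤ N.primeFactorsList.length := by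
          by_contra hcon
          have : N.primeFactorsList.length = 0 ∨ N.primeFactorsList.length = 1 := by omega
          rcases this with h3 | h3 <;> rw [h3] at h1 <;> omega
        exact pow_dvd_pow 2 h2
  have : Fact l.Prime := ⟨hl⟩
  let π : ZMod N →+* ZMod l := ZMod.castHom hlN (ZMod l)
  -- elements with `2 x = 0` vanish modulo `l`
  have hdouble : ∀ x : ZMod N, x = -x → π x = 0 := by
    intro x hx
    have h1 : (((x.val * 2 : ℕ)) : ZMod N) = 0 := by
      push_cast
      rw [ZMod.natCast_zmod_val]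
      nth_rewrite 1 [mul_two, hx]
      exact neg_add_cancel x
    rw [ZMod.natCast_eq_zero_iff] at h1
    have h2 : l ∣ x.val := by
      rcases hl2 with h2 | h2
      · have h3 : l ∣ x.val * 2 := hlN.trans h1
        rcases (Nat.Prime.dvd_mul hl).mp h3 with h4 | h4
        · exact h4
        · exact absurd ((Nat.prime_dvd_prime_iff_eq hl Nat.prime_two).mp h4) h2
      · by_cases h3 : l = 2
        · subst h3
          have h5 : 2 * 2 ∣ x.val * 2 := (show 2 * 2 ∣ N from h2).trans h1
          exact Nat.dvd_of_mul_dvd_mul_right (by norm_num) h5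
        · have h5 : l ∣ x.val * 2 := hlN.trans h1
          rcases (Nat.Prime.dvd_mul hl).mp h5 with h4 | h4
          · exact h4
          · exact absurd ((Nat.prime_dvd_prime_iff_eq hl Nat.prime_two).mp h4) h3
    have h3 : π x = ((x.val : ℕ) : ZMod l) := by
      rw [← ZMod.natCast_zmod_val x, map_natCast, ZMod.natCast_zmod_val]
    rw [h3, ZMod.natCast_eq_zero_iff]
    exact h2
  -- the images span
  have hspan : Submodule.span (ZMod l) (Set.range (fun m : M => (fun i => π (m.1 i)))) = ⊤ := by
    by_contra hne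
    obtain ⟨f, hf0, hf⟩ := Submodule.exists_le_ker_of_lt_top _ (lt_top_iff_ne_top.mpr hne)
    obtain ⟨y, hy⟩ : ∃ y : Fin n → ZMod l, y = fun i => f (Pi.single i 1) := ⟨_, rfl⟩
    have hfy : ∀ v : Fin n → ZMod l, f v = ∑ i, v i * y i := by
      intro v
      conv_lhs => rw [← Finset.univ_sum_single v, map_sum]
      apply Finset.sum_congr rfl
      intro i _
      have : (Pi.single i (v i) : Fin n → ZMod l) = v i • Pi.single i 1 := by
        rw [← Pi.single_smul, smul_eq_mul, mul_one]
      rw [this, map_smul, smul_eq_mul, hy]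
    obtain ⟨t, ht⟩ := hlN
    have ht0 : 0 < t := by
      rcases Nat.eq_zero_or_pos t with h | h
      · rw [h, mul_zero] at ht; omega
      · exact h
    obtain ⟨m, hm, hmu⟩ := hsep (fun i => ((t * (y i).val : ℕ) : ZMod N)) (by
      intro h0
      apply hf0
      apply LinearMap.ext
      intro v
      rw [hfy, LinearMap.zero_apply]
      apply Finset.sum_eq_zero
      intro i _
      have h1 := congrFun h0 i
      simp only [Pi.zero_apply] at h1
      rw [ZMod.natCast_eq_zero_iff, ht, mul_comm l t] at h1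
      have h2 := Nat.dvd_of_mul_dvd_mul_left ht0 h1
      have h3 : y i = 0 := by
        rw [← ZMod.natCast_zmod_val (y i), ZMod.natCast_eq_zero_iff]
        exact h2
      rw [h3, mul_zero])
    apply hmu
    have h1 : f (fun i => π (m i)) = 0 := by
      apply hf
      exact Submodule.subset_span ⟨⟨m, hm⟩, rfl⟩
    rw [hfy] at h1
    have h2 : (((∑ i, (m i).val * (y i).val : ℕ)) : ZMod l) = 0 := by
      rw [← h1]
      push_cast
      apply Finset.sum_congr rfl
      intro i _
      have h3 : π (m i) = (((m i).val : ℕ) : ZMod l) := by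
        rw [← ZMod.natCast_zmod_val (m i), map_natCast, ZMod.natCast_zmod_val]
      rw [h3, ZMod.natCast_zmod_val]
    rw [ZMod.natCast_eq_zero_iff] at h2
    have h3 : m ⬝ᵥ (fun i => ((t * (y i).val : ℕ) : ZMod N)) = ((t * ∑ i, (m i).val * (y i).val : ℕ) : ZMod N) := by
      rw [dotProduct, Finset.mul_sum]
      push_cast
      apply Finset.sum_congr rfl
      intro i _
      rw [ZMod.natCast_zmod_val (m i)]
      ring
    rw [h3, ZMod.natCast_eq_zero_iff]
    have h4 : t * l ∣ t * ∑ i, (m i).val * (y i).val := Nat.mul_dvd_mul_left t h2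
    exact (dvd_of_eq (by rw [ht, mul_comm])).trans h4
  obtain ⟨κ, a, ha, hsp, hli⟩ := exists_linearIndependent' (ZMod l) (fun m : M => (fun i => π (m.1 i)))
  rw [hspan] at hsp
  have hfin : Finite κ := Finite.of_injective a ha
  have hft : Fintype κ := Fintype.ofFinite κ
  have hcard : Fintype.card κ = n := by
    let b := Module.Basis.mk hli (le_of_eq hsp.symm)
    have := Module.finrank_eq_card_basis b
    rw [← this, Module.finrank_fintype_fun_eq_card, Fintype.card_fin]
  let g : κ × Bool → M := fun p => if p.2 then a p.1 else ⟨-(a p.1).1, hneg _ (a p.1).2⟩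
  have hcross : ∀ i j : κ, (a i).1 ≠ -(a j).1 := by
    intro i j h
    have h1 : (fun k => π ((a i).1 k)) = (-1 : ZMod l) • (fun k => π ((a j).1 k)) := by
      funext k
      rw [h]
      simp
    by_cases hij : i = j
    · subst hij
      apply hli.ne_zero i
      funext k
      exact hdouble _ (congrFun h k)
    · apply hij
      apply hli.eq_of_smul_apply_eq_smul_apply (1 : ZMod l) (-1) i j one_ne_zero
      rw [one_smul]
      exact h1
  have hg : Function.Injective g := by
    rintro ⟨i, b⟩ ⟨j, c⟩ h
    have h1 : (g (i, b)).1 = (g (j, c)).1 := congrArg Subtype.val h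
    cases b <;> cases c
    · have h2 : -(a i).1 = -(a j).1 := h1
      rw [ha (Subtype.ext (neg_injective h2))]
    · exact absurd h1.symm (hcross j i)
    · exact absurd h1 (hcross i j)
    · have h2 : (a i).1 = (a j).1 := h1
      rw [ha (Subtype.ext h2)]
  have := Fintype.card_le_of_injective g hg
  rw [Fintype.card_prod, Fintype.card_bool, hcard, Fintype.card_coe] at this
  omega

section
variable {F : Type*} [Field F] {n : ℕ}

/-- the block embedding `SL₂(F)^n → Sp_{2n}(F)` -/
def blk (A : Fin n → SpecialLinearGroup (Fin 2) F) : symplecticGroup (Fin n) F :=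
  ⟨fromBlocks (diagonal fun i => A i 0 0) (diagonal fun i => A i 0 1) (diagonal fun i => A i 1 0) (diagonal fun i => A i 1 1), by
    rw [SymplecticGroup.fromBlocks_mem_iff]
    simp only [diagonal_transpose, diagonal_mul_diagonal]
    refine ⟨by congr 1; funext i; ring, by congr 1; funext i; ring, ?_⟩
    rw [diagonal_sub]
    have : (fun i => A i 0 0 * A i 1 1 - A i 1 0 * A i 0 1) = fun _ => (1 : F) := by
      funext i
      rw [mul_comm (A i 1 0)]; exact det_eq (A i)
    rw [← diagonal_one]
    congr 1⟩

theorem blk_mul (A B : Fin n → SpecialLinearGroup (Fin 2) F) : blk (A * B) = blk A * blk B := by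
  apply Subtype.ext
  show fromBlocks _ _ _ _ = fromBlocks _ _ _ _ * fromBlocks _ _ _ _
  rw [fromBlocks_multiply]
  simp only [diagonal_mul_diagonal, diagonal_add]
  congr 1 <;> (congr 1; funext i)
  · exact mul_00 _ _
  · exact mul_01 _ _
  · exact mul_10 _ _
  · exact mul_11 _ _

theorem blk_injective : Function.Injective (blk (F := F) (n := n)) := by
  intro A B h
  have h1 : fromBlocks _ _ _ _ = fromBlocks _ _ _ _ := congrArg Subtype.val h
  obtain ⟨h2, h3, h4, h5⟩ := fromBlocks_inj.mp h1
  funext i
  apply sl2_ext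
  · exact congrFun (diagonal_injective h2) i
  · exact congrFun (diagonal_injective h3) i
  · exact congrFun (diagonal_injective h4) i
  · exact congrFun (diagonal_injective h5) i

end

/-- The smallest degree of a faithful representation of the symplectic group `Sp_{2n}(q)` over its own field `F_q` is `2n`: every injective homomorphism from `Sp_{2n}(F)` to `GL_d(F)`, `F` the field with `q` elements, has `d ≥ 2n`. -/
theorem result {F : Type*} [Field F] [Fintype F] (n : ℕ) {d : ℕ}
    (ρ : ↥(Matrix.symplecticGroup (Fin n) F) →* GL (Fin d) F) (hρ : Function.Injective ρ) : 2 * n ≤ d := by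
  obtain ⟨K, _, _, _, hK⟩ := exists_quadExt F
  obtain ⟨q, hq⟩ : ∃ q, q = Nat.card F := ⟨_, rfl⟩
  have hq1 : 1 < q := by rw [hq]; exact Finite.one_lt_card
  obtain ⟨N, hN⟩ : ∃ N, N = q + 1 := ⟨_, rfl⟩
  have hN0 : NeZero N := ⟨by omega⟩
  have hc := card_normOne (F := F) (K := K) hK
  rw [← hq, ← hN] at hc
  obtain ⟨g, hg⟩ := IsCyclic.exists_ofOrder_eq_natCard (α := normOne F K)
  rw [hc] at hg
  obtain ⟨z, hz⟩ : ∃ z : K, z = ((g : Kˣ) : K) := ⟨_, rfl⟩
  have hzp : IsPrimitiveRoot z N := by
    rw [← hg, hz]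
    have h1 : orderOf g = orderOf ((g : Kˣ) : K) := by
      rw [orderOf_units, Subgroup.orderOf_coe]
    rw [h1]
    exact IsPrimitiveRoot.orderOf _
  have hψ := AddChar.zmodChar_primitive_of_primitive_root N hzp
  obtain ⟨ψ, hψe⟩ : ∃ ψ : AddChar (ZMod N) K, ψ = AddChar.zmodChar N ((IsPrimitiveRoot.iff_def z N).mp hzp).left := ⟨_, rfl⟩
  rw [← hψe] at hψ
  have hzN : z ^ N = 1 := hzp.pow_eq_one
  have hψa : ∀ a, ψ a = z ^ a.val := by
    intro a; rw [hψe, AddChar.zmodChar_apply]
  have hgN : g ^ N = 1 := by rw [← hg]; exact pow_orderOf_eq_one g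
  let x : (Fin n → ZMod N) → symplecticGroup (Fin n) F := fun u => blk (fun i => nsHom hK (g ^ (u i).val))
  have hx : ∀ u v, x (u + v) = x u * x v := by
    intro u v
    show blk _ = blk _ * blk _
    rw [← blk_mul]
    congr 1
    funext i
    rw [Pi.mul_apply, ← map_mul, ← pow_add, Pi.add_apply, ZMod.val_add]
    congr 1
    conv_rhs => rw [← pow_mod_orderOf, hg]
  have hx0 : x 0 = 1 := by
    have := hx 0 0
    rw [add_zero] at this
    exact left_eq_mul.mp this
  have hxinj : ∀ u, x u = 1 → u = 0 := by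
    intro u hu
    rw [← hx0] at hu
    have h1 := blk_injective hu
    funext i
    have h2 := nsHom_injective hK (congrFun h1 i)
    simp only [Pi.zero_apply, ZMod.val_zero, pow_zero] at h2 ⊢
    have h3 := orderOf_dvd_of_pow_eq_one h2
    rw [hg] at h3
    rw [← ZMod.val_eq_zero]
    rcases Nat.eq_zero_or_pos (u i).val with h4 | h4
    · exact h4
    · exact absurd (Nat.le_of_dvd h4 h3) (not_le.mpr (ZMod.val_lt _))
  let W : (Fin n → ZMod N) → ((Fin d → K) →ₗ[K] (Fin d → K)) :=
    fun u => Matrix.toLin' (((ρ (x u) : GL (Fin d) F) : Matrix (Fin d) (Fin d) F).map (algebraMap F K))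
  have hW : ∀ a b v, W (a + b) v = W a (W b v) := by
    intro a b v
    show Matrix.toLin' _ v = _
    rw [hx, map_mul, Units.val_mul, Matrix.map_mul, Matrix.toLin'_mul]
    rfl
  have hW0 : ∀ v, W 0 v = v := by
    intro v
    show Matrix.toLin' _ v = _
    rw [hx0, map_one, Units.val_one, Matrix.map_one _ (map_zero _) (map_one _), Matrix.toLin'_one]
    rfl
  have hcq : ((Nat.card F : ℕ) : K) = 0 := by
    obtain ⟨p, hp⟩ := CharP.exists F
    obtain ⟨k, hpp, hcard⟩ := FiniteField.card F p
    have h1 : ((Fintype.card F : ℕ) : F) = 0 := by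
      rw [hcard]; push_cast
      rw [CharP.cast_eq_zero, zero_pow k.ne_zero]
    rw [Nat.card_eq_fintype_card, ← map_natCast (algebraMap F K), h1, map_zero]
  have hcard : (Fintype.card (Fin n → ZMod N) : K) ≠ 0 := by
    rw [Fintype.card_fun, ZMod.card, Fintype.card_fin, hN, hq]
    push_cast
    rw [hcq, zero_add, one_pow]
    exact one_ne_zero
  have hle := card_weights_leR ψ hψ W hcard (Finset.univ.filter (fun m => WtNeR ψ W m)) (fun a ha => (Finset.mem_filter.mp ha).2)
  rw [Module.finrank_fintype_fun_eq_card, Fintype.card_fin] at hle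
  refine le_trans ?_ hle
  apply card_symm_set (by omega : 3 ≤ N)
  · intro m hm
    rw [Finset.mem_filter] at hm ⊢
    refine ⟨Finset.mem_univ _, ?_⟩
    obtain ⟨v, hv0, hv⟩ := hm.2
    -- Frobenius
    obtain ⟨p, hp⟩ := CharP.exists F
    obtain ⟨k, hpp, hcardF⟩ := FiniteField.card F p
    have hfp : Fact p.Prime := ⟨hpp⟩
    have hpK : CharP K p := charP_of_injective_algebraMap (algebraMap F K).injective p
    have hqp : q = p ^ (k : ℕ) := by rw [hq, Nat.card_eq_fintype_card, hcardF]
    let φ : K →+* K := iterateFrobenius K p k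
    have hφ : ∀ y : K, φ y = y ^ q := by
      intro y
      rw [hqp]; exact iterateFrobenius_def p k y
    have hφF : ∀ a : F, φ (algebraMap F K a) = algebraMap F K a := by
      intro a
      rw [hφ, ← map_pow, hq, Nat.card_eq_fintype_card, FiniteField.pow_card]
    refine ⟨fun i => φ (v i), ?_, ?_⟩
    · intro h
      apply hv0
      funext i
      have := congrFun h i
      simp only [Pi.zero_apply] at this ⊢
      exact (map_eq_zero φ).mp this
    · intro u
      have h1 : W u (fun i => φ (v i)) = fun i => φ (W u v i) := by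
        funext i
        show (Matrix.toLin' (((ρ (x u) : GL (Fin d) F) : Matrix (Fin d) (Fin d) F).map (algebraMap F K)) _) i =
          φ ((Matrix.toLin' (((ρ (x u) : GL (Fin d) F) : Matrix (Fin d) (Fin d) F).map (algebraMap F K)) v) i)
        rw [Matrix.toLin'_apply, Matrix.toLin'_apply, Matrix.mulVec, Matrix.mulVec, dotProduct, dotProduct, map_sum]
        apply Finset.sum_congr rfl
        intro j _
        rw [map_mul, Matrix.map_apply, hφF]
      rw [h1, hv]
      funext i
      simp only [Pi.smul_apply, smul_eq_mul, map_mul]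
      congr 1
      rw [hφ, neg_dotProduct, AddChar.map_neg_eq_inv]
      apply eq_inv_of_mul_eq_one_left
      rw [← pow_succ, ← hN, hψa, ← pow_mul, mul_comm, pow_mul, hzN, one_pow]
  · intro u hu
    obtain ⟨v, hv⟩ : ∃ v, W u v ≠ v := by
      by_contra hcon
      push Not at hcon
      apply hu
      apply hxinj
      apply hρ
      rw [map_one]
      apply Units.ext
      apply Matrix.map_injective (algebraMap F K).injective
      have h1 : W u = Matrix.toLin' 1 := by
        apply LinearMap.ext
        intro v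
        rw [hcon, Matrix.toLin'_one]; rfl
      have h2 := Matrix.toLin'.injective h1
      refine h2.trans ?_
      simp
    obtain ⟨a, ha, ha0⟩ := exists_weightR ψ hψ W hW hW0 hcard u v hv
    exact ⟨a, Finset.mem_filter.mpr ⟨Finset.mem_univ _, ha⟩, ha0⟩

end Cfsg.Agent.S2394
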