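import Cfsg.Statements.S2395
import Cfsg.Agent.H40.ChevSingle

set_option autoImplicit false
set_option maxRecDepth 100000
open Cfsg

namespace Cfsg.Agent.S2395

open Cfsg.Agent.H40 Cfsg.Lie

section
variable {K : Type*} [Field K] (D : Cfsg.Lie.ChevalleyDatum)

/-- image of a generator in the abelianization -/
noncomputable def ya (r : ℕ) (t : K) : Abelianization (D.SteinbergCover K) := Abelianization.of (D.scGen K r t)

lemma mk_eq_one {g : FreeGroup (Fin D.nroots × K)} (h : g ∈ D.steinbergRelsAB K) : PresentedGroup.mk (D.steinbergRelsAB K) g = 1 :=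
  (QuotientGroup.eq_one_iff _).2 (Subgroup.subset_normalClosure h)

lemma ya_add {r : ℕ} (hr : r < D.nroots) (t u : K) : ya D r (t + u) = ya D r t * ya D r u := by
  have h := mk_eq_one D (K := K) (Or.inl ⟨r, t, u, hr, rfl⟩)
  rw [map_mul, map_mul, map_inv, mul_inv_eq_one] at h
  unfold ya ChevalleyDatum.scGen
  rw [← map_mul, h]

lemma ya_zero {r : ℕ} (hr : r < D.nroots) : ya D r (0 : K) = 1 := by
  have := ya_add D hr (0 : K) 0
  rw [add_zero] at this
  exact left_eq_mul.1 this

lemma ya_comm {r s : ℕ} (hr : r < D.nroots) (hs : s < D.nroots) (h1 : s ≠ r) (h2 : s ≠ D.neg r) (t u : K) :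
    ((D.commTerms r s).map fun c => ya D c.1 ((c.2.1 : K) * (-t) ^ c.2.2.1 * u ^ c.2.2.2)).prod = 1 := by
  have h := mk_eq_one D (K := K) (Or.inr ⟨r, s, t, u, hr, hs, h1, h2, rfl⟩)
  have h3 := congrArg (Abelianization.of (G := D.SteinbergCover K)) h
  simp only [map_mul, map_inv, map_one] at h3
  have h4 : Abelianization.of (G := D.SteinbergCover K) (PresentedGroup.mk (D.steinbergRelsAB K) (D.stWord (D.commWord K r s t u))) = 1 := by
    rw [mul_comm (Abelianization.of _)⁻¹ (Abelianization.of _)⁻¹] at h3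
    rw [mul_inv_eq_one] at h3
    rw [← h3]
    generalize Abelianization.of (G := D.SteinbergCover K) (PresentedGroup.mk (D.steinbergRelsAB K) (D.stX s u)) = a
    generalize Abelianization.of (G := D.SteinbergCover K) (PresentedGroup.mk (D.steinbergRelsAB K) (D.stX r t)) = b
    rw [mul_assoc, mul_comm a b, ← mul_assoc, mul_assoc (b⁻¹) (a⁻¹) b, mul_comm (a⁻¹) b]
    group
  rw [← h4]
  unfold ChevalleyDatum.stWord ChevalleyDatum.commWord
  rw [map_list_prod, map_list_prod, List.map_map, List.map_map, List.map_map]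
  rfl

lemma single_spec {e : ℕ × ℕ × ℕ} (h : single D e = true) (c : K) : ya D e.2.2 c = 1 := by
  unfold single at h
  simp only [Bool.and_eq_true, Bool.or_eq_true, decide_eq_true_eq] at h
  obtain ⟨h1, h2, h3, h4, h5⟩ := h
  rcases h5 with h5 | h5
  · have h6 := ya_comm D h1 h2 h3 h4 (-c) (1 : K)
    rw [h5] at h6
    simpa using h6
  · have h6 := ya_comm D h1 h2 h3 h4 c (1 : K)
    rw [h5] at h6
    simpa using h6

lemma double_spec {A : List ℕ} (hA : ∀ k ∈ A, ∀ c : K, ya D k c = 1) {e : ℕ × ℕ × ℕ × ℕ} (h : double D A e = true)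
    (hk : e.2.2.1 < D.nroots) (hl : e.2.2.2 < D.nroots) (x : K) (hx0 : x ≠ 0) (hx1 : x ≠ 1) (c : K) :
    ya D e.2.2.1 c = 1 ∧ ya D e.2.2.2 c = 1 := by
  unfold double at h
  simp only [Bool.and_eq_true, decide_eq_true_eq] at h
  obtain ⟨h1, h2, h3, h4, h5⟩ := h
  have key := ya_comm (K := K) D h1 h2 h3 h4
  generalize hT : D.commTerms e.1 e.2.1 = T at h5 key
  match T, h5 with
  | (a, c1, i, j) :: (a', c2, i', j') :: L, h5 =>
    simp only [Bool.and_eq_true, decide_eq_true_eq] at h5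
    obtain ⟨rfl, rfl, rfl, rfl, rfl, rfl, hc1, hc2, hL⟩ := h5
    have hrest : ∀ t u : K, (L.map fun c => ya D c.1 ((c.2.1 : K) * (-t) ^ c.2.2.1 * u ^ c.2.2.2)).prod = 1 := by
      intro t u
      apply List.prod_eq_one
      intro y hy
      rw [List.mem_map] at hy
      obtain ⟨b, hb, rfl⟩ := hy
      rw [List.all_eq_true] at hL
      have := hL b hb
      rw [decide_eq_true_eq] at this
      exact hA _ this _
    have key2 : ∀ a u : K, ya D e.2.2.1 ((c1 : K) * (a * u)) * ya D e.2.2.2 ((c2 : K) * (a * u ^ 2)) = 1 := by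
      intro a u
      have h6 := key (-a) u
      rw [List.map_cons, List.map_cons, List.prod_cons, List.prod_cons, hrest, mul_one] at h6
      simp only [neg_neg, pow_one] at h6
      rw [← mul_assoc, ← mul_assoc]
      exact h6
    have hsq : ∀ c0 : ℤ, (c0 = 1 ∨ c0 = -1) → (c0 : K) * (c0 : K) = 1 := by
      intro c0 h0
      rcases h0 with rfl | rfl <;> simp
    have hY2 : ∀ c : K, ya D e.2.2.2 c = 1 := by
      intro c
      have hxx : x ^ 2 - x ≠ 0 := by
        have : x ^ 2 - x = x * (x - 1) := by ring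
        rw [this]
        exact mul_ne_zero hx0 (sub_ne_zero.2 hx1)
      set a := (c2 : K) * (c / (x ^ 2 - x)) with ha
      have e1 := key2 a x
      have e2 := key2 (a * x) 1
      rw [mul_one, one_pow, mul_one] at e2
      have e3 : ya D e.2.2.2 ((c2 : K) * (a * x ^ 2)) = ya D e.2.2.2 ((c2 : K) * (a * x)) := by
        rw [← e2] at e1
        exact mul_left_cancel e1
      have e4 : (c2 : K) * (a * x ^ 2) = (c2 : K) * (a * x) + c := by
        have : c = ((c2 : K) * (c2 : K)) * (c / (x ^ 2 - x)) * (x ^ 2 - x) := by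
          rw [hsq c2 hc2, one_mul, div_mul_cancel₀ _ hxx]
        conv_rhs => rw [this]
        rw [ha]
        ring
      rw [e4, ya_add D hl] at e3
      exact mul_eq_left.1 e3
    refine ⟨?_, hY2 c⟩
    have e1 := key2 ((c1 : K) * c) 1
    rw [hY2, mul_one, mul_one, ← mul_assoc, hsq c1 hc1, one_mul] at e1
    exact e1

theorem comm_eq_top (h : ∀ r < D.nroots, ∀ t : K, ya D r t = 1) : commutator (D.SteinbergCover K) = ⊤ := by
  rw [eq_top_iff, ← PresentedGroup.closure_range_of, Subgroup.closure_le]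
  rintro _ ⟨⟨r, t⟩, rfl⟩
  have h1 := h r r.2 t
  have h2 : D.scGen K r t = PresentedGroup.of (r, t) := by
    unfold ChevalleyDatum.scGen ChevalleyDatum.stX
    rw [dif_pos r.2]
    rfl
  unfold ya at h1
  rw [h2] at h1
  exact (QuotientGroup.eq_one_iff _).1 h1

theorem top_of_singles (L : List (ℕ × ℕ × ℕ)) (hL : L.all (single D) = true) (hm : L.map (fun e => e.2.2) = List.range D.nroots) :
    commutator (D.SteinbergCover K) = ⊤ := by
  apply comm_eq_top
  intro r hr t
  have h1 : r ∈ L.map (fun e => e.2.2) := by rw [hm]; exact List.mem_range.2 hr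
  rw [List.mem_map] at h1
  obtain ⟨e, he, rfl⟩ := h1
  rw [List.all_eq_true] at hL
  exact single_spec D (hL e he) t

end

theorem topB2 {K : Type*} [Field K] (x : K) (hx0 : x ≠ 0) (hx1 : x ≠ 1) : commutator (chevB2.SteinbergCover K) = ⊤ := by
  apply comm_eq_top
  intro r hr t
  have h1 : ∀ r < 8, ∃ e ∈ dlB2, (e.2.2.1 = r ∨ e.2.2.2 = r) ∧ e.2.2.1 < 8 ∧ e.2.2.2 < 8 := by decide +kernel
  obtain ⟨e, he, h2, h3, h4⟩ := h1 r hr
  have h5 := dlB2_ok
  rw [List.all_eq_true] at h5
  have h6 := double_spec (K := K) chevB2 (A := []) (by simp) (h5 e he) h3 h4 x hx0 hx1 t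
  rcases h2 with rfl | rfl
  · exact h6.1
  · exact h6.2

theorem topG2 {K : Type*} [Field K] (x : K) (hx0 : x ≠ 0) (hx1 : x ≠ 1) : commutator (chevG2.SteinbergCover K) = ⊤ := by
  have hlong : ∀ k ∈ [0, 1, 5, 6, 10, 11], ∀ c : K, ya chevG2 k c = 1 := by
    intro k hk c
    have h1 : k ∈ slG2.map (fun e => e.2.2) := by rw [slG2_map]; exact hk
    rw [List.mem_map] at h1
    obtain ⟨e, he, rfl⟩ := h1
    have hL := slG2_ok
    rw [List.all_eq_true] at hL
    exact single_spec chevG2 (hL e he) c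
  apply comm_eq_top
  intro r hr t
  have h1 : ∀ r < 12, r ∈ [0, 1, 5, 6, 10, 11] ∨ ∃ e ∈ dlG2, (e.2.2.1 = r ∨ e.2.2.2 = r) ∧ e.2.2.1 < 12 ∧ e.2.2.2 < 12 := by decide +kernel
  rcases h1 r hr with h1 | h1
  · exact hlong r h1 t
  · obtain ⟨e, he, h2, h3, h4⟩ := h1
    have h5 := dlG2_ok
    rw [List.all_eq_true] at h5
    have h6 := double_spec (K := K) chevG2 (A := [0, 1, 5, 6, 10, 11]) hlong (h5 e he) h3 h4 x hx0 hx1 t
    rcases h2 with rfl | rfl
    · exact h6.1
    · exact h6.2

/-- The group presented by Steinberg's generators x̄_r(t) subject only to (R1) (additivity) and (R2) (the commutator formula) is perfect, for each of the types G₂, B₂, D₄, F₄, E₆, E₇, E₈ over any field (for types B₂ and G₂ the field must have more than two elements — the cases where the Chevalley group is not simple are set aside). -/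
theorem result {K : Type*} [Field K] (D : Cfsg.Lie.ChevalleyDatum) (hD : D ∈ [Cfsg.Lie.chevG2, Cfsg.Lie.chevB2, Cfsg.Lie.chevD4, Cfsg.Lie.chevF4, Cfsg.Lie.chevE6, Cfsg.Lie.chevE7, Cfsg.Lie.chevE8]) (hK : D ∈ [Cfsg.Lie.chevB2, Cfsg.Lie.chevG2] → ∃ x : K, x ≠ 0 ∧ x ≠ 1) :
    commutator (D.SteinbergCover K) = ⊤ := by
  simp only [List.mem_cons, List.not_mem_nil, or_false] at hD
  rcases hD with rfl | rfl | rfl | rfl | rfl | rfl | rfl
  · obtain ⟨x, hx0, hx1⟩ := hK (by simp)
    exact topG2 x hx0 hx1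
  · obtain ⟨x, hx0, hx1⟩ := hK (by simp)
    exact topB2 x hx0 hx1
  · exact top_of_singles _ slD4 slD4_ok slD4_map
  · exact top_of_singles _ slF4 slF4_ok slF4_map
  · exact top_of_singles _ slE6 slE6_ok slE6_map
  · exact top_of_singles _ slE7 slE7_ok slE7_map
  · exact top_of_singles _ slE8 slE8_ok slE8_map

end Cfsg.Agent.S2395
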