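import Cfsg.Statements.S2397
import Cfsg.Agent.Steinb.Fin

set_option autoImplicit false
open Cfsg

namespace Cfsg.Agent.S2397

/-- Over a finite field the relators (R3) h̄_r(t₁) h̄_r(t₂) = h̄_r(t₁ t₂) are consequences of (R1) and (R2): for each of the types G₂, B₂, D₄, F₄, E₆, E₇, E₈ (for types B₂ and G₂ the field must have more than two elements — the cases where the Chevalley group is not simple are set aside) the group presented by (R1), (R2) is canonically isomorphic to the one presented by (R1)–(R3), by an isomorphism matching the generators x̄_r(t). -/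
theorem result {K : Type*} [Field K] [Finite K] (D : Cfsg.Lie.ChevalleyDatum) (hD : D ∈ [Cfsg.Lie.chevG2, Cfsg.Lie.chevB2, Cfsg.Lie.chevD4, Cfsg.Lie.chevF4, Cfsg.Lie.chevE6, Cfsg.Lie.chevE7, Cfsg.Lie.chevE8]) (hK : D ∈ [Cfsg.Lie.chevB2, Cfsg.Lie.chevG2] → ∃ x : K, x ≠ 0 ∧ x ≠ 1) :
    ∃ e : D.SteinbergCover K ≃* D.SteinbergGroup K, ∀ (r : ℕ) (t : K), e (D.scGen K r t) = D.stGen K r t := by
  have H := Cfsg.Agent.Chev.good_of_mem hD
  have S := Cfsg.Agent.Steinb.sp_of_mem hD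
  let P := Cfsg.Agent.Steinb.preOf H (D.steinbergRelsAB K) (Set.Subset.refl _) (Cfsg.Agent.Steinb.fX_relsAB H)
  have h1 : ∀ r ∈ D.steinbergRelsAB K, PresentedGroup.mk (D.steinbergRels K) r = 1 := fun r hr =>
    PresentedGroup.one_of_mem (Or.inl hr)
  have h2 : ∀ r ∈ D.steinbergRels K, PresentedGroup.mk (D.steinbergRelsAB K) r = 1 := by
    rintro g (hg | ⟨r, t₁, t₂, hr, ht₁, ht₂, rfl⟩)
    · exact PresentedGroup.one_of_mem hg
    · have h3 := P.r3_of_finite S r hr ht₁ ht₂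
      rw [Cfsg.Agent.Steinb.preOf_hr, Cfsg.Agent.Steinb.preOf_hr, Cfsg.Agent.Steinb.preOf_hr] at h3
      rw [map_mul, map_inv, mul_inv_eq_one, map_mul]
      exact h3
  exact ⟨Cfsg.Agent.Steinb.presEquiv h1 h2, fun r t => Cfsg.Agent.Steinb.presEquiv_mk h1 h2 _⟩

end Cfsg.Agent.S2397
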