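import Cfsg.Statements.S2400
import Cfsg.Agent.Mult.Cover

set_option autoImplicit false
open Cfsg

namespace Cfsg.Agent.S2400

/-- Over a finite field `K`, the group presented by Steinberg's relators (R1)–(R3) (the universal Chevalley group) of type E₆ or E₇, or of type B₂ or D₄ with `K` of more than two elements, has trivial Schur multiplier: every finite stem extension of it is an isomorphism (Schur multiplier described through stem extensions as in the definitions). Types G₂, F₄ and E₈ are not covered here. -/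
theorem result {K : Type*} [Field K] [Fintype K] (e : Cfsg.Lie.ChevalleyDatum × ℕ)
    (he : e ∈ [(Cfsg.Lie.chevE6, 0), (Cfsg.Lie.chevE7, 0), (Cfsg.Lie.chevB2, 2), (Cfsg.Lie.chevD4, 2)]) (hK : Fintype.card K ≠ e.2) :
    Cfsg.HasCyclicSchurMultiplier (e.1.SteinbergGroup K) 1 := by
  have : Finite K := Finite.of_fintype K
  have h1 : 1 < Fintype.card K := Fintype.one_lt_card
  simp only [List.mem_cons, List.not_mem_nil, or_false] at he
  rcases he with rfl | rfl | rfl | rfl
  · refine Cfsg.Agent.Mult.st_trivial (by simp [Cfsg.Agent.Chev.data]) ?_ fun Γ _ σ C => Cfsg.Agent.Mult.slData_E6.exists_pre _ C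
    exact Cfsg.Agent.Mult.slData_E6.perfect (Cfsg.Agent.Chev.good_of_mem (by simp [Cfsg.Agent.Chev.data]))
      (Cfsg.Agent.Mult.stP _ K) (Cfsg.Agent.Mult.stP_gen _ K)
  · refine Cfsg.Agent.Mult.st_trivial (by simp [Cfsg.Agent.Chev.data]) ?_ fun Γ _ σ C => Cfsg.Agent.Mult.slData_E7.exists_pre _ C
    exact Cfsg.Agent.Mult.slData_E7.perfect (Cfsg.Agent.Chev.good_of_mem (by simp [Cfsg.Agent.Chev.data]))
      (Cfsg.Agent.Mult.stP _ K) (Cfsg.Agent.Mult.stP_gen _ K)
  · have h2 : ∃ s : Finset K, 2 < s.card := Cfsg.Agent.Mult.finset_of_card (by simp only at hK; omega)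
    refine Cfsg.Agent.Mult.st_trivial (by simp [Cfsg.Agent.Chev.data]) ?_ fun Γ _ σ C => Cfsg.Agent.Mult.exists_pre_B2 _ C h2
    exact Cfsg.Agent.Mult.perf_B2' (Cfsg.Agent.Mult.stP (Cfsg.Agent.Chev.good_of_mem (by simp [Cfsg.Agent.Chev.data])) K)
      (Cfsg.Agent.Mult.stP_gen _ K) h2
  · have h2 : ∃ s : Finset K, 2 < s.card := Cfsg.Agent.Mult.finset_of_card (by simp only at hK; omega)
    refine Cfsg.Agent.Mult.st_trivial (by simp [Cfsg.Agent.Chev.data]) ?_ fun Γ _ σ C => Cfsg.Agent.Mult.exists_pre_D4 h2 C _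
    exact Cfsg.Agent.Mult.perf_torus Cfsg.Agent.Steinb.sp_D4
      (Cfsg.Agent.Mult.stP (Cfsg.Agent.Chev.good_of_mem (by simp [Cfsg.Agent.Chev.data])) K)
      (Cfsg.Agent.Mult.stP_gen _ K) (Cfsg.Agent.Mult.BigF.of_finset (by simpa using h2)) Cfsg.Agent.Mult.chkPf_D4

end Cfsg.Agent.S2400
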