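import Cfsg.Statements.S2401
import Cfsg.Agent.Stb.SLn

set_option autoImplicit false
open Cfsg

namespace Cfsg.Agent.S2401

/-- The Steinberg presentation of `SL_n` over a finite field for `n ≥ 3`: the group generated by symbols `x_ij(t)` (`i ≠ j`, `t` in the field) subject to `x_ij(t) x_ij(u) = x_ij(t + u)` and, for `i ≠ l`, `x_ij(t) x_kl(u) x_ij(t)⁻¹ x_kl(u)⁻¹ = x_il(tu)` if `j = k` and `= 1` if `j ≠ k`, is isomorphic to `SL_n` by an isomorphism sending `x_ij(t)` to the elementary matrix `1 + t E_ij`. -/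
theorem result {K : Type*} [Field K] [Finite K] (n : ℕ) (hn : 3 ≤ n) :
    ∃ e : PresentedGroup
        ({g : FreeGroup ({ij : Fin n × Fin n // ij.1 ≠ ij.2} × K) | ∃ (a : {ij : Fin n × Fin n // ij.1 ≠ ij.2}) (t u : K),
            g = FreeGroup.of (a, t) * FreeGroup.of (a, u) * (FreeGroup.of (a, t + u))⁻¹} ∪
          {g | ∃ (a b : {ij : Fin n × Fin n // ij.1 ≠ ij.2}) (t u : K), a.1.1 ≠ b.1.2 ∧ a.1.2 ≠ b.1.1 ∧
            g = FreeGroup.of (a, t) * FreeGroup.of (b, u) * (FreeGroup.of (a, t))⁻¹ * (FreeGroup.of (b, u))⁻¹} ∪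
          {g | ∃ (a b : {ij : Fin n × Fin n // ij.1 ≠ ij.2}) (h : a.1.1 ≠ b.1.2) (t u : K), a.1.2 = b.1.1 ∧
            g = FreeGroup.of (a, t) * FreeGroup.of (b, u) * (FreeGroup.of (a, t))⁻¹ * (FreeGroup.of (b, u))⁻¹ *
              (FreeGroup.of (⟨(a.1.1, b.1.2), h⟩, t * u))⁻¹}) ≃* Matrix.SpecialLinearGroup (Fin n) K,
      ∀ (a : {ij : Fin n × Fin n // ij.1 ≠ ij.2}) (t : K), ((e (PresentedGroup.of (a, t)) : Matrix (Fin n) (Fin n) K)) = Matrix.transvection a.1.1 a.1.2 t := by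
  classical
  set rels : Set (FreeGroup ({ij : Fin n × Fin n // ij.1 ≠ ij.2} × K)) :=
    ({g : FreeGroup ({ij : Fin n × Fin n // ij.1 ≠ ij.2} × K) | ∃ (a : {ij : Fin n × Fin n // ij.1 ≠ ij.2}) (t u : K),
            g = FreeGroup.of (a, t) * FreeGroup.of (a, u) * (FreeGroup.of (a, t + u))⁻¹} ∪
          {g | ∃ (a b : {ij : Fin n × Fin n // ij.1 ≠ ij.2}) (t u : K), a.1.1 ≠ b.1.2 ∧ a.1.2 ≠ b.1.1 ∧
            g = FreeGroup.of (a, t) * FreeGroup.of (b, u) * (FreeGroup.of (a, t))⁻¹ * (FreeGroup.of (b, u))⁻¹} ∪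
          {g | ∃ (a b : {ij : Fin n × Fin n // ij.1 ≠ ij.2}) (h : a.1.1 ≠ b.1.2) (t u : K), a.1.2 = b.1.1 ∧
            g = FreeGroup.of (a, t) * FreeGroup.of (b, u) * (FreeGroup.of (a, t))⁻¹ * (FreeGroup.of (b, u))⁻¹ *
              (FreeGroup.of (⟨(a.1.1, b.1.2), h⟩, t * u))⁻¹}) with hrels
  let f : {ij : Fin n × Fin n // ij.1 ≠ ij.2} × K → Matrix.SpecialLinearGroup (Fin n) K :=
    fun a => Matrix.SpecialLinearGroup.transvection a.1.2 a.2
  have sm : ∀ (i j k l : Fin n) (a b : K), Matrix.single i j a * Matrix.single k l b =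
      if j = k then Matrix.single i l (a * b) else (0 : Matrix (Fin n) (Fin n) K) := by
    intro i j k l a b
    split_ifs with h
    · subst h; rw [Matrix.single_mul_single_same]
    · rw [Matrix.single_mul_single_of_ne _ _ _ _ h]
  have hadd : ∀ (a : {ij : Fin n × Fin n // ij.1 ≠ ij.2}) (t u : K), f (a, t) * f (a, u) = f (a, t + u) := by
    rintro ⟨⟨i, j⟩, hij⟩ t u
    apply Subtype.ext
    show (1 + Matrix.single i j t) * (1 + Matrix.single i j u) = 1 + Matrix.single i j (t + u)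
    rw [add_mul, one_mul, mul_add, mul_one, sm, if_neg (Ne.symm hij), add_zero, Matrix.single_add]
    abel
  have hcm : ∀ (a b : {ij : Fin n × Fin n // ij.1 ≠ ij.2}) (t u : K), a.1.1 ≠ b.1.2 → a.1.2 ≠ b.1.1 →
      f (a, t) * f (b, u) = f (b, u) * f (a, t) := by
    rintro ⟨⟨i, j⟩, hij⟩ ⟨⟨k, l⟩, hkl⟩ t u h1 h2
    apply Subtype.ext
    show (1 + Matrix.single i j t) * (1 + Matrix.single k l u) = (1 + Matrix.single k l u) * (1 + Matrix.single i j t)
    rw [add_mul, one_mul, mul_add, mul_one, sm, if_neg h2, add_mul, one_mul, mul_add, mul_one, sm, if_neg (Ne.symm h1)]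
    abel
  have hcom : ∀ (a b : {ij : Fin n × Fin n // ij.1 ≠ ij.2}) (h : a.1.1 ≠ b.1.2) (t u : K), a.1.2 = b.1.1 →
      f (a, t) * f (b, u) = f (⟨(a.1.1, b.1.2), h⟩, t * u) * (f (b, u) * f (a, t)) := by
    rintro ⟨⟨i, j⟩, hij⟩ ⟨⟨k, l⟩, hkl⟩ h t u h1
    change i ≠ l at h
    change j = k at h1
    subst h1
    apply Subtype.ext
    show (1 + Matrix.single i j t) * (1 + Matrix.single j l u) =
      (1 + Matrix.single i l (t * u)) * ((1 + Matrix.single j l u) * (1 + Matrix.single i j t))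
    have e1 : (1 + Matrix.single j l u) * (1 + Matrix.single i j t) = 1 + Matrix.single i j t + Matrix.single j l u := by
      rw [add_mul, one_mul, mul_add, mul_one, sm, if_neg (Ne.symm h)]; abel
    rw [e1, add_mul, one_mul, mul_add, mul_one, sm, if_pos rfl, add_mul, one_mul, mul_add, mul_add, mul_one, sm, sm,
      if_neg (Ne.symm h), if_neg (Ne.symm hkl)]
    abel
  have hR : ∀ r ∈ rels, FreeGroup.lift f r = 1 := by
    rintro r ((⟨a, t, u, rfl⟩ | ⟨a, b, t, u, h1, h2, rfl⟩) | ⟨a, b, h, t, u, h1, rfl⟩)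
    · simp only [map_mul, map_inv, FreeGroup.lift_apply_of]
      rw [hadd, mul_inv_cancel]
    · simp only [map_mul, map_inv, FreeGroup.lift_apply_of]
      rw [hcm a b t u h1 h2]; group
    · simp only [map_mul, map_inv, FreeGroup.lift_apply_of]
      rw [hcom a b h t u h1]; group
  let σ : PresentedGroup rels →* Matrix.SpecialLinearGroup (Fin n) K := PresentedGroup.toGroup hR
  have hσ : ∀ a t, σ (PresentedGroup.of (a, t)) = f (a, t) := fun a t => PresentedGroup.toGroup.of hR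
  let y : Fin n → Fin n → K → PresentedGroup rels := fun i j t => if h : i ≠ j then PresentedGroup.of (⟨(i, j), h⟩, t) else 1
  have hy : ∀ {i j : Fin n} (h : i ≠ j) (t : K), y i j t = PresentedGroup.of (⟨(i, j), h⟩, t) := fun h t => dif_pos h
  have hmk : ∀ {r}, r ∈ rels → PresentedGroup.mk rels r = 1 := fun h => PresentedGroup.one_of_mem h
  have hof : ∀ z, (PresentedGroup.of z : PresentedGroup rels) = PresentedGroup.mk rels (FreeGroup.of z) := fun z => rfl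
  have R : Cfsg.Agent.Mult.SR y := by
    constructor
    · intro i j h a b
      rw [hy h, hy h, hy h]
      have h1 : FreeGroup.of ((⟨(i, j), h⟩ : {ij : Fin n × Fin n // ij.1 ≠ ij.2}), a) * FreeGroup.of (⟨(i, j), h⟩, b) *
        (FreeGroup.of (⟨(i, j), h⟩, a + b))⁻¹ ∈ rels := Or.inl (Or.inl ⟨_, a, b, rfl⟩)
      have h2 := hmk h1
      rw [map_mul, map_mul, map_inv, ← hof, ← hof, ← hof] at h2
      exact (mul_inv_eq_one.1 h2).symm
    · intro i j k hij hjk hik a b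
      rw [hy hij, hy hjk, hy hik]
      have h1 : FreeGroup.of ((⟨(i, j), hij⟩ : {ij : Fin n × Fin n // ij.1 ≠ ij.2}), a) * FreeGroup.of (⟨(j, k), hjk⟩, b) *
        (FreeGroup.of (⟨(i, j), hij⟩, a))⁻¹ * (FreeGroup.of (⟨(j, k), hjk⟩, b))⁻¹ *
        (FreeGroup.of (⟨(i, k), hik⟩, a * b))⁻¹ ∈ rels := Or.inr ⟨⟨(i, j), hij⟩, ⟨(j, k), hjk⟩, hik, a, b, rfl, rfl⟩
      have h2 := hmk h1
      simp only [map_mul, map_inv, ← hof] at h2
      have h3 := mul_inv_eq_one.1 h2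
      rw [← h3]; group
    · intro i j k l hij hkl hjk hil a b
      rw [hy hij, hy hkl]
      have h1 : FreeGroup.of ((⟨(i, j), hij⟩ : {ij : Fin n × Fin n // ij.1 ≠ ij.2}), a) * FreeGroup.of (⟨(k, l), hkl⟩, b) *
        (FreeGroup.of (⟨(i, j), hij⟩, a))⁻¹ * (FreeGroup.of (⟨(k, l), hkl⟩, b))⁻¹ ∈ rels :=
        Or.inl (Or.inr ⟨⟨(i, j), hij⟩, ⟨(k, l), hkl⟩, a, b, hil, hjk, rfl⟩)
      have h2 := hmk h1
      simp only [map_mul, map_inv, ← hof] at h2
      have h3 := mul_inv_eq_one.1 h2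
      exact mul_inv_eq_iff_eq_mul.1 h3
  have hgen : Subgroup.closure {g | ∃ i j, i ≠ j ∧ ∃ b, y i j b = g} = ⊤ := by
    rw [eq_top_iff, ← PresentedGroup.closure_range_of, Subgroup.closure_le]
    rintro _ ⟨⟨⟨⟨i, j⟩, h⟩, t⟩, rfl⟩
    exact Subgroup.subset_closure ⟨i, j, h, t, hy h t⟩
  have hb := Cfsg.Agent.Stb.sl_bijective' (by rw [Fintype.card_fin]; exact hn) R hgen σ
    (fun i j h a => by rw [hy h, hσ])
  refine ⟨MulEquiv.ofBijective σ hb, ?_⟩
  intro a t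
  show ((σ (PresentedGroup.of (a, t)) : Matrix.SpecialLinearGroup (Fin n) K) : Matrix (Fin n) (Fin n) K) = _
  rw [hσ]; rfl

end Cfsg.Agent.S2401
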