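import Cfsg.Statements.S2418
import Cfsg.Agent.H40.CoxCenter

set_option autoImplicit false
set_option maxRecDepth 100000
open Cfsg

namespace Cfsg.Agent.S2418

open Cfsg.Agent.H40 Cfsg.Agent.ChevWeyl

theorem cenB2 : Nat.card (Subgroup.center (CoxeterMatrix.B 2).Group) = 2 ∧
      Subgroup.center (CoxeterMatrix.B 2).Group ≤ Subgroup.zpowers ((List.finRange 2).map (CoxeterMatrix.B 2).simple).prod := by
  have hp : ∀ i : Fin 2, (![0, 0] : Fin 2 → Fin 2) i = i ∨ rtB2.mf i (rtB2.pf ((![0, 0] : Fin 2 → Fin 2) i)) ≠ 0 := by decide +kernel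
  have hi : ∀ i : Fin 2, (![0, 0] : Fin 2 → Fin 2)^[2] i = 0 := by decide +kernel
  have hk : ∀ i : Fin 2, Nat.beq (rtB2.coxIter 2 (rtB2.pf i)) (rtB2.nf (rtB2.pf i)) = true := by decide +kernel
  exact center_two (T := rtB2) rtB2_ok (coxB2_of rpB2 rpB2_cartan) (![0, 0] : Fin 2 → Fin 2) (0 : Fin 2) 2 hp hi 2 hk

theorem cenG2 : Nat.card (Subgroup.center (CoxeterMatrix.G₂).Group) = 2 ∧
      Subgroup.center (CoxeterMatrix.G₂).Group ≤ Subgroup.zpowers ((List.finRange 2).map (CoxeterMatrix.G₂).simple).prod := by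
  have hp : ∀ i : Fin 2, (![0, 0] : Fin 2 → Fin 2) i = i ∨ rtG2.mf i (rtG2.pf ((![0, 0] : Fin 2 → Fin 2) i)) ≠ 0 := by decide +kernel
  have hi : ∀ i : Fin 2, (![0, 0] : Fin 2 → Fin 2)^[2] i = 0 := by decide +kernel
  have hk : ∀ i : Fin 2, Nat.beq (rtG2.coxIter 3 (rtG2.pf i)) (rtG2.nf (rtG2.pf i)) = true := by decide +kernel
  exact center_two (T := rtG2) rtG2_ok (coxG2_of rpG2 rpG2_cartan) (![0, 0] : Fin 2 → Fin 2) (0 : Fin 2) 2 hp hi 3 hk

theorem cenD4 : Nat.card (Subgroup.center (Cfsg.Lie.coxeterD4).Group) = 2 ∧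
      Subgroup.center (Cfsg.Lie.coxeterD4).Group ≤ Subgroup.zpowers ((List.finRange 4).map (Cfsg.Lie.coxeterD4).simple).prod := by
  have hp : ∀ i : Fin 4, (![1, 1, 1, 1] : Fin 4 → Fin 4) i = i ∨ rtD4.mf i (rtD4.pf ((![1, 1, 1, 1] : Fin 4 → Fin 4) i)) ≠ 0 := by decide +kernel
  have hi : ∀ i : Fin 4, (![1, 1, 1, 1] : Fin 4 → Fin 4)^[4] i = 1 := by decide +kernel
  have hk : ∀ i : Fin 4, Nat.beq (rtD4.coxIter 3 (rtD4.pf i)) (rtD4.nf (rtD4.pf i)) = true := by decide +kernel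
  exact center_two (T := rtD4) rtD4_ok (coxD4_of rpD4 rpD4_cartan) (![1, 1, 1, 1] : Fin 4 → Fin 4) (1 : Fin 4) 4 hp hi 3 hk

theorem cenF4 : Nat.card (Subgroup.center (CoxeterMatrix.F₄).Group) = 2 ∧
      Subgroup.center (CoxeterMatrix.F₄).Group ≤ Subgroup.zpowers ((List.finRange 4).map (CoxeterMatrix.F₄).simple).prod := by
  have hp : ∀ i : Fin 4, (![0, 0, 1, 2] : Fin 4 → Fin 4) i = i ∨ rtF4.mf i (rtF4.pf ((![0, 0, 1, 2] : Fin 4 → Fin 4) i)) ≠ 0 := by decide +kernel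
  have hi : ∀ i : Fin 4, (![0, 0, 1, 2] : Fin 4 → Fin 4)^[4] i = 0 := by decide +kernel
  have hk : ∀ i : Fin 4, Nat.beq (rtF4.coxIter 6 (rtF4.pf i)) (rtF4.nf (rtF4.pf i)) = true := by decide +kernel
  exact center_two (T := rtF4) rtF4_ok (coxF4_of rpF4 rpF4_cartan) (![0, 0, 1, 2] : Fin 4 → Fin 4) (0 : Fin 4) 4 hp hi 6 hk

theorem cenE6 : Nat.card (Subgroup.center (CoxeterMatrix.E₆).Group) = 1 ∧
      Subgroup.center (CoxeterMatrix.E₆).Group ≤ Subgroup.zpowers ((List.finRange 6).map (CoxeterMatrix.E₆).simple).prod := by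
  have hp : ∀ i : Fin 6, (![0, 3, 0, 2, 3, 4] : Fin 6 → Fin 6) i = i ∨ rtE6.mf i (rtE6.pf ((![0, 3, 0, 2, 3, 4] : Fin 6 → Fin 6) i)) ≠ 0 := by decide +kernel
  have hi : ∀ i : Fin 6, (![0, 3, 0, 2, 3, 4] : Fin 6 → Fin 6)^[6] i = 0 := by decide +kernel
  have hL : ∀ i : Fin 6, ∃ j : Fin 6, rtE6.cf (evalW rtE6 (([some 0, some 1, some 2, some 0, some 3, some 1, some 2, some 0, some 3, some 2, some 4, some 3, some 1, some 2, some 0, some 3, some 2, some 4, some 3, some 1, some 5, some 4, some 3, some 1, some 2, some 0, some 3, some 2, some 4, some 3, some 1, some 5, some 4, some 3, some 2, some 0] : List (Option (Fin 6))).map (Option.map Fin.val)) (rtE6.pf i)) j < 0 := by decide +kernel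
  have hne : Nat.beq (evalW rtE6 (([some 0, some 1, some 2, some 0, some 3, some 1, some 2, some 0, some 3, some 2, some 4, some 3, some 1, some 2, some 0, some 3, some 2, some 4, some 3, some 1, some 5, some 4, some 3, some 1, some 2, some 0, some 3, some 2, some 4, some 3, some 1, some 5, some 4, some 3, some 2, some 0] : List (Option (Fin 6))).map (Option.map Fin.val)) (rtE6.pf 0)) (rtE6.nf (rtE6.pf 0)) = false := by decide +kernel
  exact center_one (T := rtE6) rtE6_ok (coxE6_of rpE6 rpE6_cartan) (![0, 3, 0, 2, 3, 4] : Fin 6 → Fin 6) (0 : Fin 6) 6 hp hi ([some 0, some 1, some 2, some 0, some 3, some 1, some 2, some 0, some 3, some 2, some 4, some 3, some 1, some 2, some 0, some 3, some 2, some 4, some 3, some 1, some 5, some 4, some 3, some 1, some 2, some 0, some 3, some 2, some 4, some 3, some 1, some 5, some 4, some 3, some 2, some 0] : List (Option (Fin 6))) hL hne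

theorem cenE7 : Nat.card (Subgroup.center (CoxeterMatrix.E₇).Group) = 2 ∧
      Subgroup.center (CoxeterMatrix.E₇).Group ≤ Subgroup.zpowers ((List.finRange 7).map (CoxeterMatrix.E₇).simple).prod := by
  have hp : ∀ i : Fin 7, (![2, 3, 3, 3, 3, 4, 5] : Fin 7 → Fin 7) i = i ∨ rtE7.mf i (rtE7.pf ((![2, 3, 3, 3, 3, 4, 5] : Fin 7 → Fin 7) i)) ≠ 0 := by decide +kernel
  have hi : ∀ i : Fin 7, (![2, 3, 3, 3, 3, 4, 5] : Fin 7 → Fin 7)^[7] i = 3 := by decide +kernel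
  have hk : ∀ i : Fin 7, Nat.beq (rtE7.coxIter 9 (rtE7.pf i)) (rtE7.nf (rtE7.pf i)) = true := by decide +kernel
  exact center_two (T := rtE7) rtE7_ok (coxE7_of rpE7 rpE7_cartan) (![2, 3, 3, 3, 3, 4, 5] : Fin 7 → Fin 7) (3 : Fin 7) 7 hp hi 9 hk

theorem cenE8 : Nat.card (Subgroup.center (CoxeterMatrix.E₈).Group) = 2 ∧
      Subgroup.center (CoxeterMatrix.E₈).Group ≤ Subgroup.zpowers ((List.finRange 8).map (CoxeterMatrix.E₈).simple).prod := by
  have hp : ∀ i : Fin 8, (![2, 3, 3, 3, 3, 4, 5, 6] : Fin 8 → Fin 8) i = i ∨ rtE8.mf i (rtE8.pf ((![2, 3, 3, 3, 3, 4, 5, 6] : Fin 8 → Fin 8) i)) ≠ 0 := by decide +kernel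
  have hi : ∀ i : Fin 8, (![2, 3, 3, 3, 3, 4, 5, 6] : Fin 8 → Fin 8)^[8] i = 3 := by decide +kernel
  have hk : ∀ i : Fin 8, Nat.beq (rtE8.coxIter 15 (rtE8.pf i)) (rtE8.nf (rtE8.pf i)) = true := by decide +kernel
  exact center_two (T := rtE8) rtE8_ok (coxE8_of rpE8 rpE8_cartan) (![2, 3, 3, 3, 3, 4, 5, 6] : Fin 8 → Fin 8) (3 : Fin 8) 8 hp hi 15 hk

/-- For the Coxeter groups of types B₂, G₂, D₄, F₄, E₇, E₈ the centre has order 2 (the element acting as −1 on the root system) and is generated by a power of the Coxeter element `s₁ s₂ ⋯ s_l`; the Coxeter group of type E₆ has trivial centre. -/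
theorem result (c : (Σ n : ℕ, CoxeterMatrix (Fin n)) × ℕ)
    (hc : c ∈ [(⟨2, CoxeterMatrix.B 2⟩, 2), (⟨2, CoxeterMatrix.G₂⟩, 2), (⟨4, Cfsg.Lie.coxeterD4⟩, 2), (⟨4, CoxeterMatrix.F₄⟩, 2),
      (⟨6, CoxeterMatrix.E₆⟩, 1), (⟨7, CoxeterMatrix.E₇⟩, 2), (⟨8, CoxeterMatrix.E₈⟩, 2)]) :
    Nat.card (Subgroup.center c.1.2.Group) = c.2 ∧
      Subgroup.center c.1.2.Group ≤ Subgroup.zpowers ((List.finRange c.1.1).map c.1.2.simple).prod := by
  simp only [List.mem_cons, List.not_mem_nil, or_false] at hc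
  rcases hc with rfl | rfl | rfl | rfl | rfl | rfl | rfl
  · exact cenB2
  · exact cenG2
  · exact cenD4
  · exact cenF4
  · exact cenE6
  · exact cenE7
  · exact cenE8

end Cfsg.Agent.S2418
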