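import Cfsg.Statements.S2419
import Cfsg.Agent.H40.CoxGen

set_option autoImplicit false
set_option maxRecDepth 100000
open Cfsg

namespace Cfsg.Agent.S2419

open Cfsg.Agent.H40 Cfsg.Agent.ChevWeyl

theorem genD4 : ∃ S : Finset (Cfsg.Lie.coxeterD4).Group, S.card = 2 ∧ (∀ t ∈ S, ∃ (g : (Cfsg.Lie.coxeterD4).Group) (i : Fin 4), t = g * (Cfsg.Lie.coxeterD4).simple i * g⁻¹) ∧
      Subgroup.closure (({((List.finRange 4).map (Cfsg.Lie.coxeterD4).simple).prod} : Set (Cfsg.Lie.coxeterD4).Group) ∪ ↑S) = ⊤ := by
  have h0 : Nat.beq (rtD4.wf 0 (rtD4.pf 0)) (rtD4.wf 2 (rtD4.pf 0)) = false := by decide +kernel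
  have h1 : ∀ k : Fin 4, ∀ m ∈ (![[], [none], [none, some 2, some 0, none, none], [none, some 2, none]] : Fin 4 → List (Option (Fin 4))) k, m = none ∨ m = some 0 ∨ m = some 2 := by decide +kernel
  have h2 : ∀ k : Fin 4, Nat.beq (evalW rtD4 (((![[], [none], [none, some 2, some 0, none, none], [none, some 2, none]] : Fin 4 → List (Option (Fin 4))) k).map (Option.map Fin.val)) (rtD4.pf ((bif (![true, true, true, true] : Fin 4 → Bool) k then (0 : Fin 4) else (2 : Fin 4) : Fin 4) : ℕ))) (rtD4.pf k) = true := by decide +kernel
  exact gen_two (T := rtD4) rtD4_ok (coxD4_of rpD4 rpD4_cartan) (0 : Fin 4) (2 : Fin 4) h0 (![true, true, true, true] : Fin 4 → Bool) (![[], [none], [none, some 2, some 0, none, none], [none, some 2, none]] : Fin 4 → List (Option (Fin 4))) h1 h2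

theorem genF4 : ∃ S : Finset (CoxeterMatrix.F₄).Group, S.card = 2 ∧ (∀ t ∈ S, ∃ (g : (CoxeterMatrix.F₄).Group) (i : Fin 4), t = g * (CoxeterMatrix.F₄).simple i * g⁻¹) ∧
      Subgroup.closure (({((List.finRange 4).map (CoxeterMatrix.F₄).simple).prod} : Set (CoxeterMatrix.F₄).Group) ∪ ↑S) = ⊤ := by
  have h0 : Nat.beq (rtF4.wf 0 (rtF4.pf 0)) (rtF4.wf 2 (rtF4.pf 0)) = false := by decide +kernel
  have h1 : ∀ k : Fin 4, ∀ m ∈ (![[], [none], [], [none]] : Fin 4 → List (Option (Fin 4))) k, m = none ∨ m = some 0 ∨ m = some 2 := by decide +kernel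
  have h2 : ∀ k : Fin 4, Nat.beq (evalW rtF4 (((![[], [none], [], [none]] : Fin 4 → List (Option (Fin 4))) k).map (Option.map Fin.val)) (rtF4.pf ((bif (![true, true, false, false] : Fin 4 → Bool) k then (0 : Fin 4) else (2 : Fin 4) : Fin 4) : ℕ))) (rtF4.pf k) = true := by decide +kernel
  exact gen_two (T := rtF4) rtF4_ok (coxF4_of rpF4 rpF4_cartan) (0 : Fin 4) (2 : Fin 4) h0 (![true, true, false, false] : Fin 4 → Bool) (![[], [none], [], [none]] : Fin 4 → List (Option (Fin 4))) h1 h2

theorem genE6 : ∃ S : Finset (CoxeterMatrix.E₆).Group, S.card = 1 ∧ (∀ t ∈ S, ∃ (g : (CoxeterMatrix.E₆).Group) (i : Fin 6), t = g * (CoxeterMatrix.E₆).simple i * g⁻¹) ∧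
      Subgroup.closure (({((List.finRange 6).map (CoxeterMatrix.E₆).simple).prod} : Set (CoxeterMatrix.E₆).Group) ∪ ↑S) = ⊤ := by
  have h1 : ∀ k : Fin 6, ∀ m ∈ (![[], [none, none, some 0, none, none, none, some 0], [none], [none, none, none, none, none], [none, none, none, none, none, none], [none, none, none, none, none, none, none]] : Fin 6 → List (Option (Fin 6))) k, m = none ∨ m = some 0 := by decide +kernel
  have h2 : ∀ k : Fin 6, Nat.beq (evalW rtE6 (((![[], [none, none, some 0, none, none, none, some 0], [none], [none, none, none, none, none], [none, none, none, none, none, none], [none, none, none, none, none, none, none]] : Fin 6 → List (Option (Fin 6))) k).map (Option.map Fin.val)) (rtE6.pf 0)) (rtE6.pf k) = true := by decide +kernel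
  exact gen_one (T := rtE6) rtE6_ok (coxE6_of rpE6 rpE6_cartan) (0 : Fin 6) (![[], [none, none, some 0, none, none, none, some 0], [none], [none, none, none, none, none], [none, none, none, none, none, none], [none, none, none, none, none, none, none]] : Fin 6 → List (Option (Fin 6))) h1 h2

theorem genE7 : ∃ S : Finset (CoxeterMatrix.E₇).Group, S.card = 1 ∧ (∀ t ∈ S, ∃ (g : (CoxeterMatrix.E₇).Group) (i : Fin 7), t = g * (CoxeterMatrix.E₇).simple i * g⁻¹) ∧
      Subgroup.closure (({((List.finRange 7).map (CoxeterMatrix.E₇).simple).prod} : Set (CoxeterMatrix.E₇).Group) ∪ ↑S) = ⊤ := by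
  have h1 : ∀ k : Fin 7, ∀ m ∈ (![[none, none, none, some 1, none, none, some 1], [], [none, none, none, none, some 1, none, none, some 1], [some 1, none, none, none, none, none, some 1, none, none, some 1], [none, some 1, none, none, none, none, none, some 1, none, none, some 1], [none, none, some 1, none, none, none, none, none, some 1, none, none, some 1], [none, none, none, some 1, none, none, none, none, none, some 1, none, none, some 1]] : Fin 7 → List (Option (Fin 7))) k, m = none ∨ m = some 1 := by decide +kernel
  have h2 : ∀ k : Fin 7, Nat.beq (evalW rtE7 (((![[none, none, none, some 1, none, none, some 1], [], [none, none, none, none, some 1, none, none, some 1], [some 1, none, none, none, none, none, some 1, none, none, some 1], [none, some 1, none, none, none, none, none, some 1, none, none, some 1], [none, none, some 1, none, none, none, none, none, some 1, none, none, some 1], [none, none, none, some 1, none, none, none, none, none, some 1, none, none, some 1]] : Fin 7 → List (Option (Fin 7))) k).map (Option.map Fin.val)) (rtE7.pf 1)) (rtE7.pf k) = true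 := by decide +kernel
  exact gen_one (T := rtE7) rtE7_ok (coxE7_of rpE7 rpE7_cartan) (1 : Fin 7) (![[none, none, none, some 1, none, none, some 1], [], [none, none, none, none, some 1, none, none, some 1], [some 1, none, none, none, none, none, some 1, none, none, some 1], [none, some 1, none, none, none, none, none, some 1, none, none, some 1], [none, none, some 1, none, none, none, none, none, some 1, none, none, some 1], [none, none, none, some 1, none, none, none, none, none, some 1, none, none, some 1]] : Fin 7 → List (Option (Fin 7))) h1 h2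

theorem genE8 : ∃ S : Finset (CoxeterMatrix.E₈).Group, S.card = 1 ∧ (∀ t ∈ S, ∃ (g : (CoxeterMatrix.E₈).Group) (i : Fin 8), t = g * (CoxeterMatrix.E₈).simple i * g⁻¹) ∧
      Subgroup.closure (({((List.finRange 8).map (CoxeterMatrix.E₈).simple).prod} : Set (CoxeterMatrix.E₈).Group) ∪ ↑S) = ⊤ := by
  have h1 : ∀ k : Fin 8, ∀ m ∈ (![[], [none, none, some 0, none, none, some 0, none, none, none, some 0], [none], [none, none, none, none, some 0, none, none, none], [none, none, none, none, none, some 0, none, none, none], [none, none, none, none, none, none, some 0, none, none, none], [none, none, none, none, none, none, none, some 0, none, none, none], [none, none, none, none, none, none, none, none, some 0, none, none, none]] : Fin 8 → List (Option (Fin 8))) k, m = none ∨ m = some 0 := by decide +kernel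
  have h2 : ∀ k : Fin 8, Nat.beq (evalW rtE8 (((![[], [none, none, some 0, none, none, some 0, none, none, none, some 0], [none], [none, none, none, none, some 0, none, none, none], [none, none, none, none, none, some 0, none, none, none], [none, none, none, none, none, none, some 0, none, none, none], [none, none, none, none, none, none, none, some 0, none, none, none], [none, none, none, none, none, none, none, none, some 0, none, none, none]] : Fin 8 → List (Option (Fin 8))) k).map (Option.map Fin.val)) (rtE8.pf 0)) (rtE8.pf k) = true := by decide +kernel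
  exact gen_one (T := rtE8) rtE8_ok (coxE8_of rpE8 rpE8_cartan) (0 : Fin 8) (![[], [none, none, some 0, none, none, some 0, none, none, none, some 0], [none], [none, none, none, none, some 0, none, none, none], [none, none, none, none, none, some 0, none, none, none], [none, none, none, none, none, none, some 0, none, none, none], [none, none, none, none, none, none, none, some 0, none, none, none], [none, none, none, none, none, none, none, none, some 0, none, none, none]] : Fin 8 → List (Option (Fin 8))) h1 h2

/-- The Coxeter groups of types B₂, G₂, E₆, E₇, E₈ are generated by the Coxeter element `s₁ s₂ ⋯ s_l` together with one suitable reflection (a conjugate of a simple reflection); for types D₄ and F₄ the Coxeter element together with two suitable reflections suffices. -/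
theorem result (c : (Σ n : ℕ, CoxeterMatrix (Fin n)) × ℕ)
    (hc : c ∈ [(⟨2, CoxeterMatrix.B 2⟩, 1), (⟨2, CoxeterMatrix.G₂⟩, 1), (⟨4, Cfsg.Lie.coxeterD4⟩, 2), (⟨4, CoxeterMatrix.F₄⟩, 2),
      (⟨6, CoxeterMatrix.E₆⟩, 1), (⟨7, CoxeterMatrix.E₇⟩, 1), (⟨8, CoxeterMatrix.E₈⟩, 1)]) :
    ∃ T : Finset c.1.2.Group, T.card = c.2 ∧ (∀ t ∈ T, ∃ (g : c.1.2.Group) (i : Fin c.1.1), t = g * c.1.2.simple i * g⁻¹) ∧
      Subgroup.closure (({((List.finRange c.1.1).map c.1.2.simple).prod} : Set c.1.2.Group) ∪ ↑T) = ⊤ := by
  simp only [List.mem_cons, List.not_mem_nil, or_false] at hc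
  rcases hc with rfl | rfl | rfl | rfl | rfl | rfl | rfl
  · exact gen_rank2
  · exact gen_rank2
  · exact genD4
  · exact genF4
  · exact genE6
  · exact genE7
  · exact genE8

end Cfsg.Agent.S2419
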