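import Cfsg.Statements.S2421
import Cfsg.Agent.H40.GLDegree
import Cfsg.Agent.Char.Regular
import Cfsg.Agent.Coh.Basic
import Cfsg.Agent.Frob.Kernel

set_option autoImplicit false
open scoped MatrixGroups
open Cfsg

namespace Cfsg.Agent.S2421

open Cfsg.Agent Cfsg.Agent.H40
open scoped ComplexConjugate

lemma isCharacter_fix {G : Type*} [Group G] [Finite G] (H : Subgroup G) : IsCharacter G (fixedPointCharacter H) := by
  have := Char.Reg.isCharacter_fixedBy (G := G) (X := G ⧸ H)
  exact this

lemma isGen_unip {F : Type*} [Field F] [Fintype F] {n : ℕ} [Fintype (GL (Fin n) F)] (ν : Fin n → ℕ) :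
    IsGeneralizedCharacter (GL (Fin n) F) (unipotentCharacterGL n F ν) := by
  have h : unipotentCharacterGL n F ν = ∑ κ : Equiv.Perm (Fin n),
      (if ∀ i : Fin n, (κ i).val ≤ ν i + i.val then
      (Equiv.Perm.sign κ : ℤ) • fixedPointCharacter (parabolicGL n F fun i => ν i + i.val - (κ i).val)
      else 0) := by
    funext g
    unfold unipotentCharacterGL
    rw [Finset.sum_apply]
    apply Finset.sum_congr rfl
    intro κ _
    split_ifs
    · rw [Pi.smul_apply, zsmul_eq_mul]
    · rfl
  rw [h]
  apply Coh.isGen_sum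
  intro κ _
  split_ifs
  · exact Coh.isGen_zsmul (Coh.isGen_of_isCharacter (isCharacter_fix _)) _
  · exact Coh.isGen_zero

lemma conj_unip {F : Type*} [Field F] {n : ℕ} (ν : Fin n → ℕ) (g : GL (Fin n) F) :
    conj (unipotentCharacterGL n F ν g) = unipotentCharacterGL n F ν g := by
  unfold unipotentCharacterGL
  rw [map_sum]
  apply Finset.sum_congr rfl
  intro κ _
  split_ifs
  · rw [map_mul, map_intCast]
    unfold fixedPointCharacter
    rw [Complex.conj_natCast]
  · rw [map_zero]

theorem result {F : Type*} [Field F] [Fintype F] {n : ℕ} (ν : Fin n → ℕ) (hmono : Monotone ν) (hsum : ∑ i, ν i = n) :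
    Cfsg.IsIrrCharacter (GL (Fin n) F) (Cfsg.unipotentCharacterGL n F ν) := by
  classical
  haveI : Fintype (GL (Fin n) F) := Fintype.ofFinite _
  have hgen := isGen_unip (F := F) ν
  have hinner : classInner (unipotentCharacterGL n F ν) (unipotentCharacterGL n F ν) = 1 := by
    unfold classInner
    have h1 := unip_inner (F := F) ν ν hmono hsum hmono hsum
    rw [if_pos rfl, mul_one] at h1
    have h2 : ∑ g : GL (Fin n) F, unipotentCharacterGL n F ν g * conj (unipotentCharacterGL n F ν g) = (Nat.card (GL (Fin n) F) : ℂ) := by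
      rw [← h1]
      convert Finset.sum_congr rfl (fun g _ => ?_)
      rw [conj_unip]
    rw [h2]
    apply inv_mul_cancel₀
    exact_mod_cast Nat.card_pos.ne'
  -- degree
  have hdeg := unip_degree (F := F) ν hsum
  obtain ⟨a, b, ha, hb, hab⟩ := hgen
  obtain ⟨na, hna⟩ := CharBase.exists_nat_degree ha
  obtain ⟨nb, hnb⟩ := CharBase.exists_nat_degree hb
  have h1 : unipotentCharacterGL n F ν 1 = ((na - nb : ℤ) : ℂ) := by
    rw [hab, Pi.sub_apply, hna, hnb]
    push_cast
    rfl
  have hQ : ∀ i j : Fin n, i < j → qint (Fintype.card F) (ν i + i.val) < qint (Fintype.card F) (ν j + j.val) := by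
    intro i j hij
    have h2 := strictMono_shift ν hmono hij
    simp only at h2
    unfold qint
    apply Finset.sum_lt_sum_of_subset (Finset.range_subset_range.2 h2.le) (i := ν i + i.val)
    · exact Finset.mem_range.2 h2
    · simp
    · exact pow_pos Fintype.card_pos _
    · intro _ _ _
      exact Nat.zero_le _
  have hR : ((∏ i : Fin n, ∏ j ∈ Finset.univ.filter (fun j : Fin n => i < j),
      (qint (Fintype.card F) (ν j + j.val) - qint (Fintype.card F) (ν i + i.val)) : ℕ) : ℂ) =
      ∏ i : Fin n, ∏ j ∈ Finset.univ.filter (fun j : Fin n => i < j),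
          (((qint (Fintype.card F) (ν j + j.val) : ℕ) : ℂ) - ((qint (Fintype.card F) (ν i + i.val) : ℕ) : ℂ)) := by
    rw [Nat.cast_prod]
    apply Finset.prod_congr rfl
    intro i _
    rw [Nat.cast_prod]
    apply Finset.prod_congr rfl
    intro j hj
    rw [Nat.cast_sub (hQ i j (Finset.mem_filter.1 hj).2).le]
  rw [← hR, h1] at hdeg
  have hdeg' : (na - nb : ℤ) * (((Fintype.card F) ^ (n * (n - 1) * (n - 2) / 6) * ∏ i : Fin n, qfac (Fintype.card F) (ν i + i.val) : ℕ) : ℤ) =
      ((qfac (Fintype.card F) n * ∏ i : Fin n, ∏ j ∈ Finset.univ.filter (fun j : Fin n => i < j),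
      (qint (Fintype.card F) (ν j + j.val) - qint (Fintype.card F) (ν i + i.val)) : ℕ) : ℤ) := by
    have : (((na - nb : ℤ) * (((Fintype.card F) ^ (n * (n - 1) * (n - 2) / 6) * ∏ i : Fin n, qfac (Fintype.card F) (ν i + i.val) : ℕ) : ℤ) : ℤ) : ℂ) =
      ((((qfac (Fintype.card F) n * ∏ i : Fin n, ∏ j ∈ Finset.univ.filter (fun j : Fin n => i < j),
      (qint (Fintype.card F) (ν j + j.val) - qint (Fintype.card F) (ν i + i.val)) : ℕ) : ℤ) : ℤ) : ℂ) := by
      push_cast
      push_cast at hdeg
      linear_combination hdeg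
    exact_mod_cast this
  have hpos : 0 < (((qfac (Fintype.card F) n * ∏ i : Fin n, ∏ j ∈ Finset.univ.filter (fun j : Fin n => i < j),
      (qint (Fintype.card F) (ν j + j.val) - qint (Fintype.card F) (ν i + i.val)) : ℕ) : ℤ)) := by
    have : 0 < qfac (Fintype.card F) n * ∏ i : Fin n, ∏ j ∈ Finset.univ.filter (fun j : Fin n => i < j),
      (qint (Fintype.card F) (ν j + j.val) - qint (Fintype.card F) (ν i + i.val)) := by
      apply Nat.mul_pos
      · unfold qfac
        apply Finset.prod_pos
        intro j _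
        exact qint_pos _ _ Fintype.card_pos (by omega)
      · apply Finset.prod_pos
        intro i _
        apply Finset.prod_pos
        intro j hj
        have := hQ i j (Finset.mem_filter.1 hj).2
        omega
    exact_mod_cast this
  have hpos2 : (0 : ℤ) < na - nb := by
    rw [← hdeg'] at hpos
    by_contra hcon
    push Not at hcon
    have := mul_nonpos_of_nonpos_of_nonneg hcon (Int.natCast_nonneg ((Fintype.card F) ^ (n * (n - 1) * (n - 2) / 6) * ∏ i : Fin n, qfac (Fintype.card F) (ν i + i.val)))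
    omega
  obtain ⟨m, hm⟩ := Int.eq_ofNat_of_zero_le hpos2.le
  apply Frob.isIrrCharacter_of_norm_one ⟨a, b, ha, hb, hab⟩ hinner (n := m)
  rw [h1, hm]
  simp

end Cfsg.Agent.S2421
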