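import Cfsg.Statements.S2426
import Cfsg.Agent.Stb.RankOne
import Cfsg.Agent.H40.SLGen

set_option autoImplicit false
open Cfsg

namespace Cfsg.Agent.S2426

/-- The rank-one Steinberg presentation of `SL₂` over a finite field `K`: generators `x(t)`, `y(t)` (`t ∈ K`; the two opposite root subgroups) subject to additivity `x(t)x(u) = x(t+u)`, `y(t)y(u) = y(t+u)` and, with `w(t) = x(t) y(−t⁻¹) x(t)` and `w'(t) = y(t) x(−t⁻¹) y(t)` for `t ≠ 0`, the relations `w(t) x(u) w(t)⁻¹ = y(−t⁻² u)` and `w'(t) y(u) w'(t)⁻¹ = x(−t⁻² u)`, present `SL₂(K)`, with `x(t) ↦ (1 t; 0 1)` and `y(t) ↦ (1 0; t 1)`. -/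
theorem result {K : Type*} [Field K] [Finite K] :
    ∃ e : PresentedGroup
        ({g : FreeGroup (Bool × K) | ∃ (b : Bool) (t u : K), g = FreeGroup.of (b, t) * FreeGroup.of (b, u) * (FreeGroup.of (b, t + u))⁻¹} ∪
          {g | ∃ (b : Bool) (t u : K), t ≠ 0 ∧
            g = (FreeGroup.of (b, t) * FreeGroup.of (!b, -t⁻¹) * FreeGroup.of (b, t)) * FreeGroup.of (b, u) *
                  (FreeGroup.of (b, t) * FreeGroup.of (!b, -t⁻¹) * FreeGroup.of (b, t))⁻¹ * (FreeGroup.of (!b, -(t⁻¹ ^ 2 * u)))⁻¹})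
        ≃* Matrix.SpecialLinearGroup (Fin 2) K,
      (∀ t : K, ((e (PresentedGroup.of (true, t)) : Matrix (Fin 2) (Fin 2) K)) = !![1, t; 0, 1]) ∧
      (∀ t : K, ((e (PresentedGroup.of (false, t)) : Matrix (Fin 2) (Fin 2) K)) = !![1, 0; t, 1]) := by
  classical
  set rels : Set (FreeGroup (Bool × K)) :=
    ({g : FreeGroup (Bool × K) | ∃ (b : Bool) (t u : K), g = FreeGroup.of (b, t) * FreeGroup.of (b, u) * (FreeGroup.of (b, t + u))⁻¹} ∪
          {g | ∃ (b : Bool) (t u : K), t ≠ 0 ∧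
            g = (FreeGroup.of (b, t) * FreeGroup.of (!b, -t⁻¹) * FreeGroup.of (b, t)) * FreeGroup.of (b, u) *
                  (FreeGroup.of (b, t) * FreeGroup.of (!b, -t⁻¹) * FreeGroup.of (b, t))⁻¹ * (FreeGroup.of (!b, -(t⁻¹ ^ 2 * u)))⁻¹}) with hrels
  let f : Bool × K → Matrix.SpecialLinearGroup (Fin 2) K := fun a =>
    bif a.1 then ⟨!![1, a.2; 0, 1], by simp [Matrix.det_fin_two]⟩ else ⟨!![1, 0; a.2, 1], by simp [Matrix.det_fin_two]⟩
  have ft : ∀ t : K, f (true, t) = ⟨!![1, t; 0, 1], by simp [Matrix.det_fin_two]⟩ := fun _ => rfl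
  have ff : ∀ t : K, f (false, t) = ⟨!![1, 0; t, 1], by simp [Matrix.det_fin_two]⟩ := fun _ => rfl
  have hadd : ∀ (b : Bool) (t u : K), f (b, t) * f (b, u) = f (b, t + u) := by
    intro b t u
    apply Subtype.ext
    cases b
    · rw [ff, ff, ff]
      show !![1, 0; t, 1] * !![1, 0; u, 1] = !![1, 0; t + u, 1]
      ext i j; fin_cases i <;> fin_cases j <;> simp [Matrix.mul_apply, Fin.sum_univ_two]
    · rw [ft, ft, ft]
      show !![1, t; 0, 1] * !![1, u; 0, 1] = !![1, t + u; 0, 1]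
      ext i j; fin_cases i <;> fin_cases j <;> simp [Matrix.mul_apply, Fin.sum_univ_two, add_comm]
  have hw : ∀ (b : Bool) (t u : K), t ≠ 0 → (f (b, t) * f (!b, -t⁻¹) * f (b, t)) * f (b, u) =
      f (!b, -(t⁻¹ ^ 2 * u)) * (f (b, t) * f (!b, -t⁻¹) * f (b, t)) := by
    intro b t u ht
    apply Subtype.ext
    cases b
    · show (!![1, 0; t, 1] * !![1, -t⁻¹; 0, 1] * !![1, 0; t, 1]) * !![1, 0; u, 1] =
        !![1, -(t⁻¹ ^ 2 * u); 0, 1] * (!![1, 0; t, 1] * !![1, -t⁻¹; 0, 1] * !![1, 0; t, 1])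
      have e : !![1, 0; t, 1] * !![1, -t⁻¹; 0, 1] * !![1, 0; t, 1] = !![0, -t⁻¹; t, 0] := by
        ext i j; fin_cases i <;> fin_cases j <;> simp [Matrix.mul_apply, Fin.sum_univ_two, ht]
      rw [e]
      ext i j; fin_cases i <;> fin_cases j <;> simp [Matrix.mul_apply, Fin.sum_univ_two, ht]
      field_simp
    · show (!![1, t; 0, 1] * !![1, 0; -t⁻¹, 1] * !![1, t; 0, 1]) * !![1, u; 0, 1] =
        !![1, 0; -(t⁻¹ ^ 2 * u), 1] * (!![1, t; 0, 1] * !![1, 0; -t⁻¹, 1] * !![1, t; 0, 1])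
      have e : !![1, t; 0, 1] * !![1, 0; -t⁻¹, 1] * !![1, t; 0, 1] = !![0, t; -t⁻¹, 0] := by
        ext i j; fin_cases i <;> fin_cases j <;> simp [Matrix.mul_apply, Fin.sum_univ_two, ht]
      rw [e]
      ext i j; fin_cases i <;> fin_cases j <;> simp [Matrix.mul_apply, Fin.sum_univ_two, ht]
      field_simp
  have hR : ∀ r ∈ rels, FreeGroup.lift f r = 1 := by
    rintro r (⟨b, t, u, rfl⟩ | ⟨b, t, u, ht, rfl⟩)
    · simp only [map_mul, map_inv, FreeGroup.lift_apply_of]
      rw [hadd, mul_inv_cancel]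
    · simp only [map_mul, map_inv, FreeGroup.lift_apply_of]
      rw [hw b t u ht]; group
  let σ : PresentedGroup rels →* Matrix.SpecialLinearGroup (Fin 2) K := PresentedGroup.toGroup hR
  have hσ : ∀ a t, σ (PresentedGroup.of (a, t)) = f (a, t) := fun a t => PresentedGroup.toGroup.of hR
  let Z : Bool → K → PresentedGroup rels := fun b t => PresentedGroup.of (b, t)
  have hmk : ∀ {r}, r ∈ rels → PresentedGroup.mk rels r = 1 := fun h => PresentedGroup.one_of_mem h
  have hof : ∀ z, (PresentedGroup.of z : PresentedGroup rels) = PresentedGroup.mk rels (FreeGroup.of z) := fun z => rfl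
  have Zadd : ∀ b t u, Z b (t + u) = Z b t * Z b u := by
    intro b t u
    have h1 : FreeGroup.of (b, t) * FreeGroup.of (b, u) * (FreeGroup.of (b, t + u))⁻¹ ∈ rels := Or.inl ⟨b, t, u, rfl⟩
    have h2 := hmk h1
    simp only [map_mul, map_inv, ← hof] at h2
    exact (mul_inv_eq_one.1 h2).symm
  have Zw : ∀ b t u, t ≠ 0 → (Z b t * Z (!b) (-t⁻¹) * Z b t) * Z b u = Z (!b) (-(t⁻¹ ^ 2 * u)) * (Z b t * Z (!b) (-t⁻¹) * Z b t) := by
    intro b t u ht
    have h1 : (FreeGroup.of (b, t) * FreeGroup.of (!b, -t⁻¹) * FreeGroup.of (b, t)) * FreeGroup.of (b, u) *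
                  (FreeGroup.of (b, t) * FreeGroup.of (!b, -t⁻¹) * FreeGroup.of (b, t))⁻¹ *
                  (FreeGroup.of (!b, -(t⁻¹ ^ 2 * u)))⁻¹ ∈ rels := Or.inr ⟨b, t, u, ht, rfl⟩
    have h2 := hmk h1
    simp only [map_mul, map_inv, ← hof] at h2
    have h3 := mul_inv_eq_one.1 h2
    exact mul_inv_eq_iff_eq_mul.1 h3
  have R : Cfsg.Agent.Mult.R1 (Z true) (Z false) := by
    constructor
    · exact Zadd true
    · exact Zadd false
    · intro t v ht
      exact Zw true t v ht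
    · intro t v ht
      have e1 : t⁻¹ ^ 2 * t = t⁻¹ := by field_simp
      have h1 := Zw true t t ht
      rw [e1] at h1
      simp only [Bool.not_true] at h1
      have h2 : Z true t * Z false (-t⁻¹) * Z true t = Z false (-t⁻¹) * Z true t * Z false (-t⁻¹) := by
        apply mul_right_cancel (b := Z true t)
        rw [h1]; group
      have ht' : -t⁻¹ ≠ 0 := neg_ne_zero.2 (inv_ne_zero ht)
      have h3 := Zw false (-t⁻¹) v ht'
      simp only [Bool.not_false] at h3
      have e2 : -(-t⁻¹)⁻¹ = t := by rw [inv_neg, neg_neg, inv_inv]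
      have e3 : (-t⁻¹)⁻¹ ^ 2 * v = t ^ 2 * v := by rw [inv_neg, inv_inv]; ring
      rw [e2, e3, ← h2] at h3
      exact h3
  have hS : R.S = ⊤ := by
    rw [eq_top_iff, ← PresentedGroup.closure_range_of]
    apply (Subgroup.closure_le _).2
    rintro _ ⟨⟨b, t⟩, rfl⟩
    cases b
    · exact R.Y_mem t
    · exact R.X_mem t
  have hinj : Function.Injective σ := by
    rw [injective_iff_map_eq_one]
    intro g hg
    have hact : ∀ (g : PresentedGroup rels) (v : Fin 2 → K),
        (((Matrix.SpecialLinearGroup.toLin' : Matrix.SpecialLinearGroup (Fin 2) K →* ((Fin 2 → K) ≃ₗ[K] (Fin 2 → K))).comp σ) g) v =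
          ((σ g : Matrix.SpecialLinearGroup (Fin 2) K) : Matrix (Fin 2) (Fin 2) K).mulVec v := fun g v => rfl
    refine R.inj1 ((Matrix.SpecialLinearGroup.toLin' : Matrix.SpecialLinearGroup (Fin 2) K →* ((Fin 2 → K) ≃ₗ[K] (Fin 2 → K))).comp σ)
      (e1 := ![1, 0]) (e2 := ![0, 1]) ?_ ?_ ?_ ?_ ?_ (g := g) (by rw [hS]; trivial) ?_ ?_
    · intro a b h
      have h0 := congrFun h 0
      have h1 := congrFun h 1
      simp at h0 h1
      exact ⟨h0, h1⟩
    · intro a
      rw [hact, show σ (Z true a) = f (true, a) from hσ _ _]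
      show !![1, a; 0, 1].mulVec ![1, 0] = _
      ext i; fin_cases i <;> simp [Matrix.mulVec, dotProduct, Fin.sum_univ_two]
    · intro a
      rw [hact, show σ (Z true a) = f (true, a) from hσ _ _]
      show !![1, a; 0, 1].mulVec ![0, 1] = _
      ext i; fin_cases i <;> simp [Matrix.mulVec, dotProduct, Fin.sum_univ_two]
    · intro a
      rw [hact, show σ (Z false a) = f (false, a) from hσ _ _]
      show !![1, 0; a, 1].mulVec ![1, 0] = _
      ext i; fin_cases i <;> simp [Matrix.mulVec, dotProduct, Fin.sum_univ_two]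
    · intro a
      rw [hact, show σ (Z false a) = f (false, a) from hσ _ _]
      show !![1, 0; a, 1].mulVec ![0, 1] = _
      ext i; fin_cases i <;> simp [Matrix.mulVec, dotProduct, Fin.sum_univ_two]
    · rw [hact, hg, Matrix.SpecialLinearGroup.coe_one, Matrix.one_mulVec]
    · exact ⟨1, by rw [hact, hg, Matrix.SpecialLinearGroup.coe_one, Matrix.one_mulVec, one_smul]⟩
  have hsurj : Function.Surjective σ := by
    rw [← MonoidHom.range_eq_top]
    apply Cfsg.Agent.H40.sl_eq_top_of_transvections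
    intro i j hij c
    fin_cases i <;> fin_cases j
    · exact absurd rfl hij
    · refine ⟨Z true c, ?_⟩
      rw [show σ (Z true c) = f (true, c) from hσ _ _]
      apply Subtype.ext
      show !![1, c; 0, 1] = (1 : Matrix (Fin 2) (Fin 2) K) + Matrix.single 0 1 c
      ext i j; fin_cases i <;> fin_cases j <;> simp [Matrix.single_apply]
    · refine ⟨Z false c, ?_⟩
      rw [show σ (Z false c) = f (false, c) from hσ _ _]
      apply Subtype.ext
      show !![1, 0; c, 1] = (1 : Matrix (Fin 2) (Fin 2) K) + Matrix.single 1 0 c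
      ext i j; fin_cases i <;> fin_cases j <;> simp [Matrix.single_apply]
    · exact absurd rfl hij
  refine ⟨MulEquiv.ofBijective σ ⟨hinj, hsurj⟩, ?_, ?_⟩
  · intro t
    show ((σ (PresentedGroup.of (true, t)) : Matrix.SpecialLinearGroup (Fin 2) K) : Matrix (Fin 2) (Fin 2) K) = _
    rw [hσ]; rfl
  · intro t
    show ((σ (PresentedGroup.of (false, t)) : Matrix.SpecialLinearGroup (Fin 2) K) : Matrix (Fin 2) (Fin 2) K) = _
    rw [hσ]; rfl

end Cfsg.Agent.S2426
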