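import Cfsg.Statements.S2427
import Cfsg.Agent.H41.SL2Fin

set_option autoImplicit false
open Cfsg

namespace Cfsg.Agent.S2427

open Cfsg.Agent.H41

abbrev G3 := Matrix.SpecialLinearGroup (Fin 2) (ZMod 3)

/-- The normal subgroup of order eight. -/
def Q : Subgroup G3 where
  carrier := {A | A 0 0 + A 1 1 = 0 ∨ A = 1 ∨ A = -1}
  mul_mem' := by
    intro A B
    have : ∀ A B : G3, (A 0 0 + A 1 1 = 0 ∨ A = 1 ∨ A = -1) → (B 0 0 + B 1 1 = 0 ∨ B = 1 ∨ B = -1) →
      ((A * B) 0 0 + (A * B) 1 1 = 0 ∨ A * B = 1 ∨ A * B = -1) := by decide +kernel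
    exact this A B
  one_mem' := Or.inr (Or.inl rfl)
  inv_mem' := by
    intro A
    have : ∀ A : G3, (A 0 0 + A 1 1 = 0 ∨ A = 1 ∨ A = -1) →
      (A⁻¹ 0 0 + A⁻¹ 1 1 = 0 ∨ A⁻¹ = 1 ∨ A⁻¹ = -1) := by decide +kernel
    exact this A

theorem mem_Q {A : G3} : A ∈ Q ↔ (A 0 0 + A 1 1 = 0 ∨ A = 1 ∨ A = -1) := Iff.rfl

instance decQ : DecidablePred (fun A => A ∈ Q) := fun A => decidable_of_iff _ (mem_Q (A := A)).symm

theorem card_G3 : Nat.card G3 = 24 := by
  rw [Nat.card_eq_fintype_card]; decide +kernel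

theorem card_Q : Nat.card Q = 8 := by
  have e : Nat.card Q = Fintype.card {A : G3 // A 0 0 + A 1 1 = 0 ∨ A = 1 ∨ A = -1} := by
    rw [← Nat.card_eq_fintype_card]; rfl
  rw [e]; decide +kernel

instance Q_normal : Q.Normal := by
  constructor
  intro n hn g
  have : ∀ n g : G3, (n 0 0 + n 1 1 = 0 ∨ n = 1 ∨ n = -1) →
    ((g * n * g⁻¹) 0 0 + (g * n * g⁻¹) 1 1 = 0 ∨ g * n * g⁻¹ = 1 ∨ g * n * g⁻¹ = -1) := by decide +kernel
  exact this n g hn

theorem Q_le_commutator : Q ≤ commutator G3 := by
  intro n hn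
  have h : ∀ n : G3, (n 0 0 + n 1 1 = 0 ∨ n = 1 ∨ n = -1) → ∃ a b : G3, n = a * b * a⁻¹ * b⁻¹ := by decide +kernel
  obtain ⟨a, b, rfl⟩ := h n hn
  exact Subgroup.commutator_mem_commutator (Subgroup.mem_top a) (Subgroup.mem_top b)

theorem commutator_le_Q : commutator G3 ≤ Q := by
  rw [commutator_def, Subgroup.commutator_le]
  intro a _ b _
  have h : ∀ a b : G3, ((a * b * a⁻¹ * b⁻¹) 0 0 + (a * b * a⁻¹ * b⁻¹) 1 1 = 0 ∨ a * b * a⁻¹ * b⁻¹ = 1 ∨ a * b * a⁻¹ * b⁻¹ = -1) := by
    decide +kernel
  exact h a b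

theorem commutator_eq : commutator G3 = Q := le_antisymm commutator_le_Q Q_le_commutator

def I3 : G3 := mk4 0 (-1) 1 0 (by decide)
def J3 : G3 := mk4 1 1 1 (-1) (by decide)

/-- The embedding of the quaternion group. -/
def qf : QuaternionGroup 2 → G3
  | .a i => I3 ^ (ZMod.val i)
  | .xa i => J3 * I3 ^ (ZMod.val i)

theorem qf_mul : ∀ x y : QuaternionGroup 2, qf (x * y) = qf x * qf y := by decide +kernel

theorem qf_inj : ∀ x y : QuaternionGroup 2, qf x = qf y → x = y := by decide +kernel

theorem qf_mem : ∀ x : QuaternionGroup 2, ((qf x) 0 0 + (qf x) 1 1 = 0 ∨ qf x = 1 ∨ qf x = -1) := by decide +kernel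

def qhom : QuaternionGroup 2 →* Q where
  toFun x := ⟨qf x, qf_mem x⟩
  map_one' := by
    apply Subtype.ext
    change qf 1 = 1
    decide +kernel
  map_mul' x y := Subtype.ext (qf_mul x y)

theorem nonempty_iso : Nonempty (Q ≃* QuaternionGroup 2) := by
  haveI : Finite Q := inferInstance
  have hb : Function.Bijective qhom := by
    rw [Nat.bijective_iff_injective_and_card]
    refine ⟨fun x y h => qf_inj x y (congrArg Subtype.val h), ?_⟩
    rw [card_Q, Nat.card_eq_fintype_card, QuaternionGroup.card]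
  exact ⟨(MulEquiv.ofBijective qhom hb).symm⟩

theorem exists_comm_tr : ∀ x : G3, x ≠ 1 ∧ x ≠ -1 → x 0 0 + x 1 1 = 0 ∨
    ∃ y : G3, (x * (y * x⁻¹ * y⁻¹)) 0 0 + (x * (y * x⁻¹ * y⁻¹)) 1 1 = 0 := by decide +kernel

theorem conj_tr_zero : ∀ y z : G3, y 0 0 + y 1 1 = 0 → z 0 0 + z 1 1 = 0 → ∃ g : G3, z = g * y * g⁻¹ := by
  decide +kernel

theorem I3_sq : I3 * I3 = -1 := by decide +kernel

theorem I3_tr : I3 0 0 + I3 1 1 = 0 := by decide +kernel

/-- The group SL₂ over the field with 3 elements has order 24 and centre of order 2; its commutator subgroup has order 8, is isomorphic to the quaternion group of order 8 and is complemented by every Sylow 3-subgroup (so the group is a semidirect product of a quaternion group of order 8 by a cyclic group of order 3); and its only normal subgroups besides the trivial subgroup and the whole group are the centre and the commutator subgroup. -/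
theorem result :
    Nat.card (Matrix.SpecialLinearGroup (Fin 2) (ZMod 3)) = 24 ∧
    Nat.card (Subgroup.center (Matrix.SpecialLinearGroup (Fin 2) (ZMod 3))) = 2 ∧
    Nat.card (commutator (Matrix.SpecialLinearGroup (Fin 2) (ZMod 3))) = 8 ∧
    Nonempty (commutator (Matrix.SpecialLinearGroup (Fin 2) (ZMod 3)) ≃* QuaternionGroup 2) ∧
    (∀ P : Sylow 3 (Matrix.SpecialLinearGroup (Fin 2) (ZMod 3)),
      Subgroup.IsComplement' (commutator (Matrix.SpecialLinearGroup (Fin 2) (ZMod 3)))
        (P : Subgroup (Matrix.SpecialLinearGroup (Fin 2) (ZMod 3)))) ∧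
    ∀ N : Subgroup (Matrix.SpecialLinearGroup (Fin 2) (ZMod 3)), N.Normal →
      N = ⊥ ∨ N = ⊤ ∨ N = Subgroup.center (Matrix.SpecialLinearGroup (Fin 2) (ZMod 3)) ∨
        N = commutator (Matrix.SpecialLinearGroup (Fin 2) (ZMod 3)) := by
  haveI : Fact (Nat.Prime 3) := ⟨Nat.prime_three⟩
  have hcent : ∀ A : G3, A ∈ Subgroup.center G3 ↔ A = 1 ∨ A = -1 := fun A => mem_center_sl2
  rw [commutator_eq]
  refine ⟨card_G3, ?_, card_Q, nonempty_iso, ?_, ?_⟩
  · have e : Nat.card (Subgroup.center G3) = Fintype.card {A : G3 // A = 1 ∨ A = -1} := by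
      rw [← Nat.card_eq_fintype_card]
      exact Nat.card_congr (Equiv.subtypeEquivRight hcent)
    rw [e]; decide +kernel
  · intro P
    have hP : Nat.card P = 3 := by
      have h1 := P.card_eq_multiplicity
      rw [h1, card_G3]
      have : (24 : ℕ).factorization 3 = 1 := by
        rw [show (24 : ℕ) = 8 * 3 by norm_num, Nat.factorization_mul (by norm_num) (by norm_num)]
        rw [Finsupp.add_apply, Nat.prime_three.factorization_self]
        rw [Nat.factorization_eq_zero_of_not_dvd (by norm_num)]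
      rw [this]; norm_num
    apply Subgroup.isComplement'_of_coprime
    · rw [card_Q, hP, card_G3]
    · rw [card_Q, hP]; norm_num
  · intro N hN
    by_cases h1 : N ≤ Subgroup.center G3
    · by_cases h2 : (-1 : G3) ∈ N
      · right; right; left
        apply le_antisymm h1
        intro A hA
        rcases (hcent A).mp hA with rfl | rfl
        · exact N.one_mem
        · exact h2
      · left
        rw [eq_bot_iff]
        intro A hA
        rcases (hcent A).mp (h1 hA) with rfl | rfl
        · exact Subgroup.mem_bot.mpr rfl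
        · exact absurd hA h2
    · obtain ⟨x, hxN, hx⟩ := Set.not_subset.mp h1
      have hx' : x ≠ 1 ∧ x ≠ -1 := by
        constructor
        · intro h; exact hx ((hcent x).mpr (Or.inl h))
        · intro h; exact hx ((hcent x).mpr (Or.inr h))
      have hQN : Q ≤ N := by
        have hy : ∃ y ∈ N, y 0 0 + y 1 1 = 0 := by
          rcases exists_comm_tr x hx' with h | ⟨y, hy⟩
          · exact ⟨x, hxN, h⟩
          · exact ⟨_, N.mul_mem hxN (hN.conj_mem _ (N.inv_mem hxN) y), hy⟩
        obtain ⟨y, hyN, hy⟩ := hy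
        have h5 : ∀ z : G3, z 0 0 + z 1 1 = 0 → z ∈ N := by
          intro z hz
          obtain ⟨g, rfl⟩ := conj_tr_zero y z hy hz
          exact hN.conj_mem _ hyN g
        intro z hz
        rcases hz with h | rfl | rfl
        · exact h5 z h
        · exact N.one_mem
        · rw [← I3_sq]
          have h7 : I3 ∈ N := h5 I3 I3_tr
          exact N.mul_mem h7 h7
      have hQidx : Q.index = 3 := by
        have := Q.card_mul_index
        rw [card_Q, card_G3] at this
        omega
      have hdvd := Subgroup.index_dvd_of_le hQN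
      rw [hQidx] at hdvd
      rcases (Nat.dvd_prime Nat.prime_three).mp hdvd with h | h
      · right; left; exact Subgroup.index_eq_one.mp h
      · right; right; right
        have hcN : Nat.card N = 8 := by
          have := N.card_mul_index
          rw [h, card_G3] at this
          omega
        exact (Subgroup.eq_of_le_of_card_ge hQN (by rw [hcN, card_Q])).symm

end Cfsg.Agent.S2427
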