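import Cfsg.Statements.S2428
import Cfsg.Agent.H41.TorusNorm

set_option autoImplicit false
open Cfsg

namespace Cfsg.Agent.S2428

open Cfsg.Agent.H41

/-- Let F be a finite field with q elements, q odd, and let d be a diagonal element of SL₂ over F whose diagonal entry a has a² ≠ 1 (such d exist exactly when q > 3). Then the centraliser of d is precisely the diagonal subgroup T; the normaliser of T has order 2(q − 1) and exactly (q + 5)/2 conjugacy classes; and every element of that normaliser outside T has square equal to −1. -/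
theorem result {F : Type*} [Field F] [Fintype F] (hodd : Odd (Fintype.card F))
    (d : Matrix.SpecialLinearGroup (Fin 2) F) (hd01 : (d : Matrix (Fin 2) (Fin 2) F) 0 1 = 0) (hd10 : (d : Matrix (Fin 2) (Fin 2) F) 1 0 = 0) (hda : (d : Matrix (Fin 2) (Fin 2) F) 0 0 ^ 2 ≠ 1) :
    (∀ g : Matrix.SpecialLinearGroup (Fin 2) F, g ∈ Subgroup.centralizer ({d} : Set (Matrix.SpecialLinearGroup (Fin 2) F)) ↔ ((g : Matrix (Fin 2) (Fin 2) F) 0 1 = 0 ∧ (g : Matrix (Fin 2) (Fin 2) F) 1 0 = 0)) ∧
    Nat.card (Subgroup.normalizer ((Subgroup.centralizer ({d} : Set (Matrix.SpecialLinearGroup (Fin 2) F))) : Set (Matrix.SpecialLinearGroup (Fin 2) F))) = 2 * (Fintype.card F - 1) ∧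
    Nat.card (ConjClasses (Subgroup.normalizer ((Subgroup.centralizer ({d} : Set (Matrix.SpecialLinearGroup (Fin 2) F))) : Set (Matrix.SpecialLinearGroup (Fin 2) F)))) = (Fintype.card F + 5) / 2 ∧
    ∀ g : Matrix.SpecialLinearGroup (Fin 2) F, g ∈ Subgroup.normalizer ((Subgroup.centralizer ({d} : Set (Matrix.SpecialLinearGroup (Fin 2) F))) : Set (Matrix.SpecialLinearGroup (Fin 2) F)) →
      g ∉ Subgroup.centralizer ({d} : Set (Matrix.SpecialLinearGroup (Fin 2) F)) → ((g * g) : Matrix (Fin 2) (Fin 2) F) = -1 := by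
  have h2 : (2 : F) ≠ 0 := by
    apply Ring.two_ne_zero
    intro h
    have := FiniteField.even_card_of_char_two h
    exact (Nat.not_even_iff_odd.mpr hodd) (Nat.even_iff.mpr this)
  obtain ⟨u, hu⟩ : d ∈ (spHom (F := F)).range := mem_range_spHom_iff.mpr ⟨hd01, hd10⟩
  have hu2 : u ^ 2 ≠ 1 := by
    intro h
    apply hda
    rw [← hu]
    change (spHom u) 0 0 ^ 2 = 1
    rw [spHom_00, ← Units.val_pow_eq_pow_val, h, Units.val_one]
  have hcent : Subgroup.centralizer ({d} : Set (Matrix.SpecialLinearGroup (Fin 2) F)) = (spHom (F := F)).range := by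
    rw [← hu]; exact centralizer_spHom hu2
  obtain ⟨v, hv⟩ := IsCyclic.exists_generator (α := Fˣ)
  have hv2 : v ^ 2 ≠ 1 := by
    intro h
    obtain ⟨n, hn⟩ := hv u
    apply hu2
    change v ^ n = u at hn
    rw [← hn, ← zpow_natCast, zpow_comm, zpow_natCast, h, one_zpow]
  have ht := tr_spHom_sq_ne_four hv2
  have hC := centralizer_spHom hv2
  have hcard : Nat.card (spHom (F := F)).range = Fintype.card F - 1 := by
    rw [card_range_spHom, Nat.card_eq_fintype_card]
  obtain ⟨k, hk⟩ := hodd
  rw [hcent]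
  refine ⟨fun g => mem_range_spHom_iff, ?_, ?_, ?_⟩
  · rw [torus_card_normalizer h2 _ _ ht hC, hcard]
  · have := torus_card_conjClasses h2 _ _ ht hC (by
      rintro s ⟨w, rfl⟩
      obtain ⟨n, hn⟩ := hv w
      refine ⟨n, ?_⟩
      change v ^ n = w at hn
      change spHom v ^ n = spHom w
      rw [← map_zpow, hn]) k (by rw [hcard, hk]; omega)
    rw [this, hk]
    omega
  · intro g hg hgT
    have := torus_norm_sq h2 _ _ ht hC hg hgT
    have := congrArg Subtype.val this
    rw [Matrix.SpecialLinearGroup.coe_mul] at this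
    rw [this]
    simp

end Cfsg.Agent.S2428
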