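import Cfsg.Statements.S2429
import Cfsg.Agent.H41.TorusNorm

set_option autoImplicit false
open Cfsg

namespace Cfsg.Agent.S2429

open Cfsg.Agent.H41

/-- Let F be a finite field with q elements, q odd. Then SL₂ over F contains a cyclic subgroup T′ of order q + 1 (a non-split torus) with the following properties: T′ is its own centraliser, and indeed the centraliser of each element of T′ other than 1 and −1 is exactly T′; every element of SL₂ having no eigenvector in F² is conjugate to an element of T′; the normaliser of T′ has order 2(q + 1) and exactly (q + 7)/2 conjugacy classes; and every element of that normaliser outside T′ has square −1. -/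
theorem result {F : Type*} [Field F] [Fintype F] (hodd : Odd (Fintype.card F)) :
    ∃ T' : Subgroup (Matrix.SpecialLinearGroup (Fin 2) F), IsCyclic T' ∧ Nat.card T' = Fintype.card F + 1 ∧
      Subgroup.centralizer ((T' : Set (Matrix.SpecialLinearGroup (Fin 2) F))) = T' ∧
      (∀ g : Matrix.SpecialLinearGroup (Fin 2) F, g ∈ T' → (g : Matrix (Fin 2) (Fin 2) F) ≠ 1 → (g : Matrix (Fin 2) (Fin 2) F) ≠ -1 → Subgroup.centralizer ({g} : Set (Matrix.SpecialLinearGroup (Fin 2) F)) = T') ∧
      (∀ g : Matrix.SpecialLinearGroup (Fin 2) F, (∀ (c : F) (v : Fin 2 → F), v ≠ 0 → (g : Matrix (Fin 2) (Fin 2) F).mulVec v ≠ c • v) → ∃ h : Matrix.SpecialLinearGroup (Fin 2) F, h * g * h⁻¹ ∈ T') ∧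
      Nat.card (Subgroup.normalizer (T' : Set (Matrix.SpecialLinearGroup (Fin 2) F))) = 2 * (Fintype.card F + 1) ∧
      Nat.card (ConjClasses (Subgroup.normalizer (T' : Set (Matrix.SpecialLinearGroup (Fin 2) F)))) = (Fintype.card F + 7) / 2 ∧
      ∀ g : Matrix.SpecialLinearGroup (Fin 2) F, g ∈ Subgroup.normalizer (T' : Set (Matrix.SpecialLinearGroup (Fin 2) F)) → g ∉ T' → ((g * g) : Matrix (Fin 2) (Fin 2) F) = -1 := by
  have h2 : (2 : F) ≠ 0 := by
    apply Ring.two_ne_zero
    intro h
    have := FiniteField.even_card_of_char_two h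
    exact (Nat.not_even_iff_odd.mpr hodd) (Nat.even_iff.mpr this)
  obtain ⟨K, _, _, _, hK⟩ := exists_quadExt F
  obtain ⟨v, hv⟩ := IsCyclic.exists_generator (α := normOne F K)
  have hcardN : Nat.card (normOne F K) = Fintype.card F + 1 := by
    rw [card_normOne hK, Nat.card_eq_fintype_card]
  have hv2 : v ^ 2 ≠ 1 := by
    intro h
    have h3 := orderOf_dvd_of_pow_eq_one h
    rw [orderOf_eq_card_of_forall_mem_zpowers hv, hcardN] at h3
    have h4 := Nat.le_of_dvd (by norm_num) h3
    have h5 : 1 < Fintype.card F := Fintype.one_lt_card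
    omega
  have ht := tr_nsHom_sq_ne_four hK hv2
  have hC := centralizer_nsHom hK hv2
  have hcard : Nat.card (nsHom (F := F) (K := K) hK).range = Fintype.card F + 1 := by
    rw [card_range_nsHom, Nat.card_eq_fintype_card]
  obtain ⟨k, hk⟩ := hodd
  have hcent : ∀ g : Matrix.SpecialLinearGroup (Fin 2) F, g ∈ (nsHom (F := F) (K := K) hK).range →
      (g : Matrix (Fin 2) (Fin 2) F) ≠ 1 → (g : Matrix (Fin 2) (Fin 2) F) ≠ -1 →
      Subgroup.centralizer ({g} : Set (Matrix.SpecialLinearGroup (Fin 2) F)) = (nsHom (F := F) (K := K) hK).range := by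
    rintro g ⟨z, rfl⟩ h1 h3
    apply centralizer_nsHom
    intro hz
    rcases (nsHom_eq_iff hK z).mpr hz with h | h
    · apply h1; rw [h]; simp
    · apply h3; rw [h]; simp
  refine ⟨(nsHom (F := F) (K := K) hK).range, ?_, hcard, ?_, hcent, ?_, ?_, ?_, ?_⟩
  · exact isCyclic_of_surjective (nsHom (F := F) (K := K) hK).rangeRestrict (nsHom hK).rangeRestrict_surjective
  · apply le_antisymm
    · rw [← hC]
      exact Subgroup.centralizer_le (by
        intro x hx
        rw [Set.mem_singleton_iff] at hx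
        rw [hx, hC]
        exact ⟨v, rfl⟩)
    · rintro _ ⟨z, rfl⟩
      rw [Subgroup.mem_centralizer_iff]
      rintro _ ⟨w, rfl⟩
      rw [← map_mul, ← map_mul, mul_comm]
  · intro g hg
    obtain ⟨z, P, hP⟩ := exists_conj_nsHom_of_noEig (K := K) hK g (noEig_of_no_eigenvector g hg)
    refine ⟨P⁻¹, z, ?_⟩
    rw [hP]; group
  · rw [torus_card_normalizer h2 _ _ ht hC, hcard]
  · have := torus_card_conjClasses h2 _ _ ht hC (by
      rintro s ⟨w, rfl⟩
      obtain ⟨n, hn⟩ := hv w
      refine ⟨n, ?_⟩
      change v ^ n = w at hn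
      change nsHom hK v ^ n = nsHom hK w
      rw [← map_zpow, hn]) (k + 1) (by rw [hcard, hk]; ring)
    rw [this, hk]
    omega
  · intro g hg hgT
    have := torus_norm_sq h2 _ _ ht hC hg hgT
    have := congrArg Subtype.val this
    rw [Matrix.SpecialLinearGroup.coe_mul] at this
    rw [this]
    simp

end Cfsg.Agent.S2429
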