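import Cfsg.Statements.S2430
import Cfsg.Agent.H41.TorusSylow

set_option autoImplicit false
open Cfsg

namespace Cfsg.Agent.S2430

open Cfsg.Agent.H41

/-- Let F be a finite field with q elements, q odd, ℓ an odd prime, and P a Sylow ℓ-subgroup of SL₂ over F. If ℓ divides q − 1, the centraliser of P is cyclic of order q − 1 (a split torus) and the normaliser of P has order 2(q − 1); if ℓ divides q + 1, the centraliser of P is cyclic of order q + 1 (a non-split torus) and the normaliser of P has order 2(q + 1). -/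
theorem result {F : Type*} [Field F] [Fintype F] (hodd : Odd (Fintype.card F)) (ℓ : ℕ) [Fact ℓ.Prime] (hℓ : ℓ ≠ 2)
    (P : Sylow ℓ (Matrix.SpecialLinearGroup (Fin 2) F)) :
    (ℓ ∣ Fintype.card F - 1 →
      Nat.card (Subgroup.centralizer ((P : Subgroup (Matrix.SpecialLinearGroup (Fin 2) F)) : Set (Matrix.SpecialLinearGroup (Fin 2) F))) = Fintype.card F - 1 ∧
      IsCyclic (Subgroup.centralizer ((P : Subgroup (Matrix.SpecialLinearGroup (Fin 2) F)) : Set (Matrix.SpecialLinearGroup (Fin 2) F))) ∧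
      Nat.card (Subgroup.normalizer ((P : Subgroup (Matrix.SpecialLinearGroup (Fin 2) F)) : Set (Matrix.SpecialLinearGroup (Fin 2) F))) = 2 * (Fintype.card F - 1)) ∧
    (ℓ ∣ Fintype.card F + 1 →
      Nat.card (Subgroup.centralizer ((P : Subgroup (Matrix.SpecialLinearGroup (Fin 2) F)) : Set (Matrix.SpecialLinearGroup (Fin 2) F))) = Fintype.card F + 1 ∧
      IsCyclic (Subgroup.centralizer ((P : Subgroup (Matrix.SpecialLinearGroup (Fin 2) F)) : Set (Matrix.SpecialLinearGroup (Fin 2) F))) ∧
      Nat.card (Subgroup.normalizer ((P : Subgroup (Matrix.SpecialLinearGroup (Fin 2) F)) : Set (Matrix.SpecialLinearGroup (Fin 2) F))) = 2 * (Fintype.card F + 1)) := by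
  have hℓp : ℓ.Prime := Fact.out
  have h2 : (2 : F) ≠ 0 := by
    apply Ring.two_ne_zero
    intro h
    have := FiniteField.even_card_of_char_two h
    exact (Nat.not_even_iff_odd.mpr hodd) (Nat.even_iff.mpr this)
  obtain ⟨p, hp⟩ := CharP.exists F
  haveI := hp
  haveI : Fact p.Prime := ⟨CharP.char_is_prime F p⟩
  obtain ⟨n, hpp, hn⟩ := FiniteField.card F p
  have hq : 1 < Fintype.card F := Fintype.one_lt_card
  have hpq : p ∣ Fintype.card F := by rw [hn]; exact dvd_pow_self p n.ne_zero
  have key : ∀ (hdvd : ℓ ∣ Nat.card (Matrix.SpecialLinearGroup (Fin 2) F)), ∃ z ∈ P, orderOf z = ℓ ∧ ∀ g ∈ P, g * z = z * g := by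
    intro hdvd
    have hPn : Nontrivial P := by
      haveI : Finite P := inferInstance
      rw [← Finite.one_lt_card_iff_nontrivial]
      have h1 := P.dvd_card_of_dvd_card hdvd
      exact lt_of_lt_of_le hℓp.one_lt (Nat.le_of_dvd Nat.card_pos h1)
    have hc := P.isPGroup'.center_nontrivial
    have hcp : IsPGroup ℓ (Subgroup.center P) := P.isPGroup'.to_subgroup _
    haveI : Finite (Subgroup.center P) := inferInstance
    have hd : ℓ ∣ Nat.card (Subgroup.center P) := by
      obtain ⟨k, hk⟩ := hcp.exists_card_eq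
      have : 1 < Nat.card (Subgroup.center P) := Finite.one_lt_card_iff_nontrivial.mpr hc
      rw [hk] at this ⊢
      apply dvd_pow_self
      rintro rfl
      simp at this
    obtain ⟨z, hz⟩ := exists_prime_orderOf_dvd_card' ℓ hd
    refine ⟨z.1.1, z.1.2, ?_, ?_⟩
    · rw [Subgroup.orderOf_coe, Subgroup.orderOf_coe]; exact hz
    · intro g hg
      have h3 := Subgroup.mem_center_iff.mp z.2 ⟨g, hg⟩
      exact congrArg Subtype.val h3
  constructor
  · intro hd
    have hdG : ℓ ∣ Nat.card (Matrix.SpecialLinearGroup (Fin 2) F) := by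
      refine dvd_trans ?_ (Subgroup.card_subgroup_dvd_card (spHom (F := F)).range)
      rw [card_range_spHom, Nat.card_eq_fintype_card]; exact hd
    obtain ⟨z, hzP, hzo, hzc⟩ := key hdG
    have hne : ℓ ≠ p := by
      rintro rfl
      have h3 := (Nat.dvd_sub hpq hd)
      rw [Nat.sub_sub_self hq.le] at h3
      exact hℓp.one_lt.ne' (Nat.dvd_one.mp h3)
    have hz4 := tr_sq_ne_four_of_orderOf (p := p) hℓ hne z hzo
    have hroot : ∃ a : F, a ^ 2 - tr z * a + 1 = 0 := by
      by_contra hcon
      push Not at hcon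
      have h1 := pow_card_succ_of_noEig z hcon
      have h3 := orderOf_dvd_of_pow_eq_one h1
      rw [hzo, Nat.card_eq_fintype_card] at h3
      have h4 := Nat.dvd_sub h3 hd
      rw [show Fintype.card F + 1 - (Fintype.card F - 1) = 2 by omega] at h4
      exact hℓ ((Nat.prime_dvd_prime_iff_eq hℓp Nat.prime_two).mp h4)
    obtain ⟨a, ha⟩ := hroot
    obtain ⟨hcyc, hcard⟩ := centralizer_of_eig z hz4 a ha
    obtain ⟨h5, h6⟩ := sylow_torus h2 P z hz4 hzP hzc hcyc
    rw [h5, h6]
    rw [Nat.card_eq_fintype_card (α := F)] at hcard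
    refine ⟨hcard, hcyc, ?_⟩
    rw [torus_card_normalizer h2 _ z hz4 rfl, hcard]
  · intro hd
    have hdG : ℓ ∣ Nat.card (Matrix.SpecialLinearGroup (Fin 2) F) := by
      obtain ⟨K, _, _, _, hK⟩ := exists_quadExt F
      refine dvd_trans ?_ (Subgroup.card_subgroup_dvd_card (nsHom (F := F) (K := K) hK).range)
      rw [card_range_nsHom, Nat.card_eq_fintype_card]; exact hd
    obtain ⟨z, hzP, hzo, hzc⟩ := key hdG
    have hne : ℓ ≠ p := by
      rintro rfl
      have h3 := (Nat.dvd_sub hd hpq)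
      rw [Nat.add_sub_cancel_left] at h3
      exact hℓp.one_lt.ne' (Nat.dvd_one.mp h3)
    have hz4 := tr_sq_ne_four_of_orderOf (p := p) hℓ hne z hzo
    have hroot : NoEig (tr z) := by
      intro a ha
      obtain ⟨hcyc, hcard⟩ := centralizer_of_eig z hz4 a ha
      have h1 : orderOf z ∣ Nat.card (Subgroup.centralizer ({z} : Set (Matrix.SpecialLinearGroup (Fin 2) F))) :=
        Subgroup.orderOf_dvd_natCard _ (by rw [Subgroup.mem_centralizer_singleton_iff])
      rw [hcard, hzo, Nat.card_eq_fintype_card] at h1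
      have h4 := Nat.dvd_sub hd h1
      rw [show Fintype.card F + 1 - (Fintype.card F - 1) = 2 by omega] at h4
      exact hℓ ((Nat.prime_dvd_prime_iff_eq hℓp Nat.prime_two).mp h4)
    obtain ⟨hcyc, hcard⟩ := centralizer_of_noEig z hroot
    obtain ⟨h5, h6⟩ := sylow_torus h2 P z hz4 hzP hzc hcyc
    rw [h5, h6]
    rw [Nat.card_eq_fintype_card (α := F)] at hcard
    refine ⟨hcard, hcyc, ?_⟩
    rw [torus_card_normalizer h2 _ z hz4 rfl, hcard]

end Cfsg.Agent.S2430
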