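import Cfsg.Statements.S2432
import Cfsg.Agent.H41.PrincSeries
import Cfsg.Agent.Char.Induced

set_option autoImplicit false
set_option linter.unusedSimpArgs false
open Cfsg

namespace Cfsg.Agent.S2432

open Cfsg.Agent.H41 Matrix

variable {F : Type*} [Field F]

/-- Sum of `R β` over the elements of the Borel subgroup with fixed diagonal. -/
theorem sum_R_borel [Fintype F] [DecidableEq F] (β : MulChar F ℂ) (a : Fˣ) :
    ∑ s : F, R β ((bmk a s : borel F) : Matrix.SpecialLinearGroup (Fin 2) F) =
      (Fintype.card F : ℂ) * (β (a : F) + β ((a⁻¹ : Fˣ) : F)) := by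
  by_cases ha : (a : F) ^ 2 = 1
  · have hinv : ((a⁻¹ : Fˣ) : F) = (a : F) := by
      have h1 : a * a = 1 := Units.ext (by push_cast; rw [← sq]; exact ha)
      rw [inv_eq_of_mul_eq_one_left h1]
    rw [← Finset.add_sum_erase Finset.univ _ (Finset.mem_univ (0 : F))]
    have h0 : R β ((bmk a 0 : borel F) : Matrix.SpecialLinearGroup (Fin 2) F) = ((Fintype.card F : ℂ) + 1) * β (a : F) := by
      rw [R_scalar β _ (by simp) (by simp) (by simp [hinv])]
      simp
    have h1 : ∀ s ∈ Finset.univ.erase (0 : F), R β ((bmk a s : borel F) : Matrix.SpecialLinearGroup (Fin 2) F) = β (a : F) := by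
      intro s hs
      rw [R_unip β _ (by simp) (by simp [hinv]) (by simpa using Finset.ne_of_mem_erase hs)]
      simp
    rw [h0, Finset.sum_congr rfl h1, Finset.sum_const, Finset.card_erase_of_mem (Finset.mem_univ _), Finset.card_univ, hinv]
    have hq : 1 ≤ Fintype.card F := Fintype.card_pos
    rw [nsmul_eq_mul, Nat.cast_sub hq]
    ring
  · have h1 : ∀ s : F, R β ((bmk a s : borel F) : Matrix.SpecialLinearGroup (Fin 2) F) = β (a : F) + β ((a⁻¹ : Fˣ) : F) := by
      intro s
      have hne : ((a⁻¹ : Fˣ) : F) - (a : F) ≠ 0 := by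
        intro h
        apply ha
        have h2 : (a : F) * ((a⁻¹ : Fˣ) : F) = 1 := a.mul_inv
        have h3 : ((a⁻¹ : Fˣ) : F) = (a : F) := by linear_combination h
        rw [h3] at h2
        rw [sq]; exact h2
      -- conjugate to the diagonal
      obtain ⟨t, ht⟩ : ∃ t : F, t * (((a⁻¹ : Fˣ) : F) - (a : F)) = s := ⟨s / (((a⁻¹ : Fˣ) : F) - (a : F)), by field_simp⟩
      have hconj : ((bmk a s : borel F) : Matrix.SpecialLinearGroup (Fin 2) F) =
          ((bmk 1 t : borel F) : Matrix.SpecialLinearGroup (Fin 2) F) * ((bmk a 0 : borel F) : Matrix.SpecialLinearGroup (Fin 2) F) *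
            ((bmk 1 t : borel F) : Matrix.SpecialLinearGroup (Fin 2) F)⁻¹ := by
        rw [eq_mul_inv_iff_mul_eq, ← Subgroup.coe_mul, ← Subgroup.coe_mul, bmk_mul, bmk_mul]
        simp only [mul_one, one_mul, inv_one, Units.val_one, zero_add, mul_zero, add_zero]
        have : (a : F) * t + s = t * ((a⁻¹ : Fˣ) : F) := by rw [← ht]; ring
        rw [this]
      have hcl : IsClassFunction (Matrix.SpecialLinearGroup (Fin 2) F) (R β) := Cfsg.Agent.Char.indFun_isClassFunction _ _
      have h2 : R β ((bmk a s : borel F) : Matrix.SpecialLinearGroup (Fin 2) F) = R β ((bmk a 0 : borel F) : Matrix.SpecialLinearGroup (Fin 2) F) := by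
        rw [hconj]
        exact hcl _ _
      rw [h2, R_diag β _ (by simp) (by simp) (by simpa using ha)]
      simp
    rw [Finset.sum_congr rfl (fun s _ => h1 s), Finset.sum_const, Finset.card_univ, nsmul_eq_mul]

/-- Let F be a finite field with q elements, q odd, and for a multiplicative character α of F let R(α) be the function on SL₂ induced from the linear character b ↦ α(b₁₁) of the upper triangular subgroup. For multiplicative characters α, β the inner product of R(α) and R(β) equals the number of true statements among 'α = β' and 'α = β⁻¹' (the Mackey formula for the upper triangular subgroup, whose intersection with a conjugate by the Weyl element is the diagonal subgroup). -/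
theorem result {F : Type*} [Field F] [Fintype F] [DecidableEq F] (hodd : Odd (Fintype.card F))
    (α β : MulChar F ℂ) [Decidable (α = β)] [Decidable (α = β⁻¹)] :
    Cfsg.classInner (Cfsg.indFun ((Cfsg.upperTriangularGL 2 F).comap Matrix.SpecialLinearGroup.toGL) (fun b => α (((b : Matrix.SpecialLinearGroup (Fin 2) F) : Matrix (Fin 2) (Fin 2) F) 0 0))) (Cfsg.indFun ((Cfsg.upperTriangularGL 2 F).comap Matrix.SpecialLinearGroup.toGL) (fun b => β (((b : Matrix.SpecialLinearGroup (Fin 2) F) : Matrix (Fin 2) (Fin 2) F) 0 0))) =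
      (if α = β then 1 else 0) + (if α = β⁻¹ then 1 else 0) := by
  classical
  have : Fintype (borel F) := Fintype.ofFinite _
  change Cfsg.classInner (Cfsg.indFun (borel F) (bchar α)) (R β) = _
  have hfr := Cfsg.Agent.Char.frobenius_reciprocity (borel F) (bchar α) (R β) (Cfsg.Agent.Char.indFun_isClassFunction _ _)
  rw [hfr, Cfsg.classInner, ← Equiv.sum_comp (borelEquiv F), Fintype.sum_prod_type, card_borel]
  have h1 : ∀ a : Fˣ, ∑ s : F, bchar α (borelEquiv F (a, s)) * (starRingEnd ℂ) (R β ((borelEquiv F (a, s) : borel F) : Matrix.SpecialLinearGroup (Fin 2) F)) =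
      (Fintype.card F : ℂ) * ((α * β⁻¹) (a : F) + (α * β) (a : F)) := by
    intro a
    have h2 : ∀ s : F, bchar α (borelEquiv F (a, s)) * (starRingEnd ℂ) (R β ((borelEquiv F (a, s) : borel F) : Matrix.SpecialLinearGroup (Fin 2) F)) =
        α (a : F) * (starRingEnd ℂ) (R β ((bmk a s : borel F) : Matrix.SpecialLinearGroup (Fin 2) F)) := fun s => rfl
    rw [Finset.sum_congr rfl (fun s _ => h2 s), ← Finset.mul_sum, ← map_sum, sum_R_borel, map_mul, map_add, map_natCast]
    have h3 : (starRingEnd ℂ) (β (a : F)) = β⁻¹ (a : F) := MulChar.star_apply' β _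
    have h4 : (starRingEnd ℂ) (β ((a⁻¹ : Fˣ) : F)) = β (a : F) := by
      have h5 : (starRingEnd ℂ) (β ((a⁻¹ : Fˣ) : F)) = β⁻¹ ((a⁻¹ : Fˣ) : F) := MulChar.star_apply' β _
      rw [h5, MulChar.inv_apply']
      simp
    rw [h3, h4, MulChar.mul_apply, MulChar.mul_apply]
    ring
  rw [Finset.sum_congr rfl (fun a _ => h1 a), ← Finset.mul_sum, Finset.sum_add_distrib]
  have hsum : ∀ χ : MulChar F ℂ, ∑ a : Fˣ, χ (a : F) = if χ = 1 then ((Fintype.card F - 1 : ℕ) : ℂ) else 0 := by
    intro χ
    have h6 : ∑ a : Fˣ, χ (a : F) = ∑ a : F, χ a := by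
      rw [← Finset.add_sum_erase Finset.univ (fun a => χ a) (Finset.mem_univ (0 : F)), MulChar.map_zero, zero_add]
      refine Finset.sum_bij (fun (a : Fˣ) _ => (a : F)) ?_ ?_ ?_ ?_
      · intro a _; exact Finset.mem_erase.mpr ⟨a.ne_zero, Finset.mem_univ _⟩
      · intro a _ b _ h; exact Units.ext h
      · intro b hb; exact ⟨Units.mk0 b (Finset.ne_of_mem_erase hb), Finset.mem_univ _, rfl⟩
      · intro a _; rfl
    rw [h6]
    split_ifs with h
    · rw [h, MulChar.sum_one_eq_card_units, Fintype.card_units]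
    · exact MulChar.sum_eq_zero_of_ne_one h
  rw [hsum, hsum, Nat.card_eq_fintype_card]
  have e1 : (α * β⁻¹ = 1) ↔ α = β := by rw [mul_inv_eq_one]
  have e2 : (α * β = 1) ↔ α = β⁻¹ := by rw [mul_eq_one_iff_eq_inv]
  have hq : 1 < Fintype.card F := Fintype.one_lt_card
  have hn1 : ((Fintype.card F - 1 : ℕ) : ℂ) ≠ 0 := by
    have : 0 < Fintype.card F - 1 := by omega
    exact_mod_cast this.ne'
  have hn2 : (Fintype.card F : ℂ) ≠ 0 := by
    have : 0 < Fintype.card F := by omega
    exact_mod_cast this.ne'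
  simp only [e1, e2]
  split_ifs <;> push_cast [Nat.cast_mul] <;> field_simp <;> ring

end Cfsg.Agent.S2432
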