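import Cfsg.Statements.S2434
import Cfsg.Agent.H34.Cusp5

set_option autoImplicit false
open Cfsg

namespace Cfsg.Agent.S2434

/-- Let F be a finite field with q elements, q odd, and C a cyclic subgroup of order q + 1 of SL₂ over F (a non-split torus; it contains the centre). For every homomorphism θ from C to the non-zero complex numbers with θ² ≠ 1 there is an irreducible complex character χ of degree q − 1 such that χ(c) = −θ(c) − θ(c)⁻¹ for every non-central c in C, χ(zg) = θ(z)χ(g) for central z in C, χ vanishes at diagonal elements with entry a, a² ≠ 1, and χ takes the value −1 at every upper unitriangular element other than 1. Conversely every irreducible character of degree q − 1 has, for some such θ, the values −θ(c) − θ(c)⁻¹ at the non-central elements c of C (for q ≥ 5 these are exactly the cuspidal characters of degree q − 1). -/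
theorem result {F : Type*} [Field F] [Fintype F] (hodd : Odd (Fintype.card F))
    (C : Subgroup (Matrix.SpecialLinearGroup (Fin 2) F)) (hC : IsCyclic C) (hcard : Nat.card C = Fintype.card F + 1) :
    (∀ θ : C →* ℂˣ, (∃ c : C, θ c ^ 2 ≠ 1) →
      ∃ χ : Matrix.SpecialLinearGroup (Fin 2) F → ℂ, Cfsg.IsIrrCharacter (Matrix.SpecialLinearGroup (Fin 2) F) χ ∧ χ 1 = (Fintype.card F : ℂ) - 1 ∧
        (∀ c : C, (c : Matrix.SpecialLinearGroup (Fin 2) F) ∉ Subgroup.center (Matrix.SpecialLinearGroup (Fin 2) F) → χ c = -((θ c).val + (θ c)⁻¹.val)) ∧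
        (∀ c : C, (c : Matrix.SpecialLinearGroup (Fin 2) F) ∈ Subgroup.center (Matrix.SpecialLinearGroup (Fin 2) F) → ∀ g : Matrix.SpecialLinearGroup (Fin 2) F, χ ((c : Matrix.SpecialLinearGroup (Fin 2) F) * g) = (θ c).val * χ g) ∧
        (∀ g : Matrix.SpecialLinearGroup (Fin 2) F, (g : Matrix (Fin 2) (Fin 2) F) 0 1 = 0 → (g : Matrix (Fin 2) (Fin 2) F) 1 0 = 0 → (g : Matrix (Fin 2) (Fin 2) F) 0 0 ^ 2 ≠ 1 → χ g = 0) ∧
        (∀ g : Matrix.SpecialLinearGroup (Fin 2) F, (g : Matrix (Fin 2) (Fin 2) F) 1 0 = 0 → (g : Matrix (Fin 2) (Fin 2) F) 0 0 = 1 → (g : Matrix (Fin 2) (Fin 2) F) 1 1 = 1 → (g : Matrix (Fin 2) (Fin 2) F) 0 1 ≠ 0 → χ g = -1)) ∧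
    (∀ χ : Matrix.SpecialLinearGroup (Fin 2) F → ℂ, Cfsg.IsIrrCharacter (Matrix.SpecialLinearGroup (Fin 2) F) χ → χ 1 = (Fintype.card F : ℂ) - 1 →
      ∃ θ : C →* ℂˣ, (∃ c : C, θ c ^ 2 ≠ 1) ∧
        ∀ c : C, (c : Matrix.SpecialLinearGroup (Fin 2) F) ∉ Subgroup.center (Matrix.SpecialLinearGroup (Fin 2) F) → χ c = -((θ c).val + (θ c)⁻¹.val)) := by
  classical
  obtain ⟨k, ⟨D⟩⟩ := H34.Deg.exists_oddData F hodd
  have h2 := D.two_ne
  have hk := D.hk
  have hk0 := D.k_pos
  have hcomm : ∀ a ∈ C, ∀ b ∈ C, a * b = b * a := by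
    intro a ha b hb
    have := (IsCyclic.isMulCommutative (α := C)).is_comm.comm ⟨a, ha⟩ ⟨b, hb⟩
    exact congrArg Subtype.val this
  have hN : H34.Deg.NST C := H34.Deg.nst_of_comm h2 hcomm (by rw [hcard, Nat.card_eq_fintype_card])
  constructor
  · rintro θ ⟨c, hc⟩
    have hθ : θ ^ 2 ≠ 1 := by
      intro h
      apply hc
      have := DFunLike.congr_fun h c
      rw [MonoidHom.pow_apply] at this
      exact this
    obtain ⟨α, hα⟩ := H34.Deg.exists_mulChar_neg_one h2 (H34.Deg.theta_neg_cases hN θ)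
    exact ⟨H34.Deg.PiC θ α, H34.Deg.PiC_props h2 hN θ hθ α hα⟩
  · intro χ hχ hdeg
    have hdeg' : ((⟨χ, hχ⟩ : Cfsg.IrrCharacter (Matrix.SpecialLinearGroup (Fin 2) F)) : Matrix.SpecialLinearGroup (Fin 2) F → ℂ) 1 = ((2 * k : ℕ) : ℂ) := by
      show χ 1 = _
      rw [hdeg, hk]; push_cast; ring
    have hd := (D.deg_eq_iff ⟨χ, hχ⟩ _).1 hdeg'
    by_cases hq3 : k = 1
    · -- q = 3
      subst hq3
      have hne : (⟨-1, hN.neg⟩ : C) ≠ 1 := by
        intro h
        exact H34.Deg.neg_one_ne_one h2 (congrArg Subtype.val h)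
      -- a character of C nontrivial at -1
      obtain ⟨l, hl⟩ : ∃ l : Cfsg.IrrCharacter C, (l : C → ℂ) ⟨-1, hN.neg⟩ = -1 := by
        by_contra hcon
        push Not at hcon
        haveI : Fintype (Cfsg.IrrCharacter C) := Fintype.ofFinite _
        have h3 := H34.Deg.sum_lam hN (⟨-1, hN.neg⟩ : C)
        have h4 := H34.Deg.sum_lam hN (1 : C)
        rw [if_neg hne, Finset.sum_congr rfl fun l _ => (H34.Deg.lamU_neg_one hN l).resolve_right (hcon l)] at h3
        rw [if_pos rfl, Finset.sum_congr rfl fun l _ => H34.Deg.lam_one hN l, h3] at h4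
        have h5 : ((Fintype.card F + 1 : ℕ) : ℂ) = ((0 : ℕ) : ℂ) := by push_cast; exact h4.symm
        have h6 : Fintype.card F + 1 = 0 := by exact_mod_cast h5
        omega
      have hsq : ∀ c : C, (c : Matrix.SpecialLinearGroup (Fin 2) F) ∉ Subgroup.center (Matrix.SpecialLinearGroup (Fin 2) F) →
          c * c = ⟨-1, hN.neg⟩ := by
        intro c hc
        have h3 : c ^ 4 = 1 := by
          have : Nat.card C = 4 := by rw [hcard, hk]
          rw [← this]; exact pow_card_eq_one'
        have h4 : (c : Matrix.SpecialLinearGroup (Fin 2) F) * c * ((c : Matrix.SpecialLinearGroup (Fin 2) F) * c) = 1 := by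
          have := congrArg Subtype.val h3
          have e : ((c ^ 4 : C) : Matrix.SpecialLinearGroup (Fin 2) F) = (c : Matrix.SpecialLinearGroup (Fin 2) F) * c * ((c : Matrix.SpecialLinearGroup (Fin 2) F) * c) := by
            rw [Subgroup.coe_pow, pow_succ, pow_succ, pow_succ, pow_one]
            simp only [mul_assoc]
          rw [← e]; exact this
        rcases H34.Deg.sl2_sq_one h2 h4 with h5 | h5
        · exfalso
          rcases H34.Deg.sl2_sq_one h2 h5 with h6 | h6
          · exact hc (h6 ▸ Subgroup.one_mem _)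
          · exact hc (h6 ▸ H34.Deg.neg_one_mem_center)
        · exact Subtype.ext h5
      have hval : ∀ c : C, (c : Matrix.SpecialLinearGroup (Fin 2) F) ∉ Subgroup.center (Matrix.SpecialLinearGroup (Fin 2) F) →
          ((H34.Deg.lamU hN l c : ℂˣ) : ℂ) * ((H34.Deg.lamU hN l c : ℂˣ) : ℂ) = -1 := by
        intro c hc
        rw [← Units.val_mul, ← map_mul, hsq c hc, H34.Deg.lamU_val, hl]
      obtain ⟨c₀, hc₀⟩ : ∃ c : C, (c : Matrix.SpecialLinearGroup (Fin 2) F) ∉ Subgroup.center (Matrix.SpecialLinearGroup (Fin 2) F) := by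
        by_contra hcon
        push Not at hcon
        have h3 : (C : Set (Matrix.SpecialLinearGroup (Fin 2) F)) ⊆ {1, -1} := by
          intro c hc
          rcases H34.Deg.center_sl (hcon ⟨c, hc⟩) with h | h
          · exact Or.inl h
          · exact Or.inr h
        have h5 := Set.ncard_le_ncard h3 (Set.toFinite _)
        have h6 := Set.ncard_insert_le (1 : Matrix.SpecialLinearGroup (Fin 2) F) {-1}
        rw [Set.ncard_singleton] at h6
        have h7 : Set.ncard (C : Set (Matrix.SpecialLinearGroup (Fin 2) F)) = Nat.card C := rfl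
        omega
      refine ⟨H34.Deg.lamU hN l, ⟨c₀, ?_⟩, ?_⟩
      · intro h
        have h3 := hval c₀ hc₀
        rw [← Units.val_mul, ← sq, h, Units.val_one] at h3
        norm_num at h3
      · intro c hc
        have hno := H34.Deg.nst_noncentral hN c.2 hc
        have h3 : χ (c : Matrix.SpecialLinearGroup (Fin 2) F) = 0 := by
          by_cases ha : D.a ⟨χ, hχ⟩ = 0
          · -- cuspidal
            have hbc : D.b ⟨χ, hχ⟩ + D.c ⟨χ, hχ⟩ = 2 := by
              rw [ha] at hd; omega
            obtain ⟨l', hl', hχ'⟩ := D.exists_theta hN ⟨χ, hχ⟩ ha hbc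
            have e1 : χ = H34.Deg.PiC (H34.Deg.lamU hN l') (H34.Deg.alC D.two_ne hN l') := hχ'
            rw [e1, H34.Deg.PiC_reg hN h2 _ _ c.2 hno]
            have hneg : ((H34.Deg.lamU hN l' ⟨-1, hN.neg⟩ : ℂˣ) : ℂ) = -1 := by
              rcases H34.Deg.theta_neg_cases hN (H34.Deg.lamU hN l') with h | h
              · exfalso
                apply hl'
                have hc1 : ∀ x : C, H34.Deg.lamU hN l' (x * x) = 1 := by
                  intro x
                  by_cases hx : (x : Matrix.SpecialLinearGroup (Fin 2) F) ∈ Subgroup.center (Matrix.SpecialLinearGroup (Fin 2) F)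
                  · have hxx : x * x = 1 := by
                      apply Subtype.ext
                      show (x : Matrix.SpecialLinearGroup (Fin 2) F) * x = 1
                      rcases H34.Deg.center_sl hx with h | h
                      · rw [h, one_mul]
                      · rw [h, neg_one_mul, neg_neg]
                    rw [hxx, map_one]
                  · rw [hsq x hx]
                    exact Units.ext h
                ext x
                show (((H34.Deg.lamU hN l') ^ 2) x : ℂˣ).val = 1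
                rw [MonoidHom.pow_apply, sq, ← map_mul, hc1, Units.val_one]
              · exact h
            have h4 : ((H34.Deg.lamU hN l' c : ℂˣ) : ℂ) * ((H34.Deg.lamU hN l' c : ℂˣ) : ℂ) = -1 := by
              rw [← Units.val_mul, ← map_mul, hsq c hc, hneg]
            have h5 : ((H34.Deg.lamU hN l' c : ℂˣ) : ℂ) * (((H34.Deg.lamU hN l' c)⁻¹ : ℂˣ) : ℂ) = 1 := Units.mul_inv _
            have h6 : ((H34.Deg.lamU hN l' c : ℂˣ) : ℂ) ≠ 0 := Units.ne_zero _
            have h7 : (((H34.Deg.lamU hN l' c)⁻¹ : ℂˣ) : ℂ) = -((H34.Deg.lamU hN l' c : ℂˣ) : ℂ) := by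
              apply mul_left_cancel₀ h6
              rw [h5, mul_neg, h4, neg_neg]
            show -(((H34.Deg.lamU hN l' c : ℂˣ) : ℂ) + (((H34.Deg.lamU hN l' c)⁻¹ : ℂˣ) : ℂ)) = 0
            rw [h7]; ring
          · have h4 := (S2322.result hodd χ hχ (c : Matrix.SpecialLinearGroup (Fin 2) F)).2 (Or.inr (by
              rw [hdeg, hk]; norm_num))
            exact h4 (H34.Deg.no_eigenvector hno)
        rw [h3]
        have h4 := hval c hc
        have h5 : ((H34.Deg.lamU hN l c : ℂˣ) : ℂ) * (((H34.Deg.lamU hN l c)⁻¹ : ℂˣ) : ℂ) = 1 := Units.mul_inv _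
        have h6 : ((H34.Deg.lamU hN l c : ℂˣ) : ℂ) ≠ 0 := Units.ne_zero _
        have h7 : (((H34.Deg.lamU hN l c)⁻¹ : ℂˣ) : ℂ) = -((H34.Deg.lamU hN l c : ℂˣ) : ℂ) := by
          apply mul_left_cancel₀ h6
          rw [h5, mul_neg, h4, neg_neg]
        rw [h7]; ring
    · -- q ≥ 5
      have hty : D.a ⟨χ, hχ⟩ = 0 ∧ D.b ⟨χ, hχ⟩ + D.c ⟨χ, hχ⟩ = 2 := by
        rcases D.six ⟨χ, hχ⟩ with ⟨e1, e2⟩ | ⟨e1, e2⟩ | ⟨e1, e2⟩ | ⟨e1, e2⟩ | ⟨e1, e2⟩ | ⟨e1, e2⟩
        · rw [e1, e2] at hd; omega
        · rw [e1, e2] at hd; omega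
        · rw [e1, e2] at hd; omega
        · rw [e1, e2] at hd; omega
        · exact ⟨e1, e2⟩
        · rw [e1, e2] at hd; omega
      obtain ⟨l, hl, hχ'⟩ := D.exists_theta hN ⟨χ, hχ⟩ hty.1 hty.2
      have e1 : χ = H34.Deg.PiC (H34.Deg.lamU hN l) (H34.Deg.alC D.two_ne hN l) := hχ'
      refine ⟨H34.Deg.lamU hN l, ?_, ?_⟩
      · by_contra hcon
        push Not at hcon
        apply hl
        ext x
        show (((H34.Deg.lamU hN l) ^ 2) x : ℂˣ).val = 1
        rw [MonoidHom.pow_apply, hcon, Units.val_one]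
      · intro c hc
        rw [e1]
        exact H34.Deg.PiC_reg hN h2 _ _ c.2 (H34.Deg.nst_noncentral hN c.2 hc)

end Cfsg.Agent.S2434
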