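import Cfsg.Statements.S2435
import Cfsg.Agent.H34.Cusp5

set_option autoImplicit false
open Cfsg

namespace Cfsg.Agent.S2435

/-- Let F be a finite field with q elements, q odd and q ≥ 5, and χ an irreducible complex character of SL₂ over F. If χ has degree (q + 1)/2, then at a diagonal element with entry a, a² ≠ 1, χ takes the value 1 when a is a square in F and −1 otherwise. If χ has degree (q − 1)/2, then at an element g with no eigenvector in F² (so g has order dividing q + 1), χ takes the value −1 when g raised to the power (q + 1)/2 is the identity and the value 1 otherwise. -/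
theorem result {F : Type*} [Field F] [Fintype F] (hodd : Odd (Fintype.card F)) (hq : 5 ≤ Fintype.card F)
    (χ : Matrix.SpecialLinearGroup (Fin 2) F → ℂ) (hχ : Cfsg.IsIrrCharacter (Matrix.SpecialLinearGroup (Fin 2) F) χ) (g : Matrix.SpecialLinearGroup (Fin 2) F) :
    (χ 1 = (((Fintype.card F + 1) / 2 : ℕ) : ℂ) → (g : Matrix (Fin 2) (Fin 2) F) 0 1 = 0 → (g : Matrix (Fin 2) (Fin 2) F) 1 0 = 0 → (g : Matrix (Fin 2) (Fin 2) F) 0 0 ^ 2 ≠ 1 →
      (IsSquare ((g : Matrix (Fin 2) (Fin 2) F) 0 0) → χ g = 1) ∧ (¬ IsSquare ((g : Matrix (Fin 2) (Fin 2) F) 0 0) → χ g = -1)) ∧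
    (χ 1 = (((Fintype.card F - 1) / 2 : ℕ) : ℂ) → (∀ (c : F) (v : Fin 2 → F), v ≠ 0 → (g : Matrix (Fin 2) (Fin 2) F).mulVec v ≠ c • v) →
      (((g ^ ((Fintype.card F + 1) / 2)) : Matrix (Fin 2) (Fin 2) F) = 1 → χ g = -1) ∧ (((g ^ ((Fintype.card F + 1) / 2)) : Matrix (Fin 2) (Fin 2) F) ≠ 1 → χ g = 1)) := by
  classical
  obtain ⟨k, ⟨D⟩⟩ := H34.Deg.exists_oddData F hodd
  have h2 := D.two_ne
  have hk := D.hk
  have h3 : 2 ≤ k := by omega
  have e2 : (Fintype.card F + 1) / 2 = k + 1 := by omega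
  have e3 : (Fintype.card F - 1) / 2 = k := by omega
  have hb := D.by_deg h3 ⟨χ, hχ⟩
  have hd := D.deg_eq_iff ⟨χ, hχ⟩
  simp only at hd
  rw [e2, e3]
  constructor
  · intro h h01 h10 h00
    obtain ⟨ha, hbc⟩ := hb.2.2.2.1.1 ((hd _).1 h)
    have h4 : χ g = H39.eta F (g 0 0) := D.half_split ⟨χ, hχ⟩ ha hbc h01 h10 h00
    have hg00 : (g : Matrix (Fin 2) (Fin 2) F) 0 0 ≠ 0 := by
      intro h5
      have h6 := H41.det_eq g
      have h7 : g 0 0 = 0 := h5
      have h8 : g 0 1 = 0 := h01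
      rw [h7, h8, zero_mul, zero_mul, sub_zero] at h6
      exact zero_ne_one h6
    rw [h4, H39.eta_apply]
    constructor
    · intro hsq
      have h5 : quadraticChar F (g 0 0) = 1 := (quadraticChar_one_iff_isSquare hg00).2 hsq
      rw [h5]; norm_num
    · intro hsq
      have h5 : quadraticChar F (g 0 0) = -1 := quadraticChar_neg_one_iff_not_isSquare.2 hsq
      rw [h5]; norm_num
  · intro h hell
    obtain ⟨ha, hbc⟩ := hb.2.2.2.2.2.1 ((hd _).1 h)
    obtain ⟨h4, h5⟩ := D.half_value h3 ⟨χ, hχ⟩ ha hbc (H41.noEig_of_no_eigenvector g hell)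
    have hpow : ((g ^ (k + 1) : Matrix.SpecialLinearGroup (Fin 2) F) : Matrix (Fin 2) (Fin 2) F) = 1 ↔ g ^ (k + 1) = 1 := by
      constructor
      · intro h; exact Subtype.ext h
      · intro h; rw [h]; rfl
    have hcoe : (g : Matrix (Fin 2) (Fin 2) F) ^ (k + 1) = ((g ^ (k + 1) : Matrix.SpecialLinearGroup (Fin 2) F) : Matrix (Fin 2) (Fin 2) F) :=
      (Matrix.SpecialLinearGroup.coe_pow g (k + 1)).symm
    constructor
    · intro h6
      exact h4 (hpow.1 (by first | exact h6 | (rw [← hcoe]; exact h6)))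
    · intro h6
      exact h5 (fun h7 => h6 (by first | exact hpow.2 h7 | (rw [hcoe]; exact hpow.2 h7)))

end Cfsg.Agent.S2435
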