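import Cfsg.Statements.S2437
import Cfsg.Agent.H41.Borel

set_option autoImplicit false
open Cfsg

namespace Cfsg.Agent.S2437

open Cfsg.Agent.H41

theorem sq_eq_one_units {F : Type*} [Field F] (a : Fˣ) : a ^ 2 = 1 ↔ a = 1 ∨ a = -1 := by
  constructor
  · intro h
    have h1 : (a : F) ^ 2 = 1 := by rw [← Units.val_pow_eq_pow_val, h, Units.val_one]
    rcases sq_eq_one_iff.mp h1 with h2 | h2
    · left; exact Units.ext h2
    · right; exact Units.ext (by simpa using h2)
  · rintro (rfl | rfl) <;> simp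

theorem card_sq_one {F : Type*} [Field F] (h2 : (2 : F) ≠ 0) : Nat.card {a : Fˣ // a ^ 2 = 1} = 2 := by
  classical
  have hne : (1 : Fˣ) ≠ -1 := by
    intro h
    have := congrArg Units.val h
    simp at this
    apply h2
    linear_combination this
  have e : ∀ a : Fˣ, a ^ 2 = 1 ↔ a ∈ ({1, -1} : Finset Fˣ) := by
    intro a
    rw [Finset.mem_insert, Finset.mem_singleton]
    exact sq_eq_one_units a
  rw [Nat.card_congr (Equiv.subtypeEquivRight e), Nat.card_eq_fintype_card, Fintype.card_coe, Finset.card_pair hne]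

/-- Over a finite field F with q elements, q odd, the upper triangular subgroup of SL₂ (a Borel subgroup, of order q(q − 1)) has exactly q + 3 conjugacy classes. -/
theorem result {F : Type*} [Field F] [Fintype F] (hodd : Odd (Fintype.card F)) :
    Nat.card (ConjClasses ((Cfsg.upperTriangularGL 2 F).comap Matrix.SpecialLinearGroup.toGL)) = Fintype.card F + 3 := by
  classical
  have h2 : (2 : F) ≠ 0 := by
    apply Ring.two_ne_zero
    intro h
    have := FiniteField.even_card_of_char_two h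
    exact (Nat.not_even_iff_odd.mpr hodd) (Nat.even_iff.mpr this)
  have hq : 1 < Fintype.card F := Fintype.one_lt_card
  have h1 := card_comm_eq_card_conjClasses_mul_card (borel F)
  rw [card_commuting_borel, card_borel] at h1
  have h4 : Nat.card {p : Fˣ × Fˣ // p.1 ^ 2 = 1 ∧ p.2 ^ 2 = 1} = 4 := by
    rw [Nat.card_congr (Equiv.subtypeProdEquivProd (p := fun a : Fˣ => a ^ 2 = 1) (q := fun a : Fˣ => a ^ 2 = 1)), Nat.card_prod, card_sq_one h2]
  have hcompl : Nat.card {p : Fˣ × Fˣ // p.1 ^ 2 = 1 ∧ p.2 ^ 2 = 1} +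
      Nat.card {p : Fˣ × Fˣ // ¬ (p.1 ^ 2 = 1 ∧ p.2 ^ 2 = 1)} = (Nat.card F - 1) * (Nat.card F - 1) := by
    rw [← Nat.card_units, ← Nat.card_prod, ← Nat.card_sum]
    exact Nat.card_congr (Equiv.sumCompl _)
  rw [h4] at h1 hcompl
  rw [Nat.card_eq_fintype_card (α := F)] at h1 hcompl
  change Nat.card (ConjClasses (borel F)) = _
  set X := Nat.card {p : Fˣ × Fˣ // ¬ (p.1 ^ 2 = 1 ∧ p.2 ^ 2 = 1)} with hX
  obtain ⟨n, hn⟩ := Nat.exists_eq_add_of_lt hq
  obtain ⟨m, hm⟩ := hodd
  have hn' : Fintype.card F = n + 2 := by omega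
  rw [hn'] at h1 hcompl ⊢
  have e1 : n + 2 - 1 = n + 1 := by omega
  rw [e1] at h1 hcompl
  have key : (n + 2 + 3) * ((n + 1) * (n + 2)) = Nat.card (ConjClasses (borel F)) * ((n + 1) * (n + 2)) := by
    rw [← h1]
    zify at hcompl ⊢
    linear_combination (-((n : ℤ) + 2)) * hcompl
  exact (Nat.eq_of_mul_eq_mul_right (by positivity) key).symm

end Cfsg.Agent.S2437
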