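import Cfsg.Statements.S2531
import Mathlib

set_option autoImplicit false
open Cfsg

namespace Cfsg.Agent.S2531

/-- Let `F` be a finite field and `n ≥ 3`. No set of permutations of the points of the projective space of `Fⁿ`, each induced by an invertible semilinear transformation of `Fⁿ` (so a subset of the full projective semilinear group), is sharply 2-transitive on the points: it is impossible that for all pairs of distinct points `(a, b)` and `(c, d)` exactly one member of the set sends `a` to `c` and `b` to `d`. -/
theorem result {F : Type*} [Field F] [Finite F]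
    (n : ℕ) (hn : 3 ≤ n) (S : Set (Equiv.Perm (Projectivization F (Fin n → F))))
    (hS : ∀ s ∈ S, ∃ (σ : F ≃+* F) (f : (Fin n → F) →ₛₗ[(σ : F →+* F)] (Fin n → F)) (hf : Function.Injective f),
      ∀ x, s x = Projectivization.map f hf x) :
    ¬ (∀ a b c d : Projectivization F (Fin n → F), a ≠ b → c ≠ d →
        ∃! s, s ∈ S ∧ s a = c ∧ s b = d) := by
  classical
  intro H
  obtain ⟨m, rfl⟩ : ∃ m, n = m + 1 := ⟨n - 1, by omega⟩
  have hm : 2 ≤ m := by omega
  haveI : Fintype F := Fintype.ofFinite F
  set q := Fintype.card F with hq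
  have hq2 : 2 ≤ q := Fintype.one_lt_card
  let i0 : Fin m := ⟨0, by omega⟩
  let i1 : Fin m := ⟨1, by omega⟩
  have hi : i0 ≠ i1 := by
    intro h
    have := congrArg Fin.val h
    simp [i0, i1] at this
  let av : Fin (m + 1) → F := Fin.cons 1 (0 : Fin m → F)
  let e1 : Fin (m + 1) → F := Fin.cons 0 (Pi.single i0 1 : Fin m → F)
  let e2 : Fin (m + 1) → F := Fin.cons 0 (Pi.single i1 1 : Fin m → F)
  let bv : Option F → (Fin (m + 1) → F) := fun t => t.elim e2 (fun t => e1 + t • e2)
  let cv : (Fin m → F) → (Fin (m + 1) → F) := fun w => Fin.cons 1 w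
  have hav : av ≠ 0 := by
    intro h
    have := congrFun h 0
    simp [av] at this
  have hbv0 : ∀ t, bv t 0 = 0 := by
    intro t
    cases t with
    | none => simp [bv, e2]
    | some t => simp [bv, e1, e2]
  have hbv : ∀ t, bv t ≠ 0 := by
    intro t h
    cases t with
    | none =>
      have := congrFun h i1.succ
      simp [bv, e2] at this
    | some t =>
      have := congrFun h i0.succ
      simp [bv, e1, e2, Pi.single_eq_of_ne hi] at this
  have hcv0 : ∀ w, cv w 0 = 1 := fun w => by simp [cv]
  have hcv : ∀ w, cv w ≠ 0 := by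
    intro w h
    have := congrFun h 0
    simp [cv] at this
  let a : Projectivization F (Fin (m + 1) → F) := Projectivization.mk F av hav
  let b : Option F → Projectivization F (Fin (m + 1) → F) := fun t => Projectivization.mk F (bv t) (hbv t)
  let c : (Fin m → F) → Projectivization F (Fin (m + 1) → F) := fun w => Projectivization.mk F (cv w) (hcv w)
  have hab : ∀ t, a ≠ b t := by
    intro t h
    obtain ⟨α, hα⟩ := (Projectivization.mk_eq_mk_iff' F _ _ _ _).mp h
    have := congrFun hα 0
    simp [hbv0, av] at this
  have hac : ∀ w, w ≠ 0 → a ≠ c w := by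
    intro w hw h
    obtain ⟨α, hα⟩ := (Projectivization.mk_eq_mk_iff' F _ _ _ _).mp h
    have h0 := congrFun hα 0
    rw [Pi.smul_apply, hcv0] at h0
    have hα1 : α = 1 := by simpa [av] using h0
    apply hw
    funext i
    have h1 := congrFun hα i.succ
    simpa [hα1, cv, av] using h1
  have hcinj : ∀ w w', c w = c w' → w = w' := by
    intro w w' h
    obtain ⟨α, hα⟩ := (Projectivization.mk_eq_mk_iff' F _ _ _ _).mp h
    have h0 := congrFun hα 0
    rw [Pi.smul_apply, hcv0, hcv0] at h0
    have hα1 : α = 1 := by simpa using h0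
    funext i
    have h1 := congrFun hα i.succ
    simpa [hα1, cv] using h1.symm
  -- the incidence predicate
  let Q : Equiv.Perm (Projectivization F (Fin (m + 1) → F)) → Option F → Prop :=
    fun s t => ∃ w : Fin m → F, w ≠ 0 ∧ s (b t) = c w
  have hQ : ∀ s ∈ S, s a = a → (Finset.univ.filter (Q s)).card = 0 ∨ (Finset.univ.filter (Q s)).card = q := by
    intro s hs hsa
    obtain ⟨σ, f, hf, hsf⟩ := hS s hs
    have key : ∀ t, Q s t ↔ f (bv t) 0 ≠ 0 := by
      intro t
      have hfb : f (bv t) ≠ 0 := by
        intro h
        exact hbv t (hf (by rw [h, map_zero]))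
      have hsb : s (b t) = Projectivization.mk F (f (bv t)) hfb := by
        rw [hsf]
        rfl
      constructor
      · rintro ⟨w, hw, hw2⟩ h0
        rw [hsb] at hw2
        obtain ⟨α, hα⟩ := (Projectivization.mk_eq_mk_iff' F _ _ _ _).mp hw2
        have h1 := congrFun hα 0
        rw [Pi.smul_apply, hcv0, h0, smul_eq_mul, mul_one] at h1
        rw [h1, zero_smul] at hα
        exact hfb hα.symm
      · intro h0
        refine ⟨fun i => (f (bv t) 0)⁻¹ * f (bv t) i.succ, ?_, ?_⟩
        · intro hw
          apply hab t
          apply s.injective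
          rw [hsa, hsb]
          refine (Projectivization.mk_eq_mk_iff' F _ _ _ _).mpr ⟨(f (bv t) 0)⁻¹, ?_⟩
          funext i
          refine Fin.cases ?_ (fun j => ?_) i
          · simp [av, h0]
          · have := congrFun hw j
            simpa [av] using this
        · rw [hsb]
          refine (Projectivization.mk_eq_mk_iff' F _ _ _ _).mpr ⟨f (bv t) 0, ?_⟩
          funext i
          refine Fin.cases ?_ (fun j => ?_) i
          · simp [cv]
          · simp only [cv, Pi.smul_apply, Fin.cons_succ, smul_eq_mul]
            rw [← mul_assoc, mul_inv_cancel₀ h0, one_mul]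
    have hval : ∀ t : F, f (bv (some t)) 0 = f e1 0 + σ t * f e2 0 := by
      intro t
      show f (e1 + t • e2) 0 = _
      rw [map_add, f.map_smulₛₗ]
      rfl
    have hvaln : f (bv none) 0 = f e2 0 := rfl
    by_cases hall : ∀ t, f (bv t) 0 = 0
    · left
      rw [Finset.card_eq_zero, Finset.filter_eq_empty_iff]
      intro t _
      rw [key]
      exact fun h => h (hall t)
    · right
      have huniq : ∃ t0, ∀ t, f (bv t) 0 = 0 ↔ t = t0 := by
        by_cases hy : f e2 0 = 0
        · refine ⟨none, fun t => ?_⟩
          cases t with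
          | none => simp [hvaln, hy]
          | some t =>
            rw [hval, hy, mul_zero, add_zero]
            constructor
            · intro hx
              exfalso
              apply hall
              intro t'
              cases t' with
              | none => rw [hvaln, hy]
              | some t' => rw [hval, hy, mul_zero, add_zero, hx]
            · intro h
              exact absurd h (by simp)
        · refine ⟨some (σ.symm (-(f e1 0) / f e2 0)), fun t => ?_⟩
          cases t with
          | none =>
            rw [hvaln]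
            constructor
            · intro h; exact absurd h hy
            · intro h; exact absurd h (by simp)
          | some t =>
            rw [hval, Option.some_inj]
            constructor
            · intro h
              rw [eq_comm, RingEquiv.symm_apply_eq, div_eq_iff hy]
              exact neg_eq_of_add_eq_zero_right h
            · intro h
              rw [h, RingEquiv.apply_symm_apply, div_mul_cancel₀ _ hy, add_neg_cancel]
      obtain ⟨t0, ht0⟩ := huniq
      have : Finset.univ.filter (Q s) = Finset.univ.erase t0 := by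
        ext t
        simp only [Finset.mem_filter, Finset.mem_univ, true_and, Finset.mem_erase, and_true]
        rw [key, Ne, ht0]
      rw [this, Finset.card_erase_of_mem (Finset.mem_univ _), Finset.card_univ, Fintype.card_option]
      rfl
  haveI : Finite (Projectivization F (Fin (m + 1) → F)) := Quotient.finite _
  haveI : Fintype (Projectivization F (Fin (m + 1) → F)) := Fintype.ofFinite _
  let Sa : Finset (Equiv.Perm (Projectivization F (Fin (m + 1) → F))) :=
    Finset.univ.filter (fun s => s ∈ S ∧ s a = a)
  let T : Finset (Σ _ : Equiv.Perm (Projectivization F (Fin (m + 1) → F)), Option F) :=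
    Sa.sigma (fun s => Finset.univ.filter (Q s))
  have hT1 : q ∣ T.card := by
    rw [Finset.card_sigma]
    apply Finset.dvd_sum
    intro s hs
    have hs' := (Finset.mem_filter.mp hs).2
    rcases hQ s hs'.1 hs'.2 with h | h
    · rw [h]; exact dvd_zero _
    · rw [h]
  have hex : ∀ x : Option F × {w : Fin m → F // w ≠ 0}, ∃ s, s ∈ S ∧ s a = a ∧ s (b x.1) = c x.2.1 := by
    intro x
    obtain ⟨s, hs, -⟩ := H a (b x.1) a (c x.2.1) (hab _) (hac _ x.2.2)
    exact ⟨s, hs⟩
  choose g hg using hex
  have hT2 : (Finset.univ : Finset (Option F × {w : Fin m → F // w ≠ 0})).card = T.card := by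
    refine Finset.card_bij (fun x _ => ⟨g x, x.1⟩) ?_ ?_ ?_
    · intro x _
      simp only [T, Sa, Finset.mem_sigma, Finset.mem_filter, Finset.mem_univ, true_and]
      exact ⟨⟨(hg x).1, (hg x).2.1⟩, x.2.1, x.2.2, (hg x).2.2⟩
    · intro x _ y _ hxy
      have h1 : g x = g y := congrArg Sigma.fst hxy
      have h2 : x.1 = y.1 := congrArg (fun z : (Σ _ : Equiv.Perm (Projectivization F (Fin (m + 1) → F)), Option F) => z.2) hxy
      have h3 : c x.2.1 = c y.2.1 := by
        rw [← (hg x).2.2, ← (hg y).2.2, h1, h2]
      exact Prod.ext h2 (Subtype.ext (hcinj _ _ h3))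
    · rintro ⟨s, t⟩ hst
      simp only [T, Sa, Finset.mem_sigma, Finset.mem_filter, Finset.mem_univ, true_and] at hst
      obtain ⟨⟨hs, hsa⟩, w, hw, hsw⟩ := hst
      refine ⟨(t, ⟨w, hw⟩), Finset.mem_univ _, ?_⟩
      have h1 : g (t, ⟨w, hw⟩) = s :=
        (H a (b t) a (c w) (hab _) (hac _ hw)).unique (hg (t, ⟨w, hw⟩)) ⟨hs, hsa, hsw⟩
      simp only [h1]
  have hcard : (Finset.univ : Finset (Option F × {w : Fin m → F // w ≠ 0})).card = (q + 1) * (q ^ m - 1) := by
    rw [Finset.card_univ, Fintype.card_prod, Fintype.card_option, Fintype.card_subtype_compl,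
      Fintype.card_subtype_eq, Fintype.card_fun, Fintype.card_fin]
  rw [← hT2, hcard] at hT1
  obtain ⟨m', rfl⟩ : ∃ m', m = m' + 1 := ⟨m - 1, by omega⟩
  have h1 : 1 ≤ q ^ (m' + 1) := Nat.one_le_pow _ _ (by omega)
  obtain ⟨k, hk⟩ := hT1
  -- (q+1)(q^m - 1) = q k
  have h2 : (q + 1) * (q ^ (m' + 1) - 1) + 1 = q * (q ^ (m' + 1) + q ^ m' - 1) := by
    have h3 : 1 ≤ q ^ (m' + 1) + q ^ m' := le_trans h1 (Nat.le_add_right _ _)
    zify [h1, h3]
    ring
  rw [hk] at h2
  have h4 : q ∣ 1 := by
    have h5 : q ∣ q * k + 1 := by rw [h2]; exact Dvd.intro _ rfl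
    exact (Nat.dvd_add_right (Dvd.intro _ rfl)).mp h5
  have := Nat.dvd_one.mp h4
  omega

end Cfsg.Agent.S2531
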