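import Cfsg.Statements.S2532
import Mathlib

set_option autoImplicit false
open Cfsg

namespace Cfsg.Agent.S2532

/-- There is a function `f` of two natural-number arguments such that, whenever `m ≥ f(n, r)`, every subgroup of order `n` of the alternating group of degree `m` centralizes some subgroup of that alternating group isomorphic to the alternating group of degree `r`. -/
theorem result :
    ∃ f : ℕ → ℕ → ℕ, ∀ (m r : ℕ) (H : Subgroup ↥(alternatingGroup (Fin m))), f (Nat.card H) r ≤ m →
      ∃ K : Subgroup ↥(alternatingGroup (Fin m)), Nonempty (↥K ≃* ↥(alternatingGroup (Fin r))) ∧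
        K ≤ Subgroup.centralizer (H : Set ↥(alternatingGroup (Fin m))) := by
  classical
  refine ⟨fun n r => n * (2 ^ n * r), fun m r H hm => ?_⟩
  haveI : Fintype H := Fintype.ofFinite H
  set n := Nat.card H with hn
  have hn0 : 0 < n := Nat.card_pos
  let Q := MulAction.orbitRel.Quotient H (Fin m)
  haveI : Finite Q := Quotient.finite _
  haveI : Fintype Q := Fintype.ofFinite Q
  -- number of orbits
  have hQ : m ≤ n * Fintype.card Q := by
    have h1 : Function.Surjective (fun p : H × Q => p.1 • (Quotient.out p.2 : Fin m)) := by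
      intro y
      have h2 : (Quotient.out (Quotient.mk'' y : Q) : Fin m) ∈ MulAction.orbit H y := by
        have := Quotient.out_eq' (Quotient.mk'' y : Q)
        rw [Quotient.eq''] at this
        exact this
      obtain ⟨h, hh⟩ := h2
      refine ⟨(h⁻¹, Quotient.mk'' y), ?_⟩
      show h⁻¹ • (Quotient.out (Quotient.mk'' y : Q) : Fin m) = y
      rw [← hh]
      simp
    have h2 := Fintype.card_le_of_surjective _ h1
    rw [Fintype.card_fin, Fintype.card_prod] at h2
    rwa [hn, Nat.card_eq_fintype_card]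
  haveI : Finite (Subgroup H) := inferInstance
  haveI : Fintype (Subgroup H) := Fintype.ofFinite _
  have hsub : Fintype.card (Subgroup H) ≤ 2 ^ n := by
    have h1 := Fintype.card_le_of_injective (fun K : Subgroup H => (K : Set H)) SetLike.coe_injective
    rw [Fintype.card_set] at h1
    rwa [hn, Nat.card_eq_fintype_card]
  have hcount : Fintype.card (Subgroup H) * r ≤ Fintype.card Q := by
    have h1 : n * (2 ^ n * r) ≤ n * Fintype.card Q := hm.trans hQ
    have h2 := Nat.le_of_mul_le_mul_left h1 hn0
    exact (Nat.mul_le_mul_right r hsub).trans h2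
  obtain ⟨L, hL⟩ := Fintype.exists_le_card_fiber_of_mul_le_card
    (fun o : Q => MulAction.stabilizer H (Quotient.out o : Fin m)) hcount
  obtain ⟨t, ht, htc⟩ := Finset.exists_subset_card_eq hL
  let eq := t.equivFinOfCardEq htc
  let x : Fin r → Fin m := fun i => Quotient.out (eq.symm i : Q)
  have hxstab : ∀ i, MulAction.stabilizer H (x i) = L := by
    intro i
    have := ht (eq.symm i).2
    exact (Finset.mem_filter.mp this).2
  have hxorb : ∀ (i j : Fin r) (h : H), h • x i = x j → i = j := by
    intro i j h hij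
    have h1 : (Quotient.mk'' (x j) : Q) = Quotient.mk'' (x i) := by
      rw [Quotient.eq'']
      exact ⟨h, hij⟩
    have h2 : (Quotient.mk'' (x i) : Q) = (eq.symm i : Q) := Quotient.out_eq' _
    have h3 : (Quotient.mk'' (x j) : Q) = (eq.symm j : Q) := Quotient.out_eq' _
    rw [h2, h3] at h1
    exact (eq.symm.injective (Subtype.ext h1)).symm
  -- embedding
  let E : (H ⧸ L) × Fin r → Fin m := fun p =>
    Quotient.liftOn' p.1 (fun h : H => h • x p.2) (by
      intro a b hab
      rw [QuotientGroup.leftRel_apply, ← hxstab p.2, MulAction.mem_stabilizer_iff] at hab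
      show a • x p.2 = b • x p.2
      conv_lhs => rw [← hab, smul_smul, mul_inv_cancel_left])
  have hE : ∀ (h : H) (i : Fin r), E ((h : H ⧸ L), i) = h • x i := fun h i => rfl
  have hEinj : Function.Injective E := by
    rintro ⟨a, i⟩ ⟨b, j⟩ hab
    induction a using QuotientGroup.induction_on with | H a => ?_
    induction b using QuotientGroup.induction_on with | H b => ?_
    rw [hE, hE] at hab
    have h1 : (b⁻¹ * a) • x i = x j := by rw [mul_smul, hab, inv_smul_smul]
    have hij := hxorb i j _ h1
    subst hij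
    have h2 : b⁻¹ * a ∈ L := by rw [← hxstab i]; exact h1
    have h3 : (a : H ⧸ L) = (b : H ⧸ L) := (QuotientGroup.eq.mpr h2).symm
    rw [h3]
  have hEsmul : ∀ (h : H) (c : H ⧸ L) (i : Fin r), h • E (c, i) = E (h • c, i) := by
    intro h c i
    induction c using QuotientGroup.induction_on with | H c => ?_
    rw [hE, smul_smul]
    rfl
  let f : (H ⧸ L) × Fin r ≃ Set.range E := Equiv.ofInjective E hEinj
  let ψ : Equiv.Perm (Fin r) →* Equiv.Perm ((H ⧸ L) × Fin r) :=
    { toFun := fun σ => Equiv.prodCongrRight (fun _ => σ)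
      map_one' := by ext p <;> rfl
      map_mul' := by intro a b; ext p <;> rfl }
  have hψ : ∀ σ (c : H ⧸ L) i, ψ σ (c, i) = (c, σ i) := fun σ c i => rfl
  have hψinj : Function.Injective ψ := by
    intro σ τ h
    ext i
    have := congrArg (fun π : Equiv.Perm ((H ⧸ L) × Fin r) => (π (((1 : H) : H ⧸ L), i)).2) h
    exact congrArg Fin.val this
  let φ : Equiv.Perm (Fin r) →* Equiv.Perm (Fin m) := (Equiv.Perm.extendDomainHom f).comp ψ
  have hφinj : Function.Injective φ := (Equiv.Perm.extendDomainHom_injective f).comp hψinj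
  have hφ1 : ∀ σ c i, φ σ (E (c, i)) = E (c, σ i) := by
    intro σ c i
    have h1 : (f (c, i) : Fin m) = E (c, i) := rfl
    show (ψ σ).extendDomain f (E (c, i)) = E (c, σ i)
    rw [← h1, Equiv.Perm.extendDomain_apply_image]
    rfl
  have hφ2 : ∀ σ y, y ∉ Set.range E → φ σ y = y := by
    intro σ y hy
    exact Equiv.Perm.extendDomain_apply_not_subtype _ f hy
  have hsign : ∀ σ : Equiv.Perm (Fin r), σ ∈ alternatingGroup (Fin r) → φ σ ∈ alternatingGroup (Fin m) := by
    intro σ hσ
    rw [Equiv.Perm.mem_alternatingGroup] at hσ ⊢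
    show Equiv.Perm.sign ((ψ σ).extendDomain f) = 1
    rw [Equiv.Perm.sign_extendDomain]
    show Equiv.Perm.sign (Equiv.prodCongrRight (fun _ : H ⧸ L => σ)) = 1
    rw [Equiv.Perm.sign_prodCongrRight]
    simp [hσ]
  let θ : alternatingGroup (Fin r) →* alternatingGroup (Fin m) :=
    { toFun := fun σ => ⟨φ σ.1, hsign σ.1 σ.2⟩
      map_one' := Subtype.ext (map_one φ)
      map_mul' := fun a b => Subtype.ext (map_mul φ a.1 b.1) }
  have hθinj : Function.Injective θ := by
    intro a b h
    have := congrArg Subtype.val h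
    exact Subtype.ext (hφinj this)
  refine ⟨θ.range, ⟨(MonoidHom.ofInjective hθinj).symm⟩, ?_⟩
  rintro _ ⟨σ, rfl⟩
  rw [Subgroup.mem_centralizer_iff]
  intro h hh
  apply Subtype.ext
  ext y
  congr 1
  show (h : Equiv.Perm (Fin m)) (φ σ.1 y) = φ σ.1 ((h : Equiv.Perm (Fin m)) y)
  have hsm : ∀ z : Fin m, (h : Equiv.Perm (Fin m)) z = (⟨h, hh⟩ : H) • z := fun z => rfl
  by_cases hy : y ∈ Set.range E
  · obtain ⟨⟨c, i⟩, rfl⟩ := hy
    rw [hφ1, hsm, hsm, hEsmul, hEsmul, hφ1]
  · rw [hφ2 _ _ hy, hφ2]
    intro hy2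
    apply hy
    obtain ⟨⟨c, i⟩, hci⟩ := hy2
    refine ⟨((⟨h, hh⟩ : H)⁻¹ • c, i), ?_⟩
    rw [← hEsmul, hci, hsm, inv_smul_smul]

end Cfsg.Agent.S2532
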