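import Cfsg.Statements.S2533
import Cfsg.Agent.H42.PSLOrd

set_option autoImplicit false
open Cfsg

namespace Cfsg.Agent.S2533

open Module

/-- generalized dihedral group of order `2 p ^ 3` -/
structure HG (p : ℕ) where
  v : Fin 3 → ZMod p
  e : ℤˣ

namespace HG

variable {p : ℕ}

theorem ext' {a b : HG p} (h1 : a.v = b.v) (h2 : a.e = b.e) : a = b := by
  cases a; cases b; cases h1; cases h2; rfl

instance instMulHG : Mul (HG p) := ⟨fun a b => ⟨a.v + a.e • b.v, a.e * b.e⟩⟩
instance instOneHG : One (HG p) := ⟨⟨0, 1⟩⟩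
instance instInvHG : Inv (HG p) := ⟨fun a => ⟨-(a.e⁻¹ • a.v), a.e⁻¹⟩⟩

theorem mul_v (a b : HG p) : (a * b).v = a.v + a.e • b.v := rfl
theorem mul_e (a b : HG p) : (a * b).e = a.e * b.e := rfl
theorem one_v : (1 : HG p).v = 0 := rfl
theorem one_e : (1 : HG p).e = 1 := rfl
theorem inv_v (a : HG p) : (a⁻¹).v = -(a.e⁻¹ • a.v) := rfl
theorem inv_e (a : HG p) : (a⁻¹).e = a.e⁻¹ := rfl

instance instGroupHG : Group (HG p) :=
  Group.ofLeftAxioms
    (fun a b c => ext' (by rw [mul_v, mul_v, mul_v, mul_v, mul_e, smul_add, mul_smul, add_assoc])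
      (by rw [mul_e, mul_e, mul_e, mul_e, mul_assoc]))
    (fun a => ext' (by rw [mul_v, one_v, one_e, one_smul, zero_add]) (by rw [mul_e, one_e, one_mul]))
    (fun a => ext' (by rw [mul_v, inv_v, inv_e, one_v, neg_add_cancel]) (by rw [mul_e, inv_e, one_e, inv_mul_cancel]))

def equivProd : HG p ≃ (Fin 3 → ZMod p) × ℤˣ where
  toFun a := (a.v, a.e)
  invFun a := ⟨a.1, a.2⟩
  left_inv _ := rfl
  right_inv _ := rfl

end HG

section maps

variable (F : Type) [Field F] (m : ℕ)

def A1 : (Fin m → F) →ₗ[F] (Fin (m + 1) → F) where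
  toFun x := Fin.snoc (α := fun _ => F) x 0
  map_add' x y := by
    funext i
    refine Fin.lastCases ?_ (fun j => ?_) i <;> simp
  map_smul' c x := by
    funext i
    refine Fin.lastCases ?_ (fun j => ?_) i <;> simp

def A2 : (Fin m → F) →ₗ[F] (Fin (m + 1) → F) where
  toFun x := Fin.cons (α := fun _ => F) 0 x
  map_add' x y := by
    funext i
    refine Fin.cases ?_ (fun j => ?_) i <;> simp
  map_smul' c x := by
    funext i
    refine Fin.cases ?_ (fun j => ?_) i <;> simp

theorem A1_apply (x : Fin m → F) : A1 F m x = Fin.snoc (α := fun _ => F) x 0 := rfl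
theorem A2_apply (x : Fin m → F) : A2 F m x = Fin.cons (α := fun _ => F) 0 x := rfl

variable {F m}

/-- the brick property of the Kronecker module -/
theorem brick (hm : 0 < m) (X : (Fin m → F) →ₗ[F] (Fin m → F)) (Y : (Fin (m + 1) → F) →ₗ[F] (Fin (m + 1) → F))
    (h1 : ∀ x, Y (A1 F m x) = A1 F m (X x)) (h2 : ∀ x, Y (A2 F m x) = A2 F m (X x)) :
    ∃ c : F, X = c • LinearMap.id ∧ Y = c • LinearMap.id := by
  classical
  let a : ℕ → ℕ → F := fun i j => if h : i < m ∧ j < m then X (Pi.single ⟨i, h.1⟩ 1) ⟨j, h.2⟩ else 0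
  have ha : ∀ (i j : ℕ) (hi : i < m) (hj : j < m), a i j = X (Pi.single ⟨i, hi⟩ 1) ⟨j, hj⟩ := by
    intro i j hi hj
    simp only [a, dif_pos (And.intro hi hj)]
  have hshift : ∀ (i : ℕ) (hi : i + 1 < m), A2 F m (Pi.single ⟨i, by omega⟩ 1) = A1 F m (Pi.single ⟨i + 1, hi⟩ 1) := by
    intro i hi
    rw [A1_apply, A2_apply]
    funext j
    by_cases hj : j.val = i + 1
    · have hj1 : j = Fin.succ ⟨i, by omega⟩ := by ext; simpa using hj
      have hj2 : j = Fin.castSucc ⟨i + 1, hi⟩ := by ext; simpa using hj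
      conv_lhs => rw [hj1, Fin.cons_succ, Pi.single_eq_same]
      conv_rhs => rw [hj2, Fin.snoc_castSucc, Pi.single_eq_same]
    · have hl : (Fin.cons (α := fun _ => F) 0 (Pi.single ⟨i, by omega⟩ 1 : Fin m → F)) j = 0 := by
        refine Fin.cases (motive := fun j => j.val ≠ i + 1 →
          (Fin.cons (α := fun _ => F) 0 (Pi.single ⟨i, by omega⟩ 1 : Fin m → F)) j = 0) ?_ (fun k hk => ?_) j hj
        · intro _; rfl
        · rw [Fin.cons_succ, Pi.single_eq_of_ne]
          intro h
          apply hk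
          rw [h]
          rfl
      have hr : (Fin.snoc (α := fun _ => F) (Pi.single ⟨i + 1, hi⟩ 1 : Fin m → F) 0) j = 0 := by
        refine Fin.lastCases (motive := fun j => j.val ≠ i + 1 →
          (Fin.snoc (α := fun _ => F) (Pi.single ⟨i + 1, hi⟩ 1 : Fin m → F) 0) j = 0) ?_ (fun k hk => ?_) j hj
        · intro _; simp
        · rw [Fin.snoc_castSucc, Pi.single_eq_of_ne]
          intro h
          apply hk
          rw [h]
          rfl
      rw [hl, hr]
  have hrel : ∀ (i : ℕ) (hi : i + 1 < m), A1 F m (X (Pi.single ⟨i + 1, hi⟩ 1)) =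
      A2 F m (X (Pi.single ⟨i, by omega⟩ 1)) := by
    intro i hi
    rw [← h1, ← h2, hshift i hi]
  have P1 : ∀ i, i + 1 < m → a (i + 1) 0 = 0 := by
    intro i hi
    rw [ha (i + 1) 0 hi hm]
    have h3 := congrFun (hrel i hi) (Fin.castSucc ⟨0, hm⟩)
    rw [A1_apply, A2_apply, Fin.snoc_castSucc] at h3
    rw [h3]
    rfl
  have P2 : ∀ i j, i + 1 < m → j + 1 < m → a (i + 1) (j + 1) = a i j := by
    intro i j hi hj
    rw [ha _ _ hi hj, ha _ _ (by omega : i < m) (by omega : j < m)]
    have h3 := congrFun (hrel i hi) (Fin.castSucc ⟨j + 1, hj⟩)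
    rw [A1_apply, A2_apply, Fin.snoc_castSucc] at h3
    rw [h3]
    have h4 : (Fin.castSucc ⟨j + 1, hj⟩ : Fin (m + 1)) = Fin.succ ⟨j, by omega⟩ := rfl
    rw [h4, Fin.cons_succ]
  have P3 : ∀ i, i + 1 < m → a i (m - 1) = 0 := by
    intro i hi
    rw [ha _ _ (by omega : i < m) (by omega : m - 1 < m)]
    have h3 := congrFun (hrel i hi) (Fin.last m)
    rw [A1_apply, A2_apply, Fin.snoc_last] at h3
    have h4 : (Fin.last m : Fin (m + 1)) = Fin.succ ⟨m - 1, by omega⟩ := by
      ext
      simp only [Fin.val_last, Fin.val_succ]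
      omega
    rw [h4, Fin.cons_succ] at h3
    exact h3.symm
  have Q1 : ∀ j i, j < i → i < m → a i j = 0 := by
    intro j
    induction j with
    | zero =>
      intro i hi him
      obtain ⟨i', rfl⟩ : ∃ i', i = i' + 1 := ⟨i - 1, by omega⟩
      exact P1 i' him
    | succ j ih =>
      intro i hi him
      obtain ⟨i', rfl⟩ : ∃ i', i = i' + 1 := ⟨i - 1, by omega⟩
      rw [P2 i' j him (by omega)]
      exact ih i' (by omega) (by omega)
  have Q2 : ∀ k i j, j + k + 1 = m → i < j → a i j = 0 := by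
    intro k
    induction k with
    | zero =>
      intro i j hj hij
      have : j = m - 1 := by omega
      rw [this]
      exact P3 i (by omega)
    | succ k ih =>
      intro i j hj hij
      rw [← P2 i j (by omega) (by omega)]
      exact ih (i + 1) (j + 1) (by omega) (by omega)
  have Q3 : ∀ i, i < m → a i i = a 0 0 := by
    intro i
    induction i with
    | zero => intro _; rfl
    | succ i ih =>
      intro hi
      rw [P2 i i hi hi]
      exact ih (by omega)
  have hX : X = (a 0 0) • LinearMap.id := by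
    apply LinearMap.pi_ext'
    intro i
    apply LinearMap.ext_ring
    funext j
    show X (Pi.single i 1) j = (a 0 0) • (Pi.single i (1 : F) : Fin m → F) j
    have h3 := ha i j i.2 j.2
    simp only [Fin.eta] at h3
    rw [← h3]
    rcases lt_trichotomy i.val j.val with h | h | h
    · rw [Q2 (m - 1 - j.val) i j (by omega) h, Pi.single_eq_of_ne, smul_zero]
      intro h'
      rw [h'] at h
      exact lt_irrefl _ h
    · have hij : i = j := Fin.ext h
      subst hij
      rw [Q3 _ i.2, Pi.single_eq_same, smul_eq_mul, mul_one]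
    · rw [Q1 _ _ h i.2, Pi.single_eq_of_ne, smul_zero]
      intro h'
      rw [h'] at h
      exact lt_irrefl _ h
  refine ⟨a 0 0, hX, ?_⟩
  apply LinearMap.ext
  intro y
  have hy : y = A1 F m (fun i => y i.castSucc) + A2 F m (Pi.single ⟨m - 1, by omega⟩ (y (Fin.last m))) := by
    rw [A1_apply, A2_apply]
    funext j
    rw [Pi.add_apply]
    refine Fin.lastCases (motive := fun j => y j = (Fin.snoc (α := fun _ => F) (fun i => y i.castSucc) 0 : Fin (m+1) → F) j +
      (Fin.cons (α := fun _ => F) 0 (Pi.single ⟨m - 1, by omega⟩ (y (Fin.last m)) : Fin m → F) : Fin (m+1) → F) j) ?_ (fun k => ?_) j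
    · have h4 : (Fin.last m : Fin (m + 1)) = Fin.succ ⟨m - 1, by omega⟩ := by
        ext
        simp only [Fin.val_last, Fin.val_succ]
        omega
      rw [Fin.snoc_last, zero_add]
      conv_rhs => rw [h4, Fin.cons_succ, Pi.single_eq_same]
      rw [← h4]
    · rw [Fin.snoc_castSucc]
      have h5 : (Fin.cons (α := fun _ => F) 0 (Pi.single ⟨m - 1, by omega⟩ (y (Fin.last m)) : Fin m → F) : Fin (m+1) → F) k.castSucc = 0 := by
        rcases Nat.eq_zero_or_pos k.val with h | h
        · have : k.castSucc = 0 := by ext; simpa using h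
          rw [this]
          rfl
        · have : k.castSucc = Fin.succ ⟨k.val - 1, by omega⟩ := by
            ext
            simp only [Fin.val_castSucc, Fin.val_succ]
            omega
          rw [this, Fin.cons_succ, Pi.single_eq_of_ne]
          intro h'
          have := congrArg Fin.val h'
          simp only at this
          have := k.2
          omega
      rw [h5, add_zero]
  conv_lhs => rw [hy]
  rw [map_add, h1, h2, hX, LinearMap.smul_apply, LinearMap.smul_apply, LinearMap.smul_apply, map_smul, map_smul,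
    ← smul_add]
  simp only [LinearMap.id_coe, id_eq]
  rw [← hy]

variable (F m)

/-- the third arrow -/
def A3 (i0 : Fin m) : (Fin m → F) →ₗ[F] (Fin (m + 1) → F) where
  toFun x := fun j => if j = 0 then x i0 else 0
  map_add' x y := by
    funext j
    by_cases h : j = 0 <;> simp [h]
  map_smul' c x := by
    funext j
    by_cases h : j = 0 <;> simp [h]

variable {F m}

/-- the linear map attached to a vector -/
def B (i0 : Fin m) (v : Fin 3 → F) : (Fin m → F) →ₗ[F] (Fin (m + 1) → F) :=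
  v 0 • A1 F m + v 1 • A2 F m + v 2 • A3 F m i0

theorem B_add (i0 : Fin m) (v w : Fin 3 → F) (x : Fin m → F) : B i0 (v + w) x = B i0 v x + B i0 w x := by
  simp only [B, LinearMap.add_apply, LinearMap.smul_apply, Pi.add_apply, add_smul]
  abel

theorem B_smul (i0 : Fin m) (c : F) (v : Fin 3 → F) (x : Fin m → F) : B i0 (c • v) x = c • B i0 v x := by
  simp only [B, LinearMap.add_apply, LinearMap.smul_apply, Pi.smul_apply, smul_eq_mul, mul_smul, smul_add]

theorem B_eq_zero (hm : 2 ≤ m) (v : Fin 3 → F) (h : ∀ x, B (⟨0, by omega⟩ : Fin m) v x = 0) : v = 0 := by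
  have h1 := h (Pi.single ⟨m - 1, by omega⟩ 1)
  have hA3 : A3 F m ⟨0, by omega⟩ (Pi.single ⟨m - 1, by omega⟩ 1 : Fin m → F) = 0 := by
    funext j
    show (if j = 0 then (Pi.single ⟨m - 1, by omega⟩ 1 : Fin m → F) ⟨0, by omega⟩ else 0) = 0
    split_ifs
    · rw [Pi.single_eq_of_ne]
      intro h'
      have := congrArg Fin.val h'
      simp only at this
      omega
    · rfl
  have h2 : v 1 = 0 := by
    have h3 := congrFun h1 (Fin.last m)
    simp only [B, LinearMap.add_apply, LinearMap.smul_apply, hA3, smul_zero, add_zero, Pi.add_apply,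
      Pi.smul_apply, A1_apply, A2_apply, Fin.snoc_last, zero_add, smul_eq_mul] at h3
    have h4 : (Fin.last m : Fin (m + 1)) = Fin.succ ⟨m - 1, by omega⟩ := by
      ext
      simp only [Fin.val_last, Fin.val_succ]
      omega
    rw [h4, Fin.cons_succ, Pi.single_eq_same, mul_one] at h3
    simpa using h3
  have h0 : v 0 = 0 := by
    have h3 := congrFun h1 (Fin.castSucc ⟨m - 1, by omega⟩)
    simp only [B, LinearMap.add_apply, LinearMap.smul_apply, hA3, smul_zero, add_zero, Pi.add_apply,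
      Pi.smul_apply, A1_apply, A2_apply, Fin.snoc_castSucc, Pi.single_eq_same, h2, zero_mul,
      smul_eq_mul, mul_one] at h3
    simpa using h3
  have h2' : v 2 = 0 := by
    have h3 := congrFun (h (Pi.single ⟨0, by omega⟩ 1)) 0
    simp only [B, LinearMap.add_apply, LinearMap.smul_apply, Pi.add_apply, Pi.smul_apply, h0, h2,
      smul_eq_mul, zero_mul, zero_add] at h3
    have h4 : A3 F m ⟨0, by omega⟩ (Pi.single ⟨0, by omega⟩ 1 : Fin m → F) 0 = 1 := by
      show (if (0 : Fin (m + 1)) = 0 then (Pi.single ⟨0, by omega⟩ 1 : Fin m → F) ⟨0, by omega⟩ else 0) = 1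
      rw [if_pos rfl, Pi.single_eq_same]
    rw [h4, mul_one] at h3
    exact h3
  funext i
  fin_cases i
  · exact h0
  · exact h2
  · exact h2'

end maps

section rep

variable {p : ℕ} [Fact p.Prime] {m : ℕ}

/-- the sign as an element of the field -/
def sg (p : ℕ) (e : ℤˣ) : ZMod p := ((e : ℤ) : ZMod p)

theorem sg_mul (a b : ℤˣ) : sg p (a * b) = sg p a * sg p b := by simp [sg]
theorem sg_one : sg p 1 = 1 := by simp [sg]
theorem sg_sq (a : ℤˣ) : sg p a * sg p a = 1 := by
  rw [← sg_mul, Int.units_mul_self, sg_one]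

theorem smul_eq_sg (e : ℤˣ) (v : Fin 3 → ZMod p) : e • v = sg p e • v := by
  funext i
  rw [Units.smul_def]
  simp [sg]

/-- the representation -/
def Φ (i0 : Fin m) (h : HG p) : ((Fin m → ZMod p) × (Fin (m + 1) → ZMod p)) →ₗ[ZMod p]
    ((Fin m → ZMod p) × (Fin (m + 1) → ZMod p)) where
  toFun w := (sg p h.e • w.1, w.2 + B i0 h.v (sg p h.e • w.1))
  map_add' x y := by
    apply Prod.ext
    · simp
    · simp only [Prod.fst_add, Prod.snd_add, smul_add, map_add]
      abel
  map_smul' c x := by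
    apply Prod.ext
    · simp only [Prod.smul_fst, RingHom.id_apply]
      rw [smul_comm]
    · simp only [Prod.smul_fst, Prod.smul_snd, RingHom.id_apply, smul_add]
      rw [smul_comm, map_smul]

theorem Φ_apply (i0 : Fin m) (h : HG p) (w : (Fin m → ZMod p) × (Fin (m + 1) → ZMod p)) :
    Φ i0 h w = (sg p h.e • w.1, w.2 + B i0 h.v (sg p h.e • w.1)) := rfl

theorem Φ_mul (i0 : Fin m) (g h : HG p) : Φ i0 (g * h) = Φ i0 g * Φ i0 h := by
  apply LinearMap.ext
  intro w
  rw [Module.End.mul_apply, Φ_apply, Φ_apply, Φ_apply]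
  apply Prod.ext
  · simp only [HG.mul_e, sg_mul, mul_smul]
  · simp only [HG.mul_e, HG.mul_v, sg_mul]
    rw [smul_eq_sg, B_add, B_smul, add_assoc, add_comm (B i0 g.v _)]
    congr 1
    rw [mul_smul, map_smul (B i0 h.v) (sg p g.e), smul_smul, sg_sq, one_smul]

theorem Φ_one (i0 : Fin m) : Φ i0 (1 : HG p) = 1 := by
  apply LinearMap.ext
  intro w
  rw [Φ_apply]
  apply Prod.ext
  · simp [HG.one_e, sg_one]
  · show w.2 + B i0 (0 : Fin 3 → ZMod p) _ = w.2
    have : B i0 (0 : Fin 3 → ZMod p) (sg p (1 : HG p).e • w.1) = 0 := by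
      have h := B_smul i0 (0 : ZMod p) (0 : Fin 3 → ZMod p) (sg p (1 : HG p).e • w.1)
      rwa [zero_smul, zero_smul] at h
    rw [this, add_zero]

theorem Φ_pow (i0 : Fin m) (h : HG p) (k : ℕ) : Φ i0 (h ^ k) = Φ i0 h ^ k := by
  induction k with
  | zero => rw [pow_zero, pow_zero, Φ_one]
  | succ k ih => rw [pow_succ, pow_succ, Φ_mul, ih]

theorem pow_v (v : Fin 3 → ZMod p) (k : ℕ) : (⟨v, 1⟩ : HG p) ^ k = ⟨k • v, 1⟩ := by
  induction k with
  | zero => rw [pow_zero, zero_smul]; rfl
  | succ k ih =>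
    rw [pow_succ, ih]
    apply HG.ext'
    · rw [HG.mul_v]
      show k • v + (1 : ℤˣ) • v = (k + 1) • v
      rw [one_smul, succ_nsmul]
    · rw [HG.mul_e, one_mul]

theorem det_Φ (i0 : Fin m) (hm : Even m) (h : HG p) : LinearMap.det (Φ i0 h) = 1 := by
  have h1 : h = ⟨h.v, 1⟩ * ⟨0, h.e⟩ := by
    apply HG.ext'
    · rw [HG.mul_v, smul_zero, add_zero]
    · rw [HG.mul_e, one_mul]
  rw [h1, Φ_mul, map_mul]
  have h2 : LinearMap.det (Φ i0 (⟨h.v, 1⟩ : HG p)) = 1 := by
    have h3 : (LinearMap.det (Φ i0 (⟨h.v, 1⟩ : HG p))) ^ p = 1 := by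
      rw [← map_pow, ← Φ_pow, pow_v]
      have h4 : (p • h.v : Fin 3 → ZMod p) = 0 := by
        funext i
        simp
      rw [h4]
      have h5 : (⟨0, 1⟩ : HG p) = 1 := rfl
      rw [h5, Φ_one, map_one]
    rwa [ZMod.pow_card] at h3
  rw [h2, one_mul]
  have h3 : Φ i0 (⟨0, h.e⟩ : HG p) = LinearMap.prodMap (sg p h.e • LinearMap.id) LinearMap.id := by
    apply LinearMap.ext
    intro w
    rw [Φ_apply]
    apply Prod.ext
    · rfl
    · show w.2 + B i0 (0 : Fin 3 → ZMod p) _ = w.2
      have : B i0 (0 : Fin 3 → ZMod p) (sg p h.e • w.1) = 0 := by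
        have h := B_smul i0 (0 : ZMod p) (0 : Fin 3 → ZMod p) (sg p h.e • w.1)
        rwa [zero_smul, zero_smul] at h
      show w.2 + B i0 (0 : Fin 3 → ZMod p) (sg p h.e • w.1) = w.2
      rw [this, add_zero]
  rw [h3, LinearMap.det_prodMap, LinearMap.det_smul]
  simp only [LinearMap.det_id, mul_one, Module.finrank_fin_fun]
  obtain ⟨k, hk⟩ := hm
  rw [hk, pow_add, ← mul_pow, sg_sq, one_pow]

theorem Φ_snd (i0 : Fin m) (h : HG p) (y : Fin (m + 1) → ZMod p) : Φ i0 h (0, y) = (0, y) := by
  rw [Φ_apply]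
  apply Prod.ext
  · simp
  · simp

theorem Φ_fst (i0 : Fin m) (h : HG p) (x : Fin m → ZMod p) :
    Φ i0 h (x, 0) = (sg p h.e • x, B i0 h.v (sg p h.e • x)) := by
  rw [Φ_apply, zero_add]

theorem G_scalar (hp : (2 : ZMod p) ≠ 0) (i0 : Fin m)
    (G : ((Fin m → ZMod p) × (Fin (m + 1) → ZMod p)) →ₗ[ZMod p] ((Fin m → ZMod p) × (Fin (m + 1) → ZMod p)))
    (hG : Function.Injective G) (hcomm : ∀ h : HG p, ∃ c : ZMod p, G * Φ i0 h = c • (Φ i0 h * G)) :
    ∃ c : ZMod p, G = c • (1 : ((Fin m → ZMod p) × (Fin (m + 1) → ZMod p)) →ₗ[ZMod p] _) := by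
  classical
  have hneg : ∀ x : ZMod p, x = -x → x = 0 := by
    intro x hx
    have h1 : 2 * x = 0 := by
      rw [two_mul]
      nth_rewrite 1 [hx]
      exact neg_add_cancel x
    exact (mul_eq_zero.mp h1).resolve_left hp
  let t : HG p := ⟨0, -1⟩
  have ht : ∀ w : (Fin m → ZMod p) × (Fin (m + 1) → ZMod p), Φ i0 t w = (-w.1, w.2) := by
    intro w
    have h0 : ∀ x : Fin m → ZMod p, B i0 (0 : Fin 3 → ZMod p) x = 0 := by
      intro x
      have h := B_smul i0 (0 : ZMod p) (0 : Fin 3 → ZMod p) x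
      rwa [zero_smul, zero_smul] at h
    rw [Φ_apply]
    apply Prod.ext
    · simp [t, sg]
    · show w.2 + B i0 (0 : Fin 3 → ZMod p) _ = w.2
      rw [h0, add_zero]
  obtain ⟨c, hc⟩ := hcomm t
  have hc' : ∀ w, G (-w.1, w.2) = c • (-(G w).1, (G w).2) := by
    intro w
    have h1 := congrArg (fun T : ((Fin m → ZMod p) × (Fin (m + 1) → ZMod p)) →ₗ[ZMod p] _ => T w) hc
    simp only [Module.End.mul_apply, LinearMap.smul_apply] at h1
    rw [ht, ht] at h1
    exact h1
  have hcc : c * c = 1 := by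
    have h1 := hc' (0, Pi.single 0 1)
    simp only [neg_zero] at h1
    -- G w = c • (-(G w).1, (G w).2)
    set w := G ((0 : Fin m → ZMod p), (Pi.single 0 1 : Fin (m + 1) → ZMod p)) with hw
    have h2 : w.1 = c • (-w.1) := congrArg Prod.fst h1
    have h3 : w.2 = c • w.2 := congrArg Prod.snd h1
    have h4 : (c * c) • w = w := by
      apply Prod.ext
      · rw [Prod.smul_fst, mul_smul]
        have h5 : c • w.1 = -w.1 := by
          nth_rewrite 1 [h2]
          rw [smul_neg, smul_neg]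
          have : c • w.1 = -(w.1) := by
            nth_rewrite 2 [h2]
            rw [smul_neg, neg_neg]
          rw [this, smul_neg, this, neg_neg]
        rw [h5, smul_neg, h5, neg_neg]
      · rw [Prod.smul_snd, mul_smul, ← h3, ← h3]
    have h5 : w ≠ 0 := by
      intro h
      have h6 : ((0 : Fin m → ZMod p), (Pi.single 0 1 : Fin (m + 1) → ZMod p)) = 0 := hG (by rw [map_zero]; exact h)
      have h7 := congrFun (congrArg Prod.snd h6) 0
      simp at h7
    have h6 : (c * c - 1) • w = 0 := by rw [sub_smul, h4, one_smul, sub_self]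
    exact sub_eq_zero.mp ((smul_eq_zero.mp h6).resolve_right h5)
  have hc1 : c = 1 := by
    rcases mul_self_eq_one_iff.mp hcc with h | h
    · exact h
    · exfalso
      let Z : (Fin (m + 1) → ZMod p) →ₗ[ZMod p] (Fin m → ZMod p) :=
        (LinearMap.fst _ _ _).comp (G.comp (LinearMap.inr _ _ _))
      have hZ : ∀ y, (G (0, y)).2 = 0 := by
        intro y
        have h1 := hc' (0, y)
        simp only [neg_zero, h] at h1
        have h3 : (G (0, y)).2 = (-1 : ZMod p) • (G (0, y)).2 := congrArg Prod.snd h1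
        rw [neg_one_smul] at h3
        funext i
        exact hneg _ (congrFun h3 i)
      have hZinj : Function.Injective Z := by
        intro y y' hyy
        have h1 : (G (0, y)).1 = (G (0, y')).1 := hyy
        have h2 : G (0, y) = G (0, y') := Prod.ext h1 (by rw [hZ, hZ])
        exact congrArg Prod.snd (hG h2)
      have h1 := LinearMap.finrank_le_finrank_of_injective hZinj
      rw [Module.finrank_fin_fun, Module.finrank_fin_fun] at h1
      omega
  rw [hc1] at hc'
  have hG1 : ∀ x, (G (x, 0)).2 = 0 := by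
    intro x
    have h1 := hc' (-x, 0)
    simp only [neg_neg, one_smul] at h1
    have h2 : G (-x, 0) = -G (x, 0) := by
      rw [← map_neg]
      congr 1
      simp
    rw [h2] at h1
    have h3 := congrArg Prod.snd h1
    change (G (x, 0)).2 = -(G (x, 0)).2 at h3
    funext i
    exact hneg _ (congrFun h3 i)
  have hG2 : ∀ y, (G (0, y)).1 = 0 := by
    intro y
    have h1 := hc' (0, y)
    simp only [neg_zero, one_smul] at h1
    have h3 : (G (0, y)).1 = -(G (0, y)).1 := congrArg Prod.fst h1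
    funext i
    exact hneg _ (congrFun h3 i)
  let X : (Fin m → ZMod p) →ₗ[ZMod p] (Fin m → ZMod p) :=
    (LinearMap.fst _ _ _).comp (G.comp (LinearMap.inl _ _ _))
  let Y : (Fin (m + 1) → ZMod p) →ₗ[ZMod p] (Fin (m + 1) → ZMod p) :=
    (LinearMap.snd _ _ _).comp (G.comp (LinearMap.inr _ _ _))
  have hGX : ∀ x, G (x, 0) = (X x, 0) := fun x => Prod.ext rfl (hG1 x)
  have hGY : ∀ y, G (0, y) = (0, Y y) := fun y => Prod.ext (hG2 y) rfl
  have hGXY : ∀ x y, G (x, y) = (X x, Y y) := by
    intro x y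
    have h1 : ((x, y) : (Fin m → ZMod p) × (Fin (m + 1) → ZMod p)) = (x, 0) + (0, y) := by simp
    rw [h1, map_add, hGX, hGY]
    simp
  have hB : ∀ (v : Fin 3 → ZMod p) (x : Fin m → ZMod p), Y (B i0 v x) = B i0 v (X x) := by
    intro v x
    obtain ⟨d, hd⟩ := hcomm ⟨v, 1⟩
    have hd' : ∀ w, G (Φ i0 ⟨v, 1⟩ w) = d • (Φ i0 ⟨v, 1⟩ (G w)) := by
      intro w
      have h1 := congrArg (fun T : ((Fin m → ZMod p) × (Fin (m + 1) → ZMod p)) →ₗ[ZMod p] _ => T w) hd
      simpa only [Module.End.mul_apply, LinearMap.smul_apply] using h1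
    have hd1 : d = 1 := by
      have h1 := hd' (0, Pi.single 0 1)
      rw [Φ_snd, hGY, Φ_snd] at h1
      have h2 : Y (Pi.single 0 1) = d • Y (Pi.single 0 1) := congrArg Prod.snd h1
      have h3 : Y (Pi.single 0 1) ≠ 0 := by
        intro h
        have h4 : G ((0 : Fin m → ZMod p), (Pi.single 0 1 : Fin (m + 1) → ZMod p)) = 0 := by
          rw [hGY, h]
          rfl
        have h6 : ((0 : Fin m → ZMod p), (Pi.single 0 1 : Fin (m + 1) → ZMod p)) = 0 := hG (by rw [map_zero]; exact h4)
        have h7 := congrFun (congrArg Prod.snd h6) 0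
        simp at h7
      have h4 : (d - 1) • Y (Pi.single 0 1) = 0 := by rw [sub_smul, ← h2, one_smul, sub_self]
      exact sub_eq_zero.mp ((smul_eq_zero.mp h4).resolve_right h3)
    have h1 := hd' (x, 0)
    rw [Φ_fst, hGX, Φ_fst, hGXY, hd1, one_smul] at h1
    have h2 : Y (B i0 v (sg p 1 • x)) = B i0 v (sg p 1 • X x) := congrArg Prod.snd h1
    rwa [sg_one, one_smul, one_smul] at h2
  have hB1 : ∀ x, B i0 (Pi.single 0 1 : Fin 3 → ZMod p) x = A1 (ZMod p) m x := by
    intro x
    simp [B]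
  have hB2 : ∀ x, B i0 (Pi.single 1 1 : Fin 3 → ZMod p) x = A2 (ZMod p) m x := by
    intro x
    simp [B]
  obtain ⟨a, ha1, ha2⟩ := brick (lt_of_le_of_lt (Nat.zero_le _) i0.2) X Y
    (fun x => by rw [← hB1, hB, hB1]) (fun x => by rw [← hB2, hB, hB2])
  refine ⟨a, LinearMap.ext fun w => ?_⟩
  obtain ⟨x, y⟩ := w
  rw [hGXY, ha1, ha2]
  rfl

end rep

/-- For every odd prime `p` there is a finite group `H` of order `2p³` which, for infinitely many `n`, embeds in the projective special linear group `PSL(n, p)` as a subgroup with trivial centralizer. -/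
theorem result
    (p : ℕ) [Fact p.Prime] (hp : p ≠ 2) :
    ∃ (H : Type) (_ : Group H) (_ : Finite H), Nat.card H = 2 * p ^ 3 ∧
      ∀ N : ℕ, ∃ n, N ≤ n ∧ ∃ φ : H →* Matrix.ProjectiveSpecialLinearGroup (Fin n) (ZMod p),
        Function.Injective φ ∧ Subgroup.centralizer (φ.range : Set (Matrix.ProjectiveSpecialLinearGroup (Fin n) (ZMod p))) = ⊥ := by
  classical
  haveI hfin : Finite (HG p) := Finite.of_equiv _ (HG.equivProd (p := p)).symm
  refine ⟨HG p, HG.instGroupHG, hfin, ?_, fun N => ?_⟩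
  · rw [Nat.card_congr (HG.equivProd (p := p)), Nat.card_prod]
    have h1 : Nat.card (Fin 3 → ZMod p) = p ^ 3 := by
      rw [Nat.card_eq_fintype_card, Fintype.card_fun, ZMod.card, Fintype.card_fin]
    have h2 : Nat.card ℤˣ = 2 := by
      rw [Nat.card_eq_fintype_card]; rfl
    rw [h1, h2, mul_comm]
  have hodd : (2 : ZMod p) ≠ 0 := by
    intro h
    have h1 : ((2 : ℕ) : ZMod p) = 0 := by exact_mod_cast h
    rw [ZMod.natCast_eq_zero_iff] at h1
    exact hp ((Nat.prime_dvd_prime_iff_eq Fact.out Nat.prime_two).mp h1)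
  set m := 2 * (N + 1) with hm
  have hm2 : 2 ≤ m := by omega
  have hme : Even m := ⟨N + 1, by omega⟩
  let i0 : Fin m := ⟨0, by omega⟩
  let V := (Fin m → ZMod p) × (Fin (m + 1) → ZMod p)
  have hV : finrank (ZMod p) V = m + (m + 1) := by
    show finrank (ZMod p) ((Fin m → ZMod p) × (Fin (m + 1) → ZMod p)) = _
    rw [Module.finrank_prod, Module.finrank_fin_fun, Module.finrank_fin_fun]
  refine ⟨m + (m + 1), by omega, ?_⟩
  set n := m + (m + 1) with hn
  let b : Basis (Fin n) (ZMod p) V := Module.finBasisOfFinrankEq (ZMod p) V hV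
  let toM := LinearMap.toMatrixAlgEquiv b
  have hdetM : ∀ T : V →ₗ[ZMod p] V, (toM T).det = LinearMap.det T := by
    intro T
    rw [← LinearMap.det_toMatrix b]
    rfl
  let ψ : HG p →* Matrix.SpecialLinearGroup (Fin n) (ZMod p) :=
    { toFun := fun h => ⟨toM (Φ i0 h), by rw [hdetM, det_Φ i0 hme]⟩
      map_one' := Subtype.ext (by
        show toM (Φ i0 (1 : HG p)) = 1
        rw [Φ_one, map_one])
      map_mul' := fun g h => Subtype.ext (by
        show toM (Φ i0 (g * h)) = toM (Φ i0 g) * toM (Φ i0 h)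
        rw [Φ_mul, map_mul]) }
  have hψ : ∀ h, ((ψ h : Matrix.SpecialLinearGroup (Fin n) (ZMod p)) : Matrix (Fin n) (Fin n) (ZMod p)) =
      toM (Φ i0 h) := fun h => rfl
  let φ : HG p →* Matrix.ProjectiveSpecialLinearGroup (Fin n) (ZMod p) := (QuotientGroup.mk' _).comp ψ
  -- scalars
  have hcent : ∀ A : Matrix.SpecialLinearGroup (Fin n) (ZMod p),
      A ∈ Subgroup.center (Matrix.SpecialLinearGroup (Fin n) (ZMod p)) →
      ∃ c : ZMod p, toM.symm (A : Matrix (Fin n) (Fin n) (ZMod p)) = c • (1 : V →ₗ[ZMod p] V) := by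
    intro A hA
    obtain ⟨r, -, hr⟩ := Matrix.SpecialLinearGroup.mem_center_iff.mp hA
    refine ⟨r, ?_⟩
    rw [AlgEquiv.symm_apply_eq, map_smul, map_one, ← hr, Matrix.smul_one_eq_diagonal]
    rfl
  refine ⟨φ, ?_, ?_⟩
  · rw [injective_iff_map_eq_one]
    intro h hh
    have h1 : ψ h ∈ Subgroup.center (Matrix.SpecialLinearGroup (Fin n) (ZMod p)) :=
      (QuotientGroup.eq_one_iff _).mp hh
    obtain ⟨c, hc⟩ := hcent _ h1
    rw [hψ, AlgEquiv.symm_apply_apply] at hc
    have hc' : ∀ w : (Fin m → ZMod p) × (Fin (m + 1) → ZMod p), Φ i0 h w = c • w := by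
      intro w
      rw [hc]
      rfl
    have h2 : c = 1 := by
      have h3 := hc' (0, Pi.single 0 1)
      rw [Φ_snd] at h3
      have h4 := congrFun (congrArg Prod.snd h3) 0
      simpa using h4.symm
    rw [h2] at hc'
    simp only [one_smul] at hc'
    have h3 : sg p h.e = 1 := by
      have h4 := hc' (Pi.single i0 1, 0)
      rw [Φ_fst] at h4
      have h5 := congrFun (congrArg Prod.fst h4) i0
      simpa using h5
    have h4 : h.e = 1 := by
      rcases Int.units_eq_one_or h.e with h5 | h5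
      · exact h5
      · exfalso
        rw [h5] at h3
        apply hodd
        have h6 : (-1 : ZMod p) = 1 := by simpa [sg] using h3
        have h7 : (1 : ZMod p) + 1 = 0 := by
          nth_rewrite 1 [← h6]
          exact neg_add_cancel 1
        rw [← one_add_one_eq_two]
        exact h7
    have h5 : h.v = 0 := by
      apply B_eq_zero hm2
      intro x
      have h6 := hc' (x, 0)
      rw [Φ_fst, h3, one_smul] at h6
      exact congrArg Prod.snd h6
    exact HG.ext' h5 h4
  · rw [eq_bot_iff]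
    intro x hx
    rw [Subgroup.mem_bot]
    obtain ⟨A, rfl⟩ := QuotientGroup.mk_surjective x
    rw [Subgroup.mem_centralizer_iff] at hx
    set G : V →ₗ[ZMod p] V := toM.symm (A : Matrix (Fin n) (Fin n) (ZMod p)) with hG
    have hGinj : Function.Injective G := by
      have hdet : LinearMap.det G = 1 := by
        rw [← hdetM, hG, AlgEquiv.apply_symm_apply]
        exact A.2
      have hu : IsUnit G := LinearMap.isUnit_iff_isUnit_det _ |>.mpr (by rw [hdet]; exact isUnit_one)
      have hk : LinearMap.ker G = ⊥ := LinearMap.ker_eq_bot'.mpr (by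
        intro v hv
        obtain ⟨u, hu'⟩ := hu
        have h1 : (((u⁻¹ : (Module.End (ZMod p) V)ˣ) : Module.End (ZMod p) V) * G) v = v := by
          rw [← hu', Units.inv_mul]
          rfl
        rw [Module.End.mul_apply, hv, map_zero] at h1
        exact h1.symm)
      exact LinearMap.ker_eq_bot.mp hk
    have hcomm : ∀ h : HG p, ∃ c : ZMod p, G * Φ i0 h = c • (Φ i0 h * G) := by
      intro h
      have h1 := hx (φ h) ⟨h, rfl⟩
      have h2 : ((ψ h * A : Matrix.SpecialLinearGroup (Fin n) (ZMod p)) : Matrix.ProjectiveSpecialLinearGroup (Fin n) (ZMod p)) =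
        ((A * ψ h : Matrix.SpecialLinearGroup (Fin n) (ZMod p)) : Matrix.ProjectiveSpecialLinearGroup (Fin n) (ZMod p)) := h1
      have h3 := QuotientGroup.eq.mp h2
      obtain ⟨c, hc⟩ := hcent _ h3
      refine ⟨c, ?_⟩
      have h4 : (A * ψ h : Matrix.SpecialLinearGroup (Fin n) (ZMod p)) = (ψ h * A) * ((ψ h * A)⁻¹ * (A * ψ h)) := by
        group
      have h5 := congrArg (fun M : Matrix.SpecialLinearGroup (Fin n) (ZMod p) => toM.symm (M : Matrix (Fin n) (Fin n) (ZMod p))) h4
      simp only [Matrix.SpecialLinearGroup.coe_mul, map_mul] at h5 hc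
      rw [hc, hψ, AlgEquiv.symm_apply_apply, ← hG, mul_smul_comm, mul_one] at h5
      exact h5
    obtain ⟨c, hc⟩ := G_scalar hodd i0 G hGinj hcomm
    rw [QuotientGroup.eq_one_iff, Matrix.SpecialLinearGroup.mem_center_iff]
    have h1 : (A : Matrix (Fin n) (Fin n) (ZMod p)) = c • (1 : Matrix (Fin n) (Fin n) (ZMod p)) := by
      have h2 := congrArg toM hc
      rw [hG, AlgEquiv.apply_symm_apply] at h2
      rw [h2, map_smul, map_one]
    refine ⟨c, ?_, ?_⟩
    · have h2 := A.2
      rw [h1, Matrix.det_smul, Matrix.det_one, mul_one] at h2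
      exact h2
    · rw [h1, Matrix.smul_one_eq_diagonal]
      rfl

end Cfsg.Agent.S2533
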