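import Cfsg.Statements.S2541

set_option autoImplicit false
open Cfsg

namespace Cfsg.Agent.S2541

theorem perm_six (σ : Equiv.Perm (Fin 6)) (h : σ ^ 8 = 1) : σ ^ 4 = 1 := by
  have h1 : orderOf σ ∣ 8 := orderOf_dvd_of_pow_eq_one h
  rw [← orderOf_dvd_iff_pow_eq_one, ← Equiv.Perm.lcm_cycleType, Multiset.lcm_dvd]
  intro b hb
  have h2 : b ∣ 8 := (Equiv.Perm.dvd_of_mem_cycleType hb).trans h1
  have h3 : b ≤ 6 := by
    have h4 := Equiv.Perm.le_card_support_of_mem_cycleType hb
    have h5 : σ.support.card ≤ Fintype.card (Fin 6) := Finset.card_le_univ _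
    rw [Fintype.card_fin] at h5
    omega
  interval_cases b <;> first | decide | (exfalso; revert h2; decide)

/-- Let F be a field with 9 elements. The symmetric group S_6 is not isomorphic to PGL_2(F) (although both have index-2 subgroups isomorphic to A_6). -/
theorem result {F : Type*} [Field F] [Fintype F] (hF : Fintype.card F = 9) : ¬ Nonempty (Equiv.Perm (Fin 6) ≃* Matrix.ProjGenLinGroup (Fin 2) F) := by
  classical
  rintro ⟨e⟩
  obtain ⟨ζ, hζ⟩ := IsCyclic.exists_generator (α := Fˣ)
  have hord : orderOf ζ = 8 := by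
    rw [orderOf_eq_card_of_forall_mem_zpowers hζ, Nat.card_eq_fintype_card, Fintype.card_units, hF]
  let d : GL (Fin 2) F := Matrix.GeneralLinearGroup.mkOfDetNeZero !![(ζ : F), 0; 0, 1] (by simp)
  have hdpow : ∀ n : ℕ, ((d ^ n : GL (Fin 2) F) : Matrix (Fin 2) (Fin 2) F) = !![(ζ : F) ^ n, 0; 0, 1] := by
    intro n
    induction n with
    | zero => ext i j; fin_cases i <;> fin_cases j <;> simp
    | succ n ih =>
      rw [pow_succ, Units.val_mul, ih]
      show !![(ζ : F) ^ n, 0; 0, 1] * !![(ζ : F), 0; 0, 1] = _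
      rw [Matrix.mul_fin_two, pow_succ]
      simp
  set x : Matrix.ProjGenLinGroup (Fin 2) F := Matrix.ProjGenLinGroup.mk d with hx
  have hx8 : x ^ 8 = 1 := by
    have : d ^ 8 = 1 := by
      apply Units.ext
      rw [hdpow]
      have h8 : (ζ : F) ^ 8 = 1 := by
        rw [← Units.val_pow_eq_pow_val, ← hord, pow_orderOf_eq_one, Units.val_one]
      rw [h8]
      ext i j; fin_cases i <;> fin_cases j <;> simp
    rw [hx, ← map_pow, this, map_one]
  have hx4 : x ^ 4 ≠ 1 := by
    intro h
    rw [hx, ← map_pow, Matrix.ProjGenLinGroup.mk_eq_one,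
      Matrix.GeneralLinearGroup.mem_center_iff_val_mem_range_scalar, hdpow] at h
    obtain ⟨c, hc⟩ := h
    have h0 := congrFun (congrFun hc 0) 0
    have h1 := congrFun (congrFun hc 1) 1
    simp at h0 h1
    have h4 : (ζ : F) ^ 4 = 1 := by rw [← h0, h1]
    have h5 : ζ ^ 4 = 1 := by
      apply Units.ext
      rw [Units.val_pow_eq_pow_val, h4, Units.val_one]
    have h6 := orderOf_dvd_of_pow_eq_one h5
    rw [hord] at h6
    revert h6
    decide
  apply hx4
  have h7 : (e.symm x) ^ 8 = 1 := by rw [← map_pow, hx8, map_one]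
  have h8 := perm_six _ h7
  rw [← map_pow] at h8
  have h9 := congrArg e h8
  rwa [MulEquiv.apply_symm_apply, map_one] at h9

end Cfsg.Agent.S2541
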