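import Cfsg.Statements.S2544
import Cfsg.Agent.ClRG.SLp

set_option autoImplicit false
open Cfsg

namespace Cfsg.Agent.S2544

/-- Let F be a finite field of characteristic p and consider the projective special linear group PSL_n(F) with n ≥ 2. This group has an irreducible complex character χ whose degree equals the order of a Sylow p-subgroup (namely q^(n(n−1)/2) when #F = q) and whose restriction to any Sylow p-subgroup P is the regular character of P: χ vanishes on the non-identity elements of P. (This is the Steinberg character.) -/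
theorem result {F : Type*} [Field F] [Fintype F] (p : ℕ) [Fact p.Prime] [CharP F p] (n : ℕ) (hn : 2 ≤ n) : ∃ χ : Matrix.ProjectiveSpecialLinearGroup (Fin n) F → ℂ, Cfsg.IsIrrCharacter (Matrix.ProjectiveSpecialLinearGroup (Fin n) F) χ ∧ ∀ P : Sylow p (Matrix.ProjectiveSpecialLinearGroup (Fin n) F), χ 1 = Nat.card P ∧ ∀ x : Matrix.ProjectiveSpecialLinearGroup (Fin n) F, x ∈ P → x ≠ 1 → χ x = 0 := by
  obtain ⟨l, rfl⟩ : ∃ l, n = l + 1 := ⟨n - 1, by omega⟩
  have : Finite (Matrix.ProjectiveSpecialLinearGroup (Fin (l + 1)) F) := Quotient.finite _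
  exact Cfsg.Agent.ClRG.exists_steinberg (Cfsg.Agent.ClRG.rgPSL l F) Cfsg.Agent.ClRG.rgPSL_Grp p
    (Cfsg.Agent.ClRG.isPGroup_U_PSL p) (Cfsg.Agent.ClRG.not_dvd_H_PSL p)

end Cfsg.Agent.S2544
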