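import Cfsg.Statements.S2548
import Cfsg.Agent.ClBN.OrF

set_option autoImplicit false
open Cfsg

namespace Cfsg.Agent.S2548

/-- Let F be a finite field of characteristic p and consider the group PΩ⁺_{2m}(F) of the hyperbolic quadratic form Σ x_i y_i with m ≥ 1, where Ω denotes the commutator subgroup of the full isometry group. This group has an irreducible complex character χ whose degree equals the order of a Sylow p-subgroup (equal to q^(m(m−1)) when #F = q, except in the degenerate case m = 2, q = 2, where this commutator subgroup has order 18 and its Sylow 2-subgroups have order 2) and whose restriction to any Sylow p-subgroup P is the regular character of P: χ vanishes on the non-identity elements of P. (This is the Steinberg character.) -/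
theorem result {F : Type*} [Field F] [Fintype F] (p : ℕ) [Fact p.Prime] [CharP F p] (m : ℕ) (hm : 1 ≤ m) : ∃ χ : Cfsg.POmega F (Cfsg.quadFormPlus m F) → ℂ, Cfsg.IsIrrCharacter (Cfsg.POmega F (Cfsg.quadFormPlus m F)) χ ∧ ∀ P : Sylow p (Cfsg.POmega F (Cfsg.quadFormPlus m F)), χ 1 = Nat.card P ∧ ∀ x : Cfsg.POmega F (Cfsg.quadFormPlus m F), x ∈ P → x ≠ 1 → χ x = 0 := by
  by_cases h : m = 2 → ∃ c : F, c ≠ 0 ∧ c ≠ 1
  · have := (ClBN.hasR_plus m p hm h).quot_center
    exact this.steinberg
  · rw [Classical.not_imp] at h
    obtain ⟨rfl, h2⟩ := h
    push Not at h2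
    have hF : Fintype.card F = 2 := by
      classical
      rw [← Finset.card_univ]
      have : (Finset.univ : Finset F) = {0, 1} := by
        ext c
        simp only [Finset.mem_univ, Finset.mem_insert, Finset.mem_singleton, true_iff]
        by_cases hc : c = 0
        · exact Or.inl hc
        · exact Or.inr (h2 c hc)
      rw [this, Finset.card_pair zero_ne_one]
    have hp : p = 2 := by
      have h3 : (Fintype.card F : F) = 0 := by
        have := FiniteField.cast_card_eq_zero F
        exact this
      rw [hF] at h3
      have h4 := (CharP.cast_eq_zero_iff F p 2).1 h3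
      exact (Nat.prime_dvd_prime_iff_eq Fact.out Nat.prime_two).1 h4
    subst hp
    exact (ClBN.P3_omega hF).quot_center.steinberg

end Cfsg.Agent.S2548
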