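import Cfsg.Statements.S2550
import Cfsg.Agent.S0256
import Cfsg.Agent.S0242
import Cfsg.Agent.S0819
import Cfsg.Agent.H4.CardSL

set_option autoImplicit false
open Cfsg

namespace Cfsg.Agent.S2550

/-- Let F be a field with 2 elements and K a field with 4 elements. PSL_4(F) and PSL_3(K) have the same order (20160) but are not isomorphic. -/
theorem result {F K : Type*} [Field F] [Fintype F] [Field K] [Fintype K] (hF : Fintype.card F = 2) (hK : Fintype.card K = 4) : Nat.card (Matrix.ProjectiveSpecialLinearGroup (Fin 4) F) = Nat.card (Matrix.ProjectiveSpecialLinearGroup (Fin 3) K) ∧ ¬ Nonempty (Matrix.ProjectiveSpecialLinearGroup (Fin 4) F ≃* Matrix.ProjectiveSpecialLinearGroup (Fin 3) K) := by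
  classical
  obtain ⟨e⟩ := Cfsg.Agent.S0256.result hF
  have hA : Nat.card (alternatingGroup (Fin 8)) = 20160 := by
    rw [nat_card_alternatingGroup, Nat.card_eq_fintype_card, Fintype.card_fin]
    rfl
  have h1 := Cfsg.Agent.S0242.result hK 3 (by norm_num)
  have hc := Cfsg.Agent.H4.card_center_SL (F := K) 3 (by norm_num)
  rw [hK] at hc
  have hc' : Nat.card (Subgroup.center (Matrix.SpecialLinearGroup (Fin 3) K)) = 3 := hc
  have h2 : Nat.card (Matrix.SpecialLinearGroup (Fin 3) K) = Nat.card (Matrix.ProjectiveSpecialLinearGroup (Fin 3) K) * 3 := by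
    have h3 := Subgroup.card_eq_card_quotient_mul_card_subgroup (Subgroup.center (Matrix.SpecialLinearGroup (Fin 3) K))
    rw [hc'] at h3
    exact h3
  refine ⟨?_, ?_⟩
  · rw [Nat.card_congr e.toEquiv, hA]
    rw [h2] at h1
    rw [Fin.prod_univ_three] at h1
    generalize Nat.card (Matrix.ProjectiveSpecialLinearGroup (Fin 3) K) = N at h1 ⊢
    norm_num at h1
    omega
  · rintro ⟨f⟩
    obtain ⟨σ, hs, h15, h5, h3⟩ : ∃ σ : Equiv.Perm (Fin 8), Equiv.Perm.sign σ = 1 ∧ σ ^ 15 = 1 ∧ σ ^ 5 ≠ 1 ∧ σ ^ 3 ≠ 1 :=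
      ⟨c[0, 1, 2] * c[3, 4, 5, 6, 7], by decide +kernel, by decide +kernel, by decide +kernel, by decide +kernel⟩
    let τ : alternatingGroup (Fin 8) := ⟨σ, Equiv.Perm.mem_alternatingGroup.2 hs⟩
    have hτ : orderOf τ = 15 := by
      refine orderOf_eq_of_pow_and_pow_div_prime (by norm_num) (Subtype.ext h15) ?_
      intro p hp hd
      have : p = 3 ∨ p = 5 := by
        have h : p ∣ 3 * 5 := hd
        rcases hp.dvd_mul.1 h with h | h
        · left; exact (Nat.prime_dvd_prime_iff_eq hp (by norm_num)).1 h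
        · right; exact (Nat.prime_dvd_prime_iff_eq hp (by norm_num)).1 h
      rcases this with rfl | rfl
      · intro h; exact h5 (congrArg Subtype.val h)
      · intro h; exact h3 (congrArg Subtype.val h)
    apply Cfsg.Agent.S0819.result hK (f (e.symm τ))
    rw [MulEquiv.orderOf_eq, MulEquiv.orderOf_eq, hτ]

end Cfsg.Agent.S2550
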