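import Cfsg.Statements.S2551
import Mathlib
import Cfsg.Agent.H43.A7GL4

set_option autoImplicit false
open Cfsg

namespace Cfsg.Agent.S2551

/-- Let F be the field with 2 elements. GL_4(F) (≅ A_8) has a subgroup isomorphic to the alternating group A_7, and every such subgroup acts 2-transitively on the 15 non-zero vectors of F⁴: any ordered pair of distinct non-zero vectors is carried to any other by some element of the subgroup. -/
theorem result {F : Type*} [Field F] [Fintype F] (hF : Fintype.card F = 2) : (∃ H : Subgroup (Matrix.GeneralLinearGroup (Fin 4) F), Nonempty (H ≃* alternatingGroup (Fin 7))) ∧ ∀ H : Subgroup (Matrix.GeneralLinearGroup (Fin 4) F), Nonempty (H ≃* alternatingGroup (Fin 7)) → ∀ v w v' w' : Fin 4 → F, v ≠ 0 → w ≠ 0 → v ≠ w → v' ≠ 0 → w' ≠ 0 → v' ≠ w' → ∃ g ∈ H, (g : Matrix (Fin 4) (Fin 4) F).mulVec v = v' ∧ (g : Matrix (Fin 4) (Fin 4) F).mulVec w = w' := by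
  classical
  have hp2 : Fact (Nat.Prime 2) := ⟨Nat.prime_two⟩
  obtain ⟨φ⟩ : Nonempty (ZMod 2 ≃+* F) := ⟨ZMod.ringEquivOfPrime F Nat.prime_two hF⟩
  let Φ : GL (Fin 4) F ≃* GL (Fin 4) (ZMod 2) := Units.mapEquiv (φ.symm.mapMatrix.toMulEquiv)
  have hΦ : ∀ (g : GL (Fin 4) F), ((Φ g : GL (Fin 4) (ZMod 2)) : Matrix (Fin 4) (Fin 4) (ZMod 2)) = (g : Matrix (Fin 4) (Fin 4) F).map φ.symm := fun _ => rfl
  constructor
  · obtain ⟨H, ⟨e⟩⟩ := Cfsg.Agent.H43.a7_exists
    refine ⟨H.comap Φ.toMonoidHom, ⟨?_⟩⟩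
    exact ((MulEquiv.subgroupMap Φ (H.comap Φ.toMonoidHom)).trans (MulEquiv.subgroupCongr (Subgroup.map_comap_eq_self_of_surjective Φ.surjective H))).trans e
  · rintro H ⟨e⟩ v w v' w' hv hw hvw hv' hw' hvw'
    have inj : Function.Injective (fun x : Fin 4 → F => (φ.symm ∘ x : Fin 4 → ZMod 2)) := by
      intro x y hxy
      funext i
      exact φ.symm.injective (congrFun hxy i)
    have inj0 : ∀ x : Fin 4 → F, x ≠ 0 → (φ.symm ∘ x : Fin 4 → ZMod 2) ≠ 0 := by
      intro x hx h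
      apply hx
      apply inj
      change (φ.symm ∘ x : Fin 4 → ZMod 2) = φ.symm ∘ (0 : Fin 4 → F)
      rw [h]
      funext i
      exact (map_zero φ.symm).symm
    obtain ⟨g, ⟨g', hg', rfl⟩, h1, h2⟩ := Cfsg.Agent.H43.a7_main (H.map Φ.toMonoidHom) ((MulEquiv.subgroupMap Φ H).symm.trans e)
      (φ.symm ∘ v) (φ.symm ∘ w) (φ.symm ∘ v') (φ.symm ∘ w') (inj0 v hv) (inj0 w hw) (fun h => hvw (inj h)) (inj0 v' hv') (inj0 w' hw') (fun h => hvw' (inj h))
    have h3 : ∀ x : Fin 4 → F, ((Φ g' : GL (Fin 4) (ZMod 2)) : Matrix (Fin 4) (Fin 4) (ZMod 2)).mulVec (φ.symm ∘ x) = φ.symm ∘ ((g' : Matrix (Fin 4) (Fin 4) F).mulVec x) := by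
      intro x
      rw [hΦ]
      exact (funext fun i => RingHom.map_mulVec (φ.symm : F →+* ZMod 2) (g' : Matrix (Fin 4) (Fin 4) F) x i).symm
    refine ⟨g', hg', ?_, ?_⟩
    · apply inj
      exact (h3 v).symm.trans h1
    · apply inj
      exact (h3 w).symm.trans h2

end Cfsg.Agent.S2551
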