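import Cfsg.Statements.S2552
-- import your own Cfsg.Agent.* helpers here

set_option autoImplicit false
open Cfsg

namespace Cfsg.Agent.S2552

/-- Let F be a finite field and n ≥ 1. For every k, the special linear group SL_n(F) acts transitively on the set of k-dimensional subspaces of F^n: any two subspaces of the same dimension are carried onto each other by some matrix of determinant 1. -/
theorem result {F : Type*} [Field F] [Fintype F] (n : ℕ) (hn : 1 ≤ n) (U₁ U₂ : Submodule F (Fin n → F)) (h : Module.finrank F U₁ = Module.finrank F U₂) : ∃ g : Matrix.SpecialLinearGroup (Fin n) F, U₁.map ((Matrix.SpecialLinearGroup.toLin' g : (Fin n → F) ≃ₗ[F] (Fin n → F)) : (Fin n → F) →ₗ[F] (Fin n → F)) = U₂ := by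
  classical
  by_cases hU : U₁ = ⊥
  · subst hU
    have h2 : U₂ = ⊥ := by
      rw [finrank_bot] at h
      exact Submodule.finrank_eq_zero.1 h.symm
    subst h2
    exact ⟨1, Submodule.map_bot _⟩
  obtain ⟨v, hv, hv0⟩ := Submodule.exists_mem_ne_zero_of_ne_bot hU
  obtain ⟨e⟩ : Nonempty (U₁ ≃ₗ[F] U₂) := ⟨LinearEquiv.ofFinrankEq _ _ h⟩
  obtain ⟨g, hg⟩ := Submodule.exists_linearEquiv_restrict_eq e
  obtain ⟨A, hA⟩ : ∃ A : Matrix (Fin n) (Fin n) F, A = LinearMap.toMatrix' (g : (Fin n → F) →ₗ[F] (Fin n → F)) := ⟨_, rfl⟩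
  have hAg : ∀ x, A.mulVec x = g x := by
    intro x
    rw [hA, ← Matrix.toLin'_apply, Matrix.toLin'_toMatrix']
    rfl
  have hdet : A.det ≠ 0 := by
    have : IsUnit A := by
      rw [← Matrix.mulVec_injective_iff_isUnit]
      intro x y hxy
      have h2 : A.mulVec x = A.mulVec y := hxy
      rw [hAg, hAg] at h2
      exact g.injective h2
    rw [Matrix.isUnit_iff_isUnit_det] at this
    exact this.ne_zero
  -- a functional with value one at `v`
  obtain ⟨i, hi⟩ := Function.ne_iff.1 hv0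
  obtain ⟨φ, hφ⟩ : ∃ φ : Fin n → F, φ = Pi.single i (v i)⁻¹ := ⟨_, rfl⟩
  have hφv : φ ⬝ᵥ v = 1 := by
    rw [hφ, single_dotProduct, inv_mul_cancel₀ hi]
  obtain ⟨S, hS⟩ : ∃ S : Matrix (Fin n) (Fin n) F, S = 1 + Matrix.vecMulVec ((A.det⁻¹ - 1) • v) φ := ⟨_, rfl⟩
  have hSdet : S.det = A.det⁻¹ := by
    rw [hS]
    have := Matrix.det_one_add_replicateCol_mul_replicateRow (ι := Unit) ((A.det⁻¹ - 1) • v) φ
    rw [← Matrix.vecMulVec_eq] at this
    rw [this, dotProduct_smul, hφv]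
    simp
  have hSv : ∀ x, S.mulVec x = x + ((φ ⬝ᵥ x) * (A.det⁻¹ - 1)) • v := by
    intro x
    rw [hS, Matrix.add_mulVec, Matrix.one_mulVec, Matrix.vecMulVec_mulVec]
    simp [smul_smul]
  have hSU : ∀ x ∈ U₁, S.mulVec x ∈ U₁ := by
    intro x hx
    rw [hSv]
    exact U₁.add_mem hx (U₁.smul_mem _ hv)
  refine ⟨⟨A * S, by rw [Matrix.det_mul, hSdet, mul_inv_cancel₀ hdet]⟩, ?_⟩
  have hle : U₁.map ((Matrix.SpecialLinearGroup.toLin' (⟨A * S, by rw [Matrix.det_mul, hSdet, mul_inv_cancel₀ hdet]⟩ : Matrix.SpecialLinearGroup (Fin n) F) : (Fin n → F) ≃ₗ[F] (Fin n → F)) : (Fin n → F) →ₗ[F] (Fin n → F)) ≤ U₂ := by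
    rintro _ ⟨x, hx, rfl⟩
    change (A * S).mulVec x ∈ U₂
    rw [← Matrix.mulVec_mulVec, hAg]
    have := hg ⟨S.mulVec x, hSU x hx⟩
    change g (S.mulVec x) ∈ U₂
    exact this ▸ (e ⟨S.mulVec x, hSU x hx⟩).2
  refine Submodule.eq_of_le_of_finrank_eq hle ?_
  rw [← h]
  exact LinearEquiv.finrank_map_eq _ _

end Cfsg.Agent.S2552
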