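import Cfsg.Statements.S2561
import Cfsg.Agent.H43.BinStd

set_option autoImplicit false
open Cfsg

namespace Cfsg.Agent.S2561

open Cfsg.Agent.H43 in
/-- classification of the forms polarizing to the standard form. -/
theorem key (k : ℕ) :
    (Nat.card {q : (Fin (k + 1) ⊕ Fin (k + 1) → ZMod 2) → ZMod 2 // PolTo q (fP (k + 1))} = 2 ^ (2 * (k + 1))) ∧
    (∀ q : (Fin (k + 1) ⊕ Fin (k + 1) → ZMod 2) → ZMod 2, PolTo q (fP (k + 1)) →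
      (∃ g : (Fin (k + 1) ⊕ Fin (k + 1) → ZMod 2) ≃ₗ[ZMod 2] (Fin (k + 1) ⊕ Fin (k + 1) → ZMod 2), ∀ v, q v = Cfsg.quadFormPlus (k + 1) (ZMod 2) (g v)) ∨
      (∃ g : (Fin (k + 1) ⊕ Fin (k + 1) → ZMod 2) ≃ₗ[ZMod 2] ((Fin k ⊕ Fin k) ⊕ Fin 2 → ZMod 2), ∀ v, q v = Cfsg.quadFormMinus k (ZMod 2) 1 1 (g v))) ∧
    Nat.card {q : (Fin (k + 1) ⊕ Fin (k + 1) → ZMod 2) → ZMod 2 // PolTo q (fP (k + 1)) ∧ ∃ g : (Fin (k + 1) ⊕ Fin (k + 1) → ZMod 2) ≃ₗ[ZMod 2] (Fin (k + 1) ⊕ Fin (k + 1) → ZMod 2), ∀ v, q v = Cfsg.quadFormPlus (k + 1) (ZMod 2) (g v)} = 2 ^ (2 * (k + 1) - 1) + 2 ^ k ∧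
    Nat.card {q : (Fin (k + 1) ⊕ Fin (k + 1) → ZMod 2) → ZMod 2 // PolTo q (fP (k + 1)) ∧ ∃ g : (Fin (k + 1) ⊕ Fin (k + 1) → ZMod 2) ≃ₗ[ZMod 2] ((Fin k ⊕ Fin k) ⊕ Fin 2 → ZMod 2), ∀ v, q v = Cfsg.quadFormMinus k (ZMod 2) 1 1 (g v)} = 2 ^ (2 * (k + 1) - 1) - 2 ^ k := by
  classical
  have hf := fP_biForm (k + 1)
  have hQ := plus_polTo (k + 1)
  have hcardV : Fintype.card (Fin (k + 1) ⊕ Fin (k + 1) → ZMod 2) = 2 ^ (2 * (k + 1)) := by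
    rw [Fintype.card_fun, Fintype.card_sum, Fintype.card_fin, ZMod.card]
    congr 1; ring
  -- types of translates
  have hplus : ∀ w, Cfsg.quadFormPlus (k + 1) (ZMod 2) w = 0 →
      ∃ g : (Fin (k + 1) ⊕ Fin (k + 1) → ZMod 2) ≃ₗ[ZMod 2] (Fin (k + 1) ⊕ Fin (k + 1) → ZMod 2),
        ∀ v, tl (Cfsg.quadFormPlus (k + 1) (ZMod 2)) (fP (k + 1)) w v = Cfsg.quadFormPlus (k + 1) (ZMod 2) (g v) :=
    fun w hw => ⟨trvE hf w, fun v => tl_eq_comp hf hQ hw v⟩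
  have hminus : ∀ w, Cfsg.quadFormPlus (k + 1) (ZMod 2) w = 1 →
      ∃ g : (Fin (k + 1) ⊕ Fin (k + 1) → ZMod 2) ≃ₗ[ZMod 2] ((Fin k ⊕ Fin k) ⊕ Fin 2 → ZMod 2),
        ∀ v, tl (Cfsg.quadFormPlus (k + 1) (ZMod 2)) (fP (k + 1)) w v = Cfsg.quadFormMinus k (ZMod 2) 1 1 (g v) := by
    intro w hw
    obtain ⟨g, hg⟩ := tl_equiv hf hQ (w := w0 k) (w' := w) (by rw [plus_w0, hw])
    refine ⟨g.trans (LinearEquiv.funCongrLeft (ZMod 2) (ZMod 2) (reidx k)), fun v => ?_⟩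
    rw [hg, minus_eq]
    rfl
  have hcs : ∀ w, csum (tl (Cfsg.quadFormPlus (k + 1) (ZMod 2)) (fP (k + 1)) w) =
      sg (Cfsg.quadFormPlus (k + 1) (ZMod 2) w) * 2 ^ (k + 1) := by
    intro w
    rw [csum_tl hQ, csum_plus]
  have hpow : (0 : ℤ) < 2 ^ (k + 1) := by positivity
  have hplus' : ∀ w, (∃ g : (Fin (k + 1) ⊕ Fin (k + 1) → ZMod 2) ≃ₗ[ZMod 2] (Fin (k + 1) ⊕ Fin (k + 1) → ZMod 2),
        ∀ v, tl (Cfsg.quadFormPlus (k + 1) (ZMod 2)) (fP (k + 1)) w v = Cfsg.quadFormPlus (k + 1) (ZMod 2) (g v)) →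
        Cfsg.quadFormPlus (k + 1) (ZMod 2) w = 0 := by
    rintro w ⟨g, hg⟩
    rcases zmod2_cases (Cfsg.quadFormPlus (k + 1) (ZMod 2) w) with h | h
    · exact h
    · exfalso
      have h1 := hcs w
      rw [h, sg_one] at h1
      have h2 : csum (tl (Cfsg.quadFormPlus (k + 1) (ZMod 2)) (fP (k + 1)) w) = 2 ^ (k + 1) := by
        rw [← csum_plus, ← csum_comp g.toEquiv (Cfsg.quadFormPlus (k + 1) (ZMod 2))]
        congr 1
        funext v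
        exact hg v
      linarith
  have hminus' : ∀ w, (∃ g : (Fin (k + 1) ⊕ Fin (k + 1) → ZMod 2) ≃ₗ[ZMod 2] ((Fin k ⊕ Fin k) ⊕ Fin 2 → ZMod 2),
        ∀ v, tl (Cfsg.quadFormPlus (k + 1) (ZMod 2)) (fP (k + 1)) w v = Cfsg.quadFormMinus k (ZMod 2) 1 1 (g v)) →
        Cfsg.quadFormPlus (k + 1) (ZMod 2) w = 1 := by
    rintro w ⟨g, hg⟩
    rcases zmod2_cases (Cfsg.quadFormPlus (k + 1) (ZMod 2) w) with h | h
    · exfalso
      have h1 := hcs w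
      rw [h, sg_zero] at h1
      have h2 : csum (tl (Cfsg.quadFormPlus (k + 1) (ZMod 2)) (fP (k + 1)) w) = - 2 ^ (k + 1) := by
        rw [← csum_minus, ← csum_comp g.toEquiv (Cfsg.quadFormMinus k (ZMod 2) 1 1)]
        congr 1
        funext v
        exact hg v
      linarith
    · exact h
  -- the bijection
  let Φ : (Fin (k + 1) ⊕ Fin (k + 1) → ZMod 2) → {q : (Fin (k + 1) ⊕ Fin (k + 1) → ZMod 2) → ZMod 2 // PolTo q (fP (k + 1))} :=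
    fun w => ⟨tl (Cfsg.quadFormPlus (k + 1) (ZMod 2)) (fP (k + 1)) w, tl_polTo hf hQ w⟩
  have hΦ : Function.Bijective Φ := by
    constructor
    · intro w w' h
      have h1 : ∀ v, tl (Cfsg.quadFormPlus (k + 1) (ZMod 2)) (fP (k + 1)) w v = tl (Cfsg.quadFormPlus (k + 1) (ZMod 2)) (fP (k + 1)) w' v :=
        fun v => congrFun (congrArg Subtype.val h) v
      have h2 : w + w' = 0 := by
        apply fP_nondeg
        intro u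
        have h3 := h1 u
        unfold tl at h3
        rw [hf.add_right, add_left_cancel h3, CharTwo.add_self_eq_zero]
      have h4 : w' = -w := eq_neg_of_add_eq_zero_right h2
      rw [h4]
      funext i
      rw [Pi.neg_apply, CharTwo.neg_eq]
    · rintro ⟨q, hq⟩
      obtain ⟨w, hw⟩ := exists_tl hf (fP_nondeg (k + 1)) hQ hq
      exact ⟨w, Subtype.ext hw.symm⟩
  let E := Equiv.ofBijective Φ hΦ
  have hP : Nat.card {q : (Fin (k + 1) ⊕ Fin (k + 1) → ZMod 2) → ZMod 2 // PolTo q (fP (k + 1)) ∧ ∃ g : (Fin (k + 1) ⊕ Fin (k + 1) → ZMod 2) ≃ₗ[ZMod 2] (Fin (k + 1) ⊕ Fin (k + 1) → ZMod 2), ∀ v, q v = Cfsg.quadFormPlus (k + 1) (ZMod 2) (g v)} =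
      Nat.card {w : Fin (k + 1) ⊕ Fin (k + 1) → ZMod 2 // Cfsg.quadFormPlus (k + 1) (ZMod 2) w = 0} := by
    refine (Nat.card_congr ((Equiv.subtypeEquiv E ?_).trans (Equiv.subtypeSubtypeEquivSubtypeInter _ _))).symm
    · intro w
      constructor
      · exact fun hw => hplus w hw
      · exact fun h => hplus' w h
  have hM : Nat.card {q : (Fin (k + 1) ⊕ Fin (k + 1) → ZMod 2) → ZMod 2 // PolTo q (fP (k + 1)) ∧ ∃ g : (Fin (k + 1) ⊕ Fin (k + 1) → ZMod 2) ≃ₗ[ZMod 2] ((Fin k ⊕ Fin k) ⊕ Fin 2 → ZMod 2), ∀ v, q v = Cfsg.quadFormMinus k (ZMod 2) 1 1 (g v)} =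
      Nat.card {w : Fin (k + 1) ⊕ Fin (k + 1) → ZMod 2 // Cfsg.quadFormPlus (k + 1) (ZMod 2) w = 1} := by
    refine (Nat.card_congr ((Equiv.subtypeEquiv E ?_).trans (Equiv.subtypeSubtypeEquivSubtypeInter _ _))).symm
    · intro w
      constructor
      · exact fun hw => hminus w hw
      · exact fun h => hminus' w h
  have hc0 := two_mul_card_zeros (Cfsg.quadFormPlus (k + 1) (ZMod 2))
  have hc1 := two_mul_card_ones (Cfsg.quadFormPlus (k + 1) (ZMod 2))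
  rw [csum_plus, hcardV] at hc0 hc1
  have e1 : (2 : ℤ) ^ (2 * (k + 1)) = 2 * 2 ^ (2 * (k + 1) - 1) := by
    rw [← pow_succ']; congr 1
  have e2 : (2 : ℤ) ^ (k + 1) = 2 * 2 ^ k := by rw [← pow_succ']
  push_cast at hc0 hc1
  rw [e1, e2] at hc0 hc1
  refine ⟨?_, ?_, ?_, ?_⟩
  · rw [← Nat.card_congr E, Nat.card_eq_fintype_card, hcardV]
  · intro q hq
    obtain ⟨w, rfl⟩ := exists_tl hf (fP_nondeg (k + 1)) hQ hq
    rcases zmod2_cases (Cfsg.quadFormPlus (k + 1) (ZMod 2) w) with h | h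
    · exact Or.inl (hplus w h)
    · exact Or.inr (hminus w h)
  · rw [hP]
    have : ((Nat.card {w : Fin (k + 1) ⊕ Fin (k + 1) → ZMod 2 // Cfsg.quadFormPlus (k + 1) (ZMod 2) w = 0} : ℕ) : ℤ) = ((2 ^ (2 * (k + 1) - 1) + 2 ^ k : ℕ) : ℤ) := by
      push_cast; linarith
    exact_mod_cast this
  · rw [hM]
    have : ((Nat.card {w : Fin (k + 1) ⊕ Fin (k + 1) → ZMod 2 // Cfsg.quadFormPlus (k + 1) (ZMod 2) w = 1} : ℕ) : ℤ) + 2 ^ k = 2 ^ (2 * (k + 1) - 1) := by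
      linarith
    have h3 : Nat.card {w : Fin (k + 1) ⊕ Fin (k + 1) → ZMod 2 // Cfsg.quadFormPlus (k + 1) (ZMod 2) w = 1} + 2 ^ k = 2 ^ (2 * (k + 1) - 1) := by
      exact_mod_cast this
    omega


/-- Fix the non-singular alternating form on the 2m-dimensional space over the field of two elements obtained by polarizing the plus-type form Σ xᵢyᵢ (m ≥ 1). The functions q on the space with q(u + v) = q(u) + q(v) + f(u, v) (the quadratic forms polarizing to f) number 2^(2m); each is equivalent under an invertible linear map either to the plus-type form or to the minus-type form Σ xᵢyᵢ + (z₁² + z₁z₂ + z₂²); and those of plus type number 2^(2m−1) + 2^(m−1), those of minus type 2^(2m−1) − 2^(m−1). -/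
theorem result (m : ℕ) (hm : 1 ≤ m) :
    Nat.card {q : (Fin m ⊕ Fin m → ZMod 2) → ZMod 2 // (∀ u v : (Fin m ⊕ Fin m → ZMod 2), q (u + v) = q u + q v + (Cfsg.quadFormPlus m (ZMod 2) (u + v) - Cfsg.quadFormPlus m (ZMod 2) u - Cfsg.quadFormPlus m (ZMod 2) v))} = 2 ^ (2 * m) ∧
    (∀ q : (Fin m ⊕ Fin m → ZMod 2) → ZMod 2, (∀ u v : (Fin m ⊕ Fin m → ZMod 2), q (u + v) = q u + q v + (Cfsg.quadFormPlus m (ZMod 2) (u + v) - Cfsg.quadFormPlus m (ZMod 2) u - Cfsg.quadFormPlus m (ZMod 2) v)) →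
      (∃ g : (Fin m ⊕ Fin m → ZMod 2) ≃ₗ[ZMod 2] (Fin m ⊕ Fin m → ZMod 2), ∀ v, q v = Cfsg.quadFormPlus m (ZMod 2) (g v)) ∨
      (∃ g : (Fin m ⊕ Fin m → ZMod 2) ≃ₗ[ZMod 2] ((Fin (m - 1) ⊕ Fin (m - 1)) ⊕ Fin 2 → ZMod 2), ∀ v, q v = Cfsg.quadFormMinus (m - 1) (ZMod 2) 1 1 (g v))) ∧
    Nat.card {q : (Fin m ⊕ Fin m → ZMod 2) → ZMod 2 // (∀ u v : (Fin m ⊕ Fin m → ZMod 2), q (u + v) = q u + q v + (Cfsg.quadFormPlus m (ZMod 2) (u + v) - Cfsg.quadFormPlus m (ZMod 2) u - Cfsg.quadFormPlus m (ZMod 2) v)) ∧ ∃ g : (Fin m ⊕ Fin m → ZMod 2) ≃ₗ[ZMod 2] (Fin m ⊕ Fin m → ZMod 2), ∀ v, q v = Cfsg.quadFormPlus m (ZMod 2) (g v)} = 2 ^ (2 * m - 1) + 2 ^ (m - 1) ∧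
    Nat.card {q : (Fin m ⊕ Fin m → ZMod 2) → ZMod 2 // (∀ u v : (Fin m ⊕ Fin m → ZMod 2), q (u + v) = q u + q v + (Cfsg.quadFormPlus m (ZMod 2) (u + v) - Cfsg.quadFormPlus m (ZMod 2) u - Cfsg.quadFormPlus m (ZMod 2) v)) ∧ ∃ g : (Fin m ⊕ Fin m → ZMod 2) ≃ₗ[ZMod 2] ((Fin (m - 1) ⊕ Fin (m - 1)) ⊕ Fin 2 → ZMod 2), ∀ v, q v = Cfsg.quadFormMinus (m - 1) (ZMod 2) 1 1 (g v)} = 2 ^ (2 * m - 1) - 2 ^ (m - 1) := by
  obtain ⟨k, rfl⟩ : ∃ k, m = k + 1 := ⟨m - 1, by omega⟩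
  exact key k

end Cfsg.Agent.S2561
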