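import Cfsg.Statements.S2562
import Cfsg.Agent.H43.BinStd
import Cfsg.Agent.Orth.Bridge

set_option autoImplicit false
open Cfsg

namespace Cfsg.Agent.S2562

open Cfsg.Agent.H43 Cfsg.Agent.Orth in
theorem key (k : ℕ) :
    (∃ U : Submodule (ZMod 2) (Fin (k + 1) ⊕ Fin (k + 1) → ZMod 2), (∀ u ∈ U, Cfsg.quadFormPlus (k + 1) (ZMod 2) u = 0) ∧ Module.finrank (ZMod 2) ↥U = k + 1) ∧
    (∀ U : Submodule (ZMod 2) (Fin (k + 1) ⊕ Fin (k + 1) → ZMod 2), (∀ u ∈ U, Cfsg.quadFormPlus (k + 1) (ZMod 2) u = 0) → Module.finrank (ZMod 2) ↥U ≤ k + 1) ∧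
    (∃ U : Submodule (ZMod 2) ((Fin k ⊕ Fin k) ⊕ Fin 2 → ZMod 2), (∀ u ∈ U, Cfsg.quadFormMinus k (ZMod 2) 1 1 u = 0) ∧ Module.finrank (ZMod 2) ↥U = k) ∧
    (∀ U : Submodule (ZMod 2) ((Fin k ⊕ Fin k) ⊕ Fin 2 → ZMod 2), (∀ u ∈ U, Cfsg.quadFormMinus k (ZMod 2) 1 1 u = 0) → Module.finrank (ZMod 2) ↥U ≤ k) := by
  have hndP := qfPlus_nondegenerate (k + 1) (ZMod 2)
  have hndM := qfMinus_nondegenerate k (ZMod 2) (a := 1) (b := 1) (by decide)
  refine ⟨?_, ?_, ?_, ?_⟩
  · -- the subspace of vectors supported on the first half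
    let φ : (Fin (k + 1) → ZMod 2) →ₗ[ZMod 2] (Fin (k + 1) ⊕ Fin (k + 1) → ZMod 2) :=
      { toFun := fun x => Sum.elim x 0
        map_add' := by intro x y; funext i; rcases i with i | i <;> simp
        map_smul' := by intro c x; funext i; rcases i with i | i <;> simp }
    have hφ : Function.Injective φ := by
      intro x y h
      funext i
      exact congrFun h (.inl i)
    refine ⟨LinearMap.range φ, ?_, ?_⟩
    · rintro _ ⟨x, rfl⟩
      unfold Cfsg.quadFormPlus
      simp [φ]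
    · rw [LinearMap.finrank_range_of_inj hφ, Module.finrank_fintype_fun_eq_card, Fintype.card_fin]
  · intro U hU
    have h1 := finrank_perp hndP U
    have h2 := Submodule.finrank_mono (le_perp_of_singular (Q := qfPlus (k + 1) (ZMod 2)) hU)
    rw [Module.finrank_fintype_fun_eq_card, Fintype.card_sum, Fintype.card_fin] at h1
    omega
  · let φ : (Fin k → ZMod 2) →ₗ[ZMod 2] ((Fin k ⊕ Fin k) ⊕ Fin 2 → ZMod 2) :=
      { toFun := fun x => Sum.elim (Sum.elim x 0) 0
        map_add' := by intro x y; funext i; rcases i with (i | i) | i <;> simp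
        map_smul' := by intro c x; funext i; rcases i with (i | i) | i <;> simp }
    have hφ : Function.Injective φ := by
      intro x y h
      funext i
      exact congrFun h (.inl (.inl i))
    refine ⟨LinearMap.range φ, ?_, ?_⟩
    · rintro _ ⟨x, rfl⟩
      unfold Cfsg.quadFormMinus
      simp [φ]
    · rw [LinearMap.finrank_range_of_inj hφ, Module.finrank_fintype_fun_eq_card, Fintype.card_fin]
  · intro U hU
    have h1 := finrank_perp hndM U
    have hle := le_perp_of_singular (Q := qfMinus k (ZMod 2) 1 1) hU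
    have h2 := Submodule.finrank_mono hle
    rw [Module.finrank_fintype_fun_eq_card, Fintype.card_sum, Fintype.card_sum, Fintype.card_fin, Fintype.card_fin] at h1
    by_contra hcon
    have heq : U = perp (qfMinus k (ZMod 2) 1 1) U := by
      refine Submodule.eq_of_le_of_finrank_le hle ?_
      omega
    have hf : BiForm (fun u v : (Fin k ⊕ Fin k) ⊕ Fin 2 → ZMod 2 => QuadraticMap.polar (qfMinus k (ZMod 2) 1 1) u v) :=
      { add_left := fun u u' v => QuadraticMap.polar_add_left _ _ _ _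
        symm := fun u v => QuadraticMap.polar_comm _ _ _
        self := fun v => by
          have : (2 : ZMod 2) = 0 := rfl
          rw [QuadraticMap.polar_self, two_nsmul, CharTwo.add_self_eq_zero] }
    have hq : PolTo (Cfsg.quadFormMinus k (ZMod 2) 1 1) (fun u v : (Fin k ⊕ Fin k) ⊕ Fin 2 → ZMod 2 => QuadraticMap.polar (qfMinus k (ZMod 2) 1 1) u v) := by
      intro u v
      change _ = _ + _ + (Cfsg.quadFormMinus k (ZMod 2) 1 1 (u + v) - Cfsg.quadFormMinus k (ZMod 2) 1 1 u - Cfsg.quadFormMinus k (ZMod 2) 1 1 v)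
      ring
    have hcs := csum_eq_card hf hq U hU (by
      intro v hv
      rw [heq]
      intro u hu
      have := hv u hu
      change QuadraticMap.polar (qfMinus k (ZMod 2) 1 1) u v = 0
      rw [QuadraticMap.polar_comm]
      exact this)
    rw [csum_minus] at hcs
    have h0 : (0 : ℤ) < 2 ^ (k + 1) := by positivity
    have h3 : (0 : ℤ) ≤ Nat.card U := by positivity
    linarith


/-- Witt indices over the field of two elements, m ≥ 1: for the plus-type form Σ xᵢyᵢ in dimension 2m some m-dimensional subspace is totally singular and no totally singular subspace has larger dimension; for the minus-type form Σ xᵢyᵢ + (z₁² + z₁z₂ + z₂²) in dimension 2m the maximal dimension of a totally singular subspace is m − 1. -/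
theorem result (m : ℕ) (hm : 1 ≤ m) :
    (∃ U : Submodule (ZMod 2) (Fin m ⊕ Fin m → ZMod 2), (∀ u ∈ U, Cfsg.quadFormPlus m (ZMod 2) u = 0) ∧ Module.finrank (ZMod 2) ↥U = m) ∧
    (∀ U : Submodule (ZMod 2) (Fin m ⊕ Fin m → ZMod 2), (∀ u ∈ U, Cfsg.quadFormPlus m (ZMod 2) u = 0) → Module.finrank (ZMod 2) ↥U ≤ m) ∧
    (∃ U : Submodule (ZMod 2) ((Fin (m - 1) ⊕ Fin (m - 1)) ⊕ Fin 2 → ZMod 2), (∀ u ∈ U, Cfsg.quadFormMinus (m - 1) (ZMod 2) 1 1 u = 0) ∧ Module.finrank (ZMod 2) ↥U = m - 1) ∧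
    (∀ U : Submodule (ZMod 2) ((Fin (m - 1) ⊕ Fin (m - 1)) ⊕ Fin 2 → ZMod 2), (∀ u ∈ U, Cfsg.quadFormMinus (m - 1) (ZMod 2) 1 1 u = 0) → Module.finrank (ZMod 2) ↥U ≤ m - 1) := by
  obtain ⟨k, rfl⟩ : ∃ k, m = k + 1 := ⟨m - 1, by omega⟩
  exact key k

end Cfsg.Agent.S2562
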