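import Cfsg.Statements.S2564
import Cfsg.Agent.H43.BinStd

set_option autoImplicit false
open Cfsg

namespace Cfsg.Agent.S2564

/-- On the 2m-dimensional space over the field of two elements (m ≥ 1) let f be the alternating form obtained by polarizing the plus-type form Σ xᵢyᵢ, and let q be any quadratic form polarizing to f. For a vector w, the function q + f(·, w) again polarizes to f, and it is equivalent to q under an invertible linear map (that is, has the same type) if and only if q(w) = 0. -/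
theorem result (m : ℕ) (hm : 1 ≤ m) (q : (Fin m ⊕ Fin m → ZMod 2) → ZMod 2) (hq : (∀ u v : (Fin m ⊕ Fin m → ZMod 2), q (u + v) = q u + q v + (Cfsg.quadFormPlus m (ZMod 2) (u + v) - Cfsg.quadFormPlus m (ZMod 2) u - Cfsg.quadFormPlus m (ZMod 2) v))) (w : (Fin m ⊕ Fin m → ZMod 2)) :
    (∀ u v : (Fin m ⊕ Fin m → ZMod 2), (q (u + v) + (Cfsg.quadFormPlus m (ZMod 2) (u + v + w) - Cfsg.quadFormPlus m (ZMod 2) (u + v) - Cfsg.quadFormPlus m (ZMod 2) w)) =
        (q u + (Cfsg.quadFormPlus m (ZMod 2) (u + w) - Cfsg.quadFormPlus m (ZMod 2) u - Cfsg.quadFormPlus m (ZMod 2) w)) + (q v + (Cfsg.quadFormPlus m (ZMod 2) (v + w) - Cfsg.quadFormPlus m (ZMod 2) v - Cfsg.quadFormPlus m (ZMod 2) w)) +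
        (Cfsg.quadFormPlus m (ZMod 2) (u + v) - Cfsg.quadFormPlus m (ZMod 2) u - Cfsg.quadFormPlus m (ZMod 2) v)) ∧
    ((∃ g : (Fin m ⊕ Fin m → ZMod 2) ≃ₗ[ZMod 2] (Fin m ⊕ Fin m → ZMod 2), ∀ v, q v + (Cfsg.quadFormPlus m (ZMod 2) (v + w) - Cfsg.quadFormPlus m (ZMod 2) v - Cfsg.quadFormPlus m (ZMod 2) w) = q (g v)) ↔ q w = 0) := by
  have hf := Cfsg.Agent.H43.fP_biForm m
  have hq' : Cfsg.Agent.H43.PolTo q (Cfsg.Agent.H43.fP m) := hq
  constructor
  · intro u v
    exact Cfsg.Agent.H43.tl_polTo hf hq' w u v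
  · constructor
    · rintro ⟨g, hg⟩
      have h1 : Cfsg.Agent.H43.csum (Cfsg.Agent.H43.tl q (Cfsg.Agent.H43.fP m) w) = Cfsg.Agent.H43.csum q := by
        rw [← Cfsg.Agent.H43.csum_comp g.toEquiv q]
        congr 1
        funext v
        exact hg v
      rw [Cfsg.Agent.H43.csum_tl hq'] at h1
      have h2 := Cfsg.Agent.H43.csum_ne_zero m hq'
      rcases Cfsg.Agent.H43.zmod2_cases (q w) with h | h
      · exact h
      · rw [h, Cfsg.Agent.H43.sg_one] at h1
        exfalso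
        apply h2
        linarith
    · intro h
      exact ⟨Cfsg.Agent.H43.trvE hf w, fun v => Cfsg.Agent.H43.tl_eq_comp hf hq' h v⟩

end Cfsg.Agent.S2564
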