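import Cfsg.Statements.S2565
import Cfsg.Agent.H43.EvenSets
import Cfsg.Agent.OrthCount.Orders

set_option autoImplicit false
open Cfsg

namespace Cfsg.Agent.S2565

/-- The commutator subgroup of the full orthogonal group of the plus-type form Σ xᵢyᵢ in dimension 6 over the field of two elements (the group Ω⁺₆(2), of index 2) is isomorphic to the alternating group of degree 8. -/
theorem result :
    (Cfsg.Omega (ZMod 2) (Cfsg.quadFormPlus 3 (ZMod 2))).index = 2 ∧
    Nonempty (↥(Cfsg.Omega (ZMod 2) (Cfsg.quadFormPlus 3 (ZMod 2))) ≃* alternatingGroup (Fin 8)) := by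
  classical
  obtain ⟨φ, hφ⟩ := (Cfsg.Agent.H43.perm_even_main 1 le_rfl).1 odd_one
  have hc : Nat.card ↥(Cfsg.isometryGroup (ZMod 2) (Cfsg.quadFormPlus (2 * 1 + 1) (ZMod 2))) = 40320 := by
    rw [Cfsg.Agent.OrthCount.order_plus (2 * 1 + 1) (by norm_num)]
    simp [Finset.prod_range_succ]
  have hc2 : Nat.card (Equiv.Perm (Fin (4 * 1 + 4))) = 40320 := by
    rw [Nat.card_perm, Nat.card_eq_fintype_card, Fintype.card_fin]
    rfl
  have : Finite ↥(Cfsg.isometryGroup (ZMod 2) (Cfsg.quadFormPlus (2 * 1 + 1) (ZMod 2))) := Nat.finite_of_card_ne_zero (by rw [hc]; norm_num)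
  have hb : Function.Bijective φ := (Nat.bijective_iff_injective_and_card φ).2 ⟨hφ, by rw [hc, hc2]⟩
  have e : Equiv.Perm (Fin 8) ≃* ↥(Cfsg.isometryGroup (ZMod 2) (Cfsg.quadFormPlus 3 (ZMod 2))) := MulEquiv.ofBijective φ hb
  have h1 : (alternatingGroup (Fin 8)).map e.toMonoidHom = Cfsg.Omega (ZMod 2) (Cfsg.quadFormPlus 3 (ZMod 2)) := by
    rw [← alternatingGroup.commutator_perm_eq (by simp), commutator_def, Subgroup.map_commutator,
      ← MonoidHom.range_eq_map, MonoidHom.range_eq_top.2 e.surjective]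
    rfl
  refine ⟨?_, ?_⟩
  · rw [← h1]
    have h2 := Subgroup.index_map_equiv (alternatingGroup (Fin 8)) e
    refine h2.trans ?_
    exact alternatingGroup.index_eq_two
  · have h3 : ↥(alternatingGroup (Fin 8)) ≃* ↥((alternatingGroup (Fin 8)).map e.toMonoidHom) := e.subgroupMap (alternatingGroup (Fin 8))
    exact ⟨(MulEquiv.subgroupCongr h1).symm.trans h3.symm⟩

end Cfsg.Agent.S2565
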