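import Cfsg.Statements.S2567
-- import your own Cfsg.Agent.* helpers here

set_option autoImplicit false
open Cfsg

namespace Cfsg.Agent.S2567

/-- Lifting elements of prime order from PGL to GL: let F be a finite field with q elements, r a prime not dividing q − 1, and x an element of order r in GL_n(F) modulo its centre (the scalar matrices). Then x has exactly one preimage in GL_n(F) of order r. -/
theorem result {F : Type*} [Field F] [Fintype F] {q n r : ℕ} (hF : Fintype.card F = q) (hr : r.Prime) (hdiv : ¬ r ∣ q - 1) (x : GL (Fin n) F ⧸ Subgroup.center (GL (Fin n) F)) (hx : orderOf x = r) : ∃! g : GL (Fin n) F, (QuotientGroup.mk g : GL (Fin n) F ⧸ Subgroup.center (GL (Fin n) F)) = x ∧ orderOf g = r := by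
  classical
  have : Fact r.Prime := ⟨hr⟩
  have hcard : (Nat.card (Subgroup.center (GL (Fin n) F))).Coprime r := by
    have h1 : Nat.card (Subgroup.center (GL (Fin n) F)) ∣ q - 1 := by
      rw [Matrix.GeneralLinearGroup.center_eq_range_scalar]
      have := Subgroup.card_range_dvd (Matrix.GeneralLinearGroup.scalar (R := F) (Fin n))
      rwa [Nat.card_units, Nat.card_eq_fintype_card (α := F), hF] at this
    have h2 : r.Coprime (q - 1) := (Nat.Prime.coprime_iff_not_dvd hr).2 hdiv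
    exact (Nat.Coprime.coprime_dvd_right h1 h2).symm
  have key : ∀ z : GL (Fin n) F, z ∈ Subgroup.center (GL (Fin n) F) → z ^ r = 1 → z = 1 := by
    intro z hz hzr
    have h1 : orderOf (⟨z, hz⟩ : Subgroup.center (GL (Fin n) F)) ∣ r := by
      apply orderOf_dvd_of_pow_eq_one
      exact Subtype.ext hzr
    have h2 := orderOf_dvd_natCard (⟨z, hz⟩ : Subgroup.center (GL (Fin n) F))
    have h3 := Nat.eq_one_of_dvd_coprimes hcard h2 h1
    rw [orderOf_eq_one_iff] at h3
    exact congrArg Subtype.val h3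
  have hx1 : x ≠ 1 := by
    rintro rfl
    rw [orderOf_one] at hx
    exact hr.one_lt.ne hx
  obtain ⟨g₀, rfl⟩ := QuotientGroup.mk_surjective x
  have hg0 : g₀ ^ r ∈ Subgroup.center (GL (Fin n) F) := by
    have := pow_orderOf_eq_one (QuotientGroup.mk g₀ : GL (Fin n) F ⧸ Subgroup.center (GL (Fin n) F))
    rw [hx, ← QuotientGroup.mk_pow] at this
    exact (QuotientGroup.eq_one_iff _).1 this
  obtain ⟨w, hw⟩ := (powCoprime hcard).surjective ⟨g₀ ^ r, hg0⟩
  have hw' : (w : GL (Fin n) F) ^ r = g₀ ^ r := congrArg Subtype.val hw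
  have hcomm : Commute g₀ ((w : GL (Fin n) F)⁻¹) := by
    have := Subgroup.mem_center_iff.1 ((Subgroup.center (GL (Fin n) F)).inv_mem w.2) g₀
    exact this
  have hmk : (QuotientGroup.mk (g₀ * (w : GL (Fin n) F)⁻¹) : GL (Fin n) F ⧸ Subgroup.center (GL (Fin n) F)) = QuotientGroup.mk g₀ := by
    rw [QuotientGroup.eq]
    have : (g₀ * (w : GL (Fin n) F)⁻¹)⁻¹ * g₀ = w := by group
    rw [this]; exact w.2
  refine ⟨g₀ * (w : GL (Fin n) F)⁻¹, ⟨hmk, ?_⟩, ?_⟩
  · apply orderOf_eq_prime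
    · rw [hcomm.mul_pow, inv_pow, hw', mul_inv_cancel]
    · intro h
      rw [h] at hmk
      exact hx1 hmk.symm
  · rintro g ⟨hg1, hg2⟩
    have h4 : (g₀ * (w : GL (Fin n) F)⁻¹)⁻¹ * g ∈ Subgroup.center (GL (Fin n) F) := by
      rw [← QuotientGroup.eq, hmk, hg1]
    obtain ⟨z, hz⟩ : ∃ z, z = (g₀ * (w : GL (Fin n) F)⁻¹)⁻¹ * g := ⟨_, rfl⟩
    rw [← hz] at h4
    have hg : g = (g₀ * (w : GL (Fin n) F)⁻¹) * z := by rw [hz]; group
    have hcz : Commute (g₀ * (w : GL (Fin n) F)⁻¹) z := Subgroup.mem_center_iff.1 h4 _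
    have h5 : g ^ r = 1 := by rw [← hg2]; exact pow_orderOf_eq_one g
    rw [hg, hcz.mul_pow, hcomm.mul_pow, inv_pow, hw', mul_inv_cancel, one_mul] at h5
    rw [hg, key z h4 h5, mul_one]

end Cfsg.Agent.S2567
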