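import Cfsg.Statements.S2569
import Cfsg.Agent.H43.DetCent

set_option autoImplicit false
open Cfsg

namespace Cfsg.Agent.S2569

/-- In GL_n over a finite field of characteristic p, the conjugacy class of a semisimple element (an element of order prime to p) under the special linear group is its whole GL-conjugacy class: for every such x and every invertible g there is h of determinant one with h x h⁻¹ = g x g⁻¹. -/
theorem result {F : Type*} [Field F] [Fintype F] {p : ℕ} [Fact p.Prime] [CharP F p] {n : ℕ} (x g : GL (Fin n) F) (hx : (orderOf x).Coprime p) : ∃ h : GL (Fin n) F, (h : Matrix (Fin n) (Fin n) F).det = 1 ∧ h * x * h⁻¹ = g * x * g⁻¹ := by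
  classical
  rcases Nat.eq_zero_or_pos n with hn | hn
  · subst hn
    exact ⟨g, Matrix.det_isEmpty, rfl⟩
  obtain ⟨f, hf⟩ : ∃ f : Module.End F (Fin n → F), f = ((Cfsg.Agent.H43.glEnd x : (Module.End F (Fin n → F))ˣ) : Module.End F (Fin n → F)) := ⟨_, rfl⟩
  have hk : ((orderOf x : ℕ) : F) ≠ 0 := by
    intro h0
    rw [CharP.cast_eq_zero_iff F p] at h0
    have h1 : p.Prime := Fact.out
    have := Nat.Coprime.eq_one_of_dvd hx.symm h0
    exact h1.one_lt.ne' this
  have hfk : f ^ orderOf x = 1 := by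
    rw [hf, ← Units.val_pow_eq_pow_val, ← map_pow, pow_orderOf_eq_one, map_one, Units.val_one]
  have hg0 : (g : Matrix (Fin n) (Fin n) F).det ≠ 0 := by
    have : IsUnit (g : Matrix (Fin n) (Fin n) F) := g.isUnit
    rw [Matrix.isUnit_iff_isUnit_det] at this
    exact this.ne_zero
  obtain ⟨c, hc, hcd⟩ := Cfsg.Agent.H43.exists_commute_det f (orderOf x) hk hfk (by simpa using hn)
    ((g : Matrix (Fin n) (Fin n) F).det)⁻¹ (inv_ne_zero hg0)
  obtain ⟨C, hC⟩ : ∃ C : Matrix (Fin n) (Fin n) F, Matrix.toLin' C = c := ⟨LinearMap.toMatrix' c, Matrix.toLin'_toMatrix' c⟩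
  have hCdet : C.det = ((g : Matrix (Fin n) (Fin n) F).det)⁻¹ := by
    rw [← hcd, ← hC, LinearMap.det_toLin']
  have hCu : IsUnit C := by
    rw [Matrix.isUnit_iff_isUnit_det, hCdet]
    exact (inv_ne_zero hg0).isUnit
  obtain ⟨U, rfl⟩ := hCu
  have hcomm : U * x = x * U := by
    apply Units.ext
    rw [Units.val_mul, Units.val_mul]
    rw [← Cfsg.Agent.H43.commute_toLin'_iff, hC]
    rw [hf] at hc
    exact hc
  refine ⟨g * U, ?_, ?_⟩
  · rw [Units.val_mul, Matrix.det_mul, hCdet, mul_inv_cancel₀ hg0]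
  · rw [mul_inv_rev]
    calc g * U * x * (U⁻¹ * g⁻¹) = g * (U * x) * U⁻¹ * g⁻¹ := by group
      _ = g * (x * U) * U⁻¹ * g⁻¹ := by rw [hcomm]
      _ = g * x * g⁻¹ := by group

end Cfsg.Agent.S2569
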