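import Cfsg.Statements.S2571
import Cfsg.Agent.H43.Cyclic
import Cfsg.Agent.H43.MatEnd

set_option autoImplicit false
open Cfsg

namespace Cfsg.Agent.S2571

/-- Centraliser of a regular unipotent element in GL_n(q): if u is an invertible n × n matrix over the field with q elements, n ≥ 1, with (u − 1)^n = 0 and rank(u − 1) = n − 1 (a single unipotent Jordan block), then its centraliser in GL_n(q) has order (q − 1) q^(n−1). -/
theorem result {F : Type*} [Field F] [Fintype F] {q n : ℕ} (hF : Fintype.card F = q) (hn : 1 ≤ n) (u : GL (Fin n) F) (hnil : ((u : Matrix (Fin n) (Fin n) F) - 1) ^ n = 0) (hreg : ((u : Matrix (Fin n) (Fin n) F) - 1).rank = n - 1) : Nat.card ↥(Subgroup.centralizer ({u} : Set (GL (Fin n) F))) = (q - 1) * q ^ (n - 1) := by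
  obtain ⟨A, hA⟩ : ∃ A : Matrix (Fin n) (Fin n) F, A = (u : Matrix (Fin n) (Fin n) F) := ⟨_, rfl⟩
  obtain ⟨f, hf⟩ : ∃ f : Module.End F (Fin n → F), f = Matrix.toLin' (A - 1) := ⟨_, rfl⟩
  rw [← hA] at hnil hreg
  have hfn : f ^ n = 0 := by
    rw [hf, ← Matrix.toLin'_pow, hnil, map_zero]
  have hk : Module.finrank F (LinearMap.ker f) ≤ 1 := by
    have := Cfsg.Agent.H43.finrank_ker_toLin' (A - 1)
    rw [hreg, ← hf, Fintype.card_fin] at this
    omega
  rw [Cfsg.Agent.H43.card_centralizer, ← hA, ← hF, ← Nat.card_eq_fintype_card,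
    ← Cfsg.Agent.H43.card_units_commute f n (by rw [Module.finrank_fintype_fun_eq_card, Fintype.card_fin]) hn hfn hk]
  refine Nat.card_congr (Equiv.subtypeEquiv (Equiv.refl _) ?_)
  intro g
  rw [Equiv.refl_apply, hf, Cfsg.Agent.H43.toLin'_sub_one, Cfsg.Agent.H43.commute_sub_one_iff]

end Cfsg.Agent.S2571
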