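import Cfsg.Statements.S2572
import Cfsg.Agent.H43.Count

set_option autoImplicit false
open Cfsg

namespace Cfsg.Agent.S2572

/-- Centraliser of a transvection in GL_n(q), n ≥ 2: if t − 1 has rank one and square zero, the centraliser of t in GL_n(q) has order q^(2n−3) (q − 1) |GL_(n−2)(q)| (a group of order q^(2n−3) extended by GL_1(q) × GL_(n−2)(q)). -/
theorem result {F : Type*} [Field F] [Fintype F] {q n : ℕ} (hF : Fintype.card F = q) (hn : 2 ≤ n) (t : GL (Fin n) F) (ht : Cfsg.IsTransvection (t : Matrix (Fin n) (Fin n) F)) : Nat.card ↥(Subgroup.centralizer ({t} : Set (GL (Fin n) F))) = q ^ (2 * n - 3) * (q - 1) * ∏ i : Fin (n - 2), (q ^ (n - 2) - q ^ (i : ℕ)) := by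
  classical
  subst hF
  obtain ⟨k, rfl⟩ : ∃ k, n = k + 2 := ⟨n - 2, by omega⟩
  have hq : 1 < Fintype.card F := Fintype.one_lt_card
  obtain ⟨q, hqq⟩ : ∃ q, q = Fintype.card F := ⟨_, rfl⟩
  -- conjugates of `t` are exactly the transvections
  have hcl : Nat.card {x : GL (Fin (k + 2)) F // IsConj t x} = Nat.card {M : Matrix (Fin (k + 2)) (Fin (k + 2)) F // Cfsg.IsTransvection M} := by
    have hfor : ∀ x : GL (Fin (k + 2)) F, IsConj t x → Cfsg.IsTransvection (x : Matrix (Fin (k + 2)) (Fin (k + 2)) F) := by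
      intro x hx
      obtain ⟨g, rfl⟩ := isConj_iff.1 hx
      obtain ⟨G, hG⟩ : ∃ G, G = (g : Matrix (Fin (k + 2)) (Fin (k + 2)) F) := ⟨_, rfl⟩
      obtain ⟨G', hG'⟩ : ∃ G', G' = ((g⁻¹ : GL (Fin (k + 2)) F) : Matrix (Fin (k + 2)) (Fin (k + 2)) F) := ⟨_, rfl⟩
      have hGG' : G * G' = 1 := by
        rw [hG, hG', ← Units.val_mul, mul_inv_cancel, Units.val_one]
      have hG'G : G' * G = 1 := by
        rw [hG, hG', ← Units.val_mul, inv_mul_cancel, Units.val_one]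
      have e : ((g * t * g⁻¹ : GL (Fin (k + 2)) F) : Matrix (Fin (k + 2)) (Fin (k + 2)) F) - 1 = G * ((t : Matrix (Fin (k + 2)) (Fin (k + 2)) F) - 1) * G' := by
        rw [Units.val_mul, Units.val_mul, ← hG, ← hG', mul_sub, sub_mul, mul_one, hGG']
      have hGu : IsUnit G.det := by
        rw [← Matrix.isUnit_iff_isUnit_det]
        exact ⟨⟨G, G', hGG', hG'G⟩, rfl⟩
      have hG'u : IsUnit G'.det := by
        rw [← Matrix.isUnit_iff_isUnit_det]
        exact ⟨⟨G', G, hG'G, hGG'⟩, rfl⟩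
      refine ⟨?_, ?_⟩
      · rw [e, Matrix.rank_mul_eq_left_of_isUnit_det _ _ hG'u, Matrix.rank_mul_eq_right_of_isUnit_det _ _ hGu]
        exact ht.1
      · rw [e]
        calc G * ((t : Matrix (Fin (k + 2)) (Fin (k + 2)) F) - 1) * G' * (G * ((t : Matrix (Fin (k + 2)) (Fin (k + 2)) F) - 1) * G')
            = G * ((t : Matrix (Fin (k + 2)) (Fin (k + 2)) F) - 1) * (G' * G) * ((t : Matrix (Fin (k + 2)) (Fin (k + 2)) F) - 1) * G' := by
              simp only [mul_assoc]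
          _ = G * (((t : Matrix (Fin (k + 2)) (Fin (k + 2)) F) - 1) * ((t : Matrix (Fin (k + 2)) (Fin (k + 2)) F) - 1)) * G' := by
              rw [hG'G, mul_one]; simp only [mul_assoc]
          _ = 0 := by rw [ht.2, mul_zero, zero_mul]
    refine Nat.card_congr (Equiv.ofBijective (fun x => ⟨x.1.1, hfor x.1 x.2⟩) ⟨?_, ?_⟩)
    · intro x y h
      exact Subtype.ext (Units.ext (congrArg Subtype.val h))
    · rintro ⟨M, hM⟩
      obtain ⟨a, φ, ha, hφ, hφa, hs'⟩ := Cfsg.Agent.H43.exists_of_isTransvection ht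
      obtain ⟨b, ψ, hb, hψ, hψb, ht'⟩ := Cfsg.Agent.H43.exists_of_isTransvection hM
      obtain ⟨g, hgdet, hga, hgψ⟩ := Cfsg.Agent.H43.exists_flag_map ha hb hφ hψ hφa hψb
      have hgu : IsUnit g := by rw [Matrix.isUnit_iff_isUnit_det]; exact hgdet.isUnit
      obtain ⟨G, rfl⟩ := hgu
      have hG : (G : Matrix (Fin (k + 2)) (Fin (k + 2)) F) * (t : Matrix (Fin (k + 2)) (Fin (k + 2)) F) = M * (G : Matrix (Fin (k + 2)) (Fin (k + 2)) F) := by
        rw [hs', ht', mul_add, add_mul, mul_one, one_mul, Cfsg.Agent.H43.mul_vecMulVec', Cfsg.Agent.H43.vecMulVec_mul',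
          hga, hgψ]
      refine ⟨⟨G * t * G⁻¹, isConj_iff.2 ⟨G, rfl⟩⟩, ?_⟩
      apply Subtype.ext
      change ((G * t * G⁻¹ : GL (Fin (k + 2)) F) : Matrix (Fin (k + 2)) (Fin (k + 2)) F) = M
      rw [Units.val_mul, Units.val_mul, hG, mul_assoc, ← Units.val_mul, mul_inv_cancel, Units.val_one, mul_one]
  have h1 := Cfsg.Agent.H43.card_isConj_mul_card_centralizer t
  have h2 := Cfsg.Agent.H43.card_transvections (F := F) (n := k + 2) (by omega)
  rw [hcl, Matrix.card_GL_field] at h1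
  rw [← hqq] at h1 h2 hq ⊢
  obtain ⟨C, hC⟩ : ∃ C, C = Nat.card ↥(Subgroup.centralizer ({t} : Set (GL (Fin (k + 2)) F))) := ⟨_, rfl⟩
  obtain ⟨T, hT⟩ : ∃ T, T = Nat.card {M : Matrix (Fin (k + 2)) (Fin (k + 2)) F // Cfsg.IsTransvection M} := ⟨_, rfl⟩
  rw [← hC, ← hT] at h1
  rw [← hT] at h2
  rw [← hC]
  have hprod : ∏ i : Fin (k + 2), (q ^ (k + 2) - q ^ (i : ℕ)) =
      (q ^ (k + 2) - 1) * (q ^ (k + 1) - 1) * (q ^ (2 * k + 1) * ∏ i : Fin k, (q ^ k - q ^ (i : ℕ))) := by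
    rw [Fin.prod_univ_succ, Fin.prod_univ_succ]
    have e1 : ∀ i : Fin k, q ^ (k + 2) - q ^ ((i.succ.succ : Fin (k + 2)) : ℕ) = q ^ 2 * (q ^ k - q ^ (i : ℕ)) := by
      intro i
      rw [Nat.mul_sub, ← pow_add, ← pow_add, Fin.val_succ, Fin.val_succ]
      congr 2 <;> ring
    rw [Finset.prod_congr rfl (fun i _ => e1 i), Finset.prod_mul_distrib, Finset.prod_const, Finset.card_univ,
      Fintype.card_fin]
    have e2 : q ^ (k + 2) - q ^ (((0 : Fin (k + 1)).succ : Fin (k + 2)) : ℕ) = q * (q ^ (k + 1) - 1) := by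
      rw [Nat.mul_sub, ← pow_succ', mul_one]
      simp
    have e3 : q ^ (k + 2) - q ^ ((0 : Fin (k + 2)) : ℕ) = q ^ (k + 2) - 1 := by simp
    rw [e2, e3]
    ring
  rw [hprod] at h1
  have hpos : 0 < (q ^ (k + 2) - 1) * (q ^ (k + 1) - 1) := by
    have h3 : 1 < q ^ (k + 2) := Nat.one_lt_pow (by omega) hq
    have h4 : 1 < q ^ (k + 1) := Nat.one_lt_pow (by omega) hq
    exact Nat.mul_pos (by omega) (by omega)
  have e4 : k + 2 - 1 = k + 1 := by omega
  have e5 : 2 * (k + 2) - 3 = 2 * k + 1 := by omega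
  have e6 : k + 2 - 2 = k := by omega
  rw [e4] at h2
  have hgoal : C = q ^ (2 * k + 1) * (q - 1) * ∏ i : Fin k, (q ^ k - q ^ (i : ℕ)) := by
    apply Nat.eq_of_mul_eq_mul_left hpos
    rw [← h2]
    have : T * (q - 1) * C = (T * C) * (q - 1) := by ring
    rw [this, h1, h2]
    ring
  rw [e5]
  exact hgoal

end Cfsg.Agent.S2572
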