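import Cfsg.Statements.S2573
import Cfsg.Agent.H43.RegNil

set_option autoImplicit false
open Cfsg

namespace Cfsg.Agent.S2573

/-- The invariant subspaces of a regular unipotent matrix form a chain: over a finite field, if u is an n × n matrix with (u − 1)^n = 0 and rank(u − 1) = n − 1, then every subspace W of F^n with u W ⊆ W is the kernel of (u − 1)^(dim W); so u has at most one invariant subspace of each dimension. -/
theorem result {F : Type*} [Field F] [Finite F] {n : ℕ} (u : Matrix (Fin n) (Fin n) F) (hnil : (u - 1) ^ n = 0) (hreg : (u - 1).rank = n - 1) (W : Submodule F (Fin n → F)) (hW : ∀ v ∈ W, u.mulVec v ∈ W) : W = LinearMap.ker (Matrix.mulVecLin ((u - 1) ^ Module.finrank F W)) := by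
  obtain ⟨f, hf⟩ : ∃ f : Module.End F (Fin n → F), f = Matrix.toLin' (u-1) := ⟨_, rfl⟩
  have hnil' : IsNilpotent f := by
    refine ⟨n, ?_⟩
    rw [hf, ← Matrix.toLin'_pow, hnil, map_zero]
  have h1 : Module.finrank F (LinearMap.ker f) ≤ 1 := by
    have h2 := LinearMap.finrank_range_add_finrank_ker f
    have h3 : Module.finrank F (LinearMap.range f) = n - 1 := by 
      rw [← hreg, hf, Matrix.toLin'_apply']; rfl
    rw [h3, Module.finrank_fintype_fun_eq_card, Fintype.card_fin] at h2
    omega
  have hW' : ∀ v ∈ W, f v ∈ W := by 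
    intro v hv
    rw [hf, Matrix.toLin'_apply, Matrix.sub_mulVec, Matrix.one_mulVec]
    exact W.sub_mem (hW v hv) hv
  have h4 := Cfsg.Agent.H43.eq_ker_pow_of_invariant f hnil' h1 W hW'
  rw [← Matrix.toLin'_apply', Matrix.toLin'_pow, ← hf]
  exact h4

end Cfsg.Agent.S2573
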