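import Cfsg.Statements.S2574
import Cfsg.Agent.H43.RegNil
import Cfsg.Agent.ClGeo.Symp

set_option autoImplicit false
open Cfsg

namespace Cfsg.Agent.S2574

/-- A regular unipotent element of the symplectic group has totally isotropic small invariant subspaces: over a finite field, if u ∈ Sp_2m(F) satisfies (u − 1)^(2m) = 0 and rank(u − 1) = 2m − 1, and W is a u-invariant subspace with 2 dim W ≤ 2m, then the alternating form vanishes identically on W. -/
theorem result {F : Type*} [Field F] [Finite F] {m : ℕ} (u : Matrix.symplecticGroup (Fin m) F) (hnil : ((u : Matrix (Fin m ⊕ Fin m) (Fin m ⊕ Fin m) F) - 1) ^ (2 * m) = 0) (hreg : ((u : Matrix (Fin m ⊕ Fin m) (Fin m ⊕ Fin m) F) - 1).rank = 2 * m - 1) (W : Submodule F (Fin m ⊕ Fin m → F)) (hW : ∀ v ∈ W, (u : Matrix (Fin m ⊕ Fin m) (Fin m ⊕ Fin m) F).mulVec v ∈ W) (hdim : 2 * Module.finrank F W ≤ 2 * m) : ∀ v ∈ W, ∀ w ∈ W, Cfsg.sympForm m F v w = 0 := by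
  classical
  set A : Matrix (Fin m ⊕ Fin m) (Fin m ⊕ Fin m) F := (u : Matrix (Fin m ⊕ Fin m) (Fin m ⊕ Fin m) F) with hA
  have hAmem : A ∈ Matrix.symplecticGroup (Fin m) F := u.2
  obtain ⟨f, hf⟩ : ∃ f : Module.End F (Fin m ⊕ Fin m → F), f = Matrix.toLin' (A - 1) := ⟨_, rfl⟩
  have hfa : ∀ v, f v = A.mulVec v - v := by
    intro v
    rw [hf, Matrix.toLin'_apply, Matrix.sub_mulVec, Matrix.one_mulVec]
  have hnil' : IsNilpotent f := by
    refine ⟨2 * m, ?_⟩
    rw [hf, ← Matrix.toLin'_pow, hnil, map_zero]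
  have h1 : Module.finrank F (LinearMap.ker f) ≤ 1 := by
    have h2 := LinearMap.finrank_range_add_finrank_ker f
    have h3 : Module.finrank F (LinearMap.range f) = 2 * m - 1 := by
      rw [← hreg, hf, Matrix.toLin'_apply']; rfl
    rw [h3, Module.finrank_fintype_fun_eq_card, Fintype.card_sum, Fintype.card_fin] at h2
    omega
  -- the orthogonal complement of W as a kernel
  obtain ⟨Φ, hΦ⟩ : ∃ Φ : (Fin m ⊕ Fin m → F) →ₗ[F] Module.Dual F W,
      ∀ w (v : W), Φ w v = Cfsg.sympForm m F v w := by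
    refine ⟨(Submodule.dualRestrict W).comp (Cfsg.Agent.ClGeo.sB F m).flip, ?_⟩
    intro w v
    rw [← Cfsg.Agent.ClGeo.sB_apply]
    rfl
  have hperp : ∀ w, w ∈ LinearMap.ker Φ ↔ ∀ v ∈ W, Cfsg.sympForm m F v w = 0 := by
    intro w
    rw [LinearMap.mem_ker]
    constructor
    · intro h v hv
      rw [← hΦ w ⟨v, hv⟩, h]; rfl
    · intro h
      ext v
      rw [hΦ]
      exact h v v.2
  have hle : Module.finrank F W ≤ Module.finrank F (LinearMap.ker Φ) := by
    have h2 := LinearMap.finrank_range_add_finrank_ker Φ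
    have h3 : Module.finrank F (LinearMap.range Φ) ≤ Module.finrank F W := by
      refine (Submodule.finrank_le _).trans ?_
      rw [Subspace.dual_finrank_eq]
    rw [Module.finrank_fintype_fun_eq_card, Fintype.card_sum, Fintype.card_fin] at h2
    omega
  have hW' : ∀ v ∈ W, f v ∈ W := by
    intro v hv
    rw [hfa]
    exact W.sub_mem (hW v hv) hv
  -- u maps W onto W
  have hsurj : ∀ v ∈ W, ∃ v' ∈ W, A.mulVec v' = v := by
    have hinj : Function.Injective (fun v : W => (⟨A.mulVec v, hW v v.2⟩ : W)) := by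
      intro x y hxy
      have h5 : A.mulVec (x : Fin m ⊕ Fin m → F) = A.mulVec (y : Fin m ⊕ Fin m → F) := congrArg Subtype.val hxy
      apply Subtype.ext
      rw [← sub_eq_zero]
      apply Cfsg.Agent.ClGeo.sympForm_nondeg_left
      intro z
      rw [← Cfsg.Agent.ClGeo.sympForm_mulVec m hAmem, Matrix.mulVec_sub, h5, sub_self,
        Cfsg.Agent.ClGeo.sympForm_zero_left]
    have hfin : Finite W := inferInstance
    have hs := Finite.surjective_of_injective hinj
    intro v hv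
    obtain ⟨v', hv'⟩ := hs ⟨v, hv⟩
    exact ⟨v', v'.2, congrArg Subtype.val hv'⟩
  have hP : ∀ w ∈ LinearMap.ker Φ, f w ∈ LinearMap.ker Φ := by
    intro w hw
    rw [hperp] at hw ⊢
    intro v hv
    obtain ⟨v', hv', rfl⟩ := hsurj v hv
    rw [hfa, Cfsg.Agent.ClGeo.sympForm_sub_right, Cfsg.Agent.ClGeo.sympForm_mulVec m hAmem, hw _ hv',
      hw _ (hW v' hv'), sub_zero]
  have e1 := Cfsg.Agent.H43.eq_ker_pow_of_invariant f hnil' h1 W hW'
  have e2 := Cfsg.Agent.H43.eq_ker_pow_of_invariant f hnil' h1 _ hP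
  intro v hv w hw
  have hwP : w ∈ LinearMap.ker Φ := by
    rw [e2]
    rw [e1] at hw
    obtain ⟨k, hk⟩ := Nat.exists_eq_add_of_le hle
    rw [hk, add_comm, pow_add]
    rw [LinearMap.mem_ker] at hw ⊢
    rw [Module.End.mul_apply, hw, map_zero]
  exact (hperp w).1 hwP v hv

end Cfsg.Agent.S2574
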