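import Cfsg.Statements.S2575
import Cfsg.Agent.H43.TwoPart

set_option autoImplicit false
open Cfsg

namespace Cfsg.Agent.S2575

/-- Which diagonal involutions of PGL_n(q) lie in PSL_n(q), q odd: for the diagonal matrix t with i entries −1 and n − i entries 1, some non-zero scalar multiple of t has determinant one if and only if i is even or the 2-part of q − 1 exceeds the 2-part of n (that is, −1 is an n-th power in the field exactly in the latter case). -/
theorem result {F : Type*} [Field F] [Fintype F] {q : ℕ} (hF : Fintype.card F = q) (hq : Odd q) {n : ℕ} (hn : 1 ≤ n) (i : ℕ) (hi : i ≤ n) : (∃ c : F, c ≠ 0 ∧ (c • Matrix.diagonal (fun j : Fin n => if (j : ℕ) < i then (-1 : F) else 1)).det = 1) ↔ (Even i ∨ padicValNat 2 n < padicValNat 2 (q - 1)) := by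
  subst hF
  have hdet : ∀ c : F, (c • Matrix.diagonal (fun j : Fin n => if (j : ℕ) < i then (-1 : F) else 1)).det = c ^ n * (-1) ^ i := by
    intro c
    rw [Matrix.det_smul, Matrix.det_diagonal, Fintype.card_fin, Finset.prod_ite, Finset.prod_const, Finset.prod_const, one_pow, mul_one]
    congr 2
    have : (Finset.univ.filter (fun j : Fin n => (j : ℕ) < i)).card = (Finset.range i).card := by
      refine Finset.card_bij (fun j _ => (j : ℕ)) ?_ ?_ ?_
      · intro j hj
        rw [Finset.mem_filter] at hj
        exact Finset.mem_range.2 hj.2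
      · intro j _ j' _ h
        exact Fin.ext h
      · intro b hb
        rw [Finset.mem_range] at hb
        exact ⟨⟨b, by omega⟩, by simp [hb], rfl⟩
    rw [this, Finset.card_range]
  simp only [hdet]
  constructor
  · rintro ⟨c, hc, h⟩
    by_cases hi2 : Even i
    · exact Or.inl hi2
    · right
      rw [(Nat.not_even_iff_odd.1 hi2).neg_one_pow] at h
      exact Cfsg.Agent.H43.lt_of_pow_eq_neg_one hq (by omega) hc (by linear_combination -h)
  · rintro (h | h)
    · exact ⟨1, one_ne_zero, by rw [one_pow, one_mul, h.neg_one_pow]⟩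
    · by_cases hi2 : Even i
      · exact ⟨1, one_ne_zero, by rw [one_pow, one_mul, hi2.neg_one_pow]⟩
      · obtain ⟨c, hc, hcn⟩ := Cfsg.Agent.H43.exists_pow_eq_neg_one hq (by omega) h
        exact ⟨c, hc, by rw [hcn, (Nat.not_even_iff_odd.1 hi2).neg_one_pow]; ring⟩

end Cfsg.Agent.S2575
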