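import Cfsg.Statements.S2576
import Cfsg.Agent.H43.TwoPart

set_option autoImplicit false
open Cfsg

namespace Cfsg.Agent.S2576

/-- Which involutions of PGL_2m(q) coming from a scalar of the quadratic extension field lie in PSL_2m(q), q odd: let μ generate the Sylow 2-subgroup of the multiplicative group of the field with q elements (μ has order the 2-part of q − 1) and let t be the block-diagonal matrix with m diagonal blocks [[0, 1], [μ, 0]] (so t² is the scalar μ and t is an involution modulo scalars). Then some non-zero scalar multiple of t has determinant one if and only if q ≡ 3 (mod 4) or the 2-part of q − 1 is less than the 2-part of 2m. -/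
theorem result {F : Type*} [Field F] [Fintype F] {q : ℕ} (hF : Fintype.card F = q) (hq : Odd q) {m : ℕ} (hm : 1 ≤ m) (μ : F) (hμ : orderOf μ = 2 ^ padicValNat 2 (q - 1)) : (∃ c : F, c ≠ 0 ∧ (c • Matrix.blockDiagonal (fun _ : Fin m => !![(0 : F), 1; μ, 0])).det = 1) ↔ (q % 4 = 3 ∨ padicValNat 2 (q - 1) < padicValNat 2 (2 * m)) := by
  subst hF
  have hq1 : 1 < Fintype.card F := Fintype.one_lt_card
  have hdet : ∀ c : F, (c • Matrix.blockDiagonal (fun _ : Fin m => !![(0 : F), 1; μ, 0])).det = (c ^ 2 * (-μ)) ^ m := by
    intro c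
    rw [Matrix.det_smul, Matrix.det_blockDiagonal, Finset.prod_const, Finset.card_univ, Fintype.card_fin,
      Fintype.card_prod, Fintype.card_fin, Fintype.card_fin, Matrix.det_fin_two_of, mul_pow, ← pow_mul]
    ring
  simp only [hdet]
  have h2ne : (-1 : F) ≠ 1 := by
    have h5 : ringChar F ≠ 2 := by
      intro h6
      have h7 := FiniteField.even_card_iff_char_two.1 h6
      exact Nat.not_even_iff_odd.2 hq (Nat.even_iff.2 h7)
    exact Ring.neg_one_ne_one_of_char_ne_two h5
  have heven : 2 ∣ Fintype.card F - 1 := by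
    obtain ⟨k, hk⟩ := hq
    exact ⟨k, by omega⟩
  have ha1 : 1 ≤ padicValNat 2 (Fintype.card F - 1) := one_le_padicValNat_of_dvd (by omega) heven
  have hμ0 : μ ≠ 0 := by
    rintro rfl
    rw [orderOf_zero] at hμ
    exact absurd hμ.symm (by positivity)
  by_cases h4 : Fintype.card F % 4 = 3
  · have ha : padicValNat 2 (Fintype.card F - 1) = 1 := by
      by_contra hne
      have : 2 ^ 2 ∣ Fintype.card F - 1 := (padicValNat_dvd_iff_le (by omega)).2 (by omega)
      obtain ⟨k, hk⟩ := this
      omega
    have hμ1 : μ = -1 := by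
      rw [ha, pow_one] at hμ
      have h5 : μ ^ 2 = 1 := by rw [← hμ]; exact pow_orderOf_eq_one μ
      refine (sq_eq_one_iff.1 h5).resolve_left ?_
      rintro rfl
      rw [orderOf_one] at hμ
      omega
    constructor
    · intro _; exact Or.inl h4
    · intro _
      exact ⟨1, one_ne_zero, by rw [hμ1]; simp⟩
  · have ha2 : 2 ≤ padicValNat 2 (Fintype.card F - 1) := by
      have : 2 ^ 2 ∣ Fintype.card F - 1 := by
        obtain ⟨k, hk⟩ := hq
        refine ⟨(Fintype.card F - 1) / 4, ?_⟩
        omega
      exact (padicValNat_dvd_iff_le (by omega)).1 this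
    have hv2m : padicValNat 2 (2 * m) = 1 + padicValNat 2 m := by
      rw [padicValNat.mul (by norm_num) (by omega), padicValNat_self]
    obtain ⟨N, hN⟩ : ∃ N, N = (Fintype.card F - 1) / 2 := ⟨_, rfl⟩
    have hNc : Fintype.card F - 1 = 2 * N := by omega
    have hN0 : N ≠ 0 := by omega
    have hvN : padicValNat 2 (Fintype.card F - 1) = 1 + padicValNat 2 N := by
      rw [hNc, padicValNat.mul (by norm_num) hN0, padicValNat_self]
    have hNeven : Even N := by
      rw [even_iff_two_dvd]
      exact dvd_of_one_le_padicValNat (by omega)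
    -- `-μ` is not a square
    have hμN : (-μ) ^ N ≠ 1 := by
      rw [hNeven.neg_pow]
      intro h5
      have h6 := orderOf_dvd_of_pow_eq_one h5
      rw [hμ] at h6
      have := (padicValNat_dvd_iff_le hN0).1 h6
      omega
    constructor
    · rintro ⟨c, hc, h⟩
      right
      by_contra hcon
      have hlt : padicValNat 2 m < padicValNat 2 (Fintype.card F - 1) := by omega
      have hy0 : c ^ 2 * (-μ) ≠ 0 := mul_ne_zero (pow_ne_zero _ hc) (neg_ne_zero.2 hμ0)
      have h7 : orderOf (c ^ 2 * (-μ)) ∣ N := by
        rw [hN]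
        refine dvd_trans ?_ (Cfsg.Agent.H43.gcd_dvd_half (m := m) (by omega) hlt (by omega))
        exact Nat.dvd_gcd (orderOf_dvd_of_pow_eq_one h) (orderOf_dvd_of_pow_eq_one (FiniteField.pow_card_sub_one_eq_one _ hy0))
      have h8 := orderOf_dvd_iff_pow_eq_one.1 h7
      rw [mul_pow, ← pow_mul, ← hNc, FiniteField.pow_card_sub_one_eq_one c hc, one_mul] at h8
      exact hμN h8
    · rintro (h | h)
      · exact absurd h h4
      · refine ⟨1, one_ne_zero, ?_⟩
        rw [one_pow, one_mul]
        have hdvd : 2 ^ padicValNat 2 (Fintype.card F - 1) ∣ m := (padicValNat_dvd_iff_le (by omega)).2 (by omega)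
        have hm2 : Even m := by
          rw [even_iff_two_dvd]
          exact dvd_of_one_le_padicValNat (by omega)
        rw [hm2.neg_pow]
        rw [← hμ] at hdvd
        exact orderOf_dvd_iff_pow_eq_one.1 hdvd

end Cfsg.Agent.S2576
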