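import Cfsg.Statements.S2578
import Cfsg.Agent.H43.RegMat

set_option autoImplicit false
open Cfsg

namespace Cfsg.Agent.S2578

/-- Regular unipotent classes of SL_n(q): for n ≥ 2 over the field with q elements, the matrices u of determinant one with (u − 1)^n = 0 and rank(u − 1) = n − 1 form a single GL_n(q)-class which splits into exactly gcd(n, q − 1) conjugacy classes of SL_n(q). -/
theorem result {F : Type*} [Field F] [Fintype F] {q : ℕ} (hF : Fintype.card F = q) {n : ℕ} (hn : 2 ≤ n) : Nat.card {C : ConjClasses (Matrix.SpecialLinearGroup (Fin n) F) // ∃ u : Matrix.SpecialLinearGroup (Fin n) F, ConjClasses.mk u = C ∧ ((u : Matrix (Fin n) (Fin n) F) - 1) ^ n = 0 ∧ ((u : Matrix (Fin n) (Fin n) F) - 1).rank = n - 1} = Nat.gcd n (q - 1) := by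
  classical
  have hn1 : 1 ≤ n := by omega
  have hcard : Fintype.card (Fin n) = n := Fintype.card_fin n
  -- base point
  obtain ⟨u₀, hu₀nil, hu₀reg⟩ : ∃ u₀ : Matrix (Fin n) (Fin n) F, (u₀ - 1) ^ n = 0 ∧ (u₀ - 1).rank = n - 1 := by
    refine ⟨1 + Cfsg.Agent.H43.shiftM F n, ?_, ?_⟩
    · rw [add_sub_cancel_left, Cfsg.Agent.H43.shiftM_pow]
    · rw [add_sub_cancel_left, Cfsg.Agent.H43.shiftM_rank F n hn1]
  -- matrices of prescribed determinant
  have hdiag : ∀ d : Fˣ, ∃ g : GL (Fin n) F, (g : Matrix (Fin n) (Fin n) F).det = d := by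
    intro d
    obtain ⟨M, hM⟩ : ∃ M : Matrix (Fin n) (Fin n) F, M = Matrix.diagonal (fun i => if i = ⟨0, hn1⟩ then (d : F) else 1) := ⟨_, rfl⟩
    have hMdet : M.det = d := by
      rw [hM, Matrix.det_diagonal, Finset.prod_ite_eq' Finset.univ (⟨0, hn1⟩ : Fin n) (fun _ => (d : F))]
      simp
    have hu : IsUnit M := by
      rw [Matrix.isUnit_iff_isUnit_det, hMdet]
      exact d.isUnit
    obtain ⟨g, rfl⟩ := hu
    exact ⟨g, hMdet⟩
  choose g hg using hdiag
  -- the element of SL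
  have hU : ∀ d : Fˣ, ∃ U : Matrix.SpecialLinearGroup (Fin n) F,
      (g d : Matrix (Fin n) (Fin n) F) * u₀ = (U : Matrix (Fin n) (Fin n) F) * (g d : Matrix (Fin n) (Fin n) F) ∧
      ((U : Matrix (Fin n) (Fin n) F) - 1) ^ n = 0 ∧ ((U : Matrix (Fin n) (Fin n) F) - 1).rank = n - 1 := by
    intro d
    obtain ⟨M, hM⟩ : ∃ M : Matrix (Fin n) (Fin n) F, M = (g d : Matrix (Fin n) (Fin n) F) * u₀ * (((g d)⁻¹ : GL (Fin n) F) : Matrix (Fin n) (Fin n) F) := ⟨_, rfl⟩
    have hMg : (g d : Matrix (Fin n) (Fin n) F) * u₀ = M * (g d : Matrix (Fin n) (Fin n) F) := by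
      rw [hM, mul_assoc, ← Units.val_mul, inv_mul_cancel, Units.val_one, mul_one]
    obtain ⟨h1, h2⟩ := Cfsg.Agent.H43.regular_conj (g d) hMg hu₀nil hu₀reg
    exact ⟨⟨M, Cfsg.Agent.H43.det_unipotent h1⟩, hMg, h1, h2⟩
  choose U hU1 hU2 hU3 using hU
  -- conjugacy criterion
  have hcrit : ∀ (a b : GL (Fin n) F) (A B : Matrix.SpecialLinearGroup (Fin n) F),
      (a : Matrix (Fin n) (Fin n) F) * u₀ = (A : Matrix (Fin n) (Fin n) F) * (a : Matrix (Fin n) (Fin n) F) →
      (b : Matrix (Fin n) (Fin n) F) * u₀ = (B : Matrix (Fin n) (Fin n) F) * (b : Matrix (Fin n) (Fin n) F) →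
      (IsConj A B ↔ ∃ c : F, (b : Matrix (Fin n) (Fin n) F).det = (a : Matrix (Fin n) (Fin n) F).det * c ^ n) := by
    intro a b A B ha hb
    have ha0 : (a : Matrix (Fin n) (Fin n) F).det ≠ 0 := by
      have := a.isUnit
      rw [Matrix.isUnit_iff_isUnit_det] at this
      exact this.ne_zero
    have hb0 : (b : Matrix (Fin n) (Fin n) F).det ≠ 0 := by
      have := b.isUnit
      rw [Matrix.isUnit_iff_isUnit_det] at this
      exact this.ne_zero
    have hbi : ((b⁻¹ : GL (Fin n) F) : Matrix (Fin n) (Fin n) F) * (b : Matrix (Fin n) (Fin n) F) = 1 := by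
      rw [← Units.val_mul, inv_mul_cancel, Units.val_one]
    have hbi' : (b : Matrix (Fin n) (Fin n) F) * ((b⁻¹ : GL (Fin n) F) : Matrix (Fin n) (Fin n) F) = 1 := by
      rw [← Units.val_mul, mul_inv_cancel, Units.val_one]
    have hai : ((a⁻¹ : GL (Fin n) F) : Matrix (Fin n) (Fin n) F) * (a : Matrix (Fin n) (Fin n) F) = 1 := by
      rw [← Units.val_mul, inv_mul_cancel, Units.val_one]
    have hai' : (a : Matrix (Fin n) (Fin n) F) * ((a⁻¹ : GL (Fin n) F) : Matrix (Fin n) (Fin n) F) = 1 := by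
      rw [← Units.val_mul, mul_inv_cancel, Units.val_one]
    have hbdet : ((b⁻¹ : GL (Fin n) F) : Matrix (Fin n) (Fin n) F).det * (b : Matrix (Fin n) (Fin n) F).det = 1 := by
      rw [← Matrix.det_mul, hbi, Matrix.det_one]
    have hadet : ((a⁻¹ : GL (Fin n) F) : Matrix (Fin n) (Fin n) F).det * (a : Matrix (Fin n) (Fin n) F).det = 1 := by
      rw [← Matrix.det_mul, hai, Matrix.det_one]
    constructor
    · intro h
      obtain ⟨s, hs⟩ := isConj_iff.1 h
      obtain ⟨S, hS⟩ : ∃ S : Matrix (Fin n) (Fin n) F, S = (s : Matrix (Fin n) (Fin n) F) := ⟨_, rfl⟩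
      have hs' : S * (A : Matrix (Fin n) (Fin n) F) = (B : Matrix (Fin n) (Fin n) F) * S := by
        have h3 : s * A = B * s := by rw [← hs]; group
        have h4 := congrArg (fun x : Matrix.SpecialLinearGroup (Fin n) F => (x : Matrix (Fin n) (Fin n) F)) h3
        rw [hS]
        simpa using h4
      have hSdet : S.det = 1 := by rw [hS]; exact s.2
      have hc : (((b⁻¹ : GL (Fin n) F) : Matrix (Fin n) (Fin n) F) * S * (a : Matrix (Fin n) (Fin n) F)) * u₀ =
          u₀ * (((b⁻¹ : GL (Fin n) F) : Matrix (Fin n) (Fin n) F) * S * (a : Matrix (Fin n) (Fin n) F)) := by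
        have h5 : ((b⁻¹ : GL (Fin n) F) : Matrix (Fin n) (Fin n) F) * (B : Matrix (Fin n) (Fin n) F) = u₀ * ((b⁻¹ : GL (Fin n) F) : Matrix (Fin n) (Fin n) F) := by
          calc _ = ((b⁻¹ : GL (Fin n) F) : Matrix (Fin n) (Fin n) F) * ((B : Matrix (Fin n) (Fin n) F) * (b : Matrix (Fin n) (Fin n) F)) * ((b⁻¹ : GL (Fin n) F) : Matrix (Fin n) (Fin n) F) := by
                rw [mul_assoc, mul_assoc, hbi', mul_one]
            _ = (((b⁻¹ : GL (Fin n) F) : Matrix (Fin n) (Fin n) F) * (b : Matrix (Fin n) (Fin n) F)) * u₀ * ((b⁻¹ : GL (Fin n) F) : Matrix (Fin n) (Fin n) F) := by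
                rw [← hb]; simp only [mul_assoc]
            _ = _ := by rw [hbi, one_mul]
        calc _ = ((b⁻¹ : GL (Fin n) F) : Matrix (Fin n) (Fin n) F) * (S * (A : Matrix (Fin n) (Fin n) F)) * (a : Matrix (Fin n) (Fin n) F) := by
              rw [mul_assoc, ha]; simp only [mul_assoc]
          _ = (((b⁻¹ : GL (Fin n) F) : Matrix (Fin n) (Fin n) F) * (B : Matrix (Fin n) (Fin n) F)) * S * (a : Matrix (Fin n) (Fin n) F) := by
              rw [hs']; simp only [mul_assoc]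
          _ = _ := by rw [h5]; simp only [mul_assoc]
      obtain ⟨c, hc'⟩ := Cfsg.Agent.H43.det_of_commute_regular hn1 hcard hu₀nil hu₀reg _ hc
      rw [Matrix.det_mul, Matrix.det_mul, hSdet, mul_one] at hc'
      have hc0 : c ^ n ≠ 0 := by
        rw [← hc']
        exact mul_ne_zero (left_ne_zero_of_mul_eq_one hbdet) ha0
      refine ⟨c⁻¹, ?_⟩
      rw [inv_pow, ← hc']
      have h6 : ((b⁻¹ : GL (Fin n) F) : Matrix (Fin n) (Fin n) F).det = ((b : Matrix (Fin n) (Fin n) F).det)⁻¹ :=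
        eq_inv_of_mul_eq_one_left hbdet
      rw [h6]
      field_simp
    · rintro ⟨c, hc⟩
      have hc0 : c ≠ 0 := by
        rintro rfl
        rw [zero_pow (by omega), mul_zero] at hc
        exact hb0 hc
      obtain ⟨S, hS⟩ : ∃ S : Matrix (Fin n) (Fin n) F, S = (b : Matrix (Fin n) (Fin n) F) * (c⁻¹ • ((a⁻¹ : GL (Fin n) F) : Matrix (Fin n) (Fin n) F)) := ⟨_, rfl⟩
      have hSdet : S.det = 1 := by
        rw [hS, Matrix.det_mul, Matrix.det_smul, Fintype.card_fin, hc, inv_pow]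
        have h6 : ((a⁻¹ : GL (Fin n) F) : Matrix (Fin n) (Fin n) F).det = ((a : Matrix (Fin n) (Fin n) F).det)⁻¹ :=
          eq_inv_of_mul_eq_one_left hadet
        rw [h6]
        field_simp
      have hSA : S * (A : Matrix (Fin n) (Fin n) F) = (B : Matrix (Fin n) (Fin n) F) * S := by
        have h5 : ((a⁻¹ : GL (Fin n) F) : Matrix (Fin n) (Fin n) F) * (A : Matrix (Fin n) (Fin n) F) = u₀ * ((a⁻¹ : GL (Fin n) F) : Matrix (Fin n) (Fin n) F) := by
          calc _ = ((a⁻¹ : GL (Fin n) F) : Matrix (Fin n) (Fin n) F) * ((A : Matrix (Fin n) (Fin n) F) * (a : Matrix (Fin n) (Fin n) F)) * ((a⁻¹ : GL (Fin n) F) : Matrix (Fin n) (Fin n) F) := by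
                rw [mul_assoc, mul_assoc, hai', mul_one]
            _ = (((a⁻¹ : GL (Fin n) F) : Matrix (Fin n) (Fin n) F) * (a : Matrix (Fin n) (Fin n) F)) * u₀ * ((a⁻¹ : GL (Fin n) F) : Matrix (Fin n) (Fin n) F) := by
                rw [← ha]; simp only [mul_assoc]
            _ = _ := by rw [hai, one_mul]
        rw [hS, mul_assoc, smul_mul_assoc, h5, ← mul_assoc (B : Matrix (Fin n) (Fin n) F), ← hb, mul_assoc, mul_smul_comm, mul_smul_comm,
          mul_smul_comm]
      obtain ⟨s, hs⟩ : ∃ s : Matrix.SpecialLinearGroup (Fin n) F, (s : Matrix (Fin n) (Fin n) F) = S := ⟨⟨S, hSdet⟩, rfl⟩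
      rw [isConj_iff]
      refine ⟨s, ?_⟩
      rw [mul_inv_eq_iff_eq_mul]
      apply Subtype.ext
      rw [Matrix.SpecialLinearGroup.coe_mul, Matrix.SpecialLinearGroup.coe_mul, hs]
      exact hSA
  -- the bijection with `Fˣ ⧸ (Fˣ)^n`
  let T := {C : ConjClasses (Matrix.SpecialLinearGroup (Fin n) F) // ∃ u : Matrix.SpecialLinearGroup (Fin n) F, ConjClasses.mk u = C ∧ ((u : Matrix (Fin n) (Fin n) F) - 1) ^ n = 0 ∧ ((u : Matrix (Fin n) (Fin n) F) - 1).rank = n - 1}
  let φ : Fˣ → T := fun d => ⟨ConjClasses.mk (U d), U d, rfl, hU2 d, hU3 d⟩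
  have hφ : ∀ d d', φ d = φ d' ↔ d⁻¹ * d' ∈ (powMonoidHom n : Fˣ →* Fˣ).range := by
    intro d d'
    rw [Subtype.ext_iff]
    change ConjClasses.mk (U d) = ConjClasses.mk (U d') ↔ _
    rw [ConjClasses.mk_eq_mk_iff_isConj, hcrit (g d) (g d') (U d) (U d') (hU1 d) (hU1 d'), hg, hg]
    constructor
    · rintro ⟨c, hc⟩
      have hc0 : c ≠ 0 := by
        rintro rfl
        rw [zero_pow (by omega), mul_zero] at hc
        exact d'.ne_zero hc
      refine ⟨Units.mk0 c hc0, ?_⟩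
      apply Units.ext
      rw [powMonoidHom_apply, Units.val_pow_eq_pow_val, Units.val_mk0, Units.val_mul, hc, ← mul_assoc, Units.inv_mul, one_mul]
    · rintro ⟨c, hc⟩
      refine ⟨c, ?_⟩
      have := congrArg (fun x : Fˣ => (x : F)) hc
      simp only [powMonoidHom_apply, Units.val_pow_eq_pow_val, Units.val_mul] at this
      rw [this, ← mul_assoc, Units.mul_inv, one_mul]
  have hsurj : Function.Surjective φ := by
    rintro ⟨C, u, hu, hnil, hreg⟩
    obtain ⟨a, ha⟩ := Cfsg.Agent.H43.exists_mul_eq_of_regular hn1 hcard hu₀nil hu₀reg hnil hreg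
    have ha0 : IsUnit (a : Matrix (Fin n) (Fin n) F).det := by
      rw [← Matrix.isUnit_iff_isUnit_det]; exact a.isUnit
    obtain ⟨d, hd⟩ := ha0
    refine ⟨d, ?_⟩
    apply Subtype.ext
    change ConjClasses.mk (U d) = C
    rw [← hu, ConjClasses.mk_eq_mk_iff_isConj, hcrit (g d) a (U d) u (hU1 d) ha, hg]
    exact ⟨1, by rw [one_pow, mul_one, hd]⟩
  have hcardT : Nat.card T = Nat.card (Fˣ ⧸ (powMonoidHom n : Fˣ →* Fˣ).range) := by
    symm
    refine Nat.card_congr (Equiv.ofBijective (Quotient.lift φ (fun a b hab => (hφ a b).2 (QuotientGroup.leftRel_apply.1 hab))) ⟨?_, ?_⟩)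
    · intro x y
      refine Quotient.inductionOn₂ x y ?_
      intro a b hab
      exact Quotient.sound (QuotientGroup.leftRel_apply.2 ((hφ a b).1 hab))
    · intro C
      obtain ⟨d, hd⟩ := hsurj C
      exact ⟨Quotient.mk _ d, hd⟩
  change Nat.card T = _
  rw [hcardT]
  have h7 : Nat.card (Fˣ ⧸ (powMonoidHom n : Fˣ →* Fˣ).range) = (powMonoidHom n : Fˣ →* Fˣ).range.index := rfl
  rw [h7, IsCyclic.index_powMonoidHom_range, Nat.card_units, Nat.card_eq_fintype_card, hF, Nat.gcd_comm]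

end Cfsg.Agent.S2578
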