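import Cfsg.Statements.S2586
import Cfsg.Agent.H43.SelfDual

set_option autoImplicit false
open Cfsg

namespace Cfsg.Agent.S2586

/-- Over a finite field, every element of the symplectic group Sp_2m(F) is conjugate by an invertible matrix to its inverse. -/
theorem result {F : Type*} [Field F] [Finite F] {m : ℕ} (A : Matrix.symplecticGroup (Fin m) F) : IsConj (A : Matrix (Fin m ⊕ Fin m) (Fin m ⊕ Fin m) F) ((A⁻¹ : Matrix.symplecticGroup (Fin m) F) : Matrix (Fin m ⊕ Fin m) (Fin m ⊕ Fin m) F) := by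
  -- `A⁻¹ = J⁻¹ Aᵀ J`
  refine (Cfsg.Agent.H43.isConj_transpose (A : Matrix (Fin m ⊕ Fin m) (Fin m ⊕ Fin m) F)).trans ?_
  rw [SymplecticGroup.coe_inv]
  have hJJ : (-Matrix.J (Fin m) F) * Matrix.J (Fin m) F = 1 := by
    rw [Matrix.neg_mul, Matrix.J_squared, neg_neg]
  have hJJ' : Matrix.J (Fin m) F * (-Matrix.J (Fin m) F) = 1 := by
    rw [Matrix.mul_neg, Matrix.J_squared, neg_neg]
  refine ⟨⟨-Matrix.J (Fin m) F, Matrix.J (Fin m) F, hJJ, hJJ'⟩, ?_⟩
  change (-Matrix.J (Fin m) F) * _ = (-Matrix.J (Fin m) F) * _ * Matrix.J (Fin m) F * (-Matrix.J (Fin m) F)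
  rw [Matrix.mul_assoc _ (Matrix.J (Fin m) F), hJJ', Matrix.mul_one]

end Cfsg.Agent.S2586
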