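import Cfsg.Statements.S2599
-- import your own Cfsg.Agent.* helpers here

set_option autoImplicit false
open Cfsg

namespace Cfsg.Agent.S2599

/-- An irreducible invariant subspace of a semisimple isometry is non-degenerate or totally singular: let Q be a quadratic form on F^n (F finite of characteristic p) with non-degenerate polar form f, x an isometry of Q of order prime to p, and U a non-zero x-invariant subspace containing no x-invariant subspace other than 0 and U. Then U meets its f-orthogonal trivially, or Q vanishes on U, or p = 2, U is a line spanned by a non-singular vector and x fixes U pointwise. -/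
theorem result {F : Type*} [Field F] [Fintype F] {p : ℕ} [Fact p.Prime] [CharP F p] {n : ℕ} (Q : QuadraticForm F (Fin n → F)) (hQ : (QuadraticMap.polarBilin Q).Nondegenerate) (x : ↥(Cfsg.isometryGroup F ⇑Q)) (hx : (orderOf x).Coprime p) (U : Submodule F (Fin n → F)) (hU0 : U ≠ ⊥) (hUx : ∀ u ∈ U, ((x : Matrix.GeneralLinearGroup (Fin n) F) : Matrix (Fin n) (Fin n) F).mulVec u ∈ U) (hirr : ∀ W : Submodule F (Fin n → F), W ≤ U → (∀ w ∈ W, ((x : Matrix.GeneralLinearGroup (Fin n) F) : Matrix (Fin n) (Fin n) F).mulVec w ∈ W) → W = ⊥ ∨ W = U) : U ⊓ LinearMap.BilinForm.orthogonal (QuadraticMap.polarBilin Q) U = ⊥ ∨ (∀ u ∈ U, Q u = 0) ∨ (p = 2 ∧ Module.finrank F U = 1 ∧ (∃ u ∈ U, Q u ≠ 0) ∧ ∀ u ∈ U, ((x : Matrix.GeneralLinearGroup (Fin n) F) : Matrix (Fin n) (Fin n) F).mulVec u = u) := by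
  classical
  obtain ⟨a, ha⟩ : ∃ a : Module.End F (Fin n → F), ∀ v, a v = ((x : Matrix.GeneralLinearGroup (Fin n) F) : Matrix (Fin n) (Fin n) F).mulVec v :=
    ⟨Matrix.toLin' ((x : Matrix.GeneralLinearGroup (Fin n) F) : Matrix (Fin n) (Fin n) F), fun v => rfl⟩
  simp only [← ha] at hUx hirr ⊢
  have hQa : ∀ v, Q (a v) = Q v := by
    intro v
    rw [ha]
    exact x.2 v v
  have hpol : ∀ u v, QuadraticMap.polar Q (a u) (a v) = QuadraticMap.polar Q u v := by
    intro u v
    unfold QuadraticMap.polar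
    rw [← map_add a, hQa, hQa, hQa]
  have hainj : Function.Injective a := by
    intro u v h
    rw [← sub_eq_zero]
    apply hQ.1
    intro w
    change QuadraticMap.polar Q (u - v) w = 0
    rw [← hpol, map_sub a, h, sub_self, QuadraticMap.polar_zero_left]
  have hsurj : ∀ u ∈ U, ∃ u' ∈ U, a u' = u := by
    have hinj : Function.Injective (fun v : U => (⟨a v, hUx v v.2⟩ : U)) := by
      intro v w h
      exact Subtype.ext (hainj (congrArg Subtype.val h))
    have hs := Finite.surjective_of_injective hinj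
    intro v hv
    obtain ⟨v', hv'⟩ := hs ⟨v, hv⟩
    exact ⟨v', v'.2, congrArg Subtype.val hv'⟩
  have hmem : ∀ w, w ∈ LinearMap.BilinForm.orthogonal (QuadraticMap.polarBilin Q) U ↔ ∀ u ∈ U, QuadraticMap.polar Q u w = 0 :=
    fun w => Iff.rfl
  rcases hirr (U ⊓ LinearMap.BilinForm.orthogonal (QuadraticMap.polarBilin Q) U) inf_le_left (by
    rintro w ⟨hw1, hw2⟩
    refine ⟨hUx w hw1, ?_⟩
    change a w ∈ LinearMap.BilinForm.orthogonal (QuadraticMap.polarBilin Q) U
    rw [hmem]
    intro u hu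
    obtain ⟨u', hu', rfl⟩ := hsurj u hu
    rw [hpol]
    exact (hmem w).1 hw2 u' hu') with h | h
  · exact Or.inl h
  right
  have hzero : ∀ u ∈ U, ∀ v ∈ U, QuadraticMap.polar Q u v = 0 := by
    intro u hu v hv
    rw [← h] at hv
    exact (hmem v).1 hv.2 u hu
  have hadd : ∀ u ∈ U, ∀ v ∈ U, Q (u + v) = Q u + Q v := by
    intro u hu v hv
    have := hzero u hu v hv
    unfold QuadraticMap.polar at this
    linear_combination this
  by_cases hp2 : p = 2
  swap
  · left
    intro u hu
    have h1 := hzero u hu u hu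
    rw [QuadraticMap.polar_self, two_nsmul] at h1
    have h2 : (2 : F) ≠ 0 := by
      have : ringChar F ≠ 2 := by
        rw [ringChar.eq F p]; exact hp2
      exact Ring.two_ne_zero this
    have h3 : (2 : F) * Q u = 0 := by linear_combination h1
    exact (mul_eq_zero.1 h3).resolve_left h2
  subst hp2
  let K : Submodule F (Fin n → F) :=
    { carrier := {u | u ∈ U ∧ Q u = 0}
      add_mem' := by
        rintro u v ⟨hu, hu'⟩ ⟨hv, hv'⟩
        exact ⟨U.add_mem hu hv, by rw [hadd u hu v hv, hu', hv', add_zero]⟩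
      zero_mem' := ⟨U.zero_mem, by rw [QuadraticMap.map_zero]⟩
      smul_mem' := by
        rintro c u ⟨hu, hu'⟩
        exact ⟨U.smul_mem c hu, by rw [QuadraticMap.map_smul, hu', smul_zero]⟩ }
  have hK : ∀ u, u ∈ K ↔ u ∈ U ∧ Q u = 0 := fun u => Iff.rfl
  rcases hirr K (fun u hu => hu.1) (fun u hu => ⟨hUx u hu.1, by rw [hQa]; exact hu.2⟩) with hK' | hK'
  swap
  · left
    intro u hu
    rw [← hK', hK] at hu
    exact hu.2
  right
  have hne : ∀ u ∈ U, Q u = 0 → u = 0 := by
    intro u hu h0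
    have : u ∈ K := ⟨hu, h0⟩
    rw [hK'] at this
    exact (Submodule.mem_bot F).1 this
  obtain ⟨v, hv, hv0⟩ := Submodule.exists_mem_ne_zero_of_ne_bot hU0
  have hQv : Q v ≠ 0 := fun h0 => hv0 (hne v hv h0)
  have hspan : ∀ u ∈ U, ∃ c : F, u = c • v := by
    intro u hu
    obtain ⟨c, hc⟩ := (frobeniusEquiv F 2).surjective (Q u / Q v)
    rw [frobeniusEquiv_apply, frobenius_def] at hc
    refine ⟨c, ?_⟩
    rw [← sub_eq_zero]
    apply hne _ (U.sub_mem hu (U.smul_mem c hv))
    have h1 : u - c • v = u + c • v := by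
      funext i
      rw [Pi.sub_apply, Pi.add_apply, CharTwo.sub_eq_add]
    rw [h1, hadd u hu _ (U.smul_mem c hv), QuadraticMap.map_smul, ← sq, hc, smul_eq_mul, div_mul_cancel₀ _ hQv,
      CharTwo.add_self_eq_zero]
  have hUspan : U = Submodule.span F {v} := by
    apply le_antisymm
    · intro u hu
      obtain ⟨c, rfl⟩ := hspan u hu
      exact Submodule.smul_mem _ _ (Submodule.mem_span_singleton_self v)
    · rw [Submodule.span_singleton_le_iff_mem]; exact hv
  refine ⟨rfl, ?_, ⟨v, hv, hQv⟩, ?_⟩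
  · rw [hUspan, finrank_span_singleton hv0]
  · intro u hu
    obtain ⟨c, hc⟩ := hspan (a v) (hUx v hv)
    have h1 := hQa v
    rw [hc, QuadraticMap.map_smul, smul_eq_mul] at h1
    have h2 : c * c = 1 := by
      apply mul_right_cancel₀ hQv
      rw [h1, one_mul]
    have h3 : (c - 1) ^ 2 = 0 := by
      have h4 : (2 : F) = 0 := CharTwo.two_eq_zero
      linear_combination h2 + (1 - c) * h4
    have h5 : c = 1 := sub_eq_zero.1 (pow_eq_zero_iff (two_ne_zero) |>.1 h3)
    obtain ⟨d, rfl⟩ := hspan u hu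
    rw [map_smul a, hc, h5, one_smul]

end Cfsg.Agent.S2599
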