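import Cfsg.Statements.S2600
import Cfsg.Agent.AutSp.Order

set_option autoImplicit false
open Cfsg

namespace Cfsg.Agent.S2600

/-- Outer automorphism group of PSp_4(q) for q = 2^f even: it is cyclic of order 2f, generated by the class of the exceptional (graph-field) automorphism whose square is the Frobenius field automorphism. -/
theorem result {F : Type*} [Field F] [Fintype F] {f : ℕ} (hf : 1 ≤ f) (hF : Fintype.card F = 2 ^ f) : IsCyclic (Cfsg.Out (Cfsg.PSp 2 F)) ∧ Nat.card (Cfsg.Out (Cfsg.PSp 2 F)) = 2 * f := by
  have hp : Fact (Nat.Prime 2) := ⟨Nat.prime_two⟩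
  have hcp : CharP F 2 := AutLie.charP_of_card hF
  exact AutSp.out_four (by rw [Nat.card_eq_fintype_card, hF]) hf

end Cfsg.Agent.S2600
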