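import Cfsg.Statements.S2602
import Cfsg.Agent.AutPSL.Struct

set_option autoImplicit false
open Cfsg

namespace Cfsg.Agent.S2602

/-- Structure of the outer automorphism group of PSL_2(q), q = p^f ≥ 4: it has a normal cyclic subgroup of order gcd(2, q − 1) (diagonal automorphisms) with cyclic quotient of order f (field automorphisms); there is no graph automorphism in dimension 2. -/
theorem result {F : Type*} [Field F] [Fintype F] {p f : ℕ} [Fact p.Prime] (hf : 1 ≤ f) (hF : Fintype.card F = p ^ f) (h4 : 4 ≤ p ^ f) : ∃ φ : Cfsg.Out (Matrix.ProjectiveSpecialLinearGroup (Fin 2) F) →* Multiplicative (ZMod f), Function.Surjective φ ∧ IsCyclic φ.ker ∧ Nat.card φ.ker = Nat.gcd 2 (p ^ f - 1) := by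
  obtain ⟨hcyc, hcard⟩ := AutPSL.ringAut_cyclic_card F hF
  have e : RingAut F ≃* Multiplicative (ZMod f) := (hcard ▸ (zmodCyclicMulEquiv hcyc).symm)
  obtain ⟨φ, h1, h2, h3⟩ := AutPSL.out_hom (F := F) (n := 2) (by omega)
    (e.toMonoidHom.comp ((MonoidHom.fst _ _).comp (AutPSL.typeHom (F := F) (n := 2) le_rfl)))
    (e.surjective.comp (AutPSL.fst_typeHom_surjective le_rfl)) (by
      intro α
      rw [← AutPSL.mem_ker_fst_typeHom_two, MonoidHom.mem_ker, MonoidHom.mem_ker]
      change e _ = 1 ↔ _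
      rw [map_eq_one_iff e e.injective])
  exact ⟨φ, h1, h2, by rw [h3, hF]⟩

end Cfsg.Agent.S2602
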