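import Cfsg.Statements.S2603
import Cfsg.Agent.AutPSU.Struct

set_option autoImplicit false
open Cfsg

namespace Cfsg.Agent.S2603

open AutPSU AutLie AutPSL

/-- Structure of the outer automorphism group of PSU_n(q), n ≥ 3, (n, q) ≠ (3, 2), q = p^f, realised over the field with q² elements: it has a normal cyclic subgroup of order gcd(n, q + 1) (diagonal automorphisms) with cyclic quotient of order 2f (generated by the Frobenius field automorphism of the field with q² elements, whose f-th power is the graph automorphism). -/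
theorem result {K : Type*} [Field K] [Fintype K] {p f q n : ℕ} [Fact p.Prime] (hf : 1 ≤ f) (hq : q = p ^ f) (hK : Fintype.card K = q ^ 2) (hn : 3 ≤ n) (h32 : ¬ (n = 3 ∧ q = 2)) : ∃ φ : Cfsg.Out (Cfsg.PSU n K q) →* Multiplicative (ZMod (2 * f)), Function.Surjective φ ∧ IsCyclic φ.ker ∧ Nat.card φ.ker = Nat.gcd n (q + 1) := by
  obtain ⟨Ψ, hΨ, hker, _⟩ := exists_type hK hn h32
  have hF' : Fintype.card K = p ^ (2 * f) := by rw [hK, hq, ← pow_mul, mul_comm]
  obtain ⟨hcyc, hcard⟩ := AutPSL.ringAut_cyclic_card K hF'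
  have hle : Cfsg.Inn (Cfsg.PSU n K q) ≤ (diagU n K q).range := by
    rw [inn_eq hK]
    rintro _ ⟨s, rfl⟩
    exact ⟨_, rfl⟩
  have e : RingAut K ≃* Multiplicative (ZMod (2 * f)) := (hcard ▸ (zmodCyclicMulEquiv hcyc).symm)
  obtain ⟨φ, h1, h2, h3⟩ := exists_outHom (diagU n K q) Ψ hΨ hker (Cfsg.Inn (Cfsg.PSU n K q)) hle (Uni.detHom hK n)
    (Uni.detHom_surjective hK (by omega)) (powMonoidHom n : U1 K q →* U1 K q).range (fun g => diagU_mem_inn hK hn g)
  have hk : (e.toMonoidHom.comp φ).ker = φ.ker := by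
    ext x
    rw [MonoidHom.mem_ker, MonoidHom.mem_ker]
    change e _ = 1 ↔ _
    rw [map_eq_one_iff e e.injective]
  refine ⟨e.toMonoidHom.comp φ, e.surjective.comp h1, by rw [hk]; exact h2, ?_⟩
  rw [hk, h3, IsCyclic.index_powMonoidHom_range, Uni.card_norm_ker hK, Nat.gcd_comm]

end Cfsg.Agent.S2603
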