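import Cfsg.Statements.S2605
import Cfsg.Agent.AutO.OutMinus

set_option autoImplicit false
open Cfsg

namespace Cfsg.Agent.S2605

/-- Outer automorphism group of PΩ⁻_2m(q), m ≥ 4, q = 2^f: cyclic of order 2f, generated by a semilinear map inducing the Frobenius automorphism of the field (its f-th power is a graph automorphism, an orthogonal transvection). -/
theorem result {F : Type*} [Field F] [Fintype F] {f m : ℕ} (hf : 1 ≤ f) (hF : Fintype.card F = 2 ^ f) (hm : 4 ≤ m) (a b : F) (hab : ∀ z₁ z₂ : F, z₁ ^ 2 + a * z₁ * z₂ + b * z₂ ^ 2 = 0 → z₁ = 0 ∧ z₂ = 0) : IsCyclic (Cfsg.Out (Cfsg.POmega F (Cfsg.quadFormMinus (m - 1) F a b))) ∧ Nat.card (Cfsg.Out (Cfsg.POmega F (Cfsg.quadFormMinus (m - 1) F a b))) = 2 * f := by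
  have hfact := AutO.fact_of_aniso hab
  obtain ⟨e⟩ := AutO.out_equiv (ClassO.pomE (Orth.qfMinus (m - 1) F a b))
  obtain ⟨h1, h2⟩ := AutO.out_minus_two (a := a) (b := b) hf hF (show 3 ≤ m - 1 by omega)
  refine ⟨isCyclic_of_surjective e.symm e.symm.surjective, ?_⟩
  rw [← h2]
  exact Nat.card_congr e.toEquiv

end Cfsg.Agent.S2605
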