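import Cfsg.Statements.S2607
import Cfsg.Agent.OAut.OutH

set_option autoImplicit false
open Cfsg

namespace Cfsg.Agent.S2607

/-- Outer automorphism group of PΩ⁺_2m(q), q = 2^f: for m ≥ 5 it is the direct product of a group of order 2 (graph automorphism, an orthogonal transvection) and a cyclic group of order f (field automorphisms); for m = 4 triality enlarges it to S_3 × C_f. -/
theorem result {F : Type*} [Field F] [Fintype F] {f m : ℕ} (hf : 1 ≤ f) (hF : Fintype.card F = 2 ^ f) (hm : 4 ≤ m) : if m = 4 then Nonempty (Cfsg.Out (Cfsg.POmega F (Cfsg.quadFormPlus m F)) ≃* Equiv.Perm (Fin 3) × Multiplicative (ZMod f)) else Nonempty (Cfsg.Out (Cfsg.POmega F (Cfsg.quadFormPlus m F)) ≃* Multiplicative (ZMod 2 × ZMod f)) := by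
  obtain ⟨e0⟩ := Cfsg.Agent.OAut.out_equiv_pom (Cfsg.Agent.Orth.qfPlus m F)
  rw [Cfsg.Agent.Orth.coe_qfPlus] at e0
  have h2 : Fact (Nat.Prime 2) := ⟨Nat.prime_two⟩
  obtain ⟨e1⟩ := Cfsg.Agent.OAut.ringAut_equiv (F := F) (p := 2) hF
  by_cases hm4 : m = 4
  · rw [if_pos hm4]
    subst hm4
    obtain ⟨e2⟩ := Cfsg.Agent.OAut.out_D4_even (F := F) hf hF
    exact ⟨(e0.trans e2).trans (MulEquiv.prodCongr (MulEquiv.refl _) e1)⟩
  · rw [if_neg hm4]
    obtain ⟨e2⟩ := Cfsg.Agent.OAut.out_plus_even (F := F) (m := m) hf hF (by omega)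
    exact ⟨((e0.trans e2).trans (MulEquiv.prodCongr (MulEquiv.refl _) e1)).trans
      (MulEquiv.prodMultiplicative _ _).symm⟩

end Cfsg.Agent.S2607
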