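import Cfsg.Statements.S2608
import Cfsg.Agent.OAut.OutH

set_option autoImplicit false
open Cfsg

namespace Cfsg.Agent.S2608

/-- Outer automorphism group of PΩ⁺_2m(q), q = p^f odd: for m = 4 it is S_4 × C_f (triality); for m ≥ 5 it is C_2 × C_2 × C_f when q ≡ 3 (mod 4) and m is odd, and D_8 × C_f otherwise. -/
theorem result {F : Type*} [Field F] [Fintype F] {p f m : ℕ} [Fact p.Prime] (hf : 1 ≤ f) (hF : Fintype.card F = p ^ f) (hp : p ≠ 2) (hm : 4 ≤ m) : if m = 4 then Nonempty (Cfsg.Out (Cfsg.POmega F (Cfsg.quadFormPlus m F)) ≃* Equiv.Perm (Fin 4) × Multiplicative (ZMod f)) else if p ^ f % 4 = 3 ∧ Odd m then Nonempty (Cfsg.Out (Cfsg.POmega F (Cfsg.quadFormPlus m F)) ≃* Multiplicative (ZMod 2 × ZMod 2 × ZMod f)) else Nonempty (Cfsg.Out (Cfsg.POmega F (Cfsg.quadFormPlus m F)) ≃* DihedralGroup 4 × Multiplicative (ZMod f)) := by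
  obtain ⟨e0⟩ := Cfsg.Agent.OAut.out_equiv_pom (Cfsg.Agent.Orth.qfPlus m F)
  rw [Cfsg.Agent.Orth.coe_qfPlus] at e0
  obtain ⟨e1⟩ := Cfsg.Agent.OAut.ringAut_equiv (F := F) (p := p) hF
  have hodd : Odd (p ^ f) := ((Fact.out : p.Prime).odd_of_ne_two hp).pow
  by_cases hm4 : m = 4
  · rw [if_pos hm4]
    subst hm4
    obtain ⟨e2⟩ := Cfsg.Agent.OAut.out_D4_odd (F := F) hf hF hp
    exact ⟨(e0.trans e2).trans (MulEquiv.prodCongr (MulEquiv.refl _) e1)⟩
  · rw [if_neg hm4]
    have key : (p ^ f % 4 = 3 ∧ Odd m) ↔ ¬ (p ^ f) ^ m % 4 = 1 := by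
      rcases Nat.even_or_odd m with he | ho
      · constructor
        · rintro ⟨-, h⟩
          exact absurd he (Nat.not_even_iff_odd.2 h)
        · intro h
          exfalso
          apply h
          obtain ⟨j, rfl⟩ := he
          rw [← two_mul, pow_mul, Nat.pow_mod]
          have h1 : (p ^ f) ^ 2 % 4 = 1 := by
            obtain ⟨k, hk⟩ := hodd
            rw [hk]
            have : (2 * k + 1) ^ 2 = 4 * (k * k + k) + 1 := by ring
            rw [this]; omega
          rw [h1, one_pow]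
          norm_num
      · have h1 : (p ^ f) ^ m % 4 = p ^ f % 4 := by
          obtain ⟨j, rfl⟩ := ho
          rw [pow_succ, pow_mul, Nat.mul_mod, Nat.pow_mod]
          have h1 : (p ^ f) ^ 2 % 4 = 1 := by
            obtain ⟨k, hk⟩ := hodd
            rw [hk]
            have : (2 * k + 1) ^ 2 = 4 * (k * k + k) + 1 := by ring
            rw [this]; omega
          rw [h1, one_pow]
          omega
        rw [h1]
        constructor
        · rintro ⟨h, -⟩; omega
        · intro h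
          refine ⟨?_, ho⟩
          obtain ⟨k, hk⟩ := hodd
          omega
    by_cases h4 : p ^ f % 4 = 3 ∧ Odd m
    · rw [if_pos h4]
      obtain ⟨e2⟩ := Cfsg.Agent.OAut.out_plus_V4 (F := F) (m := m) hf hF hp (by omega) (key.1 h4)
      exact ⟨(((e0.trans e2).trans (MulEquiv.prodCongr (MulEquiv.refl _) e1)).trans
        MulEquiv.prodAssoc).trans ((MulEquiv.prodCongr (MulEquiv.refl _)
          (MulEquiv.prodMultiplicative _ _).symm).trans (MulEquiv.prodMultiplicative _ _).symm)⟩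
    · rw [if_neg h4]
      have h5 : (p ^ f) ^ m % 4 = 1 := by
        by_contra h
        exact h4 (key.2 h)
      obtain ⟨e2⟩ := Cfsg.Agent.OAut.out_plus_D8 (F := F) (m := m) hf hF hp (by omega) h5
      exact ⟨(e0.trans e2).trans (MulEquiv.prodCongr (MulEquiv.refl _) e1)⟩

end Cfsg.Agent.S2608
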