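import Cfsg.Statements.S2611
import Cfsg.Agent.Orth.Levi

set_option autoImplicit false
open Cfsg

namespace Cfsg.Agent.S2611

/-- For the hyperbolic quadratic form Σ x_i y_i on F^(2m) (F finite, m ≥ 1, excluding m = 2 over the field of two elements) and an invertible m × m matrix A, the block-diagonal isometry diag(A, (A⁻¹)ᵀ), which stabilises the two maximal totally singular subspaces x = 0 and y = 0, lies in Ω⁺_2m(F) (the commutator subgroup of the orthogonal group) if and only if det A is a square in F. -/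
theorem result {F : Type*} [Field F] [Fintype F] {m : ℕ} (hm : 1 ≤ m) (h : Fintype.card F ≠ 2 ∨ m ≠ 2) (A : GL (Fin m) F) : (∃ g : ↥(Cfsg.isometryGroup F (Cfsg.quadFormPlus m F)), g ∈ Cfsg.Omega F (Cfsg.quadFormPlus m F) ∧ ((g : Matrix.GeneralLinearGroup (Fin m ⊕ Fin m) F) : Matrix (Fin m ⊕ Fin m) (Fin m ⊕ Fin m) F) = Matrix.fromBlocks (A : Matrix (Fin m) (Fin m) F) 0 0 ((A : Matrix (Fin m) (Fin m) F)⁻¹).transpose) ↔ IsSquare (A : Matrix (Fin m) (Fin m) F).det := by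
  classical
  have hQ := Cfsg.Agent.Orth.qfPlus_nondegenerate m F
  have hR : Cfsg.Agent.Orth.RGrp (Cfsg.Agent.Orth.qfPlus m F) = ⊤ := by
    refine Cfsg.Agent.Orth.RGrp_top_of_card hQ ?_
    rw [Cfsg.Agent.Orth.finrank_V]
    omega
  have hA0 : (A : Matrix (Fin m) (Fin m) F).det ≠ 0 :=
    ((Matrix.isUnit_iff_isUnit_det _).1 A.isUnit).ne_zero
  by_cases h2 : (2 : F) = 0
  · -- characteristic two
    obtain ⟨g₀, hg₀⟩ := Cfsg.Agent.Orth.exists_levF hA0
    obtain ⟨l, hl⟩ := Cfsg.Agent.Orth.exists_reflProd hR g₀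
    refine (Cfsg.Agent.Orth.exists_mem_Omega_iff hQ hR _ l ?_).trans ?_
    · intro x
      rw [Cfsg.Agent.Orth.fromBlocks_mulVec_levF, hl, hg₀]
    · refine ⟨fun _ => Cfsg.Agent.Orth.isSquare_of_two_eq_zero h2 _, fun _ =>
        ⟨?_, Cfsg.Agent.Orth.isSquare_of_two_eq_zero h2 _⟩⟩
      have hpar := Cfsg.Agent.Orth.parity_TS hQ (Cfsg.Agent.Orth.finrank_V m F)
        (Cfsg.Agent.Orth.TS_U0 m F) (Cfsg.Agent.Orth.finrank_U0 m F) l
      have hmap : (Cfsg.Agent.Orth.U0 m F).map ((Cfsg.Agent.Orth.reflProd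
          (Cfsg.Agent.Orth.qfPlus m F) l : (Fin m ⊕ Fin m → F) ≃ₗ[F] (Fin m ⊕ Fin m → F)) :
          (Fin m ⊕ Fin m → F) →ₗ[F] (Fin m ⊕ Fin m → F)) = Cfsg.Agent.Orth.U0 m F := by
        apply Submodule.eq_of_le_of_finrank_le
        · rintro _ ⟨v, hv, rfl⟩
          rw [SetLike.mem_coe, Cfsg.Agent.Orth.mem_U0] at hv
          change (Cfsg.Agent.Orth.reflProd (Cfsg.Agent.Orth.qfPlus m F) l :
            (Fin m ⊕ Fin m → F) ≃ₗ[F] (Fin m ⊕ Fin m → F)) v ∈ _
          rw [hl, hg₀, Cfsg.Agent.Orth.mem_U0]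
          intro i
          have : v ∘ Sum.inr = 0 := funext hv
          rw [Cfsg.Agent.Orth.levF, Sum.elim_inr, this, Matrix.mulVec_zero]
          rfl
        · rw [Cfsg.Agent.Orth.finrank_map_OGrp]
      rw [hmap, inf_idem, Cfsg.Agent.Orth.finrank_U0, Nat.sub_self] at hpar
      exact hpar.1 (by simp)
  · obtain ⟨l, hl1, hl2, hl3⟩ := Cfsg.Agent.Orth.exists_list_levF h2 hA0
    refine (Cfsg.Agent.Orth.exists_mem_Omega_iff hQ hR _ l ?_).trans ?_
    · intro x
      rw [Cfsg.Agent.Orth.fromBlocks_mulVec_levF, hl3]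
    · rw [and_iff_right hl1]
      constructor
      · intro h3
        refine (Cfsg.Agent.Orth.isSquare_mul_iff_of_sq h3 ?_).1 hl2
        exact Cfsg.Agent.Orth.nrm_ne_zero _ _
      · intro h3
        rw [mul_comm] at hl2
        exact (Cfsg.Agent.Orth.isSquare_mul_iff_of_sq h3 hA0).1 hl2

end Cfsg.Agent.S2611
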