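import Cfsg.Statements.S2612
import Cfsg.Agent.Orth.Invol

set_option autoImplicit false
open Cfsg

namespace Cfsg.Agent.S2612

/-- For the hyperbolic quadratic form Σ x_i y_i on F^(2m) (F finite, m ≥ 1, excluding m = 2 over the field of two elements), Ω⁺_2m(F) (the commutator subgroup of the orthogonal group) contains an element interchanging the two complementary maximal totally singular subspaces {y = 0} and {x = 0} if and only if m is even (dimension divisible by 4). -/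
theorem result {F : Type*} [Field F] [Fintype F] {m : ℕ} (hm : 1 ≤ m) (h : Fintype.card F ≠ 2 ∨ m ≠ 2) : (∃ g : ↥(Cfsg.isometryGroup F (Cfsg.quadFormPlus m F)), g ∈ Cfsg.Omega F (Cfsg.quadFormPlus m F) ∧ (∀ v : Fin m ⊕ Fin m → F, (∀ i, v (Sum.inr i) = 0) → ∀ i, (((g : Matrix.GeneralLinearGroup (Fin m ⊕ Fin m) F) : Matrix (Fin m ⊕ Fin m) (Fin m ⊕ Fin m) F).mulVec v) (Sum.inl i) = 0) ∧ (∀ v : Fin m ⊕ Fin m → F, (∀ i, v (Sum.inl i) = 0) → ∀ i, (((g : Matrix.GeneralLinearGroup (Fin m ⊕ Fin m) F) : Matrix (Fin m ⊕ Fin m) (Fin m ⊕ Fin m) F).mulVec v) (Sum.inr i) = 0)) ↔ Even m := by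
  classical
  have hQ := Cfsg.Agent.Orth.qfPlus_nondegenerate m F
  have hR : Cfsg.Agent.Orth.RGrp (Cfsg.Agent.Orth.qfPlus m F) = ⊤ := by
    refine Cfsg.Agent.Orth.RGrp_top_of_card hQ ?_
    rw [Cfsg.Agent.Orth.finrank_V]
    omega
  constructor
  · rintro ⟨g, hg, h1, -⟩
    obtain ⟨l, hl⟩ := Cfsg.Agent.Orth.exists_reflProd hR
      (Cfsg.Agent.Orth.bridge (Cfsg.Agent.Orth.qfPlus m F) g)
    have hev := ((Cfsg.Agent.Orth.mem_Omega_iff_of_list hQ hR g l hl.symm).1 hg).1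
    have hpar := (Cfsg.Agent.Orth.parity_matrix g (Cfsg.Agent.Orth.TS_U0 m F)
      (Cfsg.Agent.Orth.finrank_U0 m F) l hl.symm).2 hev
    have hle : (Cfsg.Agent.Orth.U0 m F).map (Matrix.mulVecLin
        ((g : Matrix.GeneralLinearGroup (Fin m ⊕ Fin m) F) :
          Matrix (Fin m ⊕ Fin m) (Fin m ⊕ Fin m) F)) ≤ Cfsg.Agent.Orth.W0 m F := by
      rintro _ ⟨v, hv, rfl⟩
      rw [SetLike.mem_coe, Cfsg.Agent.Orth.mem_U0] at hv
      rw [Cfsg.Agent.Orth.mem_W0]
      exact h1 v hv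
    have hbot : Cfsg.Agent.Orth.U0 m F ⊓ (Cfsg.Agent.Orth.U0 m F).map (Matrix.mulVecLin
        ((g : Matrix.GeneralLinearGroup (Fin m ⊕ Fin m) F) :
          Matrix (Fin m ⊕ Fin m) (Fin m ⊕ Fin m) F)) = ⊥ := by
      rw [eq_bot_iff, ← Cfsg.Agent.Orth.U0_inf_W0 m F]
      exact inf_le_inf_left _ hle
    rw [hbot, finrank_bot] at hpar
    simpa using hpar
  · intro hm2
    obtain ⟨l, hl1, hl2, hl3⟩ := (Cfsg.Agent.Orth.isHyp_plus m F).exists_swap_list Finset.univ
    rw [Finset.card_univ, Fintype.card_fin] at hl1 hl2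
    have hmem : Cfsg.Agent.Orth.reflProd (Cfsg.Agent.Orth.qfPlus m F) l ∈
        commutator (Cfsg.Agent.Orth.OGrp (Cfsg.Agent.Orth.qfPlus m F)) := by
      refine Cfsg.Agent.Orth.reflProd_mem_commutator hQ (by rw [hl1]; exact hm2) ?_
      rw [hl2, hm2.neg_one_pow]
      exact IsSquare.one
    have hin : ∀ (v : Fin m ⊕ Fin m → F) (i : Fin m),
        (∑ j : Fin m, (v (Sum.inr j) - v (Sum.inl j)) •
          (Cfsg.Agent.Orth.stdE m F j - Cfsg.Agent.Orth.stdF m F j)) (Sum.inl i) =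
          v (Sum.inr i) - v (Sum.inl i) := by
      intro v i
      rw [Finset.sum_apply, Finset.sum_eq_single i]
      · simp [Pi.single_apply]
      · intro b _ hb
        simp [Pi.single_apply, Ne.symm hb]
      · simp
    have hin' : ∀ (v : Fin m ⊕ Fin m → F) (i : Fin m),
        (∑ j : Fin m, (v (Sum.inr j) - v (Sum.inl j)) •
          (Cfsg.Agent.Orth.stdE m F j - Cfsg.Agent.Orth.stdF m F j)) (Sum.inr i) =
          v (Sum.inl i) - v (Sum.inr i) := by
      intro v i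
      rw [Finset.sum_apply, Finset.sum_eq_single i]
      · simp [Pi.single_apply]
      · intro b _ hb
        simp [Pi.single_apply, Ne.symm hb]
      · simp
    refine ⟨(Cfsg.Agent.Orth.bridge (Cfsg.Agent.Orth.qfPlus m F)).symm
      (Cfsg.Agent.Orth.reflProd (Cfsg.Agent.Orth.qfPlus m F) l), ?_, ?_, ?_⟩
    · refine (Cfsg.Agent.Orth.mem_Omega_iff (Cfsg.Agent.Orth.qfPlus m F) _).2 ?_
      rw [MulEquiv.apply_symm_apply]; exact hmem
    · intro v hv i
      rw [Cfsg.Agent.Orth.bridge_symm_mulVec, hl3]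
      simp only [Cfsg.Agent.Orth.polar_stdE, Cfsg.Agent.Orth.polar_stdF, Pi.add_apply]
      rw [hin, hv i]
      ring
    · intro v hv i
      rw [Cfsg.Agent.Orth.bridge_symm_mulVec, hl3]
      simp only [Cfsg.Agent.Orth.polar_stdE, Cfsg.Agent.Orth.polar_stdF, Pi.add_apply]
      rw [hin', hv i]
      ring

end Cfsg.Agent.S2612
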