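import Cfsg.Statements.S2613
import Cfsg.Agent.Orth.Invol

set_option autoImplicit false
open Cfsg

namespace Cfsg.Agent.S2613

/-- For the hyperbolic form Σ x_j y_j on F^(2m), F finite with q elements, q odd, and 1 ≤ i ≤ m: the involution negating the first i hyperbolic pairs (x_j, y_j ↦ −x_j, −y_j for j < i) and fixing the rest lies in Ω⁺_2m(q) (commutator subgroup of the orthogonal group) if and only if q^i ≡ 1 (mod 4); its (−1)-eigenspace is a hyperbolic 2i-space. -/
theorem result {F : Type*} [Field F] [Fintype F] {q : ℕ} (hF : Fintype.card F = q) (hq : Odd q) {m : ℕ} (i : ℕ) (hi : 1 ≤ i) (him : i ≤ m) : (∃ g : ↥(Cfsg.isometryGroup F (Cfsg.quadFormPlus m F)), g ∈ Cfsg.Omega F (Cfsg.quadFormPlus m F) ∧ ((g : Matrix.GeneralLinearGroup (Fin m ⊕ Fin m) F) : Matrix (Fin m ⊕ Fin m) (Fin m ⊕ Fin m) F) = Matrix.diagonal (fun k : Fin m ⊕ Fin m => if (Sum.elim (fun j : Fin m => (j : ℕ)) (fun j : Fin m => (j : ℕ)) k) < i then (-1 : F) else 1)) ↔ q ^ i % 4 = 1 := by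
  classical
  have h2 : (2 : F) ≠ 0 := Cfsg.Agent.Orth.two_ne_zero_of_odd (hF ▸ hq)
  have hQ := Cfsg.Agent.Orth.qfPlus_nondegenerate m F
  have hR := Cfsg.Agent.Orth.RGrp_top_of_two hQ h2
  obtain ⟨l, hl1, hl2, hl3⟩ := (Cfsg.Agent.Orth.isHyp_plus m F).exists_neg_list him
  refine (Cfsg.Agent.Orth.exists_mem_Omega_iff hQ hR _ l ?_).trans ?_
  · intro x
    rw [hl3]
    funext k
    rw [Matrix.mulVec_diagonal, Pi.add_apply, Finset.sum_apply]
    rcases k with k | k
    · rw [Finset.sum_eq_single k]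
      · simp only [Sum.elim_inl, Pi.smul_apply, Pi.add_apply, Cfsg.Agent.Orth.polar_stdE,
          Cfsg.Agent.Orth.polar_stdF, smul_eq_mul]
        by_cases hk : (k : ℕ) < i
        · simp [hk, Pi.single_apply]; ring
        · simp [hk, Pi.single_apply]
      · intro b _ hb
        simp [Pi.single_apply, Ne.symm hb]
      · simp
    · rw [Finset.sum_eq_single k]
      · simp only [Sum.elim_inr, Pi.smul_apply, Pi.add_apply, Cfsg.Agent.Orth.polar_stdE,
          Cfsg.Agent.Orth.polar_stdF, smul_eq_mul]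
        by_cases hk : (k : ℕ) < i
        · simp [hk, Pi.single_apply]; ring
        · simp [hk, Pi.single_apply]
      · intro b _ hb
        simp [Pi.single_apply, Ne.symm hb]
      · simp
  · rw [hl2, Cfsg.Agent.Orth.isSquare_neg_one_pow_iff hF hq]
    exact and_iff_right hl1

end Cfsg.Agent.S2613
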