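import Cfsg.Statements.S2614
import Cfsg.Agent.Orth.Invol

set_option autoImplicit false
open Cfsg

namespace Cfsg.Agent.S2614

/-- For the form x_0² + Σ x_j y_j on F^(2m+1), F finite with q elements, q odd, and 1 ≤ i ≤ m: the involution of determinant one negating the first i hyperbolic pairs (and fixing x_0 and the other pairs) lies in Ω_(2m+1)(q) (commutator subgroup of the orthogonal group) if and only if q^i ≡ 1 (mod 4); its (−1)-eigenspace is a hyperbolic 2i-space. -/
theorem result {F : Type*} [Field F] [Fintype F] {q : ℕ} (hF : Fintype.card F = q) (hq : Odd q) {m : ℕ} (i : ℕ) (hi : 1 ≤ i) (him : i ≤ m) : (∃ g : ↥(Cfsg.isometryGroup F (Cfsg.quadFormOdd m F)), g ∈ Cfsg.Omega F (Cfsg.quadFormOdd m F) ∧ ((g : Matrix.GeneralLinearGroup (Unit ⊕ (Fin m ⊕ Fin m)) F) : Matrix (Unit ⊕ (Fin m ⊕ Fin m)) (Unit ⊕ (Fin m ⊕ Fin m)) F) = Matrix.diagonal (fun k : Unit ⊕ (Fin m ⊕ Fin m) => if (Sum.elim (fun _ : Unit => i) (Sum.elim (fun j : Fin m => (j : ℕ)) (fun j : Fin m => (j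 : ℕ))) k) < i then (-1 : F) else 1)) ↔ q ^ i % 4 = 1 := by
  classical
  have h2 : (2 : F) ≠ 0 := Cfsg.Agent.Orth.two_ne_zero_of_odd (hF ▸ hq)
  have hQ := Cfsg.Agent.Orth.qfOdd_nondegenerate m F h2
  have hR := Cfsg.Agent.Orth.RGrp_top_of_two hQ h2
  obtain ⟨l, hl1, hl2, hl3⟩ := (Cfsg.Agent.Orth.isHyp_odd m F).exists_neg_list him
  refine (Cfsg.Agent.Orth.exists_mem_Omega_iff hQ hR _ l ?_).trans ?_
  · intro x
    rw [hl3]
    funext k
    rw [Matrix.mulVec_diagonal, Pi.add_apply, Finset.sum_apply]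
    rcases k with k | k | k
    · rw [Finset.sum_eq_zero]
      · simp
      · intro b _
        simp [Pi.single_apply]
    · rw [Finset.sum_eq_single k]
      · simp only [Sum.elim_inl, Sum.elim_inr, Pi.smul_apply, Pi.add_apply, Cfsg.Agent.Orth.polar_oddE,
          Cfsg.Agent.Orth.polar_oddF, smul_eq_mul]
        by_cases hk : (k : ℕ) < i
        · simp [hk, Pi.single_apply]; ring
        · simp [hk, Pi.single_apply]
      · intro b _ hb
        simp [Pi.single_apply, Ne.symm hb]
      · simp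
    · rw [Finset.sum_eq_single k]
      · simp only [Sum.elim_inl, Sum.elim_inr, Pi.smul_apply, Pi.add_apply, Cfsg.Agent.Orth.polar_oddE,
          Cfsg.Agent.Orth.polar_oddF, smul_eq_mul]
        by_cases hk : (k : ℕ) < i
        · simp [hk, Pi.single_apply]; ring
        · simp [hk, Pi.single_apply]
      · intro b _ hb
        simp [Pi.single_apply, Ne.symm hb]
      · simp
  · rw [hl2, Cfsg.Agent.Orth.isSquare_neg_one_pow_iff hF hq]
    exact and_iff_right hl1

end Cfsg.Agent.S2614
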