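import Cfsg.Statements.S2615
import Cfsg.Agent.Orth.Invol

set_option autoImplicit false
open Cfsg

namespace Cfsg.Agent.S2615

/-- For an elliptic form Σ_(j<m−1) x_j y_j + (z₁² + a z₁z₂ + b z₂²) (anisotropic binary part) on F^(2m), F finite with q elements, q odd, and 1 ≤ i ≤ m − 1: the involution negating the first i hyperbolic pairs and fixing the rest lies in Ω⁻_2m(q) (commutator subgroup of the orthogonal group) if and only if q^i ≡ 1 (mod 4). -/
theorem result {F : Type*} [Field F] [Fintype F] {q : ℕ} (hF : Fintype.card F = q) (hq : Odd q) {m : ℕ} (a b : F) (hab : ∀ z₁ z₂ : F, z₁ ^ 2 + a * z₁ * z₂ + b * z₂ ^ 2 = 0 → z₁ = 0 ∧ z₂ = 0) (i : ℕ) (hi : 1 ≤ i) (him : i + 1 ≤ m) : (∃ g : ↥(Cfsg.isometryGroup F (Cfsg.quadFormMinus (m - 1) F a b)), g ∈ Cfsg.Omega F (Cfsg.quadFormMinus (m - 1) F a b) ∧ ((g : Matrix.GeneralLinearGroup ((Fin (m - 1) ⊕ Fin (m - 1)) ⊕ Fin 2) F) : Matrix ((Fin (m - 1) ⊕ Fin (m - 1)) ⊕ Fin 2) ((Fin (m - 1)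 ⊕ Fin (m - 1)) ⊕ Fin 2) F) = Matrix.diagonal (fun k : (Fin (m - 1) ⊕ Fin (m - 1)) ⊕ Fin 2 => if (Sum.elim (Sum.elim (fun j : Fin (m - 1) => (j : ℕ)) (fun j : Fin (m - 1) => (j : ℕ))) (fun _ : Fin 2 => i) k) < i then (-1 : F) else 1)) ↔ q ^ i % 4 = 1 := by
  classical
  have h2 : (2 : F) ≠ 0 := Cfsg.Agent.Orth.two_ne_zero_of_odd (hF ▸ hq)
  have hQ := Cfsg.Agent.Orth.qfMinus_nondegenerate (m - 1) F (Cfsg.Agent.Orth.disc_ne_zero_of_aniso hab)
  have hR := Cfsg.Agent.Orth.RGrp_top_of_two hQ h2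
  obtain ⟨l, hl1, hl2, hl3⟩ := (Cfsg.Agent.Orth.isHyp_minus (m - 1) F a b).exists_neg_list
    (i := i) (by omega)
  refine (Cfsg.Agent.Orth.exists_mem_Omega_iff hQ hR _ l ?_).trans ?_
  · intro x
    rw [hl3]
    funext k
    rw [Matrix.mulVec_diagonal, Pi.add_apply, Finset.sum_apply]
    rcases k with (k | k) | k
    · rw [Finset.sum_eq_single k]
      · simp only [Sum.elim_inl, Sum.elim_inr, Pi.smul_apply, Pi.add_apply, Cfsg.Agent.Orth.polar_minE,
          Cfsg.Agent.Orth.polar_minF, smul_eq_mul]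
        by_cases hk : (k : ℕ) < i
        · simp [hk, Pi.single_apply]; ring
        · simp [hk, Pi.single_apply]
      · intro b _ hb
        simp [Pi.single_apply, Ne.symm hb]
      · simp
    · rw [Finset.sum_eq_single k]
      · simp only [Sum.elim_inl, Sum.elim_inr, Pi.smul_apply, Pi.add_apply, Cfsg.Agent.Orth.polar_minE,
          Cfsg.Agent.Orth.polar_minF, smul_eq_mul]
        by_cases hk : (k : ℕ) < i
        · simp [hk, Pi.single_apply]; ring
        · simp [hk, Pi.single_apply]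
      · intro b _ hb
        simp [Pi.single_apply, Ne.symm hb]
      · simp
    · rw [Finset.sum_eq_zero]
      · simp
      · intro b _
        simp [Pi.single_apply]
  · rw [hl2, Cfsg.Agent.Orth.isSquare_neg_one_pow_iff hF hq]
    exact and_iff_right hl1

end Cfsg.Agent.S2615
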