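import Cfsg.Statements.S2617
import Cfsg.Agent.Orth.MinusTS

set_option autoImplicit false
open Cfsg

namespace Cfsg.Agent.S2617

/-- The two standard quadratic forms of even dimension 2m over a finite field are not isometric: there is no linear isomorphism carrying the elliptic form Σ_(i<m−1) x_i y_i + z₁² + z₁z₂ + ζ z₂² (t² + t + ζ without roots) to the hyperbolic form Σ_(i<m) x_i y_i (they have different Witt index). -/
theorem result {F : Type*} [Field F] [Finite F] {m : ℕ} (hm : 1 ≤ m) (ζ : F) (hζ : ∀ t : F, t ^ 2 + t + ζ ≠ 0) (g : (Fin m ⊕ Fin m → F) ≃ₗ[F] ((Fin (m - 1) ⊕ Fin (m - 1)) ⊕ Fin 2 → F)) : ¬ (∀ v : Fin m ⊕ Fin m → F, Cfsg.quadFormMinus (m - 1) F 1 ζ (g v) = Cfsg.quadFormPlus m F v) := by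
  classical
  intro hg
  have hab := Cfsg.Agent.Orth.aniso_of_root hζ
  have hTS : Cfsg.Agent.Orth.TS (Cfsg.Agent.Orth.qfMinus (m - 1) F 1 ζ)
      ((Cfsg.Agent.Orth.U0 m F).map (g : (Fin m ⊕ Fin m → F) →ₗ[F]
        ((Fin (m - 1) ⊕ Fin (m - 1)) ⊕ Fin 2 → F))) := by
    rintro _ ⟨v, hv, rfl⟩
    exact (hg v).trans (Cfsg.Agent.Orth.TS_U0 m F v hv)
  have h1 := hTS.finrank_le_minus (Cfsg.Agent.Orth.disc_ne_zero_of_aniso hab) hab
  rw [LinearEquiv.finrank_map_eq, Cfsg.Agent.Orth.finrank_U0] at h1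
  omega

end Cfsg.Agent.S2617
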