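import Cfsg.Statements.S2618
import Cfsg.Agent.Orth.Classify

set_option autoImplicit false
open Cfsg

namespace Cfsg.Agent.S2618

/-- Standard (parabolic) basis of a non-degenerate quadratic space of odd dimension 2m + 1 over a finite field (the non-degeneracy of the polar form forces the characteristic to be odd): there is a basis e_i, f_i (i < m), x with Q(e_i) = Q(f_i) = 0, B(e_i, f_j) = δ_ij (B the polar form), the e's pairwise orthogonal and the f's pairwise orthogonal, x orthogonal to all of them and Q(x) ≠ 0. -/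
theorem result {F V : Type*} [Field F] [Finite F] [AddCommGroup V] [Module F V] [FiniteDimensional F V] {m : ℕ} (hV : Module.finrank F V = 2 * m + 1) (Q : QuadraticForm F V) (hQ : (QuadraticMap.polarBilin Q).Nondegenerate) : ∃ b : Module.Basis (Unit ⊕ (Fin m ⊕ Fin m)) F V, Q (b (Sum.inl ())) ≠ 0 ∧ (∀ i, QuadraticMap.polar ⇑Q (b (Sum.inl ())) (b (Sum.inr (Sum.inl i))) = 0 ∧ QuadraticMap.polar ⇑Q (b (Sum.inl ())) (b (Sum.inr (Sum.inr i))) = 0) ∧ (∀ i, Q (b (Sum.inr (Sum.inl i))) = 0 ∧ Q (b (Sum.inr (Sum.inr i))) = 0) ∧ (∀ i j, QuadraticMap.polar ⇑Q (b (Sum.inr (Sum.inl i))) (b (Sum.inr (Sum.inr j))) = if i = j then 1 else 0) ∧ (∀ i j, QuadraticMap.polar ⇑Q (b (Sum.inr (Sum.inl i))) (b (Sum.inr (Sum.inl j))) = 0 ∧ QuadraticMap.polar ⇑Q (b (Sum.inr (Sum.inr i))) (b (Sum.inr (Sum.inr j))) = 0) := by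
  obtain ⟨e, f, h⟩ := Cfsg.Agent.Orth.exists_isHyp hQ m (by omega)
  have hd := Cfsg.Agent.Orth.finrank_perp hQ (Cfsg.Agent.Orth.hypSpan F e f)
  rw [h.finrank, Fintype.card_fin, hV] at hd
  have hn := Cfsg.Agent.Orth.nondegenerate_restrict
    (Cfsg.Agent.Orth.perp_inf_eq_bot hQ h.inf_perp)
  have hnt : Nontrivial ↥(Cfsg.Agent.Orth.perp Q (Cfsg.Agent.Orth.hypSpan F e f)) :=
    Module.nontrivial_of_finrank_pos (R := F) (by omega)
  obtain ⟨x, hx⟩ := Cfsg.Agent.Orth.exists_q_ne_zero hn hnt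
  have hx0 : (x : V) ≠ 0 := by
    intro h0
    apply hx
    rw [Cfsg.Agent.Orth.restrict_apply', h0, QuadraticMap.map_zero]
  have hli : LinearIndependent F (fun _ : Unit => (x : V)) :=
    LinearIndependent.of_subsingleton (() : Unit) hx0
  have hlis := h.li_sum (fun _ => x.2) hli
  have hx2 := Cfsg.Agent.Orth.mem_perp_hypSpan.1 x.2
  have hcard : Fintype.card ((Fin m ⊕ Fin m) ⊕ Unit) = Module.finrank F V := by
    rw [hV, Fintype.card_sum, Fintype.card_sum, Fintype.card_fin, Fintype.card_unit]; ring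
  set b := (basisOfLinearIndependentOfCardEqFinrank hlis hcard).reindex
    (Equiv.sumComm (Fin m ⊕ Fin m) Unit) with hb
  have hbe : ∀ i, b (Sum.inr (Sum.inl i)) = e i := by
    intro i; rw [hb, Module.Basis.reindex_apply, coe_basisOfLinearIndependentOfCardEqFinrank]; rfl
  have hbf : ∀ i, b (Sum.inr (Sum.inr i)) = f i := by
    intro i; rw [hb, Module.Basis.reindex_apply, coe_basisOfLinearIndependentOfCardEqFinrank]; rfl
  have hb0 : b (Sum.inl ()) = x := by
    rw [hb, Module.Basis.reindex_apply, coe_basisOfLinearIndependentOfCardEqFinrank]; rfl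
  refine ⟨b, ?_, fun i => ?_, fun i => ?_, fun i j => ?_, fun i j => ?_⟩
  · rw [hb0]; exact hx
  · rw [hb0, hbe, hbf, QuadraticMap.polar_comm _ _ (e i), QuadraticMap.polar_comm _ _ (f i)]
    exact hx2 i
  · rw [hbe, hbf]; exact ⟨h.qe i, h.qf i⟩
  · rw [hbe, hbf]; exact h.ef i j
  · rw [hbe, hbe, hbf, hbf]; exact ⟨h.ee i j, h.ff i j⟩

end Cfsg.Agent.S2618
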