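import Cfsg.Statements.S2619
import Cfsg.Agent.Orth.Simil

set_option autoImplicit false
open Cfsg

namespace Cfsg.Agent.S2619

/-- Over a finite field of characteristic two, given an alternating bilinear form B on a finite-dimensional space, a basis (v_i) and scalars (λ_i), there is exactly one quadratic form whose polar form is B and whose value at each v_i is λ_i. -/
theorem result {F V ι : Type*} [Field F] [Finite F] [CharP F 2] [AddCommGroup V] [Module F V] [Fintype ι] (b : Module.Basis ι F V) (B : LinearMap.BilinForm F V) (hB : B.IsAlt) (c : ι → F) : ∃! Q : QuadraticForm F V, QuadraticMap.polarBilin Q = B ∧ ∀ i, Q (b i) = c i := by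
  classical
  have h2 : (2 : F) = 0 := CharTwo.two_eq_zero
  set e := Fintype.equivFin ι
  set A : LinearMap.BilinForm F V := Matrix.toBilin b (Matrix.of fun i j =>
    if e i < e j then B (b i) (b j) else if i = j then c i else 0) with hA
  have hAb : ∀ i j, A (b i) (b j) = if e i < e j then B (b i) (b j) else if i = j then c i else 0 := by
    intro i j
    rw [hA, Matrix.toBilin_apply, Finset.sum_eq_single i, Finset.sum_eq_single j]
    · simp
    · intro k _ hk
      simp [Finsupp.single_apply, Ne.symm hk]
    · intro h; exact absurd (Finset.mem_univ _) h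
    · intro k _ hk
      refine Finset.sum_eq_zero fun l _ => ?_
      simp [Finsupp.single_apply, Ne.symm hk]
    · intro h; exact absurd (Finset.mem_univ _) h
  have hneg : ∀ x y, B x y = B y x := by
    intro x y
    have h := LinearMap.BilinForm.IsAlt.neg_eq hB x y
    linear_combination h + (B x y) * h2
  refine ⟨LinearMap.BilinMap.toQuadraticMap A, ⟨?_, ?_⟩, ?_⟩
  · refine b.ext fun i => b.ext fun j => ?_
    have : QuadraticMap.polarBilin (LinearMap.BilinMap.toQuadraticMap A) (b i) (b j)
        = A (b i) (b j) + A (b j) (b i) := LinearMap.BilinMap.polar_toQuadraticMap (b i) (b j)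
    rw [this, hAb, hAb]
    rcases lt_trichotomy (e i) (e j) with h | h | h
    · have hne : j ≠ i := by rintro rfl; exact lt_irrefl _ h
      rw [if_pos h, if_neg h.asymm, if_neg hne, add_zero]
    · have hij : i = j := e.injective h
      subst hij
      rw [if_neg (lt_irrefl _), if_pos rfl, hB.self_eq_zero]
      linear_combination (c i) * h2
    · have hne : i ≠ j := by rintro rfl; exact lt_irrefl _ h
      rw [if_pos h, if_neg h.asymm, if_neg hne, zero_add, hneg]
  · intro i
    rw [LinearMap.BilinMap.toQuadraticMap_apply, hAb, if_neg (lt_irrefl _), if_pos rfl]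
  · rintro Q ⟨hQ, hQc⟩
    refine Cfsg.Agent.Orth.qf_ext_basis b (fun i => ?_) (fun i j => ?_)
    · rw [hQc, LinearMap.BilinMap.toQuadraticMap_apply, hAb, if_neg (lt_irrefl _), if_pos rfl]
    · rw [← Cfsg.Agent.Orth.pbil, hQ, LinearMap.BilinMap.polar_toQuadraticMap, hAb, hAb]
      rcases lt_trichotomy (e i) (e j) with h | h | h
      · have hne : j ≠ i := by rintro rfl; exact lt_irrefl _ h
        rw [if_pos h, if_neg h.asymm, if_neg hne, add_zero]
      · have hij : i = j := e.injective h
        subst hij
        rw [if_neg (lt_irrefl _), if_pos rfl, hB.self_eq_zero]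
        linear_combination -(c i) * h2
      · have hne : i ≠ j := by rintro rfl; exact lt_irrefl _ h
        rw [if_pos h, if_neg h.asymm, if_neg hne, zero_add, hneg]

end Cfsg.Agent.S2619
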