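import Cfsg.Statements.S2627
import Cfsg.Agent.Orth.Sum

set_option autoImplicit false
open Cfsg

namespace Cfsg.Agent.S2627

/-- For an orthogonal direct sum Q = Q₁ ⊕ Q₂ of quadratic forms with non-degenerate polar forms over a finite field, an isometry g₁ of Q₁ extended by the identity on the second summand lies in Ω(Q) (the commutator subgroup of the orthogonal group of Q) if and only if g₁ lies in Ω(Q₁). (Excluded: the field of two elements when the first summand or the whole space has dimension 4, where the commutator subgroup of O⁺₄(2) is smaller than the group usually called Ω.) -/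
theorem result {F : Type*} [Field F] [Fintype F] {k l : ℕ} (h : Fintype.card F ≠ 2 ∨ (k ≠ 4 ∧ k + l ≠ 4)) (Q₁ : QuadraticForm F (Fin k → F)) (Q₂ : QuadraticForm F (Fin l → F)) (h₁ : (QuadraticMap.polarBilin Q₁).Nondegenerate) (h₂ : (QuadraticMap.polarBilin Q₂).Nondegenerate) (g₁ : ↥(Cfsg.isometryGroup F ⇑Q₁)) : (∃ g : ↥(Cfsg.isometryGroup F (fun v : Fin k ⊕ Fin l → F => Q₁ (v ∘ Sum.inl) + Q₂ (v ∘ Sum.inr))), g ∈ Cfsg.Omega F (fun v : Fin k ⊕ Fin l → F => Q₁ (v ∘ Sum.inl) + Q₂ (v ∘ Sum.inr)) ∧ ((g : Matrix.GeneralLinearGroup (Fin k ⊕ Fin l) F) : Matrix (Fin k ⊕ Fin l) (Fin k ⊕ Fin l) F) = Matrix.fromBlocks ((g₁ : Matrix.GeneralLinearGroup (Fin k) F) : Matrix (Fin k) (Fin k) F) 0 0 1) ↔ g₁ ∈ Cfsg.Omega F ⇑Q₁ := by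
  classical
  change (∃ g : ↥(Cfsg.isometryGroup F ⇑(Cfsg.Agent.Orth.qsum Q₁ Q₂)),
    g ∈ Cfsg.Omega F ⇑(Cfsg.Agent.Orth.qsum Q₁ Q₂) ∧
    ((g : Matrix.GeneralLinearGroup (Fin k ⊕ Fin l) F) : Matrix (Fin k ⊕ Fin l) (Fin k ⊕ Fin l) F) = _) ↔ _
  have hQ := Cfsg.Agent.Orth.qsum_nondegenerate h₁ h₂
  have hR₁ : Cfsg.Agent.Orth.RGrp Q₁ = ⊤ := by
    refine Cfsg.Agent.Orth.RGrp_top_of_card h₁ ?_
    rw [Module.finrank_fin_fun]
    exact h.imp_right fun h => h.1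
  have hR : Cfsg.Agent.Orth.RGrp (Cfsg.Agent.Orth.qsum Q₁ Q₂) = ⊤ := by
    refine Cfsg.Agent.Orth.RGrp_top_of_card hQ ?_
    rw [Module.finrank_fintype_fun_eq_card, Fintype.card_sum, Fintype.card_fin, Fintype.card_fin]
    exact h.imp_right fun h => h.2
  obtain ⟨L, hL⟩ := Cfsg.Agent.Orth.exists_reflProd hR₁ (Cfsg.Agent.Orth.bridge Q₁ g₁)
  rw [Cfsg.Agent.Orth.mem_Omega_iff_of_list h₁ hR₁ g₁ L hL.symm]
  refine (Cfsg.Agent.Orth.exists_mem_Omega_iff hQ hR _ (Cfsg.Agent.Orth.embL Q₁ Q₂ L) ?_).trans ?_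
  · intro x
    rw [Cfsg.Agent.Orth.reflProd_embL, hL, Cfsg.Agent.Orth.blk_apply, Matrix.fromBlocks_mulVec,
      Matrix.zero_mulVec, Matrix.zero_mulVec, add_zero, zero_add, Matrix.one_mulVec]
    rfl
  · rw [Cfsg.Agent.Orth.length_embL, Cfsg.Agent.Orth.nrm_embL]

end Cfsg.Agent.S2627
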