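import Cfsg.Statements.S2629
import Cfsg.Agent.Orth.PlusStd

set_option autoImplicit false
open Cfsg

namespace Cfsg.Agent.S2629

/-- For the hyperbolic form Σ x_i y_i on F^(2m) over a finite field of odd order (m ≥ 1), an isometry g preserves the class of the maximal totally singular subspace U₀ = {y = 0} (that is, m − dim(U₀ ∩ gU₀) is even) if and only if det g = 1: the stabiliser of each of the two classes of maximal totally singular subspaces is SO. -/
theorem result {F : Type*} [Field F] [Fintype F] (h2 : (2 : F) ≠ 0) {m : ℕ} (hm : 1 ≤ m) (g : ↥(Cfsg.isometryGroup F (Cfsg.quadFormPlus m F))) : Even (m - Module.finrank F ↥(LinearMap.ker (LinearMap.funLeft F F (Sum.inr : Fin m → Fin m ⊕ Fin m)) ⊓ (LinearMap.ker (LinearMap.funLeft F F (Sum.inr : Fin m → Fin m ⊕ Fin m))).map (Matrix.mulVecLin ((g : Matrix.GeneralLinearGroup (Fin m ⊕ Fin m) F) : Matrix (Fin m ⊕ Fin m) (Fin m ⊕ Fin m) F)))) ↔ ((g : Matrix.GeneralLinearGroup (Fin m ⊕ Fin m) F) : Matrix (Fin m ⊕ Fin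 m) (Fin m ⊕ Fin m) F).det = 1 := by
  have hQ := Cfsg.Agent.Orth.qfPlus_nondegenerate m F
  have hR := Cfsg.Agent.Orth.RGrp_top_of_two hQ h2
  obtain ⟨l, hl⟩ := Cfsg.Agent.Orth.exists_reflProd hR (Cfsg.Agent.Orth.bridge (Cfsg.Agent.Orth.qfPlus m F) g)
  have h := Cfsg.Agent.Orth.parity_matrix g (Cfsg.Agent.Orth.TS_U0 m F)
    (Cfsg.Agent.Orth.finrank_U0 m F) l hl.symm
  have hdet := Cfsg.Agent.Orth.det_of_reflProd (Cfsg.Agent.Orth.qfPlus m F) g l hl.symm
  refine h.trans ?_
  rw [hdet]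
  constructor
  · intro he; exact he.neg_one_pow
  · intro he
    by_contra hodd
    rw [Nat.not_even_iff_odd] at hodd
    rw [hodd.neg_one_pow] at he
    apply h2
    linear_combination -he

end Cfsg.Agent.S2629
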