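import Cfsg.Statements.S2630
import Cfsg.Agent.Orth.PlusStd

set_option autoImplicit false
open Cfsg

namespace Cfsg.Agent.S2630

/-- For the hyperbolic form Σ x_i y_i on F^(2m) over a finite field of characteristic two (m ≥ 1, excluding m = 2 over the field of two elements), an isometry g preserves the class of the maximal totally singular subspace U₀ = {y = 0} (m − dim(U₀ ∩ gU₀) even) if and only if g lies in Ω (the commutator subgroup of the orthogonal group): the stabiliser of each class is Ω. -/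
theorem result {F : Type*} [Field F] [Fintype F] [CharP F 2] {m : ℕ} (hm : 1 ≤ m) (h : Fintype.card F ≠ 2 ∨ m ≠ 2) (g : ↥(Cfsg.isometryGroup F (Cfsg.quadFormPlus m F))) : Even (m - Module.finrank F ↥(LinearMap.ker (LinearMap.funLeft F F (Sum.inr : Fin m → Fin m ⊕ Fin m)) ⊓ (LinearMap.ker (LinearMap.funLeft F F (Sum.inr : Fin m → Fin m ⊕ Fin m))).map (Matrix.mulVecLin ((g : Matrix.GeneralLinearGroup (Fin m ⊕ Fin m) F) : Matrix (Fin m ⊕ Fin m) (Fin m ⊕ Fin m) F)))) ↔ g ∈ Cfsg.Omega F (Cfsg.quadFormPlus m F) := by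
  have hQ := Cfsg.Agent.Orth.qfPlus_nondegenerate m F
  have hR : Cfsg.Agent.Orth.RGrp (Cfsg.Agent.Orth.qfPlus m F) = ⊤ := by
    refine Cfsg.Agent.Orth.RGrp_top_of_card hQ ?_
    rw [Cfsg.Agent.Orth.finrank_V]
    omega
  obtain ⟨l, hl⟩ := Cfsg.Agent.Orth.exists_reflProd hR (Cfsg.Agent.Orth.bridge (Cfsg.Agent.Orth.qfPlus m F) g)
  have h := Cfsg.Agent.Orth.parity_matrix g (Cfsg.Agent.Orth.TS_U0 m F)
    (Cfsg.Agent.Orth.finrank_U0 m F) l hl.symm
  refine h.trans ?_
  refine Iff.trans ?_ (Cfsg.Agent.Orth.mem_Omega_iff_of_list hQ hR g l hl.symm).symm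
  refine ⟨fun h => ⟨h, Cfsg.Agent.Orth.isSquare_of_two_eq_zero CharTwo.two_eq_zero _⟩, fun h => h.1⟩

end Cfsg.Agent.S2630
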