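import Cfsg.Statements.S2631
import Cfsg.Agent.Orth.Adjust

set_option autoImplicit false
open Cfsg

namespace Cfsg.Agent.S2631

/-- For the hyperbolic form Σ x_i y_i on F^(2m) over a finite field (m ≥ 1, excluding m = 2 over the field of two elements), Ω (the commutator subgroup of the orthogonal group) acts transitively on each of the two classes of maximal totally singular subspaces: if U and W are m-dimensional totally singular subspaces with m − dim(U ∩ W) even, some element of Ω carries U to W. -/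
theorem result {F : Type*} [Field F] [Fintype F] {m : ℕ} (hm : 1 ≤ m) (h : Fintype.card F ≠ 2 ∨ m ≠ 2) (U W : Submodule F (Fin m ⊕ Fin m → F)) (hU : Module.finrank F U = m) (hW : Module.finrank F W = m) (hU0 : ∀ u ∈ U, Cfsg.quadFormPlus m F u = 0) (hW0 : ∀ w ∈ W, Cfsg.quadFormPlus m F w = 0) (he : Even (m - Module.finrank F ↥(U ⊓ W))) : ∃ g : ↥(Cfsg.isometryGroup F (Cfsg.quadFormPlus m F)), g ∈ Cfsg.Omega F (Cfsg.quadFormPlus m F) ∧ U.map (Matrix.mulVecLin ((g : Matrix.GeneralLinearGroup (Fin m ⊕ Fin m) F) : Matrix (Fin m ⊕ Fin m) (Fin m ⊕ Fin m) F)) = W := by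
  classical
  have hQ := Cfsg.Agent.Orth.qfPlus_nondegenerate m F
  have hR : Cfsg.Agent.Orth.RGrp (Cfsg.Agent.Orth.qfPlus m F) = ⊤ := by
    refine Cfsg.Agent.Orth.RGrp_top_of_card hQ ?_
    rw [Cfsg.Agent.Orth.finrank_V]
    omega
  obtain ⟨g₀, hg₀⟩ := Cfsg.Agent.Orth.exists_isom_map_TS hQ (U := U) (W := W) hU0 hW0 hU hW
  obtain ⟨l, hl⟩ := Cfsg.Agent.Orth.exists_reflProd hR g₀
  have hpar := Cfsg.Agent.Orth.parity_TS hQ (Cfsg.Agent.Orth.finrank_V m F) (U := U) hU0 hU l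
  rw [hl, hg₀] at hpar
  have hev := hpar.1 he
  have hne : U ≠ ⊥ := by
    rintro rfl
    rw [finrank_bot] at hU
    omega
  obtain ⟨g₁, h1, h2⟩ := Cfsg.Agent.Orth.exists_comm_map hQ (U := U) (W := W) hU0 hne hev
    (by rw [hl]; exact hg₀)
  refine ⟨(Cfsg.Agent.Orth.bridge (Cfsg.Agent.Orth.qfPlus m F)).symm g₁, ?_, ?_⟩
  · refine (Cfsg.Agent.Orth.mem_Omega_iff (Cfsg.Agent.Orth.qfPlus m F) _).2 ?_
    rw [MulEquiv.apply_symm_apply]; exact h1
  · rw [← Cfsg.Agent.Orth.coe_bridge (Cfsg.Agent.Orth.qfPlus m F), MulEquiv.apply_symm_apply]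
    exact h2

end Cfsg.Agent.S2631
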