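import Cfsg.Statements.S2632
import Cfsg.Agent.Orth.Adjust2

set_option autoImplicit false
open Cfsg

namespace Cfsg.Agent.S2632

/-- Ω is transitive on non-degenerate subspaces of each isometry type: for a quadratic form Q on F^n, n ≥ 3, with non-degenerate polar form (F finite; excluding dimension 4 over the field of two elements), if U and W are subspaces on which the polar form is non-degenerate and there is a Q-preserving linear isomorphism U → W, then some element of Ω (the commutator subgroup of the orthogonal group) carries U to W. (In dimension 2 this fails: Ω can be {±1}, which fixes every line.) -/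
theorem result {F : Type*} [Field F] [Fintype F] {n : ℕ} (hn : 3 ≤ n) (h : Fintype.card F ≠ 2 ∨ n ≠ 4) (Q : QuadraticForm F (Fin n → F)) (hQ : (QuadraticMap.polarBilin Q).Nondegenerate) (U W : Submodule F (Fin n → F)) (hU : U ⊓ LinearMap.BilinForm.orthogonal (QuadraticMap.polarBilin Q) U = ⊥) (hW : W ⊓ LinearMap.BilinForm.orthogonal (QuadraticMap.polarBilin Q) W = ⊥) (e : U ≃ₗ[F] W) (he : ∀ u : U, Q (e u : Fin n → F) = Q (u : Fin n → F)) : ∃ g : ↥(Cfsg.isometryGroup F ⇑Q), g ∈ Cfsg.Omega F ⇑Q ∧ U.map (Matrix.mulVecLin ((g : Matrix.GeneralLinearGroup (Fin n) F) : Matrix (Fin n) (Fin n) F)) = W := by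
  classical
  have hfr : Module.finrank F (Fin n → F) = n := Module.finrank_fin_fun F
  have hR : Cfsg.Agent.Orth.RGrp Q = ⊤ :=
    Cfsg.Agent.Orth.RGrp_top_of_card hQ (by rw [hfr]; exact h)
  have hU' : U ⊓ Cfsg.Agent.Orth.perp Q U = ⊥ := hU
  obtain ⟨g, hg⟩ := Cfsg.Agent.Orth.witt hQ U (W.subtype ∘ₗ (e : U →ₗ[F] W))
    (W.injective_subtype.comp e.injective) (fun u => he u)
  have hmap : U.map ((g : (Fin n → F) ≃ₗ[F] (Fin n → F)) : (Fin n → F) →ₗ[F] (Fin n → F)) = W := by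
    ext x
    constructor
    · rintro ⟨u, hu, rfl⟩
      change (g : (Fin n → F) ≃ₗ[F] (Fin n → F)) u ∈ W
      have h1 := hg ⟨u, hu⟩
      change (g : (Fin n → F) ≃ₗ[F] (Fin n → F)) u = _ at h1
      rw [h1]
      exact (e ⟨u, hu⟩).2
    · intro hx
      refine ⟨(e.symm ⟨x, hx⟩ : U), (e.symm ⟨x, hx⟩).2, ?_⟩
      change (g : (Fin n → F) ≃ₗ[F] (Fin n → F)) _ = x
      rw [hg]
      change ((e (e.symm ⟨x, hx⟩) : W) : Fin n → F) = x
      rw [e.apply_symm_apply]
  have hA : ∀ c : F, c ≠ 0 → ∃ x, (x ∈ U ∨ x ∈ Cfsg.Agent.Orth.perp Q U) ∧ Q x ≠ 0 ∧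
      IsSquare (Q x * c) := by
    intro c hc
    have hd := Cfsg.Agent.Orth.finrank_perp hQ U
    rw [hfr] at hd
    rcases le_or_gt 2 (Module.finrank F U) with h2 | h2
    · obtain ⟨x, hx, h3⟩ := Cfsg.Agent.Orth.adjust_of_dim hU' h2 hc
      exact ⟨x, Or.inl hx, h3⟩
    · obtain ⟨x, hx, h3⟩ := Cfsg.Agent.Orth.adjust_of_dim
        (Cfsg.Agent.Orth.perp_inf_eq_bot hQ hU') (by omega) hc
      exact ⟨x, Or.inr hx, h3⟩
  obtain ⟨g', h1, h2'⟩ := Cfsg.Agent.Orth.exists_comm_map_of_adjust hQ hR (U := U) (W := W)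
    hA g hmap
  exact Cfsg.Agent.Orth.exists_matrix_map Q h1 h2'

end Cfsg.Agent.S2632
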