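import Cfsg.Statements.S2633
import Cfsg.Agent.Orth.Adjust2

set_option autoImplicit false
open Cfsg

namespace Cfsg.Agent.S2633

/-- Ω is transitive on totally singular subspaces of each dimension less than half the dimension: for a quadratic form Q on F^n with non-degenerate polar form (F finite; excluding dimension 4 over the field of two elements), if U and W are subspaces of the same dimension k with 2k < n on which Q vanishes, then some element of Ω (the commutator subgroup of the orthogonal group) carries U to W. -/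
theorem result {F : Type*} [Field F] [Fintype F] {n : ℕ} (h : Fintype.card F ≠ 2 ∨ n ≠ 4) (Q : QuadraticForm F (Fin n → F)) (hQ : (QuadraticMap.polarBilin Q).Nondegenerate) (U W : Submodule F (Fin n → F)) {k : ℕ} (hk : 2 * k < n) (hU : Module.finrank F U = k) (hW : Module.finrank F W = k) (hU0 : ∀ u ∈ U, Q u = 0) (hW0 : ∀ w ∈ W, Q w = 0) : ∃ g : ↥(Cfsg.isometryGroup F ⇑Q), g ∈ Cfsg.Omega F ⇑Q ∧ U.map (Matrix.mulVecLin ((g : Matrix.GeneralLinearGroup (Fin n) F) : Matrix (Fin n) (Fin n) F)) = W := by
  classical
  have hfr : Module.finrank F (Fin n → F) = n := Module.finrank_fin_fun F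
  have hR : Cfsg.Agent.Orth.RGrp Q = ⊤ :=
    Cfsg.Agent.Orth.RGrp_top_of_card hQ (by rw [hfr]; exact h)
  obtain ⟨g, h1, h2⟩ := Cfsg.Agent.Orth.exists_comm_map_TS hQ hR (U := U) (W := W) (k := k)
    (by rw [hfr]; exact hk) hU hW hU0 hW0
  exact Cfsg.Agent.Orth.exists_matrix_map Q h1 h2

end Cfsg.Agent.S2633
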