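import Cfsg.Statements.S2634
import Cfsg.Agent.Orth.Adjust2

set_option autoImplicit false
open Cfsg

namespace Cfsg.Agent.S2634

/-- Over a finite field of characteristic two, Ω (the commutator subgroup of the orthogonal group of a quadratic form Q on F^n with non-degenerate polar form; excluding dimension 4 over the field of two elements) acts transitively on the non-singular 1-spaces: for u, v with Q(u) ≠ 0 and Q(v) ≠ 0 some element of Ω carries the line through u to the line through v. -/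
theorem result {F : Type*} [Field F] [Fintype F] [CharP F 2] {n : ℕ} (h : Fintype.card F ≠ 2 ∨ n ≠ 4) (Q : QuadraticForm F (Fin n → F)) (hQ : (QuadraticMap.polarBilin Q).Nondegenerate) (u v : Fin n → F) (hu : Q u ≠ 0) (hv : Q v ≠ 0) : ∃ g : ↥(Cfsg.isometryGroup F ⇑Q), g ∈ Cfsg.Omega F ⇑Q ∧ (F ∙ ((g : Matrix.GeneralLinearGroup (Fin n) F) : Matrix (Fin n) (Fin n) F).mulVec u) = F ∙ v := by
  classical
  have hfr : Module.finrank F (Fin n → F) = n := Module.finrank_fin_fun F
  have hR : Cfsg.Agent.Orth.RGrp Q = ⊤ :=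
    Cfsg.Agent.Orth.RGrp_top_of_card hQ (by rw [hfr]; exact h)
  have h2 : (2 : F) = 0 := CharTwo.two_eq_zero
  have hu0 : u ≠ 0 := by rintro rfl; exact hu (QuadraticMap.map_zero Q)
  have hv0 : v ≠ 0 := by rintro rfl; exact hv (QuadraticMap.map_zero Q)
  obtain ⟨s, hs⟩ := Cfsg.Agent.Orth.isSquare_of_two_eq_zero h2 (Q u / Q v)
  have hs0 : s ≠ 0 := by
    rintro rfl
    rw [mul_zero] at hs
    exact (div_ne_zero hu hv) hs
  have hq : Q u = Q (s • v) := by
    rw [Cfsg.Agent.Orth.qsmul, ← hs]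
    field_simp
  obtain ⟨g, hg⟩ := Cfsg.Agent.Orth.exists_isom_of_q_eq hQ hu0 (smul_ne_zero hs0 hv0) hq
  have hmap : (F ∙ u).map ((g : (Fin n → F) ≃ₗ[F] (Fin n → F)) : (Fin n → F) →ₗ[F] (Fin n → F))
      = F ∙ v := by
    rw [Submodule.map_span, Set.image_singleton]
    change F ∙ ((g : (Fin n → F) ≃ₗ[F] (Fin n → F)) u) = F ∙ v
    rw [hg]
    exact Submodule.span_singleton_smul_eq (IsUnit.mk0 s hs0) v
  obtain ⟨g', h1, h2'⟩ := Cfsg.Agent.Orth.exists_comm_map_of_adjust hQ hR (U := F ∙ u) (W := F ∙ v)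
    (fun c _ => ⟨u, Or.inl (Submodule.mem_span_singleton_self u), hu,
      Cfsg.Agent.Orth.isSquare_of_two_eq_zero h2 _⟩) g hmap
  obtain ⟨x, hx1, hx2⟩ := Cfsg.Agent.Orth.exists_matrix_map Q h1 h2'
  refine ⟨x, hx1, ?_⟩
  rw [← hx2, Submodule.map_span, Set.image_singleton]
  rfl

end Cfsg.Agent.S2634
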