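import Cfsg.Statements.S2635
import Cfsg.Agent.Orth.Pairs

set_option autoImplicit false
open Cfsg

namespace Cfsg.Agent.S2635

/-- Over a finite field of characteristic two, for a quadratic form Q on F^n with non-degenerate polar form, n ≥ 2, other than dimension 4 over the field of two elements, Ω (the commutator subgroup of the orthogonal group) is exactly the subgroup generated by the products of two reflections (orthogonal transvections) x ↦ x − Q(v)⁻¹ f(x, v) v, Q(v) ≠ 0: the products of an even number of reflections. -/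
theorem result {F : Type*} [Field F] [Fintype F] [CharP F 2] {n : ℕ} (hn : 2 ≤ n) (h : Fintype.card F ≠ 2 ∨ n ≠ 4) (Q : QuadraticForm F (Fin n → F)) (hQ : (QuadraticMap.polarBilin Q).Nondegenerate) : Cfsg.Omega F ⇑Q = Subgroup.closure {g : ↥(Cfsg.isometryGroup F ⇑Q) | ∃ u v : Fin n → F, Q u ≠ 0 ∧ Q v ≠ 0 ∧ ((g : Matrix.GeneralLinearGroup (Fin n) F) : Matrix (Fin n) (Fin n) F) = Cfsg.reflectionMatrix ⇑Q u * Cfsg.reflectionMatrix ⇑Q v} := by
  have hR : Cfsg.Agent.Orth.RGrp Q = ⊤ :=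
    Cfsg.Agent.Orth.RGrp_top_of_card hQ (by rwa [Module.finrank_fin_fun])
  ext g
  rw [Cfsg.Agent.Orth.mem_closure_pairs_iff]
  obtain ⟨l, hl⟩ := Cfsg.Agent.Orth.exists_reflProd hR (Cfsg.Agent.Orth.bridge Q g)
  rw [Cfsg.Agent.Orth.mem_Omega_iff_of_list hQ hR g l hl.symm]
  constructor
  · rintro ⟨h1, -⟩
    exact ⟨l, hl.symm, h1⟩
  · rintro ⟨l', hl', h1⟩
    refine ⟨(Cfsg.Agent.Orth.reflProd_eq_imp hQ (hl.trans hl')).1.2 h1, ?_⟩
    exact Cfsg.Agent.Orth.isSquare_of_two_eq_zero CharTwo.two_eq_zero _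

end Cfsg.Agent.S2635
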