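import Cfsg.Statements.S2636
import Cfsg.Agent.Orth.FieldFix

set_option autoImplicit false
open Cfsg

namespace Cfsg.Agent.S2636

/-- Centraliser of a field automorphism in PGL_n: let F be the field with q = q₀^r elements, σ a field automorphism of F of prime order r (so its fixed field has q₀ elements) and n ≥ 1. The invertible matrices g whose entrywise image under σ is a scalar multiple of g — those whose coset modulo scalars is fixed by σ — number (q − 1)/(q₀ − 1) · |GL_n(q₀)|; equivalently the centraliser in PGL_n(q) of the induced automorphism has the order of PGL_n(q₀). -/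
theorem result {F : Type*} [Field F] [Fintype F] {q₀ r n : ℕ} (hr : r.Prime) (hn : 1 ≤ n) (hF : Fintype.card F = q₀ ^ r) (σ : F ≃+* F) (hσ : orderOf σ = r) : Nat.card {g : GL (Fin n) F // ∃ c : F, c ≠ 0 ∧ (g : Matrix (Fin n) (Fin n) F).map σ = c • (g : Matrix (Fin n) (Fin n) F)} = (q₀ ^ r - 1) / (q₀ - 1) * ∏ i : Fin n, (q₀ ^ n - q₀ ^ (i : ℕ)) := by
  classical
  have h1 : Nat.card {g : GL (Fin n) F // ∃ c : F, c ≠ 0 ∧
      (g : Matrix (Fin n) (Fin n) F).map σ = c • (g : Matrix (Fin n) (Fin n) F)}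
      = Nat.card (Cfsg.Agent.Orth.scalF σ n).range :=
    Nat.card_congr (Equiv.subtypeEquivRight fun g => (Cfsg.Agent.Orth.mem_range_scalF σ hn g).symm)
  rw [h1]
  have h2 := Cfsg.Agent.Orth.card_fixF σ
  rw [hσ, Nat.card_eq_fintype_card (α := F), hF] at h2
  have h3 : Nat.card (Cfsg.Agent.Orth.fixF σ) = q₀ := Nat.pow_left_injective hr.ne_zero h2
  have h4 := Cfsg.Agent.Orth.card_range_scalF σ hn
  haveI : Fintype (Cfsg.Agent.Orth.fixF σ) := Fintype.ofFinite _
  rw [Matrix.card_GL_field, h3, Nat.card_eq_fintype_card (α := F), hF,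
    ← Nat.card_eq_fintype_card (α := Cfsg.Agent.Orth.fixF σ), h3] at h4
  have h5 : 2 ≤ q₀ := by
    have := Finite.one_lt_card (α := Cfsg.Agent.Orth.fixF σ)
    omega
  have h6 : q₀ - 1 ∣ q₀ ^ r - 1 := by
    have := Nat.sub_dvd_pow_sub_pow q₀ 1 r
    rwa [one_pow] at this
  obtain ⟨k, hk⟩ := h6
  rw [hk] at h4 ⊢
  have h7 : 0 < q₀ - 1 := by omega
  rw [Nat.mul_div_cancel_left _ h7]
  apply Nat.eq_of_mul_eq_mul_right h7
  rw [h4]
  ring

end Cfsg.Agent.S2636
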