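import Cfsg.Statements.S2637
import Cfsg.Agent.Iso44.Fpf3

set_option autoImplicit false
open Cfsg

namespace Cfsg.Agent.S2637

open Cfsg.Agent.Iso44.Fpf3


/-- Centraliser of a fixed-point-free element of order three in Sp_2m(q) when q ≡ 2 (mod 3): if x ∈ Sp_2m(F) (|F| = q, m ≥ 1) satisfies x³ = 1 and x − 1 is invertible, then its centraliser in Sp_2m(F) has the order of the unitary group GU_m(q), namely q^(m(m−1)/2) Π_(i=1)^m (q^i − (−1)^i) (x lies in the centre of a subgroup GU_m(q) of Sp_2m(q)). -/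
theorem result {F : Type*} [Field F] [Fintype F] {q : ℕ} (hF : Fintype.card F = q) (hq : q % 3 = 2) {m : ℕ} (hm : 1 ≤ m) (x : Matrix.symplecticGroup (Fin m) F) (hx3 : x ^ 3 = 1) (hfpf : IsUnit ((x : Matrix (Fin m ⊕ Fin m) (Fin m ⊕ Fin m) F) - 1)) : (Nat.card ↥(Subgroup.centralizer ({x} : Set ↥(Matrix.symplecticGroup (Fin m) F))) : ℤ) = (q : ℤ) ^ (m * (m - 1) / 2) * ∏ i : Fin m, ((q : ℤ) ^ ((i : ℕ) + 1) - (-1) ^ ((i : ℕ) + 1)) := by
  classical
  obtain ⟨x₀, hx₀3, hx₀f, hcard⟩ := exists_cent hF hq m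
  have hxf : ∀ v, (x : Matrix (Fin m ⊕ Fin m) (Fin m ⊕ Fin m) F).mulVec v = v → v = 0 := by
    intro v hv
    obtain ⟨u, hu⟩ := hfpf
    have h1 : ((x : Matrix (Fin m ⊕ Fin m) (Fin m ⊕ Fin m) F) - 1).mulVec v = 0 := by
      rw [Matrix.sub_mulVec, hv, Matrix.one_mulVec, sub_self]
    rw [← hu] at h1
    have h2 := congrArg (fun w => ((u⁻¹ : (Matrix (Fin m ⊕ Fin m) (Fin m ⊕ Fin m) F)ˣ) : Matrix (Fin m ⊕ Fin m) (Fin m ⊕ Fin m) F).mulVec w) h1
    simp only [Matrix.mulVec_mulVec, Units.inv_mul, Matrix.one_mulVec, Matrix.mulVec_zero] at h2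
    exact h2
  obtain ⟨c, hc⟩ := isConj_iff.mp (isConj hF hq x x₀ hx3 hx₀3 hxf hx₀f)
  have hcc : Nat.card ↥(Subgroup.centralizer ({x} : Set ↥(Matrix.symplecticGroup (Fin m) F))) =
      Nat.card ↥(Subgroup.centralizer ({x₀} : Set ↥(Matrix.symplecticGroup (Fin m) F))) := by
    apply Nat.card_congr
    refine
      { toFun := fun z => ⟨c * z * c⁻¹, ?_⟩
        invFun := fun z => ⟨c⁻¹ * z * c, ?_⟩
        left_inv := fun z => Subtype.ext (by simp [mul_assoc])
        right_inv := fun z => Subtype.ext (by simp [mul_assoc]) }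
    · have h1 := z.2
      rw [Subgroup.mem_centralizer_singleton_iff] at h1 ⊢
      rw [← hc]
      calc c * z * c⁻¹ * (c * x * c⁻¹) = c * (z * x) * c⁻¹ := by group
        _ = c * (x * z) * c⁻¹ := by rw [h1]
        _ = _ := by group
    · have h1 := z.2
      rw [Subgroup.mem_centralizer_singleton_iff] at h1 ⊢
      have hx : x = c⁻¹ * x₀ * c := by rw [← hc]; group
      rw [hx]
      calc c⁻¹ * z * c * (c⁻¹ * x₀ * c) = c⁻¹ * (z * x₀) * c := by group
        _ = c⁻¹ * (x₀ * z) * c := by rw [h1]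
        _ = _ := by group
  rw [hcc, hcard]
  push_cast
  congr 1
  rw [Finset.prod_range]
  refine Finset.prod_congr rfl fun i _ => ?_
  have hq1 : 1 ≤ q ^ ((i : ℕ) + 1) := Nat.one_le_pow _ _ (by omega)
  by_cases hi : Even (i : ℕ)
  · rw [if_pos hi, (hi.add_one).neg_one_pow]
    ring
  · rw [if_neg hi, (Nat.not_even_iff_odd.mp hi).add_one.neg_one_pow]
    push_cast [hq1]
    ring

end Cfsg.Agent.S2637
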