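import Cfsg.Statements.S2638
import Cfsg.Agent.Orth.Singer

set_option autoImplicit false
open Cfsg

namespace Cfsg.Agent.S2638

/-- If an element x of GL_n(q), n ≥ 1, has prime order r and the multiplicative order of q modulo r is n (r is a primitive prime divisor of q^n − 1, so x acts irreducibly), then the centraliser of x in GL_n(q) is cyclic of order q^n − 1 (the multiplicative group of the field with q^n elements, a Singer cycle). -/
theorem result {F : Type*} [Field F] [Fintype F] {p q : ℕ} [Fact p.Prime] [CharP F p] (hF : Fintype.card F = q) {n r : ℕ} (hn : 1 ≤ n) (hr : r.Prime) (hrp : r ≠ p) (hi : orderOf (q : ZMod r) = n) (x : GL (Fin n) F) (hx : orderOf x = r) : IsCyclic ↥(Subgroup.centralizer ({x} : Set (GL (Fin n) F))) ∧ Nat.card ↥(Subgroup.centralizer ({x} : Set (GL (Fin n) F))) = q ^ n - 1 := by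
  classical
  haveI : Fact r.Prime := ⟨hr⟩
  have hq : Nat.card F = q := by rw [Nat.card_eq_fintype_card, hF]
  set e := (Matrix.GeneralLinearGroup.toLin : GL (Fin n) F ≃* LinearMap.GeneralLinearGroup F (Fin n → F))
    with he
  set y : (Module.End F (Fin n → F))ˣ := e x with hy
  have hy1 : orderOf y = r := by rw [hy, MulEquiv.orderOf_eq, hx]
  have hyr : (y : Module.End F (Fin n → F)) ^ r = 1 := by
    rw [← Units.val_pow_eq_pow_val, ← hy1, pow_orderOf_eq_one, Units.val_one]
  have hyne : (y : Module.End F (Fin n → F)) ≠ 1 := by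
    intro h
    have : y = 1 := Units.ext h
    rw [this, orderOf_one] at hy1
    exact hr.one_lt.ne hy1
  have hfr : Module.finrank F (Fin n → F) = n := Module.finrank_fin_fun F
  haveI : Nontrivial (Fin n → F) := Module.nontrivial_of_finrank_pos (R := F) (by omega)
  have hirr := Cfsg.Agent.Orth.irreducible_of_order hfr hn hr hrp (by rw [hq]; exact hi)
    (y : Module.End F (Fin n → F)) hyr hyne
  obtain ⟨hdom, hcard⟩ := Cfsg.Agent.Orth.centralizer_irreducible
    (y : Module.End F (Fin n → F)) hirr
  haveI := hdom
  haveI : Finite (Module.End F (Fin n → F)) := Module.finite_of_finite F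
  obtain ⟨h1, h2⟩ := Cfsg.Agent.Orth.finite_domain_units
    (R := Subring.centralizer ({(y : Module.End F (Fin n → F))} : Set (Module.End F (Fin n → F))))
  obtain ⟨e1⟩ := Cfsg.Agent.Orth.centralizer_units y
  have e2 : Subgroup.centralizer ({x} : Set (GL (Fin n) F)) ≃*
      Subgroup.centralizer ({y} : Set (Module.End F (Fin n → F))ˣ) :=
    (e.subgroupMap (Subgroup.centralizer ({x} : Set (GL (Fin n) F)))).trans
      (MulEquiv.subgroupCongr (Cfsg.Agent.Orth.centralizer_map_equiv e x))
  constructor
  · exact (e2.trans e1.symm).isCyclic.2 h1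
  · rw [Nat.card_congr (e2.trans e1.symm).toEquiv, h2, hcard,
      Module.natCard_eq_pow_finrank (K := F), hfr, hq]

end Cfsg.Agent.S2638
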