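import Cfsg.Statements.S2642
import Cfsg.Agent.H43.OrderP
import Cfsg.Agent.H43.Unitary2

set_option autoImplicit false
open Cfsg

namespace Cfsg.Agent.S2642

open Cfsg.Agent.H43 Matrix

theorem rank_eq_finrank {F : Type*} [Field F] {n : ℕ} (M : Matrix (Fin n) (Fin n) F) (j : ℕ) :
    Module.finrank F (LinearMap.range ((Matrix.toLin' M) ^ j)) = (M ^ j).rank := by
  rw [← Matrix.toLin'_pow, Matrix.toLin'_apply', Matrix.rank]

theorem isConj_of_rank {F : Type*} [Field F] {n : ℕ} (g g' : GL (Fin n) F)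
    (hN : IsNilpotent ((g : Matrix (Fin n) (Fin n) F) - 1)) (hN' : IsNilpotent ((g' : Matrix (Fin n) (Fin n) F) - 1))
    (h : ∀ j, (((g : Matrix (Fin n) (Fin n) F) - 1) ^ j).rank = (((g' : Matrix (Fin n) (Fin n) F) - 1) ^ j).rank) : IsConj g g' := by
  classical
  have hnil : ∀ M : Matrix (Fin n) (Fin n) F, IsNilpotent (M - 1) → IsNilpotent (Matrix.toLin' M - 1 : Module.End F (Fin n → F)) := by
    intro M hM
    obtain ⟨k, hk⟩ := hM
    refine ⟨k, ?_⟩
    rw [← toLin'_sub_one, ← Matrix.toLin'_pow, hk, map_zero]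
  obtain ⟨t, d, b, hd, hb⟩ := exists_JB _ (hnil _ hN)
  obtain ⟨t', d', b', hd', hb'⟩ := exists_JB _ (hnil _ hN')
  have hcard : ∀ j, (Finset.univ.filter (fun k => d k = j)).card = (Finset.univ.filter (fun k => d' k = j)).card := by
    intro j
    rcases Nat.eq_zero_or_pos j with rfl | hj
    · rw [Finset.card_eq_zero.mpr, Finset.card_eq_zero.mpr]
      · rw [Finset.filter_eq_empty_iff]
        intro k _ h0
        have := hd' k
        omega
      · rw [Finset.filter_eq_empty_iff]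
        intro k _ h0
        have := hd k
        omega
    · apply card_eq_of_sums d d' _ j hj
      intro i
      rw [← hb.finrank_range, ← hb'.finrank_range, ← toLin'_sub_one, ← toLin'_sub_one, rank_eq_finrank, rank_eq_finrank]
      exact h i
  obtain ⟨σ, hσ⟩ := exists_equiv_of_card d d' hcard
  obtain ⟨b'', hb''⟩ := hb.reindex σ hσ
  exact isConj_of_JB hb'' hb'

theorem jordan_map {F : Type*} [Field F] (σ : F →+* F) {t : ℕ} (d : Fin t → ℕ) : (Cfsg.jordanTypeMatrix d F).map σ = Cfsg.jordanTypeMatrix d F := by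
  ext ⟨k, i⟩ ⟨l, j⟩
  rw [Matrix.map_apply]
  unfold Cfsg.jordanTypeMatrix
  by_cases hl : k = l
  · subst hl
    rw [Matrix.blockDiagonal'_apply_eq]
    unfold Cfsg.jordanBlock
    rw [Matrix.of_apply]
    split_ifs <;> simp
  · rw [Matrix.blockDiagonal'_apply_ne _ _ _ hl, map_zero]

theorem exists_GU_unip {K : Type*} [Field K] [Fintype K] {q n : ℕ} (hK : Fintype.card K = q ^ 2) (g : GL (Fin n) K)
    (hN : IsNilpotent ((g : Matrix (Fin n) (Fin n) K) - 1)) : ∃ B : ↥(Cfsg.GU n K q), IsConj g (B : GL (Fin n) K) := by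
  classical
  have hnil : IsNilpotent (Matrix.toLin' (g : Matrix (Fin n) (Fin n) K) - 1 : Module.End K (Fin n → K)) := by
    obtain ⟨k, hk⟩ := hN
    refine ⟨k, ?_⟩
    rw [← toLin'_sub_one, ← Matrix.toLin'_pow, hk, map_zero]
  obtain ⟨t, d, b, hd, hb⟩ := exists_JB _ hnil
  have hsum : ∑ k, d k = n := by
    have h1 := Module.finrank_eq_card_basis b
    rw [Module.finrank_fintype_fun_eq_card, Fintype.card_fin, Fintype.card_sigma] at h1
    simp only [Fintype.card_fin] at h1
    exact h1.symm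
  have hcard : Fintype.card ((k : Fin t) × Fin (d k)) = Fintype.card (Fin n) := by
    rw [Fintype.card_sigma]
    simp only [Fintype.card_fin]
    exact hsum
  obtain ⟨e⟩ : Nonempty (((k : Fin t) × Fin (d k)) ≃ Fin n) := ⟨Fintype.equivOfCardEq hcard⟩
  obtain ⟨c, hc⟩ := (isConj_reindex_iff d e (Matrix.reindex e e (Cfsg.jordanTypeMatrix d K))).1 (IsConj.refl _)
  obtain ⟨M, hM⟩ : ∃ M : Matrix (Fin n) (Fin n) K, M = Matrix.reindex e e (Cfsg.jordanTypeMatrix d K) := ⟨_, rfl⟩
  rw [← hM] at hc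
  have hnilM : IsNilpotent (M - 1) := by
    refine ⟨∑ k, d k, ?_⟩
    apply (Matrix.toLin' (R := K) (m := Fin n) (n := Fin n)).injective
    rw [Matrix.toLin'_pow, toLin'_sub_one, map_zero]
    exact hc.pow_zero _ (fun k => Finset.single_le_sum (f := d) (fun _ _ => Nat.zero_le _) (Finset.mem_univ k))
  obtain ⟨m, hm⟩ : ∃ m : GL (Fin n) K, (m : Matrix (Fin n) (Fin n) K) = M := by
    have h1 : IsUnit M := by
      have : M = (M - 1) + 1 := by abel
      rw [this]
      exact hnilM.isUnit_add_one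
    exact h1
  have hgm : IsConj g m := isConj_of_JB (g := g) (g' := m) hb (by rw [hm]; exact hc)
  have hmap : M.map (fun x : K => x ^ q) = M := by
    have h1 : M.map (Cfsg.Agent.ClGeo.frob hK) = M := by
      rw [hM]
      ext i j
      rw [Matrix.map_apply, Matrix.reindex_apply, Matrix.submatrix_apply]
      exact congrFun (congrFun (jordan_map (Cfsg.Agent.ClGeo.frob hK : K →+* K) d) (e.symm i)) (e.symm j)
    conv_rhs => rw [← h1]
    ext i j
    simp only [Matrix.map_apply, Cfsg.Agent.ClGeo.frob_apply]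
  have hdetM : IsUnit M.det := by
    rw [← Matrix.isUnit_iff_isUnit_det, ← hm]; exact m.isUnit
  have hex : ∃ B : ↥(Cfsg.GU n K q), IsConj m (B : GL (Fin n) K) := by
    rw [exists_conj_GU_iff hK m, hm, hmap]
    -- M ~ (Mᵀ)⁻¹
    obtain ⟨m', hm'⟩ : ∃ m' : GL (Fin n) K, (m' : Matrix (Fin n) (Fin n) K) = (Mᵀ)⁻¹ := by
      have h1 : IsUnit (Mᵀ)⁻¹ := by
        rw [Matrix.isUnit_iff_isUnit_det, Matrix.det_nonsing_inv, Matrix.det_transpose]
        exact isUnit_ringInverse.mpr hdetM
      exact h1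
    have hdT : IsUnit (Mᵀ).det := by rw [Matrix.det_transpose]; exact hdetM
    have hB1 : (m' : Matrix (Fin n) (Fin n) K) - 1 = -((Mᵀ)⁻¹ * (M - 1)ᵀ) := by
      rw [hm', Matrix.transpose_sub, Matrix.transpose_one, Matrix.mul_sub, Matrix.nonsing_inv_mul _ hdT, mul_one]
      abel
    have hcomm : Commute (Mᵀ)⁻¹ (M - 1)ᵀ := by
      rw [Matrix.transpose_sub, Matrix.transpose_one]
      apply Commute.sub_right _ (Commute.one_right _)
      show (Mᵀ)⁻¹ * Mᵀ = Mᵀ * (Mᵀ)⁻¹
      rw [Matrix.nonsing_inv_mul _ hdT, Matrix.mul_nonsing_inv _ hdT]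
    have hpowj : ∀ j, ((m' : Matrix (Fin n) (Fin n) K) - 1) ^ j = (-(Mᵀ)⁻¹) ^ j * ((M - 1) ^ j)ᵀ := by
      intro j
      rw [hB1, ← Matrix.neg_mul, (hcomm.neg_left).mul_pow, Matrix.transpose_pow]
    have hconj : IsConj m m' := by
      apply isConj_of_rank
      · rw [hm]; exact hnilM
      · obtain ⟨k, hk⟩ := hnilM
        refine ⟨k, ?_⟩
        rw [hpowj, hk, Matrix.transpose_zero, mul_zero]
      · intro j
        rw [hpowj, hm]
        have hu : IsUnit ((-(Mᵀ)⁻¹) ^ j).det := by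
          rw [← Matrix.isUnit_iff_isUnit_det]
          apply IsUnit.pow
          apply IsUnit.neg
          rw [← hm']
          exact m'.isUnit
        rw [Matrix.rank_mul_eq_right_of_isUnit_det _ _ hu, Matrix.rank_transpose]
    obtain ⟨P, hP⟩ := isConj_iff.mp hconj
    rw [mul_inv_eq_iff_eq_mul] at hP
    refine ⟨P, ?_⟩
    have h1 := congrArg Units.val hP
    rw [Units.val_mul, Units.val_mul, hm, hm'] at h1
    exact h1
  obtain ⟨B, hB⟩ := hex
  exact ⟨B, hgm.trans hB⟩

/-- Number of conjugacy classes of elements of order p in the general unitary group GU_n(q), q a power of p: every unipotent Jordan type occurs and the classes correspond to the partitions of n with all parts at most p other than the all-ones partition, exactly as in GL_n; so there are (number of partitions of n with parts ≤ p) − 1 classes. -/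
theorem result {K : Type*} [Field K] [Fintype K] {p q n : ℕ} [Fact p.Prime] [CharP K p] (hK : Fintype.card K = q ^ 2) : Nat.card {C : ConjClasses ↥(Cfsg.GU n K q) // ∃ g : ↥(Cfsg.GU n K q), ConjClasses.mk g = C ∧ orderOf g = p} = (Finset.univ.filter (fun μ : Nat.Partition n => ∀ a ∈ μ.parts, a ≤ p)).card - 1 := by
  rw [← H43.card_order_p_classes (F := K) (p := p) n]
  have hmk : ∀ C : ConjClasses ↥(Cfsg.GU n K q), (∃ g : ↥(Cfsg.GU n K q), ConjClasses.mk g = C ∧ orderOf g = p) →
      ∃ g : GL (Fin n) K, ConjClasses.mk g = ConjClasses.map (Cfsg.GU n K q).subtype C ∧ orderOf g = p := by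
    rintro _ ⟨g, rfl, hg⟩
    exact ⟨(g : GL (Fin n) K), rfl, by rw [← hg]; exact Subgroup.orderOf_coe g⟩
  refine Nat.card_eq_of_bijective (fun C => (⟨ConjClasses.map (Cfsg.GU n K q).subtype C.1, hmk C.1 C.2⟩ :
    {C : ConjClasses (GL (Fin n) K) // ∃ g : GL (Fin n) K, ConjClasses.mk g = C ∧ orderOf g = p})) ⟨?_, ?_⟩
  · rintro ⟨_, g, rfl, hg⟩ ⟨_, h, rfl, hh⟩ he
    have h1 : ConjClasses.mk (g : GL (Fin n) K) = ConjClasses.mk (h : GL (Fin n) K) :=
      congrArg (fun z : {C : ConjClasses (GL (Fin n) K) // ∃ g : GL (Fin n) K, ConjClasses.mk g = C ∧ orderOf g = p} => z.1) he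
    apply Subtype.ext
    show ConjClasses.mk g = ConjClasses.mk h
    rw [ConjClasses.mk_eq_mk_iff_isConj] at h1 ⊢
    exact (isConj_GU_iff hK g h).mpr h1
  · rintro ⟨_, g, rfl, hg⟩
    have hp : p.Prime := Fact.out
    have hgp : g ^ p = 1 := by rw [← hg]; exact pow_orderOf_eq_one g
    have hnil : IsNilpotent ((g : Matrix (Fin n) (Fin n) K) - 1) := by
      refine ⟨p, ?_⟩
      have h1 := (pow_eq_one_iff_nil g).mp hgp
      apply (Matrix.toLin' (R := K) (m := Fin n) (n := Fin n)).injective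
      rw [Matrix.toLin'_pow, toLin'_sub_one, map_zero]
      exact h1
    obtain ⟨B, hB⟩ := exists_GU_unip hK g hnil
    have hBo : orderOf B = p := by
      rw [← Subgroup.orderOf_coe B, ← hg]
      obtain ⟨c, hc⟩ := isConj_iff.mp hB
      rw [← hc]
      exact (MulAut.conj c).orderOf_eq g
    refine ⟨⟨ConjClasses.mk B, B, rfl, hBo⟩, ?_⟩
    apply Subtype.ext
    show ConjClasses.mk (B : GL (Fin n) K) = ConjClasses.mk g
    rw [ConjClasses.mk_eq_mk_iff_isConj]
    exact hB.symm

end Cfsg.Agent.S2642
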