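import Cfsg.Statements.S2643
import Cfsg.Agent.Iso44.Split
import Cfsg.Agent.Iso44.GuR
import Cfsg.Agent.H43.Cyclic2
import Cfsg.Agent.Uni.SU
import Cfsg.Agent.S2642

set_option autoImplicit false
open Cfsg

namespace Cfsg.Agent.S2643

open Cfsg.Agent.Iso44 Cfsg.Agent.H43 Cfsg.Agent.Uni Matrix

section

variable {K : Type*} [Field K] [Fintype K] {q n : ℕ}

/-- regular unipotency -/
def RU (M : Matrix (Fin n) (Fin n) K) : Prop := (M - 1) ^ n = 0 ∧ (M - 1).rank = n - 1

theorem ker_le (hn : 2 ≤ n) {M : Matrix (Fin n) (Fin n) K} (h : RU M) :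
    Module.finrank K (LinearMap.ker (Matrix.toLin' (M - 1))) ≤ 1 := by
  have h1 := LinearMap.finrank_range_add_finrank_ker (Matrix.toLin' (M - 1))
  rw [Module.finrank_fintype_fun_eq_card, Fintype.card_fin] at h1
  have h2 : Module.finrank K (LinearMap.range (Matrix.toLin' (M - 1))) = n - 1 := h.2
  omega

theorem pow_zero' {M : Matrix (Fin n) (Fin n) K} (h : RU M) : (Matrix.toLin' (M - 1)) ^ n = 0 := by
  rw [← Matrix.toLin'_pow, h.1, map_zero]

theorem RU.of_conj {M M' : Matrix (Fin n) (Fin n) K} (h : RU M) (g : GL (Fin n) K)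
    (hg : M' = (g : Matrix (Fin n) (Fin n) K) * M * ((g⁻¹ : GL (Fin n) K) : Matrix (Fin n) (Fin n) K)) : RU M' := by
  have h1 : M' - 1 = (g : Matrix (Fin n) (Fin n) K) * (M - 1) * ((g⁻¹ : GL (Fin n) K) : Matrix (Fin n) (Fin n) K) := by
    rw [hg, mul_sub, sub_mul, mul_one, Units.mul_inv]
  constructor
  · have h2 : ∀ k : ℕ, (M' - 1) ^ k = (g : Matrix (Fin n) (Fin n) K) * (M - 1) ^ k * ((g⁻¹ : GL (Fin n) K) : Matrix (Fin n) (Fin n) K) := by
      intro k
      induction k with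
      | zero => simp
      | succ k ih =>
        rw [pow_succ, ih, h1, pow_succ]
        have h3 : ((g⁻¹ : GL (Fin n) K) : Matrix (Fin n) (Fin n) K) * (g : Matrix (Fin n) (Fin n) K) = 1 := Units.inv_mul g
        calc _ = (g : Matrix (Fin n) (Fin n) K) * (M - 1) ^ k * (((g⁻¹ : GL (Fin n) K) : Matrix (Fin n) (Fin n) K) * (g : Matrix (Fin n) (Fin n) K)) * (M - 1) * ((g⁻¹ : GL (Fin n) K) : Matrix (Fin n) (Fin n) K) := by
              simp only [mul_assoc]
          _ = _ := by rw [h3, mul_one]; simp only [mul_assoc]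
    rw [h2, h.1, mul_zero, zero_mul]
  · rw [h1]
    have hu1 : IsUnit ((g : Matrix (Fin n) (Fin n) K)).det := (Matrix.isUnit_iff_isUnit_det _).1 g.isUnit
    have hu2 : IsUnit (((g⁻¹ : GL (Fin n) K) : Matrix (Fin n) (Fin n) K)).det := (Matrix.isUnit_iff_isUnit_det _).1 (g⁻¹).isUnit
    rw [Matrix.rank_mul_eq_left_of_isUnit_det _ _ hu2, Matrix.rank_mul_eq_right_of_isUnit_det _ _ hu1]
    exact h.2

theorem RU.isConj (hn : 2 ≤ n) {A B : GL (Fin n) K} (hA : RU (A : Matrix (Fin n) (Fin n) K)) (hB : RU (B : Matrix (Fin n) (Fin n) K)) :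
    IsConj A B := by
  obtain ⟨f, hf⟩ : ∃ f, f = Matrix.toLin' ((A : Matrix (Fin n) (Fin n) K) - 1) := ⟨_, rfl⟩
  obtain ⟨f', hf'⟩ : ∃ f, f = Matrix.toLin' ((B : Matrix (Fin n) (Fin n) K) - 1) := ⟨_, rfl⟩
  have hf0 : f ^ n = 0 := by rw [hf]; exact pow_zero' hA
  have hf0' : f' ^ n = 0 := by rw [hf']; exact pow_zero' hB
  have hk : Module.finrank K (LinearMap.ker f) ≤ 1 := by rw [hf]; exact ker_le hn hA
  have hk' : Module.finrank K (LinearMap.ker f') ≤ 1 := by rw [hf']; exact ker_le hn hB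
  obtain ⟨g, hg⟩ := exists_conj_regular f f' n
    (by rw [Module.finrank_fintype_fun_eq_card, Fintype.card_fin]) (by rw [Module.finrank_fintype_fun_eq_card, Fintype.card_fin]) (by omega)
    hf0 hf0' hk hk'
  rw [hf, hf'] at hg
  have hg' : ∀ x, g ((A : Matrix (Fin n) (Fin n) K) *ᵥ x) = (B : Matrix (Fin n) (Fin n) K) *ᵥ (g x) := by
    intro x
    have h1 : g (((A : Matrix (Fin n) (Fin n) K) - 1) *ᵥ x) = ((B : Matrix (Fin n) (Fin n) K) - 1) *ᵥ (g x) := hg x
    have h2 : (A : Matrix (Fin n) (Fin n) K) *ᵥ x = ((A : Matrix (Fin n) (Fin n) K) - 1) *ᵥ x + x := by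
      rw [Matrix.sub_mulVec, Matrix.one_mulVec, sub_add_cancel]
    rw [h2, map_add, h1, Matrix.sub_mulVec, Matrix.one_mulVec, sub_add_cancel]
  rw [isConj_iff]
  refine ⟨(glE' n K).symm g, ?_⟩
  apply (glE' n K).injective
  rw [map_mul, map_mul, map_inv, (glE' n K).apply_symm_apply, mul_inv_eq_iff_eq_mul]
  apply LinearEquiv.ext
  intro x
  exact hg' x

theorem det_eq_one {M : Matrix (Fin n) (Fin n) K} (h : RU M) : M.det = 1 := by
  have h1 : M = 1 + (M - 1) := by abel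
  have h2 := det_scalar_add_nilpotent (1 : K) (Matrix.toLin' (M - 1)) ⟨n, pow_zero' h⟩
  rw [map_one, one_pow] at h2
  rw [h1, ← LinearMap.det_toLin', map_add, Matrix.toLin'_one]
  exact h2

theorem exists_RU_GU (hK : Fintype.card K = q ^ 2) (hn : 2 ≤ n) : ∃ B : ↥(Cfsg.GU n K q), RU ((B : GL (Fin n) K) : Matrix (Fin n) (Fin n) K) := by
  have hnil : IsNilpotent (shiftM K n) := ⟨n, shiftM_pow K n⟩
  obtain ⟨g, hg⟩ : ∃ g : GL (Fin n) K, (g : Matrix (Fin n) (Fin n) K) = shiftM K n + 1 := hnil.isUnit_add_one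
  have hgR : RU (g : Matrix (Fin n) (Fin n) K) := by
    constructor
    · rw [hg, add_sub_cancel_right, shiftM_pow]
    · rw [hg, add_sub_cancel_right, shiftM_rank K n (by omega)]
  obtain ⟨B, hB⟩ := S2642.exists_GU_unip hK g ⟨n, hgR.1⟩
  obtain ⟨c, hc⟩ := isConj_iff.1 hB
  refine ⟨B, hgR.of_conj c ?_⟩
  rw [← hc]
  rfl

/-- scalar plus nilpotent in the unitary group -/
theorem norm_of_star {σ : K →+* K} {M : Matrix (Fin n) (Fin n) K} (h1 : H43.stm σ M * M = 1) {a : K} {w : Fin n → K} (hw : w ≠ 0)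
    (hMw : M *ᵥ w = a • w) (hnil : IsNilpotent (M - a • 1)) : a ≠ 0 ∧ σ a = a⁻¹ := by
  have ha0 : a ≠ 0 := by
    rintro rfl
    rw [zero_smul] at hMw
    apply hw
    have h2 := congrArg (fun z => H43.stm σ M *ᵥ z) hMw
    simp only [Matrix.mulVec_mulVec, h1, Matrix.one_mulVec, Matrix.mulVec_zero] at h2
    exact h2
  have hsw : H43.stm σ M *ᵥ w = a⁻¹ • w := by
    have h2 := congrArg (fun z => H43.stm σ M *ᵥ z) hMw
    simp only [Matrix.mulVec_mulVec, h1, Matrix.one_mulVec, Matrix.mulVec_smul] at h2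
    rw [eq_inv_smul_iff₀ ha0]
    exact h2.symm
  obtain ⟨k, hk⟩ := hnil
  have hst : H43.stm σ (M - a • 1) = H43.stm σ M - σ a • 1 := by
    have h4 : M = (M - a • 1) + a • 1 := by abel
    conv_rhs => rw [h4]
    rw [H43.stm_add, H43.stm_smul_one]
    abel
  have hstpow : ∀ k : ℕ, (H43.stm σ (M - a • 1)) ^ k = H43.stm σ ((M - a • 1) ^ k) := by
    intro k
    induction k with
    | zero => rw [pow_zero, pow_zero, H43.stm_one]
    | succ k ih => rw [pow_succ, ih, pow_succ', H43.stm_mul]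
  have hstw : (H43.stm σ (M - a • 1)) *ᵥ w = (a⁻¹ - σ a) • w := by
    rw [hst, Matrix.sub_mulVec, hsw, Matrix.smul_mulVec, Matrix.one_mulVec, sub_smul]
  have hpw : ∀ k : ℕ, ((H43.stm σ (M - a • 1)) ^ k) *ᵥ w = ((a⁻¹ - σ a) ^ k) • w := by
    intro k
    induction k with
    | zero => simp
    | succ k ih => rw [pow_succ, ← Matrix.mulVec_mulVec, hstw, Matrix.mulVec_smul, ih, smul_smul, pow_succ']
  have h5 := hpw k
  rw [hstpow, hk] at h5
  have h6 : H43.stm σ (0 : Matrix (Fin n) (Fin n) K) = 0 := by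
    ext i j
    unfold H43.stm
    simp
  rw [h6, Matrix.zero_mulVec] at h5
  have h7 := (smul_eq_zero.1 h5.symm).resolve_right hw
  have h8 : a⁻¹ - σ a = 0 := by
    by_contra h0
    exact pow_ne_zero k h0 h7
  exact ⟨ha0, (sub_eq_zero.1 h8).symm⟩

/-- the determinant of a commuting unitary matrix -/
theorem det_commute_mat (hn : 2 ≤ n) {σ : K →+* K} {U M : Matrix (Fin n) (Fin n) K} (hu : RU U)
    (hMU : M * U = U * M) (h1 : H43.stm σ M * M = 1) : ∃ a : K, a ≠ 0 ∧ σ a = a⁻¹ ∧ M.det = a ^ n := by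
  have hfin : n = Module.finrank K (Fin n → K) := by rw [Module.finrank_fintype_fun_eq_card, Fintype.card_fin]
  have hcomm : Commute (Matrix.toLin' M) (Matrix.toLin' (U - 1)) := by
    show Matrix.toLin' M * Matrix.toLin' (U - 1) = Matrix.toLin' (U - 1) * Matrix.toLin' M
    rw [show Matrix.toLin' M * Matrix.toLin' (U - 1) = Matrix.toLin' (M * (U - 1)) from (Matrix.toLin'_mul _ _).symm,
      show Matrix.toLin' (U - 1) * Matrix.toLin' M = Matrix.toLin' ((U - 1) * M) from (Matrix.toLin'_mul _ _).symm, mul_sub, sub_mul, hMU,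
      mul_one, one_mul]
  obtain ⟨f, hf⟩ : ∃ f, f = Matrix.toLin' (U - 1) := ⟨_, rfl⟩
  have hf0 : f ^ n = 0 := by rw [hf]; exact pow_zero' hu
  have hk : Module.finrank K (LinearMap.ker f) ≤ 1 := by rw [hf]; exact ker_le hn hu
  rw [← hf] at hcomm
  obtain ⟨a, h, hh, hc⟩ := exists_scalar_add_nilpotent f n hfin (by omega) hf0 hk (Matrix.toLin' M) hcomm
  have hnil : IsNilpotent (f * h) := ⟨n, by rw [hh.symm.mul_pow, hf0, zero_mul]⟩
  obtain ⟨v, hv⟩ := exists_cyclic_vector f hk (by rw [← hfin]; omega)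
  rw [← hfin] at hv
  have hfw : f ((f ^ (n - 1)) v) = 0 := by
    rw [← Module.End.mul_apply, ← pow_succ', Nat.sub_add_cancel (by omega), hf0]; rfl
  have hMw : M *ᵥ ((f ^ (n - 1)) v) = a • ((f ^ (n - 1)) v) := by
    rw [← Matrix.toLin'_apply, hc, LinearMap.add_apply, ← hh.eq, Module.End.mul_apply, hfw, map_zero, add_zero, Module.algebraMap_end_apply]
  have hnil2 : IsNilpotent (M - a • (1 : Matrix (Fin n) (Fin n) K)) := by
    obtain ⟨k, hk⟩ := hnil
    refine ⟨k, ?_⟩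
    apply (Matrix.toLin' (R := K) (m := Fin n) (n := Fin n)).injective
    rw [Matrix.toLin'_pow, map_zero]
    have h3 : Matrix.toLin' (M - a • 1) = f * h := by
      rw [map_sub, hc, map_smul, Matrix.toLin'_one, Algebra.algebraMap_eq_smul_one]
      exact add_sub_cancel_left _ _
    rw [h3, hk]
  obtain ⟨ha0, hσ⟩ := norm_of_star h1 hv hMw hnil2
  refine ⟨a, ha0, hσ, ?_⟩
  rw [← LinearMap.det_toLin', hc, det_scalar_add_nilpotent a _ hnil, ← hfin]

theorem det_commute (hK : Fintype.card K = q ^ 2) (hn : 2 ≤ n) (u x : ↥(Cfsg.GU n K q)) (hu : RU ((u : GL (Fin n) K) : Matrix (Fin n) (Fin n) K))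
    (hxu : x * u = u * x) : ∃ a : K, a ^ (q + 1) = 1 ∧ ((x : GL (Fin n) K) : Matrix (Fin n) (Fin n) K).det = a ^ n := by
  have hMU : ((x : GL (Fin n) K) : Matrix (Fin n) (Fin n) K) * ((u : GL (Fin n) K) : Matrix (Fin n) (Fin n) K) =
      ((u : GL (Fin n) K) : Matrix (Fin n) (Fin n) K) * ((x : GL (Fin n) K) : Matrix (Fin n) (Fin n) K) :=
    congrArg (fun z : ↥(Cfsg.GU n K q) => ((z : GL (Fin n) K) : Matrix (Fin n) (Fin n) K)) hxu
  obtain ⟨a, ha0, hσ, hdet⟩ := det_commute_mat hn hu hMU ((H43.mem_GU_iff hK (x : GL (Fin n) K)).1 x.2)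
  refine ⟨a, ?_, hdet⟩
  rw [Cfsg.Agent.ClGeo.frob_apply] at hσ
  rw [pow_succ, hσ, inv_mul_cancel₀ ha0]

end


/-- Regular unipotent classes of SU_n(q), n ≥ 2: the elements u of the special unitary group (isometries of Σ u_i v_i^q of determinant one over the field with q² elements) with (u − 1)^n = 0 and rank(u − 1) = n − 1 form exactly gcd(n, q + 1) conjugacy classes of SU_n(q). -/
theorem result {K : Type*} [Field K] [Fintype K] {q n : ℕ} (hK : Fintype.card K = q ^ 2) (hn : 2 ≤ n) : Nat.card {C : ConjClasses ↥(Cfsg.SU n K q) // ∃ u : ↥(Cfsg.SU n K q), ConjClasses.mk u = C ∧ (((u : GL (Fin n) K) : Matrix (Fin n) (Fin n) K) - 1) ^ n = 0 ∧ (((u : GL (Fin n) K) : Matrix (Fin n) (Fin n) K) - 1).rank = n - 1} = Nat.gcd n (q + 1) := by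
  obtain ⟨B, hB⟩ := exists_RU_GU (K := K) hK hn
  have hdetB : detHom hK n B = 1 := by
    apply Subtype.ext
    apply Units.ext
    rw [detHom_coe, det_eq_one hB]
    rfl
  obtain ⟨u0, hu0⟩ : B ∈ (suToGU hK n).range := by
    rw [suToGU_range, MonoidHom.mem_ker, hdetB]
  have hsplit := card_split (suToGU hK n) (suToGU_injective hK) (detHom hK n) (detHom_surjective hK (by omega)) (suToGU_range hK) u0
  have hRU : ∀ u : ↥(Cfsg.SU n K q), RU (((u : GL (Fin n) K) : Matrix (Fin n) (Fin n) K)) ↔ IsConj (suToGU hK n u0) (suToGU hK n u) := by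
    intro u
    have hcoe : (((u : GL (Fin n) K) : Matrix (Fin n) (Fin n) K)) = (((suToGU hK n u : ↥(Cfsg.GU n K q)) : GL (Fin n) K) : Matrix (Fin n) (Fin n) K) := rfl
    rw [hcoe, hu0]
    constructor
    · intro h
      rw [H43.isConj_GU_iff hK]
      exact RU.isConj hn hB h
    · intro h
      obtain ⟨c, hc⟩ := isConj_iff.1 h
      refine hB.of_conj (c : GL (Fin n) K) ?_
      rw [← hc]
      rfl
  have h1 : Nat.card {C : ConjClasses ↥(Cfsg.SU n K q) // ∃ u : ↥(Cfsg.SU n K q), ConjClasses.mk u = C ∧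
      (((u : GL (Fin n) K) : Matrix (Fin n) (Fin n) K) - 1) ^ n = 0 ∧ (((u : GL (Fin n) K) : Matrix (Fin n) (Fin n) K) - 1).rank = n - 1} =
      Nat.card {C : ConjClasses ↥(Cfsg.SU n K q) // ∃ u, ConjClasses.mk u = C ∧ IsConj (suToGU hK n u0) (suToGU hK n u)} := by
    apply Nat.card_congr
    apply Equiv.subtypeEquivRight
    intro C
    constructor
    · rintro ⟨u, hu, h⟩
      exact ⟨u, hu, (hRU u).1 h⟩
    · rintro ⟨u, hu, h⟩
      exact ⟨u, hu, (hRU u).2 h⟩
  rw [h1, hsplit]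
  have hD : (Subgroup.centralizer ({suToGU hK n u0} : Set ↥(Cfsg.GU n K q))).map (detHom hK n) =
      (powMonoidHom n : ↥(powMonoidHom (q + 1) : Kˣ →* Kˣ).ker →* ↥(powMonoidHom (q + 1) : Kˣ →* Kˣ).ker).range := by
    ext a
    constructor
    · rintro ⟨x, hx, rfl⟩
      have hx' := Subgroup.mem_centralizer_singleton_iff.1 hx
      obtain ⟨b, hb1, hb2⟩ := det_commute hK hn B x hB (by rw [← hu0]; exact hx')
      have hb0 : b ≠ 0 := by
        rintro rfl
        rw [zero_pow (by omega)] at hb1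
        exact zero_ne_one hb1
      refine ⟨⟨Units.mk0 b hb0, ?_⟩, ?_⟩
      · rw [MonoidHom.mem_ker]
        apply Units.ext
        simpa using hb1
      · apply Subtype.ext
        apply Units.ext
        rw [detHom_coe, hb2]
        simp
    · rintro ⟨b, rfl⟩
      have hb := b.2
      rw [MonoidHom.mem_ker] at hb
      have hb' : ((b : Kˣ) : K) ^ (q + 1) = 1 := by
        have := congrArg Units.val hb
        simpa using this
      refine ⟨mkGU hK (Matrix.diagonal fun _ => ((b : Kˣ) : K)) (pres_diagonal _ fun _ => hb'), ?_, ?_⟩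
      · rw [SetLike.mem_coe, Subgroup.mem_centralizer_singleton_iff]
        apply GU_ext
        show (Matrix.diagonal fun _ => ((b : Kˣ) : K)) * _ = _ * (Matrix.diagonal fun _ => ((b : Kˣ) : K))
        have e : (Matrix.diagonal fun _ : Fin n => ((b : Kˣ) : K)) = ((b : Kˣ) : K) • (1 : Matrix (Fin n) (Fin n) K) := by
          rw [← Matrix.smul_one_eq_diagonal]
        rw [e, Matrix.smul_mul, Matrix.mul_smul, Matrix.one_mul, Matrix.mul_one]
      · apply Subtype.ext
        apply Units.ext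
        rw [detHom_coe, mkGU_coe, Matrix.det_diagonal]
        simp
  rw [hD, IsCyclic.index_powMonoidHom_range, card_norm_ker hK, Nat.gcd_comm]

end Cfsg.Agent.S2643
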