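import Cfsg.Statements.S2645
import Cfsg.Agent.Iso44.Setup

set_option autoImplicit false
open Cfsg

namespace Cfsg.Agent.S2645

open Cfsg.Agent.Iso44 Cfsg.Agent.H43 Cfsg.Agent.ClGeo


/-- Number of conjugacy classes of elements of odd prime order r, r different from the characteristic, in the symplectic group Sp_2m(q): let i be the multiplicative order of q modulo r and t = (r − 1)/i. If i is odd the eigenvalue orbits pair off (Λ ≠ Λ⁻¹) and the classes correspond to the non-zero (t/2)-tuples (a_j) with 2i Σ a_j ≤ 2m, giving C(⌊m/i⌋ + t/2, t/2) − 1 classes; if i is even (Λ = Λ⁻¹) they correspond to the non-zero t-tuples with i Σ a_j ≤ 2m, giving C(⌊2m/i⌋ + t, t) − 1 classes. -/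
theorem result {F : Type*} [Field F] [Fintype F] {p q : ℕ} [Fact p.Prime] [CharP F p] (hF : Fintype.card F = q) (m r i t : ℕ) (hr : r.Prime) (hr2 : r ≠ 2) (hrp : r ≠ p) (hi : i = orderOf (q : ZMod r)) (ht : t * i = r - 1) : Nat.card {C : ConjClasses ↥(Matrix.symplecticGroup (Fin m) F) // ∃ g : Matrix.symplecticGroup (Fin m) F, ConjClasses.mk g = C ∧ orderOf g = r} = if Odd i then Nat.choose (m / i + t / 2) (t / 2) - 1 else Nat.choose (2 * m / i + t) t - 1 := by
  haveI : Fact r.Prime := ⟨hr⟩
  have hqr : (q : ZMod r) ≠ 0 := qr_ne_zero hF hrp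
  have hrF : (r : F) ≠ 0 := rF_ne_zero hr hrp
  obtain ⟨ζ, hζ⟩ := exists_zeta (F := F) (r := r) hrF
  obtain ⟨w, hw, hwo⟩ := exists_w hr2 hqr
  rw [← hi] at hwo
  have hq : Nat.card F = q := by rw [Nat.card_eq_fintype_card, hF]
  obtain ⟨e⟩ := exists_spEquiv F m
  rw [Iso44.card_classes_congr e]
  have hfr : Module.finrank F (Fin m ⊕ Fin m → F) = 2 * m := by
    rw [Module.finrank_fintype_fun_eq_card, Fintype.card_sum, Fintype.card_fin]; ring
  have hodd : Odd r := hr.odd_of_ne_two hr2
  obtain ⟨k, hk⟩ : ∃ k, orderOf w = 2 * k := by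
    rw [hwo]
    split_ifs with h
    · exact ⟨i, rfl⟩
    · rw [Nat.not_odd_iff_even] at h
      obtain ⟨k, hk⟩ := h
      exact ⟨k, by omega⟩
  have hb : Nat.card (Subgroup.zpowers w) = 2 * k := by rw [Nat.card_zpowers, hk]
  have hν := card_quot_mul (Subgroup.zpowers w)
  rw [count_G hζ (Subgroup.zpowers w) (spG F m) True]
  · rw [if_neg (by simp), Nat.sub_zero, hfr, hb]
    rw [hb] at hν
    have hi0 : 0 < i := by
      rcases Nat.eq_zero_or_pos i with h | h
      · rw [h, mul_zero] at ht
        have := hr.two_le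
        omega
      · exact h
    rw [hk] at hwo
    split_ifs with h
    · rw [if_pos h] at hwo
      have h1 : k = i := by omega
      subst h1
      have h2 : t / 2 = Fintype.card ((ZMod r)ˣ ⧸ Subgroup.zpowers w) := by
        have h3 : t * k = (Fintype.card ((ZMod r)ˣ ⧸ Subgroup.zpowers w) * 2) * k := by rw [ht, ← hν]; ring
        have h4 := Nat.eq_of_mul_eq_mul_right hi0 h3
        omega
      rw [h2, Nat.mul_div_mul_left _ _ (by norm_num)]
    · rw [if_neg h] at hwo
      rw [hwo] at hν ⊢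
      have h2 : t = Fintype.card ((ZMod r)ˣ ⧸ Subgroup.zpowers w) :=
        Nat.eq_of_mul_eq_mul_right hi0 (by rw [ht, hν])
      rw [← h2]
  · intro g hg g' hg' hgr hgr' P hP
    exact conj_alt hrF hodd (sB_isAlt m) (sB_nondegenerate m) hg hg' hgr hP
  · intro g hg hgr
    exact inv_isom hζ (sB F m) (sB_nondegenerate m) hq hqr hw g hg hgr
  · intro _ _ _ _; trivial
  · intro x a hx _
    rw [hb, hfr] at hx
    exact sp_real hζ hq hqr hw hk _ m x a rfl hx
  · exact Or.inl trivial

end Cfsg.Agent.S2645
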