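import Cfsg.Statements.S2646
import Cfsg.Agent.H43.GUForm4

set_option autoImplicit false
open Cfsg

namespace Cfsg.Agent.S2646

/-- Order of the centraliser in the general unitary group GU_n(q) of a unipotent element of given Jordan type: if u ∈ GU_n(q) (isometries of Σ u_i v_i^q over the field with q² elements) is similar to the unipotent matrix with a_i Jordan blocks of size i (all sizes at least 1), then its centraliser in GU_n(q) has order q^γ · Π_i |GU_(a_i)(q)| with γ = 2 Σ_(i<j) i a_i a_j + Σ_i (i − 1) a_i², the same exponent as in GL_n(q), where |GU_a(q)| = q^(a(a−1)/2) Π_(k=1)^a (q^k − (−1)^k). -/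
theorem result {K : Type*} [Field K] [Fintype K] {q n t : ℕ} (hK : Fintype.card K = q ^ 2) (d : Fin t → ℕ) (hd : ∀ k, 1 ≤ d k) (e : ((k : Fin t) × Fin (d k)) ≃ Fin n) (u : ↥(Cfsg.GU n K q)) (hu : IsConj (Matrix.reindex e e (Cfsg.jordanTypeMatrix d K)) ((u : GL (Fin n) K) : Matrix (Fin n) (Fin n) K)) : (Nat.card ↥(Subgroup.centralizer ({u} : Set ↥(Cfsg.GU n K q))) : ℤ) = (q : ℤ) ^ (2 * (∑ i ∈ Finset.range (Finset.univ.sup d + 1), ∑ j ∈ Finset.range (Finset.univ.sup d + 1), if i < j then i * (Finset.univ.filter (fun k : Fin t => d k = i)).card * (Finset.univ.filter (fun k : Fin t => d k = j)).card else 0) + ∑ i ∈ Finset.range (Finset.univ.sup d + 1), (i - 1) * (Finset.univ.filter (fun k : Fin t => d k = i)).card ^ 2) * ∏ i ∈ Finset.range (Finset.univ.sup d + 1), ((q : ℤ) ^ ((Finset.univ.filter (fun k : Fin t => d k = i)).card * ((Finset.univ.filter (fun k : Fin t => d k = i)).card - 1) / 2) * ∏ j : Fin (Finset.univ.filter (fun k : Fin t => d k = i)).card,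 ((q : ℤ) ^ ((j : ℕ) + 1) - (-1) ^ ((j : ℕ) + 1))) := by
  classical
  obtain ⟨b, hJ⟩ := (Cfsg.Agent.H43.isConj_reindex_iff d e ((u : GL (Fin n) K) : Matrix (Fin n) (Fin n) K)).1 hu
  have hD : ∀ k, d k < Finset.univ.sup d + 1 := fun k => Nat.lt_succ_of_le (Finset.le_sup (Finset.mem_univ k))
  have huu := (Cfsg.Agent.H43.mem_GU_iff hK (u : GL (Fin n) K)).1 u.2
  have hadM : ∀ M M' : Matrix (Fin n) (Fin n) K, Cfsg.Agent.H43.ad (Cfsg.Agent.ClGeo.frob hK) (Matrix.toLin' M) * Matrix.toLin' M' =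
      Matrix.toLin' (Cfsg.Agent.H43.stm (Cfsg.Agent.ClGeo.frob hK) M * M') := by
    intro M M'
    unfold Cfsg.Agent.H43.ad
    rw [LinearMap.toMatrix'_toLin', Matrix.toLin'_mul]
    rfl
  have h1l : Matrix.toLin' (1 : Matrix (Fin n) (Fin n) K) = (1 : Module.End K (Fin n → K)) := Matrix.toLin'_one
  have hU : Cfsg.Agent.H43.ad (Cfsg.Agent.ClGeo.frob hK) (Matrix.toLin' ((u : GL (Fin n) K) : Matrix (Fin n) (Fin n) K)) *
      Matrix.toLin' ((u : GL (Fin n) K) : Matrix (Fin n) (Fin n) K) = 1 := by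
    rw [hadM, huu, h1l]
  have hmain := Cfsg.Agent.H43.card_unip_isom hK hU hJ hd _ hD
  rw [Cfsg.Agent.H43.gamma_eq d hd _ hD] at hmain
  have hcm : ∀ M : Matrix (Fin n) (Fin n) K, Commute (Matrix.toLin' M) (Matrix.toLin' ((u : GL (Fin n) K) : Matrix (Fin n) (Fin n) K) - 1) ↔
      M * ((u : GL (Fin n) K) : Matrix (Fin n) (Fin n) K) = ((u : GL (Fin n) K) : Matrix (Fin n) (Fin n) K) * M := by
    intro M
    have e1 : Commute (Matrix.toLin' M) (Matrix.toLin' ((u : GL (Fin n) K) : Matrix (Fin n) (Fin n) K) - 1) ↔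
        Commute (Matrix.toLin' M) (Matrix.toLin' ((u : GL (Fin n) K) : Matrix (Fin n) (Fin n) K)) := by
      constructor
      · intro h
        have := h.add_right (Commute.one_right _)
        rwa [sub_add_cancel] at this
      · intro h; exact h.sub_right (Commute.one_right _)
    rw [e1]
    constructor
    · intro h
      apply Matrix.toLin'.injective
      rw [Matrix.toLin'_mul, Matrix.toLin'_mul]
      exact h.eq
    · intro h
      have h2 := congrArg Matrix.toLin' h
      rw [Matrix.toLin'_mul, Matrix.toLin'_mul] at h2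
      exact h2
  have hcard : Nat.card ↥(Subgroup.centralizer ({u} : Set ↥(Cfsg.GU n K q))) =
      Nat.card {c : Module.End K (Fin n → K) // Commute c (Matrix.toLin' ((u : GL (Fin n) K) : Matrix (Fin n) (Fin n) K) - 1) ∧
        Cfsg.Agent.H43.ad (Cfsg.Agent.ClGeo.frob hK) c * c = 1} := by
    refine Nat.card_congr (Equiv.ofBijective (fun g : Subgroup.centralizer ({u} : Set ↥(Cfsg.GU n K q)) =>
      (⟨Matrix.toLin' ((g.1 : GL (Fin n) K) : Matrix (Fin n) (Fin n) K), ?_, ?_⟩ :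
        {c : Module.End K (Fin n → K) // Commute c (Matrix.toLin' ((u : GL (Fin n) K) : Matrix (Fin n) (Fin n) K) - 1) ∧
        Cfsg.Agent.H43.ad (Cfsg.Agent.ClGeo.frob hK) c * c = 1})) ⟨?_, ?_⟩)
    · rw [hcm]
      have h1 := Subgroup.mem_centralizer_singleton_iff.1 g.2
      exact congrArg (fun x : ↥(Cfsg.GU n K q) => ((x : GL (Fin n) K) : Matrix (Fin n) (Fin n) K)) h1
    · rw [hadM, (Cfsg.Agent.H43.mem_GU_iff hK (g.1 : GL (Fin n) K)).1 g.1.2, h1l]
    · intro g g' h
      have h1 := congrArg Subtype.val h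
      have h2 := Matrix.toLin'.injective h1
      exact Subtype.ext (Subtype.ext (Units.ext h2))
    · rintro ⟨c, hc1, hc2⟩
      obtain ⟨M, rfl⟩ : ∃ M : Matrix (Fin n) (Fin n) K, c = Matrix.toLin' M := ⟨LinearMap.toMatrix' c, (Matrix.toLin'_toMatrix' c).symm⟩
      rw [hadM, ← h1l] at hc2
      have h3 := Matrix.toLin'.injective hc2
      have h4 : M * Cfsg.Agent.H43.stm (Cfsg.Agent.ClGeo.frob hK) M = 1 := mul_eq_one_comm.1 h3
      refine ⟨⟨⟨⟨M, Cfsg.Agent.H43.stm (Cfsg.Agent.ClGeo.frob hK) M, h4, h3⟩, (Cfsg.Agent.H43.mem_GU_iff hK _).2 h3⟩, ?_⟩, rfl⟩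
      rw [Subgroup.mem_centralizer_singleton_iff]
      apply Subtype.ext
      apply Units.ext
      exact (hcm M).1 hc1
  have hGU : ∀ a : ℕ, (Nat.card (Cfsg.GU a K q) : ℤ) = (q : ℤ) ^ (a * (a - 1) / 2) * ∏ j : Fin a, ((q : ℤ) ^ ((j : ℕ) + 1) - (-1) ^ ((j : ℕ) + 1)) := by
    intro a
    rw [Cfsg.Agent.Uni.card_GU hK a]
    push_cast
    congr 1
    rw [Finset.prod_range]
    refine Finset.prod_congr rfl fun i _ => ?_
    have hq : 1 ≤ q := by
      rcases Nat.eq_zero_or_pos q with h | h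
      · rw [h] at hK
        have := Fintype.card_pos (α := K)
        rw [hK] at this
        simp at this
      · exact h
    have h1 : 1 ≤ q ^ ((i : ℕ) + 1) := Nat.one_le_pow _ _ hq
    by_cases hi : Even (i : ℕ)
    · rw [if_pos hi, hi.add_one.neg_one_pow]
      ring
    · rw [if_neg hi, (Nat.not_even_iff_odd.1 hi).add_one.neg_one_pow]
      push_cast [h1]
      ring
  rw [hcard, hmain]
  push_cast
  congr 1
  rw [Finset.prod_range]
  refine Finset.prod_congr rfl fun i _ => ?_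
  exact hGU _

end Cfsg.Agent.S2646
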