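import Cfsg.Statements.S2653
import Cfsg.Agent.AltS.RedB

set_option autoImplicit false
open scoped MatrixGroups
open Cfsg

namespace Cfsg.Agent.S2653

/-- Alternating sections of finite linear groups. Let `F` be a finite field of characteristic `p` and `n` a natural number, and suppose some subgroup `H` of GL_n(F) has a normal subgroup `K` with `H ⧸ K` isomorphic to the alternating group of degree `r ≥ 9`. Then `n ≥ r - 2` when `p` divides `r`, and `n ≥ r - 1` otherwise (the smallest degree of a nontrivial projective representation of that alternating group in characteristic `p`). The same bound follows for every classical group with natural module of dimension `n` over `F`, since each is a section of a subgroup of GL_n(F). -/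
theorem result {F : Type*} [Field F] [Fintype F] (p : ℕ) [Fact p.Prime] [CharP F p]
    (n : ℕ) (r : ℕ) (H : Subgroup (GL (Fin n) F)) (K : Subgroup ↥H) [K.Normal]
    (h : Nonempty (↥H ⧸ K ≃* ↥(alternatingGroup (Fin r)))) (hr : 9 ≤ r) :
    r - 1 - (if p ∣ r then 1 else 0) ≤ n := by
  classical
  let k := AlgebraicClosure (ZMod p)
  have hkp : CharP k p := charP_of_injective_algebraMap (algebraMap (ZMod p) k).injective p
  let _ : Algebra (ZMod p) F := ZMod.algebra F p
  have : Algebra.IsAlgebraic (ZMod p) F := inferInstance
  let φ : F →ₐ[ZMod p] k := IsAlgClosed.lift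
  let Φ : GL (Fin n) F →* GL (Fin n) k := Matrix.GeneralLinearGroup.map φ.toRingHom
  have hΦ : Function.Injective Φ := by
    intro a b hab
    ext i j
    have h1 := congrArg (fun M : GL (Fin n) k => M.1 i j) hab
    exact φ.toRingHom.injective h1
  let G : Subgroup (GL (Fin n) k) := H.map Φ
  let e1 : H ≃* G := H.equivMapOfInjective Φ hΦ
  obtain ⟨e⟩ := h
  let f : G →* alternatingGroup (Fin r) :=
    e.toMonoidHom.comp ((QuotientGroup.mk' K).comp e1.symm.toMonoidHom)
  have hf : Function.Surjective f :=
    e.surjective.comp ((QuotientGroup.mk'_surjective K).comp e1.symm.surjective)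
  let ρ : G →* Module.End k (Fin n → k) :=
    ((Matrix.toLinAlgEquiv' (R := k) (n := Fin n)).toRingEquiv.toMonoidHom).comp
      ((Units.coeHom (Matrix (Fin n) (Fin n) k)).comp G.subtype)
  have hfin : Finite G := Finite.of_equiv H e1.toEquiv
  have hρ : ∀ g, ρ g = 1 → f g = 1 := by
    intro g hg
    have h1 : ((g : GL (Fin n) k) : Matrix (Fin n) (Fin n) k) = 1 := by
      apply (Matrix.toLinAlgEquiv' (R := k) (n := Fin n)).injective
      rw [map_one]
      exact hg
    have h2 : g = 1 := Subtype.ext (Units.ext h1)
    rw [h2, map_one]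
  have key := Cfsg.Agent.AltS.ft_main n (Nat.card G) k r hr G f hf (Fin n → k) ρ (by simp) rfl hρ
  refine le_trans ?_ key
  by_cases hpr : p ∣ r
  · rw [if_pos hpr, Cfsg.Agent.AltS.dd_eq ((CharP.cast_eq_zero_iff k p r).mpr hpr)]
    omega
  · rw [if_neg hpr, Cfsg.Agent.AltS.dd_ne (fun h => hpr ((CharP.cast_eq_zero_iff k p r).mp h))]
    omega

end Cfsg.Agent.S2653
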