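import Cfsg.Statements.S2657
import Cfsg.Agent.H51.F4Loc
import Cfsg.Agent.H51.SCFrob

set_option autoImplicit false
open scoped MatrixGroups
open Cfsg

namespace Cfsg.Agent.S2657

open Cfsg.Lie Cfsg.Agent.H51.TwoPrime Cfsg.Agent.H51.F4Loc

/-- extension of permutations of the first `k` points -/
theorem ext_perm {k r : ℕ} (hr : k ≤ r) : ∃ f : Equiv.Perm (Fin k) →* Equiv.Perm (Fin r), Function.Injective f ∧
    ∀ g, Equiv.Perm.sign (f g) = Equiv.Perm.sign g := by
  classical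
  let e : Fin k ≃ {x : Fin r // (x : ℕ) < k} :=
    { toFun := fun i => ⟨Fin.castLE hr i, i.2⟩
      invFun := fun x => ⟨x.1, x.2⟩
      left_inv := fun i => rfl
      right_inv := fun x => rfl }
  exact ⟨Equiv.Perm.extendDomainHom e, Equiv.Perm.extendDomainHom_injective e, fun g => Equiv.Perm.sign_extendDomain g e⟩

theorem alt_hom {k r : ℕ} (hr : k ≤ r) : ∃ f : alternatingGroup (Fin k) →* alternatingGroup (Fin r), Function.Injective f := by
  obtain ⟨f, hf, hs⟩ := ext_perm hr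
  refine ⟨(f.comp (alternatingGroup (Fin k)).subtype).codRestrict _ (fun g => ?_), ?_⟩
  · rw [Equiv.Perm.mem_alternatingGroup]
    change Equiv.Perm.sign (f g) = 1
    rw [hs]; exact g.2
  · intro a b h
    exact Subtype.ext (hf (congrArg Subtype.val h))

/-- permutations of 11 points -/
theorem alt11 {r : ℕ} (hr : 11 ≤ r) : ∃ c σ : alternatingGroup (Fin r), c ^ 11 = 1 ∧ c ≠ 1 ∧ σ * c * σ⁻¹ = c ^ 3 := by
  obtain ⟨f, hf⟩ := alt_hom hr
  let c : Equiv.Perm (Fin 11) := finRotate 11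
  let σ : Equiv.Perm (Fin 11) := ⟨fun i => 3 * i, fun i => 4 * i, by decide, by decide⟩
  have h1 : c ^ 11 = 1 := by decide +kernel
  have h2 : c ≠ 1 := by decide
  have h3 : σ * c * σ⁻¹ = c ^ 3 := by decide
  have h4 : Equiv.Perm.sign c = 1 := by decide +kernel
  have h5 : Equiv.Perm.sign σ = 1 := by decide +kernel
  refine ⟨f ⟨c, h4⟩, f ⟨σ, h5⟩, ?_, ?_, ?_⟩
  · rw [← map_pow, show (⟨c, h4⟩ : alternatingGroup (Fin 11)) ^ 11 = 1 from Subtype.ext h1, map_one]
  · intro h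
    apply h2
    rw [← map_one f] at h
    exact congrArg Subtype.val (hf h)
  · rw [← map_inv, ← map_mul, ← map_mul, ← map_pow]
    congr 1
    exact Subtype.ext h3

/-- permutations of 12 points -/
theorem alt12 {r : ℕ} (hr : 12 ≤ r) : ∃ x z σ : alternatingGroup (Fin r), x ^ 5 = 1 ∧ x ≠ 1 ∧ z ^ 7 = 1 ∧ z ≠ 1 ∧
    x * z = z * x ∧ σ * x * σ⁻¹ = x ^ 2 ∧ σ * z * σ⁻¹ = z ^ 3 := by
  obtain ⟨f, hf⟩ := alt_hom hr
  let x : Equiv.Perm (Fin 12) := ⟨![1, 2, 3, 4, 0, 5, 6, 7, 8, 9, 10, 11], ![4, 0, 1, 2, 3, 5, 6, 7, 8, 9, 10, 11], by decide, by decide⟩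
  let z : Equiv.Perm (Fin 12) := ⟨![0, 1, 2, 3, 4, 6, 7, 8, 9, 10, 11, 5], ![0, 1, 2, 3, 4, 11, 5, 6, 7, 8, 9, 10], by decide, by decide⟩
  let σ : Equiv.Perm (Fin 12) := ⟨![0, 2, 4, 1, 3, 5, 8, 11, 7, 10, 6, 9], ![0, 3, 1, 4, 2, 5, 10, 8, 6, 11, 9, 7], by decide, by decide⟩
  have h1 : x ^ 5 = 1 := by decide +kernel
  have h2 : x ≠ 1 := by decide
  have h3 : z ^ 7 = 1 := by decide +kernel
  have h4 : z ≠ 1 := by decide
  have h5 : x * z = z * x := by decide
  have h6 : σ * x * σ⁻¹ = x ^ 2 := by decide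
  have h7 : σ * z * σ⁻¹ = z ^ 3 := by decide
  have s1 : Equiv.Perm.sign x = 1 := by decide +kernel
  have s2 : Equiv.Perm.sign z = 1 := by decide +kernel
  have s3 : Equiv.Perm.sign σ = 1 := by decide +kernel
  refine ⟨f ⟨x, s1⟩, f ⟨z, s2⟩, f ⟨σ, s3⟩, ?_, ?_, ?_, ?_, ?_, ?_, ?_⟩
  · rw [← map_pow, show (⟨x, s1⟩ : alternatingGroup (Fin 12)) ^ 5 = 1 from Subtype.ext h1, map_one]
  · intro h
    apply h2
    rw [← map_one f] at h
    exact congrArg Subtype.val (hf h)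
  · rw [← map_pow, show (⟨z, s2⟩ : alternatingGroup (Fin 12)) ^ 7 = 1 from Subtype.ext h3, map_one]
  · intro h
    apply h4
    rw [← map_one f] at h
    exact congrArg Subtype.val (hf h)
  · rw [← map_mul, ← map_mul]
    congr 1
    exact Subtype.ext h5
  · rw [← map_inv, ← map_mul, ← map_mul, ← map_pow]
    congr 1
    exact Subtype.ext h6
  · rw [← map_inv, ← map_mul, ← map_mul, ← map_pow]
    congr 1
    exact Subtype.ext h7

/-- iterated action on a cyclic group -/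
theorem conj_iter {Q : Type*} [Group Q] {c σ : Q} {e : ℕ} (h : σ * c * σ⁻¹ = c ^ e) (k : ℕ) :
    σ ^ k * c * (σ ^ k)⁻¹ = c ^ e ^ k := by
  induction k with
  | zero => simp
  | succ k ih =>
    have e1 : σ ^ (k + 1) * c * (σ ^ (k + 1))⁻¹ = σ * (σ ^ k * c * (σ ^ k)⁻¹) * σ⁻¹ := by
      rw [pow_succ' σ k]
      generalize σ ^ k = z
      group
    rw [e1, ih, ← conj_pow, h, ← pow_mul, pow_succ' e k]

theorem pow_ne {Q : Type*} [Group Q] {c : Q} {ℓ : ℕ} [Fact ℓ.Prime] (h : c ^ ℓ = 1) (h1 : c ≠ 1) {a b : ℕ}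
    (hab : c ^ a = c ^ b) : a ≡ b [MOD ℓ] := by
  have ho : orderOf c = ℓ := orderOf_eq_prime h h1
  rw [← ho]
  exact pow_eq_pow_iff_modEq.1 hab

/-- Alternating sections of the groups of type F₄. Let `F` be a finite field of characteristic `p` and let `G` be the Chevalley group of type F₄ over `F`. If some subgroup of `G` has a quotient isomorphic to the alternating group of degree `r`, then `r` is at most 10, or 11 in characteristic 11. (Only an upper bound is asserted.) -/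
theorem result {F : Type*} [Field F] [Fintype F] (p : ℕ) [Fact p.Prime] [CharP F p]
    (r : ℕ) (H : Subgroup ↥(Cfsg.Lie.chevF4.group F)) (K : Subgroup ↥H) [K.Normal]
    (h : Nonempty (↥H ⧸ K ≃* ↥(alternatingGroup (Fin r)))) :
    r ≤ 10 + (if p = 11 then 1 else 0) := by
  classical
  obtain ⟨e⟩ := h
  haveI : Finite ↥(chevF4.group F) := inferInstance
  let φ : ↥H →* ↥(alternatingGroup (Fin r)) := e.toMonoidHom.comp (QuotientGroup.mk' K)
  have hφ : Function.Surjective φ := e.surjective.comp (QuotientGroup.mk'_surjective K)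
  have hφr : φ.range = ⊤ := MonoidHom.range_eq_top.2 hφ
  -- transfer of normalising conditions
  have tr : ∀ {P : Subgroup ↥H} {g : ↥H}, (∀ x ∈ P, g * x * g⁻¹ ∈ P) →
      ∀ x ∈ P.map H.subtype, (g : ↥(chevF4.group F)) * x * (g : ↥(chevF4.group F))⁻¹ ∈ P.map H.subtype := by
    rintro P g hg _ ⟨x, hx, rfl⟩
    exact ⟨_, hg x hx, rfl⟩
  by_cases hp : p = 11
  · subst hp
    rw [if_pos rfl]
    by_contra hr
    obtain ⟨x, z, σ, hx5, hx1, hz7, hz1, hxz, hσx, hσz⟩ := alt12 (r := r) (by omega)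
    haveI : Fact (Nat.Prime 5) := ⟨by norm_num⟩
    haveI : Fact (Nat.Prime 7) := ⟨by norm_num⟩
    have hCx : IsPGroup 5 (Subgroup.zpowers x) := by
      apply IsPGroup.of_card (n := 1)
      rw [Nat.card_zpowers, pow_one]; exact orderOf_eq_prime hx5 hx1
    have hCz : IsPGroup 7 (Subgroup.zpowers z) := by
      apply IsPGroup.of_card (n := 1)
      rw [Nat.card_zpowers, pow_one]; exact orderOf_eq_prime hz7 hz1
    obtain ⟨P, hP, hPm, hPn⟩ := lift_norm φ hCx (by rw [hφr]; exact le_top)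
    set N1 : Subgroup ↥H := Subgroup.normalizer (P : Set ↥H) with hN1
    have hN1' : ∀ g ∈ N1, ∀ y ∈ P, g * y * g⁻¹ ∈ P := fun g hg y hy => (Subgroup.mem_normalizer_iff.1 hg y).1 hy
    let φ1 : N1 →* ↥(alternatingGroup (Fin r)) := φ.comp N1.subtype
    have hz_r : z ∈ φ1.range := by
      obtain ⟨g, hg, hgP⟩ := hPn z (by rw [hφr]; trivial) (by
        rintro _ ⟨k, rfl⟩
        refine ⟨k, ?_⟩
        simp only
        rw [← conj_zpow, ← hxz, mul_inv_cancel_right])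
      exact ⟨⟨g, Cfsg.Agent.H51.SCFrob.mem_normalizer_of_le hgP⟩, hg⟩
    have hσ_r : σ ∈ φ1.range := by
      obtain ⟨g, hg, hgP⟩ := hPn σ (by rw [hφr]; trivial) (by
        rintro _ ⟨k, rfl⟩
        simp only
        rw [← conj_zpow, hσx]
        exact Subgroup.zpow_mem _ (Subgroup.pow_mem _ (Subgroup.mem_zpowers x) 2) k)
      exact ⟨⟨g, Cfsg.Agent.H51.SCFrob.mem_normalizer_of_le hgP⟩, hg⟩
    obtain ⟨P', hP', hPm', hPn'⟩ := lift_norm φ1 hCz (by
      rintro _ ⟨k, rfl⟩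
      exact Subgroup.zpow_mem _ hz_r k)
    obtain ⟨g, hg, hgP'⟩ := hPn' σ hσ_r (by
      rintro _ ⟨k, rfl⟩
      simp only
      rw [← conj_zpow, hσz]
      exact Subgroup.zpow_mem _ (Subgroup.pow_mem _ (Subgroup.mem_zpowers z) 3) k)
    -- `P'` centralises `P`
    have hcent : ∀ y ∈ P, ∀ w ∈ P', y * (w : ↥H) = w * y := by
      intro y hy w hw
      have h24 := pow24 11 (ℓ := 5) (le_refl 5) (by norm_num) (P := P.map H.subtype) (hP.map _)
        ((w : ↥H) : ↥(chevF4.group F)) (tr (hN1' _ w.2))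
      obtain ⟨k, hk⟩ := hP' ⟨w, hw⟩
      have hk' : (w : ↥H) ^ 7 ^ k = 1 := by
        have := congrArg Subtype.val hk
        exact congrArg Subtype.val this
      have hcop : Nat.Coprime 24 (orderOf (w : ↥H)) := by
        have h1 : orderOf (w : ↥H) ∣ 7 ^ k := orderOf_dvd_of_pow_eq_one hk'
        exact Nat.Coprime.coprime_dvd_right h1 (Nat.Coprime.pow_right k (by norm_num))
      obtain ⟨m, hm⟩ := exists_pow_eq_self_of_coprime hcop
      have h2 := h24 _ ⟨y, hy, rfl⟩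
      have h3 : Commute ((w : ↥H) ^ 24) y := by
        apply Subtype.ext
        have h4 := mul_inv_eq_iff_eq_mul.1 h2
        simpa using h4
      have h5 := h3.pow_left m
      rw [hm] at h5
      exact h5.symm.eq
    have htri := tri 11 (ℓ := 5) (ℓ' := 7) (le_refl 5) (by norm_num) (by norm_num) (by norm_num)
      (P := P.map H.subtype) (P' := (P'.map N1.subtype).map H.subtype) (hP.map _) ((hP'.map _).map _) (by
        rintro _ ⟨y, hy, rfl⟩ _ ⟨_, ⟨w, hw, rfl⟩, rfl⟩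
        exact congrArg Subtype.val (hcent y hy w hw)) ((g : ↥H) : ↥(chevF4.group F)) (tr (hN1' _ g.2))
      (tr (P := P'.map N1.subtype) (by
        rintro _ ⟨w, hw, rfl⟩
        exact ⟨_, hgP' w hw, rfl⟩))
    have hg' : φ (g : ↥H) = σ := hg
    obtain ⟨x', hx', hx'x⟩ : x ∈ P.map φ := by rw [hPm]; exact Subgroup.mem_zpowers x
    obtain ⟨z', hz', hz'z⟩ : z ∈ P'.map φ1 := by rw [hPm']; exact Subgroup.mem_zpowers z
    have hz'z' : φ (z' : ↥H) = z := hz'z
    -- push down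
    have push : ∀ (k : ℕ) (y y' : ↥H), ((g : ↥H) : ↥(chevF4.group F)) ^ k * (y : ↥(chevF4.group F)) *
        (((g : ↥H) : ↥(chevF4.group F)) ^ k)⁻¹ = (y' : ↥(chevF4.group F)) → σ ^ k * φ y * (σ ^ k)⁻¹ = φ y' := by
      intro k y y' h
      have h1 : (g : ↥H) ^ k * y * ((g : ↥H) ^ k)⁻¹ = y' := Subtype.ext h
      rw [← h1, map_mul, map_mul, map_inv, map_pow, hg']
    rcases htri with h | h | h
    · have h1 := push 8 z' z' (h.2 _ ⟨_, ⟨z', hz', rfl⟩, rfl⟩)
      rw [hz'z', conj_iter hσz] at h1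
      have h2 := pow_ne hz7 hz1 (a := 3 ^ 8) (b := 1) (by rw [h1, pow_one])
      revert h2; decide
    · have h1 := push 6 x' x' (h.1 _ ⟨x', hx', rfl⟩)
      rw [hx'x, conj_iter hσx] at h1
      have h2 := pow_ne hx5 hx1 (a := 2 ^ 6) (b := 1) (by rw [h1, pow_one])
      revert h2; decide
    · have h1 := push 6 z' (z' : ↥H)⁻¹ (h.2 _ ⟨_, ⟨z', hz', rfl⟩, rfl⟩)
      rw [map_inv, hz'z', conj_iter hσz] at h1
      have h2 := pow_ne hz7 hz1 (a := 3 ^ 6) (b := 6) (by
        rw [h1, inv_eq_of_mul_eq_one_right (b := z ^ 6) (by rw [← pow_succ', hz7])])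
      revert h2; decide
  · rw [if_neg hp]
    by_contra hr
    obtain ⟨x, σ, hx11, hx1, hσx⟩ := alt11 (r := r) (by omega)
    haveI : Fact (Nat.Prime 11) := ⟨by norm_num⟩
    have hCx : IsPGroup 11 (Subgroup.zpowers x) := by
      apply IsPGroup.of_card (n := 1)
      rw [Nat.card_zpowers, pow_one]; exact orderOf_eq_prime hx11 hx1
    obtain ⟨P, hP, hPm, hPn⟩ := lift_norm φ hCx (by rw [hφr]; exact le_top)
    obtain ⟨g, hg, hgP⟩ := hPn σ (by rw [hφr]; trivial) (by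
      rintro _ ⟨k, rfl⟩
      simp only
      rw [← conj_zpow, hσx]
      exact Subgroup.zpow_mem _ (Subgroup.pow_mem _ (Subgroup.mem_zpowers x) 3) k)
    have h24 := pow24 p (ℓ := 11) (by norm_num) (Ne.symm hp) (P := P.map H.subtype) (hP.map _)
      (g : ↥(chevF4.group F)) (tr hgP)
    obtain ⟨x', hx', hx'x⟩ : x ∈ P.map φ := by rw [hPm]; exact Subgroup.mem_zpowers x
    have h1 : g ^ 24 * x' * (g ^ 24)⁻¹ = x' := Subtype.ext (h24 _ ⟨x', hx', rfl⟩)
    have h2 := congrArg φ h1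
    rw [map_mul, map_mul, map_inv, map_pow, hg, hx'x, conj_iter hσx] at h2
    have h3 := pow_ne hx11 hx1 (a := 3 ^ 24) (b := 1) (by rw [h2, pow_one])
    revert h3; decide

end Cfsg.Agent.S2657
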