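import Cfsg.Statements.S2658
import Cfsg.Agent.H51.G2Sec
import Cfsg.Agent.S2657

set_option autoImplicit false
open scoped MatrixGroups
open Cfsg

namespace Cfsg.Agent.S2658

open Matrix Cfsg.Lie Cfsg.Agent.Chev Cfsg.Agent.ChevGrp Cfsg.Agent.ChevF Cfsg.Agent.H51.TwoPrime Cfsg.Agent.H51.ChevFus
  Cfsg.Agent.H51.G2W Cfsg.Agent.H51.G2Loc Cfsg.Agent.H51.G2Sec

/-- permutations of 7 points -/
theorem alt7 {r : ℕ} (hr : 7 ≤ r) : ∃ c σ : alternatingGroup (Fin r), c ^ 5 = 1 ∧ c ≠ 1 ∧ σ * c * σ⁻¹ = c ^ 2 := by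
  obtain ⟨f, hf⟩ := Cfsg.Agent.S2657.alt_hom hr
  let c : Equiv.Perm (Fin 7) := ⟨![1, 2, 3, 4, 0, 5, 6], ![4, 0, 1, 2, 3, 5, 6], by decide, by decide⟩
  let σ : Equiv.Perm (Fin 7) := ⟨![0, 2, 4, 1, 3, 6, 5], ![0, 3, 1, 4, 2, 6, 5], by decide, by decide⟩
  have h1 : c ^ 5 = 1 := by decide +kernel
  have h2 : c ≠ 1 := by decide
  have h3 : σ * c * σ⁻¹ = c ^ 2 := by decide
  have h4 : Equiv.Perm.sign c = 1 := by decide +kernel
  have h5 : Equiv.Perm.sign σ = 1 := by decide +kernel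
  refine ⟨f ⟨c, h4⟩, f ⟨σ, h5⟩, ?_, ?_, ?_⟩
  · rw [← map_pow, show (⟨c, h4⟩ : alternatingGroup (Fin 7)) ^ 5 = 1 from Subtype.ext h1, map_one]
  · intro h
    apply h2
    rw [← map_one f] at h
    exact congrArg Subtype.val (hf h)
  · rw [← map_inv, ← map_mul, ← map_mul, ← map_pow]
    congr 1
    exact Subtype.ext h3

/-- the relations for eight points -/
theorem rel8 {r : ℕ} (hr : 8 ≤ r) : Nonempty (Cfsg.Agent.H51.A8Sec.Rel (alternatingGroup (Fin r))) := by
  obtain ⟨f, hf⟩ := Cfsg.Agent.S2657.alt_hom hr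
  let x1 : Equiv.Perm (Fin 8) := ⟨![1, 2, 0, 3, 4, 5, 6, 7], ![2, 0, 1, 3, 4, 5, 6, 7], by decide, by decide⟩
  let x2 : Equiv.Perm (Fin 8) := ⟨![0, 1, 2, 4, 5, 3, 6, 7], ![0, 1, 2, 5, 3, 4, 6, 7], by decide, by decide⟩
  let ρ : Equiv.Perm (Fin 8) := ⟨![3, 4, 5, 0, 2, 1, 6, 7], ![3, 5, 4, 0, 1, 2, 6, 7], by decide, by decide⟩
  let τ : Equiv.Perm (Fin 8) := ⟨![0, 2, 1, 3, 4, 5, 7, 6], ![0, 2, 1, 3, 4, 5, 7, 6], by decide, by decide⟩
  let σ : Equiv.Perm (Fin 8) := ⟨![1, 2, 3, 4, 0, 5, 6, 7], ![4, 0, 1, 2, 3, 5, 6, 7], by decide, by decide⟩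
  have a1 : x1 ^ 3 = 1 := by decide
  have a2 : x2 ^ 3 = 1 := by decide
  have a3 : x1 * x2 = x2 * x1 := by decide
  have a4 : x1 ≠ 1 := by decide
  have a5 : x1 ≠ x2 := by decide
  have a6 : x1 ≠ x2⁻¹ := by decide
  have a7 : ρ * x1 * ρ⁻¹ = x2 := by decide
  have a8 : ρ * x2 * ρ⁻¹ = x1⁻¹ := by decide
  have a9 : τ * x1 * τ⁻¹ = x1⁻¹ := by decide
  have a10 : τ * x2 * τ⁻¹ = x2 := by decide
  have a11 : σ ^ 6 ≠ 1 := by
    have h5 : σ ^ 5 = 1 := by decide +kernel
    have : σ ^ 6 = σ := by rw [pow_succ, h5, one_mul]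
    rw [this]; decide
  have s1 : Equiv.Perm.sign x1 = 1 := by decide +kernel
  have s2 : Equiv.Perm.sign x2 = 1 := by decide +kernel
  have s3 : Equiv.Perm.sign ρ = 1 := by decide +kernel
  have s4 : Equiv.Perm.sign τ = 1 := by decide +kernel
  have s5 : Equiv.Perm.sign σ = 1 := by decide +kernel
  refine ⟨{ x1 := f ⟨x1, s1⟩, x2 := f ⟨x2, s2⟩, ρ := f ⟨ρ, s3⟩, τ := f ⟨τ, s4⟩, σ0 := f ⟨σ, s5⟩,
            hx1 := ?_, hx2 := ?_, hc := ?_, n1 := ?_, n2 := ?_, n3 := ?_, hρ1 := ?_, hρ2 := ?_, hτ1 := ?_, hτ2 := ?_,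
            hσ := ?_ }⟩
  · rw [← map_pow, show (⟨x1, s1⟩ : alternatingGroup (Fin 8)) ^ 3 = 1 from Subtype.ext a1, map_one]
  · rw [← map_pow, show (⟨x2, s2⟩ : alternatingGroup (Fin 8)) ^ 3 = 1 from Subtype.ext a2, map_one]
  · rw [← map_mul, ← map_mul]; congr 1; exact Subtype.ext a3
  · intro h
    rw [← map_one f] at h
    exact a4 (congrArg Subtype.val (hf h))
  · intro h
    exact a5 (congrArg Subtype.val (hf h))
  · intro h
    rw [← map_inv] at h
    exact a6 (congrArg Subtype.val (hf h))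
  · rw [← map_inv, ← map_mul, ← map_mul]; congr 1; exact Subtype.ext a7
  · rw [← map_inv, ← map_inv, ← map_mul, ← map_mul]; congr 1; exact Subtype.ext a8
  · rw [← map_inv, ← map_inv, ← map_mul, ← map_mul]; congr 1; exact Subtype.ext a9
  · rw [← map_inv, ← map_mul, ← map_mul]; congr 1; exact Subtype.ext a10
  · intro h
    rw [← map_pow, ← map_one f] at h
    exact a11 (congrArg Subtype.val (hf h))

/-- Alternating sections of the groups of type G₂. Let `F` be a finite field of characteristic `p` and let `G` be the Chevalley group of type G₂ over `F`. If some subgroup of `G` has a quotient isomorphic to the alternating group of degree `r`, then `r` is at most 6, or 7 in characteristic 5. (Only an upper bound is asserted.) -/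
theorem result {F : Type*} [Field F] [Fintype F] (p : ℕ) [Fact p.Prime] [CharP F p]
    (r : ℕ) (H : Subgroup ↥(Cfsg.Lie.chevG2.group F)) (K : Subgroup ↥H) [K.Normal]
    (h : Nonempty (↥H ⧸ K ≃* ↥(alternatingGroup (Fin r)))) :
    r ≤ 6 + (if p = 5 then 1 else 0) := by
  classical
  obtain ⟨e⟩ := h
  haveI : Finite ↥(chevG2.group F) := inferInstance
  let φ : ↥H →* ↥(alternatingGroup (Fin r)) := e.toMonoidHom.comp (QuotientGroup.mk' K)
  have hφ : Function.Surjective φ := e.surjective.comp (QuotientGroup.mk'_surjective K)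
  have hφr : φ.range = ⊤ := MonoidHom.range_eq_top.2 hφ
  obtain ⟨m, hpr, hm⟩ := FiniteField.card F p
  by_cases hp : p = 5
  · subst hp
    rw [if_pos rfl]
    by_contra hr
    have hr8 : 8 ≤ r := by omega
    obtain ⟨rel⟩ := rel8 hr8
    haveI : IsSimpleGroup (alternatingGroup (Fin r)) := alternatingGroup.isSimpleGroup (by simp; omega)
    obtain ⟨L, i1, i2, ι, σ, hL, -, -, -⟩ := exists_ext (F := F) rfl (N := 2) (by norm_num)
    have h5 : (5 : L) = 0 := by
      have h1 : ((5 : ℕ) : F) = 0 := CharP.cast_eq_zero F 5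
      have h2 := congrArg ι h1
      rw [map_natCast, map_zero] at h2
      exact_mod_cast h2
    have h3 : 3 ∣ Fintype.card L - 1 := by
      rw [hL, hm]
      have h1 : 5 ^ (m : ℕ) % 3 = 1 ∨ 5 ^ (m : ℕ) % 3 = 2 := by
        generalize (m : ℕ) = k
        induction k with
        | zero => left; rfl
        | succ k ih => rw [pow_succ]; omega
      have h2 : (5 ^ (m : ℕ)) ^ 2 % 3 = 1 := by
        rw [pow_two, Nat.mul_mod]
        rcases h1 with h | h <;> rw [h]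
      have h4 : 1 ≤ (5 ^ (m : ℕ)) ^ 2 := Nat.one_le_pow _ _ (by positivity)
      omega
    exact no_rel rel φ hφ (((glMap chevG2.Idx ι).comp (chevG2.group F).subtype).comp H.subtype)
      (((glMap_injective ι).comp (chevG2.group F).subtype_injective).comp H.subtype_injective)
      (fun h => glMap_mem ι (h : ↥(chevG2.group F)).2) h5 h3
  · rw [if_neg hp]
    by_contra hr
    obtain ⟨x, σ, hx5, hx1, hσx⟩ := alt7 (r := r) (by omega)
    haveI : Fact (Nat.Prime 5) := ⟨by norm_num⟩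
    have hCx : IsPGroup 5 (Subgroup.zpowers x) := by
      apply IsPGroup.of_card (n := 1)
      rw [Nat.card_zpowers, pow_one]; exact orderOf_eq_prime hx5 hx1
    obtain ⟨P, hP, hPm, hPn⟩ := lift_norm φ hCx (by rw [hφr]; exact le_top)
    obtain ⟨g, hg, hgP⟩ := hPn σ (by rw [hφr]; trivial) (by
      rintro _ ⟨k, rfl⟩
      simp only
      rw [← conj_zpow, hσx]
      exact Subgroup.zpow_mem _ (Subgroup.pow_mem _ (Subgroup.mem_zpowers x) 2) k)
    obtain ⟨L, i1, i2, ι, σ', hL, -, -, -⟩ := exists_ext (F := F) rfl (N := 4) (by norm_num)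
    have hd : 5 ∣ Fintype.card L - 1 := by
      rw [hL]
      have hcop : Nat.Coprime (Fintype.card F) 5 := by
        rw [hm]
        exact Nat.Coprime.pow_left _ ((Nat.coprime_primes hpr (by norm_num)).2 hp)
      have h1 : Fintype.card F ^ 4 ≡ 1 [MOD 5] := by
        have := Nat.ModEq.pow_totient hcop
        rwa [Nat.totient_prime (by norm_num)] at this
      exact (Nat.modEq_iff_dvd' (Nat.one_le_pow _ _ Fintype.card_pos)).1 h1.symm
    have hW : ¬ 5 ∣ Nat.card DData.dG2.rp.wsys.W := by rw [card_W_G2]; norm_num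
    have hP' : IsPGroup 5 (P.map H.subtype) := hP.map _
    have hs : ∀ y ∈ P.map H.subtype, (g : ↥(chevG2.group F)) * y * (g : ↥(chevG2.group F))⁻¹ ∈ P.map H.subtype := by
      rintro _ ⟨y, hy, rfl⟩
      exact ⟨_, hgP y hy, rfl⟩
    obtain ⟨g0, n, hn, u, huW, hu, h1, -⟩ := two_local DData.dG2 hG2 ι hd hd hW hW hP'
      (IsPGroup.of_bot : IsPGroup 5 (⊥ : Subgroup ↥(chevG2.group F)))
      (fun a _ b hb => by rw [Subgroup.mem_bot.1 hb]; simp) (g : ↥(chevG2.group F)) hs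
      (fun a ha => by rw [Subgroup.mem_bot.1 ha]; simp)
    have h6 := comm_of_pow (hD := hG2) DData.dG2 hn hu hs h1 (six DData.dG2 huW)
    obtain ⟨x', hx', hx'x⟩ : x ∈ P.map φ := by rw [hPm]; exact Subgroup.mem_zpowers x
    have h7 : g ^ 6 * x' * (g ^ 6)⁻¹ = x' := Subtype.ext (h6 _ ⟨x', hx', rfl⟩)
    have h2 := congrArg φ h7
    rw [map_mul, map_mul, map_inv, map_pow, hg, hx'x, Cfsg.Agent.S2657.conj_iter hσx] at h2
    have h3 := Cfsg.Agent.S2657.pow_ne hx5 hx1 (a := 2 ^ 6) (b := 1) (by rw [h2, pow_one])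
    revert h3; decide

end Cfsg.Agent.S2658
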