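import Cfsg.Statements.S2660
import Cfsg.Agent.H51.TD4Sec
import Cfsg.Agent.S2658

set_option autoImplicit false
open scoped MatrixGroups
open Cfsg

namespace Cfsg.Agent.S2660

open Matrix Cfsg.Lie Cfsg.Agent.Chev Cfsg.Agent.ChevGrp Cfsg.Agent.ChevF Cfsg.Agent.H51.TwoPrime Cfsg.Agent.H51.TD4 Cfsg.Agent.Tw3

/-- Alternating sections of the triality-twisted groups ³D₄. Let `q = p^a` be a prime power and `K` a field with `q³` elements, and let `G` be the twisted group ³D₄(q) realised over `K`. If some subgroup of `G` has a quotient isomorphic to the alternating group of degree `r`, then `r` is at most 6, or 7 in characteristic 5. (Only an upper bound is asserted.) -/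
theorem result {K : Type*} [Field K] [Fintype K] (p a : ℕ) [Fact p.Prime] [CharP K p]
    (ha : 1 ≤ a) (hK : Fintype.card K = (p ^ a) ^ 3) (r : ℕ) (H : Subgroup ↥(Cfsg.Lie.twistedD4 K (p ^ a))) (N : Subgroup ↥H) [N.Normal]
    (h : Nonempty (↥H ⧸ N ≃* ↥(alternatingGroup (Fin r)))) :
    r ≤ 6 + (if p = 5 then 1 else 0) := by
  classical
  obtain ⟨e⟩ := h
  haveI : Finite (GL chevD4.Idx K) := inferInstance
  haveI : Finite ↥(twistedD4 K (p ^ a)) := inferInstance
  let f : ↥H →* ↥(alternatingGroup (Fin r)) := e.toMonoidHom.comp (QuotientGroup.mk' N)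
  have hf : Function.Surjective f := e.surjective.comp (QuotientGroup.mk'_surjective N)
  have hfr : f.range = ⊤ := MonoidHom.range_eq_top.2 hf
  have hpr : p.Prime := Fact.out
  obtain ⟨L, i1, i2, ι, σ', hL, -, -, -⟩ := exists_ext (F := K) rfl (N := 4) (by norm_num)
  have hLQ : Fintype.card L = (p ^ (a * 4)) ^ 3 := by
    rw [hL, hK]
    ring
  have hιq : ∀ t : K, ι t ^ p ^ (a * 4) = ι (t ^ p ^ a) := by
    intro t
    rw [← map_pow]
    congr 1
    have h1 : t ^ (p ^ a) ^ 3 = t := by rw [← hK]; exact FiniteField.pow_card t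
    have h2 : p ^ (a * 4) = (p ^ a) ^ 3 * p ^ a := by ring
    rw [h2, pow_mul, h1]
  have ha4 : a * 4 ≠ 0 := by omega
  by_cases hp : p = 5
  · subst hp
    rw [if_pos rfl]
    by_contra hr
    have hr8 : 8 ≤ r := by omega
    obtain ⟨rel⟩ := Cfsg.Agent.S2658.rel8 hr8
    haveI : IsSimpleGroup (alternatingGroup (Fin r)) := alternatingGroup.isSimpleGroup (by simp; omega)
    have h3 : 3 ∣ 5 ^ (a * 4) - 1 := by
      rw [mul_comm a 4, pow_mul]
      have h1 : (5 ^ 4 : ℕ) ≡ 1 [MOD 3] := by decide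
      have h2 := h1.pow a
      rw [one_pow] at h2
      exact (Nat.modEq_iff_dvd' (Nat.one_le_pow _ _ (by norm_num))).1 h2.symm
    exact no_rel rel f hf (((glMap chevD4.Idx ι).comp (twistedD4 K (5 ^ a)).subtype).comp H.subtype)
      (((glMap_injective ι).comp (twistedD4 K (5 ^ a)).subtype_injective).comp H.subtype_injective)
      (fun h => emb ι hιq (h : ↥(twistedD4 K (5 ^ a))).2) (q := 5 ^ (a * 4)) rfl ha4 hLQ h3
  · rw [if_neg hp]
    by_contra hr
    obtain ⟨x, σ, hx5, hx1, hσx⟩ := Cfsg.Agent.S2658.alt7 (r := r) (by omega)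
    haveI : Fact (Nat.Prime 5) := ⟨by norm_num⟩
    have hCx : IsPGroup 5 (Subgroup.zpowers x) := by
      apply IsPGroup.of_card (n := 1)
      rw [Nat.card_zpowers, pow_one]; exact orderOf_eq_prime hx5 hx1
    obtain ⟨P, hP, hPm, hPn⟩ := lift_norm f hCx (by rw [hfr]; exact le_top)
    obtain ⟨g, hg, hgP⟩ := hPn σ (by rw [hfr]; trivial) (by
      rintro _ ⟨k, rfl⟩
      simp only
      rw [← conj_zpow, hσx]
      exact Subgroup.zpow_mem _ (Subgroup.pow_mem _ (Subgroup.mem_zpowers x) 2) k)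
    have hd : 5 ∣ p ^ (a * 4) - 1 := by
      have hcop : Nat.Coprime (p ^ a) 5 :=
        Nat.Coprime.pow_left _ ((Nat.coprime_primes hpr (by norm_num)).2 hp)
      have h1 : (p ^ a) ^ 4 ≡ 1 [MOD 5] := by
        have := Nat.ModEq.pow_totient hcop
        rwa [Nat.totient_prime (by norm_num)] at this
      rw [← pow_mul] at h1
      exact (Nat.modEq_iff_dvd' (Nat.one_le_pow _ _ hpr.pos)).1 h1.symm
    have hq : IsPrimePow (p ^ (a * 4)) := hpr.isPrimePow.pow ha4
    obtain ⟨φ, hφ, h3⟩ := frob3 hq hLQ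
    let j0 : ↥(twistedD4 K (p ^ a)) →* ↥(twistedD4 L (p ^ (a * 4))) :=
      ((glMap chevD4.Idx ι).comp (twistedD4 K (p ^ a)).subtype).codRestrict _ (fun g => emb ι hιq g.2)
    have hj0 : Function.Injective j0 := by
      intro x y hxy
      exact Subtype.ext (glMap_injective ι (congrArg Subtype.val hxy))
    let j : ↥H →* ↥(twistedD4 L (p ^ (a * 4))) := j0.comp H.subtype
    have hj : Function.Injective j := hj0.comp H.subtype_injective
    have h6 := five_comm φ hφ h3 (q := p ^ (a * 4)) rfl ha4 hLQ hd (P.map j) (hP.map j) (j g) (by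
      rintro _ ⟨v, hv, rfl⟩
      exact ⟨_, hgP v hv, by rw [map_mul, map_mul, map_inv]⟩)
    obtain ⟨x', hx', hx'x⟩ : x ∈ P.map f := by rw [hPm]; exact Subgroup.mem_zpowers x
    have h7 : g ^ 6 * x' = x' * g ^ 6 := by
      apply hj
      rw [map_mul, map_mul, map_pow]
      exact h6 _ ⟨x', hx', rfl⟩
    have h2 := congrArg f h7
    rw [map_mul, map_mul, map_pow, hg, hx'x, ← mul_inv_eq_iff_eq_mul, Cfsg.Agent.S2657.conj_iter hσx] at h2
    have h3 := Cfsg.Agent.S2657.pow_ne hx5 hx1 (a := 2 ^ 6) (b := 1) (by rw [h2, pow_one])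
    revert h3; decide

end Cfsg.Agent.S2660
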