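import Cfsg.Statements.S2661
import Cfsg.Agent.Tw4.Rows
import Cfsg.Agent.ChevU.Par
import Cfsg.Agent.H51.TorFus

set_option autoImplicit false
open scoped MatrixGroups
open Cfsg

namespace Cfsg.Agent.S2661

open Cfsg.Agent.ChevGrp Cfsg.Lie Cfsg.Agent.Tw3 Cfsg.Agent.Tw4 Cfsg.Agent.H51.TorFus

/-- 7-local condition in the large Ree groups -/
theorem ree_local {K : Type*} [Field K] [Fintype K] {m : ℕ} (hK : Fintype.card K = 2 ^ (2 * m + 1))
    (P : Subgroup ↥(twistedF4 K (2 ^ m))) (hP : IsPGroup 7 P) (g : ↥(twistedF4 K (2 ^ m)))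
    (hgP : ∀ x ∈ P, g * x * g⁻¹ ∈ P) : ∀ x ∈ P, g ^ 16 * x = x * g ^ 16 := by
  haveI : Fact (Nat.Prime 2) := ⟨Nat.prime_two⟩
  haveI : Fact (Nat.Prime 7) := ⟨by norm_num⟩
  have hcH := card_H_F4 hK
  have hcU := card_U_F4 hK
  have hcG := card_F4 hK
  obtain ⟨φ, -, hφ⟩ := nquot_F4 hK
  obtain ⟨Z, hZ⟩ := exists_Sg hK
  have eU := out_U (T := twF Z) hle_F4 (G1_F4 Z hZ)
  have eH := out_H (T := twF Z) hle_F4 (G1_F4 Z hZ)
  have eN := out_N (T := twF Z) hle_F4 (G1_F4 Z hZ)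
  have eG := out_Grp (T := twF Z) hle_F4 (G1_F4 Z hZ)
  rw [← eU] at hcU
  rw [← eH] at hcH
  have hodd : Nat.Coprime 2 (Nat.card (out (twF Z)).H) := by
    rw [hcH]
    apply Nat.Coprime.pow_right
    rw [Nat.coprime_two_left, Nat.odd_iff]
    have : 1 ≤ 2 ^ (2 * m) := Nat.one_le_two_pow
    rw [pow_succ]; omega
  refine pow_comm_sylow (out (twF Z)) (p := 2) (IsPGroup.of_card (n := (2 * m + 1) * 12) (by rw [hcU, pow_mul])) hodd
    ?_ (d := 16) ?_ eG ?_ P hP g hgP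
  · intro a ha b hb
    rw [eH] at ha hb
    have hD : chevF4 ∈ Cfsg.Agent.Chev.data := by simp [Cfsg.Agent.Chev.data]
    obtain ⟨χ, rfl⟩ := Cfsg.Agent.ChevU.diag_le_range (Cfsg.Agent.ChevU.rootFacts hD) (Cfsg.Agent.Chev.good_of_mem hD) ha.1
    obtain ⟨ψ, rfl⟩ := Cfsg.Agent.ChevU.diag_le_range (Cfsg.Agent.ChevU.rootFacts hD) (Cfsg.Agent.Chev.good_of_mem hD) hb.1
    rw [← map_mul, ← map_mul, mul_comm]
  · intro x hx
    rw [eN] at hx
    rw [eH]
    have h1 : φ ⟨x, hx⟩ ^ 16 = 1 := by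
      have : Nat.card (DihedralGroup 8) = 16 := by rw [DihedralGroup.nat_card]
      rw [← this]; exact pow_card_eq_one'
    rw [← map_pow] at h1
    have h2 : (⟨x, hx⟩ : ↥(chevF4.monomialSubgroup K ⊓ twistedF4 K (2 ^ m))) ^ 16 ∈ φ.ker := h1
    rw [hφ, Subgroup.mem_subgroupOf] at h2
    exact h2
  · have hidx := Subgroup.card_mul_index ((out (twF Z)).H.subgroupOf (twistedF4 K (2 ^ m)))
    have hle : (out (twF Z)).H ≤ twistedF4 K (2 ^ m) := by rw [← eG]; exact le_trans (RGrp.H_le_B _) (RGrp.B_le_Grp)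
    rw [Nat.card_congr (Subgroup.subgroupOfEquivOfLe hle).toEquiv, hcH, hcG] at hidx
    generalize ((out (twF Z)).H.subgroupOf (twistedF4 K (2 ^ m))).index = I at hidx
    have hmod : 2 ^ (2 * m + 1) % 7 = 1 ∨ 2 ^ (2 * m + 1) % 7 = 2 ∨ 2 ^ (2 * m + 1) % 7 = 4 := by
      generalize 2 * m + 1 = j
      induction j with
      | zero => left; rfl
      | succ j ih => rw [pow_succ]; omega
    obtain ⟨k, hk⟩ : ∃ k, 2 ^ (2 * m + 1) = k + 1 := ⟨2 ^ (2 * m + 1) - 1, by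
      have : 1 ≤ 2 ^ (2 * m + 1) := Nat.one_le_two_pow
      omega⟩
    have hk0 : 0 < k := by
      have : 2 ^ 1 ≤ 2 ^ (2 * m + 1) := Nat.pow_le_pow_right (by norm_num) (by omega)
      omega
    rw [hk] at hidx hmod
    have e1 : (k + 1) ^ 4 - 1 = k * ((k + 2) * ((k + 1) ^ 2 + 1)) := by
      apply Nat.sub_eq_of_eq_add
      ring
    have e2 : I = (k + 1) ^ 12 * ((k + 1) ^ 3 + 1) * ((k + 2) * ((k + 1) ^ 2 + 1)) * ((k + 1) ^ 6 + 1) := by
      apply Nat.eq_of_mul_eq_mul_left (Nat.pow_pos (n := 2) hk0)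
      have e3 : k + 1 - 1 = k := rfl
      rw [e3, e1] at hidx
      rw [hidx]; ring
    rw [e2]
    intro h7
    have hp : Nat.Prime 7 := by norm_num
    have hz : ∀ a : ℕ, a % 7 = (k + 1) % 7 → a = k + 1 ∨ True := fun _ _ => Or.inr trivial
    have hk7 : k % 7 = 0 ∨ k % 7 = 1 ∨ k % 7 = 3 := by omega
    have : ((k + 1) ^ 12 * ((k + 1) ^ 3 + 1) * ((k + 2) * ((k + 1) ^ 2 + 1)) * ((k + 1) ^ 6 + 1)) % 7 = 0 :=
      Nat.mod_eq_zero_of_dvd h7
    rcases hk7 with h | h | h <;>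
      simp [Nat.mul_mod, Nat.pow_mod, Nat.add_mod, h] at this

/-- the permutations -/
theorem alt_elems {r : ℕ} (hr : 7 ≤ r) : ∃ c σ : alternatingGroup (Fin r), c ^ 7 = 1 ∧ c ≠ 1 ∧ σ * c * σ⁻¹ = c ^ 2 := by
  classical
  let e : Fin 7 ≃ {x : Fin r // (x : ℕ) < 7} :=
    { toFun := fun i => ⟨Fin.castLE hr i, i.2⟩
      invFun := fun x => ⟨x.1, x.2⟩
      left_inv := fun i => rfl
      right_inv := fun x => rfl }
  let f : Equiv.Perm (Fin 7) →* Equiv.Perm (Fin r) := Equiv.Perm.extendDomainHom e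
  have hf : Function.Injective f := Equiv.Perm.extendDomainHom_injective e
  have hs : ∀ g : Equiv.Perm (Fin 7), Equiv.Perm.sign (f g) = Equiv.Perm.sign g := fun g => Equiv.Perm.sign_extendDomain g e
  let c : Equiv.Perm (Fin 7) := finRotate 7
  let σ : Equiv.Perm (Fin 7) := ⟨fun i => 2 * i, fun i => 4 * i, by decide, by decide⟩
  have h1 : c ^ 7 = 1 := by decide
  have h2 : c ≠ 1 := by decide
  have h3 : σ * c * σ⁻¹ = c ^ 2 := by decide
  have h4 : Equiv.Perm.sign c = 1 := by decide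
  have h5 : Equiv.Perm.sign σ = 1 := by decide
  refine ⟨⟨f c, by rw [Equiv.Perm.mem_alternatingGroup, hs, h4]⟩, ⟨f σ, by rw [Equiv.Perm.mem_alternatingGroup, hs, h5]⟩, ?_, ?_, ?_⟩
  · apply Subtype.ext
    change f c ^ 7 = 1
    rw [← map_pow, h1, map_one]
  · intro h
    apply h2
    apply hf
    rw [map_one]
    exact congrArg Subtype.val h
  · apply Subtype.ext
    change f σ * f c * (f σ)⁻¹ = f c ^ 2
    rw [← map_inv, ← map_mul, ← map_mul, h3, map_pow]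

/-- final contradiction in the quotient -/
theorem no_pow {Q : Type*} [Group Q] {c σ : Q} (h7 : c ^ 7 = 1) (h1 : c ≠ 1) (hσ : σ * c * σ⁻¹ = c ^ 2) {y : Q}
    (hy : y ∈ Subgroup.zpowers c) (h : (y * σ) ^ 16 * c = c * (y * σ) ^ 16) : False := by
  have hyc : ∀ k : ℕ, y * c ^ k * y⁻¹ = c ^ k := by
    obtain ⟨j, rfl⟩ := hy
    intro k
    have : c ^ j * c ^ k = c ^ k * c ^ j := by
      rw [← zpow_natCast, ← zpow_add, ← zpow_add, add_comm]
    simp only
    rw [this, mul_inv_cancel_right]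
  have key : ∀ k : ℕ, (y * σ) ^ k * c * ((y * σ) ^ k)⁻¹ = c ^ 2 ^ k := by
    intro k
    induction k with
    | zero => simp
    | succ k ih =>
      have e1 : (y * σ) ^ (k + 1) * c * ((y * σ) ^ (k + 1))⁻¹ = y * (σ * ((y * σ) ^ k * c * ((y * σ) ^ k)⁻¹) * σ⁻¹) * y⁻¹ := by
        rw [pow_succ' (y * σ) k]
        generalize (y * σ) ^ k = z
        group
      rw [e1, ih, ← conj_pow, hσ, ← pow_mul, hyc, pow_succ' 2 k]
  have h2 := key 16
  rw [h, mul_inv_cancel_right] at h2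
  have h3 : c ^ 2 ^ 16 = c ^ 2 := by
    have : 2 ^ 16 = 7 * 9362 + 2 := by norm_num
    rw [this, pow_add, pow_mul, h7, one_pow, one_mul]
  rw [h3] at h2
  apply h1
  have : c * 1 = c * c := by rw [mul_one, ← sq]; exact h2
  exact (mul_left_cancel this).symm

/-- Alternating sections of the large Ree groups ²F₄. Let `m ≥ 1`, let `K` be a field with `2^(2m+1)` elements and let `G` be the large Ree group ²F₄(2^(2m+1)) realised over `K`. If some subgroup of `G` has a quotient isomorphic to the alternating group of degree `r`, then `r ≤ 6`. (Only an upper bound is asserted.) -/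
theorem result {K : Type*} [Field K] [Fintype K] {m : ℕ} (hm : 1 ≤ m)
    (hK : Fintype.card K = 2 ^ (2 * m + 1)) (r : ℕ) (H : Subgroup ↥(Cfsg.Lie.twistedF4 K (2 ^ m))) (N : Subgroup ↥H) [N.Normal]
    (h : Nonempty (↥H ⧸ N ≃* ↥(alternatingGroup (Fin r)))) :
    r ≤ 6 := by
  by_contra hr
  have hr7 : 7 ≤ r := by omega
  obtain ⟨e⟩ := h
  obtain ⟨c, σ, hc7, hc1, hσ⟩ := alt_elems hr7
  haveI : Fact (Nat.Prime 7) := ⟨by norm_num⟩
  let φ : ↥H →* ↥(alternatingGroup (Fin r)) := e.toMonoidHom.comp (QuotientGroup.mk' N)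
  have hφ : Function.Surjective φ := e.surjective.comp (QuotientGroup.mk'_surjective N)
  obtain ⟨y, hy, hyc⟩ := section_pow (ℓ := 7) (d := 16) (Γ := ↥H) (by
    intro P hP g hg x hx
    have h1 := ree_local hK (P.map H.subtype) (hP.map _) (g : ↥(twistedF4 K (2 ^ m))) (by
      rintro _ ⟨z, hz, rfl⟩
      exact ⟨_, hg z hz, rfl⟩) x ⟨x, hx, rfl⟩
    apply Subtype.ext
    simpa using h1) φ hφ (C := Subgroup.zpowers c) (by
    apply IsPGroup.of_card (n := 1)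
    rw [Nat.card_zpowers, pow_one]
    exact orderOf_eq_prime hc7 hc1) (Subgroup.mem_zpowers c) (σ := σ) (by
    rintro _ ⟨k, rfl⟩
    simp only
    rw [← conj_zpow, hσ]
    exact Subgroup.zpow_mem _ (Subgroup.pow_mem _ (Subgroup.mem_zpowers c) 2) k)
  exact no_pow hc7 hc1 hσ hy hyc

end Cfsg.Agent.S2661
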