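import Cfsg.Statements.S2666


set_option autoImplicit false
open Cfsg

namespace Cfsg.Agent.S2666

/-- Shintani descent, in an abstract form. Let `σ` be an automorphism of a group `X` such that the maps `a ↦ a·σ(a)⁻¹` and `a ↦ a·σᵉ(a)⁻¹` are surjective on `X` (the Lang–Steinberg property, which holds when `X` is a connected algebraic group and `σ` a Steinberg endomorphism), where `e ≥ 1`. Write `G` for the subgroup of fixed points of `σᵉ` and `H` for the subgroup of fixed points of `σ`. The `G`-conjugacy classes in the coset `G σ` of the semidirect product of `G` by `σ` correspond to the orbits of `G` on itself under twisted conjugation `g ↦ k g σ(k)⁻¹`, and the `e`-th power of `g σ` has `G`-part the norm `g σ(g) ⋯ σ^(e-1)(g)`. For `g` in `G` and any `a` with `g = a σ(a)⁻¹`, put `x = σᵉ(a)⁻¹ a`. Then: (1) `x` lies in `H`, and `a⁻¹ · (g σ(g) ⋯ σ^(e-1)(g)) · a = x`; (2) for `g, g'` in `G` with such elements `a, b` and `x,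 x'`, the elements `g, g'` are twisted-conjugate under `G` if and only if `x, x'` are conjugate in `H`; (3) every element of `H` arises as such an `x`. So `g ↦ x` induces a well-defined bijection from the twisted `G`-classes of `G` onto the conjugacy classes of `H` (the Shintani map). -/
theorem result {X : Type*} [Group X] (σ : MulAut X) (e : ℕ) (he : 1 ≤ e)
    (hL : ∀ g : X, ∃ a : X, g = a * (σ a)⁻¹) (hLe : ∀ g : X, ∃ a : X, g = a * ((σ ^ e) a)⁻¹) :
    (∀ g ∈ (MulEquiv.toMonoidHom (σ ^ e)).eqLocus (MonoidHom.id X), ∀ a : X, g = a * (σ a)⁻¹ →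
        ((σ ^ e) a)⁻¹ * a ∈ (MulEquiv.toMonoidHom σ).eqLocus (MonoidHom.id X) ∧
          a⁻¹ * ((List.range e).map (fun i => (σ ^ i) g)).prod * a = ((σ ^ e) a)⁻¹ * a) ∧
    (∀ g ∈ (MulEquiv.toMonoidHom (σ ^ e)).eqLocus (MonoidHom.id X), ∀ g' ∈ (MulEquiv.toMonoidHom (σ ^ e)).eqLocus (MonoidHom.id X), ∀ a b : X,
        g = a * (σ a)⁻¹ → g' = b * (σ b)⁻¹ →
          ((∃ k ∈ (MulEquiv.toMonoidHom (σ ^ e)).eqLocus (MonoidHom.id X), g' = k * g * (σ k)⁻¹) ↔
            (∃ h ∈ (MulEquiv.toMonoidHom σ).eqLocus (MonoidHom.id X), ((σ ^ e) b)⁻¹ * b = h * (((σ ^ e) a)⁻¹ * a) * h⁻¹))) ∧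
    (∀ x ∈ (MulEquiv.toMonoidHom σ).eqLocus (MonoidHom.id X), ∃ g ∈ (MulEquiv.toMonoidHom (σ ^ e)).eqLocus (MonoidHom.id X), ∃ a : X,
        g = a * (σ a)⁻¹ ∧ ((σ ^ e) a)⁻¹ * a = x) := by
  have hfix : ∀ (τ : MulAut X) (x : X), x ∈ (MulEquiv.toMonoidHom τ).eqLocus (MonoidHom.id X) ↔ τ x = x :=
    fun τ x => Iff.rfl
  have hcomm : ∀ (n : ℕ) (x : X), σ ((σ ^ n) x) = (σ ^ n) (σ x) := by
    intro n x
    rw [← MulAut.mul_apply, ← MulAut.mul_apply, ← pow_succ', ← pow_succ]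
  have hpow : ∀ (n : ℕ) (x : X), σ x = x → (σ ^ n) x = x := by
    intro n x hx
    induction n with
    | zero => simp
    | succ n ih => rw [pow_succ, MulAut.mul_apply, hx, ih]
  have hprod : ∀ (n : ℕ) (a g : X), g = a * (σ a)⁻¹ →
      ((List.range n).map (fun i => (σ ^ i) g)).prod = a * ((σ ^ n) a)⁻¹ := by
    intro n a g hg
    induction n with
    | zero => simp
    | succ n ih =>
      rw [List.range_succ, List.map_append, List.prod_append, ih, List.map_singleton,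
        List.prod_singleton, hg, map_mul, map_inv, pow_succ, MulAut.mul_apply]
      group
  -- `x = σᵉ(a)⁻¹ a` is `σ`-fixed iff `g` is `σᵉ`-fixed
  have hx : ∀ (g a : X), g = a * (σ a)⁻¹ →
      ((σ ^ e) g = g ↔ σ (((σ ^ e) a)⁻¹ * a) = ((σ ^ e) a)⁻¹ * a) := by
    intro g a hg
    subst hg
    rw [map_mul, map_inv, map_mul, map_inv, hcomm]
    constructor
    · intro h
      have : (σ ^ e) (σ a) = (a * (σ a)⁻¹)⁻¹ * (σ ^ e) a := by rw [← h]; group
      rw [this]; group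
    · intro h
      have : (σ ^ e) (σ a) = σ a * (((σ ^ e) a)⁻¹ * a)⁻¹ := by rw [← h]; group
      rw [this]; group
  refine ⟨?_, ?_, ?_⟩
  · intro g hg a ha
    rw [hfix] at hg
    refine ⟨(hfix _ _).2 ((hx g a ha).1 hg), ?_⟩
    rw [hprod e a g ha]
    group
  · intro g hg g' hg' a b ha hb
    rw [hfix] at hg hg'
    constructor
    · rintro ⟨k, hk, hk'⟩
      rw [hfix] at hk
      have hσ : σ (b⁻¹ * k * a) = b⁻¹ * k * a := by
        rw [map_mul, map_mul, map_inv]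
        rw [ha, hb] at hk'
        have h1 : (σ b)⁻¹ = b⁻¹ * (k * (a * (σ a)⁻¹) * (σ k)⁻¹) := by rw [← hk']; group
        rw [h1]; group
      refine ⟨b⁻¹ * k * a, (hfix _ _).2 hσ, ?_⟩
      have h2 := hpow e _ hσ
      rw [map_mul, map_mul, map_inv, hk] at h2
      have h3 : ((σ ^ e) b)⁻¹ = (b⁻¹ * k * a) * ((σ ^ e) a)⁻¹ * k⁻¹ := by rw [← h2]; group
      rw [h3]; group
    · rintro ⟨h, hh, hh'⟩
      rw [hfix] at hh
      have h2 := hpow e _ hh
      refine ⟨b * h * a⁻¹, (hfix _ _).2 ?_, ?_⟩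
      · rw [map_mul, map_mul, map_inv, h2]
        have h3 : (σ ^ e) b = b * (h * (((σ ^ e) a)⁻¹ * a) * h⁻¹)⁻¹ := by rw [← hh']; group
        rw [h3]; group
      · rw [map_mul, map_mul, map_inv, hh, ha, hb]
        group
  · intro x hxσ
    rw [hfix] at hxσ
    obtain ⟨b, hb⟩ := hLe x⁻¹
    have h1 : ((σ ^ e) b⁻¹)⁻¹ * b⁻¹ = x := by
      rw [map_inv, inv_inv]
      have : x = (b * ((σ ^ e) b)⁻¹)⁻¹ := by rw [← hb, inv_inv]
      rw [this]; group
    refine ⟨b⁻¹ * (σ b⁻¹)⁻¹, (hfix _ _).2 ?_, b⁻¹, rfl, h1⟩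
    rw [hx _ b⁻¹ rfl, h1, hxσ]

end Cfsg.Agent.S2666
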