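import Cfsg.Statements.S2667


set_option autoImplicit false
open Cfsg

namespace Cfsg.Agent.S2667

/-- Shintani descent, in an abstract form. Let `σ` be an automorphism of a group `X` and `e ≥ 1` (no surjectivity of the Lang maps is needed for this part; in the classical setting `X` is a connected algebraic group and `σ` a Steinberg endomorphism). Write `G` for the subgroup of fixed points of `σᵉ` and `H` for the subgroup of fixed points of `σ`. The `G`-conjugacy classes in the coset `G σ` of the semidirect product of `G` by `σ` correspond to the orbits of `G` on itself under twisted conjugation `g ↦ k g σ(k)⁻¹`, and the `e`-th power of `g σ` has `G`-part the norm `g σ(g) ⋯ σ^(e-1)(g)`. For `g` in `G` and any `a` with `g = a σ(a)⁻¹`, put `x = σᵉ(a)⁻¹ a`. Then conjugation by `a⁻¹` carries the twisted centralizer `{k ∈ G : k g σ(k)⁻¹ = g}` (the centralizer of `g σ` in `G`) exactly onto the centralizer of `x` in `H`: an element `k` of `X` lies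 in `G` and satisfies `k g σ(k)⁻¹ = g` if and only if `a⁻¹ k a` lies in `H` and commutes with `x`. In particular the two centralizers are conjugate in `X` and have the same order. -/
theorem result {X : Type*} [Group X] (σ : MulAut X) (e : ℕ) (he : 1 ≤ e)
    (g : X) (hg : g ∈ (MulEquiv.toMonoidHom (σ ^ e)).eqLocus (MonoidHom.id X)) (a : X) (ha : g = a * (σ a)⁻¹) (k : X) :
    (k ∈ (MulEquiv.toMonoidHom (σ ^ e)).eqLocus (MonoidHom.id X) ∧ k * g * (σ k)⁻¹ = g) ↔
      (a⁻¹ * k * a ∈ (MulEquiv.toMonoidHom σ).eqLocus (MonoidHom.id X) ∧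
        (a⁻¹ * k * a) * (((σ ^ e) a)⁻¹ * a) = (((σ ^ e) a)⁻¹ * a) * (a⁻¹ * k * a)) := by
  have hfix : ∀ (τ : MulAut X) (x : X), x ∈ (MulEquiv.toMonoidHom τ).eqLocus (MonoidHom.id X) ↔ τ x = x :=
    fun τ x => Iff.rfl
  have hpow : ∀ (n : ℕ) (x : X), σ x = x → (σ ^ n) x = x := by
    intro n x hx
    induction n with
    | zero => simp
    | succ n ih => rw [pow_succ, MulAut.mul_apply, hx, ih]
  rw [hfix, hfix, map_mul, map_mul, map_inv, ha]
  rw [hfix] at hg
  constructor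
  · rintro ⟨hk, hk'⟩
    have h1 : σ k = σ a * a⁻¹ * k * a * (σ a)⁻¹ := by
      have : (k * (a * (σ a)⁻¹) * (σ k)⁻¹)⁻¹ = (a * (σ a)⁻¹)⁻¹ := by rw [hk']
      have h2 : σ k = (k * (a * (σ a)⁻¹) * (σ k)⁻¹)⁻¹ * (k * (a * (σ a)⁻¹)) := by group
      rw [h2, this]; group
    have h3 : (σ a)⁻¹ * σ k * σ a = a⁻¹ * k * a := by rw [h1]; group
    refine ⟨h3, ?_⟩
    have h4 : (σ ^ e) (a⁻¹ * k * a) = a⁻¹ * k * a := by
      apply hpow
      rw [map_mul, map_mul, map_inv, h3]
    rw [map_mul, map_mul, map_inv, hk] at h4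
    calc a⁻¹ * k * a * (((σ ^ e) a)⁻¹ * a) = (((σ ^ e) a)⁻¹ * k * (σ ^ e) a) * (((σ ^ e) a)⁻¹ * a) := by
          rw [h4]
      _ = ((σ ^ e) a)⁻¹ * a * (a⁻¹ * k * a) := by group
  · rintro ⟨h3, h5⟩
    have h4 : (σ ^ e) (a⁻¹ * k * a) = a⁻¹ * k * a := by
      apply hpow
      rw [map_mul, map_mul, map_inv, h3]
    rw [map_mul, map_mul, map_inv] at h4
    refine ⟨?_, ?_⟩
    · have h6 : (σ ^ e) k = (σ ^ e) a * (a⁻¹ * k * a) * ((σ ^ e) a)⁻¹ := by rw [← h4]; group
      have h7 : a⁻¹ * k * a * ((σ ^ e) a)⁻¹ = ((σ ^ e) a)⁻¹ * k := by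
        have : a⁻¹ * k * a * ((σ ^ e) a)⁻¹ = a⁻¹ * k * a * (((σ ^ e) a)⁻¹ * a) * a⁻¹ := by group
        rw [this, h5]; group
      rw [h6, mul_assoc, h7]; group
    · have h1 : σ k = σ a * (a⁻¹ * k * a) * (σ a)⁻¹ := by rw [← h3]; group
      rw [h1]; group

end Cfsg.Agent.S2667
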