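import Cfsg.Statements.S2668


set_option autoImplicit false
open Cfsg

namespace Cfsg.Agent.S2668

/-- Shintani descent and powers (abstract form). Let `σ` be an automorphism of a group `X`, `e ≥ 1` and `d ≥ 1`, let `g` be fixed by `σᵉ` and let `a` satisfy `g = a σ(a)⁻¹`, so that the Shintani map of `(X, σ, e)` sends the class of `g σ` to the class of `x = σᵉ(a)⁻¹ a`. Put `h = g σ(g) ⋯ σ^(d-1)(g)`, the part in `X` of the `d`-th power `(g σ)^d = h σ^d`. Then `h = a σ^d(a)⁻¹` (so `a` also serves for `h` with respect to `σ^d`), `h` is fixed by `(σ^d)ᵉ`, and `(σ^d)ᵉ(a)⁻¹ a = x^d`: the Shintani map of `(X, σ^d, e)` sends the class of `(g σ)^d` to the class of `x^d`. (When `d` divides `e`, the Shintani map of `(X, σ^d, e/d)` sends it to the class of `x` itself, since `(σ^d)^(e/d) = σᵉ`.) -/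
theorem result {X : Type*} [Group X] (σ : MulAut X) (e d : ℕ) (he : 1 ≤ e) (hd : 1 ≤ d)
    (g : X) (hg : g ∈ (MulEquiv.toMonoidHom (σ ^ e)).eqLocus (MonoidHom.id X)) (a : X) (ha : g = a * (σ a)⁻¹) :
    ((List.range d).map (fun i => (σ ^ i) g)).prod = a * ((σ ^ d) a)⁻¹ ∧
      ((List.range d).map (fun i => (σ ^ i) g)).prod ∈ (MulEquiv.toMonoidHom ((σ ^ d) ^ e)).eqLocus (MonoidHom.id X) ∧
      (((σ ^ d) ^ e) a)⁻¹ * a = (((σ ^ e) a)⁻¹ * a) ^ d := by
  have hfix : ∀ (τ : MulAut X) (x : X), x ∈ (MulEquiv.toMonoidHom τ).eqLocus (MonoidHom.id X) ↔ τ x = x :=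
    fun τ x => Iff.rfl
  have hcomm : ∀ (i j : ℕ) (x : X), (σ ^ i) ((σ ^ j) x) = (σ ^ j) ((σ ^ i) x) := by
    intro i j x
    rw [← MulAut.mul_apply, ← MulAut.mul_apply, ← pow_add, ← pow_add, add_comm]
  have hprod : ∀ (n : ℕ), ((List.range n).map (fun i => (σ ^ i) g)).prod = a * ((σ ^ n) a)⁻¹ := by
    intro n
    induction n with
    | zero => simp
    | succ n ih =>
      rw [List.range_succ, List.map_append, List.prod_append, ih, List.map_singleton,
        List.prod_singleton, ha, map_mul, map_inv, pow_succ, MulAut.mul_apply]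
      group
  rw [hfix] at hg
  -- `x = σᵉ(a)⁻¹ a` is fixed by `σ`
  have hx : σ (((σ ^ e) a)⁻¹ * a) = ((σ ^ e) a)⁻¹ * a := by
    rw [ha, map_mul, map_inv] at hg
    rw [map_mul, map_inv]
    have h0 : σ ((σ ^ e) a) = (σ ^ e) (σ a) := by
      have := hcomm 1 e a
      rwa [pow_one] at this
    have : (σ ^ e) (σ a) = (a * (σ a)⁻¹)⁻¹ * (σ ^ e) a := by rw [← hg]; group
    rw [h0, this]; group
  have hxp : ∀ n : ℕ, (σ ^ n) (((σ ^ e) a)⁻¹ * a) = ((σ ^ e) a)⁻¹ * a := by
    intro n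
    induction n with
    | zero => simp
    | succ n ih => rw [pow_succ, MulAut.mul_apply, hx, ih]
  refine ⟨hprod d, ?_, ?_⟩
  · rw [hfix, ← pow_mul, mul_comm d e, pow_mul]
    have h1 : (σ ^ e) ((List.range d).map (fun i => (σ ^ i) g)).prod
        = ((List.range d).map (fun i => (σ ^ i) g)).prod := by
      rw [map_list_prod, List.map_map]
      congr 1
      apply List.map_congr_left
      intro i _
      rw [Function.comp_apply, hcomm, hg]
    have h2 : ∀ n : ℕ, ((σ ^ e) ^ n) ((List.range d).map (fun i => (σ ^ i) g)).prod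
        = ((List.range d).map (fun i => (σ ^ i) g)).prod := by
      intro n
      induction n with
      | zero => simp
      | succ n ih => rw [pow_succ, MulAut.mul_apply, h1, ih]
    exact h2 d
  · rw [← pow_mul, mul_comm d e, pow_mul]
    have key : ∀ n : ℕ, (((σ ^ e) ^ n) a)⁻¹ * a = (((σ ^ e) a)⁻¹ * a) ^ n := by
      intro n
      induction n with
      | zero => simp
      | succ n ih =>
        have h3 : (((σ ^ e) ^ (n + 1)) a)⁻¹ * a
            = ((σ ^ e) ^ n) (((σ ^ e) a)⁻¹ * a) * ((((σ ^ e) ^ n) a)⁻¹ * a) := by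
          rw [map_mul, map_inv, pow_succ, MulAut.mul_apply]; group
        have h4 : ((σ ^ e) ^ n) (((σ ^ e) a)⁻¹ * a) = ((σ ^ e) a)⁻¹ * a := by
          rw [← pow_mul]; exact hxp _
        rw [h3, h4, ih, pow_succ']
    exact key d

end Cfsg.Agent.S2668
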