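import Cfsg.Statements.S2669

set_option autoImplicit false
open Cfsg

namespace Cfsg.Agent.S2669

theorem fiberEquiv {X : Type*} [Group X] (τ : MulAut X) (Y : Subgroup X) (u b₀ : X) (hb₀ : b₀ ∈ Y)
    (hu : u = b₀ * (τ b₀)⁻¹) :
    Nonempty ({b : X // b ∈ Y ∧ u = b * (τ b)⁻¹} ≃ ↥(Y ⊓ (MulEquiv.toMonoidHom τ).eqLocus (MonoidHom.id X))) := by
  refine ⟨⟨fun b => ⟨b₀⁻¹ * b.1, Y.mul_mem (Y.inv_mem hb₀) b.2.1, ?_⟩,
    fun z => ⟨b₀ * z.1, Y.mul_mem hb₀ z.2.1, ?_⟩, ?_, ?_⟩⟩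
  · change τ (b₀⁻¹ * b.1) = b₀⁻¹ * b.1
    have h : b₀ * (τ b₀)⁻¹ = b.1 * (τ b.1)⁻¹ := hu.symm.trans b.2.2
    rw [map_mul, map_inv]
    calc (τ b₀)⁻¹ * τ b.1 = b₀⁻¹ * (b₀ * (τ b₀)⁻¹) * τ b.1 := by group
      _ = b₀⁻¹ * (b.1 * (τ b.1)⁻¹) * τ b.1 := by rw [h]
      _ = _ := by group
  · have hz : τ z.1 = z.1 := z.2.2
    rw [map_mul, hz, hu]; group
  · intro b; ext; simp
  · intro z; ext; simp

/-- Shintani descent preserves numbers of fixed points on coset spaces (abstract form). Let `σ` be an automorphism of a group `X` and `e ≥ 1`; write `G` for the fixed points of `σᵉ` and `H` for the fixed points of `σ`, and assume `G` is finite. Let `Y` be a `σ`-stable subgroup of `X` on which the maps `a ↦ a σ(a)⁻¹` and `a ↦ a σᵉ(a)⁻¹` are surjective (as for a closed connected `σ`-stable subgroup of an algebraic group). Let `g ∈ G`, let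 `a ∈ X` satisfy `g = a σ(a)⁻¹` and put `x = σᵉ(a)⁻¹ a` (the Shintani image, an element of `H`). The element `g σ` of the semidirect product acts on the cosets of `Y ∩ G` in `G` by `k (Y ∩ G) ↦ g σ(k) (Y ∩ G)`, fixing that coset exactly when `k⁻¹ g σ(k) ∈ Y`; and `x` fixes the coset `h (Y ∩ H)` of `H` exactly when `h⁻¹ x h ∈ Y`. Then the two numbers of fixed cosets agree; in cross-multiplied form, `#{k ∈ G : k⁻¹ g σ(k) ∈ Y} · |Y ∩ H| = #{h ∈ H : h⁻¹ x h ∈ Y} · |Y ∩ G|`. -/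
theorem result {X : Type*} [Group X] (σ : MulAut X) (e : ℕ) (he : 1 ≤ e)
    [Finite ↥((MulEquiv.toMonoidHom (σ ^ e)).eqLocus (MonoidHom.id X))]
    (Y : Subgroup X) (hY : ∀ y : X, y ∈ Y ↔ σ y ∈ Y)
    (hYL : ∀ y ∈ Y, ∃ a ∈ Y, y = a * (σ a)⁻¹) (hYLe : ∀ y ∈ Y, ∃ a ∈ Y, y = a * ((σ ^ e) a)⁻¹)
    (g : X) (hg : g ∈ (MulEquiv.toMonoidHom (σ ^ e)).eqLocus (MonoidHom.id X)) (a : X) (ha : g = a * (σ a)⁻¹) :
    Nat.card {k : ↥((MulEquiv.toMonoidHom (σ ^ e)).eqLocus (MonoidHom.id X)) // (k : X)⁻¹ * g * σ k ∈ Y} *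
        Nat.card ↥(Y ⊓ (MulEquiv.toMonoidHom σ).eqLocus (MonoidHom.id X)) =
      Nat.card {h : ↥((MulEquiv.toMonoidHom σ).eqLocus (MonoidHom.id X)) // (h : X)⁻¹ * (((σ ^ e) a)⁻¹ * a) * h ∈ Y} *
        Nat.card ↥(Y ⊓ (MulEquiv.toMonoidHom (σ ^ e)).eqLocus (MonoidHom.id X)) := by
  classical
  subst ha
  have memG : ∀ z : X, z ∈ (MulEquiv.toMonoidHom (σ ^ e)).eqLocus (MonoidHom.id X) ↔ (σ ^ e) z = z := fun z => Iff.rfl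
  have memH : ∀ z : X, z ∈ (MulEquiv.toMonoidHom σ).eqLocus (MonoidHom.id X) ↔ σ z = z := fun z => Iff.rfl
  have hHG : ∀ z : X, σ z = z → (σ ^ e) z = z := by
    intro z hz
    have : ∀ k : ℕ, (σ ^ k) z = z := by
      intro k
      induction k with
      | zero => simp
      | succ k ih => rw [pow_succ, MulAut.mul_apply, hz, ih]
    exact this e
  have hcomm : ∀ z : X, (σ ^ e) (σ z) = σ ((σ ^ e) z) := by
    intro z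
    rw [← MulAut.mul_apply, ← MulAut.mul_apply, ← pow_succ, ← pow_succ']
  have hYσ : ∀ k : ℕ, ∀ y : X, y ∈ Y → (σ ^ k) y ∈ Y := by
    intro k
    induction k with
    | zero => intro y hy; simpa using hy
    | succ k ih => intro y hy; rw [pow_succ, MulAut.mul_apply]; exact ih _ ((hY y).1 hy)
  have hge : (σ ^ e) (a * (σ a)⁻¹) = (a * (σ a)⁻¹) := hg
  -- the pairs (k, b)
  let P := {t : X × X // (σ ^ e) t.1 = t.1 ∧ t.2 ∈ Y ∧ σ (a⁻¹ * t.1 * t.2) = a⁻¹ * t.1 * t.2}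
  have E1 : Nonempty ((Σ k : {k : ↥((MulEquiv.toMonoidHom (σ ^ e)).eqLocus (MonoidHom.id X)) // (k : X)⁻¹ * (a * (σ a)⁻¹) * σ k ∈ Y},
      {b : X // b ∈ Y ∧ (k.1 : X)⁻¹ * (a * (σ a)⁻¹) * σ k.1 = b * (σ b)⁻¹}) ≃ P) := by
    refine ⟨⟨fun t => ⟨((t.1.1 : X), t.2.1), t.1.1.2, t.2.2.1, ?_⟩,
      fun t => ⟨⟨⟨t.1.1, t.2.1⟩, ?_⟩, ⟨t.1.2, t.2.2.1, ?_⟩⟩, ?_, ?_⟩⟩
    · obtain ⟨k, b, hb, hk⟩ := t
      dsimp only
      rw [map_mul, map_mul, map_inv]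
      have h1 : (σ a)⁻¹ * σ (k.1 : X) * σ b = a⁻¹ * (k.1 : X) * ((k.1 : X)⁻¹ * (a * (σ a)⁻¹) * σ k.1 * σ b) := by
        group
      rw [h1, hk]; group
    · have h := t.2.2.2
      rw [map_mul, map_mul, map_inv] at h
      have h1 : (t.1.1 : X)⁻¹ * (a * (σ a)⁻¹) * σ t.1.1 = t.1.2 * (σ t.1.2)⁻¹ := by
        calc (t.1.1 : X)⁻¹ * (a * (σ a)⁻¹) * σ t.1.1 = (t.1.1 : X)⁻¹ * a * ((σ a)⁻¹ * σ t.1.1 * σ t.1.2) * (σ t.1.2)⁻¹ := by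
              group
          _ = _ := by rw [h]; group
      dsimp only
      rw [h1]
      exact Y.mul_mem t.2.2.1 (Y.inv_mem ((hY _).1 t.2.2.1))
    · have h := t.2.2.2
      rw [map_mul, map_mul, map_inv] at h
      dsimp only
      calc (t.1.1 : X)⁻¹ * (a * (σ a)⁻¹) * σ t.1.1 = (t.1.1 : X)⁻¹ * a * ((σ a)⁻¹ * σ t.1.1 * σ t.1.2) * (σ t.1.2)⁻¹ := by
              group
          _ = _ := by rw [h]; group
    · intro t; rfl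
    · intro t; rfl
  have E2 : Nonempty ((Σ h : {h : ↥((MulEquiv.toMonoidHom σ).eqLocus (MonoidHom.id X)) // (h : X)⁻¹ * (((σ ^ e) a)⁻¹ * a) * h ∈ Y},
      {c : X // c ∈ Y ∧ ((h.1 : X)⁻¹ * (((σ ^ e) a)⁻¹ * a) * h.1)⁻¹ = c * ((σ ^ e) c)⁻¹}) ≃ P) := by
    refine ⟨⟨fun t => ⟨(a * (t.1.1 : X) * t.2.1, (t.2.1)⁻¹), ?_, Y.inv_mem t.2.2.1, ?_⟩,
      fun t => ⟨⟨⟨a⁻¹ * t.1.1 * t.1.2, t.2.2.2⟩, ?_⟩, ⟨(t.1.2)⁻¹, Y.inv_mem t.2.2.1, ?_⟩⟩, ?_, ?_⟩⟩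
    · obtain ⟨h, c, hc, hk⟩ := t
      dsimp only
      have hh : (σ ^ e) (h.1 : X) = h.1 := hHG _ h.1.2
      rw [map_mul, map_mul, hh]
      have h2 : (σ ^ e) a * (h.1 : X) * (σ ^ e) c = a * h.1 * (((h.1 : X)⁻¹ * (((σ ^ e) a)⁻¹ * a) * h.1)⁻¹ * (σ ^ e) c) := by
        group
      rw [h2, hk]; group
    · obtain ⟨h, c, hc, hk⟩ := t
      dsimp only
      have h2 : a⁻¹ * (a * (h.1 : X) * c) * c⁻¹ = h.1 := by group
      rw [h2]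
      exact h.1.2
    · have h := t.2.1
      have h3 := hHG _ t.2.2.2
      rw [map_mul, map_mul, map_inv, h] at h3
      have h4 : (a⁻¹ * t.1.1 * t.1.2)⁻¹ * (((σ ^ e) a)⁻¹ * a) * (a⁻¹ * t.1.1 * t.1.2) = ((σ ^ e) t.1.2)⁻¹ * t.1.2 := by
        have h5 : (a⁻¹ * t.1.1 * t.1.2)⁻¹ = (((σ ^ e) a)⁻¹ * t.1.1 * (σ ^ e) t.1.2)⁻¹ := by rw [h3]
        rw [h5]; group
      dsimp only
      rw [h4]
      exact Y.mul_mem (Y.inv_mem (hYσ _ _ t.2.2.1)) t.2.2.1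
    · have h := t.2.1
      have h3 := hHG _ t.2.2.2
      rw [map_mul, map_mul, map_inv, h] at h3
      have h4 : (a⁻¹ * t.1.1 * t.1.2)⁻¹ * (((σ ^ e) a)⁻¹ * a) * (a⁻¹ * t.1.1 * t.1.2) = ((σ ^ e) t.1.2)⁻¹ * t.1.2 := by
        have h5 : (a⁻¹ * t.1.1 * t.1.2)⁻¹ = (((σ ^ e) a)⁻¹ * t.1.1 * (σ ^ e) t.1.2)⁻¹ := by rw [h3]
        rw [h5]; group
      dsimp only
      rw [h4, map_inv]; group
    · rintro ⟨⟨⟨h, hh⟩, hh2⟩, ⟨c, hc, hk⟩⟩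
      have e1 : a⁻¹ * (a * h * c) * c⁻¹ = h := by group
      have e2 : (c⁻¹)⁻¹ = c := by group
      simp only [e1, e2]
      congr 1
      · simp only [e1]
      · congr 1
        · simp only [e1]
        · exact proof_irrel_heq _ _
    · rintro ⟨⟨k, b⟩, hk, hb, hkb⟩
      ext
      · dsimp only; group
      · dsimp only; group
  obtain ⟨E1⟩ := E1
  obtain ⟨E2⟩ := E2
  have F1 : ∀ k : {k : ↥((MulEquiv.toMonoidHom (σ ^ e)).eqLocus (MonoidHom.id X)) // (k : X)⁻¹ * (a * (σ a)⁻¹) * σ k ∈ Y},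
      Nonempty ({b : X // b ∈ Y ∧ (k.1 : X)⁻¹ * (a * (σ a)⁻¹) * σ k.1 = b * (σ b)⁻¹} ≃ ↥(Y ⊓ (MulEquiv.toMonoidHom σ).eqLocus (MonoidHom.id X))) := by
    intro k
    obtain ⟨b, hb, hbe⟩ := hYL _ k.2
    exact fiberEquiv σ Y _ b hb hbe
  have F2 : ∀ h : {h : ↥((MulEquiv.toMonoidHom σ).eqLocus (MonoidHom.id X)) // (h : X)⁻¹ * (((σ ^ e) a)⁻¹ * a) * h ∈ Y},
      Nonempty ({c : X // c ∈ Y ∧ ((h.1 : X)⁻¹ * (((σ ^ e) a)⁻¹ * a) * h.1)⁻¹ = c * ((σ ^ e) c)⁻¹} ≃ ↥(Y ⊓ (MulEquiv.toMonoidHom (σ ^ e)).eqLocus (MonoidHom.id X))) := by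
    intro h
    obtain ⟨b, hb, hbe⟩ := hYLe _ (Y.inv_mem h.2)
    exact fiberEquiv (σ ^ e) Y _ b hb hbe
  have G1 := Equiv.sigmaEquivProdOfEquiv (fun k => (F1 k).some)
  have G2 := Equiv.sigmaEquivProdOfEquiv (fun k => (F2 k).some)
  rw [← Nat.card_prod, ← Nat.card_prod]
  exact Nat.card_congr (G1.symm.trans (E1.trans (E2.symm.trans G2)))

end Cfsg.Agent.S2669
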