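import Cfsg.Statements.S2670
import Cfsg.Agent.H41.PGClass

set_option autoImplicit false
open Cfsg

namespace Cfsg.Agent.S2670

open Cfsg.Agent.H41

theorem pgData {F : Type*} [Field F] [Fintype F] {n r : ℕ} (hn : 2 ≤ n) :
    PGData (MonoidHom.id (GL (Fin n) F)) (⊤ : Subgroup Fˣ) r where
  center g := by
    rw [Matrix.GeneralLinearGroup.mem_center_iff_val_eq_scalar]
    constructor
    · rintro ⟨a, ha⟩
      have ha0 : a ≠ 0 := by
        rintro rfl
        have h1 : (g : Matrix (Fin n) (Fin n) F).det ≠ 0 := (Matrix.GeneralLinearGroup.det g).ne_zero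
        have : Nonempty (Fin n) := ⟨⟨0, by omega⟩⟩
        rw [← ha, map_zero, Matrix.det_zero] at h1
        · exact h1 rfl
      refine ⟨Units.mk0 a ha0, trivial, ?_⟩
      show (g : Matrix (Fin n) (Fin n) F) = a • 1
      rw [← ha, Matrix.scalar_apply, Matrix.smul_one_eq_diagonal]
    · rintro ⟨c, _, hc⟩
      refine ⟨c, ?_⟩
      have h1 : (g : Matrix (Fin n) (Fin n) F) = (c : F) • 1 := hc
      rw [h1, Matrix.scalar_apply, Matrix.smul_one_eq_diagonal]
  conj g h hc := hc
  diag f _ := by
    refine ⟨Matrix.GeneralLinearGroup.mkOfDetNeZero (Matrix.diagonal (fun i => (f i : F))) ?_, rfl⟩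
    rw [Matrix.det_diagonal]
    exact Finset.prod_ne_zero_iff.mpr (fun i _ => (f i).ne_zero)
  pow d _ := trivial
  ns A c _ _ _ := ⟨A, IsConj.refl _⟩

/-- Number of conjugacy classes of elements of prime order r in PGL_n(q) = GL_n(q)/scalars when r divides q − 1 (n ≥ 2): the classes of elements with a diagonalisable lift correspond to the orbits of the cyclic rotation on the r-tuples of eigenvalue multiplicities (a_0, …, a_(r−1)) summing to n with every a_j < n, and when r divides n there are r − 1 further classes (lifts acting irreducibly on blocks of size r); in all (C(n+r−1, r−1) − r − [r ∣ n])/r + r·[r ∣ n] classes. -/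
theorem result {F : Type*} [Field F] [Fintype F] {q : ℕ} (hF : Fintype.card F = q) {n r : ℕ} (hn : 2 ≤ n) (hr : r.Prime) (hrq : r ∣ q - 1) : Nat.card {C : ConjClasses (GL (Fin n) F ⧸ Subgroup.center (GL (Fin n) F)) // ∃ g : GL (Fin n) F ⧸ Subgroup.center (GL (Fin n) F), ConjClasses.mk g = C ∧ orderOf g = r} = (Nat.choose (n + r - 1) (r - 1) - r - (if r ∣ n then 1 else 0)) / r + r * (if r ∣ n then 1 else 0) := by
  have hcu : Nat.card (⊤ : Subgroup Fˣ) = q - 1 := by
    rw [Subgroup.card_top, Nat.card_units, Nat.card_eq_fintype_card, hF]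
  exact (pgData hn).card_classes hr (by omega) (by rw [hcu]; exact hrq)

end Cfsg.Agent.S2670
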