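import Cfsg.Statements.S2671
import Cfsg.Agent.Iso44.GuR

set_option autoImplicit false
open Cfsg

namespace Cfsg.Agent.S2671

open Cfsg.Agent.Iso44


/-- Number of conjugacy classes of elements of odd prime order r in the general unitary group GU_n(q), for r not dividing q(q + 1): let i be the multiplicative order of q modulo r, b = i if i is odd and b = i/2 if i is even, and s = (r − 1)/b. If i ≢ 2 (mod 4) the eigenvalue orbits pair off into dual pairs of totally isotropic blocks and there are C(⌊n/(2b)⌋ + s/2, s/2) − 1 classes; if i ≡ 2 (mod 4) each orbit gives a non-degenerate block of dimension i/2 and there are C(⌊2n/i⌋ + s, s) − 1 classes. -/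
theorem result {K : Type*} [Field K] [Fintype K] {p q n r i b s : ℕ} [Fact p.Prime] [CharP K p] (hK : Fintype.card K = q ^ 2) (hr : r.Prime) (hr2 : r ≠ 2) (hrp : r ≠ p) (hi : i = orderOf (q : ZMod r)) (hi2 : i ≠ 2) (hb : b = if Odd i then i else i / 2) (hs : s * b = r - 1) : Nat.card {C : ConjClasses ↥(Cfsg.GU n K q) // ∃ g : ↥(Cfsg.GU n K q), ConjClasses.mk g = C ∧ orderOf g = r} = if i % 4 = 2 then Nat.choose (2 * n / i + s) s - 1 else Nat.choose (n / (2 * b) + s / 2) (s / 2) - 1 := by
  haveI : Fact r.Prime := ⟨hr⟩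
  have hpp : Fact p.Prime := inferInstance
  have hqr : (q : ZMod r) ≠ 0 := by
    have h1 := qr_ne_zero (F := K) (p := p) (r := r) hK hrp
    intro h
    apply h1
    push_cast
    rw [h]; simp
  have hrF : (r : K) ≠ 0 := rF_ne_zero hr hrp
  obtain ⟨ζ, hζ⟩ := exists_zeta (F := K) (r := r) hrF
  obtain ⟨w, hw, hwo⟩ := exists_w' hr2 hqr
  rw [← hi] at hwo
  rw [Iso44.card_classes_congr (guBridge K n q)]
  have hfr : Module.finrank K (Fin n → K) = n := by
    rw [Module.finrank_fintype_fun_eq_card, Fintype.card_fin]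
  have hb' : Nat.card (Subgroup.zpowers w) = orderOf w := Nat.card_zpowers w
  have hν := card_quot_mul (Subgroup.zpowers w)
  rw [count_G hζ (Subgroup.zpowers w) (guG K n q) True]
  · rw [if_neg (by simp), Nat.sub_zero, hfr, hb']
    rw [hb'] at hν
    have hb0 : 0 < b := by
      rcases Nat.eq_zero_or_pos b with h | h
      · rw [h, mul_zero] at hs
        have := hr.two_le
        omega
      · exact h
    rw [hwo] at hν ⊢
    by_cases h : Odd i
    · rw [if_pos h] at hν ⊢
      rw [if_pos h] at hb
      have h4 : ¬ i % 4 = 2 := by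
        obtain ⟨l, hl⟩ := h
        omega
      rw [if_neg h4, hb]
      subst hb
      have h2 : s / 2 = Fintype.card ((ZMod r)ˣ ⧸ Subgroup.zpowers w) := by
        have h3 : s * b = (Fintype.card ((ZMod r)ˣ ⧸ Subgroup.zpowers w) * 2) * b := by rw [hs, ← hν]; ring
        have h4 := Nat.eq_of_mul_eq_mul_right hb0 h3
        omega
      rw [h2]
    · rw [if_neg h] at hν hb ⊢
      rw [Nat.not_odd_iff_even] at h
      obtain ⟨j, hj⟩ := h
      have hj' : i = 2 * j := by omega
      have hbj : b = j := by omega
      subst hbj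
      split_ifs with h4
      · rw [if_pos h4] at hν
        have e1 : i / 2 = b := by omega
        rw [e1] at hν ⊢
        have h2 : s = Fintype.card ((ZMod r)ˣ ⧸ Subgroup.zpowers w) :=
          Nat.eq_of_mul_eq_mul_right hb0 (by rw [hs, hν])
        rw [← h2, hj', Nat.mul_div_mul_left _ _ (by norm_num)]
      · rw [if_neg h4] at hν
        rw [hj'] at hν ⊢
        have h2 : s / 2 = Fintype.card ((ZMod r)ˣ ⧸ Subgroup.zpowers w) := by
          have h3 : s * b = (Fintype.card ((ZMod r)ˣ ⧸ Subgroup.zpowers w) * 2) * b := by rw [hs, ← hν]; ring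
          have h4 := Nat.eq_of_mul_eq_mul_right hb0 h3
          omega
        rw [h2]
  · intro g hg g' hg' hgr hgr' P hP
    exact conj_gu hK hg hg' P hP
  · intro g hg hgr
    exact inv_gu hζ (p := p) hK hqr hw g hg hgr
  · intro _ _ _ _; trivial
  · intro x a hx _
    rw [hb', hfr] at hx
    exact gu_real hζ (p := p) hK hqr hw _ n x a rfl hx
  · exact Or.inl trivial

end Cfsg.Agent.S2671
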