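import Cfsg.Statements.S2672
import Cfsg.Agent.H41.PGClass
import Cfsg.Agent.H43.Unitary2
import Cfsg.Agent.Uni.SU

set_option autoImplicit false
open Cfsg

namespace Cfsg.Agent.S2672

open Cfsg.Agent.H41 Cfsg.Agent.Uni

theorem pgData {K : Type*} [Field K] [Fintype K] {q n r : ℕ} (hK : Fintype.card K = q ^ 2) (hn : 2 ≤ n) (hr : r.Prime)
    (hr2 : r ≠ 2) (hrq : r ∣ q + 1) :
    PGData (Subgroup.subtype (GU n K q)) ((powMonoidHom (q + 1) : Kˣ →* Kˣ).ker) r where
  center g := by
    constructor
    · intro h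
      rw [Subgroup.mem_center_iff] at h
      obtain ⟨c, hc⟩ := eq_scalar_of_commute hK hn (((g : GU n K q) : GL (Fin n) K) : Matrix (Fin n) (Fin n) K) (by
        intro s
        have hs : (Matrix.SpecialLinearGroup.toGL (s : Matrix.SpecialLinearGroup (Fin n) K)) ∈ GU n K q := s.2
        have h1 := h ⟨_, hs⟩
        have h2 := congrArg (fun x : GU n K q => ((x : GL (Fin n) K) : Matrix (Fin n) (Fin n) K)) h1
        exact h2)
      have hcn : c ^ (q + 1) = 1 := by
        rw [← pres_scalar_iff (n := n) (q := q) (by omega), ← hc]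
        exact g.2
      have hc0 : c ≠ 0 := by
        rintro rfl
        rw [zero_pow (by omega)] at hcn
        exact zero_ne_one hcn
      refine ⟨Units.mk0 c hc0, ?_, ?_⟩
      · rw [MonoidHom.mem_ker]
        exact Units.ext hcn
      · show (((g : GU n K q) : GL (Fin n) K) : Matrix (Fin n) (Fin n) K) = c • 1
        rw [hc, Matrix.smul_one_eq_diagonal]
    · rintro ⟨c, hc, h1⟩
      rw [Subgroup.mem_center_iff]
      intro h
      apply Subtype.ext
      apply Units.ext
      have h2 : (((g : GU n K q) : GL (Fin n) K) : Matrix (Fin n) (Fin n) K) = (c : K) • 1 := h1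
      show ((h : GL (Fin n) K) : Matrix (Fin n) (Fin n) K) * ((g : GL (Fin n) K) : Matrix (Fin n) (Fin n) K) =
        ((g : GL (Fin n) K) : Matrix (Fin n) (Fin n) K) * ((h : GL (Fin n) K) : Matrix (Fin n) (Fin n) K)
      rw [h2, Matrix.mul_smul, Matrix.smul_mul, mul_one, one_mul]
  conj g h hc := (H43.isConj_GU_iff hK g h).mpr hc
  diag f hf := by
    have hdet : (Matrix.diagonal (fun i => (f i : K))).det ≠ 0 := by
      rw [Matrix.det_diagonal]
      exact Finset.prod_ne_zero_iff.mpr (fun i _ => (f i).ne_zero)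
    refine ⟨⟨Matrix.GeneralLinearGroup.mkOfDetNeZero (Matrix.diagonal (fun i => (f i : K))) hdet, ?_⟩, rfl⟩
    exact pres_diagonal _ (fun i => congrArg Units.val (hf i))
  pow d hd := by
    rw [MonoidHom.mem_ker, powMonoidHom_apply] at hd ⊢
    have h1 : (d ^ (q + 1)) ^ r = 1 := by rw [← pow_mul, mul_comm, pow_mul]; exact hd
    have h2 : (d ^ (q + 1)) ^ (q - 1) = 1 := by
      rw [← pow_mul, ← card_units hK]
      exact pow_card_eq_one'
    have hq := two_le_q hK
    have hcop : Nat.Coprime r (q - 1) := by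
      rw [hr.coprime_iff_not_dvd]
      intro h
      have h3 : r ∣ 2 := by
        have h4 := Nat.dvd_sub hrq h
        have h5 : q + 1 - (q - 1) = 2 := by omega
        rwa [h5] at h4
      exact hr2 ((Nat.prime_dvd_prime_iff_eq hr Nat.prime_two).mp h3)
    have h3 := orderOf_dvd_of_pow_eq_one h1
    have h4 := orderOf_dvd_of_pow_eq_one h2
    rw [← orderOf_eq_one_iff]
    exact Nat.eq_one_of_dvd_coprimes hcop h3 h4
  ns A c hc hcr hA := by
    have hr0 : (r : K) ≠ 0 := by
      intro h0
      obtain ⟨k, hk⟩ := hrq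
      have h2 := congrArg (fun m : ℕ => (m : K)) hk
      simp only [Nat.cast_add, Nat.cast_mul, h0, zero_mul, Nat.cast_one] at h2
      have h3 : (q : K) = 0 := by
        have h4 : ((q ^ 2 : ℕ) : K) = 0 := by rw [← hK]; exact FiniteField.cast_card_eq_zero K
        rw [Nat.cast_pow] at h4
        exact pow_eq_zero_iff (two_ne_zero) |>.mp h4
      rw [h3, zero_add] at h2
      exact one_ne_zero h2
    have hcq : (c : K) ^ (q + 1) = 1 := congrArg Units.val hc
    have h1 : (A : Matrix (Fin n) (Fin n) K).map (fun x : K => x ^ q) = (conjHom hK).mapMatrix (A : Matrix (Fin n) (Fin n) K) := rfl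
    have hex : ∃ B : ↥(Cfsg.GU n K q), IsConj A (B : GL (Fin n) K) := by
      rw [H43.exists_conj_GU_iff hK A, h1]
      have hB : ((((conjHom hK).mapMatrix (A : Matrix (Fin n) (Fin n) K)).transpose)⁻¹) ^ r = (c : K) • (1 : Matrix (Fin n) (Fin n) K) := by
        rw [Matrix.inv_pow', ← Matrix.transpose_pow, ← map_pow, hA]
        have h2 : ((conjHom hK).mapMatrix ((c : K) • (1 : Matrix (Fin n) (Fin n) K))).transpose = ((c : K) ^ q) • 1 := by
          rw [Matrix.smul_one_eq_diagonal, Matrix.smul_one_eq_diagonal, RingHom.mapMatrix_apply, Matrix.diagonal_map (map_zero _), Matrix.diagonal_transpose]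
          rfl
        rw [h2]
        apply Matrix.inv_eq_right_inv
        rw [smul_mul_smul_comm, ← pow_succ, hcq, one_smul, one_mul]
      obtain ⟨P, hP, hPA⟩ := sim_nonsplit _ _ r hr hr0 _ hcr hA hB
      exact ⟨Matrix.GeneralLinearGroup.mkOfDetNeZero P hP, hPA⟩
    obtain ⟨B, hB⟩ := hex
    exact ⟨B, hB.symm⟩

/-- Number of conjugacy classes of elements of odd prime order r in PGU_n(q) = GU_n(q)/scalars (n ≥ 3) when r divides q + 1: as in the linear case with q − 1 replaced by q + 1, the classes correspond to the rotation orbits on r-tuples of eigenvalue multiplicities summing to n with every entry < n, plus r − 1 further classes when r divides n; in all (C(n+r−1, r−1) − r − [r ∣ n])/r + r·[r ∣ n]. -/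
theorem result {K : Type*} [Field K] [Fintype K] {q n r : ℕ} (hK : Fintype.card K = q ^ 2) (hn : 3 ≤ n) (hr : r.Prime) (hr2 : r ≠ 2) (hrq : r ∣ q + 1) : Nat.card {C : ConjClasses (↥(Cfsg.GU n K q) ⧸ Subgroup.center ↥(Cfsg.GU n K q)) // ∃ g : ↥(Cfsg.GU n K q) ⧸ Subgroup.center ↥(Cfsg.GU n K q), ConjClasses.mk g = C ∧ orderOf g = r} = (Nat.choose (n + r - 1) (r - 1) - r - (if r ∣ n then 1 else 0)) / r + r * (if r ∣ n then 1 else 0) := by
  have hcu : Nat.card (powMonoidHom (q + 1) : Kˣ →* Kˣ).ker = q + 1 := card_norm_ker hK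
  exact (pgData hK (by omega) hr hr2 hrq).card_classes hr (by omega) (by rw [hcu]; exact hrq)

end Cfsg.Agent.S2672
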