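import Cfsg.Statements.S2673
import Cfsg.Agent.Iso44.ODim

set_option autoImplicit false
open Cfsg

namespace Cfsg.Agent.S2673

open Cfsg.Agent.Iso44


/-- Number of conjugacy classes of elements of odd prime order r ≠ p in the orthogonal group O_(2m+1)(q) of x_0² + Σ x_j y_j, q odd: with i the multiplicative order of q mod r and t = (r − 1)/i, there are C(⌊m/i⌋ + t/2, t/2) − 1 classes if i is odd (dual pairs of totally singular i-blocks) and C(⌊(2m+1)/i⌋ + t, t) − 1 if i is even (elliptic i-blocks). -/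
theorem result {F : Type*} [Field F] [Fintype F] {p q : ℕ} [Fact p.Prime] [CharP F p] (hF : Fintype.card F = q) (hq : Odd q) (m r i t : ℕ) (hr : r.Prime) (hr2 : r ≠ 2) (hrp : r ≠ p) (hi : i = orderOf (q : ZMod r)) (ht : t * i = r - 1) : Nat.card {C : ConjClasses ↥(Cfsg.isometryGroup F (Cfsg.quadFormOdd m F)) // ∃ g : ↥(Cfsg.isometryGroup F (Cfsg.quadFormOdd m F)), ConjClasses.mk g = C ∧ orderOf g = r} = if Odd i then Nat.choose (m / i + t / 2) (t / 2) - 1 else Nat.choose ((2 * m + 1) / i + t) t - 1 := by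
  have hψ := AddChar.FiniteField.primitiveChar_to_Complex_isPrimitive F
  have h2 : (2 : F) ≠ 0 := by
    intro h
    have h3 : ((2 : ℕ) : F) = 0 := by exact_mod_cast h
    rw [CharP.cast_eq_zero_iff F p] at h3
    have h4 : p = 2 := (Nat.prime_dvd_prime_iff_eq (Fact.out) Nat.prime_two).1 h3
    obtain ⟨n, hn, hn2⟩ := FiniteField.card F p
    rw [hF, h4] at hn2
    rw [hn2, Nat.odd_pow_iff n.ne_zero] at hq
    exact absurd hq (by decide)
  have h1 := Iso44.card_classes_congr (Orth.bridge (Orth.qfOdd m F)) r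
  refine h1.trans ?_
  have hdim : Module.finrank F (Unit ⊕ (Fin m ⊕ Fin m) → F) = 2 * m + 1 := by
    rw [Module.finrank_fintype_fun_eq_card, Fintype.card_sum, Fintype.card_sum, Fintype.card_fin, Fintype.card_unit]; omega
  exact count_odd hF h2 (Orth.qfOdd_nondegenerate m F h2) hdim hr hr2 hrp hi ht _ hψ

end Cfsg.Agent.S2673
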