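import Cfsg.Statements.S2674
import Cfsg.Agent.Iso44.OCnt

set_option autoImplicit false
open Cfsg

namespace Cfsg.Agent.S2674

open Cfsg.Agent.Iso44


/-- Number of conjugacy classes of elements of odd prime order r ≠ p in the orthogonal group O⁺_2m(q) of Σ x_j y_j (m ≥ 1): with i the multiplicative order of q mod r and t = (r − 1)/i — if i is odd, C(⌊m/i⌋ + t/2, t/2) − 1; if i is even, C(⌊2m/i⌋ + t, t) − 1 minus, when i divides 2m with odd quotient, the C(2m/i + t − 1, t − 1) tuples using the whole space (an odd number of elliptic i-blocks fills an elliptic, not a hyperbolic, space). -/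
theorem result {F : Type*} [Field F] [Fintype F] {p q : ℕ} [Fact p.Prime] [CharP F p] (hF : Fintype.card F = q) (m r i t : ℕ) (hm : 1 ≤ m) (hr : r.Prime) (hr2 : r ≠ 2) (hrp : r ≠ p) (hi : i = orderOf (q : ZMod r)) (ht : t * i = r - 1) : Nat.card {C : ConjClasses ↥(Cfsg.isometryGroup F (Cfsg.quadFormPlus m F)) // ∃ g : ↥(Cfsg.isometryGroup F (Cfsg.quadFormPlus m F)), ConjClasses.mk g = C ∧ orderOf g = r} = if Odd i then Nat.choose (m / i + t / 2) (t / 2) - 1 else Nat.choose (2 * m / i + t) t - 1 - (if i ∣ 2 * m ∧ Odd (2 * m / i) then Nat.choose (2 * m / i + t - 1) (t - 1) else 0) := by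
  have hψ := AddChar.FiniteField.primitiveChar_to_Complex_isPrimitive F
  have h1 := Iso44.card_classes_congr (Orth.bridge (Orth.qfPlus m F)) r
  refine h1.trans ?_
  rw [count_even hF (Orth.qfPlus_nondegenerate m F) (Orth.finrank_V m F) hm hr hr2 hrp hi ht _ hψ (τ := 1) (by norm_num)
    (by rw [ga_plus _ hψ, one_mul])]
  by_cases h : Odd i
  · rw [if_pos h, if_pos h, if_neg (by simp), Nat.sub_zero]
  · rw [if_neg h, if_neg h]
    congr 1
    have e : (i ∣ 2 * m ∧ ¬ (1 : ℂ) = (-1) ^ (2 * m / i)) ↔ (i ∣ 2 * m ∧ Odd (2 * m / i)) := by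
      refine and_congr_right fun _ => ?_
      rcases Nat.even_or_odd (2 * m / i) with h2 | h2
      · rw [h2.neg_one_pow]
        simp only [not_true_eq_false, false_iff, Nat.not_odd_iff_even]
        exact h2
      · rw [h2.neg_one_pow]
        refine iff_of_true ?_ h2
        intro h3
        norm_num at h3
    by_cases h2 : i ∣ 2 * m ∧ Odd (2 * m / i)
    · rw [if_pos (e.2 h2), if_pos h2]
    · rw [if_neg (fun h3 => h2 (e.1 h3)), if_neg h2]

end Cfsg.Agent.S2674
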