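import Cfsg.Statements.S2676
import Cfsg.Agent.H43.SpUnip3

set_option autoImplicit false
open Classical
open Cfsg

namespace Cfsg.Agent.S2676

/-- Number of conjugacy classes of elements of order p in Sp_2m(q), q a power of the odd prime p: the classes correspond to the signed partitions of 2m — partitions with all parts at most p in which every odd part has even multiplicity, each even part size that occurs carrying a sign — other than the all-ones partition; so the count is the sum over such partitions of 2^(number of distinct even parts), minus one. -/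
theorem result {F : Type*} [Field F] [Fintype F] {p : ℕ} [Fact p.Prime] [CharP F p] (hp : p ≠ 2) (m : ℕ) : Nat.card {C : ConjClasses ↥(Matrix.symplecticGroup (Fin m) F) // ∃ g : Matrix.symplecticGroup (Fin m) F, ConjClasses.mk g = C ∧ orderOf g = p} = (∑ μ ∈ Finset.univ.filter (fun μ : Nat.Partition (2 * m) => (∀ a ∈ μ.parts, a ≤ p) ∧ ∀ j : ℕ, Odd j → Even (μ.parts.count j)), 2 ^ ((μ.parts.toFinset.filter (fun j : ℕ => Even j)).card)) - 1 := by
  have h2 : (2 : F) ≠ 0 := by
    intro h
    have h1 : ((2 : ℕ) : F) = 0 := by exact_mod_cast h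
    have h3 := (CharP.cast_eq_zero_iff F p 2).1 h1
    exact hp ((Nat.prime_dvd_prime_iff_eq Fact.out Nat.prime_two).1 h3)
  have hpp : p.Prime := Fact.out
  have h1 := Cfsg.Agent.H43.card_sp_classes (F := F) h2 (p := p) m
  rw [Cfsg.Agent.H43.card_LSp] at h1
  rw [← h1]
  obtain ⟨A, hA⟩ : ∃ A : Set (ConjClasses ↥(Matrix.symplecticGroup (Fin m) F)), A = {C | ∃ g : Matrix.symplecticGroup (Fin m) F, ConjClasses.mk g = C ∧ orderOf g = p} := ⟨_, rfl⟩
  obtain ⟨B, hB⟩ : ∃ B : Set (ConjClasses ↥(Matrix.symplecticGroup (Fin m) F)), B = {C | ∃ g : Matrix.symplecticGroup (Fin m) F, ConjClasses.mk g = C ∧ g ^ p = 1} := ⟨_, rfl⟩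
  have hAB : B = insert (ConjClasses.mk 1) A := by
    ext C
    rw [hA, hB, Set.mem_insert_iff]
    constructor
    · rintro ⟨g, rfl, hg⟩
      by_cases h : g = 1
      · left; rw [h]
      · right; exact ⟨g, rfl, orderOf_eq_prime hg h⟩
    · rintro (rfl | ⟨g, rfl, hg⟩)
      · exact ⟨1, rfl, one_pow p⟩
      · exact ⟨g, rfl, by rw [← hg]; exact pow_orderOf_eq_one g⟩
  have hnot : ConjClasses.mk (1 : Matrix.symplecticGroup (Fin m) F) ∉ A := by
    rw [hA]
    rintro ⟨g, hg, hgo⟩
    rw [ConjClasses.mk_eq_mk_iff_isConj] at hg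
    have h3 : g = 1 := by
      obtain ⟨c, hc⟩ := isConj_iff.1 hg
      rw [mul_inv_eq_iff_eq_mul, one_mul] at hc
      exact mul_left_cancel (hc.trans (mul_one c).symm)
    rw [h3, orderOf_one] at hgo
    exact hpp.one_lt.ne hgo
  have hfin : Finite (ConjClasses ↥(Matrix.symplecticGroup (Fin m) F)) := by
    have : Finite ↥(Matrix.symplecticGroup (Fin m) F) := Finite.of_injective (fun g => (g.1 : Matrix (Fin m ⊕ Fin m) (Fin m ⊕ Fin m) F)) (fun a b h => Subtype.ext h)
    exact Quotient.finite _
  have hc : Nat.card B = Nat.card A + 1 := by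
    rw [hAB, Nat.card_coe_set_eq, Nat.card_coe_set_eq]
    exact Set.ncard_insert_of_notMem hnot
  have e1 : Nat.card {C : ConjClasses ↥(Matrix.symplecticGroup (Fin m) F) // ∃ g : Matrix.symplecticGroup (Fin m) F, ConjClasses.mk g = C ∧ orderOf g = p} = Nat.card A := by
    rw [hA]; rfl
  have e2 : Nat.card {C : ConjClasses ↥(Matrix.symplecticGroup (Fin m) F) // ∃ g : Matrix.symplecticGroup (Fin m) F, ConjClasses.mk g = C ∧ g ^ p = 1} = Nat.card B := by
    rw [hB]; rfl
  rw [e1, e2, hc, Nat.add_sub_cancel]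

end Cfsg.Agent.S2676
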