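import Cfsg.Statements.S2677
import Cfsg.Agent.Uni.Basis

set_option autoImplicit false
open Cfsg

namespace Cfsg.Agent.S2677

open Cfsg.Agent.Uni Function

section
variable {K : Type*} [Field K] [Fintype K]

/-- scalar matrices times a matrix over the subfield -/
noncomputable def psi (K0 : Subfield K) (q₀ q n : ℕ) :
    ↥((powMonoidHom (q + 1) : Kˣ →* Kˣ).ker) × ↥(GU n K0 q₀) →* GL (Fin n) K :=
  MonoidHom.noncommCoprod
    ((Units.map (Matrix.scalar (Fin n) (α := K)).toMonoidHom).comp (Subgroup.subtype _))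
    ((Matrix.GeneralLinearGroup.map K0.subtype).comp (Subgroup.subtype _))
    (by
      intro d g
      apply Units.ext
      exact (Matrix.scalar_commute (d.1 : K) (fun r => mul_comm _ _) _).eq)

theorem psi_coe (K0 : Subfield K) (q₀ q n : ℕ) (d : ↥((powMonoidHom (q + 1) : Kˣ →* Kˣ).ker)) (g : ↥(GU n K0 q₀)) :
    ((psi K0 q₀ q n (d, g) : GL (Fin n) K) : Matrix (Fin n) (Fin n) K) =
      ((d : Kˣ) : K) • (((g : GL (Fin n) K0) : Matrix (Fin n) (Fin n) K0).map K0.subtype) := by
  show Matrix.scalar (Fin n) ((d : Kˣ) : K) * _ = _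
  rw [Matrix.scalar_apply, ← Matrix.smul_eq_diagonal_mul]
  rfl

end

/-- Centraliser of a field automorphism of odd prime order in PGU_n(q): let q = q₀^r with r an odd prime, K the field with q² elements and σ a field automorphism of K of order r (fixed field of order q₀²). The elements g of GU_n(q) whose entrywise image under σ is a scalar multiple of g — those whose coset modulo the q + 1 unitary scalars is fixed by σ — number (q + 1)/(q₀ + 1) · |GU_n(q₀)|; equivalently the centraliser in PGU_n(q) of the induced automorphism has the order of PGU_n(q₀). -/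
theorem result {K : Type*} [Field K] [Fintype K] {q₀ q r n : ℕ} (hr : r.Prime) (hr2 : r ≠ 2) (hn : 1 ≤ n) (hq : q = q₀ ^ r) (hK : Fintype.card K = q ^ 2) (σ : K ≃+* K) (hσ : orderOf σ = r) : (Nat.card {g : ↥(Cfsg.GU n K q) // ∃ c : K, c ≠ 0 ∧ ((g : GL (Fin n) K) : Matrix (Fin n) (Fin n) K).map σ = c • ((g : GL (Fin n) K) : Matrix (Fin n) (Fin n) K)} : ℤ) = ((q + 1) / (q₀ + 1) : ℕ) * ((q₀ : ℤ) ^ (n * (n - 1) / 2) * ∏ i : Fin n, ((q₀ : ℤ) ^ ((i : ℕ) + 1) - (-1) ^ ((i : ℕ) + 1))) := by
  classical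
  have hq0 : 2 ≤ q₀ := by
    have h1 : 2 ≤ q := two_le_q hK
    rcases Nat.lt_or_ge q₀ 2 with h | h
    · exfalso
      interval_cases q₀
      · rw [zero_pow hr.ne_zero] at hq; omega
      · rw [one_pow] at hq; omega
    · exact h
  have hrodd : Odd r := hr.odd_of_ne_two hr2
  have hfinA : Finite (K ≃+* K) := Finite.of_injective (fun τ : K ≃+* K => (τ : K → K)) DFunLike.coe_injective
  have hfinG : Finite (Subgroup.zpowers σ) := inferInstance
  have := Fintype.ofFinite (Subgroup.zpowers σ)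
  have hG : Fintype.card (Subgroup.zpowers σ) = r := by
    rw [← Nat.card_eq_fintype_card, Nat.card_zpowers, hσ]
  obtain ⟨K0, hK0⟩ : ∃ K0 : Subfield K, K0 = FixedPoints.subfield (Subgroup.zpowers σ) K := ⟨_, rfl⟩
  have hmem : ∀ x : K, x ∈ K0 ↔ σ x = x := by
    intro x
    rw [hK0]
    constructor
    · intro h
      exact h ⟨σ, Subgroup.mem_zpowers σ⟩
    · intro h m
      obtain ⟨m, k, rfl⟩ := m
      show (σ ^ k) x = x
      have h2 : (MulAction.stabilizer (K ≃+* K) x) = (MulAction.stabilizer (K ≃+* K) x) := rfl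
      have h3 : σ ∈ MulAction.stabilizer (K ≃+* K) x := h
      exact Subgroup.zpow_mem _ h3 k
  have hfr : Module.finrank K0 K = r := by
    rw [hK0, ← hG]
    exact FixedPoints.finrank_eq_card (Subgroup.zpowers σ) K
  have hcK0 : Fintype.card K0 = q₀ ^ 2 := by
    have h1 : Fintype.card K = Fintype.card K0 ^ r := by
      rw [← hfr]; exact Module.card_eq_pow_finrank (K := K0) (V := K)
    rw [hK, hq] at h1
    have h2 : (q₀ ^ 2) ^ r = Fintype.card K0 ^ r := by rw [← h1]; ring
    exact ((Nat.pow_left_inj hr.ne_zero).mp h2).symm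
  have hpw : ∀ x : K0, (x : K) ^ q = (x : K) ^ q₀ := by
    intro x
    obtain ⟨k, hk⟩ := hrodd
    have h1 : ∀ j : ℕ, (x : K) ^ (q₀ ^ (2 * j)) = x := by
      intro j
      have h2 := FiniteField.pow_card_pow j x
      rw [hcK0, ← pow_mul] at h2
      have h3 := congrArg (fun y : K0 => (y : K)) h2
      exact h3
    rw [hq, hk, pow_succ, pow_mul, h1 k]
  have hGU0 : ∀ g : GL (Fin n) K0, g ∈ GU n K0 q₀ ↔ (Matrix.GeneralLinearGroup.map K0.subtype g) ∈ GU n K q := by
    intro g
    have h1 := preserves_iff hcK0 (g : Matrix (Fin n) (Fin n) K0)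
    have h2 := preserves_iff hK ((Matrix.GeneralLinearGroup.map K0.subtype g : GL (Fin n) K) : Matrix (Fin n) (Fin n) K)
    rw [mem_GU, mem_GU, h1, h2]
    apply forall_congr'; intro i
    apply forall_congr'; intro j
    rw [hermForm_def, hermForm_def]
    rw [← (Subtype.val_injective (p := fun x => x ∈ K0)).eq_iff]
    have h3 : ((∑ k, (g : Matrix (Fin n) (Fin n) K0) k i * (g : Matrix (Fin n) (Fin n) K0) k j ^ q₀ : K0) : K) =
      ∑ k, ((Matrix.GeneralLinearGroup.map K0.subtype g : GL (Fin n) K) : Matrix (Fin n) (Fin n) K) k i *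
        ((Matrix.GeneralLinearGroup.map K0.subtype g : GL (Fin n) K) : Matrix (Fin n) (Fin n) K) k j ^ q := by
      push_cast
      apply Finset.sum_congr rfl
      intro k _
      show _ = (((g : Matrix (Fin n) (Fin n) K0) k i : K0) : K) * (((g : Matrix (Fin n) (Fin n) K0) k j : K0) : K) ^ q
      rw [hpw]
    rw [h3]
    have h4 : (((if i = j then 1 else 0 : K0)) : K) = if i = j then 1 else 0 := by
      split_ifs <;> rfl
    rw [h4]
  -- the range
  have hrange : ∀ A : GL (Fin n) K, A ∈ (psi K0 q₀ q n).range ↔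
      A ∈ GU n K q ∧ ∃ c : K, c ≠ 0 ∧ (A : Matrix (Fin n) (Fin n) K).map σ = c • (A : Matrix (Fin n) (Fin n) K) := by
    intro A
    constructor
    · rintro ⟨⟨d, g⟩, rfl⟩
      have hd : ((d : Kˣ) : K) ^ (q + 1) = 1 := congrArg Units.val d.2
      constructor
      · have h1 := (preserves_iff hK _).mp (mem_GU.mp ((hGU0 g).mp g.2))
        rw [mem_GU, preserves_iff hK, psi_coe]
        intro i j
        have h2 := h1 i j
        rw [hermForm_def] at h2 ⊢
        rw [← h2]
        apply Finset.sum_congr rfl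
        intro k _
        simp only [Matrix.smul_apply, smul_eq_mul]
        show ((d : Kˣ) : K) * (((g : GL (Fin n) K0) k i : K0) : K) * (((d : Kˣ) : K) * (((g : GL (Fin n) K0) k j : K0) : K)) ^ q =
          (((g : GL (Fin n) K0) k i : K0) : K) * (((g : GL (Fin n) K0) k j : K0) : K) ^ q
        rw [mul_pow]
        rw [pow_succ] at hd
        linear_combination (((g : GL (Fin n) K0) k i : K0) : K) * (((g : GL (Fin n) K0) k j : K0) : K) ^ q * hd
      · refine ⟨σ (d : Kˣ) / (d : Kˣ), ?_, ?_⟩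
        · apply div_ne_zero
          · rw [Ne, map_eq_zero_iff _ σ.injective]; exact (d : Kˣ).ne_zero
          · exact (d : Kˣ).ne_zero
        · rw [psi_coe]
          ext i j
          simp only [Matrix.map_apply, Matrix.smul_apply, smul_eq_mul, map_mul]
          have h1 : σ (K0.subtype ((g : GL (Fin n) K0) i j)) = K0.subtype ((g : GL (Fin n) K0) i j) :=
            (hmem _).mp ((g : GL (Fin n) K0) i j).2
          rw [h1]
          have := (d : Kˣ).ne_zero
          field_simp
    · rintro ⟨hA, c, hc0, hc⟩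
      have hentry : ∃ i j, (A : Matrix (Fin n) (Fin n) K) i j ≠ 0 := by
        by_contra h
        push Not at h
        have h0 : (A : Matrix (Fin n) (Fin n) K) = 0 := by ext i j; exact h i j
        have h1 : (A : Matrix (Fin n) (Fin n) K).det ≠ 0 := by
          have := (Matrix.GeneralLinearGroup.det A).ne_zero
          exact this
        have : Nonempty (Fin n) := ⟨⟨0, hn⟩⟩
        rw [h0, Matrix.det_zero] at h1
        exact h1 rfl
      obtain ⟨i0, j0, hd0⟩ := hentry
      obtain ⟨d, hd⟩ : ∃ d : K, d = (A : Matrix (Fin n) (Fin n) K) i0 j0 := ⟨_, rfl⟩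
      rw [← hd] at hd0
      have hent : ∀ i j, σ ((A : Matrix (Fin n) (Fin n) K) i j) = c * (A : Matrix (Fin n) (Fin n) K) i j := by
        intro i j
        exact congrFun (congrFun hc i) j
      have hσd : σ d = c * d := by rw [hd]; exact hent i0 j0
      have hin : ∀ i j, (A : Matrix (Fin n) (Fin n) K) i j / d ∈ K0 := by
        intro i j
        rw [hmem, map_div₀, hent, hσd]
        field_simp
      -- the norm of d
      have hON := (preserves_iff hK _).mp (mem_GU.mp hA)
      have h00 := hON j0 j0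
      rw [if_pos rfl, hermForm_def] at h00
      have hfix : d ^ (q + 1) ∈ K0 := by
        have h1 : (d ^ (q + 1))⁻¹ = ∑ k, ((A : Matrix (Fin n) (Fin n) K) k j0 / d) * ((A : Matrix (Fin n) (Fin n) K) k j0 / d) ^ q := by
          rw [← one_div, ← h00, Finset.sum_div]
          apply Finset.sum_congr rfl
          intro k _
          rw [div_pow, pow_succ]
          field_simp
        have h2 : (d ^ (q + 1))⁻¹ ∈ K0 := by
          rw [h1]
          exact Subfield.sum_mem _ (fun k _ => Subfield.mul_mem _ (hin _ _) (Subfield.pow_mem _ (hin _ _) _))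
        have h3 := Subfield.inv_mem _ h2
        rwa [inv_inv] at h3
      have he1 : (⟨d ^ (q + 1), hfix⟩ : K0) ^ q₀ = ⟨d ^ (q + 1), hfix⟩ := by
        apply Subtype.ext
        have h1 := hpw ⟨d ^ (q + 1), hfix⟩
        have h2 := norm_pow_q hK d
        exact h1.symm.trans h2
      obtain ⟨f, hf⟩ := exists_norm_eq hcK0 he1
      have hf1 : (f : K) ^ q₀ * (f : K) = d ^ (q + 1) := by
        rw [← pow_succ]
        exact congrArg (fun y : K0 => (y : K)) hf
      have hf2 : (f : K) ^ (q + 1) = d ^ (q + 1) := by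
        rw [pow_succ, hpw, hf1]
      have hf0 : (f : K) ≠ 0 := by
        intro h0
        rw [h0, mul_zero] at hf1
        exact pow_ne_zero _ hd0 hf1.symm
      have hu : (Units.mk0 (d / f) (div_ne_zero hd0 hf0)) ∈ (powMonoidHom (q + 1) : Kˣ →* Kˣ).ker := by
        rw [MonoidHom.mem_ker]
        apply Units.ext
        show (d / f) ^ (q + 1) = 1
        rw [div_pow, hf2, div_self (pow_ne_zero _ hd0)]
      let H : Matrix (Fin n) (Fin n) K0 := fun i j => ⟨(A : Matrix (Fin n) (Fin n) K) i j / d, hin i j⟩ * f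
      have hH : ∀ i j, (H i j : K) = (A : Matrix (Fin n) (Fin n) K) i j / d * f := fun i j => rfl
      have hHON : IsON q₀ (fun i r => H r i) := by
        intro i j
        rw [hermForm_def]
        apply Subtype.val_injective
        push_cast
        have h1 := hON i j
        rw [hermForm_def] at h1
        have h2 : ∑ k, (H k i : K) * (H k j : K) ^ q₀ =
            ∑ k, (A : Matrix (Fin n) (Fin n) K) k i * (A : Matrix (Fin n) (Fin n) K) k j ^ q := by
          apply Finset.sum_congr rfl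
          intro k _
          rw [← hpw, hH, hH]
          rw [pow_succ, pow_succ] at hf2
          rw [mul_pow, div_pow]
          field_simp
          linear_combination (A : Matrix (Fin n) (Fin n) K) k i * (A : Matrix (Fin n) (Fin n) K) k j ^ q * hf2
        rw [h2]
        rw [h1]
        split_ifs <;> rfl
      refine ⟨(⟨_, hu⟩, ofON hcK0 _ hHON), ?_⟩
      apply Units.ext
      rw [psi_coe, ofON_coe]
      ext i j
      show (d / f) * (H i j : K) = _
      rw [hH]
      field_simp
  -- the kernel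
  have hker : Nat.card (psi K0 q₀ q n).ker = q₀ + 1 := by
    rw [← card_norm_ker hcK0]
    symm
    have a1 : ∀ x : ↥((powMonoidHom (q₀ + 1) : K0ˣ →* K0ˣ).ker), (((x : K0ˣ) : K0) : K) ^ (q + 1) = 1 := by
      intro x
      have h1 : ((x : K0ˣ) : K0) ^ (q₀ + 1) = 1 := congrArg Units.val x.2
      have h2 : (((x : K0ˣ) : K0) : K) ^ (q₀ + 1) = 1 := congrArg (fun y : K0 => (y : K)) h1
      rw [pow_succ, hpw, ← pow_succ, h2]
    have a2 : ∀ x : ↥((powMonoidHom (q₀ + 1) : K0ˣ →* K0ˣ).ker),
        (Units.map (Matrix.scalar (Fin n) (α := K0)).toMonoidHom (x : K0ˣ)⁻¹) ∈ GU n K0 q₀ := by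
      intro x
      have h1 : ((x : K0ˣ) : K0) ^ (q₀ + 1) = 1 := congrArg Units.val x.2
      rw [mem_GU]
      intro u v
      have h2 : ∀ w : Fin n → K0, ((Units.map (Matrix.scalar (Fin n) (α := K0)).toMonoidHom (x : K0ˣ)⁻¹ : GL (Fin n) K0) :
          Matrix (Fin n) (Fin n) K0).mulVec w = (((x : K0ˣ)⁻¹ : K0ˣ) : K0) • w := by
        intro w
        show (Matrix.scalar (Fin n) (((x : K0ˣ)⁻¹ : K0ˣ) : K0)).mulVec w = _
        rw [Matrix.scalar_apply, ← Matrix.smul_one_eq_diagonal, Matrix.smul_mulVec, Matrix.one_mulVec]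
      rw [h2, h2, hermForm_smul_left, hermForm_smul_right, ← mul_assoc, ← pow_succ']
      rw [← Units.val_pow_eq_pow_val, inv_pow]
      have h3 : (x : K0ˣ) ^ (q₀ + 1) = 1 := x.2
      rw [h3, inv_one, Units.val_one, one_mul]
    have a3 : ∀ x : ↥((powMonoidHom (q₀ + 1) : K0ˣ →* K0ˣ).ker),
        (⟨Units.map (K0.subtype : K0 →* K) (x : K0ˣ), by
          rw [MonoidHom.mem_ker]; apply Units.ext; exact a1 x⟩, ⟨_, a2 x⟩) ∈ (psi K0 q₀ q n).ker := by
      intro x
      rw [MonoidHom.mem_ker]
      apply Units.ext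
      rw [psi_coe]
      ext i j
      show (((x : K0ˣ) : K0) : K) * ((Matrix.scalar (Fin n) (((x : K0ˣ)⁻¹ : K0ˣ) : K0) i j : K0) : K) = (1 : Matrix (Fin n) (Fin n) K) i j
      rw [Matrix.scalar_apply, Matrix.diagonal_apply, Matrix.one_apply]
      split_ifs with h
      · have h1 : ((x : K0ˣ) : K0) * (((x : K0ˣ)⁻¹ : K0ˣ) : K0) = 1 := by rw [← Units.val_mul, mul_inv_cancel, Units.val_one]
        exact congrArg (fun y : K0 => (y : K)) h1
      · show _ * (0 : K) = 0
        rw [mul_zero]
    refine Nat.card_eq_of_bijective (fun x => (⟨_, a3 x⟩ : ↥(psi K0 q₀ q n).ker)) ⟨?_, ?_⟩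
    · intro x y hxy
      have h1 := congrArg (fun z : ↥(psi K0 q₀ q n).ker => ((z.1.1 : Kˣ) : K)) hxy
      apply Subtype.ext
      apply Units.ext
      exact Subtype.val_injective h1
    · rintro ⟨⟨d, g⟩, hdg⟩
      have h1 : psi K0 q₀ q n (d, g) = 1 := hdg
      have h2 := congrArg (fun z : GL (Fin n) K => (z : Matrix (Fin n) (Fin n) K)) h1
      simp only [psi_coe] at h2
      have h3 : ∀ i j, ((d : Kˣ) : K) * (((g : GL (Fin n) K0) i j : K0) : K) = (1 : Matrix (Fin n) (Fin n) K) i j := by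
        intro i j
        exact congrFun (congrFun h2 i) j
      have hd1 : ((d : Kˣ) : K) ∈ K0 := by
        have h4 := h3 ⟨0, hn⟩ ⟨0, hn⟩
        rw [Matrix.one_apply_eq] at h4
        have h5 : ((d : Kˣ) : K) = ((((g : GL (Fin n) K0) ⟨0, hn⟩ ⟨0, hn⟩ : K0)⁻¹ : K0) : K) := by
          push_cast
          exact eq_inv_of_mul_eq_one_left h4
        rw [h5]
        exact Subtype.mem _
      have hd2 : (⟨_, hd1⟩ : K0) ≠ 0 := by
        intro h
        exact (d : Kˣ).ne_zero (congrArg (fun y : K0 => (y : K)) h)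
      have hd3 : Units.mk0 (⟨_, hd1⟩ : K0) hd2 ∈ (powMonoidHom (q₀ + 1) : K0ˣ →* K0ˣ).ker := by
        rw [MonoidHom.mem_ker]
        apply Units.ext
        apply Subtype.val_injective
        show ((d : Kˣ) : K) ^ (q₀ + 1) = 1
        have h4 : ((d : Kˣ) : K) ^ (q + 1) = 1 := congrArg Units.val d.2
        rw [pow_succ]
        rw [pow_succ, hpw ⟨_, hd1⟩] at h4
        exact h4
      refine ⟨⟨_, hd3⟩, ?_⟩
      apply Subtype.ext
      apply Prod.ext
      · apply Subtype.ext
        apply Units.ext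
        rfl
      · apply Subtype.ext
        apply Units.ext
        ext i j
        have h4 := h3 i j
        have h5 : (((g : GL (Fin n) K0) i j : K0) : K) = ((d : Kˣ) : K)⁻¹ * (1 : Matrix (Fin n) (Fin n) K) i j := by
          rw [← h4]
          have := (d : Kˣ).ne_zero
          field_simp
        show ((Matrix.scalar (Fin n) (((Units.mk0 (⟨_, hd1⟩ : K0) hd2)⁻¹ : K0ˣ) : K0) i j : K0) : K) = (((g : GL (Fin n) K0) i j : K0) : K)
        rw [h5, Matrix.scalar_apply, Matrix.diagonal_apply, Matrix.one_apply]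
        split_ifs with h
        · rw [mul_one]; rfl
        · rw [mul_zero]; rfl
  have hXc : Nat.card {g : ↥(Cfsg.GU n K q) // ∃ c : K, c ≠ 0 ∧ ((g : GL (Fin n) K) : Matrix (Fin n) (Fin n) K).map σ = c • ((g : GL (Fin n) K) : Matrix (Fin n) (Fin n) K)} =
      Nat.card (psi K0 q₀ q n).range := by
    rw [Nat.card_congr (Equiv.subtypeSubtypeEquivSubtypeInter (fun A : GL (Fin n) K => A ∈ GU n K q)
      (fun A : GL (Fin n) K => ∃ c : K, c ≠ 0 ∧ (A : Matrix (Fin n) (Fin n) K).map σ = c • (A : Matrix (Fin n) (Fin n) K)))]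
    apply Nat.card_congr
    exact Equiv.subtypeEquivRight (fun A => (hrange A).symm)
  have hmain : (q₀ + 1) * Nat.card (psi K0 q₀ q n).range = (q + 1) * Nat.card (GU n K0 q₀) := by
    rw [← hker, ← Subgroup.index_ker, Subgroup.card_mul_index, Nat.card_prod, card_norm_ker hK]
  have hdvd : q₀ + 1 ∣ q + 1 := by
    have := hrodd.nat_add_dvd_pow_add_pow q₀ 1
    rwa [one_pow, ← hq] at this
  obtain ⟨k, hk⟩ := hdvd
  have hdiv : (q + 1) / (q₀ + 1) = k := by rw [hk, Nat.mul_div_cancel_left _ (by omega)]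
  have hmain2 : (q₀ + 1) * Nat.card (psi K0 q₀ q n).range = (q₀ + 1) * (k * Nat.card (GU n K0 q₀)) := by
    rw [hmain]
    nth_rewrite 1 [hk]
    rw [mul_assoc]
  have hfin := Nat.eq_of_mul_eq_mul_left (by omega) hmain2
  rw [hXc, hfin, hdiv, card_GU hcK0]
  push_cast
  rw [← Fin.prod_univ_eq_prod_range (fun i => (if Even i then (q₀ : ℤ) ^ (i + 1) + 1 else ((q₀ ^ (i + 1) - 1 : ℕ) : ℤ)))]
  congr 2
  apply Finset.prod_congr rfl
  intro i _
  split_ifs with h
  · rw [pow_succ (-1 : ℤ), h.neg_one_pow]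
    ring
  · rw [Nat.cast_sub (Nat.one_le_pow _ _ (by omega))]
    push_cast
    rw [pow_succ (-1 : ℤ), (Nat.not_even_iff_odd.mp h).neg_one_pow]
    ring

end Cfsg.Agent.S2677
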