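import Cfsg.Statements.S2678
import Cfsg.Agent.Orth.TraceForm

set_option autoImplicit false
set_option linter.unusedSimpArgs false
open Cfsg

namespace Cfsg.Agent.S2678

open Cfsg.Agent.Orth Cfsg.Agent

section

variable {K F : Type*} [Field K] [Field F] [Algebra F K] (a : ℕ)

theorem smul_eq' (c : F) (u : Fin a ⊕ Fin a → K) : c • u = algebraMap F K c • u := by
  funext i; rw [Pi.smul_apply, Pi.smul_apply, Algebra.smul_def, smul_eq_mul]

noncomputable def trS (K F : Type*) [Field K] [Field F] [Algebra F K] (a : ℕ) : LinearMap.BilinForm F (Fin a ⊕ Fin a → K) :=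
  LinearMap.mk₂ F (fun u v => Algebra.trace F K (ClassSp.sf u v))
    (fun u u' v => by rw [ClassSp.sf_add_left, map_add])
    (fun c u v => by rw [smul_eq', ClassSp.sf_smul_left, ← Algebra.smul_def, map_smul])
    (fun u v v' => by rw [ClassSp.sf_add_right, map_add])
    (fun c u v => by rw [smul_eq', ClassSp.sf_smul_right, ← Algebra.smul_def, map_smul])

theorem trS_apply (u v : Fin a ⊕ Fin a → K) : trS K F a u v = Algebra.trace F K (ClassSp.sf u v) := rfl

theorem trS_alt : (trS K F a).IsAlt := by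
  intro u
  rw [trS_apply, ClassSp.sf_self, map_zero]

theorem trS_nd [Fintype K] [Fintype F] {q : ℕ} (hK : Fintype.card K = q ^ 2) (hF : Fintype.card F = q) : (trS K F a).Nondegenerate := by
  have key : ∀ u : Fin a ⊕ Fin a → K, (∀ v, trS K F a v u = 0) → u = 0 := by
    intro u hu
    apply ClassSp.eq_zero_of_sf
    intro v
    by_contra hne
    obtain ⟨z, hz⟩ := exists_trace_ne_zero (F := F) hK hF
    have h1 := hu ((z / ClassSp.sf v u) • v)
    rw [trS_apply, ClassSp.sf_smul_left, div_mul_cancel₀ _ hne] at h1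
    exact hz h1
  refine ⟨fun u hu => key u fun v => ?_, key⟩
  rw [← LinearMap.BilinForm.IsAlt.neg_eq (trS_alt a), hu, neg_zero]

/-- The symplectic group acting `F`-linearly. -/
noncomputable def spF (a : ℕ) (K : Type*) [Field K] (F : Type*) [Field F] [Algebra F K] :
    ↥(Matrix.symplecticGroup (Fin a) K) →* ((Fin a ⊕ Fin a → K) ≃ₗ[F] (Fin a ⊕ Fin a → K)) where
  toFun g :=
    { toFun := fun v => (g : Matrix (Fin a ⊕ Fin a) (Fin a ⊕ Fin a) K).mulVec v
      invFun := fun v => ((g⁻¹ : Matrix.symplecticGroup (Fin a) K) : Matrix (Fin a ⊕ Fin a) (Fin a ⊕ Fin a) K).mulVec v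
      map_add' := fun v w => Matrix.mulVec_add _ v w
      map_smul' := fun c v => Matrix.mulVec_smul _ c v
      left_inv := fun v => ClassSp.inv_mulVec_mulVec g v
      right_inv := fun v => ClassSp.mulVec_inv_mulVec g v }
  map_one' := by
    ext1 v
    exact Matrix.one_mulVec v
  map_mul' g h := by
    ext1 v
    exact (Matrix.mulVec_mulVec v _ _).symm

theorem spF_apply (g : ↥(Matrix.symplecticGroup (Fin a) K)) (v : Fin a ⊕ Fin a → K) :
    spF a K F g v = (g : Matrix (Fin a ⊕ Fin a) (Fin a ⊕ Fin a) K).mulVec v := rfl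

end

/-- Field-extension embedding of symplectic groups: for a field K with q² elements and a field F with q elements there is an injective homomorphism Sp_2a(K) → Sp_4a(F). -/
theorem result {K F : Type*} [Field K] [Fintype K] [Field F] [Fintype F] {q : ℕ} (hK : Fintype.card K = q ^ 2) (hF : Fintype.card F = q) (a : ℕ) : ∃ φ : ↥(Matrix.symplecticGroup (Fin a) K) →* ↥(Matrix.symplecticGroup (Fin (2 * a)) F), Function.Injective φ := by
  classical
  obtain ⟨ι⟩ := exists_ringHom hK hF
  letI : Algebra F K := ι.toAlgebra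
  have hA := trS_alt (K := K) (F := F) a
  have hB := trS_nd (K := K) (F := F) a hK hF
  obtain ⟨k, e, f, b, h, he, hf, hk⟩ := Cfsg.Agent.Witt.exists_darboux (trS K F a) hA hB
  have hfr : Module.finrank F (Fin a ⊕ Fin a → K) = 2 * (2 * a) := by
    rw [Module.finrank_pi_fintype, Finset.sum_const, Finset.card_univ, Fintype.card_sum, Fintype.card_fin,
      finrank_two hK hF, smul_eq_mul]
    ring
  rw [hfr] at hk
  obtain rfl : k = 2 * a := by omega
  have hsf := darboux_sf hA b h he hf
  have hmem : ∀ g : ↥(Matrix.symplecticGroup (Fin a) K), LinearMap.toMatrix b b (spF a K F g : (Fin a ⊕ Fin a → K) →ₗ[F] (Fin a ⊕ Fin a → K))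
      ∈ Matrix.symplecticGroup (Fin (2 * a)) F := by
    intro g
    rw [ClassSp.mem_symplectic_iff]
    intro u v
    obtain ⟨u', rfl⟩ := b.equivFun.surjective u
    obtain ⟨v', rfl⟩ := b.equivFun.surjective v
    have h1 : ∀ w, (LinearMap.toMatrix b b (spF a K F g : (Fin a ⊕ Fin a → K) →ₗ[F] (Fin a ⊕ Fin a → K))).mulVec
        (b.equivFun w) = b.equivFun (spF a K F g w) := fun w =>
      LinearMap.toMatrix_mulVec_repr b b _ w
    rw [h1, h1, hsf, hsf, spF_apply, spF_apply, trS_apply, trS_apply, ClassSp.sf_mulVec]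
  refine ⟨
    { toFun := fun g => ⟨_, hmem g⟩
      map_one' := Subtype.ext ?_
      map_mul' := fun g h => Subtype.ext ?_ }, ?_⟩
  · change LinearMap.toMatrix b b (spF a K F 1 : (Fin a ⊕ Fin a → K) →ₗ[F] (Fin a ⊕ Fin a → K)) = 1
    rw [map_one]
    exact LinearMap.toMatrix_one b
  · change LinearMap.toMatrix b b (spF a K F (g * h) : (Fin a ⊕ Fin a → K) →ₗ[F] (Fin a ⊕ Fin a → K)) =
      LinearMap.toMatrix b b (spF a K F g : (Fin a ⊕ Fin a → K) →ₗ[F] (Fin a ⊕ Fin a → K)) *
      LinearMap.toMatrix b b (spF a K F h : (Fin a ⊕ Fin a → K) →ₗ[F] (Fin a ⊕ Fin a → K))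
    rw [_root_.map_mul, ← LinearMap.toMatrix_comp b b b]
    rfl
  · intro g h hgh
    have h1 := congrArg Subtype.val hgh
    have h2 := (LinearMap.toMatrix b b).injective h1
    apply ClassSp.ext_vec
    intro v
    exact LinearMap.congr_fun h2 v

end Cfsg.Agent.S2678
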