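import Cfsg.Statements.S2679
import Cfsg.Agent.Orth.TraceForm
import Cfsg.Agent.Orth.Bridge
import Cfsg.Agent.H41.Torus

set_option autoImplicit false
set_option linter.unusedSimpArgs false
open Cfsg

namespace Cfsg.Agent.S2679

open Cfsg.Agent.Orth Cfsg.Agent

/-- the change of coordinates -/
noncomputable def chg {K : Type*} [Field K] (k : ℕ) (α β : K) (h : α - β ≠ 0) :
    ((Fin k ⊕ Fin k) ⊕ Fin 2 → K) ≃ₗ[K] (Fin (k + 1) ⊕ Fin (k + 1) → K) where
  toFun v := Sum.elim (Fin.cons (v (Sum.inr 0) + α * v (Sum.inr 1)) (fun i => v (Sum.inl (Sum.inl i))))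
    (Fin.cons (v (Sum.inr 0) + β * v (Sum.inr 1)) (fun i => v (Sum.inl (Sum.inr i))))
  invFun w := Sum.elim (Sum.elim (fun i => w (Sum.inl i.succ)) (fun i => w (Sum.inr i.succ)))
    ![w (Sum.inl 0) - α * ((w (Sum.inl 0) - w (Sum.inr 0)) / (α - β)), (w (Sum.inl 0) - w (Sum.inr 0)) / (α - β)]
  map_add' v w := by
    funext i
    rcases i with i | i <;> refine Fin.cases ?_ (fun j => ?_) i <;> simp <;> ring
  map_smul' c v := by
    funext i
    rcases i with i | i <;> refine Fin.cases ?_ (fun j => ?_) i <;> simp <;> ring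
  left_inv v := by
    funext i
    rcases i with (i | i) | i
    · simp
    · simp
    · fin_cases i
      · simp; field_simp; ring
      · simp; field_simp; try ring
  right_inv w := by
    funext i
    rcases i with i | i
    · refine Fin.cases ?_ (fun j => ?_) i
      · simp
      · simp
    · refine Fin.cases ?_ (fun j => ?_) i
      · simp; field_simp; ring
      · simp

theorem plus_chg {K : Type*} [Field K] (k : ℕ) (α β : K) (h : α - β ≠ 0) (v : (Fin k ⊕ Fin k) ⊕ Fin 2 → K) :
    Cfsg.quadFormPlus (k + 1) K (chg k α β h v) = Cfsg.quadFormMinus k K (α + β) (α * β) v := by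
  rw [Cfsg.quadFormPlus, Cfsg.quadFormMinus, Fin.sum_univ_succ]
  simp [chg]
  ring

/-- the group homomorphism -/
noncomputable def psi {F K : Type*} [Field F] [Field K] (j : F →+* K) {ι κ : Type} [Fintype ι] [DecidableEq ι] [Fintype κ] [DecidableEq κ]
    (e : (ι → K) ≃ₗ[K] (κ → K)) : Matrix.GeneralLinearGroup ι F →* Matrix.GeneralLinearGroup κ K :=
  (Matrix.GeneralLinearGroup.toLin (n := κ) (R := K)).symm.toMonoidHom.comp
    ((LinearMap.GeneralLinearGroup.congrLinearEquiv e).toMonoidHom.comp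
      ((Matrix.GeneralLinearGroup.toLin (n := ι) (R := K)).toMonoidHom.comp (Matrix.GeneralLinearGroup.map j)))

theorem psi_mulVec {F K : Type*} [Field F] [Field K] (j : F →+* K) {ι κ : Type} [Fintype ι] [DecidableEq ι] [Fintype κ] [DecidableEq κ]
    (e : (ι → K) ≃ₗ[K] (κ → K)) (g : Matrix.GeneralLinearGroup ι F) (w : κ → K) :
    (psi j e g : Matrix κ κ K).mulVec w = e (((g : Matrix ι ι F).map j).mulVec (e.symm w)) := by
  have h1 : Matrix.GeneralLinearGroup.toLin (psi j e g) = LinearMap.GeneralLinearGroup.congrLinearEquiv e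
      (Matrix.GeneralLinearGroup.toLin (Matrix.GeneralLinearGroup.map j g)) := by
    change Matrix.GeneralLinearGroup.toLin (Matrix.GeneralLinearGroup.toLin.symm _) = _
    rw [MulEquiv.apply_symm_apply]
    rfl
  have h2 := congrArg (fun x : LinearMap.GeneralLinearGroup K (κ → K) => (x : (κ → K) →ₗ[K] (κ → K)) w) h1
  exact h2

theorem psi_injective {F K : Type*} [Field F] [Field K] (j : F →+* K) {ι κ : Type} [Fintype ι] [DecidableEq ι] [Fintype κ] [DecidableEq κ]
    (e : (ι → K) ≃ₗ[K] (κ → K)) : Function.Injective (psi j e) := by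
  intro g h hgh
  apply Units.ext
  have h1 : ∀ v, ((g : Matrix ι ι F).map j).mulVec v = ((h : Matrix ι ι F).map j).mulVec v := by
    intro v
    have h2 := psi_mulVec j e g (e v)
    have h3 := psi_mulVec j e h (e v)
    rw [hgh, h3, e.symm_apply_apply] at h2
    exact (e.injective h2).symm
  have h2 : (g : Matrix ι ι F).map j = (h : Matrix ι ι F).map j := matrix_eq_of_mulVec h1
  ext i k
  exact j.injective (congrFun (congrFun h2 i) k)

theorem exists_root {F K : Type*} [Field F] [Field K] [Finite K] [Algebra F K] (h2 : Module.finrank F K = 2) (a c : F) :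
    ∃ z : K, z ^ 2 - algebraMap F K a * z + algebraMap F K c = 0 := by
  have := H41.finite_base F K
  obtain ⟨f, hf⟩ : ∃ f : Polynomial F, f = Polynomial.C 1 * Polynomial.X ^ 2 + Polynomial.C (-a) * Polynomial.X + Polynomial.C c := ⟨_, rfl⟩
  have hdeg : f.natDegree = 2 := by rw [hf]; exact Polynomial.natDegree_quadratic one_ne_zero
  have heval : ∀ z : K, Polynomial.aeval z f = z ^ 2 - algebraMap F K a * z + algebraMap F K c := by
    intro z; simp [hf]; ring
  by_cases hirr : Irreducible f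
  · have hdvd : f ∣ Polynomial.X ^ (Nat.card F) ^ 2 - Polynomial.X := by
      rw [← hirr.natDegree_dvd_iff_dvd_X_pow_card_pow_sub_X, hdeg]
    have hspl : ((Polynomial.X ^ (Nat.card F) ^ 2 - Polynomial.X : Polynomial F).map (algebraMap F K)).Splits := by
      rw [← H41.card_quadExt h2]
      have := Polynomial.splits_X_pow_nat_card_sub_X (K := K)
      simpa using this
    have hne : (Polynomial.X ^ (Nat.card F) ^ 2 - Polynomial.X : Polynomial F) ≠ 0 := by
      apply FiniteField.X_pow_card_sub_X_ne_zero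
      have : 1 < Nat.card F := Finite.one_lt_card
      nlinarith
    have hspl2 : (f.map (algebraMap F K)).Splits := by
      refine Polynomial.Splits.of_dvd hspl (Polynomial.map_ne_zero hne) (Polynomial.map_dvd _ hdvd)
    obtain ⟨z, hz⟩ := hspl2.exists_eval_eq_zero (by
      rw [Polynomial.degree_map, Polynomial.degree_eq_natDegree hirr.ne_zero, hdeg]; norm_num)
    refine ⟨z, ?_⟩
    rw [← heval, Polynomial.aeval_def, ← Polynomial.eval_map]
    exact hz
  · rw [Polynomial.irreducible_iff_roots_eq_zero_of_degree_le_three (by rw [hdeg]) (by rw [hdeg]; norm_num)] at hirr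
    obtain ⟨a, ha⟩ := Multiset.exists_mem_of_ne_zero hirr
    have h0 : f.eval a = 0 := (Polynomial.mem_roots'.mp ha).2
    refine ⟨algebraMap F K a, ?_⟩
    rw [← heval, Polynomial.aeval_algebraMap_apply]
    have : Polynomial.aeval a f = f.eval a := by simp [Polynomial.aeval_def, Polynomial.eval₂_eq_eval_map]
    rw [this, h0, map_zero]

theorem minus_ext {F K : Type*} [Field F] [Field K] (ι : F →+* K) (k : ℕ) (a c : F) (θ : K) (x y : (Fin k ⊕ Fin k) ⊕ Fin 2 → F) :
    Cfsg.quadFormMinus k K (ι a) (ι c) ((fun i => ι (x i)) + θ • (fun i => ι (y i))) =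
      ι (Cfsg.quadFormMinus k F a c x) + θ ^ 2 * ι (Cfsg.quadFormMinus k F a c y) +
        θ * (ι (Cfsg.quadFormMinus k F a c (x + y)) - ι (Cfsg.quadFormMinus k F a c x) - ι (Cfsg.quadFormMinus k F a c y)) := by
  have e : ∀ u v : (Fin k ⊕ Fin k) ⊕ Fin 2 → K, Cfsg.quadFormMinus k K (ι a) (ι c) (u + θ • v) =
      Cfsg.quadFormMinus k K (ι a) (ι c) u + θ ^ 2 * Cfsg.quadFormMinus k K (ι a) (ι c) v +
        θ * (Cfsg.quadFormMinus k K (ι a) (ι c) (u + v) - Cfsg.quadFormMinus k K (ι a) (ι c) u - Cfsg.quadFormMinus k K (ι a) (ι c) v) := by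
    intro u v
    simp only [Cfsg.quadFormMinus, Pi.add_apply, Pi.smul_apply, smul_eq_mul]
    have h1 : ∀ t : K, ∑ i : Fin k, (u (Sum.inl (Sum.inl i)) + t * v (Sum.inl (Sum.inl i))) * (u (Sum.inl (Sum.inr i)) + t * v (Sum.inl (Sum.inr i))) =
        (∑ i : Fin k, u (Sum.inl (Sum.inl i)) * u (Sum.inl (Sum.inr i))) + t ^ 2 * (∑ i : Fin k, v (Sum.inl (Sum.inl i)) * v (Sum.inl (Sum.inr i))) +
          t * (∑ i : Fin k, (u (Sum.inl (Sum.inl i)) * v (Sum.inl (Sum.inr i)) + v (Sum.inl (Sum.inl i)) * u (Sum.inl (Sum.inr i)))) := by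
      intro t
      rw [Finset.mul_sum, Finset.mul_sum, ← Finset.sum_add_distrib, ← Finset.sum_add_distrib]
      apply Finset.sum_congr rfl
      intro i _
      ring
    have h2 := h1 1
    simp only [one_mul] at h2
    rw [h1, h2]
    ring
  have e2 : ∀ x : (Fin k ⊕ Fin k) ⊕ Fin 2 → F, Cfsg.quadFormMinus k K (ι a) (ι c) (fun i => ι (x i)) = ι (Cfsg.quadFormMinus k F a c x) := by
    intro x
    simp only [Cfsg.quadFormMinus, _root_.map_add, _root_.map_mul, map_pow, map_sum]
  have e3 : (fun i => ι (x i)) + (fun i => ι (y i)) = fun i => ι ((x + y) i) := by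
    funext i; simp
  rw [e, e3, e2, e2, e2]

/-- An elliptic orthogonal group embeds in the hyperbolic orthogonal group of the same dimension over the quadratic extension: for a field F with q elements and a field K with q² elements there is an injective homomorphism from O⁻_2m(F) (isometries of Σ_(j<m−1) x_j y_j + z₁² + a z₁z₂ + c z₂², binary part anisotropic) to O⁺_2m(K) (isometries of Σ_(j<m) x_j y_j over K). -/
theorem result {F K : Type*} [Field F] [Fintype F] [Field K] [Fintype K] {q : ℕ} (hF : Fintype.card F = q) (hK : Fintype.card K = q ^ 2) {m : ℕ} (hm : 1 ≤ m) (a c : F) (hac : ∀ z₁ z₂ : F, z₁ ^ 2 + a * z₁ * z₂ + c * z₂ ^ 2 = 0 → z₁ = 0 ∧ z₂ = 0) : ∃ φ : ↥(Cfsg.isometryGroup F (Cfsg.quadFormMinus (m - 1) F a c)) →* ↥(Cfsg.isometryGroup K (Cfsg.quadFormPlus m K)), Function.Injective φ := by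
  classical
  obtain ⟨k, rfl⟩ : ∃ k, m = k + 1 := ⟨m - 1, by omega⟩
  rw [Nat.add_sub_cancel]
  obtain ⟨ι⟩ := exists_ringHom hK hF
  let _ : Algebra F K := ι.toAlgebra
  have hfr := finrank_two (F := F) (K := K) hK hF
  have hdisc : a ^ 2 - 4 * c ≠ 0 := disc_ne_zero_of_aniso hac
  -- roots in `K`
  obtain ⟨α, hα⟩ : ∃ α : K, α ^ 2 - ι a * α + ι c = 0 := exists_root hfr a c
  obtain ⟨β, hβ⟩ : ∃ β, β = ι a - α := ⟨_, rfl⟩
  have hab : α + β = ι a := by rw [hβ]; ring
  have habc : α * β = ι c := by rw [hβ]; linear_combination -hα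
  have hne : α - β ≠ 0 := by
    intro h
    apply hdisc
    apply ι.injective
    rw [map_sub, map_pow, _root_.map_mul, map_zero, ← hab, ← habc, map_ofNat]
    linear_combination (α - β) * h
  have hαF : ∀ x : F, ι x ≠ α := by
    intro x hx
    have h1 : x ^ 2 - a * x + c = 0 := by
      apply ι.injective
      rw [_root_.map_add, map_sub, map_pow, _root_.map_mul, map_zero, hx, hα]
    have h2 := (hac (-x) 1 (by linear_combination h1)).2
    exact one_ne_zero h2
  -- a basis of `K`
  have hθ : ∀ x : K, ∃ x₁ x₂ : F, x = ι x₁ + α * ι x₂ := by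
    have hli : LinearIndependent F ![(1 : K), α] := by
      rw [LinearIndependent.pair_iff]
      intro s t hst
      rw [Algebra.smul_def, Algebra.smul_def, mul_one] at hst
      change ι s + ι t * α = 0 at hst
      have ht : t = 0 := by
        by_contra ht
        apply hαF (-(s / t))
        rw [map_neg, map_div₀]
        have ht' : ι t ≠ 0 := by rw [Ne, map_eq_zero]; exact ht
        field_simp
        linear_combination -hst
      refine ⟨?_, ht⟩
      rw [ht, map_zero, zero_mul, add_zero, map_eq_zero] at hst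
      exact hst
    let b := basisOfLinearIndependentOfCardEqFinrank hli (by rw [hfr]; rfl)
    intro x
    refine ⟨b.repr x 0, b.repr x 1, ?_⟩
    have h1 := b.sum_repr x
    rw [Fin.sum_univ_two] at h1
    have hb0 : b 0 = 1 := by simp [b]
    have hb1 : b 1 = α := by simp [b]
    rw [hb0, hb1, Algebra.smul_def, Algebra.smul_def, mul_one] at h1
    rw [← h1]
    change ι _ + ι _ * α = _
    simp only [h1]
    ring
  have hinv : ∀ g ∈ Cfsg.isometryGroup F (Cfsg.quadFormMinus k F a c), ∀ v : (Fin k ⊕ Fin k) ⊕ Fin 2 → K,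
      Cfsg.quadFormMinus k K (ι a) (ι c) (((g : Matrix _ _ F).map ι).mulVec v) = Cfsg.quadFormMinus k K (ι a) (ι c) v := by
    intro g hg v
    have hQ : ∀ x, Cfsg.quadFormMinus k F a c ((g : Matrix _ _ F).mulVec x) = Cfsg.quadFormMinus k F a c x := fun x => hg x x
    choose f₁ f₂ hf using hθ
    have hv : v = (fun i => ι (f₁ (v i))) + α • (fun i => ι (f₂ (v i))) := by
      funext i
      simp only [Pi.add_apply, Pi.smul_apply, smul_eq_mul]
      exact hf (v i)
    obtain ⟨x₁, hx₁⟩ : ∃ x₁ : (Fin k ⊕ Fin k) ⊕ Fin 2 → F, x₁ = fun i => f₁ (v i) := ⟨_, rfl⟩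
    obtain ⟨x₂, hx₂⟩ : ∃ x₂ : (Fin k ⊕ Fin k) ⊕ Fin 2 → F, x₂ = fun i => f₂ (v i) := ⟨_, rfl⟩
    have hv' : v = (fun i => ι (x₁ i)) + α • (fun i => ι (x₂ i)) := by rw [hx₁, hx₂]; exact hv
    have hmv : ∀ x : (Fin k ⊕ Fin k) ⊕ Fin 2 → F, ((g : Matrix ((Fin k ⊕ Fin k) ⊕ Fin 2) ((Fin k ⊕ Fin k) ⊕ Fin 2) F).map ι).mulVec (fun i => ι (x i)) = fun i => ι ((g : Matrix ((Fin k ⊕ Fin k) ⊕ Fin 2) ((Fin k ⊕ Fin k) ⊕ Fin 2) F).mulVec x i) := by
      intro x
      funext i
      simp [Matrix.mulVec, dotProduct]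
    rw [hv', Matrix.mulVec_add, Matrix.mulVec_smul, hmv, hmv, minus_ext, minus_ext, ← Matrix.mulVec_add, hQ, hQ, hQ]
  have hmem : ∀ g : ↥(Cfsg.isometryGroup F (Cfsg.quadFormMinus k F a c)),
      psi ι (chg k α β hne) (g : Matrix.GeneralLinearGroup _ F) ∈ Cfsg.isometryGroup K (Cfsg.quadFormPlus (k + 1) K) := by
    intro g u _
    change Cfsg.quadFormPlus (k + 1) K ((psi ι (chg k α β hne) (g : Matrix.GeneralLinearGroup _ F) : Matrix _ _ K).mulVec u) = Cfsg.quadFormPlus (k + 1) K u
    rw [psi_mulVec, plus_chg, hab, habc, hinv _ g.2, ← hab, ← habc, ← plus_chg (h := hne), LinearEquiv.apply_symm_apply]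
  refine ⟨((psi ι (chg k α β hne)).comp (Subgroup.subtype _)).codRestrict _ hmem, ?_⟩
  intro g h hgh
  apply Subtype.ext
  exact psi_injective ι _ (congrArg Subtype.val hgh)

end Cfsg.Agent.S2679
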