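import Cfsg.Statements.S2680
import Cfsg.Agent.H41.InvolCentSp

set_option autoImplicit false
open Cfsg

namespace Cfsg.Agent.S2680

open Cfsg.Agent.H41 Cfsg.Agent.H43 Cfsg.Agent.ClGeo

/-- Centraliser order of an involution t of Sp_2m(q), q even, with s = rank(t − 1) odd (type b_s): |C(t)| = q^(2ms − (3s² − s)/2) · |Sp_(s−1)(q)| · |Sp_(2m−2s)(q)|, where |Sp_2k(q)| = q^(k²) Π_(i=1)^k (q^(2i) − 1). -/
theorem result {F : Type*} [Field F] [Fintype F] [CharP F 2] {q : ℕ} (hF : Fintype.card F = q) {m s : ℕ} (t : Matrix.symplecticGroup (Fin m) F) (ht : t ^ 2 = 1) (hs : ((t : Matrix (Fin m ⊕ Fin m) (Fin m ⊕ Fin m) F) - 1).rank = s) (hodd : Odd s) : Nat.card ↥(Subgroup.centralizer ({t} : Set ↥(Matrix.symplecticGroup (Fin m) F))) = q ^ (2 * m * s - (3 * s ^ 2 - s) / 2) * ((q : ℕ) ^ (((s - 1) / 2) ^ 2) * ∏ i : Fin ((s - 1) / 2), (q ^ (2 * ((i : ℕ) + 1)) - 1)) * ((q : ℕ) ^ ((m - s) ^ 2) * ∏ i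 : Fin (m - s), (q ^ (2 * ((i : ℕ) + 1)) - 1)) := by
  have hs' := rank_spHom t
  rw [hs] at hs'
  have hinv := invol_spHom t ht
  have hna : ∃ v, sB F m v (nn (spHom F m t) v) ≠ 0 := by
    by_contra hcon
    push Not at hcon
    obtain ⟨k, hk, -⟩ := exists_data_alt (f := sB F m) (sB_isAlt m) (fun x h => sB_nd x h) hinv (spHom_mem F m t) hcon
    rw [hs'] at hk
    obtain ⟨j, hj⟩ := hodd
    omega
  have hsm : s ≤ m := by
    rw [← hs']
    exact rank_le (f := sB F m) sB_nd hinv (by rw [Module.finrank_fintype_fun_eq_card, Fintype.card_sum, Fintype.card_fin]; ring)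
  obtain ⟨k, rfl⟩ := hodd
  rw [card_cent_sp, sp_nonalt (by omega) (spHom_mem F m t) hinv hs' hna, hF, orN_odd, spO_fin, spO_fin]
  obtain ⟨d, rfl⟩ := Nat.exists_eq_add_of_le hsm
  have e1 : (2 * k + 1 - 1) / 2 = k := by omega
  have e2 : 2 * k + 1 + d - (2 * k + 1) = d := by omega
  have e3 : 2 * (2 * k + 1 + d) * (2 * k + 1) - (3 * (2 * k + 1) ^ 2 - (2 * k + 1)) / 2 = 2 * d * (2 * k + 1) + (2 * k + 1) * (2 * k + 1 + 1) / 2 := by
    have h1 : 3 * (2 * k + 1) ^ 2 - (2 * k + 1) = 2 * (6 * k ^ 2 + 5 * k + 1) := by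
      have : 3 * (2 * k + 1) ^ 2 = 2 * (6 * k ^ 2 + 5 * k + 1) + (2 * k + 1) := by ring
      omega
    have h2 : (2 * k + 1) * (2 * k + 1 + 1) = 2 * (2 * k ^ 2 + 3 * k + 1) := by ring
    rw [h1, h2, Nat.mul_div_cancel_left _ (by norm_num), Nat.mul_div_cancel_left _ (by norm_num)]
    have h3 : 2 * (2 * k + 1 + d) * (2 * k + 1) = 2 * d * (2 * k + 1) + (2 * k ^ 2 + 3 * k + 1) + (6 * k ^ 2 + 5 * k + 1) := by ring
    omega
  rw [e1, e2, e3]
  ring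

end Cfsg.Agent.S2680
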