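import Cfsg.Statements.S2681
import Cfsg.Agent.H41.InvolCentSp

set_option autoImplicit false
open Cfsg

namespace Cfsg.Agent.S2681

open Cfsg.Agent.H41 Cfsg.Agent.H43 Cfsg.Agent.ClGeo

/-- Centraliser order of an involution t of Sp_2m(q), q even, with s = rank(t − 1) even and f(v, tv) = 0 for every v, f the symplectic form (type a_s): |C(t)| = q^(2ms − (3s² − s)/2) · |Sp_s(q)| · |Sp_(2m−2s)(q)|. -/
theorem result {F : Type*} [Field F] [Fintype F] [CharP F 2] {q : ℕ} (hF : Fintype.card F = q) {m s : ℕ} (t : Matrix.symplecticGroup (Fin m) F) (ht : t ^ 2 = 1) (ht1 : t ≠ 1) (hs : ((t : Matrix (Fin m ⊕ Fin m) (Fin m ⊕ Fin m) F) - 1).rank = s) (heven : Even s) (halt : ∀ v : Fin m ⊕ Fin m → F, Cfsg.sympForm m F v ((t : Matrix (Fin m ⊕ Fin m) (Fin m ⊕ Fin m) F).mulVec v) = 0) : Nat.card ↥(Subgroup.centralizer ({t} : Set ↥(Matrix.symplecticGroup (Fin m) F))) = q ^ (2 * m * s - (3 * s ^ 2 - s) / 2) * ((q : ℕ)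 ^ ((s / 2) ^ 2) * ∏ i : Fin (s / 2), (q ^ (2 * ((i : ℕ) + 1)) - 1)) * ((q : ℕ) ^ ((m - s) ^ 2) * ∏ i : Fin (m - s), (q ^ (2 * ((i : ℕ) + 1)) - 1)) := by
  have hs' := rank_spHom t
  rw [hs] at hs'
  have hinv := invol_spHom t ht
  have hsm : s ≤ m := by
    rw [← hs']
    exact rank_le (f := sB F m) sB_nd hinv (by rw [Module.finrank_fintype_fun_eq_card, Fintype.card_sum, Fintype.card_fin]; ring)
  obtain ⟨k, hk⟩ := heven
  have hk : s = 2 * k := by omega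
  subst hk
  rw [card_cent_sp, sp_alt (spHom_mem F m t) hinv hs' (fun v => by rw [f_nn_eq]; exact halt v), hF, spO_fin, spO_fin]
  obtain ⟨d, rfl⟩ := Nat.exists_eq_add_of_le hsm
  have e2 : 2 * k + d - (2 * k) = d := by omega
  have e3 : 2 * (2 * k + d) * (2 * k) - (3 * (2 * k) ^ 2 - (2 * k)) / 2 = 2 * d * (2 * k) + (2 * k) * (2 * k + 1) / 2 := by
    have h1 : 3 * (2 * k) ^ 2 - (2 * k) = 2 * (6 * k ^ 2 - k) := by
      have : 3 * (2 * k) ^ 2 = 2 * (6 * k ^ 2) := by ring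
      omega
    have h2 : (2 * k) * (2 * k + 1) = 2 * (2 * k ^ 2 + k) := by ring
    rw [h1, h2, Nat.mul_div_cancel_left _ (by norm_num), Nat.mul_div_cancel_left _ (by norm_num)]
    have h3 : 2 * (2 * k + d) * (2 * k) = 2 * d * (2 * k) + 8 * k ^ 2 := by ring
    have h4 : k ≤ k ^ 2 := Nat.le_self_pow (by norm_num) k
    omega
  rw [e2, e3]
  ring

end Cfsg.Agent.S2681
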