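import Cfsg.Statements.S2683
import Cfsg.Agent.H41.InvolCentO

set_option autoImplicit false
open Cfsg

namespace Cfsg.Agent.S2683

open Cfsg.Agent.H41 Cfsg.Agent.H43 Cfsg.Agent.Orth QuadraticMap

/-- For the hyperbolic form Σ x_j y_j on F^(2m) over a finite field with q elements, q even (excluding m = 2 over the field of two elements), and an involution x of the orthogonal group with s = rank(x − 1) odd (type b_s; such x lie outside Ω): the elements of Ω (the commutator subgroup of the orthogonal group) commuting with x number q^(2m(s−1) − (3s² − 3s)/2) · |Sp_(s−1)(q)| · |Sp_(2m−2s)(q)|, where |Sp_2k(q)| = q^(k²) Π_(i=1)^k (q^(2i) − 1). -/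
theorem result {F : Type*} [Field F] [Fintype F] [CharP F 2] {q : ℕ} (hF : Fintype.card F = q) {m s : ℕ} (h : Fintype.card F ≠ 2 ∨ m ≠ 2) (x : ↥(Cfsg.isometryGroup F (Cfsg.quadFormPlus m F))) (hx : x ^ 2 = 1) (hs : (((x : Matrix.GeneralLinearGroup (Fin m ⊕ Fin m) F) : Matrix (Fin m ⊕ Fin m) (Fin m ⊕ Fin m) F) - 1).rank = s) (hodd : Odd s) : Nat.card {g : ↥(Cfsg.Omega F (Cfsg.quadFormPlus m F)) // (g : ↥(Cfsg.isometryGroup F (Cfsg.quadFormPlus m F))) * x = x * (g : ↥(Cfsg.isometryGroup F (Cfsg.quadFormPlus m F)))} = q ^ (2 * m * (s - 1) - (3 * s ^ 2 - 3 * s) / 2) * ((q : ℕ) ^ (((s - 1) / 2) ^ 2) * ∏ i : Fin ((s - 1) / 2), (q ^ (2 * ((i : ℕ) + 1)) - 1)) * ((q : ℕ) ^ ((m - s) ^ 2) * ∏ i : Fin (m - s), (q ^ (2 * ((i : ℕ) + 1)) - 1)) := by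
  have hQ := qfPlus_nondegenerate m F
  have hR : RGrp (qfPlus m F) = ⊤ := by
    apply RGrp_top_of_card hQ
    rw [finrank_plus]
    rcases h with h | h
    · exact Or.inl h
    · right; omega
  obtain ⟨t, ht⟩ : ∃ t : OGrp (qfPlus m F), t = bridge (qfPlus m F) x := ⟨_, rfl⟩
  have hs' := rank_bridge (qfPlus m F) x
  rw [← ht] at hs'
  replace hs' := hs'.trans hs
  have hinv : ∀ v, (t : (Fin m ⊕ Fin m → F) ≃ₗ[F] (Fin m ⊕ Fin m → F)) ((t : (Fin m ⊕ Fin m → F) ≃ₗ[F] (Fin m ⊕ Fin m → F)) v) = v := by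
    rw [ht]
    exact invol_bridge2 (qfPlus m F) x hx
  have hnd := nd_of_nondegenerate hQ
  have hna : ∃ v, polarBilin (qfPlus m F) v (nn (t : (Fin m ⊕ Fin m → F) ≃ₗ[F] (Fin m ⊕ Fin m → F)) v) ≠ 0 := by
    by_contra hcon
    push Not at hcon
    obtain ⟨k, hk, -⟩ := exists_data_alt (pB_alt (qfPlus m F)) hnd hinv (O_isom _ t.2) hcon
    rw [hs'] at hk
    obtain ⟨j, hj⟩ := hodd
    omega
  have hsm : s ≤ m := by
    rw [← hs']
    exact rank_le hnd hinv finrank_plus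
  obtain ⟨k, rfl⟩ := hodd
  have hc' : t ∉ commutator (OGrp (qfPlus m F)) := by
    rw [mem_comm_iff hQ hR, hs']
    simp [parity_simps]
  have h1 := card_omega_half (qfPlus m F) hQ hR x t (by rw [ht]) hc'
  rw [← ht, o_nonalt t.2 hinv hs' hna, hF, orN_odd] at h1
  obtain ⟨d, rfl⟩ := Nat.exists_eq_add_of_le hsm
  have e1 : (2 * k + 1 - 1) / 2 = k := by omega
  have e2 : 2 * k + 1 + d - (2 * k + 1) = d := by omega
  have e3 : 2 * (2 * k + 1 + d) * (2 * k + 1 - 1) - (3 * (2 * k + 1) ^ 2 - 3 * (2 * k + 1)) / 2 = (2 * d + 1) * (2 * k) + 2 * k * (2 * k - 1) / 2 := by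
    have h1 : 3 * (2 * k + 1) ^ 2 - 3 * (2 * k + 1) = 2 * (6 * k ^ 2 + 3 * k) := by
      have : 3 * (2 * k + 1) ^ 2 = 2 * (6 * k ^ 2 + 3 * k) + 3 * (2 * k + 1) := by ring
      omega
    have h2 : 2 * k * (2 * k - 1) = 2 * (k * (2 * k - 1)) := by ring
    rw [h1, h2, Nat.mul_div_cancel_left _ (by norm_num), Nat.mul_div_cancel_left _ (by norm_num), Nat.add_sub_cancel]
    have h3 : 2 * (2 * k + 1 + d) * (2 * k) = (2 * d + 1) * (2 * k) + (2 * k ^ 2 - k) + (6 * k ^ 2 + 3 * k) := by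
      have h4 : k ≤ k ^ 2 := Nat.le_self_pow (by norm_num) k
      zify [show k ≤ 2 * k ^ 2 by omega]
      ring
    have h5 : k * (2 * k - 1) = 2 * k ^ 2 - k := by
      rw [Nat.mul_sub, mul_one]; congr 1; ring
    omega
  rw [spO_fin, spO_fin, e1, e2, e3]
  rw [e2] at h1
  apply Nat.eq_of_mul_eq_mul_left (show 0 < 2 by norm_num)
  refine h1.trans ?_
  ring

end Cfsg.Agent.S2683
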