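import Cfsg.Statements.S2684
import Cfsg.Agent.H41.InvolCentO

set_option autoImplicit false
open Cfsg

namespace Cfsg.Agent.S2684

open Cfsg.Agent.H41 Cfsg.Agent.H43 Cfsg.Agent.Orth QuadraticMap

/-- For the hyperbolic form Q = Σ x_j y_j on F^(2m) over a finite field with q elements, q even (excluding m = 2 over the field of two elements), and an involution x ≠ 1 of the orthogonal group with s = rank(x − 1) even and Q vanishing on the image of x − 1 (equivalently f(v, xv) = 0 for all v, where f(u, w) = Q(u + w) − Q(u) − Q(w) is the bilinear form of Q; type a_s, which lies in Ω): its centraliser in Ω (the commutator subgroup of the orthogonal group) has order q^(2ms − (3s² + s)/2) · |Sp_s(q)| · |Ω⁺_(2m−2s)(q)|, where |Ω⁺_2k(q)| = q^(k(k−1)) (q^k − 1) Π_(i=1)^(k−1) (q^(2i) − 1) for k ≥ 1 and the last factor is 1 when s = m. -/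
theorem result {F : Type*} [Field F] [Fintype F] [CharP F 2] {q : ℕ} (hF : Fintype.card F = q) {m s : ℕ} (h : Fintype.card F ≠ 2 ∨ m ≠ 2) (x : ↥(Cfsg.isometryGroup F (Cfsg.quadFormPlus m F))) (hx : x ^ 2 = 1) (hx1 : x ≠ 1) (hs : (((x : Matrix.GeneralLinearGroup (Fin m ⊕ Fin m) F) : Matrix (Fin m ⊕ Fin m) (Fin m ⊕ Fin m) F) - 1).rank = s) (heven : Even s) (halt : ∀ v : Fin m ⊕ Fin m → F, Cfsg.quadFormPlus m F ((((x : Matrix.GeneralLinearGroup (Fin m ⊕ Fin m) F) : Matrix (Fin m ⊕ Fin m) (Fin m ⊕ Fin m) F) - 1).mulVec v) = 0) : Nat.card {g : ↥(Cfsg.Omega F (Cfsg.quadFormPlus m F)) // (g : ↥(Cfsg.isometryGroup F (Cfsg.quadFormPlus m F))) * x = x * (g : ↥(Cfsg.isometryGroup F (Cfsg.quadFormPlus m F)))} = q ^ (2 * m * s - (3 * s ^ 2 + s) / 2) * ((q : ℕ) ^ ((s / 2) ^ 2) * ∏ i : Fin (s / 2), (q ^ (2 * ((i : ℕ) + 1)) - 1)) * (if s = m then 1 else q ^ ((m - s) * (m - s - 1)) * (q ^ (m - s) - 1) * ∏ i : Fin (m - s - 1), (q ^ (2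 * ((i : ℕ) + 1)) - 1)) := by
  have hQ := qfPlus_nondegenerate m F
  have hR : RGrp (qfPlus m F) = ⊤ := by
    apply RGrp_top_of_card hQ
    rw [finrank_plus]
    rcases h with h | h
    · exact Or.inl h
    · right; omega
  obtain ⟨t, ht⟩ : ∃ t : OGrp (qfPlus m F), t = bridge (qfPlus m F) x := ⟨_, rfl⟩
  have hs' := rank_bridge (qfPlus m F) x
  rw [← ht] at hs'
  replace hs' := hs'.trans hs
  have hinv : ∀ v, (t : (Fin m ⊕ Fin m → F) ≃ₗ[F] (Fin m ⊕ Fin m → F)) ((t : (Fin m ⊕ Fin m → F) ≃ₗ[F] (Fin m ⊕ Fin m → F)) v) = v := by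
    rw [ht]
    exact invol_bridge2 (qfPlus m F) x hx
  have hnd := nd_of_nondegenerate hQ
  have ha : ∀ v, polarBilin (qfPlus m F) v (nn (t : (Fin m ⊕ Fin m → F) ≃ₗ[F] (Fin m ⊕ Fin m → F)) v) = 0 := by
    intro v
    rw [← Q_nn t.2, ht]
    exact (congrArg (fun L => qfPlus m F (L v)) (nn_bridge (qfPlus m F) x)).trans (halt v)
  have hsm : s ≤ m := by
    rw [← hs']
    exact rank_le hnd hinv finrank_plus
  have hs0 : s ≠ 0 := by
    rintro rfl
    apply hx1
    have h1 : LinearMap.range (nn (t : (Fin m ⊕ Fin m → F) ≃ₗ[F] (Fin m ⊕ Fin m → F))) = ⊥ := Submodule.finrank_eq_zero.1 hs'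
    have h2 : nn (t : (Fin m ⊕ Fin m → F) ≃ₗ[F] (Fin m ⊕ Fin m → F)) = 0 := LinearMap.range_eq_bot.1 h1
    rw [nn_eq_zero_iff] at h2
    have h3 : t = 1 := Subtype.ext h2
    rw [ht] at h3
    exact (bridge (qfPlus m F)).injective (h3.trans (map_one _).symm)
  obtain ⟨k, hk⟩ := heven
  have hk : s = 2 * k := by omega
  subst hk
  obtain ⟨d, rfl⟩ := Nat.exists_eq_add_of_le hsm
  have e1 : 2 * k / 2 = k := by omega
  have e2 : 2 * k + d - (2 * k) = d := by omega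
  have e3 : 2 * (2 * k + d) * (2 * k) - (3 * (2 * k) ^ 2 + 2 * k) / 2 = 2 * d * (2 * k) + 2 * k * (2 * k - 1) / 2 := by
    have h1 : 3 * (2 * k) ^ 2 + 2 * k = 2 * (6 * k ^ 2 + k) := by ring
    have h2 : 2 * k * (2 * k - 1) = 2 * (k * (2 * k - 1)) := by ring
    rw [h1, h2, Nat.mul_div_cancel_left _ (by norm_num), Nat.mul_div_cancel_left _ (by norm_num)]
    have h4 : k ≤ k ^ 2 := Nat.le_self_pow (by norm_num) k
    have h3 : 2 * (2 * k + d) * (2 * k) = 2 * d * (2 * k) + (2 * k ^ 2 - k) + (6 * k ^ 2 + k) := by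
      zify [show k ≤ 2 * k ^ 2 by omega]
      ring
    have h5 : k * (2 * k - 1) = 2 * k ^ 2 - k := by
      rw [Nat.mul_sub, mul_one]; congr 1; ring
    omega
  have hcard := o_alt t.2 hinv hs' ha
  rw [spO_fin, e1, e2, e3]
  by_cases hd : d = 0
  · subst hd
    rw [if_pos (by rfl)]
    have h1 := card_omega_all (qfPlus (2 * k + 0) F) x (fun g hg => comm_mem hQ hR finrank_plus t hinv ha hs' g (by rw [ht]; exact hg))
    rw [← ht, hcard, hF, e1, e2, goO] at h1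
    refine h1.trans ?_
    ring
  · rw [if_neg (by omega)]
    obtain ⟨d, rfl⟩ : ∃ d', d = d' + 1 := ⟨d - 1, by omega⟩
    obtain ⟨u, hu, htu⟩ := exists_fixed hQ finrank_plus t hinv (Or.inr (by rw [hs']; omega))
    have h1 := card_omega_half (qfPlus (2 * k + (d + 1)) F) hQ hR x (refl _ u hu) (by rw [← ht]; exact refl_comm hu htu) (refl_not_mem hQ hR hu)
    rw [← ht, hcard, hF, e1, e2, goO] at h1
    apply Nat.eq_of_mul_eq_mul_left (show 0 < 2 by norm_num)
    refine h1.trans ?_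
    rw [Nat.add_sub_cancel, ← spO_fin q d]
    have e4 : q ^ ((d + 1) * d) = q ^ d * q ^ (d ^ 2) := by rw [← pow_add]; congr 1; ring
    rw [e4]
    ring

end Cfsg.Agent.S2684
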