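import Cfsg.Statements.S2685
import Cfsg.Agent.H41.InvolCentO

set_option autoImplicit false
open Cfsg

namespace Cfsg.Agent.S2685

open Cfsg.Agent.H41 Cfsg.Agent.H43 Cfsg.Agent.Orth QuadraticMap

/-- For the hyperbolic form Q = Σ x_j y_j on F^(2m) over a finite field with q elements, q even (excluding m = 2 over the field of two elements), and an involution x of the orthogonal group with s = rank(x − 1) even and Q not vanishing on the image of x − 1 (f(v, xv) ≠ 0 for some v, where f(u, w) = Q(u + w) − Q(u) − Q(w) is the bilinear form of Q; type c_s, which lies in Ω): its centraliser in Ω (the commutator subgroup of the orthogonal group) has order q^(2m(s−1) − (3s² − 5s)/2 − 1) · |Sp_(s−2)(q)| · |Sp_(2m−2s)(q)|. -/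
theorem result {F : Type*} [Field F] [Fintype F] [CharP F 2] {q : ℕ} (hF : Fintype.card F = q) {m s : ℕ} (h : Fintype.card F ≠ 2 ∨ m ≠ 2) (x : ↥(Cfsg.isometryGroup F (Cfsg.quadFormPlus m F))) (hx : x ^ 2 = 1) (hs : (((x : Matrix.GeneralLinearGroup (Fin m ⊕ Fin m) F) : Matrix (Fin m ⊕ Fin m) (Fin m ⊕ Fin m) F) - 1).rank = s) (heven : Even s) (hna : ∃ v : Fin m ⊕ Fin m → F, Cfsg.quadFormPlus m F ((((x : Matrix.GeneralLinearGroup (Fin m ⊕ Fin m) F) : Matrix (Fin m ⊕ Fin m) (Fin m ⊕ Fin m) F) - 1).mulVec v) ≠ 0) : Nat.card {g : ↥(Cfsg.Omega F (Cfsg.quadFormPlus m F)) // (g : ↥(Cfsg.isometryGroup F (Cfsg.quadFormPlus m F))) * x = x * (g : ↥(Cfsg.isometryGroup F (Cfsg.quadFormPlus m F)))} = q ^ (2 * m * (s - 1) - (3 * s ^ 2 - 5 * s) / 2 - 1) * ((q : ℕ) ^ (((s - 2) / 2) ^ 2) * ∏ i : Fin ((s - 2) / 2), (q ^ (2 * ((i : ℕ) + 1)) - 1)) * ((q : ℕ) ^ ((m - s) ^ 2) * ∏ i : Fin (m - s), (q ^ (2 *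 ((i : ℕ) + 1)) - 1)) := by
  have hQ := qfPlus_nondegenerate m F
  have hR : RGrp (qfPlus m F) = ⊤ := by
    apply RGrp_top_of_card hQ
    rw [finrank_plus]
    rcases h with h | h
    · exact Or.inl h
    · right; omega
  obtain ⟨t, ht⟩ : ∃ t : OGrp (qfPlus m F), t = bridge (qfPlus m F) x := ⟨_, rfl⟩
  have hs' := rank_bridge (qfPlus m F) x
  rw [← ht] at hs'
  replace hs' := hs'.trans hs
  have hinv : ∀ v, (t : (Fin m ⊕ Fin m → F) ≃ₗ[F] (Fin m ⊕ Fin m → F)) ((t : (Fin m ⊕ Fin m → F) ≃ₗ[F] (Fin m ⊕ Fin m → F)) v) = v := by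
    rw [ht]
    exact invol_bridge2 (qfPlus m F) x hx
  have hnd := nd_of_nondegenerate hQ
  have hna' : ∃ v, polarBilin (qfPlus m F) v (nn (t : (Fin m ⊕ Fin m → F) ≃ₗ[F] (Fin m ⊕ Fin m → F)) v) ≠ 0 := by
    obtain ⟨v, hv⟩ := hna
    refine ⟨v, ?_⟩
    rw [← Q_nn t.2, ht]
    intro h0
    exact hv ((congrArg (fun L => qfPlus m F (L v)) (nn_bridge (qfPlus m F) x)).symm.trans h0)
  have hsm : s ≤ m := by
    rw [← hs']
    exact rank_le hnd hinv finrank_plus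
  have hs0 : s ≠ 0 := by
    rintro rfl
    obtain ⟨v, hv⟩ := hna'
    have h1 : LinearMap.range (nn (t : (Fin m ⊕ Fin m → F) ≃ₗ[F] (Fin m ⊕ Fin m → F))) = ⊥ := Submodule.finrank_eq_zero.1 hs'
    have h2 : nn (t : (Fin m ⊕ Fin m → F) ≃ₗ[F] (Fin m ⊕ Fin m → F)) = 0 := LinearMap.range_eq_bot.1 h1
    rw [h2, LinearMap.zero_apply, map_zero] at hv
    exact hv rfl
  obtain ⟨k, hk⟩ := heven
  obtain ⟨k, rfl⟩ : ∃ j, k = j + 1 := ⟨k - 1, by omega⟩
  have hk : s = 2 * k + 1 + 1 := by omega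
  subst hk
  obtain ⟨u, hu, htu⟩ := exists_fixed hQ finrank_plus t hinv (Or.inl hna')
  have h1 := card_omega_half (qfPlus m F) hQ hR x (refl _ u hu) (by rw [← ht]; exact refl_comm hu htu) (refl_not_mem hQ hR hu)
  rw [← ht, o_nonalt t.2 hinv hs' hna', hF, show 2 * k + 1 + 1 = 2 * k + 2 from rfl, orN_even] at h1
  obtain ⟨d, rfl⟩ := Nat.exists_eq_add_of_le hsm
  have e1 : (2 * k + 1 + 1 - 2) / 2 = k := by omega
  have e2 : 2 * k + 1 + 1 + d - (2 * k + 1 + 1) = d := by omega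
  have e2' : 2 * k + 1 + 1 + d - (2 * k + 2) = d := by omega
  have e3 : 2 * (2 * k + 1 + 1 + d) * (2 * k + 1 + 1 - 1) - (3 * (2 * k + 1 + 1) ^ 2 - 5 * (2 * k + 1 + 1)) / 2 - 1 = (2 * k + 1) + ((2 * d + 1) * (2 * k + 1) + (2 * k + 1) * (2 * k + 1 - 1) / 2) := by
    have h1 : 3 * (2 * k + 1 + 1) ^ 2 - 5 * (2 * k + 1 + 1) = 2 * (6 * k ^ 2 + 7 * k + 1) := by
      have : 3 * (2 * k + 1 + 1) ^ 2 = 2 * (6 * k ^ 2 + 7 * k + 1) + 5 * (2 * k + 1 + 1) := by ring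
      omega
    have h2 : (2 * k + 1) * (2 * k + 1 - 1) = 2 * (k * (2 * k + 1)) := by rw [Nat.add_sub_cancel]; ring
    rw [h1, h2, Nat.mul_div_cancel_left _ (by norm_num), Nat.mul_div_cancel_left _ (by norm_num), Nat.add_sub_cancel]
    have h3 : 2 * (2 * k + 1 + 1 + d) * (2 * k + 1) = (2 * k + 1) + ((2 * d + 1) * (2 * k + 1) + k * (2 * k + 1)) + (6 * k ^ 2 + 7 * k + 1) + 1 := by ring
    omega
  rw [spO_fin, spO_fin, e1, e2, e3]
  rw [e2'] at h1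
  apply Nat.eq_of_mul_eq_mul_left (show 0 < 2 by norm_num)
  refine h1.trans ?_
  rw [pow_add q (2 * k + 1)]
  ring

end Cfsg.Agent.S2685
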