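import Cfsg.Statements.S2697
import Cfsg.Agent.AutPSL.Lang

set_option autoImplicit false
open Cfsg

namespace Cfsg.Agent.S2697

open AutPSL AutLie

/-- Let T = PSL_n(F) be simple over a finite field (n ≥ 2; |F| ≥ 4 when n = 2) and let x be a field automorphism or a graph-field automorphism of T of prime order r. Then an element y of the coset Inndiag(T)·x (that is, y = δ x with δ in the inner-diagonal group, the image of PGL_n(F)) has order r if and only if y is conjugate to x by an element of Inndiag(T). -/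
theorem result {F : Type*} [Field F] [Fintype F] {p f : ℕ} [Fact p.Prime] (hF : Fintype.card F = p ^ f) (hf : 1 ≤ f) {n : ℕ} (hn : 2 ≤ n) (hs : n = 2 → 4 ≤ Fintype.card F) (x δ : MulAut (Matrix.ProjectiveSpecialLinearGroup (Fin n) F)) (hx : Cfsg.IsFieldAutClassPSL x ∨ Cfsg.IsGraphFieldAutClassPSL x) {r : ℕ} (hr : r.Prime) (hxr : orderOf x = r) (hδ : δ ∈ Cfsg.inndiagPSL n F) :
    orderOf (δ * x) = r ↔ Cfsg.IsConjUnder (Cfsg.inndiagPSL n F) x (δ * x) := by
  have hN : (Cfsg.inndiagPSL n F).Normal := by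
    rw [inndiagPSL_eq]; exact normal_range_diagHom hn
  constructor
  · intro h
    have key : ∀ α y : MulAut (Matrix.ProjectiveSpecialLinearGroup (Fin n) F), α * x * α⁻¹ = y →
        ∃ A : GL (Fin n) F, α * (δ * x) * α⁻¹ = diagHom n F A * y ∧ (diagHom n F A * y) ^ r = 1 := by
      intro α y hy
      have h1 : α * δ * α⁻¹ ∈ Cfsg.inndiagPSL n F := hN.conj_mem δ hδ α
      rw [inndiagPSL_eq] at h1
      obtain ⟨A, hA⟩ := h1
      have h2 : α * (δ * x) * α⁻¹ = diagHom n F A * y := by rw [hA, ← hy]; group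
      refine ⟨A, h2, ?_⟩
      rw [← h2, ← orderOf_dvd_iff_pow_eq_one, orderOf_conj', h]
    rcases hx with hx | hx
    · obtain ⟨α, σ, hσ, hα⟩ := fieldClass_spec hx
      obtain ⟨A, h1, h2⟩ := key α _ hα
      have h3 : orderOf σ = r := by
        rw [← orderOf_cAut_one hn, ← hα, orderOf_conj', hxr]
      rw [← h3] at h2
      obtain ⟨B, hB⟩ := field_lang hn σ A h2
      rw [← isConjUnder_conj _ α, h1, hα, inndiagPSL_eq]
      exact ⟨diagHom n F B, ⟨B, rfl⟩, hB⟩
    · obtain ⟨hn3, α, σ, hσ, hα⟩ := graphFieldClass_spec hx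
      obtain ⟨A, h1, h2⟩ := key α _ hα
      obtain ⟨h3, h4⟩ := graphField_order hn3 hσ hr (by
        rw [← orderOf_dvd_iff_pow_eq_one, ← hα, orderOf_conj', hxr])
      rw [h3] at h2
      obtain ⟨B, hB⟩ := graphField_lang hn3 σ hσ h4 A h2
      rw [← isConjUnder_conj _ α, h1, hα, inndiagPSL_eq]
      exact ⟨diagHom n F B, ⟨B, rfl⟩, hB⟩
  · rintro ⟨k, _, hk⟩
    rw [hk, orderOf_conj', hxr]

end Cfsg.Agent.S2697
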