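import Cfsg.Statements.S2699
import Cfsg.Agent.H41.GraphOdd
import Cfsg.Agent.H41.GraphEven

set_option autoImplicit false
open Cfsg

namespace Cfsg.Agent.S2699

open Matrix Cfsg.Agent.AutPSL Cfsg.Agent.AutLie QuadraticMap Cfsg.Agent.Orth Module Cfsg.Agent.H41

/-- Let T = PSL_n(F) over the field with p^f elements with n ≥ 3 odd, n = 2m + 1, and G = Inndiag(T) the image of PGL_n(F). Every involutory graph automorphism γ of T (an inner-diagonal automorphism followed by inverse-transpose, of order 2) has centralizer C_G(γ) isomorphic to the projective conformal orthogonal group of the form x₀² + Σ xᵢ yᵢ in dimension n (for q even this group is isomorphic to Sp_{n−1}(q)), and any two involutory graph automorphisms are G-conjugate. -/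
theorem result {F : Type*} [Field F] [Fintype F] {p f : ℕ} [Fact p.Prime] (hF : Fintype.card F = p ^ f) (hf : 1 ≤ f) {n : ℕ} (hn : 3 ≤ n) {m : ℕ} (hnm : n = 2 * m + 1) (γ γ' : MulAut (Matrix.ProjectiveSpecialLinearGroup (Fin n) F)) (hγ : Cfsg.IsGraphAutClassPSL γ) (hγ2 : orderOf γ = 2) (hγ' : Cfsg.IsGraphAutClassPSL γ') (hγ'2 : orderOf γ' = 2) :
    Nonempty (↥(Cfsg.inndiagPSL n F ⊓ Subgroup.centralizer {γ}) ≃* Cfsg.PGO F (Cfsg.quadFormOdd m F)) ∧ Cfsg.IsConjUnder (Cfsg.inndiagPSL n F) γ γ' := by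
  have hn2 : 2 ≤ n := by omega
  obtain ⟨M, rfl⟩ := graph_spec hγ
  obtain ⟨M', rfl⟩ := graph_spec hγ'
  have hnalt : ∀ M : GL (Fin n) F, ¬ ∀ v, v ⬝ᵥ (M : Matrix (Fin n) (Fin n) F) *ᵥ v = 0 := by
    intro M h
    obtain ⟨k, hk⟩ := even_of_alt M h
    omega
  by_cases h2 : (2 : F) = 0
  · have : CharP F 2 := CharTwo.of_one_ne_zero_of_two_eq_zero one_ne_zero h2
    have h1 := conj_nonalt hn2 M (transpose_of_order hn M hγ2) (hnalt M)
    have h1' := conj_nonalt hn2 M' (transpose_of_order hn M' hγ'2) (hnalt M')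
    refine ⟨?_, isConjUnder_trans (isConjUnder_symm h1) h1'⟩
    obtain ⟨e1⟩ := cent_one (F := F) hn2 (κ := Unit ⊕ (Fin m ⊕ Fin m)) (by
      rw [Fintype.card_sum, Fintype.card_sum, Fintype.card_fin, Fintype.card_unit]; omega) (bOdd m F) bOdd_symm bOdd_nd
      ⟨Pi.single (Sum.inl ()) 1, by rw [bOdd_self]; simp⟩
    obtain ⟨e2⟩ := projQuot_bOdd (F := F) (m := m)
    obtain ⟨e3⟩ := projQuot_PGOodd (F := F) (m := m)
    obtain ⟨α, -, hα⟩ := h1
    have hN : (Cfsg.inndiagPSL n F).Normal := by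
      rw [inndiagPSL_eq]; exact normal_range_diagHom hn2
    rw [hα]
    exact ⟨(centConj _ α (gam 1)).symm.trans (e1.trans (e2.trans e3.symm))⟩
  · have hsym : ∀ M : GL (Fin n) F, orderOf (gam M) = 2 → (M : Matrix (Fin n) (Fin n) F)ᵀ = M := by
      intro M h
      rcases (orderOf_gam hn M).1 h with h1 | h1
      · exact h1
      · exact absurd (alt_of_transpose h2 _ h1) (hnalt M)
    have hM := hsym M hγ2
    have hM' := hsym M' hγ'2
    have hno : Odd n := ⟨m, hnm⟩
    constructor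
    · obtain ⟨M₀, e₀, hM₀, he₀⟩ := exists_M_of_form h2 (qfOdd m F) (qfOdd_nondegenerate m F h2) (n := n) (by
        rw [Fintype.card_sum, Fintype.card_sum, Fintype.card_fin, Fintype.card_unit]; omega)
      obtain ⟨g, c, hc, hg⟩ := Cfsg.Agent.S0838.result h2 hno (qM (M : Matrix (Fin n) (Fin n) F)) (qM (M₀ : Matrix (Fin n) (Fin n) F)) (qM_nd h2 M hM) (qM_nd h2 M₀ hM₀)
      refine cent_q h2 hn2 M hM (Cfsg.quadFormOdd m F) (g.trans e₀) ((2 : F)⁻¹ * c) (mul_ne_zero (inv_ne_zero h2) hc) (fun v => ?_)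
      rw [LinearEquiv.trans_apply, mul_assoc, ← hg]
      exact he₀ _
    · rw [gam_conj_q hn2 h2 M M' hM hM']
      exact Cfsg.Agent.S0838.result h2 hno (qM (M : Matrix (Fin n) (Fin n) F)) (qM (M' : Matrix (Fin n) (Fin n) F)) (qM_nd h2 M hM) (qM_nd h2 M' hM')

end Cfsg.Agent.S2699
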