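import Cfsg.Statements.S2700
import Cfsg.Agent.H41.GraphOdd

set_option autoImplicit false
open Cfsg

namespace Cfsg.Agent.S2700

open Matrix Cfsg.Agent.AutPSL Cfsg.Agent.AutLie QuadraticMap Cfsg.Agent.Orth Module Cfsg.Agent.H41

/-- Let T = PSL_n(F) over a finite field of odd order with n = 2m ≥ 4 even, and G = Inndiag(T) the image of PGL_n(F). The involutory graph automorphisms of T fall into exactly three G-classes, with representatives γ₁, γ₂, γ₃ whose centralizers in G are isomorphic respectively to the projective conformal symplectic group PGSp_n(F), the projective conformal orthogonal group of the plus-type form Σ xᵢ yᵢ, and that of a minus-type form Σ xᵢ yᵢ + z₁² + a z₁ z₂ + b z₂² (anisotropic binary part) in dimension n. -/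
theorem result {F : Type*} [Field F] [Fintype F] (hodd : Odd (Fintype.card F)) {n m : ℕ} (hm : 2 ≤ m) (hnm : n = 2 * m) :
    ∃ (γ₁ γ₂ γ₃ : MulAut (Matrix.ProjectiveSpecialLinearGroup (Fin n) F)) (a b : F), (∀ z₁ z₂ : F, z₁ ^ 2 + a * z₁ * z₂ + b * z₂ ^ 2 = 0 → z₁ = 0 ∧ z₂ = 0) ∧ Cfsg.IsGraphAutClassPSL γ₁ ∧ orderOf γ₁ = 2 ∧ Cfsg.IsGraphAutClassPSL γ₂ ∧ orderOf γ₂ = 2 ∧ Cfsg.IsGraphAutClassPSL γ₃ ∧ orderOf γ₃ = 2 ∧ ¬ Cfsg.IsConjUnder (Cfsg.inndiagPSL n F) γ₁ γ₂ ∧ ¬ Cfsg.IsConjUnder (Cfsg.inndiagPSL n F) γ₁ γ₃ ∧ ¬ Cfsg.IsConjUnder (Cfsg.inndiagPSL n F) γ₂ γ₃ ∧ (∀ γ : MulAut (Matrix.ProjectiveSpecialLinearGroup (Fin n) F), Cfsg.IsGraphAutClassPSL γ → orderOf γ = 2 → Cfsg.IsConjUnder (Cfsg.inndiagPSL n F) γ₁ γ ∨ Cfsg.IsConjUnder (Cfsg.inndiagPSL n F) γ₂ γ ∨ Cfsg.IsConjUnder (Cfsg.inndiagPSL n F) γ₃ γ) ∧ Nonempty (↥(Cfsg.inndiagPSL n F ⊓ Subgroup.centralizer {γ₁})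 ≃* Cfsg.PGSp m F) ∧ Nonempty (↥(Cfsg.inndiagPSL n F ⊓ Subgroup.centralizer {γ₂}) ≃* Cfsg.PGO F (Cfsg.quadFormPlus m F)) ∧ Nonempty (↥(Cfsg.inndiagPSL n F ⊓ Subgroup.centralizer {γ₃}) ≃* Cfsg.PGO F (Cfsg.quadFormMinus (m - 1) F a b)) := by
  have h2 : (2 : F) ≠ 0 := odd_card_two_ne_zero hodd
  have hn : 3 ≤ n := by omega
  have hn2 : 2 ≤ n := by omega
  obtain ⟨ζ, hζ⟩ := exists_nonroot F
  have hab := aniso_of_root hζ
  obtain ⟨M₁, hM₁⟩ := exists_alt (F := F) hnm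
  obtain ⟨M₂, e₂, hM₂, he₂⟩ := exists_M_of_form h2 (qfPlus m F) (qfPlus_nondegenerate m F) (n := n) (by
    rw [Fintype.card_sum, Fintype.card_fin]; omega)
  obtain ⟨M₃, e₃, hM₃, he₃⟩ := exists_M_of_form h2 (qfMinus (m - 1) F 1 ζ) (qfMinus_nondegenerate (m - 1) F (disc_ne_zero_of_aniso hab)) (n := n) (by
    rw [Fintype.card_sum, Fintype.card_sum, Fintype.card_fin, Fintype.card_fin]; omega)
  have hM₁' := transpose_of_alt _ hM₁
  have hi : (2 : F)⁻¹ ≠ 0 := inv_ne_zero h2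
  refine ⟨gam M₁, gam M₂, gam M₃, 1, ζ, hab, gam_graph hn _, (orderOf_gam hn _).2 (Or.inr hM₁'), gam_graph hn _, (orderOf_gam hn _).2 (Or.inl hM₂),
    gam_graph hn _, (orderOf_gam hn _).2 (Or.inl hM₃), not_conj_sym_alt hn2 h2 hM₁' hM₂, not_conj_sym_alt hn2 h2 hM₁' hM₃, ?_, ?_,
    cent_alt hn2 hnm M₁ hM₁, cent_q h2 hn2 M₂ hM₂ _ e₂ _ hi he₂, cent_q h2 hn2 M₃ hM₃ _ e₃ _ hi he₃⟩
  · rw [gam_conj_q hn2 h2 M₂ M₃ hM₂ hM₃]
    rintro ⟨g, c, hc, hg⟩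
    apply plus_not_minus (by omega) hζ ((e₂.symm.trans g).trans e₃) c
    intro v
    rw [LinearEquiv.trans_apply, he₃, LinearEquiv.trans_apply, hg]
    have h3 := he₂ (e₂.symm v)
    rw [e₂.apply_symm_apply] at h3
    rw [h3]
    ring
  · intro γ hγ hγ2
    obtain ⟨M, rfl⟩ := graph_spec hγ
    rcases (orderOf_gam hn M).1 hγ2 with hM | hM
    · right
      rcases classify_M h2 (by omega) hnm M hM with ⟨g, hg⟩ | h
      · left
        exact conj_of_forms hn2 h2 hM₂ hM (qfPlus m F) e₂ g _ 1 hi one_ne_zero he₂ (fun v => by rw [hg, one_mul])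
      · right
        obtain ⟨g, hg⟩ := h ζ hζ
        exact conj_of_forms hn2 h2 hM₃ hM (qfMinus (m - 1) F 1 ζ) e₃ g _ 1 hi one_ne_zero he₃ (fun v => by rw [hg, one_mul])
    · left
      exact alt_conj' hn2 hnm M₁ M hM₁ (alt_of_transpose h2 _ hM)

end Cfsg.Agent.S2700
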