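import Cfsg.Statements.S2701
import Cfsg.Agent.H41.GraphEven2

set_option autoImplicit false
open Cfsg

namespace Cfsg.Agent.S2701

open Matrix Cfsg.Agent.AutPSL Cfsg.Agent.AutLie Module Cfsg.Agent.H41 Cfsg.Agent.ClGeo

/-- Let T = PSL_n(F) over a finite field of characteristic 2 with n = 2m ≥ 4 even, and G = Inndiag(T) the image of PGL_n(F). The involutory graph automorphisms of T fall into exactly two G-classes, with representatives γ₁ and γ₃ whose centralizers in G are isomorphic respectively to the symplectic group Sp_n(F) and to the centralizer in Sp_n(F) of a symplectic transvection. -/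
theorem result {F : Type*} [Field F] [Fintype F] [CharP F 2] {n m : ℕ} (hm : 2 ≤ m) (hnm : n = 2 * m) :
    ∃ (γ₁ γ₃ : MulAut (Matrix.ProjectiveSpecialLinearGroup (Fin n) F)) (t : ↥(Matrix.symplecticGroup (Fin m) F)), Cfsg.IsTransvection (t : Matrix (Fin m ⊕ Fin m) (Fin m ⊕ Fin m) F) ∧ Cfsg.IsGraphAutClassPSL γ₁ ∧ orderOf γ₁ = 2 ∧ Cfsg.IsGraphAutClassPSL γ₃ ∧ orderOf γ₃ = 2 ∧ ¬ Cfsg.IsConjUnder (Cfsg.inndiagPSL n F) γ₁ γ₃ ∧ (∀ γ : MulAut (Matrix.ProjectiveSpecialLinearGroup (Fin n) F), Cfsg.IsGraphAutClassPSL γ → orderOf γ = 2 → Cfsg.IsConjUnder (Cfsg.inndiagPSL n F) γ₁ γ ∨ Cfsg.IsConjUnder (Cfsg.inndiagPSL n F) γ₃ γ) ∧ Nonempty (↥(Cfsg.inndiagPSL n F ⊓ Subgroup.centralizer {γ₁}) ≃* ↥(Matrix.symplecticGroup (Fin m) F)) ∧ Nonempty (↥(Cfsg.inndiagPSL n F ⊓ Subgroup.centralizer {γ₃}) ≃* ↥(Subgroup.centralizer ({t} : Set ↥(Matrix.symplecticGroup (Fin m) F)))) := by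
  have hn : 3 ≤ n := by omega
  have hn2 : 2 ≤ n := by omega
  obtain ⟨M₁, hM₁⟩ := exists_alt (F := F) hnm
  have hM₁' : (M₁ : Matrix (Fin n) (Fin n) F)ᵀ = -(M₁ : Matrix (Fin n) (Fin n) F) := transpose_of_alt _ hM₁
  have hone : ((1 : GL (Fin n) F) : Matrix (Fin n) (Fin n) F)ᵀ = ((1 : GL (Fin n) F) : Matrix (Fin n) (Fin n) F) := by
    rw [Units.val_one, Matrix.transpose_one]
  have hone' : ¬ ∀ v : Fin n → F, v ⬝ᵥ ((1 : GL (Fin n) F) : Matrix (Fin n) (Fin n) F) *ᵥ v = 0 := by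
    intro h
    have := h (Pi.single ⟨0, by omega⟩ 1)
    rw [Units.val_one, Matrix.one_mulVec] at this
    simp at this
  obtain ⟨a, ha⟩ : ∃ a : Fin m ⊕ Fin m → F, a = Pi.single (Sum.inl ⟨0, by omega⟩) 1 := ⟨_, rfl⟩
  have ha0 : a ≠ 0 := by
    rw [ha]
    intro h
    have := congrFun h (Sum.inl ⟨0, by omega⟩)
    simp at this
  obtain ⟨t, ht, htt⟩ := exists_transv a ha0
  refine ⟨gam M₁, gam 1, t, htt, gam_graph hn _, (orderOf_gam hn _).2 (Or.inr hM₁'), gam_graph hn _, (orderOf_gam hn _).2 (Or.inl hone), ?_, ?_, ?_, ?_⟩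
  · rw [gam_conj_iff hn2]
    rintro ⟨h, c, hc⟩
    rw [simil_iff] at hc
    apply hone'
    intro v
    obtain ⟨w, rfl⟩ : ∃ w, (h : Matrix (Fin n) (Fin n) F) *ᵥ w = v := ⟨((h⁻¹ : GL (Fin n) F) : Matrix (Fin n) (Fin n) F) *ᵥ v, by
      rw [Matrix.mulVec_mulVec, ← Units.val_mul, mul_inv_cancel, Units.val_one, Matrix.one_mulVec]⟩
    rw [hc, hM₁, mul_zero]
  · intro γ hγ hγ2
    obtain ⟨M, rfl⟩ := graph_spec hγ
    by_cases hM : ∀ v, v ⬝ᵥ (M : Matrix (Fin n) (Fin n) F) *ᵥ v = 0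
    · left
      exact alt_conj' hn2 hnm M₁ M hM₁ hM
    · right
      exact conj_nonalt hn2 M (transpose_of_order hn M hγ2) hM
  · obtain ⟨e1⟩ := cent_alt hn2 hnm M₁ hM₁
    obtain ⟨e2⟩ := projQuot_PGSp (F := F) (m := m)
    exact ⟨e1.trans e2⟩
  · obtain ⟨w, hw⟩ : ∃ w, sB F m w a ≠ 0 := by
      by_contra hcon
      push Not at hcon
      exact ha0 ((sB_nondegenerate m).2 a hcon)
    obtain ⟨e1⟩ := cent_one (F := F) hn2 (κ := Fin m ⊕ Fin m) (by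
      rw [Fintype.card_sum, Fintype.card_fin]; omega) (bA a) (bA_symm a) (bA_nd a) ⟨w, by rw [bA_self]; exact mul_ne_zero hw hw⟩
    obtain ⟨e2⟩ := projQuot_bA a ha0 t ht
    exact ⟨e1.trans e2⟩

end Cfsg.Agent.S2701
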