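import Cfsg.Statements.S2702
import Cfsg.Agent.H41.GraphCount
import Cfsg.Agent.H41.GraphEven

set_option autoImplicit false
open Cfsg

namespace Cfsg.Agent.S2702

open Matrix Cfsg.Agent.AutPSL Cfsg.Agent.AutLie Module Cfsg.Agent.H41

theorem aux_q {F : Type*} [Field F] [Fintype F] {n : ℕ} (M : GL (Fin n) F)
    (h : ∀ (k : GL (Fin n) F) (c : Fˣ), Matrix.GeneralLinearGroup.det k * Matrix.GeneralLinearGroup.det k = c ^ n → ∃ b : Fˣ, Matrix.GeneralLinearGroup.det k = b ^ n) :
    ((simM M).map Matrix.GeneralLinearGroup.det ⊔ (powMonoidHom n : Fˣ →* Fˣ).range).index = Nat.gcd n (Fintype.card F - 1) := by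
  apply index_A
  intro k hk
  obtain ⟨c, hc⟩ := (mem_simM k M).1 hk
  exact h k c (det_rel k M c hc)

/-- Let T = PSL_n(F) over the field with q = p^f elements, n ≥ 3, G = Inndiag(T) the image of PGL_n(F), and γ an involutory graph automorphism of T. The G-class of γ is the union of exactly c T-classes, where: if n is even and q is odd, c = gcd(n/2, q − 1) when C_G(γ) is isomorphic to the projective conformal symplectic group PGSp_n(F) (symplectic type) and c = gcd(n, q − 1)/2 otherwise; and c = gcd(n, q − 1) when n is odd or q is even. -/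
theorem result {F : Type*} [Field F] [Fintype F] {p f : ℕ} [Fact p.Prime] (hF : Fintype.card F = p ^ f) (hf : 1 ≤ f) {n : ℕ} (hn : 3 ≤ n) (γ : MulAut (Matrix.ProjectiveSpecialLinearGroup (Fin n) F)) (hγ : Cfsg.IsGraphAutClassPSL γ) (hγ2 : orderOf γ = 2) :
    ((Even n ∧ Odd p ∧ Nonempty (↥(Cfsg.inndiagPSL n F ⊓ Subgroup.centralizer {γ}) ≃* Cfsg.PGSp (n / 2) F)) → Cfsg.splitClassCount (Cfsg.inndiagPSL n F) (Cfsg.Inn (Matrix.ProjectiveSpecialLinearGroup (Fin n) F)) γ = Nat.gcd (n / 2) (p ^ f - 1)) ∧ ((Even n ∧ Odd p ∧ ¬ Nonempty (↥(Cfsg.inndiagPSL n F ⊓ Subgroup.centralizer {γ}) ≃* Cfsg.PGSp (n / 2) F)) → Cfsg.splitClassCount (Cfsg.inndiagPSL n F) (Cfsg.Inn (Matrix.ProjectiveSpecialLinearGroup (Fin n) F)) γ = Nat.gcd n (p ^ f - 1) / 2) ∧ (¬ (Even n ∧ Odd p) → Cfsg.splitClassCount (Cfsg.inndiagPSL n F) (Cfsg.Inn (Matrix.ProjectiveSpecialLinearGroup (Fin n) F)) γ = Nat.gcd n (p ^ f - 1)) := by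
  have hn2 : 2 ≤ n := by omega
  obtain ⟨M, rfl⟩ := graph_spec hγ
  have hM := (orderOf_gam hn M).1 hγ2
  have hcp : CharP F p := charP_of_card_eq_prime_pow hF
  rw [← hF, count_gam hn2]
  have hp : p.Prime := Fact.out
  have two_ne : Odd p → (2 : F) ≠ 0 := by
    intro hodd
    apply odd_card_two_ne_zero
    rw [hF]
    exact hodd.pow
  refine ⟨?_, ?_, ?_⟩
  · rintro ⟨⟨m, hm⟩, hodd, ⟨E⟩⟩
    have h2 := two_ne hodd
    have hnm : n = 2 * m := by omega
    have hdiv : n / 2 = m := by omega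
    rw [hdiv] at E ⊢
    rcases hM with hM | hM
    · exact absurd ⟨E⟩ (not_PGSp h2 (by omega) hnm M hM)
    · obtain ⟨h3, h4⟩ := alt_dets hnm M (alt_of_transpose h2 _ hM)
      exact index_B hnm M h3 h4
  · rintro ⟨⟨m, hm⟩, hodd, hE⟩
    have h2 := two_ne hodd
    have hnm : n = 2 * m := by omega
    have hdiv : n / 2 = m := by omega
    rw [hdiv] at hE
    rcases hM with hM | hM
    · obtain ⟨h3, h4, h5⟩ := sym_dets h2 (by omega) hnm M hM
      exact index_C h2 hnm M (fun k hk => h3 k hk) h4 h5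
    · exact absurd (cent_alt hn2 hnm M (alt_of_transpose h2 _ hM)) hE
  · intro hnot
    by_cases hodd : Odd p
    · have h2 := two_ne hodd
      have hnodd : ¬ Even n := fun h => hnot ⟨h, hodd⟩
      obtain ⟨r, hr⟩ := Nat.not_even_iff_odd.1 hnodd
      apply aux_q
      intro k c hk
      -- c is a square
      obtain ⟨b, hb⟩ : ∃ b : Fˣ, c = b ^ 2 := by
        refine ⟨Matrix.GeneralLinearGroup.det k * (c ^ r)⁻¹, ?_⟩
        rw [mul_pow, pow_two, hk, hr, inv_pow, ← pow_mul, pow_succ, mul_comm r 2, mul_right_comm, mul_inv_cancel, one_mul]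
      have h3 : (Matrix.GeneralLinearGroup.det k : Fˣ) * Matrix.GeneralLinearGroup.det k = b ^ n * b ^ n := by
        rw [hk, hb, ← pow_mul, ← pow_add]; congr 1; ring
      have h4 := congrArg Units.val h3
      rw [Units.val_mul, Units.val_mul] at h4
      rcases mul_self_eq_mul_self_iff.1 h4 with h5 | h5
      · exact ⟨b, Units.ext h5⟩
      · refine ⟨-b, Units.ext ?_⟩
        rw [h5, (Nat.not_even_iff_odd.1 hnodd).neg_pow, Units.val_neg]
    · have hp2 : p = 2 := by
        rcases hp.eq_two_or_odd' with h | h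
        · exact h
        · exact absurd h hodd
      subst hp2
      apply aux_q
      intro k c hk
      obtain ⟨d, hd⟩ := exists_sqrt (c : F)
      have hd0 : d ≠ 0 := by
        rintro rfl
        rw [mul_zero] at hd
        exact c.ne_zero hd.symm
      refine ⟨Units.mk0 d hd0, Units.ext (sq_inj ?_)⟩
      have h4 := congrArg Units.val hk
      rw [Units.val_mul, Units.val_pow_eq_pow_val] at h4
      rw [h4, ← hd, Units.val_pow_eq_pow_val, Units.val_mk0, mul_pow]

end Cfsg.Agent.S2702
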