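import Cfsg.Statements.S2703
import Cfsg.Agent.H41.GraphOdd
import Cfsg.Agent.OCase.Disc

set_option autoImplicit false
open Cfsg

namespace Cfsg.Agent.S2703

open Matrix Cfsg.Agent.AutPSL Cfsg.Agent.AutLie QuadraticMap Cfsg.Agent.Orth Module Cfsg.Agent.H41

/-- Let T = PSL_n(F) over the field with q elements, q odd, n = 2m ≥ 4 even, and ι the inverse-transpose automorphism. Its centralizer in G = Inndiag(T) (the image of PGL_n(F)) is isomorphic to the projective conformal orthogonal group of the plus-type form Σ xᵢ yᵢ in dimension n when n(q − 1)/4 is even, and to that of a minus-type form (Σ xᵢ yᵢ + z₁² + a z₁ z₂ + b z₂² with anisotropic binary part) when n(q − 1)/4 is odd. -/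
theorem result {F : Type*} [Field F] [Fintype F] (hodd : Odd (Fintype.card F)) {n m : ℕ} (hm : 2 ≤ m) (hnm : n = 2 * m) (ι : MulAut (Matrix.ProjectiveSpecialLinearGroup (Fin n) F)) (hι : Cfsg.IsInverseTransposeAutPSL ι) :
    (Even (n * (Fintype.card F - 1) / 4) → Nonempty (↥(Cfsg.inndiagPSL n F ⊓ Subgroup.centralizer {ι}) ≃* Cfsg.PGO F (Cfsg.quadFormPlus m F))) ∧ (¬ Even (n * (Fintype.card F - 1) / 4) → ∃ a b : F, (∀ z₁ z₂ : F, z₁ ^ 2 + a * z₁ * z₂ + b * z₂ ^ 2 = 0 → z₁ = 0 ∧ z₂ = 0) ∧ Nonempty (↥(Cfsg.inndiagPSL n F ⊓ Subgroup.centralizer {ι}) ≃* Cfsg.PGO F (Cfsg.quadFormMinus (m - 1) F a b))) := by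
  have h2 : (2 : F) ≠ 0 := odd_card_two_ne_zero hodd
  have hn2 : 2 ≤ n := by omega
  have hι' : ι = gam 1 := by
    rw [invT_iff.1 hι, gam, inv_one, map_one, one_mul]
  have hM : ((1 : GL (Fin n) F) : Matrix (Fin n) (Fin n) F)ᵀ = ((1 : GL (Fin n) F) : Matrix (Fin n) (Fin n) F) := by
    rw [Units.val_one, Matrix.transpose_one]
  have hQ := qM_nd h2 (1 : GL (Fin n) F) hM
  have hV : finrank F (Fin n → F) = 2 * m := by rw [finrank_fintype_fun_eq_card, Fintype.card_fin, hnm]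
  have key := Cfsg.Agent.OCase.isPlus_iff_isSquare h2 hQ hV (Pi.basisFun F (Fin n))
  have hg : gram (qM ((1 : GL (Fin n) F) : Matrix (Fin n) (Fin n) F)) (Pi.basisFun F (Fin n)) = (2 : F) • (1 : Matrix (Fin n) (Fin n) F) := by
    ext i j
    show polar _ _ _ = _
    rw [qM_polar _ hM, Pi.basisFun_apply, Pi.basisFun_apply, Units.val_one, Matrix.one_mulVec, Matrix.smul_apply, smul_eq_mul]
    congr 1
    rw [single_dotProduct, one_mul, Matrix.one_apply, Pi.single_apply]
  have hdet : (gram (qM ((1 : GL (Fin n) F) : Matrix (Fin n) (Fin n) F)) (Pi.basisFun F (Fin n))).det = (2 ^ m) ^ 2 := by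
    rw [hg, Matrix.det_smul, Matrix.det_one, mul_one, Fintype.card_fin, hnm, ← pow_mul, mul_comm]
  rw [hdet] at key
  have hsq : IsSquare ((-1 : F) ^ m * (2 ^ m) ^ 2) ↔ Even (n * (Fintype.card F - 1) / 4) := by
    have e1 : IsSquare ((-1 : F) ^ m * (2 ^ m) ^ 2) ↔ IsSquare ((-1 : F) ^ m) := by
      have h3 : (2 : F) ^ m ≠ 0 := pow_ne_zero _ h2
      constructor
      · rintro ⟨r, hr⟩
        refine ⟨r / 2 ^ m, ?_⟩
        field_simp
        rw [hr, pow_two]
      · rintro ⟨r, hr⟩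
        exact ⟨r * 2 ^ m, by rw [hr]; ring⟩
    rw [e1]
    obtain ⟨k, hk⟩ := hodd
    have e2 : n * (Fintype.card F - 1) / 4 = m * k := by
      rw [hk, Nat.add_sub_cancel, hnm, show 2 * m * (2 * k) = 4 * (m * k) by ring, Nat.mul_div_cancel_left _ (by norm_num)]
    rw [e2, Nat.even_mul]
    rcases Nat.even_or_odd m with hme | hmo
    · rw [hme.neg_one_pow]
      exact ⟨fun _ => Or.inl hme, fun _ => ⟨1, by ring⟩⟩
    · rw [hmo.neg_one_pow, FiniteField.isSquare_neg_one_iff]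
      constructor
      · intro h
        right
        rw [Nat.even_iff]
        omega
      · rintro (h | h)
        · exact absurd h (Nat.not_even_iff_odd.2 hmo)
        · rw [Nat.even_iff] at h
          omega
  rw [hι']
  constructor
  · intro he
    obtain ⟨g, hg⟩ := (key.2 (hsq.2 he)).exists_isom hQ hV
    obtain ⟨e, he⟩ : ∃ e : (Fin n → F) ≃ₗ[F] (Fin m ⊕ Fin m → F), ∀ v, qfPlus m F (e v) = 1 * qM ((1 : GL (Fin n) F) : Matrix (Fin n) (Fin n) F) v := by
      refine ⟨g.symm, fun v => ?_⟩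
      rw [one_mul, ← hg, g.apply_symm_apply]
    exact cent_q h2 hn2 1 hM _ e 1 one_ne_zero he
  · intro he
    obtain ⟨ζ, hζ⟩ := exists_nonroot F
    rcases classify_M h2 (by omega) hnm 1 hM with ⟨g, hg⟩ | h
    · exfalso
      apply he
      rw [← hsq, ← key]
      refine ⟨(U0 m F).map (g.symm : (Fin m ⊕ Fin m → F) →ₗ[F] _), ?_, ?_⟩
      · exact (TS_U0 m F).map_isom g.symm (fun v => by rw [← hg, g.apply_symm_apply])
      · rw [LinearEquiv.finrank_map_eq, finrank_U0, hV]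
    · obtain ⟨g, hg⟩ := h ζ hζ
      exact ⟨1, ζ, aniso_of_root hζ, cent_q h2 hn2 1 hM _ g 1 one_ne_zero (fun v => by rw [one_mul]; exact hg v)⟩

end Cfsg.Agent.S2703
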