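import Cfsg.Statements.S2704
import Cfsg.Agent.AutPSL.CentGF

set_option autoImplicit false
open Cfsg

namespace Cfsg.Agent.S2704

open AutPSL AutLie

/-- an involution of the type of `ψ` is `Inndiag`-conjugate to `ψ` -/
theorem conj_std {F : Type*} [Field F] [Fintype F] {n : ℕ} (hn : 3 ≤ n)
    (x : MulAut (Matrix.ProjectiveSpecialLinearGroup (Fin n) F)) (hx2 : orderOf x = 2) (σ : RingAut F) (hσ : σ ≠ 1)
    (hσ2 : σ ^ 2 = 1) (α : MulAut (Matrix.ProjectiveSpecialLinearGroup (Fin n) F))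
    (hα : α * x * α⁻¹ = cAut 1 σ * iAut (Fin n) F) (hcomm : ∀ a b : RingAut F, a * b = b * a) :
    Cfsg.IsConjUnder (diagHom n F).range (cAut 1 σ * iAut (Fin n) F) x := by
  have hn2 : 2 ≤ n := by omega
  have h1 : typeHom hn2 x = typeHom hn2 (cAut 1 σ * iAut (Fin n) F) := by
    rw [← hα, map_mul, map_mul, map_inv]
    have hc : ∀ a b : RingAut F × Multiplicative (ZMod 2), a * b = b * a := fun a b =>
      Prod.ext (hcomm _ _) (mul_comm _ _)
    rw [hc (typeHom hn2 α), mul_inv_cancel_right]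
  have h2 : x * (cAut 1 σ * iAut (Fin n) F)⁻¹ ∈ (typeHom (F := F) hn2).ker := by
    rw [MonoidHom.mem_ker, map_mul, map_inv, h1, mul_inv_cancel]
  rw [mem_ker_typeHom] at h2
  obtain ⟨A, hA⟩ := h2
  have h3 : x = diagHom n F A * (cAut 1 σ * iAut (Fin n) F) := by
    rw [diagHom_apply, ← hA, inv_mul_cancel_right]
  obtain ⟨B, hB⟩ := graphField_lang hn σ hσ hσ2 A (by rw [← h3, ← hx2, pow_orderOf_eq_one])
  exact ⟨diagHom n F B, ⟨B, rfl⟩, by rw [h3, hB]⟩

/-- Let T = PSL_n(F) over the field F with p^f elements, n ≥ 3, and G = Inndiag(T) the image of PGL_n(F). If x is an involutory graph-field automorphism of T then f is even; x is G-conjugate to every other involutory graph-field automorphism; C_G(x) is isomorphic to the projective general unitary group PGU_n(q₀) with q₀² = p^f, realised over F itself through the Hermitian form Σ uᵢ vᵢ^{q₀}; and the G-class of x is the union of exactly gcd(n, q₀ − 1) T-classes. -/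
theorem result {F : Type*} [Field F] [Fintype F] {p f : ℕ} [Fact p.Prime] (hF : Fintype.card F = p ^ f) (hf : 1 ≤ f) {n : ℕ} (hn : 3 ≤ n) (x : MulAut (Matrix.ProjectiveSpecialLinearGroup (Fin n) F)) (hx : Cfsg.IsGraphFieldAutClassPSL x) (hx2 : orderOf x = 2) :
    Even f ∧ (∀ y : MulAut (Matrix.ProjectiveSpecialLinearGroup (Fin n) F), Cfsg.IsGraphFieldAutClassPSL y → orderOf y = 2 → Cfsg.IsConjUnder (Cfsg.inndiagPSL n F) x y) ∧ Nonempty (↥(Cfsg.inndiagPSL n F ⊓ Subgroup.centralizer {x}) ≃* Cfsg.PGU n F (p ^ (f / 2))) ∧ Cfsg.splitClassCount (Cfsg.inndiagPSL n F) (Cfsg.Inn (Matrix.ProjectiveSpecialLinearGroup (Fin n) F)) x = Nat.gcd n (p ^ (f / 2) - 1) := by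
  have hn2 : 2 ≤ n := by omega
  obtain ⟨_, α, σ, hσ, hα⟩ := graphFieldClass_spec hx
  have hσ2 : σ ^ 2 = 1 := (graphField_order hn hσ Nat.prime_two (by
    rw [← orderOf_dvd_iff_pow_eq_one, ← hα, orderOf_conj', hx2])).2
  obtain ⟨hev, hq, hfr⟩ := order2_spec hF σ hσ hσ2
  have hN : (diagHom n F).range.Normal := normal_range_diagHom hn2
  have hN' : (Cfsg.Inn (Matrix.ProjectiveSpecialLinearGroup (Fin n) F)).Normal := normal_inn
  have hcomm : ∀ a b : RingAut F, a * b = b * a := by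
    obtain ⟨hcyc, _⟩ := ringAut_cyclic_card F hF
    intro a b
    exact (IsCyclic.commGroup (α := RingAut F)).mul_comm a b
  rw [inndiagPSL_eq]
  refine ⟨hev, ?_, ?_, ?_⟩
  · intro y hy hy2
    obtain ⟨_, β, τ, hτ, hβ⟩ := graphFieldClass_spec hy
    have hτ2 : τ ^ 2 = 1 := (graphField_order hn hτ Nat.prime_two (by
      rw [← orderOf_dvd_iff_pow_eq_one, ← hβ, orderOf_conj', hy2])).2
    obtain ⟨_, hq', hfr'⟩ := order2_spec hF τ hτ hτ2
    have hστ : τ = σ := by rw [hfr, hfr']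
    subst hστ
    exact isConjUnder_trans (isConjUnder_symm (conj_std hn x hx2 τ hσ hσ2 α hα hcomm))
      (conj_std hn y hy2 τ hσ hσ2 β hβ hcomm)
  · obtain ⟨e⟩ := cent_psi (n := n) hq hn2
    rw [← hfr, ← hα] at e
    exact ⟨(centConj _ α x).trans e⟩
  · rw [← splitClassCount_conj _ _ α x, hα, hfr, count_psi hq hn2]

end Cfsg.Agent.S2704
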