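import Cfsg.Statements.S2705
import Cfsg.Agent.AutPSU.Cent

set_option autoImplicit false
open Cfsg

namespace Cfsg.Agent.S2705

open AutPSU AutLie AutPSL

/-- Let T = PSU_n(q) be simple (n ≥ 3, (n, q) ≠ (3, 2), q = p^f), realised over the field F with q² elements, G = Inndiag(T) the image of PGU_n(q) in Aut(T), and x a field automorphism of T (conjugate to a standard field automorphism of odd order) of odd prime order r. Then r divides f; C_G(x) is isomorphic to PGU_n(q₀) with q₀ = p^(f/r), realised over a field F₀ with q₀² elements; and the G-class of x is the union of exactly gcd(n, (q + 1)/(q₀ + 1)) T-classes. -/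
theorem result {F : Type*} [Field F] [Fintype F] {p f q : ℕ} [Fact p.Prime] (hq : q = p ^ f) (hf : 1 ≤ f) (hF : Fintype.card F = q ^ 2) {n : ℕ} (hn : 3 ≤ n) (hs : ¬ (n = 3 ∧ q = 2)) (x : MulAut (Cfsg.PSU n F q)) (hx : Cfsg.IsFieldAutClassPSU x) {r : ℕ} (hr : r.Prime) (hro : Odd r) (hxr : orderOf x = r) (F₀ : Type*) [Field F₀] [Fintype F₀] (hF₀ : Fintype.card F₀ = p ^ (2 * (f / r))) :
    r ∣ f ∧ Nonempty (↥(Cfsg.inndiagPSU n F q ⊓ Subgroup.centralizer {x}) ≃* Cfsg.PGU n F₀ (p ^ (f / r))) ∧ Cfsg.splitClassCount (Cfsg.inndiagPSU n F q) (Cfsg.Inn (Cfsg.PSU n F q)) x = Nat.gcd n ((q + 1) / (p ^ (f / r) + 1)) := by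
  obtain ⟨α, σ, hσ, hodd, hα⟩ := fieldClass_specU hx
  have hord : orderOf σ = r := by
    rw [← orderOf_cAutU_one hF hn, ← hα, orderOf_conj', hxr]
  have hF' : Fintype.card F = p ^ (2 * f) := by rw [hF, hq, ← pow_mul, mul_comm]
  have hdvd : r ∣ f := by
    have h1 : r ∣ 2 * f := hord ▸ orderOf_ringAut_dvd hF' σ
    rcases (Nat.Prime.dvd_mul hr).1 h1 with h2 | h2
    · have h3 := Nat.le_of_dvd (by norm_num) h2
      have h4 := hr.two_le
      have h5 : r = 2 := le_antisymm h3 h4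
      rw [h5] at hro
      exact absurd hro (by decide)
    · exact h2
  obtain ⟨k, hk⟩ := hdvd
  have hr0 : 0 < r := hr.pos
  have hfr : f / r = k := by rw [hk, Nat.mul_div_cancel_left _ hr0]
  have hfr2 : 2 * f / r = 2 * k := by
    rw [hk, show 2 * (r * k) = r * (2 * k) by ring, Nat.mul_div_cancel_left _ hr0]
  rw [hfr] at hF₀ ⊢
  have hK : Fintype.card F₀ = (p ^ k) ^ 2 := by rw [hF₀, ← pow_mul, mul_comm]
  obtain ⟨j, hj⟩ := exists_embedding hF' σ F₀ (by rw [hord, hfr2]; exact hF₀)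
  have hqq : q = (p ^ k) ^ r := by rw [hq, hk, ← pow_mul, mul_comm]
  have hN : (diagU n F q).range.Normal := normal_diagU hF hn hs
  have hN' : (Cfsg.Inn (Cfsg.PSU n F q)).Normal := normal_inn
  rw [inndiagPSU_eq]
  refine ⟨⟨k, hk⟩, ?_, ?_⟩
  · obtain ⟨e⟩ := cent_phiU hF hn hK j hro hqq σ hodd hj
    rw [← hα] at e
    exact ⟨(centConj _ α x).trans e⟩
  · rw [← splitClassCount_conj _ _ α x, hα, count_phiU hF hn hK j hro hqq σ hodd hj]

end Cfsg.Agent.S2705
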