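import Cfsg.Statements.S2707
import Cfsg.Agent.H41.GraphPSU
import Cfsg.Agent.S2700

set_option autoImplicit false
open Cfsg

namespace Cfsg.Agent.S2707

open Matrix Cfsg.Agent.AutPSL Cfsg.Agent.AutLie Cfsg.Agent.H41

/-- Let T = PSU_n(q) with n = 2m ≥ 4 even and q odd, realised over the field F with q² elements, and G = Inndiag(T) the image of PGU_n(q). The involutory graph automorphisms of T fall into exactly three G-classes, with representatives whose centralizers in G are isomorphic respectively to the projective conformal symplectic group PGSp_n(F₀), the projective conformal orthogonal group of the plus-type form Σ xᵢ yᵢ, and that of a minus-type form Σ xᵢ yᵢ + z₁² + a z₁ z₂ + b z₂² (anisotropic binary part) in dimension n, all over a field F₀ with q elements. -/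
theorem result {F : Type*} [Field F] [Fintype F] {q : ℕ} (hodd : Odd q) (hF : Fintype.card F = q ^ 2) {n m : ℕ} (hm : 2 ≤ m) (hnm : n = 2 * m) (F₀ : Type*) [Field F₀] [Fintype F₀] (hF₀ : Fintype.card F₀ = q) :
    ∃ (γ₁ γ₂ γ₃ : MulAut (Cfsg.PSU n F q)) (a b : F₀), (∀ z₁ z₂ : F₀, z₁ ^ 2 + a * z₁ * z₂ + b * z₂ ^ 2 = 0 → z₁ = 0 ∧ z₂ = 0) ∧ Cfsg.IsGraphAutClassPSU γ₁ ∧ orderOf γ₁ = 2 ∧ Cfsg.IsGraphAutClassPSU γ₂ ∧ orderOf γ₂ = 2 ∧ Cfsg.IsGraphAutClassPSU γ₃ ∧ orderOf γ₃ = 2 ∧ ¬ Cfsg.IsConjUnder (Cfsg.inndiagPSU n F q) γ₁ γ₂ ∧ ¬ Cfsg.IsConjUnder (Cfsg.inndiagPSU n F q) γ₁ γ₃ ∧ ¬ Cfsg.IsConjUnder (Cfsg.inndiagPSU n F q) γ₂ γ₃ ∧ (∀ γ : MulAut (Cfsg.PSU n F q), Cfsg.IsGraphAutClassPSU γ → orderOf γ = 2 → Cfsg.IsConjUnder (Cfsg.inndiagPSU n F q) γ₁ γ ∨ Cfsg.IsConjUnder (Cfsg.inndiagPSU n F q) γ₂ γ ∨ Cfsg.IsConjUnder (Cfsg.inndiagPSU n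 F q) γ₃ γ) ∧ Nonempty (↥(Cfsg.inndiagPSU n F q ⊓ Subgroup.centralizer {γ₁}) ≃* Cfsg.PGSp m F₀) ∧ Nonempty (↥(Cfsg.inndiagPSU n F q ⊓ Subgroup.centralizer {γ₂}) ≃* Cfsg.PGO F₀ (Cfsg.quadFormPlus m F₀)) ∧ Nonempty (↥(Cfsg.inndiagPSU n F q ⊓ Subgroup.centralizer {γ₃}) ≃* Cfsg.PGO F₀ (Cfsg.quadFormMinus (m - 1) F₀ a b)) := by
  have hn : 3 ≤ n := by omega
  obtain ⟨j, hj⟩ := exists_j hF F₀ hF₀
  obtain ⟨δ₁, δ₂, δ₃, a, b, hab, g1, o1, g2, o2, g3, o3, n12, n13, n23, hall, ⟨e1⟩, ⟨e2⟩, ⟨e3⟩⟩ := Cfsg.Agent.S2700.result (F := F₀) (by rw [hF₀]; exact hodd) hm hnm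
  obtain ⟨γ₁, M₁, rfl, r1⟩ := exists_relU_gam (q := q) (hF := hF) hj hn g1 o1
  obtain ⟨γ₂, M₂, rfl, r2⟩ := exists_relU_gam (q := q) (hF := hF) hj hn g2 o2
  obtain ⟨γ₃, M₃, rfl, r3⟩ := exists_relU_gam (q := q) (hF := hF) hj hn g3 o3
  obtain ⟨c1⟩ := r1.cent hj hn
  obtain ⟨c2⟩ := r2.cent hj hn
  obtain ⟨c3⟩ := r3.cent hj hn
  refine ⟨γ₁, γ₂, γ₃, a, b, hab, (r1.graph hn).1, (r1.graph hn).2, (r2.graph hn).1, (r2.graph hn).2, (r3.graph hn).1, (r3.graph hn).2, ?_, ?_, ?_, ?_, ⟨c1.trans e1⟩, ⟨c2.trans e2⟩, ⟨c3.trans e3⟩⟩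
  · rw [r1.conj_iff hj hn r2]; exact n12
  · rw [r1.conj_iff hj hn r3]; exact n13
  · rw [r2.conj_iff hj hn r3]; exact n23
  · intro γ hγ hγ2
    obtain ⟨M, r⟩ := exists_relU (K := F₀) hj hn hγ hγ2
    rw [r1.conj_iff hj hn r, r2.conj_iff hj hn r, r3.conj_iff hj hn r]
    exact hall (gam M) (gam_graph hn M) ((orderOf_gam hn M).2 (r.transpose hj))

end Cfsg.Agent.S2707
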