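import Cfsg.Statements.S2708
import Cfsg.Agent.H41.GraphPSU
import Cfsg.Agent.S2701

set_option autoImplicit false
open Cfsg

namespace Cfsg.Agent.S2708

open Matrix Cfsg.Agent.AutPSL Cfsg.Agent.AutLie Cfsg.Agent.H41

/-- Let T = PSU_n(q) with n = 2m ≥ 4 even and q even, realised over the field F (of characteristic 2) with q² elements, and G = Inndiag(T) the image of PGU_n(q). The involutory graph automorphisms of T fall into exactly two G-classes, with representatives whose centralizers in G are isomorphic respectively to the symplectic group Sp_n(F₀) and to the centralizer in Sp_n(F₀) of a symplectic transvection, F₀ a field with q elements. -/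
theorem result {F : Type*} [Field F] [Fintype F] [CharP F 2] {q : ℕ} (hF : Fintype.card F = q ^ 2) {n m : ℕ} (hm : 2 ≤ m) (hnm : n = 2 * m) (F₀ : Type*) [Field F₀] [Fintype F₀] (hF₀ : Fintype.card F₀ = q) :
    ∃ (γ₁ γ₃ : MulAut (Cfsg.PSU n F q)) (t : ↥(Matrix.symplecticGroup (Fin m) F₀)), Cfsg.IsTransvection (t : Matrix (Fin m ⊕ Fin m) (Fin m ⊕ Fin m) F₀) ∧ Cfsg.IsGraphAutClassPSU γ₁ ∧ orderOf γ₁ = 2 ∧ Cfsg.IsGraphAutClassPSU γ₃ ∧ orderOf γ₃ = 2 ∧ ¬ Cfsg.IsConjUnder (Cfsg.inndiagPSU n F q) γ₁ γ₃ ∧ (∀ γ : MulAut (Cfsg.PSU n F q), Cfsg.IsGraphAutClassPSU γ → orderOf γ = 2 → Cfsg.IsConjUnder (Cfsg.inndiagPSU n F q) γ₁ γ ∨ Cfsg.IsConjUnder (Cfsg.inndiagPSU n F q) γ₃ γ) ∧ Nonempty (↥(Cfsg.inndiagPSU n F q ⊓ Subgroup.centralizer {γ₁}) ≃* ↥(Matrix.symplecticGroup (Fin m) F₀)) ∧ Nonempty (↥(Cfsg.inndiagPSU n F q ⊓ Subgroup.centralizer {γ₃}) ≃* ↥(Subgroup.centralizer ({t} : Set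 ↥(Matrix.symplecticGroup (Fin m) F₀)))) := by
  have hn : 3 ≤ n := by omega
  obtain ⟨j, hj⟩ := exists_j hF F₀ hF₀
  have hcp : CharP F₀ 2 := (RingHom.charP_iff j j.injective 2).2 inferInstance
  obtain ⟨δ₁, δ₃, t, ht, g1, o1, g3, o3, n13, hall, ⟨e1⟩, ⟨e3⟩⟩ := Cfsg.Agent.S2701.result (F := F₀) hm hnm
  obtain ⟨γ₁, M₁, rfl, r1⟩ := exists_relU_gam (q := q) (hF := hF) hj hn g1 o1
  obtain ⟨γ₃, M₃, rfl, r3⟩ := exists_relU_gam (q := q) (hF := hF) hj hn g3 o3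
  obtain ⟨c1⟩ := r1.cent hj hn
  obtain ⟨c3⟩ := r3.cent hj hn
  refine ⟨γ₁, γ₃, t, ht, (r1.graph hn).1, (r1.graph hn).2, (r3.graph hn).1, (r3.graph hn).2, ?_, ?_, ⟨c1.trans e1⟩, ⟨c3.trans e3⟩⟩
  · rw [r1.conj_iff hj hn r3]; exact n13
  · intro γ hγ hγ2
    obtain ⟨M, r⟩ := exists_relU (K := F₀) hj hn hγ hγ2
    rw [r1.conj_iff hj hn r, r3.conj_iff hj hn r]
    exact hall (gam M) (gam_graph hn M) ((orderOf_gam hn M).2 (r.transpose hj))

end Cfsg.Agent.S2708
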