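import Cfsg.Statements.S2709
import Cfsg.Agent.H41.GraphPSUCount

set_option autoImplicit false
open Cfsg

namespace Cfsg.Agent.S2709

open Matrix Cfsg.Agent.AutPSL Cfsg.Agent.AutLie Cfsg.Agent.H41

/-- Let T = PSU_n(q) be simple (n ≥ 3, (n,q) ≠ (3,2), q = p^f), realised over the field F with q² elements, G = Inndiag(T) the image of PGU_n(q), and γ an involutory graph automorphism of T. The G-class of γ is the union of exactly c T-classes, where: if n is even and q is odd, c = gcd(n/2, q + 1) when C_G(γ) is isomorphic to PGSp_n(F₀) for a field F₀ with q elements (symplectic type) and c = gcd(n, q + 1)/2 otherwise; and c = gcd(n, q + 1) when n is odd or q is even. -/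
theorem result {F : Type*} [Field F] [Fintype F] {p f q : ℕ} [Fact p.Prime] (hq : q = p ^ f) (hf : 1 ≤ f) (hF : Fintype.card F = q ^ 2) {n : ℕ} (hn : 3 ≤ n) (hs : ¬ (n = 3 ∧ q = 2)) (F₀ : Type*) [Field F₀] [Fintype F₀] (hF₀ : Fintype.card F₀ = q) (γ : MulAut (Cfsg.PSU n F q)) (hγ : Cfsg.IsGraphAutClassPSU γ) (hγ2 : orderOf γ = 2) :
    ((Even n ∧ Odd q ∧ Nonempty (↥(Cfsg.inndiagPSU n F q ⊓ Subgroup.centralizer {γ}) ≃* Cfsg.PGSp (n / 2) F₀)) → Cfsg.splitClassCount (Cfsg.inndiagPSU n F q) (Cfsg.Inn (Cfsg.PSU n F q)) γ = Nat.gcd (n / 2) (q + 1)) ∧ ((Even n ∧ Odd q ∧ ¬ Nonempty (↥(Cfsg.inndiagPSU n F q ⊓ Subgroup.centralizer {γ}) ≃* Cfsg.PGSp (n / 2) F₀)) → Cfsg.splitClassCount (Cfsg.inndiagPSU n F q) (Cfsg.Inn (Cfsg.PSU n F q)) γ = Nat.gcd n (q + 1) / 2) ∧ (¬ (Even n ∧ Odd q) → Cfsg.splitClassCount (Cfsg.inndiagPSU n F q) (Cfsg.Inn (Cfsg.PSU n F q)) γ = Nat.gcd n (q + 1)) := by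
  obtain ⟨j, hj⟩ := exists_j hF F₀ hF₀
  obtain ⟨M, r⟩ := exists_relU (K := F₀) hj hn hγ hγ2
  have hM := r.transpose hj
  obtain ⟨E⟩ := r.cent hj hn
  have hn2 : 2 ≤ n := by omega
  have two_ne : Odd q → (2 : F₀) ≠ 0 := by
    intro hodd
    apply odd_card_two_ne_zero
    rw [hF₀]
    exact hodd
  refine ⟨?_, ?_, ?_⟩
  · rintro ⟨⟨m, hm⟩, hodd, ⟨E'⟩⟩
    have h2 := two_ne hodd
    have hnm : n = 2 * m := by omega
    have hdiv : n / 2 = m := by omega
    rw [hdiv] at E' ⊢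
    rcases hM with hM | hM
    · exact absurd ⟨E.symm.trans E'⟩ (not_PGSp h2 (by omega) hnm M hM)
    · exact cntB hj hn hnm r (alt_of_transpose h2 _ hM)
  · rintro ⟨⟨m, hm⟩, hodd, hE⟩
    have h2 := two_ne hodd
    have hnm : n = 2 * m := by omega
    have hdiv : n / 2 = m := by omega
    rw [hdiv] at hE
    rcases hM with hM | hM
    · exact cntC hj hn h2 hnm r hM
    · obtain ⟨E'⟩ := cent_alt hn2 hnm M (alt_of_transpose h2 _ hM)
      exact absurd ⟨E.trans E'⟩ hE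
  · intro hnot
    apply cntA hj hn r
    by_cases hodd : Odd q
    · left
      exact Nat.not_even_iff_odd.1 fun h => hnot ⟨h, hodd⟩
    · right
      have hp2 : p = 2 := by
        have hp : p.Prime := Fact.out
        rcases hp.eq_two_or_odd' with h | h
        · exact h
        · exact absurd (hq ▸ h.pow) hodd
      subst hp2
      exact charP_of_card_eq_prime_pow (hF₀.trans hq)

end Cfsg.Agent.S2709
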