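import Cfsg.Statements.S2710
import Cfsg.Agent.H41.GraphPSU
import Cfsg.Agent.S2703

set_option autoImplicit false
open Cfsg

namespace Cfsg.Agent.S2710

open Matrix Cfsg.Agent.AutPSL Cfsg.Agent.AutLie Cfsg.Agent.H41

/-- Let T = PSU_n(q) with n ≥ 4 divisible by 4 (n = 2m) and q odd, realised over the field F with q² elements, G = Inndiag(T) the image of PGU_n(q), and φ the standard field automorphism of T attached to the q-th power map of F (it induces inverse-transpose on the unitary matrices and is a graph automorphism). Its centralizer in G is isomorphic to the projective conformal orthogonal group of the plus-type form Σ xᵢ yᵢ in dimension n over a field F₀ with q elements. (Dimensions n ≡ 2 (mod 4) are not covered.) -/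
theorem result {F : Type*} [Field F] [Fintype F] {q : ℕ} (hodd : Odd q) (hF : Fintype.card F = q ^ 2) {n m : ℕ} (hm : 2 ≤ m) (hnm : n = 2 * m) (h4 : 4 ∣ n) (F₀ : Type*) [Field F₀] [Fintype F₀] (hF₀ : Fintype.card F₀ = q) (σ : F ≃+* F) (hσ : ∀ a : F, σ a = a ^ q) (φ : MulAut (Cfsg.PSU n F q)) (hφ : Cfsg.IsFieldAutPSUOf σ φ) :
    Nonempty (↥(Cfsg.inndiagPSU n F q ⊓ Subgroup.centralizer {φ}) ≃* Cfsg.PGO F₀ (Cfsg.quadFormPlus m F₀)) := by
  have hn : 3 ≤ n := by omega
  obtain ⟨j, hj⟩ := exists_j hF F₀ hF₀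
  have hσ' : σ = frobQ hF := by
    ext x
    exact hσ x
  have hφ' : φ = Cfsg.Agent.AutPSU.cAutU 1 (frobQ hF) := by
    rw [Cfsg.Agent.AutPSU.field_iff.1 hφ, hσ']
  have r : RelU hF j φ (1 : GL (Fin n) F₀) := by
    rw [hφ']; exact relU_one hF j
  obtain ⟨c⟩ := r.cent hj hn
  have hg1 : gam (1 : GL (Fin n) F₀) = iAut (Fin n) F₀ := by
    rw [gam, inv_one, map_one, one_mul]
  have hι : Cfsg.IsInverseTransposeAutPSL (gam (1 : GL (Fin n) F₀)) := by
    rw [hg1]; exact invT_iff.2 rfl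
  obtain ⟨h1, -⟩ := Cfsg.Agent.S2703.result (F := F₀) (by rw [hF₀]; exact hodd) hm hnm (gam (1 : GL (Fin n) F₀)) hι
  obtain ⟨e⟩ := h1 (by
    obtain ⟨k, hk⟩ := h4
    obtain ⟨l, hl⟩ := hodd
    rw [hF₀, hk, hl, Nat.add_sub_cancel, mul_assoc, Nat.mul_div_cancel_left _ (by norm_num)]
    exact (even_two_mul l).mul_left k)
  exact ⟨c.trans e⟩

end Cfsg.Agent.S2710
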