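import Cfsg.Statements.S2711
import Cfsg.Agent.AutPSU.Lang

set_option autoImplicit false
open Cfsg

namespace Cfsg.Agent.S2711

open AutPSU AutLie AutPSL

/-- Let T = PSU_n(q) be simple (n ≥ 3, (n,q) ≠ (3,2)), realised over the field F with q² elements, and let x be a field automorphism of T (conjugate to a standard field automorphism of odd order) of prime order r. Then an element y of the coset Inndiag(T)·x (y = δ x with δ in the image of PGU_n(q)) has order r if and only if y is conjugate to x by an element of Inndiag(T). (T has no graph-field automorphisms.) -/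
theorem result {F : Type*} [Field F] [Fintype F] {p f q : ℕ} [Fact p.Prime] (hq : q = p ^ f) (hf : 1 ≤ f) (hF : Fintype.card F = q ^ 2) {n : ℕ} (hn : 3 ≤ n) (hs : ¬ (n = 3 ∧ q = 2)) (x δ : MulAut (Cfsg.PSU n F q)) (hx : Cfsg.IsFieldAutClassPSU x) {r : ℕ} (hr : r.Prime) (hxr : orderOf x = r) (hδ : δ ∈ Cfsg.inndiagPSU n F q) :
    orderOf (δ * x) = r ↔ Cfsg.IsConjUnder (Cfsg.inndiagPSU n F q) x (δ * x) := by
  have hN : (Cfsg.inndiagPSU n F q).Normal := by
    rw [inndiagPSU_eq]; exact normal_diagU hF hn hs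
  constructor
  · intro h
    obtain ⟨α, σ, hσ, hodd, hα⟩ := fieldClass_specU hx
    have h1 : α * δ * α⁻¹ ∈ Cfsg.inndiagPSU n F q := hN.conj_mem δ hδ α
    rw [inndiagPSU_eq] at h1
    obtain ⟨A, hA⟩ := h1
    have h2 : α * (δ * x) * α⁻¹ = diagU n F q A * cAutU 1 σ := by rw [hA, ← hα]; group
    have h3 : (diagU n F q A * cAutU 1 σ) ^ r = 1 := by
      rw [← h2, ← orderOf_dvd_iff_pow_eq_one, orderOf_conj', h]
    have h4 : orderOf σ = r := by
      rw [← orderOf_cAutU_one hF hn, ← hα, orderOf_conj', hxr]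
    rw [← h4] at h3
    obtain ⟨B, hB⟩ := field_langU hF hn σ hodd A h3
    rw [← isConjUnder_conj _ α, h2, hα, inndiagPSU_eq]
    exact ⟨diagU n F q B, ⟨B, rfl⟩, hB⟩
  · rintro ⟨k, _, hk⟩
    rw [hk, orderOf_conj', hxr]

end Cfsg.Agent.S2711
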