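import Cfsg.Statements.S2712
import Cfsg.Agent.AutSp.Cent

set_option autoImplicit false
open Cfsg

namespace Cfsg.Agent.S2712

open AutSp AutLie

/-- Let T = PSp_{2m}(F) be simple over the field F with p^f elements (m ≥ 2, (2m, |F|) ≠ (4, 2)), G = Inndiag(T) the image of the projective conformal symplectic group PGSp_{2m}(F), and x a field automorphism of T of prime order r. Then r divides f; C_G(x) is isomorphic to PGSp_{2m}(F₀) for a field F₀ with p^(f/r) elements; and the G-class of x is the union of exactly gcd(gcd(2, p^f − 1), r) T-classes. -/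
theorem result {F : Type*} [Field F] [Fintype F] {p f : ℕ} [Fact p.Prime] (hF : Fintype.card F = p ^ f) (hf : 1 ≤ f) {m : ℕ} (hm : 2 ≤ m) (hs : m = 2 → 3 ≤ Fintype.card F) (x : MulAut (Cfsg.PSp m F)) (hx : Cfsg.IsFieldAutClassPSp x) {r : ℕ} (hr : r.Prime) (hxr : orderOf x = r) (F₀ : Type*) [Field F₀] [Fintype F₀] (hF₀ : Fintype.card F₀ = p ^ (f / r)) :
    r ∣ f ∧ Nonempty (↥(Cfsg.inndiagPSp m F ⊓ Subgroup.centralizer {x}) ≃* Cfsg.PGSp m F₀) ∧ Cfsg.splitClassCount (Cfsg.inndiagPSp m F) (Cfsg.Inn (Cfsg.PSp m F)) x = Nat.gcd (Nat.gcd 2 (p ^ f - 1)) r := by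
  have hcp : CharP F p := charP_of_card hF
  obtain ⟨α, σ, hσ, hα⟩ := fieldClass_spec hx
  have hord : orderOf σ = r := by rw [← orderOf_ph hm σ, ← hα, orderOf_conj', hxr]
  have hN : (dg : gsp (Fin m) F →* MulAut (T (Fin m) F)).range.Normal :=
    normal_range_dg (by rw [Fintype.card_fin]; exact hm) p
  have hN' : (Cfsg.Inn (T (Fin m) F)).Normal := AutPSL.normal_inn
  obtain ⟨j, hj⟩ := exists_embedding hF σ F₀ (by rw [hord]; exact hF₀)
  have hrf : r ∣ f := hord ▸ orderOf_ringAut_dvd hF σ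
  rw [inndiagPSp_eq]
  refine ⟨hrf, ?_, ?_⟩
  · obtain ⟨e⟩ := cent_ph j σ hj hm
    rw [← hα] at e
    exact ⟨(centConj _ α x).trans e⟩
  · change Cfsg.splitClassCount _ (Cfsg.Inn (T (Fin m) F)) x = _
    have h1 : 1 ≤ f / r := Nat.div_pos (Nat.le_of_dvd hf hrf) hr.pos
    have h2 : 2 ≤ p ^ (f / r) := by
      calc 2 ≤ p := (Fact.out : p.Prime).two_le
        _ ≤ p ^ (f / r) := Nat.le_self_pow (by omega) p
    have h3 : p ^ f = (p ^ (f / r)) ^ r := by rw [← pow_mul, Nat.div_mul_cancel hrf]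
    rw [← splitClassCount_conj _ _ α x, hα, count_ph j σ hj hm, hF, hF₀, h3, gcd_two_aux _ _ h2 hr.one_lt.le]

end Cfsg.Agent.S2712
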