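import Cfsg.Statements.S2713
import Cfsg.Agent.AutSp.Lang

set_option autoImplicit false
open Cfsg

namespace Cfsg.Agent.S2713

open AutSp AutLie

/-- Let T = PSp_{2m}(F) be simple over a finite field (m ≥ 2, (2m, |F|) ≠ (4, 2)) and let x be a field automorphism of T of prime order r. Then an element y of the coset Inndiag(T)·x (y = δ x with δ in the image of the projective conformal symplectic group) has order r if and only if y is conjugate to x by an element of Inndiag(T). -/
theorem result {F : Type*} [Field F] [Fintype F] {m : ℕ} (hm : 2 ≤ m) (hs : m = 2 → 3 ≤ Fintype.card F) (x δ : MulAut (Cfsg.PSp m F)) (hx : Cfsg.IsFieldAutClassPSp x) {r : ℕ} (hr : r.Prime) (hxr : orderOf x = r) (hδ : δ ∈ Cfsg.inndiagPSp m F) :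
    orderOf (δ * x) = r ↔ Cfsg.IsConjUnder (Cfsg.inndiagPSp m F) x (δ * x) := by
  obtain ⟨p, hcp⟩ := CharP.exists F
  have hp : Fact p.Prime := ⟨CharP.char_is_prime F p⟩
  rw [inndiagPSp_eq] at hδ ⊢
  have hN : (dg : gsp (Fin m) F →* MulAut (T (Fin m) F)).range.Normal :=
    normal_range_dg (by rw [Fintype.card_fin]; exact hm) p
  constructor
  · intro h
    obtain ⟨α, σ, hσ, hα⟩ := fieldClass_spec hx
    have h1 : α * δ * α⁻¹ ∈ (dg : gsp (Fin m) F →* MulAut (T (Fin m) F)).range := hN.conj_mem δ hδ α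
    obtain ⟨A, hA⟩ := h1
    have h2 : α * (δ * x) * α⁻¹ = dg A * ph σ := by rw [hA, ← hα]; group
    have h3 : orderOf σ = r := by rw [← orderOf_ph hm σ, ← hα, orderOf_conj', hxr]
    obtain ⟨B, hB⟩ := field_lang hm σ A (by
      rw [← h2, ← orderOf_dvd_iff_pow_eq_one, orderOf_conj', h, h3])
    rw [← isConjUnder_conj _ α, h2, hα]
    exact ⟨dg B, ⟨B, rfl⟩, hB⟩
  · rintro ⟨k, _, hk⟩
    rw [hk, orderOf_conj', hxr]

end Cfsg.Agent.S2713
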