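import Cfsg.Statements.S2714
import Cfsg.Agent.AutO.RowOdd

set_option autoImplicit false
open Cfsg

namespace Cfsg.Agent.S2714

/-- Let T = Ω_{2m+1}(F) (m ≥ 3, |F| = p^f odd; realised as PΩ of the form x₀² + Σ xᵢ yᵢ), G = Inndiag(T) the image of the conformal orthogonal group in Aut(T), and x a field automorphism of T of prime order r. Then r divides f; C_G(x) is isomorphic to Inndiag(Ω_{2m+1}(F₀)) for a field F₀ with p^(f/r) elements; and the G-class of x is a single T-class when r is odd and the union of exactly two T-classes when r = 2. -/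
theorem result {F : Type*} [Field F] [Fintype F] {p f : ℕ} [Fact p.Prime] (hF : Fintype.card F = p ^ f) (hf : 1 ≤ f) (hodd : Odd (Fintype.card F)) {m : ℕ} (hm : 3 ≤ m) (x : MulAut (Cfsg.POmega F (Cfsg.quadFormOdd m F))) (hx : Cfsg.IsFieldAutClassPOmega (Cfsg.quadFormOdd m F) x) {r : ℕ} (hr : r.Prime) (hxr : orderOf x = r) (F₀ : Type*) [Field F₀] [Fintype F₀] (hF₀ : Fintype.card F₀ = p ^ (f / r)) :
    r ∣ f ∧ Nonempty (↥(Cfsg.inndiagPOmegaOdd m F ⊓ Subgroup.centralizer {x}) ≃* ↥(Cfsg.inndiagPOmegaOdd m F₀)) ∧ (Odd r → Cfsg.splitClassCount (Cfsg.inndiagPOmegaOdd m F) (Cfsg.Inn (Cfsg.POmega F (Cfsg.quadFormOdd m F))) x = 1) ∧ (r = 2 → Cfsg.splitClassCount (Cfsg.inndiagPOmegaOdd m F) (Cfsg.Inn (Cfsg.POmega F (Cfsg.quadFormOdd m F))) x = 2) := by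
  have hcp : CharP F p := AutLie.charP_of_card hF
  have key : ∀ R : (Unit ⊕ (Fin m ⊕ Fin m) → F) → F, R = ⇑(Orth.qfOdd m F) →
      ∀ R0 : (Unit ⊕ (Fin m ⊕ Fin m) → F₀) → F₀, R0 = ⇑(Orth.qfOdd m F₀) → ∀ x : MulAut (Cfsg.POmega F R),
      Cfsg.IsFieldAutClassPOmega R x → orderOf x = r → 
      r ∣ f ∧ Nonempty (↥(Cfsg.pgoAut F R ⊓ Subgroup.centralizer {x}) ≃* ↥(Cfsg.pgoAut F₀ R0)) ∧
      (Odd r → Cfsg.splitClassCount (Cfsg.pgoAut F R) (Cfsg.Inn (Cfsg.POmega F R)) x = 1) ∧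
      (r = 2 → Cfsg.splitClassCount (Cfsg.pgoAut F R) (Cfsg.Inn (Cfsg.POmega F R)) x = 2) := by
    rintro R rfl R0 rfl x hx hxr
    obtain ⟨α, σ, hσ, hα⟩ := AutO.fieldClass_gen AutO.std_odd hx
    have h2 : (2 : F) ≠ 0 := Orth.two_ne_zero_of_odd hodd
    have hG := AutO.good_odd h2 hm
    have hord : orderOf σ = r := by
      rw [← AutO.orderOf_cO_std (Q := Orth.qfOdd m F) (AutO.isSemi_stdF AutO.std_odd σ) (AutO.stdF_pow_odd σ), ← hα,
        AutLie.orderOf_conj', AutO.orderOf_aE, hxr]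
    have hrf : r ∣ f := hord ▸ AutLie.orderOf_ringAut_dvd hF σ
    obtain ⟨j, hj⟩ := AutLie.exists_embedding hF σ F₀ (by rw [hord]; exact hF₀)
    have hcard : Fintype.card F = Fintype.card F₀ ^ r := by
      rw [hF, hF₀, ← pow_mul, Nat.div_mul_cancel hrf]
    have hN1 := AutO.normal_odd hodd hm
    have hN2 : (Cfsg.Inn (AutO.T (Orth.qfOdd m F))).Normal := AutPSL.normal_inn
    have hcnt := AutO.count_odd j hj h2 hm hcard
    refine ⟨hrf, ?_, ?_⟩
    · obtain ⟨e⟩ := AutO.cent_odd j hj h2 hm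
      rw [← hα] at e
      have e1 := AutO.centMap (AutO.aE (Orth.qfOdd m F)) (Cfsg.pgoAut F ⇑(Orth.qfOdd m F)) x
      rw [AutO.pgoAut_map] at e1
      have e2 := AutLie.centConj ((⊤ : Subgroup (AutO.SimG (Orth.qfOdd m F))).map (AutO.dO _)) α (AutO.aE (Orth.qfOdd m F) x)
      have e3 := (Cfsg.pgoAut F₀ ⇑(Orth.qfOdd m F₀)).equivMapOfInjective (AutO.aE (Orth.qfOdd m F₀)).toMonoidHom
        (AutO.aE (Orth.qfOdd m F₀)).injective
      rw [AutO.pgoAut_map] at e3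
      exact ⟨((e1.trans e2).trans e).trans e3.symm⟩
    · have h3 : Cfsg.splitClassCount (Cfsg.pgoAut F ⇑(Orth.qfOdd m F)) (Cfsg.Inn (Cfsg.POmega F ⇑(Orth.qfOdd m F))) x =
          Cfsg.splitClassCount ((⊤ : Subgroup (AutO.SimG (Orth.qfOdd m F))).map (AutO.dO _))
            (Cfsg.Inn (AutO.T (Orth.qfOdd m F))) (AutO.cO _ (AutO.stdF AutO.std_odd σ)) := by
        rw [AutO.splitClassCount_map (AutO.aE (Orth.qfOdd m F)), AutO.pgoAut_map, AutO.inn_map_congr, ← hα,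
          AutLie.splitClassCount_conj]
      rw [h3]
      exact hcnt
  exact key _ (Orth.coe_qfOdd m F).symm _ (Orth.coe_qfOdd m F₀).symm x hx hxr

end Cfsg.Agent.S2714
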