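import Cfsg.Statements.S2718
import Cfsg.Agent.SimO.Graph5

set_option autoImplicit false
open Cfsg

namespace Cfsg.Agent.S2718

/-- Let T = PΩ⁺_{2m}(F) with m ≥ 4 and |F| = q odd, G = Inndiag(T), and γ an involutory graph automorphism of T induced by a similarity (one interchanging the two classes of maximal totally singular subspaces). Then the G-class of γ is either a single T-class or the union of exactly two T-classes, and it is the union of two unless m is odd and q ≡ 3 (mod 4). -/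
theorem result {F : Type*} [Field F] [Fintype F] (hodd : Odd (Fintype.card F)) {m : ℕ} (hm : 4 ≤ m) (γ : MulAut (Cfsg.POmega F (Cfsg.quadFormPlus m F))) (hγ : Cfsg.IsSimilarityGraphAutPOmegaPlus m γ) (hγ2 : orderOf γ = 2) :
    (Cfsg.splitClassCount (Cfsg.inndiagPOmegaPlus m F) (Cfsg.Inn (Cfsg.POmega F (Cfsg.quadFormPlus m F))) γ = 1 ∨ Cfsg.splitClassCount (Cfsg.inndiagPOmegaPlus m F) (Cfsg.Inn (Cfsg.POmega F (Cfsg.quadFormPlus m F))) γ = 2) ∧ (¬ (Odd m ∧ Fintype.card F % 4 = 3) → Cfsg.splitClassCount (Cfsg.inndiagPOmegaPlus m F) (Cfsg.Inn (Cfsg.POmega F (Cfsg.quadFormPlus m F))) γ = 2) := by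
  have hG : AutO.Good (Orth.qfPlus m F) := AutO.good_plus hm
  obtain ⟨μ, hμ, hμ'⟩ := SimO.exists_chi (m := m) hodd
  have hχ : ∃ l : SimO.LinS (Orth.qfPlus m F), SimO.chi (SimO.exists_q (Q := Orth.qfPlus m F)) l = -1 := ⟨SimO.dlt m μ, hμ⟩
  have hsp := SimO.spin_negO_iff (m := m) hodd
  have hpar := SimO.parity_negO (m := m) (F := F)
  have hneg : (Odd m ∧ Fintype.card F % 4 = 3) → Orth.spinHom hG.nd hG.rg (SimO.negO (Orth.qfPlus m F)) = -1 :=
    fun h => Orth.units_int_ne_one fun h' => hsp.1 h' h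
  have ep := SimO.isEps_plus (m := m) (F := F)
  have hcard : Fintype.card (Fin m ⊕ Fin m) = 2 * m := by rw [Fintype.card_sum, Fintype.card_fin, two_mul]
  obtain ⟨g, hg, hgγ⟩ := (SimO.isGraph_iff γ).1 hγ
  have hg' := Orth.units_int_ne_one hg
  obtain ⟨htr, hg2⟩ := SimO.split_finish (MulAut.congr (ClassO.pomE (Orth.qfPlus m F))) SimO.mem_inndiag_plus
    SimO.mem_inn hgγ hγ2
  have h1 : Cfsg.splitClassCount (SimO.PI (SimO.epsP m F)) (Cfsg.Inn (AutO.T (Orth.qfPlus m F))) (SimO.cL _ g) = 1 ∨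
      Cfsg.splitClassCount (SimO.PI (SimO.epsP m F)) (Cfsg.Inn (AutO.T (Orth.qfPlus m F))) (SimO.cL _ g) = 2 := by
    by_cases h : Odd m ∧ Fintype.card F % 4 = 3
    · exact SimO.split_one_or_two ep hχ hpar (hneg h) (SimO.cL _ g)
    · exact Or.inr (SimO.count_of_graph ep hcard hodd hχ (SimO.det_plus hodd) (hsp.2 h) hg' hg2)
  have h2 : ¬ (Odd m ∧ Fintype.card F % 4 = 3) →
      Cfsg.splitClassCount (SimO.PI (SimO.epsP m F)) (Cfsg.Inn (AutO.T (Orth.qfPlus m F))) (SimO.cL _ g) = 2 :=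
    fun h => SimO.count_of_graph ep hcard hodd hχ (SimO.det_plus hodd) (hsp.2 h) hg' hg2
  exact ⟨h1.imp htr.trans htr.trans, fun h => htr.trans (h2 h)⟩

end Cfsg.Agent.S2718
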