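import Cfsg.Statements.S2719
import Cfsg.Agent.SimO.Graph5

set_option autoImplicit false
open Cfsg

namespace Cfsg.Agent.S2719

/-- Let T = PΩ⁻_{2m+2}(F) with m ≥ 3 and |F| = q odd (form with anisotropic binary part z₁² + a z₁ z₂ + b z₂²), G = Inndiag(T), and γ an involutory graph automorphism of T (an automorphism in the image of the semisimilarity group, not inner-diagonal, of order 2). Then the G-class of γ is either a single T-class or the union of exactly two T-classes, and it is the union of two unless m is even and q ≡ 1 (mod 4). -/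
theorem result {F : Type*} [Field F] [Fintype F] (hodd : Odd (Fintype.card F)) {m : ℕ} (hm : 3 ≤ m) (a b : F) (hab : (∀ z₁ z₂ : F, z₁ ^ 2 + a * z₁ * z₂ + b * z₂ ^ 2 = 0 → z₁ = 0 ∧ z₂ = 0)) (γ : MulAut (Cfsg.POmega F (Cfsg.quadFormMinus m F a b))) (hγ : Cfsg.IsGraphAutClassPOmegaMinus m a b γ) (hγ2 : orderOf γ = 2) :
    (Cfsg.splitClassCount (Cfsg.inndiagPOmegaMinus m F a b) (Cfsg.Inn (Cfsg.POmega F (Cfsg.quadFormMinus m F a b))) γ = 1 ∨ Cfsg.splitClassCount (Cfsg.inndiagPOmegaMinus m F a b) (Cfsg.Inn (Cfsg.POmega F (Cfsg.quadFormMinus m F a b))) γ = 2) ∧ (¬ (Even m ∧ Fintype.card F % 4 = 1) → Cfsg.splitClassCount (Cfsg.inndiagPOmegaMinus m F a b) (Cfsg.Inn (Cfsg.POmega F (Cfsg.quadFormMinus m F a b))) γ = 2) := by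
  have hfa : Fact (∀ r : F, r ^ 2 ≠ -b + a * r) := AutO.fact_of_aniso hab
  have hG : AutO.Good (Orth.qfMinus m F a b) := AutO.good_minus hm hab
  obtain ⟨δ, c, A, hδ1, hδ2, hA, hA2⟩ := SimO.exists_chiM (m := m) (a := a) (b := b) hodd
  have hχ : ∃ l : SimO.LinS (Orth.qfMinus m F a b), SimO.chi (SimO.exists_q (Q := Orth.qfMinus m F a b)) l = -1 := ⟨δ, hδ1⟩
  have hsp := SimO.spin_negM_iff (m := m) (a := a) (b := b) hodd
  have hpar := SimO.parity_negM (m := m) (F := F) (a := a) (b := b)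
  have hneg : ¬ (Even m ∧ Fintype.card F % 4 = 3) →
      Orth.spinHom hG.nd hG.rg (SimO.negO (Orth.qfMinus m F a b)) = -1 :=
    fun h => Orth.units_int_ne_one fun h' => h (hsp.1 h')
  have ep := SimO.isEps_minus (m := m) (F := F) (a := a) (b := b)
  have hcard : Fintype.card ((Fin m ⊕ Fin m) ⊕ Fin 2) = 2 * (m + 1) := by
    rw [Fintype.card_sum, Fintype.card_sum, Fintype.card_fin, Fintype.card_fin]; ring
  have hF4 : Fintype.card F % 4 = 1 ∨ Fintype.card F % 4 = 3 := by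
    obtain ⟨k, hk⟩ := hodd
    omega
  obtain ⟨f, hf⟩ := AutO.hall_minus hm (MulAut.congr (ClassO.pomE (Orth.qfMinus m F a b)) γ)
  obtain ⟨-, hff⟩ := SimO.split_finish (MulAut.congr (ClassO.pomE (Orth.qfMinus m F a b))) SimO.mem_inndiag_minus
    SimO.mem_inn hf.symm hγ2
  obtain ⟨g, rfl⟩ := SimO.lin_of_invol hff
  have hgγ : SimO.cL _ g = MulAut.congr (ClassO.pomE (Orth.qfMinus m F a b)) γ := hf.symm
  obtain ⟨htr, hg2⟩ := SimO.split_finish (MulAut.congr (ClassO.pomE (Orth.qfMinus m F a b))) SimO.mem_inndiag_minus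
    SimO.mem_inn hgγ hγ2
  have hg' : SimO.epsM m F a b g = -1 := by
    apply Orth.units_int_ne_one
    intro h
    apply hγ.2.1
    refine (SimO.mem_inndiag_minus γ).2 ?_
    exact ⟨g, h, hgγ⟩
  have hdet := SimO.det_minus (m := m) (a := a) (b := b) hodd
  have h2 : ¬ (Even m ∧ Fintype.card F % 4 = 1) →
      Cfsg.splitClassCount (SimO.PI (SimO.epsM m F a b)) (Cfsg.Inn (AutO.T (Orth.qfMinus m F a b))) (SimO.cL _ g) = 2 := by
    intro h
    by_cases h' : Even m ∧ Fintype.card F % 4 = 3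
    · exact SimO.count_of_graph ep hcard hodd hχ hdet (hsp.2 h') hg' hg2
    · have hm' : Odd m := by
        by_contra hev
        have hev' := Nat.not_odd_iff_even.1 hev
        rcases hF4 with h4 | h4
        · exact h ⟨hev', h4⟩
        · exact h' ⟨hev', h4⟩
      exact SimO.count_of_graph' ep hcard hm'.add_one hodd hχ hdet hpar (hneg h') hg' hg2
  have h1 : Cfsg.splitClassCount (SimO.PI (SimO.epsM m F a b)) (Cfsg.Inn (AutO.T (Orth.qfMinus m F a b))) (SimO.cL _ g) = 1 ∨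
      Cfsg.splitClassCount (SimO.PI (SimO.epsM m F a b)) (Cfsg.Inn (AutO.T (Orth.qfMinus m F a b))) (SimO.cL _ g) = 2 := by
    by_cases h : Even m ∧ Fintype.card F % 4 = 1
    · exact SimO.split_one_or_two ep hχ hpar (hneg fun h' => by omega) (SimO.cL _ g)
    · exact Or.inr (h2 h)
  exact ⟨h1.imp htr.trans htr.trans, fun h => htr.trans (h2 h)⟩

end Cfsg.Agent.S2719
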