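import Cfsg.Statements.S2720
import Cfsg.Agent.Iso44.Fus3

set_option autoImplicit false
open Cfsg

namespace Cfsg.Agent.S2720

open Cfsg.Agent Cfsg.Agent.Iso44 Cfsg.Agent.Iso44.Fus Cfsg.Agent.SimO
open Cfsg.Agent.AutO hiding T
open Cfsg.Agent.ClassO (pomE)
open Cfsg.Agent.Orth hiding two_ne_zero_of_odd map_mul



/-- Let T = PΩ⁺_{2m}(F) (m ≥ 4, F finite of odd characteristic p), G = Inndiag(T), and let x be an automorphism of T induced by a similarity of the form (an element of the image G̃ of the conformal orthogonal group) of odd prime order r ≠ p. Then the T-class, the PSO-class and the G-class of x coincide (conjugacy under inner automorphisms, under the image of the special orthogonal group, and under G), and the PO-class of x coincides with its G̃-class. (In characteristic 2 the first equality fails: there the special orthogonal group is the full orthogonal group and some such classes split.) -/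
theorem result {F : Type*} [Field F] [Fintype F] {p : ℕ} [Fact p.Prime] [CharP F p] (hp : p ≠ 2) {m : ℕ} (hm : 4 ≤ m) (x : MulAut (Cfsg.POmega F (Cfsg.quadFormPlus m F))) (hx : x ∈ Cfsg.pgoAut F (Cfsg.quadFormPlus m F)) {r : ℕ} (hr : r.Prime) (hro : Odd r) (hrp : r ≠ p) (hxr : orderOf x = r) :
    (∀ y : MulAut (Cfsg.POmega F (Cfsg.quadFormPlus m F)), (Cfsg.IsConjUnder (Cfsg.Inn (Cfsg.POmega F (Cfsg.quadFormPlus m F))) x y ↔ Cfsg.IsConjUnder (Cfsg.inndiagPOmegaPlus m F) x y) ∧ (Cfsg.IsConjUnder (Cfsg.psoAut F (Cfsg.quadFormPlus m F)) x y ↔ Cfsg.IsConjUnder (Cfsg.inndiagPOmegaPlus m F) x y)) ∧ (∀ y : MulAut (Cfsg.POmega F (Cfsg.quadFormPlus m F)), Cfsg.IsConjUnder (Cfsg.poAut F (Cfsg.quadFormPlus m F)) x y ↔ Cfsg.IsConjUnder (Cfsg.pgoAut F (Cfsg.quadFormPlus m F)) x y) := by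
  have hG : AutO.Good (qfPlus m F) := good_plus hm
  have hcard : Odd (Fintype.card F) := by
    obtain ⟨n, hn, hn2⟩ := FiniteField.card F p
    rw [hn2]
    exact (((Fact.out : p.Prime).odd_of_ne_two hp)).pow
  have h2 : (2 : F) ≠ 0 := ClassO.two_ne_zero_of_odd hcard
  obtain ⟨μ, hμ, -⟩ := exists_chi (m := m) (F := F) hcard
  have hψ := AddChar.FiniteField.primitiveChar_to_Complex_isPrimitive F
  have hga : ga _ (qfPlus m F) = 1 * (Nat.card F : ℂ) ^ m := (ga_plus _ hψ m).trans (one_mul _).symm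
  have hr2 : r ≠ 2 := by rintro rfl; exact absurd hro (by decide)
  exact fusion' (Q := qfPlus m F) isEps_plus h2 (n := m) (by rw [Fintype.card_sum, Fintype.card_fin, two_mul]) (det_plus hcard)
    ⟨_, hμ⟩ (one_mul 1) _ hψ hga hr hr2 hrp mem_inndiag_plus hx hxr

end Cfsg.Agent.S2720
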