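import Cfsg.Statements.S2722
import Cfsg.Agent.SimO.Plus

set_option autoImplicit false
open Cfsg

namespace Cfsg.Agent.S2722

/-- Let T = PΩ⁺_{2m}(F) with m ≥ 4 and |F| = q odd. Inside Aut(T), the image G̃ of the conformal orthogonal group of the form modulo the image of the special orthogonal group is elementary abelian of order 4. -/
theorem result {F : Type*} [Field F] [Fintype F] (hodd : Odd (Fintype.card F)) {m : ℕ} (hm : 4 ≤ m) :
    (∃ φ : ↥(Cfsg.pgoAut F (Cfsg.quadFormPlus m F)) →* Multiplicative (ZMod 2 × ZMod 2), Function.Surjective φ ∧ φ.ker = (Cfsg.psoAut F (Cfsg.quadFormPlus m F)).subgroupOf (Cfsg.pgoAut F (Cfsg.quadFormPlus m F))) := by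
  have hG : AutO.Good (Orth.qfPlus m F) := AutO.good_plus hm
  have h2 : (2 : F) ≠ 0 := ClassO.two_ne_zero_of_odd hodd
  obtain ⟨μ, hμ, hμ'⟩ := SimO.exists_chi (m := m) hodd
  have hsp := SimO.spin_negO_iff (m := m) hodd
  have hpar := SimO.parity_negO (m := m) (F := F)
  have hneg : (Odd m ∧ Fintype.card F % 4 = 3) → Orth.spinHom hG.nd hG.rg (SimO.negO (Orth.qfPlus m F)) = -1 :=
    fun h => Orth.units_int_ne_one fun h' => hsp.1 h' h
  have ep := SimO.isEps_plus (m := m) (F := F)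
  rw [← Orth.coe_qfPlus]
  exact SimO.phi_transport (MulAut.congr (ClassO.pomE (Orth.qfPlus m F))) SimO.mem_pgo (SimO.mem_pso h2)
    (SimO.PG_mod_PS ep ⟨_, hμ⟩)

end Cfsg.Agent.S2722
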