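import Cfsg.Statements.S2723
import Cfsg.Agent.SimO.Plus

set_option autoImplicit false
open Cfsg

namespace Cfsg.Agent.S2723

/-- Let T = PΩ⁺_{2m}(F) with m ≥ 4 and |F| = q odd. The image of the special orthogonal group in Aut(T) contains the inner automorphism group T with index 1 (they coincide) when m is odd and q ≡ 3 (mod 4), and with index 2 otherwise (the index is 2 exactly when the discriminant of the form is a square). -/
theorem result {F : Type*} [Field F] [Fintype F] (hodd : Odd (Fintype.card F)) {m : ℕ} (hm : 4 ≤ m) :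
    ((Odd m ∧ Fintype.card F % 4 = 3) → (Cfsg.Inn (Cfsg.POmega F (Cfsg.quadFormPlus m F))).relIndex (Cfsg.psoAut F (Cfsg.quadFormPlus m F)) = 1) ∧ (¬ (Odd m ∧ Fintype.card F % 4 = 3) → (Cfsg.Inn (Cfsg.POmega F (Cfsg.quadFormPlus m F))).relIndex (Cfsg.psoAut F (Cfsg.quadFormPlus m F)) = 2) := by
  have hG : AutO.Good (Orth.qfPlus m F) := AutO.good_plus hm
  have h2 : (2 : F) ≠ 0 := ClassO.two_ne_zero_of_odd hodd
  obtain ⟨μ, hμ, hμ'⟩ := SimO.exists_chi (m := m) hodd
  have hsp := SimO.spin_negO_iff (m := m) hodd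
  have hpar := SimO.parity_negO (m := m) (F := F)
  have hneg : (Odd m ∧ Fintype.card F % 4 = 3) → Orth.spinHom hG.nd hG.rg (SimO.negO (Orth.qfPlus m F)) = -1 :=
    fun h => Orth.units_int_ne_one fun h' => hsp.1 h' h
  have ep := SimO.isEps_plus (m := m) (F := F)
  rw [← Orth.coe_qfPlus]
  constructor
  · intro h
    rw [SimO.relIndex_transport (MulAut.congr (ClassO.pomE (Orth.qfPlus m F))) (SimO.mem_pso h2) SimO.mem_inn,
      SimO.PS_eq_inn hpar (hneg h), Subgroup.relIndex_self]
  · intro h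
    rw [SimO.relIndex_transport (MulAut.congr (ClassO.pomE (Orth.qfPlus m F))) (SimO.mem_pso h2) SimO.mem_inn,
      SimO.relIndex_PS hodd hpar (hsp.2 h)]

end Cfsg.Agent.S2723
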