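import Cfsg.Statements.S2724
import Cfsg.Agent.SimO.Plus

set_option autoImplicit false
open Cfsg

namespace Cfsg.Agent.S2724

/-- Let T = PΩ⁺_{2m}(F) with m ≥ 4 and |F| = q odd. The image G̃ of the conformal orthogonal group in Aut(T), taken modulo the inner automorphism group T, is elementary abelian of order 4 when m is odd and q ≡ 3 (mod 4), and dihedral of order 8 otherwise. -/
theorem result {F : Type*} [Field F] [Fintype F] (hodd : Odd (Fintype.card F)) {m : ℕ} (hm : 4 ≤ m) :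
    ((Odd m ∧ Fintype.card F % 4 = 3) → (∃ φ : ↥(Cfsg.pgoAut F (Cfsg.quadFormPlus m F)) →* Multiplicative (ZMod 2 × ZMod 2), Function.Surjective φ ∧ φ.ker = (Cfsg.Inn (Cfsg.POmega F (Cfsg.quadFormPlus m F))).subgroupOf (Cfsg.pgoAut F (Cfsg.quadFormPlus m F)))) ∧ (¬ (Odd m ∧ Fintype.card F % 4 = 3) → (∃ φ : ↥(Cfsg.pgoAut F (Cfsg.quadFormPlus m F)) →* DihedralGroup 4, Function.Surjective φ ∧ φ.ker = (Cfsg.Inn (Cfsg.POmega F (Cfsg.quadFormPlus m F))).subgroupOf (Cfsg.pgoAut F (Cfsg.quadFormPlus m F)))) := by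
  have hG : AutO.Good (Orth.qfPlus m F) := AutO.good_plus hm
  have h2 : (2 : F) ≠ 0 := ClassO.two_ne_zero_of_odd hodd
  obtain ⟨μ, hμ, hμ'⟩ := SimO.exists_chi (m := m) hodd
  have hsp := SimO.spin_negO_iff (m := m) hodd
  have hpar := SimO.parity_negO (m := m) (F := F)
  have hneg : (Odd m ∧ Fintype.card F % 4 = 3) → Orth.spinHom hG.nd hG.rg (SimO.negO (Orth.qfPlus m F)) = -1 :=
    fun h => Orth.units_int_ne_one fun h' => hsp.1 h' h
  have ep := SimO.isEps_plus (m := m) (F := F)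
  rw [← Orth.coe_qfPlus]
  constructor
  · intro h
    exact SimO.phi_transport (MulAut.congr (ClassO.pomE (Orth.qfPlus m F))) SimO.mem_pgo SimO.mem_inn
      (SimO.PG_mod_inn' ep ⟨_, hμ⟩ hpar (hneg h))
  · intro h
    exact SimO.phi_transport (MulAut.congr (ClassO.pomE (Orth.qfPlus m F))) SimO.mem_pgo SimO.mem_inn
      (SimO.PG_mod_inn ep hodd ⟨_, hμ⟩ hpar (hsp.2 h))

end Cfsg.Agent.S2724
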