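import Cfsg.Statements.S2725
import Cfsg.Agent.SimO.Plus

set_option autoImplicit false
open Cfsg

namespace Cfsg.Agent.S2725

/-- Let T = PΩ⁺_{2m}(F) with m ≥ 4 and |F| = q odd. The inner-diagonal group G = Inndiag(T) (image of the class-preserving similarities) taken modulo the inner automorphism group T is cyclic of order 2 when m is odd and q ≡ 3 (mod 4), cyclic of order 4 when m is odd and q ≡ 1 (mod 4), and elementary abelian of order 4 when m is even. -/
theorem result {F : Type*} [Field F] [Fintype F] (hodd : Odd (Fintype.card F)) {m : ℕ} (hm : 4 ≤ m) :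
    ((Odd m ∧ Fintype.card F % 4 = 3) → (∃ φ : ↥(Cfsg.inndiagPOmegaPlus m F) →* Multiplicative (ZMod 2), Function.Surjective φ ∧ φ.ker = (Cfsg.Inn (Cfsg.POmega F (Cfsg.quadFormPlus m F))).subgroupOf (Cfsg.inndiagPOmegaPlus m F))) ∧ ((Odd m ∧ Fintype.card F % 4 = 1) → (∃ φ : ↥(Cfsg.inndiagPOmegaPlus m F) →* Multiplicative (ZMod 4), Function.Surjective φ ∧ φ.ker = (Cfsg.Inn (Cfsg.POmega F (Cfsg.quadFormPlus m F))).subgroupOf (Cfsg.inndiagPOmegaPlus m F))) ∧ (Even m → (∃ φ : ↥(Cfsg.inndiagPOmegaPlus m F) →* Multiplicative (ZMod 2 × ZMod 2), Function.Surjective φ ∧ φ.ker = (Cfsg.Inn (Cfsg.POmega F (Cfsg.quadFormPlus m F))).subgroupOf (Cfsg.inndiagPOmegaPlus m F))) := by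
  have hG : AutO.Good (Orth.qfPlus m F) := AutO.good_plus hm
  have h2 : (2 : F) ≠ 0 := ClassO.two_ne_zero_of_odd hodd
  obtain ⟨μ, hμ, hμ'⟩ := SimO.exists_chi (m := m) hodd
  have hsp := SimO.spin_negO_iff (m := m) hodd
  have hpar := SimO.parity_negO (m := m) (F := F)
  have hneg : (Odd m ∧ Fintype.card F % 4 = 3) → Orth.spinHom hG.nd hG.rg (SimO.negO (Orth.qfPlus m F)) = -1 :=
    fun h => Orth.units_int_ne_one fun h' => hsp.1 h' h
  have ep := SimO.isEps_plus (m := m) (F := F)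
  have hspin := SimO.spin_hd_const (m := m) μ
  rw [hμ'] at hspin
  refine ⟨fun h => ?_, fun h => ?_, fun h => ?_⟩
  · exact SimO.phi_transport (MulAut.congr (ClassO.pomE (Orth.qfPlus m F))) SimO.mem_inndiag_plus SimO.mem_inn
      (SimO.PI_mod_inn_C2 ep ⟨_, hμ⟩ hpar (hneg h))
  · refine SimO.phi_transport (MulAut.congr (ClassO.pomE (Orth.qfPlus m F))) SimO.mem_inndiag_plus SimO.mem_inn
      (SimO.PI_mod_inn_C4 ep hodd hpar (hsp.2 fun h' => ?_) hμ (SimO.eps_dlt μ) (SimO.dlt_mul μ) ?_)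
    · have := h.2
      have := h'.2
      omega
    · rw [hspin]; exact h.1.neg_one_pow
  · refine SimO.phi_transport (MulAut.congr (ClassO.pomE (Orth.qfPlus m F))) SimO.mem_inndiag_plus SimO.mem_inn
      (SimO.PI_mod_inn_V4 ep hodd hpar (hsp.2 fun h' => Nat.not_even_iff_odd.2 h'.1 h) hμ (SimO.eps_dlt μ)
        (SimO.dlt_mul μ) ?_)
    rw [hspin]; exact h.neg_one_pow

end Cfsg.Agent.S2725
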