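import Cfsg.Statements.S2726
import Cfsg.Agent.SimO.Minus

set_option autoImplicit false
open Cfsg

namespace Cfsg.Agent.S2726

/-- Let T = PΩ⁻_{2m+2}(F) with m ≥ 3 and |F| = q odd (form with anisotropic binary part). Inside Aut(T), the image G̃ of the conformal orthogonal group of the form modulo the image of the special orthogonal group is elementary abelian of order 4. -/
theorem result {F : Type*} [Field F] [Fintype F] (hodd : Odd (Fintype.card F)) {m : ℕ} (hm : 3 ≤ m) (a b : F) (hab : (∀ z₁ z₂ : F, z₁ ^ 2 + a * z₁ * z₂ + b * z₂ ^ 2 = 0 → z₁ = 0 ∧ z₂ = 0)) :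
    (∃ φ : ↥(Cfsg.pgoAut F (Cfsg.quadFormMinus m F a b)) →* Multiplicative (ZMod 2 × ZMod 2), Function.Surjective φ ∧ φ.ker = (Cfsg.psoAut F (Cfsg.quadFormMinus m F a b)).subgroupOf (Cfsg.pgoAut F (Cfsg.quadFormMinus m F a b))) := by
  have hfa : Fact (∀ r : F, r ^ 2 ≠ -b + a * r) := AutO.fact_of_aniso hab
  have hG : AutO.Good (Orth.qfMinus m F a b) := AutO.good_minus hm hab
  have h2 : (2 : F) ≠ 0 := ClassO.two_ne_zero_of_odd hodd
  obtain ⟨δ, c, A, hδ1, hδ2, hA, hA2⟩ := SimO.exists_chiM (m := m) (a := a) (b := b) hodd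
  have hsp := SimO.spin_negM_iff (m := m) (a := a) (b := b) hodd
  have hpar := SimO.parity_negM (m := m) (F := F) (a := a) (b := b)
  have hneg : ¬ (Even m ∧ Fintype.card F % 4 = 3) →
      Orth.spinHom hG.nd hG.rg (SimO.negO (Orth.qfMinus m F a b)) = -1 :=
    fun h => Orth.units_int_ne_one fun h' => h (hsp.1 h')
  have ep := SimO.isEps_minus (m := m) (F := F) (a := a) (b := b)
  rw [← Orth.coe_qfMinus]
  exact SimO.phi_transport (MulAut.congr (ClassO.pomE (Orth.qfMinus m F a b))) SimO.mem_pgo (SimO.mem_pso h2)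
    (SimO.PG_mod_PS ep ⟨_, hδ1⟩)

end Cfsg.Agent.S2726
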