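import Cfsg.Statements.S2728
import Cfsg.Agent.SimO.Minus

set_option autoImplicit false
open Cfsg

namespace Cfsg.Agent.S2728

set_option maxHeartbeats 2000000

/-- Let T = PΩ⁻_{2m+2}(F) with m ≥ 3 and |F| = q odd (form with anisotropic binary part). The image G̃ of the conformal orthogonal group in Aut(T), taken modulo the inner automorphism group T, is dihedral of order 8 when m is even and q ≡ 3 (mod 4), and elementary abelian of order 4 otherwise. -/
theorem result {F : Type*} [Field F] [Fintype F] (hodd : Odd (Fintype.card F)) {m : ℕ} (hm : 3 ≤ m) (a b : F) (hab : (∀ z₁ z₂ : F, z₁ ^ 2 + a * z₁ * z₂ + b * z₂ ^ 2 = 0 → z₁ = 0 ∧ z₂ = 0)) :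
    ((Even m ∧ Fintype.card F % 4 = 3) → (∃ φ : ↥(Cfsg.pgoAut F (Cfsg.quadFormMinus m F a b)) →* DihedralGroup 4, Function.Surjective φ ∧ φ.ker = (Cfsg.Inn (Cfsg.POmega F (Cfsg.quadFormMinus m F a b))).subgroupOf (Cfsg.pgoAut F (Cfsg.quadFormMinus m F a b)))) ∧ (¬ (Even m ∧ Fintype.card F % 4 = 3) → (∃ φ : ↥(Cfsg.pgoAut F (Cfsg.quadFormMinus m F a b)) →* Multiplicative (ZMod 2 × ZMod 2), Function.Surjective φ ∧ φ.ker = (Cfsg.Inn (Cfsg.POmega F (Cfsg.quadFormMinus m F a b))).subgroupOf (Cfsg.pgoAut F (Cfsg.quadFormMinus m F a b)))) := by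
  have hfa : Fact (∀ r : F, r ^ 2 ≠ -b + a * r) := AutO.fact_of_aniso hab
  have hG : AutO.Good (Orth.qfMinus m F a b) := AutO.good_minus hm hab
  have h2 : (2 : F) ≠ 0 := ClassO.two_ne_zero_of_odd hodd
  obtain ⟨δ, c, A, hδ1, hδ2, hA, hA2⟩ := SimO.exists_chiM (m := m) (a := a) (b := b) hodd
  have hsp := SimO.spin_negM_iff (m := m) (a := a) (b := b) hodd
  have hpar := SimO.parity_negM (m := m) (F := F) (a := a) (b := b)
  have hneg : ¬ (Even m ∧ Fintype.card F % 4 = 3) →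
      Orth.spinHom hG.nd hG.rg (SimO.negO (Orth.qfMinus m F a b)) = -1 :=
    fun h => Orth.units_int_ne_one fun h' => h (hsp.1 h')
  have ep := SimO.isEps_minus (m := m) (F := F) (a := a) (b := b)
  rw [← Orth.coe_qfMinus]
  constructor
  · intro h
    exact SimO.phi_transport (MulAut.congr (ClassO.pomE (Orth.qfMinus m F a b))) SimO.mem_pgo SimO.mem_inn
      (SimO.PG_mod_inn ep hodd ⟨_, hδ1⟩ hpar (hsp.2 h))
  · intro h
    exact SimO.phi_transport (MulAut.congr (ClassO.pomE (Orth.qfMinus m F a b))) SimO.mem_pgo SimO.mem_inn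
      (SimO.PG_mod_inn' ep ⟨_, hδ1⟩ hpar (hneg h))

end Cfsg.Agent.S2728
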