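import Cfsg.Statements.S2736
import Cfsg.Agent.AutO.Transp

set_option autoImplicit false
open Cfsg

namespace Cfsg.Agent.S2736

/-- Let T = PΩ⁺_{2m}(F) with m ≥ 5 (dimension ≠ 8) and x a field automorphism or a graph-field automorphism of T of prime order r. Then an element y of the coset Inndiag(T)·x (y = δ x with δ induced by a class-preserving similarity) has order r if and only if y is conjugate to x by an element of Inndiag(T). -/
theorem result {F : Type*} [Field F] [Fintype F] {m : ℕ} (hm : 5 ≤ m) (x δ : MulAut (Cfsg.POmega F (Cfsg.quadFormPlus m F))) (hx : Cfsg.IsFieldAutClassPOmega (Cfsg.quadFormPlus m F) x ∨ Cfsg.IsGraphFieldAutClassPOmegaPlus m x) {r : ℕ} (hr : r.Prime) (hxr : orderOf x = r) (hδ : δ ∈ Cfsg.inndiagPOmegaPlus m F) :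
    orderOf (δ * x) = r ↔ Cfsg.IsConjUnder (Cfsg.inndiagPOmegaPlus m F) x (δ * x) := by
  have hEv := AutO.evG_plus (F := F) (m := m) (by omega)
  have hPl : AutO.PlusT (Orth.qfPlus m F) := AutO.plusT_plus m
  have key : ∀ R : (Fin m ⊕ Fin m → F) → F, R = ⇑(Orth.qfPlus m F) → ∀ x δ : MulAut (Cfsg.POmega F R),
      (Cfsg.IsFieldAutClassPOmega R x ∨ AutO.IsGFR R x) → orderOf x = r → δ ∈ AutO.inndP R → Cfsg.gammaPOmega F R = ⊤ →
      (orderOf (δ * x) = r ↔ Cfsg.IsConjUnder (AutO.inndP R) x (δ * x)) := by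
    rintro R rfl x δ hx hxr hδ hall
    have hall' := AutO.hall_of_gamma hall
    obtain ⟨f0, σ, c, hσ, h1, h2⟩ : ∃ (f0 : AutO.GamO (Orth.qfPlus m F)) (σ : RingAut F) (c : Fˣ), σ ≠ 1 ∧
        AutO.aE _ x = AutO.cO _ f0 ∧ AutO.IsSemi (Orth.qfPlus m F) (f0 : Equiv.Perm _) σ c := by
      rcases hx with hx | hx
      · obtain ⟨f0, σ, c, h1, h2, h3, _⟩ := AutO.field_f0 hall' hx
        exact ⟨f0, σ, c, h1, h2, h3⟩
      · obtain ⟨f0, σ, c, h1, h2, h3, _⟩ := AutO.gf_f0 hall' hx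
        exact ⟨f0, σ, c, h1, h2, h3⟩
    have h3 := AutO.lang_plus_row hm hall' (δ := AutO.aE _ δ) hσ h1 h2 hr (by rw [AutO.orderOf_aE, hxr])
      (by rw [← AutO.inndP_map]; exact ⟨δ, hδ, rfl⟩)
    rw [← AutO.inndP_map, ← map_mul, AutO.orderOf_aE] at h3
    rw [h3]
    exact (AutO.isConjUnder_map (AutO.aE _) _ _ _).symm
  exact key _ (Orth.coe_qfPlus m F).symm x δ hx hxr hδ (S2695.result hm)

end Cfsg.Agent.S2736
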