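import Cfsg.Statements.S2737
import Cfsg.Agent.AutO.Transp

set_option autoImplicit false
open Cfsg

namespace Cfsg.Agent.S2737

/-- Let T = PΩ⁻_{2m+2}(F) (m ≥ 3; form with anisotropic binary part) and x a field automorphism of T of prime order r. Then an element y of the coset Inndiag(T)·x has order r if and only if y is conjugate to x by an element of Inndiag(T). (T has no graph-field automorphisms.) -/
theorem result {F : Type*} [Field F] [Fintype F] {m : ℕ} (hm : 3 ≤ m) (a b : F) (hab : (∀ z₁ z₂ : F, z₁ ^ 2 + a * z₁ * z₂ + b * z₂ ^ 2 = 0 → z₁ = 0 ∧ z₂ = 0)) (x δ : MulAut (Cfsg.POmega F (Cfsg.quadFormMinus m F a b))) (hx : Cfsg.IsFieldAutClassPOmegaMinus m x) {r : ℕ} (hr : r.Prime) (hxr : orderOf x = r) (hδ : δ ∈ Cfsg.inndiagPOmegaMinus m F a b) :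
    orderOf (δ * x) = r ↔ Cfsg.IsConjUnder (Cfsg.inndiagPOmegaMinus m F a b) x (δ * x) := by
  have hd := Orth.disc_ne_zero_of_aniso hab
  have hEv := AutO.evG_minus (F := F) (m := m) (a := a) (b := b) hm hd
  have key : ∀ R : F → F → ((Fin m ⊕ Fin m) ⊕ Fin 2 → F) → F, R = (fun a b => ⇑(Orth.qfMinus m F a b)) →
      ∀ x δ : MulAut (Cfsg.POmega F (R a b)),
      AutO.IsFMR R a b x → orderOf x = r → δ ∈ AutO.inndM a b (R a b) → Cfsg.gammaPOmega F (R a b) = ⊤ →
      (orderOf (δ * x) = r ↔ Cfsg.IsConjUnder (AutO.inndM a b (R a b)) x (δ * x)) := by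
    rintro R rfl x δ hx hxr hδ hall
    have hall' := AutO.hall_of_gamma hall
    obtain ⟨f0, σ, c, hσ, h1, h2⟩ := AutO.minus_f0 hab hall' hx
    have h3 := AutO.lang_minus_row hab hall' (δ := AutO.aE _ δ) hσ h1 h2 hr (by rw [AutO.orderOf_aE, hxr])
      (by rw [← AutO.inndM_map hm hab]; exact ⟨δ, hδ, rfl⟩)
    rw [← AutO.inndM_map hm hab, ← map_mul, AutO.orderOf_aE] at h3
    rw [h3]
    exact (AutO.isConjUnder_map (AutO.aE _) _ _ _).symm
  exact key (fun a b => Cfsg.quadFormMinus m F a b) (by funext a b; exact (Orth.coe_qfMinus m F a b).symm) x δ hx hxr hδ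
    (S2696.result hm a b hab)

end Cfsg.Agent.S2737
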