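import Cfsg.Statements.S2738
import Cfsg.Agent.ClassBase.SL
import Cfsg.Agent.H4.CardSL

set_option autoImplicit false
open Cfsg

namespace Cfsg.Agent.S2738

theorem comm_aux {G : Type*} [Group G] (z k z' k' : G) (h1 : ∀ x, z * x = x * z) (h2 : ∀ x, z' * x = x * z') :
    z * k * (z' * k') * (z * k)⁻¹ * (z' * k')⁻¹ = k * k' * k⁻¹ * k'⁻¹ := by
  calc z * k * (z' * k') * (z * k)⁻¹ * (z' * k')⁻¹
      = z * (k * z' * (k' * k⁻¹)) * z⁻¹ * k'⁻¹ * z'⁻¹ := by group
    _ = (k * z' * (k' * k⁻¹)) * z * z⁻¹ * k'⁻¹ * z'⁻¹ := by rw [h1]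
    _ = k * (z' * (k' * k⁻¹ * k'⁻¹)) * z'⁻¹ := by group
    _ = k * ((k' * k⁻¹ * k'⁻¹) * z') * z'⁻¹ := by rw [h2]
    _ = k * k' * k⁻¹ * k'⁻¹ := by group

/-- The special linear group SL(3, 4) has centre of order 3 and does not split over it: no subgroup is a complement to the centre (so SL(3, 4) is a non-split central extension of PSL(3, 4) by a group of order 3). -/
theorem result (F : Type*) [Field F] [Fintype F] (hF : Fintype.card F = 4) : Nat.card ↥(Subgroup.center (Matrix.SpecialLinearGroup (Fin 3) F)) = 3 ∧ ¬ ∃ K : Subgroup (Matrix.SpecialLinearGroup (Fin 3) F), Subgroup.IsComplement' (Subgroup.center (Matrix.SpecialLinearGroup (Fin 3) F)) K := by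
  have hc : Nat.card ↥(Subgroup.center (Matrix.SpecialLinearGroup (Fin 3) F)) = 3 := by
    rw [Cfsg.Agent.H4.card_center_SL 3 (by norm_num), hF]
    decide
  refine ⟨hc, ?_⟩
  rintro ⟨K, hK⟩
  have hperf := Cfsg.Agent.ClassBase.sl_fin_commutator_eq_top (F := F) 3 le_rfl
  have hle : commutator (Matrix.SpecialLinearGroup (Fin 3) F) ≤ K := by
    rw [commutator_def, Subgroup.commutator_le]
    intro g _ h _
    obtain ⟨⟨z, k⟩, hzk⟩ := hK.2 g
    obtain ⟨⟨z', k'⟩, hzk'⟩ := hK.2 h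
    simp only at hzk hzk'
    have h1 : ∀ x : Matrix.SpecialLinearGroup (Fin 3) F, (z : Matrix.SpecialLinearGroup (Fin 3) F) * x = x * z :=
      fun x => (Subgroup.mem_center_iff.1 z.2 x).symm
    have h2 : ∀ x : Matrix.SpecialLinearGroup (Fin 3) F, (z' : Matrix.SpecialLinearGroup (Fin 3) F) * x = x * z' :=
      fun x => (Subgroup.mem_center_iff.1 z'.2 x).symm
    have h3 : g * h * g⁻¹ * h⁻¹ = (k * k' * k⁻¹ * k'⁻¹ : Matrix.SpecialLinearGroup (Fin 3) F) := by
      rw [← hzk, ← hzk']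
      exact comm_aux _ _ _ _ h1 h2
    rw [commutatorElement_def, h3]
    exact K.mul_mem (K.mul_mem (K.mul_mem k.2 k'.2) (K.inv_mem k.2)) (K.inv_mem k'.2)
  rw [hperf, top_le_iff] at hle
  have h4 := hK.disjoint
  rw [hle, disjoint_top] at h4
  rw [h4, Subgroup.card_bot] at hc
  norm_num at hc

end Cfsg.Agent.S2738
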