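import Cfsg.Statements.S2751
import Cfsg.Agent.H48.GeZ
import Cfsg.Agent.H70.GeRedC
import Cfsg.Agent.CIT.RedAct

set_option autoImplicit false
open Cfsg

namespace Cfsg.Agent.S2751

/-- Goldschmidt's bound for amalgams of index (3, 3): let M₁ and M₂ be finite subgroups of a group G such that M₁ ⊓ M₂ is a Sylow 2-subgroup of both M₁ and M₂, each quotient Mᵢ / O₂(Mᵢ) is isomorphic to the symmetric group of degree 3, and no nontrivial subgroup of M₁ ⊓ M₂ is normal in both M₁ and M₂. Then M₁ ⊓ M₂ has order at most 2^7. -/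
theorem result {G : Type*} [Group G] (M₁ M₂ : Subgroup G) [Finite M₁] [Finite M₂] (ha₁ : ∃ P : Sylow 2 M₁, (P : Subgroup M₁) = (M₁ ⊓ M₂).subgroupOf M₁) (ha₂ : ∃ P : Sylow 2 M₂, (P : Subgroup M₂) = (M₁ ⊓ M₂).subgroupOf M₂) (hb₁ : Nonempty (M₁ ⧸ Cfsg.pCore 2 M₁ ≃* Equiv.Perm (Fin 3))) (hb₂ : Nonempty (M₂ ⧸ Cfsg.pCore 2 M₂ ≃* Equiv.Perm (Fin 3))) (hc : ∀ N : Subgroup G, N ≤ M₁ ⊓ M₂ → (N.subgroupOf M₁).Normal → (N.subgroupOf M₂).Normal → N = ⊥) : Nat.card ↥(M₁ ⊓ M₂) ≤ 2 ^ 7 := by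
  by_cases h2 : ∀ x ∈ M₁ ⊓ M₂, x * x = 1 → (∀ t ∈ M₁ ⊓ M₂, t * x = x * t) →
      ∀ m ∈ M₂, m * x = x * m
  · exact Cfsg.Agent.H70.GeRed.red (fun G V _ _ Γ _ _ h => Γ.card_le h) M₁ M₂ ha₁ ha₂ hb₁ hb₂ hc h2
  by_cases h1 : ∀ x ∈ M₁ ⊓ M₂, x * x = 1 → (∀ t ∈ M₁ ⊓ M₂, t * x = x * t) →
      ∀ m ∈ M₁, m * x = x * m
  · have e : M₂ ⊓ M₁ = M₁ ⊓ M₂ := inf_comm _ _
    have := Cfsg.Agent.H70.GeRed.red (fun G V _ _ Γ _ _ h => Γ.card_le h) M₂ M₁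
      (by rw [e]; exact ha₂) (by rw [e]; exact ha₁) hb₂ hb₁
      (fun N hN hN2 hN1 => hc N (by rw [← e]; exact hN) hN1 hN2) (by rw [e]; exact h1)
    rwa [e] at this
  exact Cfsg.Agent.CIT.RedAct.red_active M₁ M₂ ha₁ ha₂ hb₁ hb₂ hc h1 h2

end Cfsg.Agent.S2751
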