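import Cfsg.Statements.S2762
import Cfsg.Agent.H46.Qd2

set_option autoImplicit false
open Cfsg

namespace Cfsg.Agent.S2762

/-- Structure of Qd over a finite field F of characteristic p (the affine subgroup of SL₃(F)): its largest normal p-subgroup is the group of translations (matrices with upper-left block the identity), the block-diagonal matrices form a complement isomorphic to SL₂(F), and the translation subgroup is a natural SL₂(F)-module for that complement. -/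
theorem result {F : Type*} [Field F] [Fintype F] {p : ℕ} [Fact p.Prime] [CharP F p] : (∀ M : ↥(Cfsg.qdOver F), M ∈ Cfsg.pCore p ↥(Cfsg.qdOver F) ↔ ((M : Matrix.SpecialLinearGroup (Fin 3) F) : Matrix (Fin 3) (Fin 3) F) 0 0 = 1 ∧ ((M : Matrix.SpecialLinearGroup (Fin 3) F) : Matrix (Fin 3) (Fin 3) F) 0 1 = 0 ∧ ((M : Matrix.SpecialLinearGroup (Fin 3) F) : Matrix (Fin 3) (Fin 3) F) 1 0 = 0 ∧ ((M : Matrix.SpecialLinearGroup (Fin 3) F) : Matrix (Fin 3) (Fin 3) F) 1 1 = 1) ∧ ∃ K : Subgroup ↥(Cfsg.qdOver F), (∀ M : ↥(Cfsg.qdOver F), M ∈ K ↔ ((M : Matrix.SpecialLinearGroup (Fin 3) F) : Matrix (Fin 3) (Fin 3) F) 0 2 = 0 ∧ ((M : Matrix.SpecialLinearGroup (Fin 3) F) : Matrix (Fin 3) (Fin 3) F) 1 2 = 0) ∧ K ⊓ Cfsg.pCore p ↥(Cfsg.qdOver F) = ⊥ ∧ K ⊔ Cfsg.pCore p ↥(Cfsg.qdOver F) = ⊤ ∧ Nonempty (↥K ≃* Matrix.SpecialLinearGroup (Fin 2) F) ∧ Cfsg.IsNaturalSL2Module F (Cfsg.pCore p ↥(Cfsg.qdOver F)) K := by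
  rw [Cfsg.Agent.H46.pCore_qd]
  refine ⟨?_, (Cfsg.Agent.H46.qdSL (F := F)).range, ?_, ?_, ?_, ?_, Cfsg.Agent.H46.qd_natural⟩
  · intro M
    obtain ⟨A, v, rfl⟩ := Cfsg.Agent.H46.exists_qdElt M
    rw [Cfsg.Agent.H46.mem_ker_qdProj, Cfsg.Agent.H46.qdElt_coe]
    constructor
    · rintro rfl
      simp
    · intro h
      ext i j
      fin_cases i <;> fin_cases j
      · simpa using h.1
      · simpa using h.2.1
      · simpa using h.2.2.1
      · simpa using h.2.2.2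
  · intro M
    obtain ⟨A, v, rfl⟩ := Cfsg.Agent.H46.exists_qdElt M
    rw [Cfsg.Agent.H46.qdElt_coe]
    constructor
    · rintro ⟨B, hB⟩
      rw [Cfsg.Agent.H46.qdSL_apply] at hB
      obtain ⟨_, rfl⟩ := Cfsg.Agent.H46.qdElt_injective hB
      simp
    · intro h
      refine ⟨A, ?_⟩
      have hv : v = 0 := by
        ext i
        fin_cases i
        · simpa using h.1
        · simpa using h.2
      rw [Cfsg.Agent.H46.qdSL_apply, hv]
  · rw [eq_bot_iff]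
    rintro _ ⟨⟨A, rfl⟩, h⟩
    have hA := Cfsg.Agent.H46.mem_ker_qdProj.1 (h : Cfsg.Agent.H46.qdElt A 0 ∈ _)
    rw [hA, map_one]
    exact Subgroup.one_mem _
  · rw [eq_top_iff]
    intro M _
    obtain ⟨A, v, rfl⟩ := Cfsg.Agent.H46.exists_qdElt M
    have e : Cfsg.Agent.H46.qdElt A v = Cfsg.Agent.H46.qdElt 1 v * Cfsg.Agent.H46.qdElt A 0 := by
      rw [Cfsg.Agent.H46.qdElt_mul]; simp
    rw [e]
    exact Subgroup.mul_mem _ (Subgroup.mem_sup_right (Cfsg.Agent.H46.mem_ker_qdProj.2 rfl))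
      (Subgroup.mem_sup_left ⟨A, rfl⟩)
  · exact ⟨(MonoidHom.ofInjective Cfsg.Agent.H46.qdSL_injective).symm⟩

end Cfsg.Agent.S2762
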