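import Cfsg.Statements.S2763
import Cfsg.Agent.H46.Qd3

set_option autoImplicit false
open Cfsg

namespace Cfsg.Agent.S2763

/-- In the group Qd(p) (p prime; the natural semidirect product of an elementary abelian group of order p² by SL₂(p)), the normalizer of every nontrivial characteristic subgroup of a Sylow p-subgroup S equals the normalizer of S, which is a proper subgroup; in particular no such characteristic subgroup is normal. -/
theorem result {p : ℕ} [Fact p.Prime] (S : Sylow p ↥(Cfsg.qd p)) (T : Subgroup ↥(S : Subgroup ↥(Cfsg.qd p))) (hT : T ≠ ⊥) (hTc : T.Characteristic) : Subgroup.normalizer ((T.map (S : Subgroup ↥(Cfsg.qd p)).subtype : Subgroup ↥(Cfsg.qd p)) : Set ↥(Cfsg.qd p)) = Subgroup.normalizer ((S : Subgroup ↥(Cfsg.qd p)) : Set ↥(Cfsg.qd p)) ∧ Subgroup.normalizer ((S : Subgroup ↥(Cfsg.qd p)) : Set ↥(Cfsg.qd p)) ≠ ⊤ := by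
  have key : ∀ (S : Sylow p ↥(Cfsg.qdOver (ZMod p))) (T : Subgroup ↥(S : Subgroup ↥(Cfsg.qdOver (ZMod p))))
      (hT : T ≠ ⊥) (hTc : T.Characteristic),
      Subgroup.normalizer ((T.map (S : Subgroup ↥(Cfsg.qdOver (ZMod p))).subtype : Subgroup ↥(Cfsg.qdOver (ZMod p))) : Set ↥(Cfsg.qdOver (ZMod p))) = Subgroup.normalizer ((S : Subgroup ↥(Cfsg.qdOver (ZMod p))) : Set ↥(Cfsg.qdOver (ZMod p))) ∧ Subgroup.normalizer ((S : Subgroup ↥(Cfsg.qdOver (ZMod p))) : Set ↥(Cfsg.qdOver (ZMod p))) ≠ ⊤ := by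
    intro S T hT hTc
    obtain ⟨g, hg⟩ := Cfsg.Agent.H46.sylow_qd_eq (F := ZMod p) (p := p) S
    constructor
    · exact Cfsg.Agent.H46.normalizer_transport (MulAut.conj g) (Cfsg.Agent.H46.uniS (ZMod p))
        (fun T₀ h1 h2 => Cfsg.Agent.H46.normalizer_char_uniS T₀ h1 h2) _ hg T hT hTc
    · intro h
      have hn : (S : Subgroup ↥(Cfsg.qdOver (ZMod p))).Normal := Subgroup.normalizer_eq_top_iff.1 h
      apply Cfsg.Agent.H46.normalizer_uniS_ne_top (F := ZMod p) (p := p)
      apply Subgroup.normalizer_eq_top_iff.2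
      have h1 : (Cfsg.Agent.H46.uniS (ZMod p)) =
          (S : Subgroup ↥(Cfsg.qdOver (ZMod p))).map (MulAut.conj g⁻¹).toMonoidHom := by
        rw [hg, Subgroup.map_map]
        have h4 : (MulAut.conj g⁻¹).toMonoidHom.comp (MulAut.conj g).toMonoidHom = MonoidHom.id _ := by
          ext x : 1
          simp [mul_assoc]
        rw [h4, Subgroup.map_id]
      rw [h1]
      exact Subgroup.Normal.map hn _ (MulAut.conj g⁻¹).surjective
  exact key S T hT hTc

end Cfsg.Agent.S2763
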