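import Cfsg.Statements.S2764
import Cfsg.Agent.H47.Ker2

set_option autoImplicit false
open Cfsg

namespace Cfsg.Agent.S2764

set_option linter.style.haveILetI false
open Subgroup Cfsg.Agent.H47
open scoped commutatorElement

theorem comm_core {X : Type*} [Group X] [Finite X] {p q : ℕ} [Fact p.Prime] {V Z : Subgroup X}
    (hn : NatS p q ⊤ V Z) (hv : Vtx p q (⊤ : Subgroup X)) : ⁅V, pCoreOf p (⊤ : Subgroup X)⁆ ≤ Z := by
  obtain ⟨S, hS⟩ := SylIn.exists p (⊤ : Subgroup X)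
  obtain ⟨R, hR⟩ := hv.exists_opp hS
  have h1 : V ≤ cmod (pCoreOf p (⊤ : Subgroup X)) Z := by
    rw [← hn.sup S R hR]
    apply sup_le
    · intro v hv
      exact ⟨hv.2.1, fun t ht => hv.2.2 t (pCoreOf_le_sylIn hS ht)⟩
    · intro v hv
      exact ⟨hv.2.1, fun t ht => hv.2.2 t (pCoreOf_le_sylIn hR.2.1 ht)⟩
  rw [commutator_le]
  intro v hv t ht
  exact (h1 hv).2 t ht

theorem fin_core {X : Type*} [Group X] [Finite X] {p : ℕ} [Fact p.Prime] {Z : Subgroup X}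
    (hZ : Z ≤ centralizer (pCoreOf p (⊤ : Subgroup X) : Set X))
    (hker : KerP p ⊤ Z) {F : Type*} [Field F]
    {σ : ↥(⊤ : Subgroup X) →* Matrix.SpecialLinearGroup (Fin 2) F} {f : ↥Z → (Fin 2 → F)}
    (h : NM F ⊤ Z (cz Z ⊥ ⊤) σ f) : Nonempty (X ⧸ Cfsg.pCore p X ≃* Matrix.SpecialLinearGroup (Fin 2) F) := by
  let σ' : X →* Matrix.SpecialLinearGroup (Fin 2) F := σ.comp (Subgroup.topEquiv (G := X)).symm.toMonoidHom
  have hσ' : ∀ x : X, σ' x = σ ⟨x, mem_top x⟩ := fun x => rfl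
  have hs : Function.Surjective σ' := by
    intro m
    obtain ⟨x, rfl⟩ := h.1 m
    exact ⟨x, rfl⟩
  have hk : σ'.ker = pCore p X := by
    ext x
    rw [MonoidHom.mem_ker, hσ', h.ker_iff]
    constructor
    · intro h1
      have := hker x (mem_top x) h1
      rwa [pCoreOf_top] at this
    · intro h1 v hv
      have h2 : ⁅v, x⁆ = 1 := by
        rw [commutatorElement_eq_one_iff_mul_comm]
        exact (mem_centralizer_iff.1 (hZ hv) x (by rw [pCoreOf_top]; exact h1)).symm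
      change ⁅v, x⁆ ∈ cz Z ⊥ ⊤
      rw [h2]; exact one_mem _
  exact ⟨(QuotientGroup.quotientMulEquivOfEq hk.symm).trans (QuotientGroup.quotientKerEquivOfSurjective σ' hs)⟩

theorem case1_fin {X : Type*} [Group X] [Finite X] {p q : ℕ} [Fact p.Prime] {Z : Subgroup X}
    (hv : Vtx p q (⊤ : Subgroup X)) (h : Case1 p q (⊤ : Subgroup X) Z) (hker : KerP p ⊤ Z)
    {F : Type*} [Field F] [Fintype F] (hF : Fintype.card F = q) :
    Nonempty (X ⧸ Cfsg.pCore p X ≃* Matrix.SpecialLinearGroup (Fin 2) F) ∧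
    ∀ (U W : Subgroup X) [W.Normal], U ≤ Cfsg.pCore p X → Cfsg.IsChiefFactor U W → ¬ ⁅U, (⊤ : Subgroup X)⁆ ≤ W →
      Cfsg.IsNaturalSL2Module F (U.map (QuotientGroup.mk' W)) (⊤ : Subgroup (X ⧸ W)) := by
  have hT : pCoreOf p (⊤ : Subgroup X) = pCore p X := pCoreOf_top p
  have hZn : Z.Normal := normal_of_top_le h.norm
  have hZZ : ⁅Z, Z⁆ ≤ cz Z ⊥ ⊤ := by
    have h1 : ⁅Z, Z⁆ = ⊥ := by
      rw [commutator_eq_bot_iff_le_centralizer]
      exact h.cent.trans (centralizer_le h.le)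
    rw [h1]; exact bot_le
  obtain ⟨σ, f, hN⟩ := h.nat.nm hv le_top bot_le h.norm (fun x _ => mem_normalizer_bot x) hZZ hF
  refine ⟨fin_core h.cent hker hN, fun U W hW hU hc hnc => ?_⟩
  have hchief := (h.nat.chief hv hZn inferInstance).1
  have hDn : (cz Z ⊥ (⊤ : Subgroup X)).Normal := hchief.2.2.1
  have h1 : U ⊓ cz Z ⊥ (⊤ : Subgroup X) ≤ W := by
    apply jh_central hc hW hU hDn (B := ⊥) _ (by rw [inf_bot_eq]; exact bot_le) hnc
    rw [commutator_le]
    intro a ha b _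
    exact ha.2.2 b (mem_top b)
  refine jh_nat hc hchief h1 (fun h2 => ?_) hN
  have h3 := jh_central hc hW hU (A := pCore p X) inferInstance (by rw [← hT]; exact h.res) h2 hnc
  rw [inf_eq_left.2 hU] at h3
  exact hc.1.not_ge h3

theorem case2_fin {X : Type*} [Group X] [Finite X] {p q : ℕ} [Fact p.Prime] {Z C V : Subgroup X}
    (hv : Vtx p q (⊤ : Subgroup X)) (h : Case2 p q (⊤ : Subgroup X) Z C V) (hker : KerP p ⊤ Z)
    {F : Type*} [Field F] [Fintype F] (hF : Fintype.card F = q) :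
    Nonempty (X ⧸ Cfsg.pCore p X ≃* Matrix.SpecialLinearGroup (Fin 2) F) ∧
    ∀ (U W : Subgroup X) [W.Normal], U ≤ Cfsg.pCore p X → Cfsg.IsChiefFactor U W → ¬ ⁅U, (⊤ : Subgroup X)⁆ ≤ W →
      Cfsg.IsNaturalSL2Module F (U.map (QuotientGroup.mk' W)) (⊤ : Subgroup (X ⧸ W)) := by
  have hT : pCoreOf p (⊤ : Subgroup X) = pCore p X := pCoreOf_top p
  have hZn : Z.Normal := normal_of_top_le h.nZ
  have hVn : V.Normal := normal_of_top_le h.nV
  have hZT := h.ZC.trans (h.CV.trans h.VT)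
  have hZZ : ⁅Z, Z⁆ ≤ cz Z ⊥ ⊤ := by
    have h1 : ⁅Z, Z⁆ = ⊥ := by
      rw [commutator_eq_bot_iff_le_centralizer]
      exact h.cent.trans (centralizer_le hZT)
    rw [h1]; exact bot_le
  have hVV : ⁅V, V⁆ ≤ cz V Z ⊤ := by
    refine ((commutator_mono le_rfl h.VT).trans (comm_core h.nat2 hv)).trans ?_
    rw [← h.eC]; exact h.ZC
  obtain ⟨σ, f, hN⟩ := h.nat1.nm hv le_top bot_le h.nZ (fun x _ => mem_normalizer_bot x) hZZ hF
  obtain ⟨σ₂, f₂, hN₂⟩ := h.nat2.nm hv le_top (h.ZC.trans h.CV) h.nV h.nZ hVV hF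
  refine ⟨fin_core h.cent hker hN, fun U W hW hU hc hnc => ?_⟩
  have hchief := (h.nat1.chief hv hZn inferInstance).1
  have hchief₂ := (h.nat2.chief hv hVn hZn).1
  have hDn : (cz Z ⊥ (⊤ : Subgroup X)).Normal := hchief.2.2.1
  have hCn : (cz V Z (⊤ : Subgroup X)).Normal := hchief₂.2.2.1
  have h1 : U ⊓ cz Z ⊥ (⊤ : Subgroup X) ≤ W := by
    apply jh_central hc hW hU hDn (B := ⊥) _ (by rw [inf_bot_eq]; exact bot_le) hnc
    rw [commutator_le]
    intro a ha b _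
    exact ha.2.2 b (mem_top b)
  by_cases h2 : U ⊓ Z ≤ W
  · have h3 : U ⊓ cz V Z (⊤ : Subgroup X) ≤ W := by
      apply jh_central hc hW hU hCn (B := Z) _ h2 hnc
      rw [commutator_le]
      intro a ha b _
      exact ha.2.2 b (mem_top b)
    refine jh_nat hc hchief₂ h3 (fun h4 => ?_) hN₂
    have h5 := jh_central hc hW hU (A := pCore p X) inferInstance (by rw [← hT]; exact h.res) h4 hnc
    rw [inf_eq_left.2 hU] at h5
    exact hc.1.not_ge h5
  · exact jh_nat hc hchief h1 h2 hN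

/-- Pushing up for a rank-one quotient: let G be a finite group and p a prime with C_G(O_p(G)) ≤ O_p(G), suppose G/K ≅ PSL₂(p^n) for some normal subgroup K and some n ≥ 1, that a Sylow p-subgroup S of G lies in exactly one maximal subgroup of G, and that no nontrivial characteristic subgroup of S is normal in G. Then G/O_p(G) ≅ SL₂(p^n), and every noncentral chief factor U/W of G inside O_p(G) is a natural SL₂-module over the field with p^n elements for the action of G/W. -/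
theorem result {G : Type*} [Group G] [Finite G] {p : ℕ} [Fact p.Prime] (S : Sylow p G) (hE₁ : Subgroup.centralizer (Cfsg.pCore p G : Set G) ≤ Cfsg.pCore p G) (hE₂ : ∃! M : Subgroup G, IsCoatom M ∧ (S : Subgroup G) ≤ M) (K : Subgroup G) [K.Normal] (F : Type) [Field F] [Fintype F] (n : ℕ) (hn : 1 ≤ n) (hF : Fintype.card F = p ^ n) (hE₃ : Nonempty (G ⧸ K ≃* Matrix.ProjectiveSpecialLinearGroup (Fin 2) F)) (hd : ∀ T : Subgroup ↥(S : Subgroup G), T ≠ ⊥ → T.Characteristic → ¬ (T.map (S : Subgroup G).subtype).Normal) : Nonempty (G ⧸ Cfsg.pCore p G ≃* Matrix.SpecialLinearGroup (Fin 2) F) ∧ ∀ (U W : Subgroup G) [W.Normal], U ≤ Cfsg.pCore p G → Cfsg.IsChiefFactor U W → ¬ ⁅U, (⊤ : Subgroup G)⁆ ≤ W → Cfsg.IsNaturalSL2Module F (U.map (QuotientGroup.mk' W)) (⊤ : Subgroup (G ⧸ W)) := by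
  have h : H47.PU p (p ^ n) K := ⟨H47.RankOne.of_psl hF hE₃, fun R hR => H47.pu_uniq (H47.sylIn_top S) hE₂ R hR⟩
  have hS := H47.sylIn_top S
  have hv := vtx_top h hE₁
  rcases exists_case' h hE₁ hS (fun C hC hC1 => hd C hC1 hC) with ⟨Z, hZ, hk⟩ | ⟨Z, C, V, hZ, hk⟩
  · exact case1_fin hv hZ hk hF
  · exact case2_fin hv hZ hk hF

end Cfsg.Agent.S2764
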