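import Cfsg.Statements.S2765
import Cfsg.Agent.H47.Trans2

set_option autoImplicit false
open Cfsg

namespace Cfsg.Agent.S2765

set_option linter.style.haveILetI false
open Subgroup Cfsg.Agent.H47
open scoped commutatorElement

theorem case1_fin {G : Type*} [Group G] [Finite G] {p q : ℕ} [Fact p.Prime] {S Z : Subgroup G}
    (hS : SylIn p S ⊤) (hv : Vtx p q (⊤ : Subgroup G)) (h : Case1 p q (⊤ : Subgroup G) Z) :
    S.lowerCentralSeries 2 = ⊥ ∧ S.lowerCentralSeries 1 ≠ ⊥ ∧ (p = 2 → Monoid.exponent ↥S = 4) ∧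
    (p ≠ 2 → Monoid.exponent ↥S = p) ∧ (∃ U W : Subgroup G, W ≤ U ∧ U ≤ (Cfsg.pCore p G) ∧
      Cfsg.IsChiefFactor U W ∧ ¬ ⁅U, (⊤ : Subgroup G)⁆ ≤ W ∧ (∃ k : ℕ, Cfsg.iterCommutator W ⊤ k = ⊥) ∧
      (∃ k : ℕ, Cfsg.iterCommutator (Cfsg.pCore p G) ⊤ k ≤ U)) := by
  have hp : p.Prime := Fact.out
  have hT : pCoreOf p (⊤ : Subgroup G) = pCore p G := pCoreOf_top p
  have hZ : Z.Normal := normal_of_top_le h.norm
  obtain ⟨x, hx, hxT⟩ := hv.exists_not_mem hS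
  have hZS : Z ≤ S := (h.le.trans hT.le).trans (pCore_le_sylIn hS)
  obtain ⟨u, hu, hun⟩ := SetLike.not_le_iff_exists.1 (h.nat.ne S hS)
  have hne : ⁅u, x⁆ ≠ 1 := fun h1 =>
    h.nat.comm S hS x hx hxT u hu hun (by rw [h1]; exact one_mem _)
  have h1 : S.lowerCentralSeries 1 ≠ ⊥ := by
    intro h1
    apply hne
    have : ⁅u, x⁆ ∈ S.lowerCentralSeries 1 := commutator_mem_commutator (hZS hu) hx
    rwa [h1, mem_bot] at this
  have h2 : S.lowerCentralSeries 2 = ⊥ := h.cls S hS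
  obtain ⟨hc1, hc2⟩ := h.nat.chief hv hZ inferInstance
  refine ⟨h2, h1, ?_, ?_, Z, cz Z ⊥ ⊤, cz_le, h.le.trans hT.le, hc1, hc2, ⟨1, ?_⟩, ⟨2, ?_⟩⟩
  · intro hp2
    apply Nat.dvd_antisymm
    · apply Monoid.exponent_dvd_of_forall_pow_eq_one
      intro y
      exact Subtype.ext (h.exp2 hp2 S hS y y.2)
    · have h4 : Monoid.exponent ↥S ∣ 2 ^ 2 := by
        apply Monoid.exponent_dvd_of_forall_pow_eq_one
        intro y
        exact Subtype.ext (h.exp2 hp2 S hS y y.2)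
      obtain ⟨k, hk, hk2⟩ := (Nat.dvd_prime_pow Nat.prime_two).1 h4
      have hk3 : k = 2 := by
        by_contra hk3
        have hk4 : k ≤ 1 := by omega
        apply h1
        have h5 : ∀ y ∈ S, y ^ 2 = 1 := by
          intro y hy
          have h6 := Monoid.pow_exponent_eq_one (⟨y, hy⟩ : S)
          rw [hk2] at h6
          have h7 := congrArg Subtype.val h6
          simp only [Subgroup.coe_pow, Subgroup.coe_one] at h7
          have h8 : 2 ^ 1 = 2 ^ k * 2 ^ (1 - k) := by rw [← pow_add]; congr 1; omega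
          rw [pow_one] at h8
          rw [h8, pow_mul, h7, one_pow]
        change ⁅S, S⁆ = ⊥
        rw [eq_bot_iff, commutator_le]
        intro a ha b hb
        have h9 : ∀ y ∈ S, y⁻¹ = y := fun y hy => by
          rw [inv_eq_iff_mul_eq_one, ← pow_two]; exact h5 y hy
        have h10 := h5 _ (mul_mem ha hb)
        rw [mem_bot, commutatorElement_def, h9 a ha, h9 b hb]
        rw [pow_two] at h10
        rw [← h10]; group
      rw [hk2, hk3]; norm_num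
  · intro hp2
    have h4 : Monoid.exponent ↥S ∣ p := by
      apply Monoid.exponent_dvd_of_forall_pow_eq_one
      intro y
      exact Subtype.ext (h.expp hp2 S hS y y.2)
    rcases (Nat.dvd_prime hp).1 h4 with h5 | h5
    · exfalso
      have h6 := Monoid.pow_exponent_eq_one (⟨x, hx⟩ : S)
      rw [h5, pow_one] at h6
      apply hxT
      rw [show x = 1 from congrArg Subtype.val h6]
      exact one_mem _
    · exact h5
  · change ⁅cz Z ⊥ ⊤, ⊤⁆ = ⊥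
    rw [eq_bot_iff, commutator_le]
    intro a ha b hb
    exact ha.2.2 b hb
  · have h4 := (iter_le hS (N := pCore p G) (U := Z) inferInstance hZ (pCore_le_sylIn hS) (by rw [← hT]; exact h.res) 2).2
    rw [h2, bot_sup_eq] at h4
    exact h4

theorem case2_fin {G : Type*} [Group G] [Finite G] {p q : ℕ} [Fact p.Prime] {S Z C V : Subgroup G}
    (hS : SylIn p S ⊤) (hv : Vtx p q (⊤ : Subgroup G)) (h : Case2 p q (⊤ : Subgroup G) Z C V) :
    p = 3 ∧ S.lowerCentralSeries 3 = ⊥ ∧ S.lowerCentralSeries 2 ≠ ⊥ ∧ Monoid.exponent ↥S = 9 ∧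
    (∃ U₁ W₁ U₂ W₂ : Subgroup G, W₁ ≤ U₁ ∧ U₁ ≤ W₂ ∧ W₂ ≤ U₂ ∧ U₂ ≤ (Cfsg.pCore p G) ∧
      Cfsg.IsChiefFactor U₁ W₁ ∧ Cfsg.IsChiefFactor U₂ W₂ ∧ ¬ ⁅U₁, (⊤ : Subgroup G)⁆ ≤ W₁ ∧
      ¬ ⁅U₂, (⊤ : Subgroup G)⁆ ≤ W₂ ∧ (∃ k : ℕ, Cfsg.iterCommutator W₁ ⊤ k = ⊥) ∧
      (∃ k : ℕ, Cfsg.iterCommutator W₂ ⊤ k ≤ U₁) ∧ (∃ k : ℕ, Cfsg.iterCommutator (Cfsg.pCore p G) ⊤ k ≤ U₂)) := by
  have hT : pCoreOf p (⊤ : Subgroup G) = pCore p G := pCoreOf_top p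
  have hZ : Z.Normal := normal_of_top_le h.nZ
  have hV : V.Normal := normal_of_top_le h.nV
  obtain ⟨hc1, hc2⟩ := h.nat1.chief hv hZ inferInstance
  obtain ⟨hd1, hd2⟩ := h.nat2.chief hv hV hZ
  rw [← h.eC] at hd1 hd2
  have h3 : S.lowerCentralSeries 3 = ⊥ := h.cls3 S hS
  refine ⟨h.p3, h3, h.cls2 S hS, ?_, Z, cz Z ⊥ ⊤, V, C, cz_le, h.ZC, h.CV, h.VT.trans hT.le,
    hc1, hd1, hc2, hd2, ⟨1, ?_⟩, ⟨1, ?_⟩, ⟨3, ?_⟩⟩
  · have h4 : Monoid.exponent ↥S ∣ 3 ^ 2 := by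
      apply Monoid.exponent_dvd_of_forall_pow_eq_one
      intro y
      exact Subtype.ext (h.exp9 S hS y y.2)
    obtain ⟨k, hk, hk2⟩ := (Nat.dvd_prime_pow Nat.prime_three).1 h4
    have hk3 : k = 2 := by
      by_contra hk3
      have hk4 : k ≤ 1 := by omega
      obtain ⟨y, hy, hy3⟩ := h.exp3 S hS
      apply hy3
      have h6 := Monoid.pow_exponent_eq_one (⟨y, hy⟩ : S)
      rw [hk2] at h6
      have h7 := congrArg Subtype.val h6
      simp only [Subgroup.coe_pow, Subgroup.coe_one] at h7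
      have h8 : 3 ^ 1 = 3 ^ k * 3 ^ (1 - k) := by rw [← pow_add]; congr 1; omega
      rw [pow_one] at h8
      rw [h8, pow_mul, h7, one_pow]
    rw [hk2, hk3]; norm_num
  · change ⁅cz Z ⊥ ⊤, ⊤⁆ = ⊥
    rw [eq_bot_iff, commutator_le]
    intro a ha b hb
    exact ha.2.2 b hb
  · change ⁅C, ⊤⁆ ≤ Z
    rw [h.eC, commutator_le]
    intro a ha b hb
    exact ha.2.2 b hb
  · have h4 := (iter_le hS (N := pCore p G) (U := V) inferInstance hV (pCore_le_sylIn hS) (by rw [← hT]; exact h.res) 3).2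
    rw [h3, bot_sup_eq] at h4
    exact h4

/-- In the same pushing-up situation (G finite, C_G(O_p(G)) ≤ O_p(G), G/K ≅ PSL₂(p^n) with n ≥ 1, a Sylow p-subgroup S in exactly one maximal subgroup, no nontrivial characteristic subgroup of S normal in G), one of the following holds: (I) S has nilpotency class 2, exponent 4 if p = 2 and exponent p otherwise, and G has exactly one noncentral chief factor inside O_p(G); or (II) p = 3, S has class 3 and exponent 9, and G has exactly two noncentral chief factors inside O_p(G). 'Exactly one' is phrased as: some noncentral chief factor U/W inside O_p(G) with G acting hypercentrally on W and on O_p(G)/U; 'exactly two' analogously with a chain. -/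
theorem result {G : Type*} [Group G] [Finite G] {p : ℕ} [Fact p.Prime] (S : Sylow p G) (hE₁ : Subgroup.centralizer (Cfsg.pCore p G : Set G) ≤ Cfsg.pCore p G) (hE₂ : ∃! M : Subgroup G, IsCoatom M ∧ (S : Subgroup G) ≤ M) (K : Subgroup G) [K.Normal] (F : Type) [Field F] [Fintype F] (n : ℕ) (hn : 1 ≤ n) (hF : Fintype.card F = p ^ n) (hE₃ : Nonempty (G ⧸ K ≃* Matrix.ProjectiveSpecialLinearGroup (Fin 2) F)) (hd : ∀ T : Subgroup ↥(S : Subgroup G), T ≠ ⊥ → T.Characteristic → ¬ (T.map (S : Subgroup G).subtype).Normal) : ((S : Subgroup G).lowerCentralSeries 2 = ⊥ ∧ (S : Subgroup G).lowerCentralSeries 1 ≠ ⊥ ∧ (p = 2 → Monoid.exponent ↥(S : Subgroup G) = 4) ∧ (p ≠ 2 → Monoid.exponent ↥(S : Subgroup G) = p) ∧ (∃ U W : Subgroup G, W ≤ U ∧ U ≤ (Cfsg.pCore p G) ∧ Cfsg.IsChiefFactor U W ∧ ¬ ⁅U, (⊤ : Subgroup G)⁆ ≤ W ∧ (∃ k : ℕ, Cfsg.iterCommutator W ⊤ k = ⊥) ∧ (∃ k : ℕ, Cfsg.iterCommutator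 (Cfsg.pCore p G) ⊤ k ≤ U))) ∨ (p = 3 ∧ (S : Subgroup G).lowerCentralSeries 3 = ⊥ ∧ (S : Subgroup G).lowerCentralSeries 2 ≠ ⊥ ∧ Monoid.exponent ↥(S : Subgroup G) = 9 ∧ (∃ U₁ W₁ U₂ W₂ : Subgroup G, W₁ ≤ U₁ ∧ U₁ ≤ W₂ ∧ W₂ ≤ U₂ ∧ U₂ ≤ (Cfsg.pCore p G) ∧ Cfsg.IsChiefFactor U₁ W₁ ∧ Cfsg.IsChiefFactor U₂ W₂ ∧ ¬ ⁅U₁, (⊤ : Subgroup G)⁆ ≤ W₁ ∧ ¬ ⁅U₂, (⊤ : Subgroup G)⁆ ≤ W₂ ∧ (∃ k : ℕ, Cfsg.iterCommutator W₁ ⊤ k = ⊥) ∧ (∃ k : ℕ, Cfsg.iterCommutator W₂ ⊤ k ≤ U₁) ∧ (∃ k : ℕ, Cfsg.iterCommutator (Cfsg.pCore p G) ⊤ k ≤ U₂))) := by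
  have h : H47.PU p (p ^ n) K := ⟨H47.RankOne.of_psl hF hE₃, fun R hR => H47.pu_uniq (H47.sylIn_top S) hE₂ R hR⟩
  have hS := H47.sylIn_top S
  have hv := vtx_top h hE₁
  rcases exists_case h hE₁ hS (fun C hC hC1 => hd C hC1 hC) with ⟨Z, hZ⟩ | ⟨Z, C, V, hZ⟩
  · left
    exact case1_fin hS hv hZ
  · right
    exact case2_fin hS hv hZ

end Cfsg.Agent.S2765
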