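import Cfsg.Statements.S2766
import Cfsg.Agent.H47.Qd5

set_option autoImplicit false
open Cfsg

namespace Cfsg.Agent.S2766

set_option linter.style.haveILetI false
open Subgroup Cfsg.Agent.H47
open scoped commutatorElement

section
variable {H : Type*} [Group H] [Finite H] {p q : ℕ} [Fact p.Prime] {G : Subgroup H}

theorem amal_of_max (hv : Vtx p q G)
    (hmax : ∀ R : Subgroup H, IsPGroup p ↥R → R ≠ ⊥ → G ≤ Subgroup.normalizer (R : Set H) → Subgroup.normalizer (R : Set H) = G)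
    {S : Subgroup H} (hS : SylIn p S G) (hN : ¬ Subgroup.normalizer (S : Set H) ≤ G) :
    Amal p q {Y | ∃ h : H, Y = G.map (MulAut.conj h).toMonoidHom} := by
  refine ⟨⟨_, 1, rfl⟩, ?_, ?_, ?_, ?_⟩
  · rintro _ ⟨h, rfl⟩
    exact hv.conj h
  · rintro _ ⟨h, rfl⟩ g
    exact ⟨g * h, by rw [map_conj_mul]⟩
  · have key : ∀ P, SylIn p P G → ∀ X ≤ P, X ≠ ⊥ → G ≤ normalizer (X : Set H) →
        ¬ normalizer (P : Set H) ≤ normalizer (X : Set H) := by
      intro P hP X hXP hX hGX hPX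
      rw [hmax X (hP.isPGroup.to_le hXP) hX hGX] at hPX
      obtain ⟨g, hg, hgS⟩ := hP.conj hS
      apply hN
      rw [← hgS, normalizer_map_conj]
      have h2 := map_conj_mono (g := g) hPX
      rwa [norm_map_conj (le_normalizer hg)] at h2
    rintro _ ⟨h, rfl⟩ P hP X hXP hX hGX hPX
    have hP1 := hP.map_conj h⁻¹
    rw [map_conj_symm'] at hP1
    apply key _ hP1 (X.map (MulAut.conj h⁻¹).toMonoidHom) (map_mono hXP)
    · intro h1
      exact hX ((map_eq_bot_iff_of_injective _ (MulAut.conj h⁻¹).injective).1 h1)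
    · rw [normalizer_map_conj]
      have h2 := map_conj_mono (g := h⁻¹) hGX
      rwa [map_conj_symm'] at h2
    · rw [normalizer_map_conj, normalizer_map_conj]
      exact map_conj_mono hPX
  · rintro _ ⟨h, rfl⟩ _ ⟨h', rfl⟩
    refine ⟨h' * h⁻¹, ?_⟩
    rw [← map_conj_mul, inv_mul_cancel_right]

theorem core_comm
    (hmax : ∀ R : Subgroup H, IsPGroup p ↥R → R ≠ ⊥ → G ≤ Subgroup.normalizer (R : Set H) → Subgroup.normalizer (R : Set H) = G)
    {P G' : Subgroup H} (h : CPt p q {Y | ∃ h : H, Y = G.map (MulAut.conj h).toMonoidHom} 0 G P P G') :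
    ⁅pCoreOf p G, pCoreOf p G⁆ = ⊥ := by
  have key : ∀ {G G' : Subgroup H} {𝒱 : Set (Subgroup H)}, CPt p q 𝒱 0 G P P G' →
      ⁅pCoreOf p G, pCoreOf p G⁆ = ⁅pCoreOf p G ⊓ pCoreOf p G', pCoreOf p G ⊓ pCoreOf p G'⁆ := by
    intro G G' 𝒱 h
    have hZR : ZV p G ≤ centralizer ((pCoreOf p G ⊓ pCoreOf p G' : Subgroup H) : Set H) :=
      commutator_eq_bot_iff_le_centralizer.1 h.cent_R
    have hZ := (h.crt.am.vtx G h.memG).ZV_comm
    apply le_antisymm
    · set R := pCoreOf p G ⊓ pCoreOf p G' with hR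
      rw [← h.T_eq]
      have nR : R ≤ normalizer ((⁅R, R⁆ : Subgroup H) : Set H) := le_normalizer_commutator le_normalizer le_normalizer
      have nZ : ZV p G ≤ normalizer ((⁅R, R⁆ : Subgroup H) : Set H) :=
        (hZR.trans (centralizer_le (commutator_le_self R))).trans (Subgroup.centralizer_le_normalizer _)
      have h1 : ⁅ZV p G, ZV p G⁆ = ⊥ := commutator_eq_bot_iff_le_centralizer.2 hZ
      have h2 : ⁅ZV p G, R⁆ = ⊥ := h.cent_R
      apply comm_sup_le nZ nR
      · rw [commutator_comm]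
        apply comm_sup_le nZ nR
        · rw [h1]; exact bot_le
        · rw [commutator_comm, h2]; exact bot_le
      · rw [commutator_comm]
        apply comm_sup_le nZ nR
        · rw [h2]; exact bot_le
        · exact le_rfl
    · exact commutator_mono inf_le_left inf_le_left
  by_contra hcon
  have e1 := key h
  have e2 := key h.symm
  rw [inf_comm, ← e1] at e2
  have h1 : G ≤ normalizer ((⁅pCoreOf p G, pCoreOf p G⁆ : Subgroup H) : Set H) :=
    le_normalizer_commutator pCoreOf_normal_mem pCoreOf_normal_mem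
  have h2 := hmax _ ((pCoreOf_isPGroup p G).to_le (commutator_le_self _)) hcon h1
  have h3 : G' ≤ G := by
    rw [← h2, ← e2]
    exact le_normalizer_commutator pCoreOf_normal_mem pCoreOf_normal_mem
  obtain ⟨g, hg⟩ := h.memG'
  have h4 : G' = G := by
    apply eq_of_le_of_card_ge h3
    rw [hg, card_map_conj]
  apply h.nle'
  rw [h4]
  exact (h.crt.am.vtx G h.memG).ZV_le

end

/-- Let p ≥ 5 be prime and G a maximal p-local subgroup of a finite group H (G is the normalizer of a nontrivial p-subgroup and lies in no other such normalizer). Suppose C_G(O_p(G)) ≤ O_p(G), G/K ≅ PSL₂(p^n) for some normal K and n ≥ 1, a Sylow p-subgroup S of G lies in exactly one maximal subgroup of G, and N_H(S) is not contained in G. Then G = G₀ × E for subgroups G₀ ≅ Qd(p^n) (the natural semidirect product of the plane over the field with p^n elements by SL₂) and E an elementary abelian p-group. -/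
theorem result {H : Type*} [Group H] [Finite H] {p : ℕ} [Fact p.Prime] (hp : 5 ≤ p) (G : Subgroup H) (hloc : ∃ R : Subgroup H, IsPGroup p ↥R ∧ R ≠ ⊥ ∧ G = Subgroup.normalizer (R : Set H)) (hmax : ∀ R : Subgroup H, IsPGroup p ↥R → R ≠ ⊥ → G ≤ Subgroup.normalizer (R : Set H) → Subgroup.normalizer (R : Set H) = G) (S : Sylow p ↥G) (hE₁ : Subgroup.centralizer (Cfsg.pCore p ↥G : Set ↥G) ≤ Cfsg.pCore p ↥G) (hE₂ : ∃! M : Subgroup ↥G, IsCoatom M ∧ (S : Subgroup ↥G) ≤ M) (K : Subgroup ↥G) [K.Normal] (F : Type) [Field F] [Fintype F] (n : ℕ) (hn : 1 ≤ n) (hF : Fintype.card F = p ^ n) (hE₃ : Nonempty (↥G ⧸ K ≃* Matrix.ProjectiveSpecialLinearGroup (Fin 2) F)) (hN : ¬ Subgroup.normalizer (((S : Subgroup ↥G).map G.subtype : Subgroup H) : Set H) ≤ G) : ∃ G₀ E : Subgroup H, Cfsg.IsInternalDirectProduct G₀ E G ∧ Cfsg.IsElementaryAbelian p E ∧ Nonempty (↥G₀ ≃* ↥(Cfsg.qdOver F)) := by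
  have hpu : H47.PU p (p ^ n) K := ⟨H47.RankOne.of_psl hF hE₃, fun R hR => H47.pu_uniq (H47.sylIn_top S) hE₂ R hR⟩
  have hv : Vtx p (p ^ n) G := ⟨⟨K, inferInstance, hpu⟩, charP_iff.1 hE₁⟩
  have hS : SylIn p ((S : Subgroup ↥G).map G.subtype) G := sylIn_map_subtype (H47.sylIn_top S)
  have ha := amal_of_max hv hmax hS hN
  obtain ⟨c, hc⟩ := ha.exists_crt
  have hc0 := hc.pos
  obtain ⟨d, rfl⟩ : ∃ d, c = d + 1 := ⟨c - 1, by omega⟩
  have hd2 := hc.lt_three
  have hd0 : d = 0 := by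
    rcases Nat.eq_zero_or_pos d with h0 | h0
    · exact h0
    · exfalso
      have : d = 1 := by omega
      subst this
      have h3 := Crt.three hc
      omega
  subst hd0
  have hG : G ∈ {Y : Subgroup H | ∃ h : H, Y = G.map (MulAut.conj h).toMonoidHom} := ⟨1, by rw [map_conj_one]⟩
  have h1 := Crt.case1 hc hG
  have h2 := h1.ker hv
  obtain ⟨G', hnb⟩ := hc.exists_nb hG hS
  have hT := core_comm hmax hnb
  have hv' := hc.am.vtx G' hnb.memG'
  have hTX : ∀ x : G, x ∈ pCore p G ↔ (x : H) ∈ pCoreOf p G := fun x => mem_pCoreOf_iff.symm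
  -- transport to `G`
  have hZG : ((ZV p G).subgroupOf G).map G.subtype = ZV p G := map_subgroupOf_of_le (h1.le.trans (pCoreOf_le p G))
  have htop : (⊤ : Subgroup G).map G.subtype = G := by rw [← MonoidHom.range_eq_map, range_subtype]
  have h1' : Case1 p (p ^ n) (⊤ : Subgroup G) ((ZV p G).subgroupOf G) := by
    apply Case1.of_map G.subtype_injective
    rw [hZG, htop]; exact h1
  have h2' : KerP p (⊤ : Subgroup G) ((ZV p G).subgroupOf G) := by
    apply KerP.of_map G.subtype_injective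
    rw [hZG, htop]; exact h2
  -- the complement
  obtain ⟨B, hBZ, hB1, hB2⟩ := exists_compl_elem (p := p) (A := ZV p G') (C := ZV p G' ⊓ pCoreOf p G)
    (fun a ha b hb => (mem_centralizer_iff.1 (hv'.ZV_comm ha) b hb).symm) (fun a ha => hv'.ZV_pow ha) inf_le_left
  have hBG : B ≤ G := (hBZ.trans hnb.le_P).trans hS.le
  have hTe : (pCore p G).map G.subtype = pCoreOf p G := rfl
  have hq5 : 5 ≤ p ^ n := hp.trans (Nat.le_self_pow (by omega) p)
  have hBT' : B.subgroupOf G ⊓ pCore p G = ⊥ := by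
    rw [eq_bot_iff]
    rintro x ⟨hx, hxT⟩
    have h3 : (x : H) ∈ B ⊓ (ZV p G' ⊓ pCoreOf p G) := ⟨hx, hBZ hx, (hTX x).1 hxT⟩
    rw [hB1] at h3
    exact mem_bot.2 (Subtype.ext (mem_bot.1 h3))
  have hBS' : B.subgroupOf G ⊔ pCore p G = (S : Subgroup G) := by
    apply map_injective G.subtype_injective
    rw [Subgroup.map_sup, map_subgroupOf_of_le hBG, hTe, ← hnb.sup_eq]
    apply le_antisymm
    · exact sup_le_sup_right hBZ _
    · refine sup_le ?_ le_sup_right
      have h3 : ZV p G' ≤ B ⊔ (ZV p G' ⊓ pCoreOf p G) := hB2.ge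
      exact h3.trans (sup_le_sup_left inf_le_right _)
  have hTc' : ⁅pCore p G, pCore p G⁆ = ⊥ := by
    apply map_injective G.subtype_injective
    rw [map_commutator, hTe, hT, Subgroup.map_bot]
  have hTp' : ∀ x ∈ pCore p G, x ^ p = 1 := by
    intro x hx
    apply Subtype.ext
    exact h1.expp (by omega) _ hS x (pCoreOf_le_sylIn hS ((hTX x).1 hx))
  obtain ⟨G₀, E, ⟨d1, d2, d3, d4, d5⟩, ⟨e1, e2⟩, ⟨e⟩⟩ := qd_split hp hq5 (vtx_top hpu hE₁) h1' h2' hTc' hTp'
    (H47.sylIn_top S) hBT' hBS' hF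
  refine ⟨G₀.map G.subtype, E.map G.subtype, ⟨map_subtype_le _, map_subtype_le _, ?_, ?_, ?_⟩, ⟨?_, ?_⟩, ?_⟩
  · rintro _ ⟨a, ha, rfl⟩ _ ⟨b, hb, rfl⟩
    exact congrArg Subtype.val (d3 a ha b hb)
  · rw [← map_inf _ _ _ G.subtype_injective, d4, Subgroup.map_bot]
  · rw [← Subgroup.map_sup, d5, htop]
  · refine ⟨⟨?_⟩⟩
    rintro ⟨_, a, ha, rfl⟩ ⟨_, b, hb, rfl⟩
    apply Subtype.ext
    have h3 : a * b = b * a := congrArg Subtype.val (e1.is_comm.comm ⟨a, ha⟩ ⟨b, hb⟩)
    change G.subtype a * G.subtype b = G.subtype b * G.subtype a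
    rw [← map_mul, h3, map_mul]
  · rintro _ ⟨a, ha, rfl⟩
    rw [← map_pow, e2 a ha, map_one]
  · exact ⟨(G₀.equivMapOfInjective G.subtype G.subtype_injective).symm.trans e⟩

end Cfsg.Agent.S2766
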