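import Cfsg.Statements.S2772
import Cfsg.Agent.H47.Sims
import Cfsg.Agent.S2766

set_option autoImplicit false
open Cfsg

namespace Cfsg.Agent.S2772

set_option linter.style.haveILetI false
open Subgroup Cfsg.Agent.H47
open scoped commutatorElement

theorem map_Z1 {G : Type*} [Group G] {K : Subgroup G} (S : Subgroup K) (p : ℕ) :
    (Z1 p S).map K.subtype = Z1 p (S.map K.subtype) := by
  ext x
  rw [mem_Z1_iff]
  constructor
  · rintro ⟨y, hy, rfl⟩
    have hy' : y ∈ Z1 p S := hy
    rw [mem_Z1_iff] at hy'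
    refine ⟨⟨y, hy'.1, rfl⟩, ?_, ?_⟩
    · rw [mem_centralizer_iff]
      rintro _ ⟨z, hz, rfl⟩
      exact congrArg Subtype.val (mem_centralizer_iff.1 hy'.2.1 z hz)
    · rw [← map_pow, hy'.2.2, map_one]
  · rintro ⟨⟨y, hy, rfl⟩, h1, h2⟩
    refine ⟨y, ?_, rfl⟩
    change y ∈ Z1 p S
    rw [mem_Z1_iff]
    refine ⟨hy, ?_, ?_⟩
    · rw [mem_centralizer_iff]
      intro z hz
      exact Subtype.ext (mem_centralizer_iff.1 h1 _ ⟨z, hz, rfl⟩)
    · exact Subtype.ext (by rw [← map_pow] at h2; exact h2)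

theorem isMA_map {G : Type*} [Group G] {K : Subgroup G} {S A : Subgroup K} :
    IsMA (S.map K.subtype) (A.map K.subtype) ↔ IsMA S A := by
  have hc : ∀ B : Subgroup K, B.map K.subtype ≤ centralizer ((B.map K.subtype : Subgroup G) : Set G) ↔
      B ≤ centralizer (B : Set K) := fun B => map_comm_iff
  constructor
  · rintro ⟨h1, h2, h3⟩
    refine ⟨(map_le_map_iff_of_injective K.subtype_injective).1 h1, (hc A).1 h2, fun B hB hB2 => ?_⟩
    have := h3 (B.map K.subtype) (map_mono hB) ((hc B).2 hB2)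
    rwa [card_map_subtype, card_map_subtype] at this
  · rintro ⟨h1, h2, h3⟩
    refine ⟨map_mono h1, (hc A).2 h2, fun B hB hB2 => ?_⟩
    have hBK : B ≤ K := hB.trans (map_subtype_le S)
    have h4 : (B.subgroupOf K).map K.subtype = B := map_subgroupOf_of_le hBK
    have h5 := h3 (B.subgroupOf K) ((map_le_map_iff_of_injective K.subtype_injective).1 (by rw [h4]; exact hB))
      ((hc _).1 (by rw [h4]; exact hB2))
    rw [card_map_subtype]
    rwa [← card_map_subtype, h4] at h5

theorem map_JJ {G : Type*} [Group G] {K : Subgroup G} (S : Subgroup K) :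
    (JJ S).map K.subtype = JJ (S.map K.subtype) := by
  apply le_antisymm
  · rw [map_le_iff_le_comap, JJ_le_iff]
    intro A hA
    rw [← map_le_iff_le_comap]
    exact (isMA_map.2 hA).le_JJ
  · rw [JJ_le_iff]
    intro B hB
    have h4 : (B.subgroupOf K).map K.subtype = B := map_subgroupOf_of_le (hB.1.trans (map_subtype_le S))
    rw [← h4] at hB ⊢
    exact map_mono (isMA_map.1 hB).le_JJ

section
variable {H : Type*} [Group H] [Finite H] {q : ℕ} {G : Subgroup H}

theorem core_sq
    (hmax : ∀ R : Subgroup H, IsPGroup 2 ↥R → R ≠ ⊥ → G ≤ Subgroup.normalizer (R : Set H) → Subgroup.normalizer (R : Set H) = G)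
    {P G' : Subgroup H} (h : CPt 2 q {Y | ∃ h : H, Y = G.map (MulAut.conj h).toMonoidHom} 0 G P P G')
    (hT : ⁅pCoreOf 2 G, pCoreOf 2 G⁆ = ⊥) : pwc 2 (pCoreOf 2 G) = ⊥ := by
  haveI : Fact (Nat.Prime 2) := ⟨Nat.prime_two⟩
  have key : ∀ {G G' : Subgroup H} {𝒱 : Set (Subgroup H)}, CPt 2 q 𝒱 0 G P P G' → ⁅pCoreOf 2 G, pCoreOf 2 G⁆ = ⊥ →
      pwc 2 (pCoreOf 2 G) = pwc 2 (pCoreOf 2 G ⊓ pCoreOf 2 G') := by
    intro G G' 𝒱 h hT
    apply le_antisymm
    · rw [pwc_le_iff]
      intro x hx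
      have hTc : pCoreOf 2 G ≤ centralizer (pCoreOf 2 G : Set H) := commutator_eq_bot_iff_le_centralizer.1 hT
      have hn : ZV 2 G ≤ normalizer ((pCoreOf 2 G ⊓ pCoreOf 2 G' : Subgroup H) : Set H) := by
        refine le_trans ?_ (Subgroup.centralizer_le_normalizer _)
        have h1 : ZV 2 G ≤ pCoreOf 2 G := by rw [← h.T_eq]; exact le_sup_left
        exact h1.trans (hTc.trans (centralizer_le inf_le_left))
      rw [← h.T_eq, mem_sup_of_le_normalizer hn] at hx
      obtain ⟨z, hz, r, hr, rfl⟩ := hx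
      have hzT : z ∈ pCoreOf 2 G := by rw [← h.T_eq]; exact mem_sup_left hz
      have hc : Commute z r := (mem_centralizer_iff.1 (hTc hzT) r hr.1).symm
      rw [hc.mul_pow, (h.crt.am.vtx G h.memG).ZV_pow hz, one_mul]
      exact pow_mem_pwc hr
    · rw [pwc_le_iff]
      intro x hx
      exact pow_mem_pwc hx.1
  obtain ⟨g, hg⟩ := h.memG'
  have hT' : ⁅pCoreOf 2 G', pCoreOf 2 G'⁆ = ⊥ := by
    rw [hg, pCoreOf_map_conj, ← map_commutator, hT, Subgroup.map_bot]
  by_contra hcon
  have e1 := key h hT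
  have e2 := key h.symm hT'
  rw [inf_comm, ← e1] at e2
  have hle : pwc 2 (pCoreOf 2 G) ≤ pCoreOf 2 G := by
    rw [pwc_le_iff]; intro x hx; exact pow_mem hx 2
  have h1 : G ≤ normalizer ((pwc 2 (pCoreOf 2 G) : Subgroup H) : Set H) :=
    pCoreOf_normal_mem.trans (le_normalizer_of_equivariant (pwc_conj 2) _)
  have h2 := hmax _ ((pCoreOf_isPGroup 2 G).to_le hle) hcon h1
  have h3 : G' ≤ G := by
    rw [← h2, ← e2]
    exact pCoreOf_normal_mem.trans (le_normalizer_of_equivariant (pwc_conj 2) _)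
  have h4 : G' = G := by
    apply eq_of_le_of_card_ge h3
    rw [hg, card_map_conj]
  apply h.nle'
  rw [h4]
  exact (h.crt.am.vtx G h.memG).ZV_le

end
theorem le_norm_map {H : Type*} [Group H] [Finite H] {G : Subgroup H} {R : Subgroup ↥G} (h : R.Normal) :
    G ≤ Subgroup.normalizer ((R.map G.subtype : Subgroup H) : Set H) := by
  intro g hg
  apply mem_normalizer_of_map_conj_le
  rintro _ ⟨_, ⟨r, hr, rfl⟩, rfl⟩
  exact ⟨_, h.conj_mem r hr ⟨g, hg⟩, rfl⟩

theorem uniq3 {X : Type*} [Group X] [Finite X] (π : X →* DihedralGroup 3) (hπ : Function.Surjective π)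
    (hk : π.ker = pCore 2 X) (S : Subgroup X) (hS : SylIn 2 S ⊤) :
    ∃ M : Subgroup X, M ≠ ⊤ ∧ ∀ Y : Subgroup X, S ≤ Y → Y ≠ ⊤ → Y ≤ M := by
  haveI : Fact (Nat.Prime 2) := ⟨Nat.prime_two⟩
  have hTS : pCore 2 X ≤ S := pCore_le_sylIn hS
  have hi6 : (pCore 2 X).index = 6 := by
    rw [← hk, Subgroup.index_ker, MonoidHom.range_eq_top.2 hπ,
      Nat.card_congr (Subgroup.topEquiv (G := DihedralGroup 3)).toEquiv, DihedralGroup.nat_card]
  have h1 : S.index ∣ 6 := by rw [← hi6]; exact Subgroup.index_dvd_of_le hTS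
  have h2 : ¬ 2 ∣ S.index := by
    obtain ⟨P, hP⟩ := hS.sylow_of_top
    rw [← hP]; exact P.not_dvd_index
  have h3 : 3 ∣ S.index := by
    have h4 : 3 ∣ Nat.card S * S.index := by
      rw [Subgroup.card_mul_index]
      have h5 : 6 ∣ Nat.card X := by rw [← hi6]; exact Subgroup.index_dvd_card _
      exact dvd_trans (by norm_num) h5
    obtain ⟨n, hn⟩ := IsPGroup.iff_card.1 hS.isPGroup
    rw [hn] at h4
    have h5 : Nat.Coprime 3 (2 ^ n) := Nat.Coprime.pow_right n (by norm_num)
    exact h5.dvd_of_dvd_mul_left h4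
  have h4 : S.index = 3 := by
    have h5 := Nat.le_of_dvd (by norm_num) h1
    interval_cases h6 : S.index <;> omega
  refine ⟨S, ?_, ?_⟩
  · rintro rfl
    rw [Subgroup.index_top] at h4
    omega
  · intro Y hSY hY
    have h5 : Y.index ∣ 3 := by rw [← h4]; exact Subgroup.index_dvd_of_le hSY
    rcases (Nat.dvd_prime Nat.prime_three).1 h5 with h6 | h6
    · exact absurd (Subgroup.index_eq_one.1 h6) hY
    · have h7 : Nat.card Y = Nat.card S := by
        have h8 := Subgroup.card_mul_index Y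
        have h9 := Subgroup.card_mul_index S
        rw [h6] at h8
        rw [h4] at h9
        omega
      exact (eq_of_le_of_card_ge hSY h7.le).ge


/-- Sims' Theorem in local form: let H be a finite non-abelian simple group and G a maximal subgroup of H with C_G(O₂(G)) ≤ O₂(G), such that N_H(S) is not contained in G for a Sylow 2-subgroup S of G and G/O₂(G) is dihedral of order 2q for a prime q. Then G is isomorphic to the symmetric group of degree 4 or to its direct product with a group of order 2. -/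
theorem result {H : Type*} [Group H] [Finite H] [IsSimpleGroup H] (hna : ¬ IsMulCommutative H) (G : Subgroup H) (hG : IsCoatom G) (hchar : Subgroup.centralizer (Cfsg.pCore 2 ↥G : Set ↥G) ≤ Cfsg.pCore 2 ↥G) (S : Sylow 2 ↥G) (hN : ¬ Subgroup.normalizer (((S : Subgroup ↥G).map G.subtype : Subgroup H) : Set H) ≤ G) (q : ℕ) (hq : q.Prime) (hD : Nonempty (↥G ⧸ Cfsg.pCore 2 ↥G ≃* DihedralGroup q)) : Nonempty (↥G ≃* Equiv.Perm (Fin 4)) ∨ Nonempty (↥G ≃* Equiv.Perm (Fin 4) × Multiplicative (ZMod 2)) := by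
  haveI : Fact (Nat.Prime 2) := ⟨Nat.prime_two⟩
  obtain ⟨e⟩ := hD
  let π : ↥G →* DihedralGroup q := e.toMonoidHom.comp (QuotientGroup.mk' (pCore 2 ↥G))
  have hπ : Function.Surjective π := e.surjective.comp (QuotientGroup.mk'_surjective _)
  have hk : π.ker = pCore 2 ↥G := by
    ext x
    rw [MonoidHom.mem_ker]
    change e (QuotientGroup.mk' (pCore 2 ↥G) x) = 1 ↔ _
    rw [EmbeddingLike.map_eq_one_iff]
    exact QuotientGroup.eq_one_iff x
  have hS : SylIn 2 ((S : Subgroup ↥G).map G.subtype) G := sylIn_map_subtype (H47.sylIn_top S)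
  have hpn : ¬ IsPGroup 2 H := by
    intro hp
    haveI : Nontrivial (center H) := hp.center_nontrivial
    rcases IsSimpleGroup.eq_bot_or_eq_top_of_normal (center H) inferInstance with h1 | h1
    · exact (Subgroup.nontrivial_iff_ne_bot _).1 this h1
    · apply hna
      refine ⟨⟨fun a b => ?_⟩⟩
      have h2 : b ∈ center H := by rw [h1]; trivial
      exact mem_center_iff.1 h2 a
  have hmax : ∀ R : Subgroup H, IsPGroup 2 ↥R → R ≠ ⊥ → G ≤ Subgroup.normalizer (R : Set H) →
      Subgroup.normalizer (R : Set H) = G := by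
    intro R hR hne hGR
    by_contra hcon
    have h1 := hG.2 _ (lt_of_le_of_ne hGR (Ne.symm hcon))
    have h2 : R.Normal := (normalizer_eq_top_iff).1 h1
    rcases IsSimpleGroup.eq_bot_or_eq_top_of_normal R h2 with h3 | h3
    · exact hne h3
    · apply hpn
      rw [h3] at hR
      exact hR.of_equiv Subgroup.topEquiv
  have hchar_n : ∀ R : Subgroup H, R ≤ (S : Subgroup ↥G).map G.subtype → R ≠ ⊥ → G ≤ Subgroup.normalizer (R : Set H) →
      Subgroup.normalizer (((S : Subgroup ↥G).map G.subtype : Subgroup H) : Set H) ≤ Subgroup.normalizer (R : Set H) → False := by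
    intro R hRS hne h1 h2
    rw [hmax R (hS.isPGroup.to_le hRS) hne h1] at h2
    exact hN h2
  have hq2 : q ≠ 2 := by
    rintro rfl
    have h1 : Nat.card (↥G ⧸ pCore 2 ↥G) = 2 ^ 2 := by
      rw [Nat.card_congr e.toEquiv, DihedralGroup.nat_card]; norm_num
    have h2 : IsPGroup 2 ↥G := by
      have h3 : IsPGroup 2 (↥G ⧸ pCore 2 ↥G) := IsPGroup.of_card h1
      intro x
      obtain ⟨k, hk⟩ := h3 (QuotientGroup.mk x)
      rw [← QuotientGroup.mk_pow, QuotientGroup.eq_one_iff] at hk
      obtain ⟨l, hl⟩ := pCore_isPGroup 2 ↥G ⟨_, hk⟩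
      refine ⟨k + l, ?_⟩
      rw [pow_add, pow_mul]
      exact congrArg Subtype.val hl
    have h3 : pCore 2 ↥G = ⊤ := by
      rw [eq_top_iff]
      exact H47.le_pCore inferInstance (h2.of_equiv Subgroup.topEquiv.symm)
    rw [h3] at h1
    have h4 : Nat.card (↥G ⧸ (⊤ : Subgroup ↥G)) = 1 := by
      exact Subgroup.index_top
    omega
  have hSne : (S : Subgroup ↥G) ≠ ⊥ := by
    intro h1
    obtain ⟨s, hs1, hs2⟩ := dih_ex π hq hq2 hπ hk (H47.sylIn_top S) (pCore_le_sylIn (H47.sylIn_top S))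
    rw [h1, mem_bot] at hs1
    rw [hs1] at hs2
    exact hs2 (one_mem _)
  have hSne' : (S : Subgroup ↥G).map G.subtype ≠ ⊥ := by
    intro h1
    exact hSne ((map_eq_bot_iff_of_injective _ G.subtype_injective).1 h1)
  by_cases hq5 : 5 ≤ q
  · exfalso
    rcases dih_factor π hq hq5 hchar hπ hk (H47.sylIn_top S) with h1 | h1
    · apply hchar_n (Z1 2 ((S : Subgroup ↥G).map G.subtype)) (Z1_le _)
      · exact Z1_ne_bot hS.isPGroup hSne'
      · rw [← map_Z1]
        exact le_norm_map h1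
      · exact le_normalizer_Z1 le_rfl
    · apply hchar_n (JJ ((S : Subgroup ↥G).map G.subtype)) (JJ_le _)
      · intro h2
        apply center_ne_bot hS.isPGroup hSne'
        rw [eq_bot_iff, ← h2]
        exact (center_le_ZZ _).trans inf_le_left
      · rw [← map_JJ]
        exact le_norm_map h1
      · exact normalizer_le_normalizer_JJ _
  have hq3 : q = 3 := by
    have := hq.two_le
    interval_cases q
    · omega
    · rfl
    · exact absurd hq (by norm_num)
  subst hq3
  have hpu : H47.PU 2 2 (pCore 2 ↥G) := ⟨rankOne_dih ⟨e⟩, uniq3 π hπ hk⟩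
  have hv : Vtx 2 2 G := ⟨⟨pCore 2 ↥G, inferInstance, hpu⟩, charP_iff.1 hchar⟩
  have ha := S2766.amal_of_max hv hmax hS hN
  obtain ⟨c, hc⟩ := ha.exists_crt
  have hc0 := hc.pos
  obtain ⟨d, rfl⟩ : ∃ d, c = d + 1 := ⟨c - 1, by omega⟩
  have hd2 := hc.lt_three
  have hd0 : d = 0 := by
    rcases Nat.eq_zero_or_pos d with h0 | h0
    · exact h0
    · exfalso
      have : d = 1 := by omega
      subst this
      exact Crt.two hc
  subst hd0
  have hG' : G ∈ {Y : Subgroup H | ∃ h : H, Y = G.map (MulAut.conj h).toMonoidHom} := ⟨1, by rw [map_conj_one]⟩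
  have h1 := Crt.case1 hc hG'
  have h2 := h1.ker hv
  obtain ⟨G', hnb⟩ := hc.exists_nb hG' hS
  have hT := S2766.core_comm hmax hnb
  have hv' := hc.am.vtx G' hnb.memG'
  have hTX : ∀ x : G, x ∈ pCore 2 G ↔ (x : H) ∈ pCoreOf 2 G := fun x => mem_pCoreOf_iff.symm
  have hsq := core_sq hmax hnb hT
  -- transport to `G`
  have hZG : ((ZV 2 G).subgroupOf G).map G.subtype = ZV 2 G := map_subgroupOf_of_le (h1.le.trans (pCoreOf_le 2 G))
  have htop : (⊤ : Subgroup G).map G.subtype = G := by rw [← MonoidHom.range_eq_map, range_subtype]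
  have h1' : Case1 2 2 (⊤ : Subgroup G) ((ZV 2 G).subgroupOf G) := by
    apply Case1.of_map G.subtype_injective
    rw [hZG, htop]; exact h1
  have h2' : KerP 2 (⊤ : Subgroup G) ((ZV 2 G).subgroupOf G) := by
    apply KerP.of_map G.subtype_injective
    rw [hZG, htop]; exact h2
  obtain ⟨B, hBZ, hB1, hB2⟩ := exists_compl_elem (p := 2) (A := ZV 2 G') (C := ZV 2 G' ⊓ pCoreOf 2 G)
    (fun a ha b hb => (mem_centralizer_iff.1 (hv'.ZV_comm ha) b hb).symm) (fun a ha => hv'.ZV_pow ha) inf_le_left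
  have hBG : B ≤ G := (hBZ.trans hnb.le_P).trans hS.le
  have hTe : (pCore 2 G).map G.subtype = pCoreOf 2 G := rfl
  have hBT' : B.subgroupOf G ⊓ pCore 2 G = ⊥ := by
    rw [eq_bot_iff]
    rintro x ⟨hx, hxT⟩
    have h3 : (x : H) ∈ B ⊓ (ZV 2 G' ⊓ pCoreOf 2 G) := ⟨hx, hBZ hx, (hTX x).1 hxT⟩
    rw [hB1] at h3
    exact mem_bot.2 (Subtype.ext (mem_bot.1 h3))
  have hBS' : B.subgroupOf G ⊔ pCore 2 G = (S : Subgroup G) := by
    apply map_injective G.subtype_injective
    rw [Subgroup.map_sup, map_subgroupOf_of_le hBG, hTe, ← hnb.sup_eq]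
    apply le_antisymm
    · exact sup_le_sup_right hBZ _
    · refine sup_le ?_ le_sup_right
      have h3 : ZV 2 G' ≤ B ⊔ (ZV 2 G' ⊓ pCoreOf 2 G) := hB2.ge
      exact h3.trans (sup_le_sup_left inf_le_right _)
  have hTc : pCoreOf 2 G ≤ centralizer (pCoreOf 2 G : Set H) := commutator_eq_bot_iff_le_centralizer.1 hT
  obtain ⟨g', hg'⟩ := hnb.memG'
  have hTc' : pCoreOf 2 G' ≤ centralizer (pCoreOf 2 G' : Set H) := by
    rw [← commutator_eq_bot_iff_le_centralizer, hg', pCoreOf_map_conj, ← map_commutator, hT, Subgroup.map_bot]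
  have hTcm : ∀ x ∈ pCore 2 G, ∀ y ∈ pCore 2 G, x * y = y * x := by
    intro x hx y hy
    exact Subtype.ext (mem_centralizer_iff.1 (hTc ((hTX y).1 hy)) x ((hTX x).1 hx))
  have hTp' : ∀ x ∈ pCore 2 G, x ^ 2 = 1 := by
    intro x hx
    apply Subtype.ext
    have h3 := pow_mem_pwc (n := 2) ((hTX x).1 hx)
    rw [hsq, mem_bot] at h3
    exact h3
  have hRS : ∀ x ∈ pCoreOf 2 G, x ∈ pCoreOf 2 G' → x ∈ centralizer (((S : Subgroup ↥G).map G.subtype : Subgroup H) : Set H) := by
    intro x hx hx'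
    have h3 : (S : Subgroup ↥G).map G.subtype ≤ centralizer ({x} : Set H) := by
      rw [← hnb.sup_eq]
      apply sup_le
      · intro z hz
        have hz' : z ∈ pCoreOf 2 G' := by rw [← hnb.symm.T_eq]; exact mem_sup_left hz
        rw [mem_centralizer_singleton_iff]
        exact mem_centralizer_iff.1 (hTc' hx') z hz'
      · intro z hz
        rw [mem_centralizer_singleton_iff]
        exact mem_centralizer_iff.1 (hTc hx) z hz
    rw [mem_centralizer_iff]
    intro s hs'
    exact mem_centralizer_singleton_iff.1 (h3 hs')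
  have hind : ((pCoreOf 2 G').subgroupOf ((S : Subgroup ↥G).map G.subtype)).index = 2 := by
    have h3 := hv'.card hnb.hP'
    have h4 := Subgroup.card_mul_index ((pCoreOf 2 G').subgroupOf ((S : Subgroup ↥G).map G.subtype))
    rw [Nat.card_congr (subgroupOfEquivOfLe (pCoreOf_le_sylIn hnb.hP')).toEquiv, h3] at h4
    have h5 : 0 < Nat.card (pCoreOf 2 G') := Nat.card_pos
    rw [mul_comm] at h4
    exact Nat.eq_of_mul_eq_mul_right h5 h4
  have hC : ∀ x ∈ pCore 2 G, ∀ y ∈ pCore 2 G, x ∉ centralizer ((S : Subgroup ↥G) : Set ↥G) →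
      y ∉ centralizer ((S : Subgroup ↥G) : Set ↥G) → x * y ∈ centralizer ((S : Subgroup ↥G) : Set ↥G) := by
    have hcc : ∀ x : ↥G, (x : H) ∈ centralizer (((S : Subgroup ↥G).map G.subtype : Subgroup H) : Set H) →
        x ∈ centralizer ((S : Subgroup ↥G) : Set ↥G) := by
      intro x hx
      rw [mem_centralizer_iff]
      intro s hs'
      exact Subtype.ext (mem_centralizer_iff.1 hx _ ⟨s, hs', rfl⟩)
    have hT'S : ∀ x ∈ pCore 2 G, x ∉ centralizer ((S : Subgroup ↥G) : Set ↥G) → (x : H) ∉ pCoreOf 2 G' := by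
      intro x hx hxS hx'
      exact hxS (hcc x (hRS x ((hTX x).1 hx) hx'))
    intro x hx y hy hxS hyS
    have hxP : (x : H) ∈ (S : Subgroup ↥G).map G.subtype := pCoreOf_le_sylIn hS ((hTX x).1 hx)
    have hyP : (y : H) ∈ (S : Subgroup ↥G).map G.subtype := pCoreOf_le_sylIn hS ((hTX y).1 hy)
    apply hcc
    apply hRS
    · exact mul_mem ((hTX x).1 hx) ((hTX y).1 hy)
    · have h3 := (Subgroup.mul_mem_iff_of_index_two hind (a := ⟨x, hxP⟩) (b := ⟨y, hyP⟩)).2
        (by
          rw [mem_subgroupOf, mem_subgroupOf]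
          exact iff_of_false (hT'S x hx hxS) (hT'S y hy hyS))
      exact h3
  obtain ⟨G₀, E, k1, k2, k3, k4, k5, k6, ⟨k7⟩⟩ := qd_split2 (vtx_top hpu hchar) h1' h2' hTcm hTp'
    (H47.sylIn_top S) hBT' hBS' π hπ hk hC
  have hcenH : center H = ⊥ := by
    rcases IsSimpleGroup.eq_bot_or_eq_top_of_normal (center H) inferInstance with h3 | h3
    · exact h3
    · exfalso
      apply hna
      refine ⟨⟨fun a b => ?_⟩⟩
      have h4 : b ∈ center H := by rw [h3]; trivial
      exact mem_center_iff.1 h4 a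
  have hEn : E.Normal := ⟨fun e he x => by rw [← k3 e he x, mul_inv_cancel_right]; exact he⟩
  have hEp : IsPGroup 2 E := fun x => ⟨1, Subtype.ext (by rw [pow_one]; exact k4 x x.2)⟩
  have hET : E ≤ pCore 2 G := H47.le_pCore hEn hEp
  obtain ⟨t, htN, htG⟩ := SetLike.not_le_iff_exists.1 hN
  set P := (S : Subgroup ↥G).map G.subtype with hP
  have hEZ : E.map G.subtype ≤ P ⊓ centralizer (P : Set H) := by
    rintro _ ⟨e, he, rfl⟩
    refine ⟨pCoreOf_le_sylIn hS ((hTX e).1 (hET he)), ?_⟩
    change (e : H) ∈ centralizer (P : Set H)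
    rw [mem_centralizer_iff]
    rintro _ ⟨s, hs', rfl⟩
    exact (congrArg Subtype.val (k3 e he s)).symm
  have hEZt : (E.map G.subtype).map (MulAut.conj t).toMonoidHom ≤ P ⊓ centralizer (P : Set H) := by
    have h3 := map_conj_mono (g := t) hEZ
    rwa [Subgroup.map_inf _ _ _ (MulAut.conj t).injective, ← centralizer_map_conj, norm_map_conj htN] at h3
  have hZcard : 2 * Nat.card (P ⊓ centralizer (P : Set H) : Subgroup H) ≤ 4 * Nat.card E := by
    have hZT : P ⊓ centralizer (P : Set H) ≤ pCoreOf 2 G :=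
      (le_inf (inf_le_left.trans hS.le) (inf_le_right.trans (centralizer_le (pCoreOf_le_sylIn hS)))).trans hv.char
    have hne : P ⊓ centralizer (P : Set H) ≠ pCoreOf 2 G := by
      intro h3
      apply k6
      intro x hx
      rw [mem_centralizer_iff]
      intro s hs'
      have h4 : (x : H) ∈ P ⊓ centralizer (P : Set H) := by rw [h3]; exact (hTX x).1 hx
      have h5 : (x : H) ∈ centralizer (P : Set H) := h4.2
      exact Subtype.ext (mem_centralizer_iff.1 h5 _ ⟨s, hs', rfl⟩)
    have h3 : Nat.card (P ⊓ centralizer (P : Set H) : Subgroup H) * (P ⊓ centralizer (P : Set H)).relIndex (pCoreOf 2 G) =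
        Nat.card (pCoreOf 2 G) := by
      have := relIndex_mul_relIndex ⊥ (P ⊓ centralizer (P : Set H)) (pCoreOf 2 G) bot_le hZT
      simpa using this
    have h4 : Nat.card (pCoreOf 2 G) = 4 * Nat.card E := by rw [← k5]; exact card_map_subtype _
    rw [← h4, ← h3, mul_comm]
    apply Nat.mul_le_mul_left
    by_contra h5
    have h6 : (P ⊓ centralizer (P : Set H)).relIndex (pCoreOf 2 G) ≠ 0 := by
      rw [relIndex]; exact Subgroup.index_ne_zero_of_finite
    have h7 : (P ⊓ centralizer (P : Set H)).relIndex (pCoreOf 2 G) = 1 := by omega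
    exact hne (le_antisymm hZT (relIndex_eq_one.1 h7))
  have hinf : E.map G.subtype ⊓ (E.map G.subtype).map (MulAut.conj t).toMonoidHom = ⊥ := by
    rw [eq_bot_iff]
    rintro x ⟨⟨e, he, rfl⟩, ⟨_, ⟨e', he', rfl⟩, hx⟩⟩
    have h3 : G ≤ centralizer ({(e : H)} : Set H) := by
      intro y hy
      rw [mem_centralizer_singleton_iff]
      exact (congrArg Subtype.val (k3 e he ⟨y, hy⟩)).symm
    have hxe : t * (e' : H) * t⁻¹ = (e : H) := hx
    have h4 : G.map (MulAut.conj t).toMonoidHom ≤ centralizer ({(e : H)} : Set H) := by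
      rintro _ ⟨y, hy, rfl⟩
      rw [mem_centralizer_singleton_iff]
      change t * y * t⁻¹ * (e : H) = (e : H) * (t * y * t⁻¹)
      have h5 : (e' : H) * y = y * e' := congrArg Subtype.val (k3 e' he' ⟨y, hy⟩)
      rw [← hxe]
      calc t * y * t⁻¹ * (t * e' * t⁻¹) = t * (y * e') * t⁻¹ := by group
        _ = t * (e' * y) * t⁻¹ := by rw [h5]
        _ = _ := by group
    have h5 : centralizer ({(e : H)} : Set H) = ⊤ := by
      apply hG.2
      refine lt_of_le_of_ne h3 ?_
      intro h6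
      rw [← h6] at h4
      have h7 : G.map (MulAut.conj t).toMonoidHom = G := eq_of_le_of_card_ge h4 (by rw [card_map_conj])
      have h8 : t ∈ normalizer (G : Set H) := mem_normalizer_of_map_conj h7
      have h9 : normalizer (G : Set H) = ⊤ := by
        apply hG.2
        refine lt_of_le_of_ne le_normalizer ?_
        intro h10
        rw [← h10] at h8
        exact htG h8
      have h10 : G.Normal := (normalizer_eq_top_iff).1 h9
      rcases IsSimpleGroup.eq_bot_or_eq_top_of_normal G h10 with h11 | h11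
      · apply hSne'
        rw [eq_bot_iff, ← h11]
        exact hS.le
      · exact hG.1 h11
    rw [← hcenH]
    rw [mem_center_iff]
    intro y
    have h6 : y ∈ centralizer ({(e : H)} : Set H) := by rw [h5]; trivial
    exact mem_centralizer_singleton_iff.1 h6
  have hE2 : Nat.card E ≤ 2 := by
    have hab : E.map G.subtype ≤ normalizer (((E.map G.subtype).map (MulAut.conj t).toMonoidHom : Subgroup H) : Set H) := by
      refine le_trans ?_ (Subgroup.centralizer_le_normalizer _)
      intro x hx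
      rw [mem_centralizer_iff]
      intro y hy
      have h3 : x ∈ centralizer (P : Set H) := (hEZ hx).2
      exact mem_centralizer_iff.1 h3 y (hEZt hy).1
    have h3 := card_sup_mul_card_inf hab
    rw [hinf, card_map_conj, card_map_subtype] at h3
    have h4 : Nat.card (E.map G.subtype ⊔ (E.map G.subtype).map (MulAut.conj t).toMonoidHom : Subgroup H) ≤
        Nat.card (P ⊓ centralizer (P : Set H) : Subgroup H) := Subgroup.card_le_of_le (sup_le hEZ hEZt)
    have h5 : Nat.card (⊥ : Subgroup H) = 1 := Subgroup.card_bot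
    rw [h5, mul_one] at h3
    have h6 : 0 < Nat.card E := Nat.card_pos
    rw [h3] at h4
    by_contra h7
    have h8 : 3 ≤ Nat.card E := by omega
    have h9 := Nat.mul_le_mul_right (Nat.card E) h8
    omega
  obtain ⟨e4⟩ := H46.qd_two_iso
  have e5 : ↥G₀ ≃* Equiv.Perm (Fin 4) := k7.trans e4
  have hcomm : ∀ (a : G₀) (b : E), (a : G) * (b : G) = b * a := fun a b => (k3 b b.2 a).symm
  by_cases hE1 : E = ⊥
  · left
    rw [hE1, sup_bot_eq] at k1
    exact ⟨(Subgroup.topEquiv.symm.trans (MulEquiv.subgroupCongr k1.symm)).trans e5⟩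
  · right
    have h3 : Nat.card E = 2 := by
      have h4 : Nat.card E ≠ 1 := fun h5 => hE1 (Subgroup.card_eq_one.1 h5)
      have h6 : 0 < Nat.card E := Nat.card_pos
      omega
    have e6 : E ≃* Multiplicative (ZMod 2) :=
      mulEquivOfPrimeCardEq (p := 2) h3 (by rw [Nat.card_eq_fintype_card, Fintype.card_multiplicative, ZMod.card])
    let f : G₀ × E →* G := MonoidHom.mk' (fun x => (x.1 : G) * x.2) (by
      rintro ⟨a, b⟩ ⟨a', b'⟩
      change (a : G) * a' * (b * b') = a * b * (a' * b')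
      have := hcomm a' b
      calc (a : G) * a' * (b * b') = a * (a' * b) * b' := by group
        _ = a * (b * a') * b' := by rw [this]
        _ = _ := by group)
    have hf : Function.Bijective f := by
      constructor
      · rw [injective_iff_map_eq_one]
        rintro ⟨a, b⟩ hab
        have h4 : (a : G) * b = 1 := hab
        have h5 : (a : G) = (b : G)⁻¹ := eq_inv_of_mul_eq_one_left h4
        have h6' : (a : G) ∈ E := by rw [h5]; exact inv_mem b.2
        have h6 : (a : G) ∈ G₀ ⊓ E := ⟨a.2, h6'⟩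
        rw [k2, mem_bot] at h6
        have h7 : (b : G) = 1 := by rw [h6, one_mul] at h4; exact h4
        exact Prod.ext (Subtype.ext h6) (Subtype.ext h7)
      · intro x
        have h4 : x ∈ G₀ ⊔ E := by rw [k1]; trivial
        rw [mem_sup_of_normal_right] at h4
        obtain ⟨a, ha, b, hb, rfl⟩ := h4
        exact ⟨(⟨a, ha⟩, ⟨b, hb⟩), rfl⟩
    exact ⟨(MulEquiv.ofBijective f hf).symm.trans (e5.prodCongr e6)⟩

end Cfsg.Agent.S2772
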