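import Cfsg.Statements.S2779
import Cfsg.Agent.H46.NatSL2

set_option autoImplicit false
open Cfsg

namespace Cfsg.Agent.S2779


open Cfsg.Agent.H46
open scoped commutatorElement


/-- Let L act on the elementary abelian p-group V (inside a finite group, by conjugation, faithfully) as SL₂(F) on its natural module, F a field with p^n elements, and let S be a Sylow p-subgroup of L. Then [V, S, S] = 1; |V| = p^(2n) and |C_V(S)| = p^n; and for every nonidentity s ∈ S and every v ∈ V outside C_V(S): C_V(s) = C_V(S) = [V, S] = [V, s] = the subgroup generated by the commutators [v, t], t ∈ S. -/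
theorem result {G : Type*} [Group G] [Finite G] {p : ℕ} [Fact p.Prime] {F : Type*} [Field F] [Fintype F] (n : ℕ) (hF : Fintype.card F = p ^ n) (V L : Subgroup G) (hnat : Cfsg.IsNaturalSL2Module F V L) (hf : L ⊓ Subgroup.centralizer (V : Set G) = ⊥) (S : Sylow p ↥L) (T : Subgroup G) (hT : T = ((S : Subgroup ↥L).map L.subtype)) : ⁅⁅V, T⁆, T⁆ = ⊥ ∧ Nat.card V = p ^ (2 * n) ∧ Nat.card ↥(V ⊓ Subgroup.centralizer ((T : Subgroup G) : Set G)) = p ^ n ∧ ∀ s ∈ T, s ≠ 1 → (V ⊓ Subgroup.centralizer ({s} : Set G)) = (V ⊓ Subgroup.centralizer ((T : Subgroup G) : Set G)) ∧ ⁅V, T⁆ = (V ⊓ Subgroup.centralizer ((T : Subgroup G) : Set G)) ∧ ⁅V, Subgroup.zpowers s⁆ = (V ⊓ Subgroup.centralizer ((T : Subgroup G) : Set G)) ∧ ∀ v ∈ V, v ∉ Subgroup.centralizer (T : Set G) → Subgroup.closure {x : G | ∃ t ∈ T, x = v * t * v⁻¹ * t⁻¹} = (V ⊓ Subgroup.centralizer ((T : Subgroup G) : Set G)) := by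

  have hp : p.Prime := Fact.out
  have hchar : CharP F p := by
    refine (CharP.charP_iff_prime_eq_zero hp).2 ?_
    have h0 := FiniteField.cast_card_eq_zero F
    rw [hF] at h0
    push_cast at h0
    exact eq_zero_of_pow_eq_zero h0
  obtain ⟨N⟩ := exists_natNF hnat hf S
  rw [← hT] at N
  have hWcomm : ∀ x : F, ∀ a : F, a ≠ 0 → N.e ![x, 0] = ⁅N.e ![0, -(a⁻¹ * x)], N.m (sl2U a)⁆ := by
    intro x a ha
    rw [commutatorElement_def, N.comm_U]
    congr 1
    ext i
    fin_cases i <;> simp [ha]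
  have hVT : ⁅V, T⁆ = V ⊓ Subgroup.centralizer ((T : Subgroup G) : Set G) := by
    apply le_antisymm
    · rw [Subgroup.commutator_le]
      intro v hv t ht
      obtain ⟨u, rfl⟩ := (N.mem_V v).1 hv
      obtain ⟨a, rfl⟩ := (N.mem_T t).1 ht
      rw [commutatorElement_def, N.comm_U]
      exact (N.mem_CV _).2 ⟨_, rfl⟩
    · intro g hg
      obtain ⟨x, rfl⟩ := (N.mem_CV g).1 hg
      rw [hWcomm x 1 one_ne_zero]
      exact Subgroup.commutator_mem_commutator ((N.mem_V _).2 ⟨_, rfl⟩) ((N.mem_T _).2 ⟨_, rfl⟩)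
  refine ⟨?_, ?_, ?_, ?_⟩
  · rw [hVT, Subgroup.commutator_eq_bot_iff_le_centralizer]
    exact inf_le_right
  · have h1 : Nat.card (Fin 2 → F) = Nat.card V := by
      refine Nat.card_congr (Equiv.ofBijective (fun u => ⟨N.e u, (N.mem_V _).2 ⟨u, rfl⟩⟩) ⟨?_, ?_⟩)
      · intro u w h
        exact N.e_inj (congrArg Subtype.val h)
      · rintro ⟨v, hv⟩
        obtain ⟨u, rfl⟩ := (N.mem_V v).1 hv
        exact ⟨u, rfl⟩
    rw [← h1, Nat.card_fun, Nat.card_fin, Nat.card_eq_fintype_card, hF, ← pow_mul, mul_comm]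
  · have h1 : Nat.card F = Nat.card ↥(V ⊓ Subgroup.centralizer ((T : Subgroup G) : Set G)) := by
      refine Nat.card_congr (Equiv.ofBijective (fun x => ⟨N.e ![x, 0], (N.mem_CV _).2 ⟨x, rfl⟩⟩) ⟨?_, ?_⟩)
      · intro u w h
        have := congrFun (N.e_inj (congrArg Subtype.val h)) 0
        simpa using this
      · rintro ⟨v, hv⟩
        obtain ⟨u, rfl⟩ := (N.mem_CV v).1 hv
        exact ⟨u, rfl⟩
    rw [← h1, Nat.card_eq_fintype_card, hF]
  · intro s hs hs1
    obtain ⟨a, rfl⟩ := (N.mem_T s).1 hs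
    have ha : a ≠ 0 := by
      rintro rfl
      exact hs1 (by rw [sl2U_zero, map_one])
    refine ⟨?_, hVT, ?_, ?_⟩
    · ext g
      rw [N.mem_Cs ha, N.mem_CV]
    · apply le_antisymm
      · rw [← hVT]
        exact Subgroup.commutator_mono le_rfl ((Subgroup.zpowers_le).2 hs)
      · intro g hg
        obtain ⟨x, rfl⟩ := (N.mem_CV g).1 hg
        rw [hWcomm x a ha]
        exact Subgroup.commutator_mem_commutator ((N.mem_V _).2 ⟨_, rfl⟩) (Subgroup.mem_zpowers _)
    · intro v hv hvT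
      obtain ⟨u, rfl⟩ := (N.mem_V v).1 hv
      have hu : u 1 ≠ 0 := by
        intro hu
        apply hvT
        have h1 : N.e u ∈ V ⊓ Subgroup.centralizer (T : Set G) := by
          refine (N.mem_CV _).2 ⟨u 0, ?_⟩
          congr 1
          ext i
          fin_cases i <;> simp [hu]
        exact h1.2
      apply le_antisymm
      · refine (Subgroup.closure_le _).2 ?_
        rintro x ⟨t, ht, rfl⟩
        obtain ⟨b, rfl⟩ := (N.mem_T t).1 ht
        rw [N.comm_U]
        exact (N.mem_CV _).2 ⟨_, rfl⟩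
      · intro g hg
        obtain ⟨x, rfl⟩ := (N.mem_CV g).1 hg
        apply Subgroup.subset_closure
        refine ⟨N.m (sl2U (-(x * (u 1)⁻¹))), (N.mem_T _).2 ⟨_, rfl⟩, ?_⟩
        rw [N.comm_U]
        congr 1
        ext i
        fin_cases i <;> simp [hu]

end Cfsg.Agent.S2779
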