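import Cfsg.Statements.S2780
import Cfsg.Agent.H46.NatSL2

set_option autoImplicit false
open Cfsg

namespace Cfsg.Agent.S2780


open Cfsg.Agent.H46
open Matrix

section
variable {G : Type*} [Group G] {F : Type*} [Field F] {V L T : Subgroup G} (N : NatNF F V L T)

theorem inv10 (A : Matrix.SpecialLinearGroup (Fin 2) F) : (A⁻¹ : Matrix.SpecialLinearGroup (Fin 2) F) 1 0 = - A 1 0 := by
  rw [Matrix.SpecialLinearGroup.SL2_inv_expl]
  rfl

theorem conjT (A : Matrix.SpecialLinearGroup (Fin 2) F) (hA : A 1 0 = 0) {h : G} (hh : h ∈ T) :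
    N.m A * h * (N.m A)⁻¹ ∈ T := by
  obtain ⟨a, rfl⟩ := (N.mem_T h).1 hh
  have h1 : ∃ b, A * sl2U a * A⁻¹ = sl2U b := by
    apply exists_sl2U
    have hAi : (A⁻¹ : Matrix.SpecialLinearGroup (Fin 2) F) 1 0 = 0 := by rw [inv10, hA, neg_zero]
    set B := A⁻¹ with hB
    have h2 : (B : Matrix (Fin 2) (Fin 2) F) *ᵥ ![1, 0] = ![B 0 0, 0] := by
      ext i
      fin_cases i
      · simp [Matrix.mulVec, dotProduct, Fin.sum_univ_two]
      · simpa [Matrix.mulVec, dotProduct, Fin.sum_univ_two] using hAi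
    rw [Matrix.SpecialLinearGroup.coe_mul, Matrix.SpecialLinearGroup.coe_mul, ← mulVec_mulVec, ← mulVec_mulVec, h2,
      NatNF.sl2U_mulVec]
    have h3 : (![![B 0 0, 0] 0 + a * ![B 0 0, 0] 1, ![B 0 0, 0] 1] : Fin 2 → F) = (B : Matrix (Fin 2) (Fin 2) F) *ᵥ ![1, 0] := by
      rw [h2]
      ext i
      fin_cases i <;> simp
    rw [h3, mulVec_mulVec, ← Matrix.SpecialLinearGroup.coe_mul, hB, mul_inv_cancel, Matrix.SpecialLinearGroup.coe_one,
      one_mulVec]
  obtain ⟨b, hb⟩ := h1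
  refine (N.mem_T _).2 ⟨b, ?_⟩
  rw [← hb, map_mul, map_mul, map_inv]

theorem normT (A : Matrix.SpecialLinearGroup (Fin 2) F) (hA : A 1 0 = 0) :
    N.m A ∈ Subgroup.normalizer (T : Set G) := by
  rw [Subgroup.mem_normalizer_iff]
  intro h
  refine ⟨conjT N A hA, fun h1 => ?_⟩
  have := conjT N A⁻¹ (by rw [inv10, hA, neg_zero]) h1
  rw [map_inv] at this
  convert this using 1
  group

include N in
theorem commV {x y : G} (hx : x ∈ V) (hy : y ∈ V) : x * y = y * x := by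
  obtain ⟨u, rfl⟩ := (N.mem_V x).1 hx
  obtain ⟨w, rfl⟩ := (N.mem_V y).1 hy
  rw [← N.e_add, ← N.e_add, add_comm]

theorem mem_CV_conj (A : Matrix.SpecialLinearGroup (Fin 2) F) (x : G) :
    x ∈ V ⊓ Subgroup.centralizer ((T.map (MulAut.conj (N.m A)).toMonoidHom : Subgroup G) : Set G) ↔
      ∃ y : F, x = N.e ((A : Matrix (Fin 2) (Fin 2) F) *ᵥ ![y, 0]) := by
  constructor
  · rintro ⟨hV, hC⟩
    have h1 : (N.m A)⁻¹ * x * N.m A ∈ V ⊓ Subgroup.centralizer (T : Set G) := by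
      constructor
      · obtain ⟨u, rfl⟩ := (N.mem_V x).1 hV
        have := N.conj A⁻¹ u
        rw [map_inv, inv_inv] at this
        rw [SetLike.mem_coe, this]
        exact (N.mem_V _).2 ⟨_, rfl⟩
      · refine Subgroup.mem_centralizer_iff.2 ?_
        intro t ht
        have h2 := Subgroup.mem_centralizer_iff.1 hC (N.m A * t * (N.m A)⁻¹) ⟨t, ht, rfl⟩
        calc t * ((N.m A)⁻¹ * x * N.m A) = (N.m A)⁻¹ * (N.m A * t * (N.m A)⁻¹ * x) * N.m A := by group
          _ = (N.m A)⁻¹ * (x * (N.m A * t * (N.m A)⁻¹)) * N.m A := by rw [h2]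
          _ = _ := by group
    obtain ⟨y, hy⟩ := (N.mem_CV _).1 h1
    refine ⟨y, ?_⟩
    rw [← N.conj, ← hy]; group
  · rintro ⟨y, rfl⟩
    refine ⟨(N.mem_V _).2 ⟨_, rfl⟩, ?_⟩
    refine Subgroup.mem_centralizer_iff.2 ?_
    rintro _ ⟨t, ht, rfl⟩
    have h1 : N.e ![y, 0] ∈ V ⊓ Subgroup.centralizer (T : Set G) := (N.mem_CV _).2 ⟨y, rfl⟩
    have h2 := Subgroup.mem_centralizer_iff.1 h1.2 t ht
    rw [← N.conj]
    show N.m A * t * (N.m A)⁻¹ * _ = _ * (N.m A * t * (N.m A)⁻¹)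
    calc N.m A * t * (N.m A)⁻¹ * (N.m A * N.e ![y, 0] * (N.m A)⁻¹) = N.m A * (t * N.e ![y, 0]) * (N.m A)⁻¹ := by group
      _ = N.m A * (N.e ![y, 0] * t) * (N.m A)⁻¹ := by rw [h2]
      _ = _ := by group

/-- diagonal element -/
def sl2D (t : F) (ht : t ≠ 0) : Matrix.SpecialLinearGroup (Fin 2) F :=
  ⟨!![t, 0; 0, t⁻¹], by rw [det_fin_two_of]; simp [ht]⟩

theorem sl2D_mulVec (t : F) (ht : t ≠ 0) (u : Fin 2 → F) :
    (sl2D t ht : Matrix (Fin 2) (Fin 2) F) *ᵥ u = ![t * u 0, t⁻¹ * u 1] := by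
  show (!![t, 0; 0, t⁻¹] : Matrix (Fin 2) (Fin 2) F) *ᵥ u = _
  ext i
  fin_cases i <;> simp [Matrix.mulVec, dotProduct, Fin.sum_univ_two]

theorem diag_mem (U : Subgroup G) (h : L ⊓ Subgroup.normalizer (T : Set G) ≤ Subgroup.normalizer (U : Set G))
    (t : F) (ht : t ≠ 0) {u : Fin 2 → F} (hu : N.e u ∈ U) : N.e ![t * u 0, t⁻¹ * u 1] ∈ U := by
  have h1 : N.m (sl2D t ht) ∈ Subgroup.normalizer (U : Set G) :=
    h ⟨(N.mem_L _).2 ⟨_, rfl⟩, normT N _ rfl⟩
  have h2 := (Subgroup.mem_normalizer_iff.1 h1 _).1 hu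
  rwa [N.conj, sl2D_mulVec] at h2

end


/-- Let L act on the elementary abelian p-group V (inside a finite group, faithfully) as SL₂(F) on its natural module, F a field with p^n elements, S a Sylow p-subgroup of L. Then: for every g ∈ L not normalizing S, V is the internal direct product of C_V(S) and C_V(gSg⁻¹); every nonidentity element of L of order prime to p acts on V without nonidentity fixed points; and C_V(S) and V/C_V(S) are irreducible for N_L(S): the only N_L(S)-invariant subgroups of C_V(S) are 1 and C_V(S), and the only N_L(S)-invariant subgroups between C_V(S) and V are those two. -/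
theorem result {G : Type*} [Group G] [Finite G] {p : ℕ} [Fact p.Prime] {F : Type*} [Field F] [Fintype F] (n : ℕ) (hF : Fintype.card F = p ^ n) (V L : Subgroup G) (hnat : Cfsg.IsNaturalSL2Module F V L) (hf : L ⊓ Subgroup.centralizer (V : Set G) = ⊥) (S : Sylow p ↥L) (T : Subgroup G) (hT : T = ((S : Subgroup ↥L).map L.subtype)) : (∀ g ∈ L, g ∉ Subgroup.normalizer (T : Set G) → Cfsg.IsInternalDirectProduct (V ⊓ Subgroup.centralizer ((T : Subgroup G) : Set G)) (V ⊓ Subgroup.centralizer ((T.map (MulAut.conj g).toMonoidHom : Subgroup G) : Set G)) V) ∧ (∀ x ∈ L, x ≠ 1 → (orderOf x).Coprime p → (V ⊓ Subgroup.centralizer ({x} : Set G)) = ⊥) ∧ (∀ U : Subgroup G, U ≤ (V ⊓ Subgroup.centralizer ((T : Subgroup G) : Set G)) → L ⊓ Subgroup.normalizer (T : Set G) ≤ Subgroup.normalizer (U : Set G) → U = ⊥ ∨ U = (V ⊓ Subgroup.centralizer ((T : Subgroup G) : Set G))) ∧ (∀ U : Subgroup G, (V ⊓ Subgroup.centralizer ((T : Subgroup G) : Set G)) ≤ U →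 U ≤ V → L ⊓ Subgroup.normalizer (T : Set G) ≤ Subgroup.normalizer (U : Set G) → U = (V ⊓ Subgroup.centralizer ((T : Subgroup G) : Set G)) ∨ U = V) := by

  have hp : p.Prime := Fact.out
  have hchar : CharP F p := by
    refine (CharP.charP_iff_prime_eq_zero hp).2 ?_
    have h0 := FiniteField.cast_card_eq_zero F
    rw [hF] at h0
    push_cast at h0
    exact eq_zero_of_pow_eq_zero h0
  obtain ⟨N⟩ := exists_natNF hnat hf S
  rw [← hT] at N
  refine ⟨?_, ?_, ?_, ?_⟩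
  · intro g hg hgN
    obtain ⟨A, rfl⟩ := (N.mem_L g).1 hg
    have hA : A 1 0 ≠ 0 := fun h => hgN (normT N A h)
    refine ⟨inf_le_left, inf_le_left, fun a ha b hb => commV N ha.1 hb.1, ?_, ?_⟩
    · rw [eq_bot_iff]
      rintro x ⟨hx1, hx2⟩
      obtain ⟨y, rfl⟩ := (N.mem_CV x).1 hx1
      obtain ⟨z, hz⟩ := (mem_CV_conj N A _).1 hx2
      have h1 := N.e_inj hz
      have h2 := congrFun h1 1
      simp [Matrix.mulVec, dotProduct, Fin.sum_univ_two, hA] at h2
      rw [h1, h2, Subgroup.mem_bot, N.e_eq_one]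
      ext i
      fin_cases i <;> simp [Matrix.mulVec, dotProduct, Fin.sum_univ_two]
    · apply le_antisymm (sup_le inf_le_left inf_le_left)
      intro v hv
      obtain ⟨u, rfl⟩ := (N.mem_V v).1 hv
      have h1 : u = ![u 0 - A 0 0 * (u 1 * (A 1 0)⁻¹), 0] + (A : Matrix (Fin 2) (Fin 2) F) *ᵥ ![u 1 * (A 1 0)⁻¹, 0] := by
        ext i
        fin_cases i
        · simp [Matrix.mulVec, dotProduct, Fin.sum_univ_two]
        · simp only [Matrix.mulVec, dotProduct, Fin.sum_univ_two, Pi.add_apply]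
          simp
          field_simp
      rw [h1, N.e_add]
      exact Subgroup.mul_mem_sup ((N.mem_CV _).2 ⟨_, rfl⟩) ((mem_CV_conj N A _).2 ⟨_, rfl⟩)
  · intro x hx hx1 hcop
    rw [eq_bot_iff]
    rintro v ⟨hv, hvx⟩
    obtain ⟨u, rfl⟩ := (N.mem_V v).1 hv
    obtain ⟨A, rfl⟩ := (N.mem_L x).1 hx
    rw [Subgroup.mem_bot, N.e_eq_one]
    by_contra hu
    apply hx1
    have h1 := (N.commute_iff A u).1 (Subgroup.mem_centralizer_iff.1 hvx _ rfl)
    obtain ⟨B, hB⟩ := exists_sl2_mulVec u hu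
    obtain ⟨a, ha⟩ := exists_sl2U (A := B⁻¹ * A * B) (by
      rw [Matrix.SpecialLinearGroup.coe_mul, Matrix.SpecialLinearGroup.coe_mul, ← mulVec_mulVec, hB,
        ← mulVec_mulVec, h1, ← hB, mulVec_mulVec, ← Matrix.SpecialLinearGroup.coe_mul,
        inv_mul_cancel, Matrix.SpecialLinearGroup.coe_one, one_mulVec])
    have h2 : A = B * sl2U a * B⁻¹ := by rw [← ha]; group
    have h3 : A ^ p = 1 := by
      rw [h2, conj_pow, sl2U_pow, CharP.cast_eq_zero, zero_mul, sl2U_zero, mul_one, mul_inv_cancel]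
    have h4 : orderOf (N.m A) ∣ p := by
      apply orderOf_dvd_of_pow_eq_one
      rw [← map_pow, h3, map_one]
    have h5 : orderOf (N.m A) = 1 := Nat.eq_one_of_dvd_coprimes hcop dvd_rfl h4
    exact orderOf_eq_one_iff.1 h5
  · intro U hU hN
    by_cases hb : U = ⊥
    · exact Or.inl hb
    right
    apply le_antisymm hU
    obtain ⟨x, hx⟩ := (Subgroup.ne_bot_iff_exists_ne_one.1 hb)
    obtain ⟨y, hy⟩ := (N.mem_CV x).1 (hU x.2)
    have hy0 : y ≠ 0 := by
      rintro rfl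
      apply hx
      apply Subtype.ext
      show (x : G) = 1
      rw [hy, N.e_eq_one]
      ext i
      fin_cases i <;> simp
    intro g hg
    obtain ⟨z, rfl⟩ := (N.mem_CV g).1 hg
    by_cases hz : z = 0
    · have : N.e ![z, 0] = 1 := by
        rw [hz, N.e_eq_one]
        ext i
        fin_cases i <;> simp
      rw [this]; exact U.one_mem
    · have h1 := diag_mem N U hN (z * y⁻¹) (mul_ne_zero hz (inv_ne_zero hy0)) (u := ![y, 0]) (hy ▸ x.2)
      convert h1 using 2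
      ext i
      fin_cases i <;> simp [hy0]
  · intro U hU hUV hN
    by_cases hb : U ≤ (V ⊓ Subgroup.centralizer ((T : Subgroup G) : Set G))
    · exact Or.inl (le_antisymm hb hU)
    right
    apply le_antisymm hUV
    obtain ⟨x, hx, hxn⟩ := SetLike.not_le_iff_exists.1 hb
    obtain ⟨u, rfl⟩ := (N.mem_V x).1 (hUV hx)
    have hu : u 1 ≠ 0 := by
      intro hu
      apply hxn
      refine (N.mem_CV _).2 ⟨u 0, ?_⟩
      congr 1
      ext i
      fin_cases i <;> simp [hu]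
    intro g hg
    obtain ⟨w, rfl⟩ := (N.mem_V g).1 hg
    have hW : ∀ z : F, N.e ![z, 0] ∈ U := fun z => hU ((N.mem_CV _).2 ⟨z, rfl⟩)
    by_cases hw : w 1 = 0
    · have : w = ![w 0, 0] := by
        ext i
        fin_cases i <;> simp [hw]
      rw [this]; exact hW _
    · have h1 := diag_mem N U hN (u 1 * (w 1)⁻¹) (mul_ne_zero hu (inv_ne_zero hw)) hx
      have h2 : w = ![w 0 - u 1 * (w 1)⁻¹ * u 0, 0] + ![u 1 * (w 1)⁻¹ * u 0, (u 1 * (w 1)⁻¹)⁻¹ * u 1] := by
        ext i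
        fin_cases i
        · simp
        · simp [hu]
      rw [h2, N.e_add]
      exact U.mul_mem (hW _) h1

end Cfsg.Agent.S2780
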