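import Cfsg.Statements.S2781
import Cfsg.Agent.H46.Norm
import Cfsg.Agent.Transfer.Residual

set_option autoImplicit false
open Cfsg

namespace Cfsg.Agent.S2781

/-- Let H act faithfully by conjugation on the elementary abelian p-subgroup V of a finite group, let O^p(H) be the subgroup of H generated by its elements of order prime to p, and T a Sylow p-subgroup of O^p(H). If V is generated by the H-conjugates of C_V(T) (V is the smallest H-invariant subgroup containing C_V(T)), then V = [V, O^p(H)]·C_V(O^p(H)). -/
theorem result {G : Type*} [Group G] [Finite G] {p : ℕ} [Fact p.Prime] (V H : Subgroup G) (hV : Cfsg.IsElementaryAbelian p V) (hHV : H ≤ Subgroup.normalizer (V : Set G)) (hf : H ⊓ Subgroup.centralizer (V : Set G) = ⊥) (R : Subgroup G) (hR : R = (Cfsg.pResidual p ↥H).map H.subtype) (S : Sylow p ↥R) (T : Subgroup G) (hT : T = ((S : Subgroup ↥R).map R.subtype)) (hgen : ∀ W : Subgroup G, H ≤ Subgroup.normalizer (W : Set G) → (V ⊓ Subgroup.centralizer ((T : Subgroup G) : Set G)) ≤ W → V ≤ W) : ⁅V, R⁆ ⊔ (V ⊓ Subgroup.centralizer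 ((R : Subgroup G) : Set G)) = V := by
  have hRH : R ≤ H := by rw [hR]; exact Subgroup.map_subtype_le _
  have hTR : T.subgroupOf R = (S : Subgroup ↥R) := by
    rw [hT, Subgroup.subgroupOf, Subgroup.comap_map_eq_self_of_injective R.subtype_injective]
  apply Cfsg.Agent.H46.sup_inf_centralizer_eq V H hV hHV R hRH ?_ T ?_ hgen (p := p)
  · rw [← Subgroup.normal_subgroupOf_iff_le_normalizer hRH, hR, Subgroup.subgroupOf,
      Subgroup.comap_map_eq_self_of_injective H.subtype_injective]
    exact Cfsg.Agent.Transfer.pResidual_normal p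
  · have h1 : T.relIndex R = (S : Subgroup ↥R).index := by
      rw [Subgroup.relIndex, hTR]
    rw [h1, Nat.coprime_comm]
    exact (Nat.Prime.coprime_iff_not_dvd Fact.out).2 S.not_dvd_index

end Cfsg.Agent.S2781
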