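import Cfsg.Statements.S2791
import Cfsg.Agent.H47.StrCl

set_option autoImplicit false
open Cfsg

namespace Cfsg.Agent.S2791

/-- Let S be a Sylow p-subgroup of the finite group G and A an abelian subgroup of S that is strongly closed in S with respect to G. Then A controls strong fusion in G: for some Sylow p-subgroup T containing A, whenever a subset of T is conjugated into T by an element of G, the same elementwise conjugation is induced by an element of N_G(A). -/
theorem result {G : Type*} [Group G] [Finite G] {p : ℕ} [Fact p.Prime] (S : Sylow p G) (A : Subgroup G) (hA : IsMulCommutative ↥A) (hsc : Cfsg.IsStronglyClosed A (S : Subgroup G)) : Cfsg.ControlsStrongFusion p A := by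
  have hab : A ≤ Subgroup.centralizer (A : Set G) := by
    intro x hx
    rw [Subgroup.mem_centralizer_iff]
    intro y hy
    exact congrArg Subtype.val (hA.is_comm.comm (⟨y, hy⟩ : A) ⟨x, hx⟩)
  refine ⟨S, hsc.1, ?_⟩
  intro X hX
  refine ⟨hX, ?_⟩
  intro g hg
  obtain ⟨h, hh, hh'⟩ := H47.strcl_aux (H47.sylIn_top S) hab hsc.1 hsc.2 (Nat.card S)
    (Subgroup.closure X) (by rwa [Subgroup.closure_le]) (by omega) g (by
      rw [MonoidHom.map_closure, Subgroup.closure_le]
      exact hg)
  exact ⟨h, hh, fun a ha => hh' a (Subgroup.subset_closure ha)⟩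

end Cfsg.Agent.S2791
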