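import Cfsg.Statements.S2856
import Cfsg.Agent.H48.CosetV

set_option autoImplicit false
open Cfsg

namespace Cfsg.Agent.S2856

/-- Let (M₁, M₂) be an amalgam pair in X satisfying the rank-two standing hypothesis (characteristic p, the normalizers in M₁ and in M₂ of a Sylow p-subgroup of M₁ ∩ M₂ equal and contained in M₁ ∩ M₂, and strongly p-embedded residues), λ a vertex of the coset graph, L_λ the subgroup of its stabilizer generated by the p-elements, Q_λ = O_p of the stabilizer, O^p(L_λ) the subgroup of L_λ generated by its elements of order prime to p, and V_λ^{(k)} the subgroup generated by the Z_μ over the vertices μ at distance at most k from λ (Z_μ being generated by the Ω₁(Z(S)), S a Sylow p-subgroup of the stabilizer of μ). If n ≥ 1 and V_λ^{(n)} ≤ Q_λ, then O^p(L_λ) does not centralize V_λ^{(n)}/[V_λ^{(n)}, Q_λ], that is, [V_λ^{(n)}, O^p(L_λ)] is not contained in [V_λ^{(n)}, Q_λ]. -/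
theorem result {X : Type*} [Group X] {p : ℕ} [Fact p.Prime] (M₁ M₂ : Subgroup X) (h : Cfsg.IsSpeAmalgamPair p M₁ M₂) (lam : Cfsg.CosetVertex M₁ M₂) (n : ℕ) (hn : 1 ≤ n) (V : Subgroup X) (hV : V = Cfsg.vertexVIter p M₁ M₂ n lam) (hVQ : V ≤ Cfsg.vertexQ p lam) : ¬ ⁅V, ((Cfsg.pResidual p ↥(Cfsg.pElementClosure p (MulAction.stabilizer X lam))).map (Cfsg.pElementClosure p (MulAction.stabilizer X lam)).subtype)⁆ ≤ ⁅V, Cfsg.vertexQ p lam⁆ := by
  intro hc
  obtain ⟨m, rfl⟩ : ∃ m, n = m + 1 := ⟨n - 1, by omega⟩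
  obtain ⟨δ, hδ⟩ := Cfsg.Agent.H46.exists_adj lam
  subst hV
  refine Cfsg.Agent.H48.vertexVIter_not_le h hδ hVQ ?_
  have h1 := (Cfsg.Agent.H48.vertexVIter_succ_le_sup h (n := m) hδ).trans (sup_le_sup_left hc _)
  have hf := Cfsg.Agent.H46.CharPPair.finite h.1 lam
  -- inside the `p`-group `Q`
  have hQ : IsPGroup p (vertexQ p lam) := Cfsg.Agent.H46.pCoreOf_isPGroup p _
  have hfQ : Finite (vertexQ p lam) :=
    Finite.of_injective _ (Subgroup.inclusion_injective (Cfsg.Agent.H46.pCoreOf_le p (MulAction.stabilizer X lam)))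
  have hnil : Group.IsNilpotent (vertexQ p lam) := hQ.isNilpotent
  have hfe := Cfsg.Agent.H46.CharPPair.finite_edge h.1 lam δ
  obtain ⟨S, hS⟩ := Cfsg.Agent.H46.exists_isSylOf p (edgeStabilizer lam δ)
  have hSl := Cfsg.Agent.H46.CharPPair.isSylOf h.1 hδ hS
  have hQδ : vertexQ p lam ≤ MulAction.stabilizer X δ := (hSl.pCoreOf_le.trans hS.1).trans inf_le_right
  set V := vertexVIter p M₁ M₂ (m + 1) lam with hV
  set W := vertexVIter p M₁ M₂ m δ with hW
  have hWV : W ≤ V := by
    apply Cfsg.Agent.H48.vertexVIter_le_of_dist h.1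
    rw [SimpleGraph.dist_eq_one_iff_adj.2 hδ]
    omega
  have hWn : (W.subgroupOf (vertexQ p lam)).Normal :=
    Subgroup.normal_subgroupOf_of_le_normalizer
      (hQδ.trans (Cfsg.Agent.H48.stabilizer_le_normalizer_VIter h.1 _ _))
  have key : V.subgroupOf (vertexQ p lam) ≤ W.subgroupOf (vertexQ p lam) := by
    apply Cfsg.Agent.H63.le_of_le_commutator_sup
    have h2 : (⁅V, vertexQ p lam⁆ ⊔ W).subgroupOf (vertexQ p lam) ≤
        ⁅V.subgroupOf (vertexQ p lam), (⊤ : Subgroup (vertexQ p lam))⁆ ⊔ W.subgroupOf (vertexQ p lam) := by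
      intro x hx
      have hinj : Function.Injective (vertexQ p lam).subtype := Subtype.coe_injective
      rw [← Subgroup.comap_map_eq_self_of_injective hinj (⁅V.subgroupOf (vertexQ p lam), (⊤ : Subgroup (vertexQ p lam))⁆ ⊔ W.subgroupOf (vertexQ p lam))]
      rw [Subgroup.mem_comap, Subgroup.map_sup, Subgroup.map_commutator, Subgroup.map_subgroupOf_eq_of_le hVQ,
        Subgroup.map_subgroupOf_eq_of_le (hWV.trans hVQ), ← MonoidHom.range_eq_map, Subgroup.range_subtype]
      exact hx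
    refine le_trans ?_ h2
    intro x hx
    have := h1 hx
    rw [sup_comm] at this
    exact this
  intro x hx
  exact key (show (⟨x, hVQ hx⟩ : vertexQ p lam) ∈ V.subgroupOf (vertexQ p lam) from hx)

end Cfsg.Agent.S2856
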