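import Cfsg.Statements.S3085
import Cfsg.Agent.Extra.Unique

set_option autoImplicit false
open Cfsg

namespace Cfsg.Agent.S3085


open Cfsg.Agent.Extra
open scoped commutatorElement

/-- A nonabelian `GES 2` group has an element of order four which is not central. -/
theorem exists_pair {P : Type*} [Group P] [Finite P] (h : GES 2 P) (hc : 2 < Nat.card P) :
    ∃ w s : P, ⁅s, w⁆ ≠ 1 ∧ w ^ 2 ≠ 1 := by
  haveI : Fact (Nat.Prime 2) := ⟨Nat.prime_two⟩
  have hne : Subgroup.center P ≠ ⊤ := by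
    intro htop
    have := h.card_center
    rw [htop, Subgroup.card_top] at this
    omega
  obtain ⟨x, y, hxy⟩ := h.exists_noncomm hne
  have hyx := GES.comm_symm_ne_one hxy
  by_cases hx : x ^ 2 = 1
  · by_cases hy : y ^ 2 = 1
    · refine ⟨x * y, x, ?_, ?_⟩
      · rw [h.classTwo.mul_right, commutatorElement_self, one_mul]; exact hxy
      · rw [h.sq_mul, hx, hy, one_mul, one_mul]; exact hyx
    · exact ⟨y, x, hxy, hy⟩
  · exact ⟨x, y, hyx, hx⟩

/-- The three pairs. -/
theorem exists_three {Q : Type*} [Group Q] [Finite Q] (h : GES 2 Q) (hc : 2 ^ 7 ≤ Nat.card Q) :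
    ∃ w₁ w₂ w₃ s₁ s₂ s₃ : Q, w₁ ^ 2 ≠ 1 ∧ w₂ ^ 2 ≠ 1 ∧ w₃ ^ 2 ≠ 1 ∧
      Commute w₁ w₂ ∧ Commute w₁ w₃ ∧ Commute w₂ w₃ ∧
      ¬ Commute s₁ w₁ ∧ Commute s₁ w₂ ∧ Commute s₁ w₃ ∧
      Commute s₂ w₁ ∧ ¬ Commute s₂ w₂ ∧ Commute s₂ w₃ ∧
      Commute s₃ w₁ ∧ Commute s₃ w₂ ∧ ¬ Commute s₃ w₃ := by
  haveI : Fact (Nat.Prime 2) := ⟨Nat.prime_two⟩
  obtain ⟨w₁, s₁, h1, h1'⟩ := exists_pair h (by omega)
  have hc1 := h.card_eq h1
  have g1 := h.inf_ges h1
  obtain ⟨w₂, s₂, h2, h2'⟩ := exists_pair g1 (by omega)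
  have hc2 := g1.card_eq h2
  have g2 := g1.inf_ges h2
  obtain ⟨w₃, s₃, h3, h3'⟩ := exists_pair g2 (by omega)
  have e1 : ∀ x : (Subgroup.centralizer ({s₁} : Set Q) ⊓ Subgroup.centralizer ({w₁} : Set Q) : Subgroup Q),
      Commute (x : Q) s₁ ∧ Commute (x : Q) w₁ := fun x =>
    ⟨Subgroup.mem_centralizer_singleton_iff.mp x.2.1, Subgroup.mem_centralizer_singleton_iff.mp x.2.2⟩
  have e2 : ∀ x : (Subgroup.centralizer ({s₂} : Set _) ⊓ Subgroup.centralizer ({w₂} : Set _) :
      Subgroup (Subgroup.centralizer ({s₁} : Set Q) ⊓ Subgroup.centralizer ({w₁} : Set Q) : Subgroup Q)),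
      Commute ((x : (Subgroup.centralizer ({s₁} : Set Q) ⊓ Subgroup.centralizer ({w₁} : Set Q) : Subgroup Q)) : Q) (s₂ : Q) ∧
      Commute ((x : (Subgroup.centralizer ({s₁} : Set Q) ⊓ Subgroup.centralizer ({w₁} : Set Q) : Subgroup Q)) : Q) (w₂ : Q) := fun x =>
    ⟨congrArg Subtype.val (Subgroup.mem_centralizer_singleton_iff.mp x.2.1),
      congrArg Subtype.val (Subgroup.mem_centralizer_singleton_iff.mp x.2.2)⟩
  refine ⟨w₁, w₂, (w₃ : _), s₁, s₂, (s₃ : _), h1', ?_, ?_, ?_, ?_, ?_, ?_, ?_, ?_, ?_, ?_, ?_, ?_, ?_, ?_⟩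
  · intro hh; exact h2' (Subtype.ext hh)
  · intro hh; exact h3' (Subtype.ext (Subtype.ext hh))
  · exact (e1 w₂).2.symm
  · exact (e1 _).2.symm
  · exact (e2 w₃).2.symm
  · intro hh; exact h1 (commutatorElement_eq_one_iff_mul_comm.mpr hh)
  · exact (e1 w₂).1.symm
  · exact (e1 _).1.symm
  · exact (e1 s₂).2
  · intro hh
    apply h2
    rw [commutatorElement_eq_one_iff_mul_comm]
    exact Subtype.ext hh
  · exact (e2 w₃).1.symm
  · exact (e1 _).2
  · exact (e2 s₃).2
  · intro hh
    apply h3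
    rw [commutatorElement_eq_one_iff_mul_comm]
    exact Subtype.ext (Subtype.ext hh)

section Transvection

variable {Q : Type*} [Group Q]

/-- Data: a central involution `z` such that all commutators are in `{1, z}`. -/
structure CData (z : Q) : Prop where
  ne : z ≠ 1
  sq : z * z = 1
  comm : ∀ x : Q, z * x = x * z
  alt : ∀ x y : Q, ¬ Commute x y → x * y = y * x * z

theorem CData.sq_assoc {z : Q} (h : CData z) (x : Q) : z * (z * x) = x := by
  rw [← mul_assoc, h.sq, one_mul]

open Classical in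
/-- The map `x ↦ x` on `C(v)`, `x ↦ x v` elsewhere. -/
noncomputable def tv (v x : Q) : Q := if Commute x v then x else x * v

theorem tv_of_comm {v x : Q} (h : Commute x v) : tv v x = x := if_pos h

theorem tv_of_not {v x : Q} (h : ¬ Commute x v) : tv v x = x * v := if_neg h

theorem CData.commute_mul {z : Q} (h : CData z) {v x y : Q} (hx : ¬ Commute x v) (hy : ¬ Commute y v) :
    Commute (x * y) v := by
  have h1 := h.alt x v hx
  have h2 := h.alt y v hy
  change x * y * v = v * (x * y)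
  calc x * y * v = x * (y * v) := mul_assoc _ _ _
    _ = x * (v * y * z) := by rw [h2]
    _ = (x * v) * y * z := by simp only [mul_assoc]
    _ = (v * x * z) * y * z := by rw [h1]
    _ = v * x * (z * y) * z := by simp only [mul_assoc]
    _ = v * x * (y * z) * z := by rw [h.comm]
    _ = v * (x * y) * (z * z) := by simp only [mul_assoc]
    _ = v * (x * y) := by rw [h.sq, mul_one]

theorem CData.tv_mul {z : Q} (h : CData z) {v : Q} (hv : v * v = z) (x y : Q) :
    tv v (x * y) = tv v x * tv v y := by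
  by_cases hx : Commute x v
  · by_cases hy : Commute y v
    · rw [tv_of_comm hx, tv_of_comm hy, tv_of_comm (hx.mul_left hy)]
    · have hxy : ¬ Commute (x * y) v := by
        intro hh
        apply hy
        have := hx.inv_left.mul_left hh
        rwa [inv_mul_cancel_left] at this
      rw [tv_of_comm hx, tv_of_not hy, tv_of_not hxy, mul_assoc]
  · by_cases hy : Commute y v
    · have hxy : ¬ Commute (x * y) v := by
        intro hh
        apply hx
        have := hh.mul_left hy.inv_left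
        rwa [mul_inv_cancel_right] at this
      rw [tv_of_not hx, tv_of_comm hy, tv_of_not hxy, mul_assoc, mul_assoc, hy.eq]
    · rw [tv_of_not hx, tv_of_not hy, tv_of_comm (h.commute_mul hx hy)]
      have h2 := h.alt y v hy
      rw [h2]
      calc x * y = x * y * (z * z) := by rw [h.sq, mul_one]
        _ = x * (y * z) * z := by simp only [mul_assoc]
        _ = x * (z * y) * z := by rw [h.comm]
        _ = x * ((v * v) * y) * z := by rw [hv]
        _ = x * v * (v * y * z) := by simp only [mul_assoc]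

theorem CData.tv_inj {z : Q} (h : CData z) {v : Q} (hv : v * v = z) {x : Q} (hx : tv v x = 1) :
    x = 1 := by
  by_cases hc : Commute x v
  · rwa [tv_of_comm hc] at hx
  · exfalso
    rw [tv_of_not hc] at hx
    apply hc
    rw [eq_inv_of_mul_eq_one_left hx]
    exact (Commute.refl v).inv_left

/-- The automorphism `tv`. -/
noncomputable def tAut [Finite Q] {z : Q} (h : CData z) {v : Q} (hv : v * v = z) : MulAut Q :=
  MulEquiv.ofBijective (MonoidHom.mk' (tv v) (h.tv_mul hv))
    (Finite.injective_iff_bijective.mp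
      ((injective_iff_map_eq_one _).mpr fun _ hx => h.tv_inj hv hx))

theorem tAut_apply [Finite Q] {z : Q} (h : CData z) {v : Q} (hv : v * v = z) (x : Q) :
    tAut h hv x = tv v x := rfl

theorem tAut_sq [Finite Q] {z : Q} (h : CData z) {v : Q} (hv : v * v = z) :
    tAut h hv * tAut h hv = MulAut.conj v := by
  ext x
  rw [MulAut.mul_apply, tAut_apply, tAut_apply, MulAut.conj_apply]
  by_cases hc : Commute x v
  · rw [tv_of_comm hc, tv_of_comm hc, ← hc.eq, mul_inv_cancel_right]
  · have hc' : ¬ Commute (x * v) v := by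
      intro hh
      apply hc
      have := hh.mul_left (Commute.refl v).inv_left
      rwa [mul_inv_cancel_right] at this
    rw [tv_of_not hc, tv_of_not hc', mul_assoc, hv]
    have h1 := h.alt x v hc
    rw [eq_mul_inv_iff_mul_eq, mul_assoc, h.comm v, ← mul_assoc, h1, mul_assoc, h.sq, mul_one]

theorem tAut_comm [Finite Q] {z : Q} (h : CData z) {v w : Q} (hv : v * v = z) (hw : w * w = z)
    (hvw : Commute v w) : tAut h hv * tAut h hw = tAut h hw * tAut h hv := by
  have key : ∀ {v w : Q} (hv : v * v = z) (hw : w * w = z) (hvw : Commute v w) (x : Q),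
      ¬ Commute x w → tv v (tv w x) = tv w (tv v x) := by
    intro v w hv hw hvw x hx
    rw [tv_of_not hx, h.tv_mul hv, tv_of_comm hvw.symm]
    by_cases hc : Commute x v
    · rw [tv_of_comm hc, tv_of_not hx]
    · rw [tv_of_not hc, h.tv_mul hw, tv_of_not hx, tv_of_comm hvw, mul_assoc, mul_assoc, hvw.eq]
  ext x
  simp only [MulAut.mul_apply, tAut_apply]
  by_cases hx : Commute x w
  · by_cases hc : Commute x v
    · rw [tv_of_comm hx, tv_of_comm hc, tv_of_comm hx]
    · exact (key hw hv hvw.symm x hc).symm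
  · exact key hv hw hvw x hx

end Transvection

section Complement

variable {Q : Type*} [Group Q] [Finite Q] {z : Q} {L : Subgroup (MulAut Q)}

theorem exists_lift (hL : (Cfsg.Inn Q).IsComplement' L) (α : MulAut Q) :
    ∃ g : Q, ∃ T : MulAut Q, T ∈ L ∧ α = MulAut.conj g * T := by
  obtain ⟨⟨⟨i, hi⟩, ⟨l, hl⟩⟩, he⟩ := hL.surjective α
  obtain ⟨g, rfl⟩ := hi
  exact ⟨g, l, hl, he.symm⟩

theorem inn_inf (hL : (Cfsg.Inn Q).IsComplement' L) {α : MulAut Q} (h1 : α ∈ Cfsg.Inn Q)
    (h2 : α ∈ L) : α = 1 := by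
  have := hL.disjoint.le_bot ⟨h1, h2⟩
  exact Subgroup.mem_bot.mp this

/-- A lift of the transvection at `v`. -/
structure Lift (L : Subgroup (MulAut Q)) (v : Q) (T : MulAut Q) : Prop where
  mem : T ∈ L
  ex : ∃ g : Q, ∀ x, T x = g⁻¹ * tv v x * g

theorem Lift.of_comm (h : CData z) {v : Q} {T : MulAut Q} (hT : Lift L v T) {x : Q}
    (hx : Commute x v) : ∃ e : Q, (e = 1 ∨ e = z) ∧ T x = x * e := by
  obtain ⟨g, hg⟩ := hT.ex
  rw [hg x, tv_of_comm hx]
  by_cases hc : Commute x g
  · exact ⟨1, Or.inl rfl, by rw [mul_assoc, hc.eq, inv_mul_cancel_left, mul_one]⟩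
  · refine ⟨z, Or.inr rfl, ?_⟩
    rw [mul_assoc, h.alt x g hc, mul_assoc, inv_mul_cancel_left]

theorem Lift.of_not (h : CData z) {v : Q} {T : MulAut Q} (hT : Lift L v T) {x : Q}
    (hx : ¬ Commute x v) : ∃ e : Q, (e = 1 ∨ e = z) ∧ T x = x * v * e := by
  obtain ⟨g, hg⟩ := hT.ex
  rw [hg x, tv_of_not hx]
  by_cases hc : Commute (x * v) g
  · exact ⟨1, Or.inl rfl, by rw [mul_assoc, hc.eq, inv_mul_cancel_left, mul_one]⟩
  · refine ⟨z, Or.inr rfl, ?_⟩
    rw [mul_assoc, h.alt (x * v) g hc, mul_assoc g, inv_mul_cancel_left]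

theorem Lift.fix (h : CData z) {v : Q} {T : MulAut Q} (hT : Lift L v T) {e : Q}
    (he : e = 1 ∨ e = z) : T e = e := by
  rcases he with rfl | rfl
  · exact map_one T
  · obtain ⟨g, hg⟩ := hT.ex
    rw [hg, tv_of_comm (h.comm v), mul_assoc, h.comm g, inv_mul_cancel_left]

theorem CData.e_comm (h : CData z) {e : Q} (he : e = 1 ∨ e = z) (x : Q) : e * x = x * e := by
  rcases he with rfl | rfl
  · rw [one_mul, mul_one]
  · exact h.comm x

theorem CData.e_sq (h : CData z) {e : Q} (he : e = 1 ∨ e = z) : e * e = 1 := by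
  rcases he with rfl | rfl
  · rw [one_mul]
  · exact h.sq

theorem exists_Lift (h : CData z) (hL : (Cfsg.Inn Q).IsComplement' L) {v : Q} (hv : v * v = z) :
    ∃ T : MulAut Q, Lift L v T ∧ T * T = 1 := by
  obtain ⟨g, T, hT, he⟩ := exists_lift hL (tAut h hv)
  have he' : T = (MulAut.conj g)⁻¹ * tAut h hv := by rw [he, inv_mul_cancel_left]
  refine ⟨T, ⟨hT, g, fun x => ?_⟩, ?_⟩
  · rw [he', MulAut.mul_apply, tAut_apply, MulAut.inv_apply, MulEquiv.symm_apply_eq,
      MulAut.conj_apply]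
    group
  · apply inn_inf hL _ (L.mul_mem hT hT)
    have h1 : T * T = (MulAut.conj g)⁻¹ * (tAut h hv * (MulAut.conj g)⁻¹ * (tAut h hv)⁻¹) *
        (tAut h hv * tAut h hv) := by rw [he']; group
    have hc : MulAut.conj g ∈ Cfsg.Inn Q := ⟨g, rfl⟩
    rw [h1, tAut_sq]
    exact mul_mem (mul_mem (inv_mem hc) ((Cfsg.innNormal Q).conj_mem _ (inv_mem hc) _)) ⟨v, rfl⟩

theorem lift_comm (h : CData z) (hL : (Cfsg.Inn Q).IsComplement' L) {v w : Q} (hv : v * v = z)
    (hw : w * w = z) (hvw : Commute v w) {T U : MulAut Q} (hT : Lift L v T) (hU : Lift L w U) :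
    T * U = U * T := by
  obtain ⟨a, ha⟩ := hT.ex
  obtain ⟨b, hb⟩ := hU.ex
  have hT' : T = (MulAut.conj a)⁻¹ * tAut h hv := by
    ext x
    rw [ha, MulAut.mul_apply, tAut_apply, eq_comm, MulAut.inv_apply, MulEquiv.symm_apply_eq,
      MulAut.conj_apply]
    group
  have hU' : U = (MulAut.conj b)⁻¹ * tAut h hw := by
    ext x
    rw [hb, MulAut.mul_apply, tAut_apply, eq_comm, MulAut.inv_apply, MulEquiv.symm_apply_eq,
      MulAut.conj_apply]
    group
  have hca : MulAut.conj a ∈ Cfsg.Inn Q := ⟨a, rfl⟩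
  have hcb : MulAut.conj b ∈ Cfsg.Inn Q := ⟨b, rfl⟩
  have key : T * U * (U * T)⁻¹ = 1 := by
    apply inn_inf hL _ (L.mul_mem (L.mul_mem hT.mem hU.mem) (L.inv_mem (L.mul_mem hU.mem hT.mem)))
    have h2 := tAut_comm h hv hw hvw
    have h1 : T * U * (U * T)⁻¹ = (MulAut.conj a)⁻¹ *
        (tAut h hv * (MulAut.conj b)⁻¹ * (tAut h hv)⁻¹) *
        ((tAut h hv * tAut h hw) * (tAut h hw * tAut h hv)⁻¹) *
        (tAut h hw * (MulAut.conj a) * (tAut h hw)⁻¹) * (MulAut.conj b) := by
      rw [hT', hU']; group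
    rw [h1, h2, mul_inv_cancel, mul_one]
    exact mul_mem (mul_mem (mul_mem (inv_mem hca) ((Cfsg.innNormal Q).conj_mem _ (inv_mem hcb) _))
      ((Cfsg.innNormal Q).conj_mem _ hca _)) hcb
  exact mul_inv_eq_one.mp key

/-- `T_v v = v z`. -/
theorem lift_self (h : CData z) {v s : Q} (hs : ¬ Commute s v)
    {T : MulAut Q} (hT : Lift L v T) (hT2 : T * T = 1) : v * T v = 1 := by
  obtain ⟨e, he, hse⟩ := hT.of_not h hs
  have h1 : T (T s) = s := by
    rw [← MulAut.mul_apply, hT2, MulAut.one_apply]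
  have h3 : T (T s) = s * (v * T v) := by
    calc T (T s) = T (s * v * e) := congrArg T hse
      _ = T s * T v * T e := by rw [map_mul, map_mul]
      _ = (s * v * e) * T v * e := by rw [hT.fix h he, hse]
      _ = s * v * (e * T v) * e := by simp only [mul_assoc]
      _ = s * v * (T v * e) * e := by rw [h.e_comm he]
      _ = s * (v * T v) * (e * e) := by simp only [mul_assoc]
      _ = s * (v * T v) := by rw [h.e_sq he, mul_one]
  rw [h1] at h3
  exact (mul_eq_left.mp h3.symm)

/-- `T_v w = w`. -/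
theorem lift_other (h : CData z) (hL : (Cfsg.Inn Q).IsComplement' L) {v w x : Q} (hv : v * v = z)
    (hw : w * w = z) (hvw : Commute v w) (hxv : Commute x v) (hxw : ¬ Commute x w)
    {T : MulAut Q} (hT : Lift L v T) : T w = w := by
  obtain ⟨U, hU, hU2⟩ := exists_Lift h hL hw
  have hc := lift_comm h hL hv hw hvw hT hU
  obtain ⟨e, he, hxe⟩ := hU.of_not h hxw
  obtain ⟨d, hd, hxd⟩ := hT.of_comm h hxv
  have h1 : T (U x) = U (T x) := by
    rw [← MulAut.mul_apply, hc, MulAut.mul_apply]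
  have h2 : T (U x) = x * T w * (e * d) := by
    calc T (U x) = T (x * w * e) := congrArg T hxe
      _ = T x * T w * T e := by rw [map_mul, map_mul]
      _ = x * d * T w * e := by rw [hT.fix h he, hxd]
      _ = x * (d * T w) * e := by simp only [mul_assoc]
      _ = x * (T w * d) * e := by rw [h.e_comm hd]
      _ = x * T w * (d * e) := by simp only [mul_assoc]
      _ = x * T w * (e * d) := by rw [h.e_comm hd]
  have h3 : U (T x) = x * w * (e * d) := by
    calc U (T x) = U (x * d) := congrArg U hxd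
      _ = U x * U d := by rw [map_mul]
      _ = x * w * e * d := by rw [hU.fix h hd, hxe]
      _ = x * w * (e * d) := by simp only [mul_assoc]
  rw [h2, h3] at h1
  exact mul_left_cancel (mul_right_cancel h1)

end Complement

/-- Let Q be an extraspecial 2-group of order 2^(2n+1) with n ≥ 3 that is of plus type (it contains an elementary abelian subgroup of order 2^(n+1)). Then the group of inner automorphisms of Q has no complement in the full automorphism group of Q: the extension of the inner automorphism group (elementary abelian of order 2^(2n)) by the outer automorphism group (the orthogonal group of plus type) does not split. -/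
theorem result {Q : Type*} [Group Q] [Finite Q] (n : ℕ) (hn : 3 ≤ n) (hQ : Cfsg.IsExtraspecial 2 Q) (hcard : Nat.card Q = 2 ^ (2 * n + 1)) (hplus : ∃ E : Subgroup Q, Cfsg.IsElementaryAbelian 2 E ∧ Nat.card ↥E = 2 ^ (n + 1)) (L : Subgroup (MulAut Q)) : ¬ (Cfsg.Inn Q).IsComplement' L := by
  intro hL
  haveI : Fact (Nat.Prime 2) := ⟨Nat.prime_two⟩
  have hG := ges_of_isExtraspecial hQ
  have hcard' : 2 ^ 7 ≤ Nat.card Q := by
    rw [hcard]
    exact Nat.pow_le_pow_right (by norm_num) (by omega)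
  obtain ⟨w₁, w₂, w₃, s₁, s₂, s₃, a1, a2, a3, c12, c13, c23, n11, c1'2, c1'3, c2'1, n22, c2'3,
    c3'1, c3'2, n33⟩ := exists_three hG hcard'
  set z : Q := w₁ * w₁ with hz
  have hzc : z ∈ Subgroup.center Q := by
    have := hG.pow_mem_center w₁
    rwa [pow_two] at this
  have hz1 : z ≠ 1 := by rw [hz, ← pow_two]; exact a1
  have hsq : ∀ {w : Q}, w ^ 2 ≠ 1 → w * w = z := by
    intro w hw
    rw [← pow_two]
    exact hG.eq_of_center_two (hG.pow_mem_center w) hw hzc hz1
  have hzcomm : ∀ x : Q, z * x = x * z := fun x => (Subgroup.mem_center_iff.mp hzc x).symm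
  have h : CData z := by
    refine ⟨hz1, ?_, hzcomm, ?_⟩
    · rw [← pow_two]; exact hG.center_pow hzc
    · intro x y hxy
      have h1 : ⁅x, y⁆ ≠ 1 := fun hh => hxy (commutatorElement_eq_one_iff_mul_comm.mp hh)
      have h2 : ⁅x, y⁆ = z := hG.eq_of_center_two (hG.classTwo.mem x y) h1 hzc hz1
      rw [mul_comm_eq_commutator x y, h2, hzcomm]
  have hw1 := hsq a1
  have hw2 := hsq a2
  have hw3 := hsq a3
  set v : Q := w₁ * w₂ * w₃ with hvdef
  have hv : v * v = z := by
    have e1 : Commute (w₁ * w₂) w₃ := c13.mul_left c23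
    have e2 : v * v = (w₁ * w₁) * (w₂ * w₂) * (w₃ * w₃) := by
      rw [hvdef, ← e1.mul_mul_mul_comm, c12.mul_mul_mul_comm]
    rw [e2, hw2, hw3, ← hz, h.sq, one_mul]
  have v1 : Commute v w₁ := ((Commute.refl w₁).mul_left c12.symm).mul_left c13.symm
  have v2 : Commute v w₂ := (c12.mul_left (Commute.refl w₂)).mul_left c23.symm
  have v3 : Commute v w₃ := (c13.mul_left c23).mul_left (Commute.refl w₃)
  -- the auxiliary elements
  have key : ∀ {a b v : Q}, ¬ Commute a v → ¬ Commute b v → Commute (a * b) v :=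
    fun ha hb => h.commute_mul ha hb
  have notv : ∀ {s a b : Q}, ¬ Commute s a → Commute s b → ¬ Commute s (a * b) := by
    intro s a b h1 h2 h3
    apply h1
    have := h3.mul_right h2.inv_right
    rwa [mul_inv_cancel_right] at this
  have notv' : ∀ {s a b : Q}, Commute s a → ¬ Commute s b → ¬ Commute s (a * b) := by
    intro s a b h1 h2 h3
    apply h2
    have := h1.inv_right.mul_right h3
    rwa [inv_mul_cancel_left] at this
  have m1 : ¬ Commute s₁ v := notv (notv n11 c1'2) c1'3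
  have m2 : ¬ Commute s₂ v := notv (notv' c2'1 n22) c2'3
  have m3 : ¬ Commute s₃ v := notv' (c3'1.mul_right c3'2) n33
  have p12 : Commute (s₁ * s₂) v := key m1 m2
  have p23 : Commute (s₂ * s₃) v := key m2 m3
  have q1 : ¬ Commute (s₁ * s₂) w₁ := by
    intro hh; exact notv' c2'1.symm (fun h => n11 h.symm) (by
      have := hh.symm
      exact absurd (this.mul_right c2'1.symm.inv_right) (by
        rw [mul_inv_cancel_right]; exact fun h => n11 h.symm))
  have q2 : ¬ Commute (s₁ * s₂) w₂ := by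
    intro hh
    exact notv' c1'2.symm (fun h => n22 h.symm) hh.symm
  have q3 : ¬ Commute (s₂ * s₃) w₃ := by
    intro hh
    exact notv' c2'3.symm (fun h => n33 h.symm) hh.symm
  obtain ⟨T, hT, hT2⟩ := exists_Lift h hL hv
  have t1 := lift_other h hL hv hw1 v1 p12 q1 hT
  have t2 := lift_other h hL hv hw2 v2 p12 q2 hT
  have t3 := lift_other h hL hv hw3 v3 p23 q3 hT
  have t := lift_self h m1 hT hT2
  have t' : T v = v := by
    rw [hvdef, map_mul, map_mul, t1, t2, t3]
  rw [t', hv] at t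
  exact hz1 t

end Cfsg.Agent.S3085
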