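import Cfsg.Statements.S3117
import Cfsg.Agent.H35.ThreeInv
import Cfsg.Agent.Fus.Crit
import Cfsg.Agent.S0144

set_option autoImplicit false
set_option linter.style.haveILetI false
open Cfsg

namespace Cfsg.Agent.S3117

open H35.ThreeInv

/-- restriction of automorphisms to an invariant subgroup -/
def res {X : Type*} [Group X] (D : Subgroup X) (h : ∀ (a : MulAut X) (x : X), x ∈ D → a x ∈ D) :
    MulAut X →* MulAut D where
  toFun a :=
    { toFun := fun x => ⟨a x, h a x x.2⟩
      invFun := fun x => ⟨a⁻¹ x, h a⁻¹ x x.2⟩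
      left_inv := fun x => Subtype.ext (by simp)
      right_inv := fun x => Subtype.ext (by simp)
      map_mul' := fun x y => Subtype.ext (by simp) }
  map_one' := by ext x; rfl
  map_mul' := fun a b => by ext x; rfl

theorem res_apply {X : Type*} [Group X] (D : Subgroup X) (h : ∀ (a : MulAut X) (x : X), x ∈ D → a x ∈ D)
    (a : MulAut X) (x : D) : ((res D h a x : D) : X) = a x := rfl

theorem exists_V {X : Type*} [Group X] [Finite X] (h2 : IsPGroup 2 X)
    (h3 : Nat.card {x : X // orderOf x = 2} = 3) :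
    ∃ V : Subgroup X, (∀ x, x ∈ V ↔ x ^ 2 = 1) ∧ Nat.card V = 4 ∧ (∀ x ∈ V, ∀ y ∈ V, x * y = y * x) := by
  classical
  haveI : Fact (Nat.Prime 2) := ⟨Nat.prime_two⟩
  have hnt : Nontrivial X := by
    haveI : Nonempty {x : X // orderOf x = 2} := (Nat.card_pos_iff.1 (by rw [h3]; norm_num)).1
    obtain ⟨x, hx⟩ := Classical.arbitrary {x : X // orderOf x = 2}
    refine ⟨x, 1, ?_⟩
    rintro rfl
    rw [orderOf_one] at hx
    omega
  haveI := h2.center_nontrivial
  obtain ⟨z, hz⟩ : ∃ z : Subgroup.center X, orderOf z = 2 := by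
    obtain ⟨n, hn⟩ := (h2.to_subgroup (Subgroup.center X)).exists_card_eq
    have hn0 : n ≠ 0 := by
      rintro rfl
      rw [pow_zero] at hn
      have := (Nat.card_eq_one_iff_unique.1 hn).1
      exact not_subsingleton _ this
    exact exists_prime_orderOf_dvd_card' 2 (by rw [hn]; exact dvd_pow_self 2 hn0)
  have hz2 : orderOf (z : X) = 2 := by rw [Subgroup.orderOf_coe, hz]
  have hzc : ∀ x : X, x * z = z * x := fun x => (Subgroup.mem_center_iff.1 z.2 x)
  have key : ∀ x : X, orderOf x = 2 ↔ x ^ 2 = 1 ∧ x ≠ 1 := fun x => orderOf_eq_prime_iff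
  have hz' := (key z).1 hz2
  have hcomm : ∀ a b : X, a ^ 2 = 1 → b ^ 2 = 1 → a * b = b * a := by
    intro a b ha hb
    by_contra hab
    have ha1 : a ≠ 1 := by rintro rfl; simp at hab
    have hb1 : b ≠ 1 := by rintro rfl; simp at hab
    have haz : a ≠ z := by rintro rfl; exact hab (hzc b).symm
    have hbz : b ≠ z := by rintro rfl; exact hab (hzc a)
    have hab' : a ≠ b := by rintro rfl; exact hab rfl
    have habz : a ≠ b * z := by
      rintro rfl
      apply hab
      rw [mul_assoc, hzc b]
    have h4 : (b * z) ^ 2 = 1 := by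
      rw [pow_two] at *
      calc b * z * (b * z) = b * (z * b) * z := by group
        _ = b * (b * z) * z := by rw [hzc b]
        _ = (b * b) * (z * z) := by group
        _ = 1 := by rw [hb, hz'.1, one_mul]
    have h5 : b * z ≠ 1 := by
      intro h
      apply hbz
      rw [pow_two] at hz'
      calc b = b * (z * z) := by rw [hz'.1, mul_one]
        _ = (b * z) * z := by group
        _ = z := by rw [h, one_mul]
    have h6 : b * z ≠ z := fun h => hb1 (mul_eq_right.1 h)
    have h7 : b * z ≠ b := fun h => hz'.2 (mul_eq_left.1 h)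
    let s : Finset {x : X // orderOf x = 2} := {⟨z, hz2⟩, ⟨a, (key a).2 ⟨ha, ha1⟩⟩, ⟨b, (key b).2 ⟨hb, hb1⟩⟩,
      ⟨b * z, (key _).2 ⟨h4, h5⟩⟩}
    haveI : Fintype {x : X // orderOf x = 2} := Fintype.ofFinite _
    have h8 : s.card = 4 := by
      rw [Finset.card_insert_of_notMem, Finset.card_insert_of_notMem, Finset.card_insert_of_notMem,
        Finset.card_singleton]
      · simp only [Finset.mem_singleton, Subtype.mk.injEq]; exact h7.symm
      · simp only [Finset.mem_insert, Finset.mem_singleton, Subtype.mk.injEq, not_or]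
        exact ⟨hab', habz⟩
      · simp only [Finset.mem_insert, Finset.mem_singleton, Subtype.mk.injEq, not_or]
        exact ⟨haz.symm, hbz.symm, h6.symm⟩
    have h9 := Finset.card_le_univ s
    rw [h8, ← Nat.card_eq_fintype_card, h3] at h9
    omega
  let V : Subgroup X :=
    { carrier := {x | x ^ 2 = 1}
      one_mem' := one_pow 2
      mul_mem' := by
        intro a b ha hb
        show (a * b) ^ 2 = 1
        rw [(show Commute a b from hcomm a b ha hb).mul_pow, show a ^ 2 = 1 from ha, show b ^ 2 = 1 from hb, one_mul]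
      inv_mem' := by
        intro a ha
        show a⁻¹ ^ 2 = 1
        rw [inv_pow, show a ^ 2 = 1 from ha, inv_one] }
  have hV : ∀ x, x ∈ V ↔ x ^ 2 = 1 := fun x => Iff.rfl
  refine ⟨V, hV, ?_, fun x hx y hy => hcomm x y hx hy⟩
  haveI : Fintype {x : X // orderOf x = 2} := Fintype.ofFinite _
  haveI : Fintype X := Fintype.ofFinite _
  haveI : Fintype V := Fintype.ofFinite _
  have h4 : Nat.card V = Nat.card (Option {x : X // orderOf x = 2}) := by
    apply Nat.card_congr
    exact
      { toFun := fun x => if h : (x : X) = 1 then none else some ⟨x, (key _).2 ⟨x.2, h⟩⟩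
        invFun := fun o => o.elim 1 (fun x => ⟨x, ((key _).1 x.2).1⟩)
        left_inv := by
          intro x
          by_cases h : (x : X) = 1
          · simp only [h, dite_true, Option.elim_none]
            exact (Subtype.ext h).symm
          · simp [h]
        right_inv := by
          intro o
          cases o with
          | none => simp
          | some x =>
            exact dif_neg ((key _).1 x.2).2 }
  rw [h4, Nat.card_eq_fintype_card, Fintype.card_option, ← Nat.card_eq_fintype_card, h3]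

theorem card_form {n q : ℕ} (hn : n ≠ 0) (h : ∀ p : ℕ, p.Prime → p ∣ n → p = 2 ∨ p = q) (hq : q ≠ 1) :
    ∃ a b, n = 2 ^ a * q ^ b := by
  obtain ⟨a, m, hm, rfl⟩ := Nat.exists_eq_pow_mul_and_not_dvd hn 2 (by norm_num)
  have hm0 : m ≠ 0 := by rintro rfl; exact hn (mul_zero _)
  obtain ⟨b, l, hl, rfl⟩ := Nat.exists_eq_pow_mul_and_not_dvd hm0 q hq
  refine ⟨a, b, ?_⟩
  have hl1 : l = 1 := by
    by_contra hc
    obtain ⟨p, hp, hpl⟩ := Nat.exists_prime_and_dvd hc
    rcases h p hp ((hpl.mul_left _).mul_left _) with rfl | rfl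
    · exact hm (hpl.mul_left _)
    · exact hl hpl
  rw [hl1, mul_one]

theorem result {X : Type*} [Group X] [Finite X] (h2 : IsPGroup 2 X) (h3 : Nat.card {x : X // orderOf x = 2} = 3) : Group.IsSolvable (MulAut X) := by
  classical
  haveI : Fact (Nat.Prime 2) := ⟨Nat.prime_two⟩
  haveI : Fact (Nat.Prime 3) := ⟨Nat.prime_three⟩
  haveI : Fact (Nat.Prime 5) := ⟨Nat.prime_five⟩
  obtain ⟨V, hV, hV4, hVc⟩ := exists_V h2 h3
  haveI : IsKleinFour V := by
    refine ⟨hV4, ?_⟩
    apply Nat.dvd_antisymm
    · apply Monoid.exponent_dvd_of_forall_pow_eq_one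
      intro x
      exact Subtype.ext ((hV x).1 x.2)
    · by_contra hc
      have h5 : Monoid.exponent V ∣ 2 := by
        apply Monoid.exponent_dvd_of_forall_pow_eq_one
        intro x
        exact Subtype.ext ((hV x).1 x.2)
      rcases (Nat.dvd_prime Nat.prime_two).1 h5 with h6 | h6
      · have := Monoid.exp_eq_one_iff.1 h6
        have h7 : Nat.card V = 1 := Nat.card_eq_one_iff_unique.2 ⟨this, ⟨1⟩⟩
        omega
      · exact hc (by rw [h6])
  obtain ⟨e⟩ : Nonempty (V ≃* Multiplicative (ZMod 2 × ZMod 2)) := IsKleinFour.nonempty_mulEquiv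
  obtain ⟨C, hCc, hC4, hCf⟩ := Fus.exists_critical_two h2
  have hVi : ∀ (a : MulAut X) (x : X), x ∈ V → a x ∈ V := by
    intro a x hx
    rw [hV] at hx ⊢
    rw [← map_pow, hx, map_one]
  have hCi : ∀ (a : MulAut X) (x : X), x ∈ C → a x ∈ C := fun a x hx =>
    Subgroup.characteristic_iff_map_le.1 hCc a ⟨x, hx, rfl⟩
  set D : Subgroup X := C ⊓ Subgroup.centralizer (V : Set X) with hD
  have hDV : ∀ x ∈ D, ∀ v ∈ V, v * x = x * v := fun x hx v hv => Subgroup.mem_centralizer_iff.1 hx.2 v hv
  have hDi : ∀ (a : MulAut X) (x : X), x ∈ D → a x ∈ D := by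
    intro a x hx
    refine ⟨hCi a x hx.1, ?_⟩
    apply Subgroup.mem_centralizer_iff.2
    intro v hv
    have h4 := hDV x hx (a⁻¹ v) (hVi a⁻¹ v hv)
    have h5 := congrArg a h4
    rw [map_mul, map_mul] at h5
    simpa using h5
  have hsq : ∀ x ∈ D, x ^ 2 ∈ V := by
    intro x hx
    rw [hV, ← pow_mul]
    exact hC4 x hx.1
  have hcm : ∀ x ∈ D, ∀ u ∈ D, x⁻¹ * u * x * u⁻¹ ∈ V := by
    intro x hx u hu
    have h4 : x⁻¹ * u * x * u⁻¹ = (x⁻¹ * u) ^ 2 * (u ^ 2)⁻¹ * x ^ 2 := by
      have h5 := hDV u hu (x ^ 2) (hsq x hx)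
      have h6 : x ^ 2 = u * x ^ 2 * u⁻¹ := by rw [← h5, mul_inv_cancel_right]
      calc x⁻¹ * u * x * u⁻¹ = (x⁻¹ * u) ^ 2 * (u ^ 2)⁻¹ * (u * x ^ 2 * u⁻¹) := by simp only [pow_two]; group
        _ = _ := by rw [← h6]
    rw [h4]
    exact V.mul_mem (V.mul_mem (hsq _ (D.mul_mem (D.inv_mem hx) hu)) (V.inv_mem (hsq u hu))) (hsq x hx)
  haveI : Fintype D := Fintype.ofFinite D
  set Q : D → ZMod 2 × ZMod 2 := fun x => (e ⟨(x : X) ^ 2, hsq x x.2⟩).toAdd with hQ
  set Z : Subgroup D := V.subgroupOf D with hZ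
  have hdat : Dat D Z Q := by
    refine ⟨⟨fun x u => (e ⟨(x : X)⁻¹ * u * x * (u : X)⁻¹, hcm x x.2 u u.2⟩).toAdd, ?_, ?_, ?_, ?_⟩, ?_⟩
    · intro x u
      rw [hQ]
      simp only
      rw [← toAdd_mul, ← toAdd_mul, ← map_mul, ← map_mul]
      congr 2
      apply Subtype.ext
      show ((x : X) * u) ^ 2 = (x : X) ^ 2 * (u : X) ^ 2 * ((x : X)⁻¹ * u * x * (u : X)⁻¹)
      have h4 := hDV (u : X) u.2 _ (hcm x x.2 u u.2)
      have h5 := hDV ((u : X) ^ 2) (D.pow_mem u.2 2) _ (hcm x x.2 u u.2)
      rw [mul_assoc, ← h5]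
      simp only [pow_two]
      group
    · intro x y u
      simp only
      rw [← toAdd_mul, ← map_mul]
      congr 2
      apply Subtype.ext
      show ((x : X) * y)⁻¹ * u * (x * y) * (u : X)⁻¹ = ((x : X)⁻¹ * u * x * (u : X)⁻¹) * ((y : X)⁻¹ * u * y * (u : X)⁻¹)
      have h4 := hDV (y⁻¹ : X) (D.inv_mem y.2) _ (hcm x x.2 u u.2)
      calc ((x : X) * y)⁻¹ * u * (x * y) * (u : X)⁻¹ = ((y : X)⁻¹ * ((x : X)⁻¹ * u * x * (u : X)⁻¹)) * u * y * (u : X)⁻¹ := by group
        _ = _ := by rw [← h4]; group
    · intro x u v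
      simp only
      rw [← toAdd_mul, ← map_mul]
      congr 2
      apply Subtype.ext
      show (x : X)⁻¹ * ((u : X) * v) * x * ((u : X) * v)⁻¹ = ((x : X)⁻¹ * u * x * (u : X)⁻¹) * ((x : X)⁻¹ * v * x * (v : X)⁻¹)
      have h4 := hDV (u⁻¹ : X) (D.inv_mem u.2) _ (hcm x x.2 v v.2)
      calc (x : X)⁻¹ * ((u : X) * v) * x * ((u : X) * v)⁻¹ = ((x : X)⁻¹ * u * x) * (((x : X)⁻¹ * v * x * (v : X)⁻¹) * (u : X)⁻¹) := by group
        _ = _ := by rw [h4]; group
    · intro x z hz
      have hz' : (z : X) ∈ V := Subgroup.mem_subgroupOf.1 hz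
      have h4 : (⟨(x : X)⁻¹ * z * x * (z : X)⁻¹, hcm x x.2 z z.2⟩ : V) = 1 := by
        apply Subtype.ext
        show (x : X)⁻¹ * z * x * (z : X)⁻¹ = 1
        rw [mul_assoc (x : X)⁻¹, hDV x x.2 z hz']
        group
      simp only [h4, map_one, toAdd_one]
    · intro x
      rw [hZ, Subgroup.mem_subgroupOf, hV, hQ]
      simp only [toAdd_eq_zero, EmbeddingLike.map_eq_one_iff]
      constructor
      · intro h; exact congrArg Subtype.val h
      · intro h; exact Subtype.ext h
  -- orders
  obtain ⟨d, hd⟩ := (h2.to_subgroup D).exists_card_eq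
  obtain ⟨s, hs⟩ := ((h2.to_subgroup D).to_subgroup Z).exists_card_eq
  have hZV : Nat.card Z ∣ 4 := by
    rw [← hV4, hZ]
    exact Subgroup.card_dvd_of_injective ((Subgroup.subtype D).subgroupMap (V.subgroupOf D) |> fun f =>
      ((Subgroup.inclusion (show (V.subgroupOf D).map D.subtype ≤ V from by
        rw [Subgroup.subgroupOf_map_subtype]; exact inf_le_left)).comp f)) (by
        intro a b hab
        have := congrArg Subtype.val hab
        exact Subtype.ext (Subtype.ext this))
  have hs2 : s ≤ 2 := by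
    rw [hs, show 4 = 2 ^ 2 from rfl] at hZV
    exact (Nat.pow_dvd_pow_iff_le_right (le_refl 2)).1 hZV
  have hw : s ≤ 1 → ∃ w, ∀ x, Q x = 0 ∨ Q x = w := by
    intro hs1
    by_cases h4 : ∃ x, Q x ≠ 0
    · obtain ⟨x, hx⟩ := h4
      refine ⟨Q x, fun y => ?_⟩
      by_contra hc
      push Not at hc
      have h5 : Z.carrier.ncard ≤ 2 := by
        have : Z.carrier.ncard = Nat.card Z := rfl
        rw [this, hs]
        calc 2 ^ s ≤ 2 ^ 1 := Nat.pow_le_pow_right (by norm_num) hs1
          _ = 2 := rfl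
      have hmem : ∀ y : D, y ^ 2 ∈ Z := by
        intro y
        rw [hZ, Subgroup.mem_subgroupOf]
        exact hsq y y.2
      have hne : ∀ a b : D, Q a ≠ Q b → a ^ 2 ≠ b ^ 2 := by
        intro a b hab h
        apply hab
        rw [hQ]
        simp only
        congr 2
        exact Subtype.ext (show (a : X) ^ 2 = (b : X) ^ 2 from congrArg Subtype.val h)
      have hQ1 : Q 1 = 0 := (hdat.hZ 1).2 (one_mem _)
      have h6 : ({1, x ^ 2, y ^ 2} : Finset D).card = 3 := by
        rw [Finset.card_insert_of_notMem, Finset.card_insert_of_notMem, Finset.card_singleton]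
        · rw [Finset.mem_singleton]
          exact hne x y (Ne.symm hc.2)
        · rw [Finset.mem_insert, Finset.mem_singleton, not_or]
          constructor
          · have := hne 1 x (by rw [hQ1]; exact Ne.symm hx)
            rwa [one_pow] at this
          · have := hne 1 y (by rw [hQ1]; exact Ne.symm hc.1)
            rwa [one_pow] at this
      have h7 : (↑({1, x ^ 2, y ^ 2} : Finset D) : Set D) ⊆ Z.carrier := by
        intro a ha
        simp only [Finset.coe_insert, Finset.coe_singleton, Set.mem_insert_iff, Set.mem_singleton_iff] at ha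
        rcases ha with rfl | rfl | rfl
        · exact Z.one_mem
        · exact hmem x
        · exact hmem y
      have h8 := Set.ncard_le_ncard h7 (Set.toFinite _)
      rw [Set.ncard_coe_finset, h6] at h8
      omega
    · push Not at h4
      exact ⟨0, fun x => Or.inl (h4 x)⟩
  -- elements of odd prime order in the kernel
  have hmain : ∀ (p : ℕ) (_ : Fact p.Prime), p ≠ 2 → p ∣ Nat.card (res V hVi).ker →
      (p = 3 ∨ (p = 5 ∧ d = 6 ∧ s = 2 ∧ fib Q (1,0) = 20 ∧ fib Q (0,1) = 20 ∧ fib Q (1,1) = 20)) ∧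
      (p = 3 → d = 6 → s = 2 → fib Q (1,0) = 20 → fib Q (0,1) = 20 → fib Q (1,1) = 20 → False) := by
    intro p hp hp2 hdvd
    obtain ⟨g, hg⟩ := exists_prime_orderOf_dvd_card' p hdvd
    have hgo : orderOf (g : MulAut X) = p := by rw [Subgroup.orderOf_coe, hg]
    have hgV : ∀ v ∈ V, (g : MulAut X) v = v := by
      intro v hv
      have := DFunLike.congr_fun (MonoidHom.mem_ker.1 g.2) ⟨v, hv⟩
      exact congrArg Subtype.val this
    have hcop : (orderOf (g : MulAut X)).Coprime 2 := by
      rw [hgo]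
      exact (Nat.coprime_primes hp.out Nat.prime_two).2 hp2
    refine main hdat hd hs hs2 hw hp2 (res D hDi g) ?_ ?_ ?_ ?_
    · rw [← map_pow, ← hgo, pow_orderOf_eq_one, map_one]
    · intro h
      have hfix : ∀ x ∈ D, (g : MulAut X) x = x := by
        intro x hx
        exact congrArg Subtype.val (DFunLike.congr_fun h ⟨x, hx⟩)
      have h4 : (g : MulAut X) = 1 := by
        apply hCf _ hcop
        intro x hx
        apply Fus.fix_of_coprime h2 _ hcop
        apply hfix
        refine ⟨C.mul_mem (C.inv_mem hx) (hCi _ x hx), ?_⟩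
        apply Subgroup.mem_centralizer_iff.2
        intro v hv
        -- x v x⁻¹ ∈ V
        have h5 : x * v * x⁻¹ ∈ V := by
          have hv' := (hV v).1 hv
          rw [hV, conj_pow, hv', mul_one, mul_inv_cancel]
        have h6 := hgV _ h5
        rw [map_mul, map_mul, map_inv, hgV v hv] at h6
        -- a x * v * (a x)⁻¹ = x * v * x⁻¹
        calc v * (x⁻¹ * (g : MulAut X) x) = x⁻¹ * (x * v * x⁻¹) * (g : MulAut X) x := by group
          _ = x⁻¹ * ((g : MulAut X) x * v * ((g : MulAut X) x)⁻¹) * (g : MulAut X) x := by rw [h6]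
          _ = x⁻¹ * (g : MulAut X) x * v := by group
      rw [h4, orderOf_one] at hgo
      exact hp.out.ne_one hgo.symm
    · intro x
      rw [hQ]
      simp only
      congr 2
      apply Subtype.ext
      show ((g : MulAut X) x) ^ 2 = (x : X) ^ 2
      rw [← map_pow]
      exact hgV _ (hsq x x.2)
    · intro z hz
      apply Subtype.ext
      exact hgV _ (Subgroup.mem_subgroupOf.1 hz)
  have hK : Group.IsSolvable (res V hVi).ker := by
    have hne : Nat.card (res V hVi).ker ≠ 0 := Nat.card_pos.ne'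
    by_cases h5 : 5 ∣ Nat.card (res V hVi).ker
    · have h6 := hmain 5 inferInstance (by norm_num) h5
      rcases h6.1 with h7 | ⟨-, c1, c2, c3, c4, c5⟩
      · omega
      · obtain ⟨a, b, hab⟩ := card_form (q := 5) hne (by
          intro p hp hpd
          by_cases hp2 : p = 2
          · exact Or.inl hp2
          · right
            haveI := Fact.mk hp
            have h8 := hmain p inferInstance hp2 hpd
            rcases h8.1 with h9 | h9
            · exact (h8.2 h9 c1 c2 c3 c4 c5).elim
            · exact h9.1) (by norm_num)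
        exact S0144.result 2 5 a b (by norm_num) (by norm_num) hab
    · obtain ⟨a, b, hab⟩ := card_form (q := 3) hne (by
          intro p hp hpd
          by_cases hp2 : p = 2
          · exact Or.inl hp2
          · right
            haveI := Fact.mk hp
            have h8 := hmain p inferInstance hp2 hpd
            rcases h8.1 with h9 | h9
            · exact h9
            · exact absurd (h9.1 ▸ hpd) h5) (by norm_num)
      exact S0144.result 2 3 a b (by norm_num) (by norm_num) hab
  haveI := hK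
  have hPV : Group.IsSolvable (Equiv.Perm V) := by
    apply S0144.result 2 3 3 1 (by norm_num) (by norm_num)
    rw [Nat.card_perm, hV4]
    rfl
  haveI := hPV
  haveI hMV : Group.IsSolvable (MulAut V) := 
    Group.isSolvable_of_isSolvable_injective (f := MulAut.toPerm V) (fun a b h => by
      ext x
      exact congrArg Subtype.val (DFunLike.congr_fun h x))
  exact Group.isSolvable_of_ker_le_range (res V hVi).ker.subtype (res V hVi) (by rw [Subgroup.range_subtype])

end Cfsg.Agent.S3117
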