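import Cfsg.Statements.S3356


set_option autoImplicit false
set_option linter.style.haveILetI false
open Cfsg

namespace Cfsg.Agent.S3356


section Half

variable {N : Type*} [Group N] [Finite N]

theorem ncard_dvd_of_orbits {A X : Type*} [Group A] [MulAction A X] (k : ℕ) (S : Set X)
    (hS : S.Finite) (hinv : ∀ b : A, ∀ x ∈ S, b • x ∈ S)
    (hk : ∀ x ∈ S, k ∣ Nat.card (MulAction.orbit A x)) : k ∣ S.ncard := by
  classical
  haveI : Finite S := hS
  let T : SubMulAction A X := ⟨S, fun b x hx => hinv b x hx⟩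
  haveI : Finite T := hS
  have h1 : Nat.card T = S.ncard := rfl
  rw [← h1, Nat.card_congr (MulAction.selfEquivSigmaOrbits A T)]
  haveI : Fintype (MulAction.orbitRel.Quotient A T) := Fintype.ofFinite _
  rw [Nat.card_sigma]
  refine Finset.dvd_sum fun ω _ => ?_
  have h2 : Nat.card (MulAction.orbit A (Quotient.out ω : T)) =
      Nat.card (MulAction.orbit A ((Quotient.out ω : T) : X)) := by
    have h3 : MulAction.orbit A ((Quotient.out ω : T) : X) =
        Subtype.val '' (MulAction.orbit A (Quotient.out ω : T)) := by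
      ext y
      constructor
      · rintro ⟨b, rfl⟩
        exact ⟨b • (Quotient.out ω : T), ⟨b, rfl⟩, rfl⟩
      · rintro ⟨_, ⟨b, rfl⟩, rfl⟩
        exact ⟨b, rfl⟩
    rw [h3]
    exact (Nat.card_image_of_injective Subtype.val_injective _).symm
  rw [h2]
  exact hk _ (Quotient.out ω : T).2

variable (B : Subgroup (MulAut N)) (k : ℕ)

theorem stab_index (x : N) :
    (MulAction.stabilizer B x).index = Nat.card (MulAction.orbit B x) := by
  rw [MulAction.index_stabilizer]
  rfl

include B in
theorem k_dvd (hk : ∀ x : N, x ≠ 1 → Nat.card (MulAction.orbit B x) = k) (M : Subgroup N)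
    (hM : ∀ b ∈ B, ∀ x ∈ M, b x ∈ M) : k ∣ Nat.card M - 1 := by
  have h := ncard_dvd_of_orbits (A := B) (X := N) k ((M : Set N) \ {1}) (Set.toFinite _)
    (fun b x hx => ⟨hM b b.2 x hx.1, fun h => hx.2 (by
      have h1 : (b : MulAut N) x = 1 := h
      exact (map_eq_one_iff _ (b : MulAut N).injective).1 h1)⟩)
    (fun x hx => by rw [hk x hx.2])
  rwa [Set.ncard_diff_singleton_of_mem M.one_mem] at h

theorem block_lemma (hk : ∀ x : N, x ≠ 1 → Nat.card (MulAction.orbit B x) = k)
    (X : Set N) (h1 : (1 : N) ∉ X) (hX : Nat.Coprime k X.ncard)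
    (hblock : ∀ b ∈ B, ∀ x ∈ X, b x ∈ X → ∀ y ∈ X, b y ∈ X) :
    ∀ x ∈ X, ∀ b ∈ B, b x = x → ∀ y ∈ X, b y = y := by
  classical
  intro x hx b hb hbx y hy
  let B' : Subgroup B :=
    { carrier := {c | ∀ z ∈ X, (c : MulAut N) z ∈ X}
      one_mem' := fun z hz => hz
      mul_mem' := fun {c d} hc hd z hz => hc _ (hd z hz)
      inv_mem' := by
        intro c hc z hz
        have hfin : X.Finite := Set.toFinite X
        have hsub : (c : MulAut N) '' X ⊆ X := by
          rintro _ ⟨w, hw, rfl⟩
          exact hc w hw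
        have heq : (c : MulAut N) '' X = X :=
          Set.eq_of_subset_of_ncard_le hsub (by
            rw [Set.ncard_image_of_injective _ (c : MulAut N).injective]) hfin
        rw [← heq] at hz
        obtain ⟨w, hw, rfl⟩ := hz
        have : ((c⁻¹ : B) : MulAut N) ((c : MulAut N) w) = w := by
          rw [Subgroup.coe_inv]
          exact MulAut.inv_apply_self N (c : MulAut N) w
        rw [this]
        exact hw }
  have hst : ∀ z ∈ X, MulAction.stabilizer B z ≤ B' := by
    intro z hz c hc w hw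
    have hcz : (c : MulAut N) z = z := hc
    exact hblock c c.2 z hz (by rw [hcz]; exact hz) w hw
  have hidx : ∀ z ∈ X, (MulAction.stabilizer B z).relIndex B' * B'.index = k := by
    intro z hz
    rw [Subgroup.relIndex_mul_index (hst z hz), stab_index, hk z (fun h => h1 (h ▸ hz))]
  have horb : ∀ z : N, Nat.card (MulAction.orbit B' z) = (MulAction.stabilizer B z).relIndex B' := by
    intro z
    have e1 : MulAction.stabilizer B' z = (MulAction.stabilizer B z).subgroupOf B' := by
      ext c
      rfl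
    rw [Subgroup.relIndex, ← e1, MulAction.index_stabilizer]
    rfl
  have hBi : B'.index ≠ 0 := Subgroup.index_ne_zero_of_finite
  have hdiv : (MulAction.stabilizer B x).relIndex B' ∣ X.ncard := by
    refine ncard_dvd_of_orbits (A := B') (X := N) _ X (Set.toFinite _)
      (fun c z hz => c.2 z hz) ?_
    intro z hz
    rw [horb z]
    have := hidx z hz
    have h2 := hidx x hx
    rw [Nat.eq_of_mul_eq_mul_right (Nat.pos_of_ne_zero hBi) (this.trans h2.symm)]
  have hdiv2 : (MulAction.stabilizer B x).relIndex B' ∣ k := ⟨_, (hidx x hx).symm⟩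
  have hone : (MulAction.stabilizer B x).relIndex B' = 1 :=
    Nat.eq_one_of_dvd_coprimes hX hdiv2 hdiv
  have hone' : (MulAction.stabilizer B y).relIndex B' = 1 := by
    rw [← hone]
    exact Nat.eq_of_mul_eq_mul_right (Nat.pos_of_ne_zero hBi) ((hidx y hy).trans (hidx x hx).symm)
  have hle : B' ≤ MulAction.stabilizer B y := Subgroup.relIndex_eq_one.1 hone'
  have hbB : (⟨b, hb⟩ : B) ∈ B' := hst x hx (show b x = x from hbx)
  exact hle hbB

theorem stab_le_symm (hk : ∀ x : N, x ≠ 1 → Nat.card (MulAction.orbit B x) = k)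
    (x y : N) (hx : x ≠ 1) (hy : y ≠ 1) (h : ∀ b ∈ B, b x = x → b y = y) :
    ∀ b ∈ B, b y = y → b x = x := by
  have hle : MulAction.stabilizer B x ≤ MulAction.stabilizer B y := fun c hc => h c c.2 hc
  have hi : (MulAction.stabilizer B x).index = (MulAction.stabilizer B y).index := by
    rw [stab_index, stab_index, hk x hx, hk y hy]
  have heq : MulAction.stabilizer B x = MulAction.stabilizer B y := by
    apply le_antisymm hle
    have h3 := Subgroup.relIndex_mul_index hle
    rw [hi] at h3
    have h4 : (MulAction.stabilizer B y).index ≠ 0 := Subgroup.index_ne_zero_of_finite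
    have h5 : (MulAction.stabilizer B x).relIndex (MulAction.stabilizer B y) = 1 :=
      Nat.eq_of_mul_eq_mul_right (Nat.pos_of_ne_zero h4) (h3.trans (one_mul _).symm)
    exact Subgroup.relIndex_eq_one.1 h5
  intro b hb hby
  have : (⟨b, hb⟩ : B) ∈ MulAction.stabilizer B y := hby
  rw [← heq] at this
  exact this

/-- all stabilizers equal is impossible -/
theorem not_all_equal (x₀ : N) (b₀ : MulAut N) (hb₀ : b₀ ∈ B) (hb₀1 : b₀ ≠ 1) (hfix : b₀ x₀ = x₀)
    (h : ∀ y : N, y ≠ 1 → ∀ b ∈ B, b x₀ = x₀ → b y = y) : False := by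
  apply hb₀1
  ext y
  by_cases hy : y = 1
  · subst hy
    simp
  · exact h y hy b₀ hb₀ hfix

theorem inv_sub (hk : ∀ x : N, x ≠ 1 → Nat.card (MulAction.orbit B x) = k)
    (x₀ : N) (hx₀ : x₀ ≠ 1) (b₀ : MulAut N) (hb₀ : b₀ ∈ B) (hb₀1 : b₀ ≠ 1) (hfix : b₀ x₀ = x₀)
    (M : Subgroup N) (hM : ∀ b ∈ B, ∀ x ∈ M, b x ∈ M) (hbot : M ≠ ⊥) : M = ⊤ := by
  by_contra htop
  have hMpos : 0 < Nat.card M := Nat.card_pos
  have hcop : Nat.Coprime k (Nat.card M) := by
    have h1 := k_dvd B k hk M hM
    have h2 : Nat.Coprime (Nat.card M - 1) (Nat.card M) := by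
      have : Nat.card M = (Nat.card M - 1) + 1 := by omega
      rw [this]
      simp
    exact Nat.Coprime.coprime_dvd_left h1 h2
  -- for x ∉ M, stabilizer of x fixes M pointwise
  have key : ∀ x : N, x ∉ M → ∀ b ∈ B, b x = x → ∀ m ∈ M, b m = m := by
    intro x hx b hb hbx m hm
    have hcard : Set.ncard ((fun y => x * y) '' (M : Set N)) = Nat.card M := by
      rw [Set.ncard_image_of_injective _ (mul_right_injective x)]
      rfl
    have h1 := block_lemma B k hk ((fun y => x * y) '' (M : Set N))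
      (by
        rintro ⟨y, hy, h⟩
        apply hx
        have : x = y⁻¹ := eq_inv_of_mul_eq_one_left h
        rw [this]
        exact M.inv_mem hy)
      (by rw [hcard]; exact hcop)
      (by
        rintro c hc _ ⟨y, hy, rfl⟩ ⟨z, hz, hz'⟩ _ ⟨w, hw, rfl⟩
        simp only [map_mul] at hz' ⊢
        refine ⟨z * (c y)⁻¹ * c w, M.mul_mem (M.mul_mem hz (M.inv_mem (hM c hc y hy))) (hM c hc w hw), ?_⟩
        simp only
        have : x * z * (c y)⁻¹ = c x := by
          rw [hz']
          group
        calc x * (z * (c y)⁻¹ * c w) = (x * z * (c y)⁻¹) * c w := by group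
          _ = c x * c w := by rw [this])
      (x * 1) ⟨1, M.one_mem, rfl⟩ b hb (by rw [mul_one]; exact hbx) (x * m) ⟨m, hm, rfl⟩
    rw [map_mul, hbx] at h1
    exact mul_left_cancel h1
  obtain ⟨m', hm'⟩ := (Subgroup.ne_bot_iff_exists_ne_one).1 hbot
  obtain ⟨m, hm, hm1⟩ : ∃ m : N, m ∈ M ∧ m ≠ 1 := ⟨m', m'.2, fun h => hm' (Subtype.ext h)⟩
  obtain ⟨x, hx⟩ : ∃ x : N, x ∉ M := by
    by_contra hcon
    push Not at hcon
    exact htop (eq_top_iff.2 fun y _ => hcon y)
  have hne : ∀ y, y ∉ M → y ≠ 1 := fun y hy h => hy (h ▸ M.one_mem)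
  -- stabilizer of m = stabilizer of every y
  have hall : ∀ y : N, y ≠ 1 → ∀ b ∈ B, b m = m → b y = y := by
    intro y hy b hb hbm
    have hbx : b x = x := stab_le_symm B k hk x m (hne x hx) hm1 (fun c hc hcx => key x hx c hc hcx m hm) b hb hbm
    by_cases hyM : y ∈ M
    · exact key x hx b hb hbx y hyM
    · exact stab_le_symm B k hk y m hy hm1 (fun c hc hcx => key y hyM c hc hcx m hm) b hb hbm
  have hall' : ∀ b ∈ B, b x₀ = x₀ → b m = m :=
    stab_le_symm B k hk m x₀ hm1 hx₀ (fun b hb hbm => hall x₀ hx₀ b hb hbm)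
  exact not_all_equal B x₀ b₀ hb₀ hb₀1 hfix (fun y hy b hb hbx => hall y hy b hb (hall' b hb hbx))

theorem comm_of (hk : ∀ x : N, x ≠ 1 → Nat.card (MulAction.orbit B x) = k)
    (x₀ : N) (hx₀ : x₀ ≠ 1) (b₀ : MulAut N) (hb₀ : b₀ ∈ B) (hb₀1 : b₀ ≠ 1) (hfix : b₀ x₀ = x₀)
    (x y : N) : x * y = y * x := by
  have hcopN : Nat.Coprime k (Nat.card N) := by
    have h1 := k_dvd B k hk ⊤ (fun _ _ _ _ => Subgroup.mem_top _)
    rw [Subgroup.card_top] at h1
    have hpos : 0 < Nat.card N := Nat.card_pos
    have h2 : Nat.Coprime (Nat.card N - 1) (Nat.card N) := by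
      have : Nat.card N = (Nat.card N - 1) + 1 := by omega
      rw [this]
      simp
    exact Nat.Coprime.coprime_dvd_left h1 h2
  -- stabilizer of x fixes all conjugates of x
  have hconj : ∀ x : N, x ≠ 1 → ∀ b ∈ B, b x = x → ∀ g : N, b (g * x * g⁻¹) = g * x * g⁻¹ := by
    intro x hx b hb hbx g
    have hcl : ∀ y, y ∈ conjugatesOf x ↔ ∃ g : N, y = g * x * g⁻¹ := by
      intro y
      change IsConj x y ↔ _
      rw [isConj_iff]
      exact ⟨fun ⟨c, hc⟩ => ⟨c, hc.symm⟩, fun ⟨c, hc⟩ => ⟨c, hc.symm⟩⟩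
    refine block_lemma B k hk (conjugatesOf x) ?_ ?_ ?_ x ((hcl x).2 ⟨1, by simp⟩) b hb hbx _ ((hcl _).2 ⟨g, rfl⟩)
    · intro h
      obtain ⟨g, hg⟩ := (hcl 1).1 h
      apply hx
      have : x = g⁻¹ * 1 * g := by rw [hg]; group
      simpa using this
    · refine Nat.Coprime.coprime_dvd_right ?_ hcopN
      have e1 : conjugatesOf x = MulAction.orbit (ConjAct N) x := by
        ext y
        rw [hcl]
        constructor
        · rintro ⟨g, rfl⟩
          exact ⟨ConjAct.toConjAct g, by simp [ConjAct.smul_def]⟩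
        · rintro ⟨g, rfl⟩
          exact ⟨ConjAct.ofConjAct g, by simp [ConjAct.smul_def]⟩
      have e2 : (conjugatesOf x).ncard = (MulAction.stabilizer (ConjAct N) x).index := by
        rw [MulAction.index_stabilizer, e1]
      rw [e2]
      have := Subgroup.index_dvd_card (MulAction.stabilizer (ConjAct N) x)
      exact this
    · intro c hc u hu hcu v hv
      rw [hcl] at hu hcu hv ⊢
      obtain ⟨g1, rfl⟩ := hu
      obtain ⟨g2, hg2⟩ := hcu
      obtain ⟨g3, rfl⟩ := hv
      refine ⟨c g3 * (c g1)⁻¹ * g2, ?_⟩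
      have h5 : c x = (c g1)⁻¹ * (g2 * x * g2⁻¹) * c g1 := by
        rw [← hg2, map_mul, map_mul, map_inv]
        group
      rw [map_mul, map_mul, map_inv, h5]
      group
  -- F x = elements fixed by stabilizer of x
  have hcomm_ne : ∀ x y : N, x ≠ 1 → y ≠ 1 → ¬ (∀ b ∈ B, b x = x → b y = y) → x * y = y * x := by
    intro x y hx hy hne
    by_contra hxy
    set z := x * y * x⁻¹ * y⁻¹ with hz
    have hz1 : z ≠ 1 := by
      intro h
      apply hxy
      have : x * y * x⁻¹ * y⁻¹ * (y * x) = y * x := by rw [← hz, h, one_mul]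
      rw [← this]
      group
    have hzx : ∀ b ∈ B, b x = x → b z = z := by
      intro b hb hbx
      have h1 := hconj x hx b hb hbx y
      have h2 : z = x * (y * x * y⁻¹)⁻¹ := by rw [hz]; group
      rw [h2, map_mul, map_inv, h1, hbx]
    have hzy : ∀ b ∈ B, b y = y → b z = z := by
      intro b hb hby
      have h1 := hconj y hy b hb hby x
      have h2 : z = (x * y * x⁻¹) * y⁻¹ := by rw [hz]
      rw [h2, map_mul, map_inv, h1, hby]
    apply hne
    intro b hb hbx
    exact stab_le_symm B k hk y z hy hz1 hzy b hb (hzx b hb hbx)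
  by_cases hx : x = 1
  · subst hx; simp
  by_cases hy : y = 1
  · subst hy; simp
  by_cases hxy : ∀ b ∈ B, b x = x → b y = y
  · -- there is w with different stabilizer
    obtain ⟨w, hw1, hw⟩ : ∃ w : N, w ≠ 1 ∧ ¬ (∀ b ∈ B, b x = x → b w = w) := by
      by_contra hcon
      push Not at hcon
      have h6 : ∀ b ∈ B, b x₀ = x₀ → b x = x :=
        stab_le_symm B k hk x x₀ hx hx₀ (fun b hb hbx => hcon x₀ hx₀ b hb hbx)
      exact not_all_equal B x₀ b₀ hb₀ hb₀1 hfix (fun v hv b hb hbx => hcon v hv b hb (h6 b hb hbx))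
    have hyx : ∀ b ∈ B, b y = y → b x = x := stab_le_symm B k hk x y hx hy hxy
    have hyw : y * w = w * y := hcomm_ne y w hy hw1 (fun h => hw fun b hb hbx => h b hb (hxy b hb hbx))
    have hxw1 : x * w ≠ 1 := by
      intro h
      apply hw
      intro b hb hbx
      have : w = x⁻¹ := eq_inv_of_mul_eq_one_right h
      rw [this, map_inv, hbx]
    have hyxw : y * (x * w) = (x * w) * y := by
      refine hcomm_ne y (x * w) hy hxw1 ?_
      intro h
      apply hw
      intro b hb hbx
      have h7 := h b hb (hxy b hb hbx)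
      rw [map_mul, hbx] at h7
      exact mul_left_cancel h7
    have h8 : y * x * w = x * y * w := by
      calc y * x * w = y * (x * w) := by group
        _ = x * w * y := hyxw
        _ = x * (y * w) := by rw [hyw]; group
        _ = x * y * w := by group
    exact (mul_right_cancel h8).symm
  · exact hcomm_ne x y hx hy hxy

end Half

/-- Let G be a finite 3/2-transitive permutation group: G acts faithfully and transitively on a finite set, the point stabilizers are non-trivial, and for each point a all orbits of G_a on the remaining points have the same size. Suppose G has a regular normal subgroup N and G is not a Frobenius group (some two-point stabilizer is non-trivial). Then N is an elementary abelian p-group for some prime p, and every non-trivial normal subgroup of G contains N (so N is the unique minimal normal subgroup). -/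
theorem result {G Ω : Type*} [Group G] [Finite G]
    [MulAction G Ω] [FaithfulSMul G Ω] [Finite Ω] (htrans : MulAction.IsPretransitive G Ω)
    (hne : ∀ a : Ω, MulAction.stabilizer G a ≠ ⊥)
    (hhalf : ∀ a b c : Ω, b ≠ a → c ≠ a →
      Nat.card (MulAction.orbit (MulAction.stabilizer G a) b) = Nat.card (MulAction.orbit (MulAction.stabilizer G a) c))
    (N : Subgroup G) [hN : N.Normal] (hNt : MulAction.IsPretransitive N Ω) (hNr : ∀ a : Ω, MulAction.stabilizer N a = ⊥)
    (hnotF : ∃ a b : Ω, a ≠ b ∧ MulAction.stabilizer G a ⊓ MulAction.stabilizer G b ≠ ⊥) :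
    (∃ p : ℕ, p.Prime ∧ IsMulCommutative N ∧ ∀ x ∈ N, x ^ p = 1) ∧
    (∀ M : Subgroup G, M.Normal → M ≠ ⊥ → N ≤ M) := by
  classical
  obtain ⟨a, b, hab, hstab⟩ := hnotF
  set A := MulAction.stabilizer G a with hAdef
  set φ : G →* MulAut N := MulAut.conjNormal with hφ
  set B : Subgroup (MulAut N) := A.map φ with hB
  have hinj : Function.Injective (fun n : N => (n : G) • a) := by
    intro n m hnm
    have h1 : ((m⁻¹ * n : N) : G) • a = a := by
      have h0 : (n : G) • a = (m : G) • a := hnm
      rw [Subgroup.coe_mul, mul_smul, h0, Subgroup.coe_inv, inv_smul_smul]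
    have h2 : (m⁻¹ * n : N) ∈ MulAction.stabilizer N a := h1
    rw [hNr a] at h2
    have h3 : m⁻¹ * n = 1 := h2
    exact (inv_mul_eq_one.1 h3).symm
  have hsurj : ∀ c : Ω, ∃ n : N, (n : G) • a = c := fun c => by
    obtain ⟨n, hn⟩ := hNt.exists_smul_eq a c
    exact ⟨n, hn⟩
  have hequiv : ∀ g ∈ A, ∀ n : N, ((φ g n : N) : G) • a = g • ((n : G) • a) := by
    intro g hg n
    have hga : g • a = a := hg
    have hga' : g⁻¹ • a = a := by rw [inv_smul_eq_iff, hga]
    rw [hφ, MulAut.conjNormal_apply, mul_smul, mul_smul, hga']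
  have hker : ∀ g ∈ A, (∀ n : N, φ g n = n) → g = 1 := by
    intro g hg h
    apply FaithfulSMul.eq_of_smul_eq_smul (α := Ω)
    intro c
    obtain ⟨n, rfl⟩ := hsurj c
    rw [← hequiv g hg n, h n, one_smul]
  have horb : ∀ n : N, Nat.card (MulAction.orbit B n) =
      Nat.card (MulAction.orbit (MulAction.stabilizer G a) ((n : G) • a)) := by
    intro n
    have h1 : MulAction.orbit (MulAction.stabilizer G a) ((n : G) • a) =
        (fun m : N => (m : G) • a) '' (MulAction.orbit B n) := by
      ext c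
      constructor
      · rintro ⟨g, rfl⟩
        refine ⟨φ (g : G) n, ⟨⟨φ g, ⟨g, g.2, rfl⟩⟩, rfl⟩, ?_⟩
        exact hequiv g g.2 n
      · rintro ⟨_, ⟨⟨_, ⟨g, hg, rfl⟩⟩, rfl⟩, rfl⟩
        refine ⟨⟨g, hg⟩, ?_⟩
        exact (hequiv g hg n).symm
    rw [h1, Nat.card_image_of_injective hinj]
  obtain ⟨x₀, hx₀b⟩ := hsurj b
  have hx₀ : x₀ ≠ 1 := by
    rintro rfl
    apply hab
    rw [← hx₀b]
    simp
  have hk : ∀ x : N, x ≠ 1 → Nat.card (MulAction.orbit B x) = Nat.card (MulAction.orbit B x₀) := by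
    intro x hx
    rw [horb, horb]
    refine hhalf a _ _ ?_ ?_
    · intro h
      apply hx
      apply hinj
      simpa using h
    · intro h
      apply hx₀
      apply hinj
      simpa using h
  obtain ⟨g₀, hg₀⟩ := (Subgroup.ne_bot_iff_exists_ne_one).1 hstab
  have hg₀A : (g₀ : G) ∈ A := g₀.2.1
  have hg₀b : (g₀ : G) • b = b := g₀.2.2
  have hb₀ : φ g₀ ∈ B := ⟨g₀, hg₀A, rfl⟩
  have hb₀1 : φ g₀ ≠ 1 := by
    intro h
    apply hg₀
    apply Subtype.ext
    exact hker g₀ hg₀A (fun n => by rw [h]; rfl)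
  have hfix : φ g₀ x₀ = x₀ := by
    apply hinj
    simp only
    rw [hequiv g₀ hg₀A, hx₀b, hg₀b]
  have hcomm := comm_of B _ hk x₀ hx₀ _ hb₀ hb₀1 hfix
  have hsub := inv_sub B _ hk x₀ hx₀ _ hb₀ hb₀1 hfix
  refine ⟨?_, ?_⟩
  · -- elementary abelian
    haveI : Nontrivial N := ⟨x₀, 1, hx₀⟩
    obtain ⟨p, hp, hpd⟩ := Nat.exists_prime_and_dvd (n := Nat.card N) (by
      have := Finite.one_lt_card (α := N)
      omega)
    refine ⟨p, hp, ⟨⟨hcomm⟩⟩, ?_⟩
    let M : Subgroup N :=
      { carrier := {x | x ^ p = 1}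
        one_mem' := by simp
        mul_mem' := by
          intro x y hx hy
          simp only [Set.mem_setOf_eq] at hx hy ⊢
          rw [(show Commute x y from hcomm x y).mul_pow, hx, hy, one_mul]
        inv_mem' := by
          intro x hx
          simp only [Set.mem_setOf_eq] at hx ⊢
          rw [inv_pow, hx, inv_one] }
    have hM : M = ⊤ := by
      refine hsub M ?_ ?_
      · intro c _ x hx
        change (c x) ^ p = 1
        have hx' : x ^ p = 1 := hx
        rw [← map_pow, hx', map_one]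
      · haveI : Fact p.Prime := ⟨hp⟩
        obtain ⟨x, hx⟩ := exists_prime_orderOf_dvd_card' p hpd
        intro hbot
        have hxM : x ∈ M := by
          change x ^ p = 1
          rw [← hx, pow_orderOf_eq_one]
        rw [hbot] at hxM
        have : x = 1 := hxM
        rw [this, orderOf_one] at hx
        exact hp.one_lt.ne hx
    intro x hx
    have hxM : (⟨x, hx⟩ : N) ∈ M := by rw [hM]; exact Subgroup.mem_top _
    have : (⟨x, hx⟩ : N) ^ p = 1 := hxM
    exact congrArg Subtype.val this
  · intro M hMn hMb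
    by_cases hbot : M.subgroupOf N = ⊥
    · exfalso
      -- M centralizes N
      have hdisj : ∀ x, x ∈ M → x ∈ N → x = 1 := by
        intro x hxM hxN
        have : (⟨x, hxN⟩ : N) ∈ M.subgroupOf N := hxM
        rw [hbot] at this
        exact congrArg Subtype.val (show (⟨x, hxN⟩ : N) = 1 from this)
      have hcen : ∀ m ∈ M, ∀ n ∈ N, m * n = n * m := by
        intro m hm n hn
        have h1 : m * n * m⁻¹ * n⁻¹ ∈ M := by
          have := hMn.conj_mem m⁻¹ (M.inv_mem hm) n
          have h2 := M.mul_mem hm this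
          convert h2 using 1
          group
        have h2 : m * n * m⁻¹ * n⁻¹ ∈ N := N.mul_mem (hN.conj_mem n hn m) (N.inv_mem hn)
        have h3 := hdisj _ h1 h2
        calc m * n = m * n * m⁻¹ * n⁻¹ * (n * m) := by group
          _ = n * m := by rw [h3, one_mul]
      apply hMb
      rw [Subgroup.eq_bot_iff_forall]
      intro m hm
      obtain ⟨n, hn⟩ := hsurj (m • a)
      have hs : (n : G)⁻¹ * m ∈ A := by
        change ((n : G)⁻¹ * m) • a = a
        rw [mul_smul, ← hn, inv_smul_smul]
      have h1 : (n : G)⁻¹ * m = 1 := by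
        refine hker _ hs ?_
        intro y
        apply Subtype.ext
        rw [hφ, MulAut.conjNormal_apply]
        have e1 := hcen m hm y y.2
        have e2 : (n : G) * y = y * n := congrArg Subtype.val (hcomm n y)
        calc (n : G)⁻¹ * m * y * ((n : G)⁻¹ * m)⁻¹ = (n : G)⁻¹ * (m * y) * m⁻¹ * n := by group
          _ = (n : G)⁻¹ * (y * m) * m⁻¹ * n := by rw [e1]
          _ = (n : G)⁻¹ * (y * n) := by group
          _ = y := by rw [← e2]; group
      have h2 : m = n := (inv_mul_eq_one.1 h1).symm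
      exact hdisj m hm (h2 ▸ n.2)
    · have htop := hsub (M.subgroupOf N) (by
        rintro _ ⟨g, _, rfl⟩ x hx
        change ((φ g x : N) : G) ∈ M
        rw [hφ, MulAut.conjNormal_apply]
        exact hMn.conj_mem _ hx g) hbot
      exact Subgroup.subgroupOf_eq_top.1 htop


end Cfsg.Agent.S3356
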