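import Cfsg.Statements.S3358
import Cfsg.Agent.FC.ZStruct
import Cfsg.Agent.FC.Quot1

set_option autoImplicit false
open Cfsg

namespace Cfsg.Agent.S3358

/-- the Klein four-group in `S4` -/
theorem klein_emb : ∃ g : DihedralGroup 2 →* Equiv.Perm (Fin 4), Function.Injective g := by
  refine ⟨MonoidHom.mk' (fun x => match x with
    | .r i => if i = 0 then 1 else Equiv.swap 0 1 * Equiv.swap 2 3
    | .sr i => if i = 0 then Equiv.swap 0 2 * Equiv.swap 1 3 else Equiv.swap 0 3 * Equiv.swap 1 2) ?_, ?_⟩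
  · decide +kernel
  · intro a b
    revert a b
    decide +kernel

/-- Structure of solvable Frobenius complements. Let G be a finite solvable group that occurs as a Frobenius complement. Then G has a normal subgroup G₀ such that G/G₀ is isomorphic to a subgroup of Sym(4) (G₀ is the kernel of a homomorphism to Sym(4)), all Sylow subgroups of G₀ are cyclic, and G₀ has a presentation ⟨x, y | x^n = 1, y^m = 1, x⁻¹ y x = y^r⟩ with n, m ≥ 1, gcd(r − 1, m) = gcd(n, m) = 1 and r^(n/n′) ≡ 1 (mod m), where n′ is the product of the distinct primes dividing n. -/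
theorem result {G : Type*} [Group G] [Finite G] (hsol : Group.IsSolvable G)
    (hFC : ∃ (L : Type) (_ : Group L) (_ : Finite L) (H : Subgroup L), Cfsg.IsFrobeniusComplement H ∧ Nonempty (G ≃* H)) :
    ∃ G₀ : Subgroup G, G₀.Normal ∧
      (∃ f : G →* Equiv.Perm (Fin 4), f.ker = G₀) ∧
      (∀ (p : ℕ) [Fact p.Prime] (P : Sylow p G₀), IsCyclic P) ∧
      ∃ n m r : ℕ, 0 < n ∧ 0 < m ∧ Nat.Coprime (r - 1) m ∧ Nat.Coprime n m ∧ 1 ≤ r ∧
        r ^ (n / ∏ p ∈ n.primeFactors, p) % m = 1 % m ∧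
        Nonempty (G₀ ≃* PresentedGroup
          ({FreeGroup.of (0 : Fin 2) ^ n, FreeGroup.of (1 : Fin 2) ^ m,
            (FreeGroup.of (0 : Fin 2))⁻¹ * FreeGroup.of 1 * FreeGroup.of 0 * (FreeGroup.of (1 : Fin 2) ^ r)⁻¹} :
            Set (FreeGroup (Fin 2)))) := by
  have h := FC.hasFPFModule_of_FC hFC
  obtain ⟨N, hn, hZ, hq⟩ := FC.exists_quot_solvable h hsol
  refine ⟨N, hn, ?_, fun p hp P => hZ.isZGroup p hp.out P, ?_⟩
  · rcases hq with rfl | ⟨f, hf, rfl⟩ | ⟨f, hf, rfl⟩ | ⟨f, hf, rfl⟩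
    · exact ⟨1, MonoidHom.ker_one⟩
    · obtain ⟨g, hg⟩ := klein_emb
      refine ⟨g.comp f, ?_⟩
      ext x
      rw [MonoidHom.mem_ker, MonoidHom.mem_ker, MonoidHom.comp_apply]
      exact ⟨fun h => hg (by rw [h, map_one]), fun h => by rw [h, map_one]⟩
    · refine ⟨(alternatingGroup (Fin 4)).subtype.comp f, ?_⟩
      ext x
      rw [MonoidHom.mem_ker, MonoidHom.mem_ker, MonoidHom.comp_apply]
      exact ⟨fun h => Subtype.ext h, fun h => by rw [h]; rfl⟩
    · exact ⟨f, rfl⟩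
  · obtain ⟨n, m, r, h1, h2, h3, h4, h5, h6, h7⟩ := FC.zgroup_pres (h.subgroup N)
    exact ⟨n, m, r, h1, h2, h3, h4, h5, h6, h7⟩

end Cfsg.Agent.S3358
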