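import Cfsg.Statements.S3362
import Cfsg.Agent.H80.M12P

set_option autoImplicit false
open Cfsg

namespace Cfsg.Agent.S3362

/-- An explicit construction of the Mathieu groups of degrees 11 and 12. On the points 0, …, 11 let s = (3 4 5)(6 7 8)(9 10 11), t = (3 6 9)(4 7 10)(5 8 11), u = (4 6 5 9)(7 8 11 10), v = (4 7 5 11)(6 10 9 8), w = (4 10 5 8)(6 11 9 7), x₁ = (0 3)(6 7)(8 10)(9 11), x₂ = (0 1)(6 9)(7 10)(8 11), x₃ = (1 2)(6 11)(7 9)(8 10) (each written as a product of transpositions). Then the group M₁₂ generated by all eight permutations is sharply 5-transitive on the 12 points and has order 95040, and the group M₁₁ generated by the first seven has order 7920 and is the stabilizer of the point 2 in M₁₂. -/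
theorem result
    (s t u v w x₁ x₂ x₃ : Equiv.Perm (Fin 12))
    (hs : s = Equiv.swap (3 : Fin 12) 5 * Equiv.swap (3 : Fin 12) 4 * Equiv.swap (6 : Fin 12) 8 * Equiv.swap (6 : Fin 12) 7 * Equiv.swap (9 : Fin 12) 11 * Equiv.swap (9 : Fin 12) 10) (ht : t = Equiv.swap (3 : Fin 12) 9 * Equiv.swap (3 : Fin 12) 6 * Equiv.swap (4 : Fin 12) 10 * Equiv.swap (4 : Fin 12) 7 * Equiv.swap (5 : Fin 12) 11 * Equiv.swap (5 : Fin 12) 8)
    (hu : u = Equiv.swap (4 : Fin 12) 9 * Equiv.swap (4 : Fin 12) 5 * Equiv.swap (4 : Fin 12) 6 * Equiv.swap (7 : Fin 12) 10 * Equiv.swap (7 : Fin 12) 11 * Equiv.swap (7 : Fin 12) 8) (hv : v = Equiv.swap (4 : Fin 12) 11 * Equiv.swap (4 : Fin 12) 5 * Equiv.swap (4 : Fin 12) 7 * Equiv.swap (6 : Fin 12) 8 * Equiv.swap (6 : Fin 12) 9 * Equiv.swap (6 : Fin 12) 10) (hw : w = Equiv.swap (4 : Fin 12) 8 * Equiv.swap (4 : Fin 12) 5 * Equiv.swap (4 : Fin 12) 10 * Equiv.swap (6 : Fin 12) 7 * Equiv.swap (6 : Fin 12) 9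 * Equiv.swap (6 : Fin 12) 11)
    (hx₁ : x₁ = Equiv.swap (0 : Fin 12) 3 * Equiv.swap (6 : Fin 12) 7 * Equiv.swap (8 : Fin 12) 10 * Equiv.swap (9 : Fin 12) 11) (hx₂ : x₂ = Equiv.swap (0 : Fin 12) 1 * Equiv.swap (6 : Fin 12) 9 * Equiv.swap (7 : Fin 12) 10 * Equiv.swap (8 : Fin 12) 11)
    (hx₃ : x₃ = Equiv.swap (1 : Fin 12) 2 * Equiv.swap (6 : Fin 12) 11 * Equiv.swap (7 : Fin 12) 9 * Equiv.swap (8 : Fin 12) 10)
    (M₁₂ M₁₁ : Subgroup (Equiv.Perm (Fin 12))) (hM₁₂ : M₁₂ = Subgroup.closure {s, t, u, v, w, x₁, x₂, x₃})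
    (hM₁₁ : M₁₁ = Subgroup.closure {s, t, u, v, w, x₁, x₂}) :
    MulAction.IsMultiplyPretransitive M₁₂ (Fin 12) 5 ∧ (∀ y : Fin 5 ↪ Fin 12, MulAction.stabilizer M₁₂ y = ⊥) ∧
    Nat.card M₁₂ = 95040 ∧ Nat.card M₁₁ = 7920 ∧
    M₁₁ = M₁₂ ⊓ MulAction.stabilizer (Equiv.Perm (Fin 12)) (2 : Fin 12) := by
  classical
  have ts : H80.M12P.IsTab 0x9ba687354210 s := by rw [hs]; unfold H80.M12P.IsTab; decide
  have tt : H80.M12P.IsTab 0x543ba9876210 t := by rw [ht]; unfold H80.M12P.IsTab; decide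
  have tu : H80.M12P.IsTab 0xa74b85963210 u := by rw [hu]; unfold H80.M12P.IsTab; decide
  have tv : H80.M12P.IsTab 0x49865ab73210 v := by rw [hv]; unfold H80.M12P.IsTab; decide
  have tw : H80.M12P.IsTab 0x95746b8a3210 w := by rw [hw]; unfold H80.M12P.IsTab; decide
  have t1 : H80.M12P.IsTab 0x98ba67540213 x₁ := by rw [hx₁]; unfold H80.M12P.IsTab; decide
  have t2 : H80.M12P.IsTab 0x876ba9543201 x₂ := by rw [hx₂]; unfold H80.M12P.IsTab; decide
  have t3 : H80.M12P.IsTab 0x687a9b543120 x₃ := by rw [hx₃]; unfold H80.M12P.IsTab; decide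
  have hle : M₁₁ ≤ M₁₂ := by
    rw [hM₁₁, hM₁₂]
    apply Subgroup.closure_mono
    intro x hx
    simp only [Set.mem_insert_iff, Set.mem_singleton_iff] at hx ⊢
    tauto
  refine H80.M12P.main hle ?_ ?_ ?_ ?_
  · intro n hn
    have hm : ∀ x, x ∈ ({s, t, u, v, w, x₁, x₂, x₃} : Set (Equiv.Perm (Fin 12))) → x ∈ M₁₂ := by
      intro x hx; rw [hM₁₂]; exact Subgroup.subset_closure hx
    simp only [H80.M12P.gtab, List.mem_cons, List.not_mem_nil, or_false] at hn
    rcases hn with rfl | rfl | rfl | rfl | rfl | rfl | rfl | rfl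
    · exact ⟨s, hm _ (by simp), ts⟩
    · exact ⟨t, hm _ (by simp), tt⟩
    · exact ⟨u, hm _ (by simp), tu⟩
    · exact ⟨v, hm _ (by simp), tv⟩
    · exact ⟨w, hm _ (by simp), tw⟩
    · exact ⟨x₁, hm _ (by simp), t1⟩
    · exact ⟨x₂, hm _ (by simp), t2⟩
    · exact ⟨x₃, hm _ (by simp), t3⟩
  · intro n hn
    have hm : ∀ x, x ∈ ({s, t, u, v, w, x₁, x₂} : Set (Equiv.Perm (Fin 12))) → x ∈ M₁₁ := by
      intro x hx; rw [hM₁₁]; exact Subgroup.subset_closure hx
    simp only [H80.M12P.gtab, List.take_succ_cons, List.take_zero, List.mem_cons, List.not_mem_nil, or_false] at hn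
    rcases hn with rfl | rfl | rfl | rfl | rfl | rfl | rfl
    · exact ⟨s, hm _ (by simp), ts⟩
    · exact ⟨t, hm _ (by simp), tt⟩
    · exact ⟨u, hm _ (by simp), tu⟩
    · exact ⟨v, hm _ (by simp), tv⟩
    · exact ⟨w, hm _ (by simp), tw⟩
    · exact ⟨x₁, hm _ (by simp), t1⟩
    · exact ⟨x₂, hm _ (by simp), t2⟩
  · rw [hM₁₂]
    apply H80.M12P.lift_closure
    intro x hx
    simp only [Set.mem_insert_iff, Set.mem_singleton_iff] at hx
    rcases hx with rfl | rfl | rfl | rfl | rfl | rfl | rfl | rfl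
    · exact H80.M12P.lift_of (H80.M12P.lifts_ok 0 (by norm_num)) ts
    · exact H80.M12P.lift_of (H80.M12P.lifts_ok 1 (by norm_num)) tt
    · exact H80.M12P.lift_of (H80.M12P.lifts_ok 2 (by norm_num)) tu
    · exact H80.M12P.lift_of (H80.M12P.lifts_ok 3 (by norm_num)) tv
    · exact H80.M12P.lift_of (H80.M12P.lifts_ok 4 (by norm_num)) tw
    · exact H80.M12P.lift_of (H80.M12P.lifts_ok 5 (by norm_num)) t1
    · exact H80.M12P.lift_of (H80.M12P.lifts_ok 6 (by norm_num)) t2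
    · exact H80.M12P.lift_of (H80.M12P.lifts_ok 7 (by norm_num)) t3
  · rw [hM₁₁]
    intro g hg
    have hle2 : Subgroup.closure ({s, t, u, v, w, x₁, x₂} : Set (Equiv.Perm (Fin 12))) ≤
        MulAction.stabilizer (Equiv.Perm (Fin 12)) (2 : Fin 12) := by
      rw [Subgroup.closure_le]
      intro x hx
      simp only [Set.mem_insert_iff, Set.mem_singleton_iff] at hx
      have key : ∀ (x : Equiv.Perm (Fin 12)) (n : ℕ), H80.M12P.IsTab n x → H80.M12P.tab n 2 = 2 →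
          x ∈ MulAction.stabilizer (Equiv.Perm (Fin 12)) (2 : Fin 12) := by
        intro x n hT h2
        show x 2 = 2
        apply Fin.ext
        rw [hT]
        exact h2
      rcases hx with rfl | rfl | rfl | rfl | rfl | rfl | rfl
      · exact key _ _ ts (by decide)
      · exact key _ _ tt (by decide)
      · exact key _ _ tu (by decide)
      · exact key _ _ tv (by decide)
      · exact key _ _ tw (by decide)
      · exact key _ _ t1 (by decide)
      · exact key _ _ t2 (by decide)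
    exact hle2 hg

end Cfsg.Agent.S3362
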