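import Cfsg.Statements.S3370
import Cfsg.Agent.H56.TwoGroups

set_option autoImplicit false
open Cfsg

namespace Cfsg.Agent.S3370

open Module

theorem eq_one_of_odd_dvd_two_pow {s n : ℕ} (h1 : Odd s) (h2 : s ∣ 2 ^ n) : s = 1 := by
  obtain ⟨k, -, hk⟩ := (Nat.dvd_prime_pow Nat.prime_two).1 h2
  rcases Nat.eq_zero_or_pos k with h | h
  · rw [hk, h, pow_zero]
  · rw [hk] at h1
    exfalso
    have : Even (2 ^ k) := (Nat.even_pow.2 ⟨even_two, h.ne'⟩)
    exact (Nat.not_even_iff_odd.2 h1) this

/-- `2^n = p^a + 1` with `a ≥ 1` forces `a = 1`. -/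
theorem nt1 {p a n : ℕ} (hp : p.Prime) (ha : 1 ≤ a) (h : p ^ a + 1 = 2 ^ n) : a = 1 := by
  have hp2 := hp.two_le
  have hpa : 2 ≤ p ^ a := le_trans hp2 (Nat.le_self_pow (by omega) p)
  have hn : 2 ≤ n := by
    by_contra hn
    have : n ≤ 1 := by omega
    interval_cases n <;> omega
  have hodd : Odd (p ^ a) := by
    have : Even (2 ^ n) := Nat.even_pow.2 ⟨even_two, by omega⟩
    rw [← h] at this
    rcases Nat.even_or_odd (p ^ a) with h1 | h1
    · exfalso
      have := (Nat.even_add_one.1 this)
      exact this h1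
    · exact h1
  have hpodd : Odd p := (Nat.odd_pow_iff (by omega)).1 hodd
  rcases Nat.even_or_odd' a with ⟨c, hc | hc⟩
  · exfalso
    have h4 : 4 ∣ 2 ^ n := by
      have : 2 ^ 2 ∣ 2 ^ n := pow_dvd_pow 2 hn
      simpa using this
    rw [← h, hc, mul_comm 2 c, pow_mul] at h4
    have h5 : Odd (p ^ c) := hpodd.pow
    obtain ⟨k, hk⟩ := h5
    rw [hk] at h4
    have : (2 * k + 1) ^ 2 + 1 = 4 * (k ^ 2 + k) + 2 := by ring
    rw [this] at h4
    omega
  · -- a odd
    have h1 : ((p : ℤ) + 1) ∣ (p : ℤ) ^ a + 1 := by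
      have := Odd.add_dvd_pow_add_pow (p : ℤ) 1 (n := a) ⟨c, hc⟩
      simpa using this
    set S : ℤ := ∑ i ∈ Finset.range a, (p : ℤ) ^ i * (-1) ^ (a - 1 - i) with hS
    have h2 : S * ((p : ℤ) + 1) = (p : ℤ) ^ a + 1 := by
      have h3 := (Commute.all (p : ℤ) (-1)).geom_sum₂_mul a
      rw [sub_neg_eq_add] at h3
      rw [hS, h3, Odd.neg_one_pow ⟨c, hc⟩]
      ring
    have hSodd : Odd S := by
      have h3 : (S : ZMod 2) = 1 := by
        rw [hS]
        push_cast
        have hp1 : (p : ZMod 2) = 1 := by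
          obtain ⟨k, hk⟩ := hpodd
          rw [hk]; push_cast
          have : (2 : ZMod 2) = 0 := by decide
          rw [this]; ring
        have hm : (-1 : ZMod 2) = 1 := by decide
        rw [hp1, hm]
        simp only [one_pow, mul_one, Finset.sum_const, Finset.card_range, nsmul_eq_mul]
        rw [hc]; push_cast
        have : (2 : ZMod 2) = 0 := by decide
        rw [this]; ring
      rcases Int.even_or_odd S with h4 | h4
      · exfalso
        have h5 : (S : ZMod 2) = 0 := by
          rw [ZMod.intCast_zmod_eq_zero_iff_dvd]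
          exact_mod_cast h4.two_dvd
        rw [h5] at h3
        exact absurd h3 (by decide)
      · exact h4
    have hSpos : 0 < S := by
      have h3 : 0 < S * ((p : ℤ) + 1) := by rw [h2]; positivity
      have h4 : (0 : ℤ) < (p : ℤ) + 1 := by positivity
      exact (mul_pos_iff_of_pos_right h4).1 h3
    have hSdvd : S.natAbs ∣ 2 ^ n := by
      have h3 : S ∣ (2 : ℤ) ^ n := by
        have h4 : ((p : ℤ) ^ a + 1) = (2 : ℤ) ^ n := by exact_mod_cast h
        rw [← h4, ← h2]
        exact Dvd.intro _ rfl
      have := Int.natAbs_dvd_natAbs.2 h3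
      simpa [Int.natAbs_pow] using this
    have hS1 : S.natAbs = 1 := eq_one_of_odd_dvd_two_pow (Int.natAbs_odd.2 hSodd) hSdvd
    have hS1' : S = 1 := by omega
    rw [hS1', one_mul] at h2
    have h3 : p ^ a = p ^ 1 := by
      have : (p : ℤ) ^ a = (p : ℤ) := by linarith
      rw [pow_one]
      exact_mod_cast this
    exact Nat.pow_right_injective hp2 h3

/-- `q^n = 2^a + 1` with `q` an odd prime. -/
theorem nt2 {q a n : ℕ} (hq : q.Prime) (hq2 : q ≠ 2) (hn : 1 ≤ n) (h : q ^ n = 2 ^ a + 1) :
    n = 1 ∨ (q = 3 ∧ n = 2) := by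
  have hq3 : 3 ≤ q := by
    have := hq.two_le
    omega
  have hqodd : Odd q := hq.odd_of_ne_two hq2
  rcases Nat.even_or_odd' n with ⟨c, hc | hc⟩
  · right
    have hc1 : 1 ≤ c := by omega
    set Q := q ^ c with hQ
    have hQ3 : 3 ≤ Q := le_trans hq3 (Nat.le_self_pow (by omega) q)
    have h1 : (Q + 1) * (Q - 1) = 2 ^ a := by
      have h2 := Nat.sq_sub_sq Q 1
      rw [one_pow, ← pow_mul, mul_comm c 2, ← hc, h] at h2
      rw [← h2]; rfl
    obtain ⟨i, -, hi⟩ := (Nat.dvd_prime_pow Nat.prime_two).1 (Dvd.intro_left _ h1 : Q - 1 ∣ 2 ^ a)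
    obtain ⟨j, -, hj⟩ := (Nat.dvd_prime_pow Nat.prime_two).1 (Dvd.intro _ h1 : Q + 1 ∣ 2 ^ a)
    have hi1 : i = 1 := by
      rcases Nat.lt_or_ge i 2 with hi2 | hi2
      · interval_cases i
        · rw [pow_zero] at hi; omega
        · rfl
      · exfalso
        have h4 : 4 ∣ 2 ^ i := by
          have : 2 ^ 2 ∣ 2 ^ i := pow_dvd_pow 2 hi2
          simpa using this
        have hj2 : 2 ≤ j := by
          by_contra hj2
          have : j ≤ 1 := by omega
          have h5 : 2 ^ j ≤ 2 ^ 1 := Nat.pow_le_pow_right (by norm_num) this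
          omega
        have h6 : 4 ∣ 2 ^ j := by
          have : 2 ^ 2 ∣ 2 ^ j := pow_dvd_pow 2 hj2
          simpa using this
        omega
    rw [hi1, pow_one] at hi
    have hQ3' : q ^ c = 3 := by omega
    have hqd : q ∣ 3 := by rw [← hQ3']; exact dvd_pow_self q (by omega)
    have hq3' : q = 3 := (Nat.prime_dvd_prime_iff_eq hq Nat.prime_three).1 hqd
    refine ⟨hq3', ?_⟩
    rw [hq3'] at hQ3'
    have : c = 1 := Nat.pow_right_injective (by norm_num : 2 ≤ 3) (show 3 ^ c = 3 ^ 1 by rw [hQ3', pow_one])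
    omega
  · left
    have h1 : (∑ i ∈ Finset.range n, q ^ i) * (q - 1) = 2 ^ a := by
      have h2 := Nat.geomSum_eq (m := q) (by omega) n
      rw [h2, Nat.div_mul_cancel]
      · rw [h]; rfl
      · exact Nat.sub_one_dvd_pow_sub_one q n
    have hodd : Odd (∑ i ∈ Finset.range n, q ^ i) := by
      rw [Finset.odd_sum_iff_odd_card_odd]
      have : (Finset.range n).filter (fun i => Odd (q ^ i)) = Finset.range n := by
        apply Finset.filter_true_of_mem
        intro i _
        exact hqodd.pow
      rw [this, Finset.card_range]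
      exact ⟨c, hc⟩
    have h2 := eq_one_of_odd_dvd_two_pow hodd (Dvd.intro _ h1)
    by_contra hn1
    have hn2 : 2 ≤ n := by omega
    have h3 : ∑ i ∈ Finset.range 2, q ^ i ≤ ∑ i ∈ Finset.range n, q ^ i :=
      Finset.sum_le_sum_of_subset (Finset.range_mono hn2)
    rw [h2, Finset.sum_range_succ, Finset.sum_range_one] at h3
    simp at h3
    omega

/-! Facts on 2 × 2 matrices over the field with three elements -/

abbrev M2 := Matrix (Fin 2) (Fin 2) (ZMod 3)

theorem fact1 : ∀ M : M2, M.det = 1 → (∃ v : Fin 2 → ZMod 3, v ≠ 0 ∧ M.mulVec v = v) → M ^ 3 = 1 := by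
  decide +kernel

theorem fact2 : ∀ M : M2, M.det = 1 → M ^ 8 = 1 → M ^ 4 = 1 := by
  decide +kernel

theorem fact3 : ∀ M : M2, M.det = -1 → M * M = 1 ∨ (M ^ 4 ≠ 1 ∧ M ^ 8 = 1) := by
  decide +kernel

theorem fact4 : ∀ M N : M2, ¬ ((M.det = -1 ∧ M * M ≠ 1) ∧ (N * N = 1 ∧ N ≠ 1 ∧ N ≠ -1) ∧
    (N * M * N = M ∨ N * M * N = M ^ 5 ∨ N * M * N = M ^ 7)) := by
  decide +kernel

theorem z3_mul : ∀ x y : ZMod 3, x * y = 1 → x = 1 ∨ x = -1 := by decide

theorem z3_ne : (1 : ZMod 3) ≠ -1 := by decide

theorem z3_neg : ∀ x : ZMod 3, -x = x → x = 0 := by decide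

theorem count {q : ℕ} [Fact q.Prime] {V : Type*} [AddCommGroup V] [Module (ZMod q) V] [Finite V]
    {G : Type*} [Group G] [Finite G] (ρ : G →* (V ≃ₗ[ZMod q] V))
    (htrans : ∀ v w : V, v ≠ 0 → w ≠ 0 → ∃ g : G, ρ g v = w) (v : V) (hv : v ≠ 0) :
    Nat.card {g : G // ρ g v = v} * (Nat.card V - 1) = Nat.card G := by
  let act : MulAction G V := MulAction.compHom V ρ
  have hact : ∀ (g : G) (w : V), g • w = ρ g w := fun g w => rfl
  have horb : MulAction.orbit G v = {w : V | w ≠ 0} := by
    ext w
    constructor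
    · rintro ⟨g, rfl⟩
      simp only [Set.mem_setOf_eq, hact]
      intro h
      exact hv ((map_eq_zero_iff _ (ρ g).injective).1 h)
    · intro hw
      obtain ⟨g, hg⟩ := htrans v w hv hw
      exact ⟨g, hg⟩
  have h1 := Subgroup.card_mul_index (MulAction.stabilizer G v)
  rw [MulAction.index_stabilizer, horb] at h1
  have h2 : ({w : V | w ≠ 0} : Set V).ncard = Nat.card V - 1 := by
    have : {w : V | w ≠ 0} = ({0} : Set V)ᶜ := by ext; simp
    rw [this, Set.ncard_compl, Set.ncard_singleton]
  rw [h2] at h1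
  exact h1

theorem case_nine {V : Type*} [AddCommGroup V] [Module (ZMod 3) V] [Finite V]
    {G : Type*} [Group G] [Finite G] (hG : IsPGroup 2 G) (hV : Nat.card V = 9)
    (ρ : G →* (V ≃ₗ[ZMod 3] V)) (hρ : Function.Injective ρ)
    (htrans : ∀ v w : V, v ≠ 0 → w ≠ 0 → ∃ g : G, ρ g v = w) :
    (IsCyclic G ∧ Nat.card G = 8) ∨ Nonempty (G ≃* QuaternionGroup 2) ∨ (Cfsg.IsQuasiDihedral G ∧ Nat.card G = 16) := by
  have h3 : Fact (Nat.Prime 3) := ⟨Nat.prime_three⟩
  have hfin : finrank (ZMod 3) V = 2 := by
    have h1 := Module.natCard_eq_pow_finrank (K := ZMod 3) (V := V)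
    rw [hV, Nat.card_zmod] at h1
    exact (Nat.pow_right_injective (by norm_num : 2 ≤ 3) (show 3 ^ 2 = 3 ^ _ from h1)).symm
  let b : Basis (Fin 2) (ZMod 3) V := Module.finBasisOfFinrankEq (ZMod 3) V hfin
  let φ : G →* M2 := ((LinearMap.toMatrixAlgEquiv b : (V →ₗ[ZMod 3] V) →* M2).comp
    LinearEquiv.automorphismGroup.toLinearMapMonoidHom).comp ρ
  have hφv : ∀ (g : G) (v : V), (φ g).mulVec (b.repr v) = b.repr (ρ g v) := fun g v =>
    LinearMap.toMatrix_mulVec_repr b b (ρ g : V →ₗ[ZMod 3] V) v
  have hφinj : Function.Injective φ := by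
    intro g h hgh
    apply hρ
    ext v
    apply b.repr.injective
    ext i
    rw [← hφv, ← hφv, hgh]
  have hmul : ∀ (g h : G) (v : V), ρ (g * h) v = ρ g (ρ h v) := fun g h v => by rw [map_mul]; rfl
  have hone : ∀ v : V, ρ 1 v = v := fun v => by rw [map_one]; rfl
  have hdet : ∀ g : G, (φ g).det = 1 ∨ (φ g).det = -1 := by
    intro g
    have h1 : (φ g).det * (φ g⁻¹).det = 1 := by
      rw [← Matrix.det_mul, ← map_mul, mul_inv_cancel, map_one, Matrix.det_one]
    exact z3_mul _ _ h1
  have hfixA : ∀ g : G, (φ g).det = 1 → ∀ v : V, v ≠ 0 → ρ g v = v → g = 1 := by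
    intro g hg v hv hgv
    have h1 : (φ g) ^ 3 = 1 := by
      apply fact1 _ hg
      refine ⟨b.repr v, ?_, ?_⟩
      · intro h
        apply hv
        apply b.repr.injective
        ext i
        rw [map_zero]
        exact congrFun h i
      · rw [hφv, hgv]
    have h2 : g ^ 3 = 1 := by
      apply hφinj
      rw [map_pow, h1, map_one]
    obtain ⟨k, hk⟩ := hG g
    have h4 : orderOf g ∣ 3 := orderOf_dvd_of_pow_eq_one h2
    have h5 : orderOf g ∣ 2 ^ k := orderOf_dvd_of_pow_eq_one hk
    have h6 : orderOf g ∣ Nat.gcd 3 (2 ^ k) := Nat.dvd_gcd h4 h5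
    have h7 : Nat.gcd 3 (2 ^ k) = 1 := Nat.Coprime.pow_right k (by norm_num)
    rw [h7, Nat.dvd_one] at h6
    exact orderOf_eq_one_iff.1 h6
  have hneg : ∀ t : G, orderOf t = 2 → (∀ v : V, v ≠ 0 → ρ t v ≠ v) → ∀ v, ρ t v = - v := by
    intro t ht hfx v
    by_contra hne
    have h1 : v + ρ t v ≠ 0 := fun h => hne (eq_neg_of_add_eq_zero_right h)
    apply hfx _ h1
    rw [map_add, ← hmul, ← pow_two, ← ht, pow_orderOf_eq_one, hone, add_comm]
  by_cases hreg : ∀ v : V, v ≠ 0 → ∀ g : G, ρ g v = v → g = 1
  · -- regular case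
    obtain ⟨v, hv⟩ : ∃ v : V, v ≠ 0 := by
      have : Nontrivial V := by
        rw [← Finite.one_lt_card_iff_nontrivial, hV]; norm_num
      exact exists_ne 0
    have h1 := count ρ htrans v hv
    have h2 : Nat.card {g : G // ρ g v = v} = 1 := by
      rw [Nat.card_eq_one_iff_unique]
      refine ⟨⟨fun a b => Subtype.ext ?_⟩, ⟨⟨1, hone v⟩⟩⟩
      rw [hreg v hv a a.2, hreg v hv b b.2]
    rw [h2, hV] at h1
    have hG8 : Nat.card G = 8 := by omega
    rcases Cfsg.Agent.H56.order_eight_unique_involution hG8 (by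
      intro x y hx hy
      have hx1 : x ≠ 1 := by rintro rfl; simp at hx
      have hy1 : y ≠ 1 := by rintro rfl; simp at hy
      apply hρ
      ext v
      rw [hneg x hx (fun v hv h => hx1 (hreg v hv x h)), hneg y hy (fun v hv h => hy1 (hreg v hv y h))]) with h | h
    · exact Or.inl ⟨h, hG8⟩
    · exact Or.inr (Or.inl h)
  · push Not at hreg
    obtain ⟨v, hv, t, htv, ht1⟩ := hreg
    have htdet : (φ t).det = -1 := (hdet t).resolve_left (fun h => ht1 (hfixA t h v hv htv))
    have htt : t * t = 1 := by
      apply hfixA (t * t) _ v hv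
      · rw [hmul, htv, htv]
      · rw [map_mul, Matrix.det_mul, htdet]; norm_num
    have ht2 : orderOf t = 2 := orderOf_eq_prime (by rw [pow_two, htt]) ht1
    have h1 := count ρ htrans v hv
    have h2 : Nat.card {g : G // ρ g v = v} = 2 := by
      rw [Nat.card_eq_two_iff]
      refine ⟨⟨1, hone v⟩, ⟨t, htv⟩, ?_, ?_⟩
      · intro h
        exact ht1 (congrArg Subtype.val h).symm
      · ext ⟨g, hg⟩
        simp only [Set.mem_insert_iff, Set.mem_singleton_iff, Subtype.mk.injEq, Set.mem_univ, iff_true]
        rcases hdet g with h | h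
        · exact Or.inl (hfixA g h v hv hg)
        · right
          have h5 : g * t = 1 := by
            apply hfixA (g * t) _ v hv
            · rw [hmul, htv, hg]
            · rw [map_mul, Matrix.det_mul, htdet, h]; norm_num
          rw [eq_inv_of_mul_eq_one_left h5]
          exact inv_eq_of_mul_eq_one_left htt
    rw [h2, hV] at h1
    have hG16 : Nat.card G = 16 := by omega
    right; right
    refine ⟨?_, hG16⟩
    -- the kernel of the determinant
    let N : Subgroup G :=
      { carrier := {g | (φ g).det = 1}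
        mul_mem' := by
          intro a b ha hb
          simp only [Set.mem_setOf_eq] at *
          rw [map_mul, Matrix.det_mul, ha, hb, one_mul]
        one_mem' := by
          simp only [Set.mem_setOf_eq]
          rw [map_one, Matrix.det_one]
        inv_mem' := by
          intro a ha
          simp only [Set.mem_setOf_eq] at *
          have h1 : (φ a).det * (φ a⁻¹).det = 1 := by
            rw [← Matrix.det_mul, ← map_mul, mul_inv_cancel, map_one, Matrix.det_one]
          rwa [ha, one_mul] at h1 }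
    have hNmem : ∀ g, g ∈ N ↔ (φ g).det = 1 := fun g => Iff.rfl
    have hne : (1 : ZMod 3) ≠ -1 := z3_ne
    have hNidx : N.index = 2 := by
      rw [Subgroup.index_eq_two_iff]
      refine ⟨t, fun g => ?_⟩
      rw [hNmem, hNmem, map_mul, Matrix.det_mul, htdet]
      rcases hdet g with h | h
      · rw [h]
        right
        exact ⟨rfl, by rw [one_mul]; exact hne.symm⟩
      · rw [h]
        left
        exact ⟨by norm_num, hne.symm⟩
    have hNcard : Nat.card N = 8 := by
      have := Subgroup.card_mul_index N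
      rw [hNidx, hG16] at this
      omega
    have hNinv : ∀ x y : N, orderOf x = 2 → orderOf y = 2 → x = y := by
      intro x y hx hy
      have key : ∀ z : N, orderOf z = 2 → ∀ w, ρ (z : G) w = - w := by
        intro z hz
        have hz' : orderOf (z : G) = 2 := by rw [Subgroup.orderOf_coe]; exact hz
        apply hneg _ hz'
        intro w hw hzw
        have := hfixA z z.2 w hw hzw
        rw [this] at hz'
        simp at hz'
      apply Subtype.ext
      apply hρ
      ext w
      rw [key x hx, key y hy]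
    have hNnoncyc : ¬ IsCyclic N := by
      intro hc
      obtain ⟨x, hx⟩ := hc.exists_generator
      have hx8 : orderOf x = 8 := by
        rw [orderOf_eq_card_of_forall_mem_zpowers hx, hNcard]
      have hx8' : orderOf (x : G) = 8 := by rw [Subgroup.orderOf_coe]; exact hx8
      have h5 : φ (x : G) ^ 4 = 1 := by
        apply fact2 _ x.2
        rw [← map_pow, ← hx8', pow_orderOf_eq_one, map_one]
      have h6 : (x : G) ^ 4 = 1 := by
        apply hφinj
        rw [map_pow, h5, map_one]
      have h7 := orderOf_dvd_of_pow_eq_one h6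
      rw [hx8'] at h7
      omega
    obtain ⟨eN⟩ := (Cfsg.Agent.H56.order_eight_unique_involution hNcard hNinv).resolve_left hNnoncyc
    obtain ⟨x, hxN, hxx⟩ : ∃ x : G, x ∉ N ∧ x * x ≠ 1 := by
      by_contra hcon
      push Not at hcon
      have htN : t ∉ N := by
        intro h
        rw [hNmem, htdet] at h
        exact hne h.symm
      have hinvert : ∀ n : G, n ∈ N → t * n * t = n⁻¹ := by
        intro n hn
        have h5 : t * n ∉ N := by
          intro h
          apply htN
          have : t = (t * n) * n⁻¹ := by group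
          rw [this]
          exact N.mul_mem h (N.inv_mem hn)
        have h6 := hcon _ h5
        apply eq_inv_of_mul_eq_one_left
        rw [← h6]; group
      have hcomm : ∀ n m : G, n ∈ N → m ∈ N → n * m = m * n := by
        intro n m hn hm
        have h5 := hinvert (m⁻¹ * n⁻¹) (N.mul_mem (N.inv_mem hm) (N.inv_mem hn))
        have h6 : t * (m⁻¹ * n⁻¹) * t = (t * m⁻¹ * t) * (t * n⁻¹ * t) := by
          calc t * (m⁻¹ * n⁻¹) * t = t * m⁻¹ * 1 * n⁻¹ * t := by group
            _ = t * m⁻¹ * (t * t) * n⁻¹ * t := by rw [htt]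
            _ = (t * m⁻¹ * t) * (t * n⁻¹ * t) := by group
        rw [h6, hinvert _ (N.inv_mem hm), hinvert _ (N.inv_mem hn)] at h5
        simpa using h5.symm
      have h7 : ∀ a b : QuaternionGroup 2, a * b = b * a := by
        intro a b
        apply eN.symm.injective
        rw [map_mul, map_mul]
        exact Subtype.ext (hcomm _ _ (eN.symm a).2 (eN.symm b).2)
      have h8 := h7 (QuaternionGroup.a 1) (QuaternionGroup.xa 0)
      exact absurd h8 (by decide)
    have hxdet : (φ x).det = -1 := (hdet x).resolve_left hxN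
    have hφxx : φ x * φ x ≠ 1 := by
      intro h
      apply hxx
      apply hφinj
      rw [map_mul, h, map_one]
    obtain ⟨hx4, hx8⟩ := (fact3 _ hxdet).resolve_left hφxx
    have hx4' : ¬ x ^ 2 ^ 2 = 1 := by
      intro h
      apply hx4
      rw [← map_pow]
      have : x ^ 4 = 1 := h
      rw [this, map_one]
    have hx8' : x ^ 2 ^ (2 + 1) = 1 := by
      apply hφinj
      rw [map_pow, map_one]
      exact hx8
    have hxord : orderOf x = 2 ^ 3 := orderOf_eq_prime_pow hx4' hx8'
    have hxidx : (Subgroup.zpowers x).index = 2 := by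
      have := Subgroup.card_mul_index (Subgroup.zpowers x)
      rw [Nat.card_zpowers, hxord, hG16] at this
      omega
    have hxnorm : (Subgroup.zpowers x).Normal := Subgroup.normal_of_index_eq_two hxidx
    have h5 : t * x * t⁻¹ ∈ Subgroup.zpowers x := hxnorm.conj_mem x (Subgroup.mem_zpowers x) t
    obtain ⟨k, hk8, hk⟩ : ∃ k < 8, t * x * t⁻¹ = x ^ k := by
      classical
      rw [← mem_powers_iff_mem_zpowers, mem_powers_iff_mem_range_orderOf, hxord] at h5
      simp only [Finset.mem_image, Finset.mem_range] at h5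
      obtain ⟨k, hk, hk'⟩ := h5
      exact ⟨k, by omega, hk'.symm⟩
    have htinv : t⁻¹ = t := inv_eq_of_mul_eq_one_left htt
    have hordk : orderOf (x ^ k) = 8 := by
      rw [← hk]
      have h6 : orderOf (t * x * t⁻¹) = orderOf x := by
        simpa using orderOf_injective (MulAut.conj t).toMonoidHom (MulAut.conj t).injective x
      rw [h6, hxord]; norm_num
    have h9 := fact4 (φ x) (φ t)
    have h10 : φ t * φ x * φ t = φ (x ^ k) := by
      rw [← map_mul, ← map_mul, ← hk, htinv]
    have h11 : φ t * φ t = 1 ∧ φ t ≠ 1 ∧ φ t ≠ -1 := by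
      refine ⟨by rw [← map_mul, htt, map_one], ?_, ?_⟩
      · intro h
        apply ht1
        apply hφinj
        rw [h, map_one]
      · intro h
        have h12 := hφv t v
        rw [h, htv, Matrix.neg_mulVec, Matrix.one_mulVec] at h12
        apply hv
        apply b.repr.injective
        ext i
        have h13 := congrFun h12 i
        rw [Pi.neg_apply] at h13
        rw [map_zero]
        exact z3_neg _ h13
    have hk3 : k = 3 := by
      by_contra hk3
      apply h9
      refine ⟨⟨hxdet, hφxx⟩, h11, ?_⟩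
      rw [h10]
      by_cases hkd : k = 0 ∨ k = 2 ∨ k = 4 ∨ k = 6
      · exfalso
        rcases hkd with h | h | h | h
        · rw [h, pow_zero, orderOf_one] at hordk; omega
        · rw [h, orderOf_pow' x (by norm_num), hxord] at hordk; norm_num at hordk
        · rw [h, orderOf_pow' x (by norm_num), hxord] at hordk; norm_num at hordk
        · rw [h, orderOf_pow' x (by norm_num), hxord] at hordk; norm_num at hordk
      · have : k = 1 ∨ k = 5 ∨ k = 7 := by omega
        rcases this with h | h | h
        · left; rw [h, pow_one]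
        · right; left; rw [h, map_pow]
        · right; right; rw [h, map_pow]
    exact ⟨3, le_refl _, by rw [hG16]; norm_num, x, t, hxord, ht2, by rw [hk, hk3]; norm_num⟩

/-- Let q be a prime, V a non-trivial finite vector space over the field with q elements, and G a non-trivial finite p-group (p prime) acting faithfully and linearly on V and transitively on the non-zero vectors. Then either q = 2 and G has prime order p = |V| − 1; or p = 2, V has q elements with q = 2^m + 1 and G is cyclic of order 2^m; or p = 2, q = 3, V has 9 elements and G is cyclic of order 8, quaternion of order 8, or semidihedral of order 16. -/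
theorem result (q : ℕ) [Fact q.Prime] {V : Type*} [AddCommGroup V] [Module (ZMod q) V] [Finite V] [Nontrivial V]
    {G : Type*} [Group G] [Finite G] [Nontrivial G] (p : ℕ) [Fact p.Prime] (hG : IsPGroup p G)
    (ρ : G →* (V ≃ₗ[ZMod q] V)) (hρ : Function.Injective ρ)
    (htrans : ∀ v w : V, v ≠ 0 → w ≠ 0 → ∃ g : G, ρ g v = w) :
    (q = 2 ∧ p = Nat.card V - 1 ∧ Nat.card G = p) ∨
    (p = 2 ∧ Nat.card V = q ∧ (∃ m : ℕ, q = 2 ^ m + 1 ∧ Nat.card G = 2 ^ m) ∧ IsCyclic G) ∨
    (p = 2 ∧ q = 3 ∧ Nat.card V = 9 ∧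
      ((IsCyclic G ∧ Nat.card G = 8) ∨ Nonempty (G ≃* QuaternionGroup 2) ∨ (Cfsg.IsQuasiDihedral G ∧ Nat.card G = 16))) := by
  have hq : q.Prime := Fact.out
  have hp : p.Prime := Fact.out
  obtain ⟨v, hv⟩ := exists_ne (0 : V)
  have hcount := count ρ htrans v hv
  obtain ⟨m, hm⟩ := IsPGroup.iff_card.1 hG
  have hone : ∀ v : V, ρ 1 v = v := fun v => by rw [map_one]; rfl
  have hmul : ∀ (g h : G) (v : V), ρ (g * h) v = ρ g (ρ h v) := fun g h v => by rw [map_mul]; rfl
  set n := finrank (ZMod q) V with hn
  have hcardV : Nat.card V = q ^ n := by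
    rw [Module.natCard_eq_pow_finrank (K := ZMod q), Nat.card_zmod]
  have hn1 : 1 ≤ n := Module.finrank_pos
  have hcV : 1 < Nat.card V := Finite.one_lt_card
  obtain ⟨a, -, ha⟩ := (Nat.dvd_prime_pow hp).1 (hm ▸ Dvd.intro_left _ hcount : Nat.card V - 1 ∣ p ^ m)
  by_cases hq2 : q = 2
  · left
    subst hq2
    have ha1 : 1 ≤ a := by
      by_contra ha0
      have h0 : a = 0 := by omega
      rw [h0, pow_zero] at ha
      -- card V = 2, so every element acts trivially
      have hV2 : Nat.card V = 2 := by omega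
      obtain ⟨g, hg⟩ := exists_ne (1 : G)
      apply hg
      apply hρ
      rw [map_one]
      ext w
      change ρ g w = w
      have h2 := (Nat.card_eq_two_iff.1 hV2)
      obtain ⟨x, y, hxy, huniv⟩ := h2
      have hmem : ∀ w : V, w = x ∨ w = y := by
        intro w
        have : w ∈ ({x, y} : Set _) := by rw [huniv]; trivial
        simpa using this
      have hw0 : ∀ w : V, w ≠ 0 → w = v := by
        intro w hw
        rcases hmem 0 with h0 | h0 <;> rcases hmem w with h1 | h1 <;> rcases hmem v with h3 | h3 <;>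
          first
            | exact h1.trans h3.symm
            | exact absurd (h1.trans h0.symm) hw
            | exact absurd (h3.trans h0.symm) hv
      by_cases hw : w = 0
      · rw [hw, map_zero]
      · rw [hw0 w hw]
        apply hw0
        intro h
        exact hv ((map_eq_zero_iff _ (ρ g).injective).1 h)
    have h1 : p ^ a + 1 = 2 ^ n := by
      rw [← ha, ← hcardV]; omega
    have ha1' := nt1 hp ha1 h1
    rw [ha1', pow_one] at ha
    refine ⟨rfl, ha.symm, ?_⟩
    -- stabilizers are trivial
    have hstab : ∀ g : G, ρ g v = v → g = 1 := by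
      intro g hg
      apply hρ
      rw [map_one]
      ext w
      change ρ g w = w
      by_contra hw
      let act : MulAction G V := MulAction.compHom V ρ
      have hact : ∀ (g : G) (w : V), g • w = ρ g w := fun g w => rfl
      -- the orbit of w under ⟨g⟩
      have hgp : IsPGroup p (Subgroup.zpowers g) := hG.to_subgroup _
      obtain ⟨j, hj⟩ := hgp.card_orbit (α := V) w
      have hw0 : w ≠ 0 := by rintro rfl; exact hw (map_zero _)
      have hsub : MulAction.orbit (Subgroup.zpowers g) w ⊆ {u : V | u ≠ 0 ∧ u ≠ v} := by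
        rintro _ ⟨⟨_, ⟨i, rfl⟩⟩, rfl⟩
        refine ⟨?_, ?_⟩
        · intro h
          have : ρ (g ^ i) w = 0 := h
          exact hw0 ((map_eq_zero_iff _ (ρ (g ^ i)).injective).1 this)
        · intro h
          have h2 : ρ (g ^ i) w = v := h
          have h3 : ρ (g ^ i) v = v := by
            have : g ^ i ∈ MulAction.stabilizer G v := Subgroup.zpow_mem _ (show g ∈ MulAction.stabilizer G v from hg) i
            exact this
          have h4 : w = v := by
            apply (ρ (g ^ i)).injective
            rw [h2, h3]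
          rw [h4] at hw
          exact hw hg
      have hcard2 : ({u : V | u ≠ 0 ∧ u ≠ v} : Set V).ncard = p - 1 := by
        have : {u : V | u ≠ 0 ∧ u ≠ v} = ({0, v} : Set V)ᶜ := by ext; simp
        rw [this, Set.ncard_compl, Set.ncard_pair hv.symm]
        omega
      have hle : Nat.card (MulAction.orbit (Subgroup.zpowers g) w) ≤ p - 1 := by
        rw [← hcard2]
        exact Set.ncard_le_ncard hsub (Set.toFinite _)
      rw [hj] at hle
      have hj0 : j = 0 := by
        by_contra hj0
        have : p ^ 1 ≤ p ^ j := Nat.pow_le_pow_right hp.pos (by omega)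
        rw [pow_one] at this
        have := hp.pos
        omega
      rw [hj0, pow_zero, Nat.card_eq_one_iff_unique] at hj
      obtain ⟨hs, -⟩ := hj
      have h5 : (⟨ρ g w, ⟨⟨g, Subgroup.mem_zpowers g⟩, rfl⟩⟩ : MulAction.orbit (Subgroup.zpowers g) w) = ⟨w, MulAction.mem_orbit_self w⟩ :=
        hs.elim _ _
      exact hw (congrArg Subtype.val h5)
    have h2 : Nat.card {g : G // ρ g v = v} = 1 := by
      rw [Nat.card_eq_one_iff_unique]
      refine ⟨⟨fun a b => Subtype.ext ?_⟩, ⟨⟨1, hone v⟩⟩⟩
      rw [hstab a a.2, hstab b b.2]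
    rw [h2, one_mul, ha] at hcount
    exact hcount.symm
  · right
    -- q odd: p = 2
    have hqodd : Odd (q ^ n) := (hq.odd_of_ne_two hq2).pow
    have hp2 : p = 2 := by
      have h1 : Even (p ^ a) := by
        rw [← ha, hcardV]
        exact Nat.Odd.sub_odd hqodd odd_one
      have h2 := (Nat.even_pow.1 h1).1
      exact (hp.even_iff).1 h2
    subst hp2
    have h1 : q ^ n = 2 ^ a + 1 := by
      rw [← ha, ← hcardV]; omega
    rcases nt2 hq hq2 hn1 h1 with hn1' | ⟨hq3, hn2⟩
    · left
      rw [hn1', pow_one] at h1 hcardV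
      -- one-dimensional: G embeds in the units of the field
      have hfin1 : finrank (ZMod q) V = 1 := hn1'
      have hscal : ∀ g : G, ∃! c : ZMod q, ρ g v = c • v := by
        intro g
        obtain ⟨c, hc⟩ := exists_smul_eq_of_finrank_eq_one hfin1 hv (ρ g v)
        refine ⟨c, hc.symm, fun d hd => ?_⟩
        simp only at hd
        have : (d - c) • v = 0 := by rw [sub_smul, hc, ← hd, sub_self]
        rcases smul_eq_zero.1 this with h | h
        · exact sub_eq_zero.1 h
        · exact absurd h hv
      choose χ hχ hχu using hscal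
      simp only at hχ hχu
      have hχmul : ∀ g h, χ (g * h) = χ g * χ h := by
        intro g h
        symm
        apply hχu
        rw [hmul, hχ h, map_smul, hχ g, smul_smul, mul_comm]
      have hχ1 : χ 1 = 1 := by
        symm
        apply hχu
        rw [hone, one_smul]
      let ψ : G →* ZMod q := ⟨⟨χ, hχ1⟩, hχmul⟩
      have hψinj : Function.Injective ψ := by
        intro g h hgh
        apply hρ
        ext w
        obtain ⟨c, hc⟩ := exists_smul_eq_of_finrank_eq_one hfin1 hv w
        have h2 : χ g = χ h := hgh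
        rw [← hc, map_smul, map_smul, hχ, hχ, h2]
      have hcyc : IsCyclic G := isCyclic_of_subgroup_isDomain ψ hψinj
      have hstab1 : Nat.card {g : G // ρ g v = v} = 1 := by
        rw [Nat.card_eq_one_iff_unique]
        refine ⟨⟨fun a b => Subtype.ext ?_⟩, ⟨⟨1, hone v⟩⟩⟩
        have hh : ∀ a : {g : G // ρ g v = v}, χ a = 1 := by
          intro a
          symm
          apply hχu
          rw [a.2, one_smul]
        exact hψinj ((hh a).trans (hh b).symm)
      rw [hstab1, one_mul, ha] at hcount
      exact ⟨rfl, hcardV, ⟨a, h1, hcount.symm⟩, hcyc⟩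
    · right
      subst hq3
      have hV9 : Nat.card V = 9 := by rw [hcardV, hn2]; norm_num
      exact ⟨rfl, rfl, hV9, case_nine hG hV9 ρ hρ htrans⟩

end Cfsg.Agent.S3370
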