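import Cfsg.Statements.S3371
import Cfsg.Agent.H23.HalfTrF

set_option autoImplicit false
open Cfsg

namespace Cfsg.Agent.S3371

/-- Let q be a prime, V a non-trivial finite vector space over the field with q elements, and G a finite p-group (p prime) acting faithfully and linearly on V such that all G-orbits on the non-zero vectors have the same size. Then one of the following holds: G is cyclic or generalized quaternion and acts semiregularly on the non-zero vectors; or V has q² elements with q = 2^m − 1 and G is dihedral of order 2^(m+1) or semidihedral of order 2^(m+2); or V has q² elements with q = 2^m + 1 and, in suitable coordinates V = F_q², G is exactly the group of maps (x, y) ↦ (a x, ± a⁻¹ y) and (x, y) ↦ (± a⁻¹ y, a x) with a ≠ 0; or V has 81 elements (q = 3) and G is a 2-group. -/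
theorem result (q : ℕ) [Fact q.Prime] {V : Type*} [AddCommGroup V] [Module (ZMod q) V] [Finite V] [Nontrivial V]
    {G : Type*} [Group G] [Finite G] (p : ℕ) [Fact p.Prime] (hG : IsPGroup p G)
    (ρ : G →* (V ≃ₗ[ZMod q] V)) (hρ : Function.Injective ρ)
    (hhalf : ∀ v w : V, v ≠ 0 → w ≠ 0 → Nat.card {u : V | ∃ g : G, ρ g v = u} = Nat.card {u : V | ∃ g : G, ρ g w = u}) :
    ((IsCyclic G ∨ ∃ n : ℕ, Nonempty (G ≃* QuaternionGroup n)) ∧ ∀ v : V, v ≠ 0 → ∀ g : G, ρ g v = v → g = 1) ∨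
    (Nat.card V = q ^ 2 ∧ ∃ m : ℕ, q = 2 ^ m - 1 ∧
      (Nonempty (G ≃* DihedralGroup (2 ^ m)) ∨ (Cfsg.IsQuasiDihedral G ∧ Nat.card G = 2 ^ (m + 2)))) ∨
    (Nat.card V = q ^ 2 ∧ (∃ m : ℕ, q = 2 ^ m + 1) ∧
      ∃ e : V ≃ₗ[ZMod q] (Fin 2 → ZMod q), ∀ f : (Fin 2 → ZMod q) ≃ₗ[ZMod q] (Fin 2 → ZMod q),
        (∃ g : G, f = e.symm.trans ((ρ g).trans e)) ↔
        ∃ a s : ZMod q, a ≠ 0 ∧ (s = 1 ∨ s = -1) ∧
          ((∀ v, f v = ![a * v 0, s * a⁻¹ * v 1]) ∨ (∀ v, f v = ![s * a⁻¹ * v 1, a * v 0]))) ∨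
    (Nat.card V = 81 ∧ q = 3 ∧ p = 2) := by
  classical
  have hh : Cfsg.Agent.H23.HT.Half ρ := Cfsg.Agent.H23.HT.half_of_orbit ρ hhalf
  by_cases hsr : ∀ v : V, v ≠ 0 → ∀ g : G, ρ g v = v → g = 1
  · exact Or.inl ⟨Cfsg.Agent.H23.HT.semireg ρ hG hsr, hsr⟩
  have hns : ∃ v : V, v ≠ 0 ∧ ∃ g : G, g ≠ 1 ∧ ρ g v = v := by
    push Not at hsr
    obtain ⟨v, hv, g, h1, h2⟩ := hsr
    exact ⟨v, hv, g, h2, h1⟩
  right
  obtain ⟨v0, hv0, g0, hg0, hgv0⟩ := hns
  -- characteristic prime to the group order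
  have hpq : p ≠ q := by
    rintro rfl
    let _ : MulAction G V := MulAction.compHom V ρ
    have hdvd : p ∣ Nat.card V := by
      rw [Module.natCard_eq_pow_finrank (K := ZMod p) (V := V), Nat.card_zmod]
      have : 0 < Module.finrank (ZMod p) V := Module.finrank_pos
      exact dvd_pow_self p (by omega)
    have h0 : (0 : V) ∈ MulAction.fixedPoints G V := by
      intro g
      show ρ g 0 = 0
      exact map_zero _
    obtain ⟨v, hv, hv'⟩ := hG.exists_fixed_point_of_prime_dvd_card_of_fixed_point V hdvd h0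
    have hst : Cfsg.Agent.H23.HT.stab ρ v = ⊤ := by
      rw [Subgroup.eq_top_iff']
      intro g
      exact hv g
    apply hg0
    apply hρ
    rw [map_one]
    ext w
    by_cases hw : w = 0
    · rw [hw, map_zero, map_zero]
    have h1 : Cfsg.Agent.H23.HT.stab ρ w = ⊤ := by
      apply Subgroup.eq_top_of_card_eq
      rw [hh w v hw (fun h => hv' h.symm), hst, Subgroup.card_top]
    have : g0 ∈ Cfsg.Agent.H23.HT.stab ρ w := by rw [h1]; trivial
    exact this
  obtain ⟨k, hk⟩ := hG.exists_card_eq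
  have hGc : (Nat.card G : ZMod q) ≠ 0 := by
    rw [hk]
    push_cast
    apply pow_ne_zero
    rw [Ne, ZMod.natCast_eq_zero_iff]
    intro h
    exact hpq ((Nat.prime_dvd_prime_iff_eq (Fact.out : q.Prime) (Fact.out : p.Prime)).1 h).symm
  have hcyc : ¬ IsCyclic G := by
    intro hc
    apply hg0
    refine Cfsg.Agent.H23.HT.semireg_of_normal ρ hρ hGc hh hv0 hgv0 ?_
    let _ : CommGroup G := hc.commGroup
    exact ⟨fun n hn x => by rw [mul_comm x n, mul_inv_cancel_right]; exact hn⟩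
  by_cases hn : ∀ A : Subgroup G, A.Normal → IsMulCommutative A → IsCyclic A
  · have hna : ∃ x y : G, x * y ≠ y * x := by
      by_contra hcon
      push Not at hcon
      have h1 : IsMulCommutative (⊤ : Subgroup G) := ⟨⟨fun x y => Subtype.ext (hcon x y)⟩⟩
      have h2 : IsCyclic (⊤ : Subgroup G) := hn ⊤ inferInstance h1
      exact hcyc (isCyclic_of_surjective (Subgroup.topEquiv : (⊤ : Subgroup G) ≃* G)
        (Subgroup.topEquiv : (⊤ : Subgroup G) ≃* G).surjective)
    obtain ⟨hp2, -⟩ := Cfsg.Agent.H9.exists_cyclic_index_two hG hn hna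
    subst hp2
    left
    exact Cfsg.Agent.H23.HT.cyc_type ρ hG hρ hGc hh hn ⟨v0, hv0, g0, hg0, hgv0⟩
  · push Not at hn
    obtain ⟨A, hAn, hAc, hAnc⟩ := hn
    obtain ⟨E, hEn, -, hEc, hEp, hE⟩ := Cfsg.Agent.H23.HT.exists_elem_sq hG A hAn hAc hAnc
    by_cases hp2 : p = 2
    · subst hp2
      obtain ⟨b, z, g1, hF⟩ := Cfsg.Agent.H23.HT.exists_four ρ hG hρ hGc hh E hEc hEp hE
      have h2 : (2 : ZMod q) ≠ 0 := by
        intro h
        apply hGc
        have hk0 : k ≠ 0 := by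
          rintro rfl
          rw [pow_zero] at hk
          apply hg0
          have := (Nat.card_eq_one_iff_unique.1 hk).1
          exact Subsingleton.elim _ _
        rw [hk]
        push_cast
        rw [h, zero_pow hk0]
      rcases Cfsg.Agent.H23.HT.four_card ρ hG h2 hF with ⟨hV, hm⟩ | ⟨hV, hq3⟩
      · right; left
        exact ⟨hV, hm, Cfsg.Agent.H23.HT.four_coord ρ hρ hh h2 hV hF⟩
      · right; right
        exact ⟨hV, hq3, rfl⟩
    · exact absurd (Cfsg.Agent.H23.HT.no_sq_odd ρ hp2 hG hρ hGc hh E hEc hEp hE) id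

end Cfsg.Agent.S3371
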