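import Cfsg.Statements.S3374
-- import your own Cfsg.Agent.* helpers here
import Cfsg.Agent.Frob.Basic

set_option autoImplicit false
open Cfsg

namespace Cfsg.Agent.S3374

open Matrix

abbrev SL5 := Matrix.SpecialLinearGroup (Fin 2) (ZMod 5)
abbrev SL11 := Matrix.SpecialLinearGroup (Fin 2) (ZMod 11)

/-- the entries of the image of `[[0,-1/c],[c,0]]` in `SL(2,11)`. -/
def wt (c : ZMod 5) : ZMod 11 × ZMod 11 × ZMod 11 × ZMod 11 :=
  if c = 1 then (10, 1, 9, 1) else if c = 2 then (8, 7, 8, 3) else if c = 3 then (3, 4, 3, 8)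
  else (1, 10, 2, 10)

/-- the entries of the image of `diag(c, 1/c)`. -/
def ht (c : ZMod 5) : ZMod 11 × ZMod 11 × ZMod 11 × ZMod 11 :=
  if c = 1 then (1, 0, 0, 1) else if c = 2 then (0, 4, 8, 0) else if c = 3 then (0, 7, 3, 0)
  else (10, 0, 0, 10)

def p3 (c : ZMod 5) : ZMod 11 :=
  if c = 0 then 1 else if c = 1 then 3 else if c = 2 then 9 else if c = 3 then 5 else 4

def p4 (c : ZMod 5) : ZMod 11 :=
  if c = 0 then 1 else if c = 1 then 4 else if c = 2 then 5 else if c = 3 then 9 else 3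

/-- the embedding on entries. -/
def fe (a b c d : ZMod 5) : ZMod 11 × ZMod 11 × ZMod 11 × ZMod 11 :=
  if c = 0 then
    ((ht a).1 * p3 (b * a ^ 3), (ht a).2.1 * p4 (b * a ^ 3), (ht a).2.2.1 * p3 (b * a ^ 3),
      (ht a).2.2.2 * p4 (b * a ^ 3))
  else
    (p3 (a * c ^ 3) * (wt c).1 * p3 (d * c ^ 3), p3 (a * c ^ 3) * (wt c).2.1 * p4 (d * c ^ 3),
      p4 (a * c ^ 3) * (wt c).2.2.1 * p3 (d * c ^ 3), p4 (a * c ^ 3) * (wt c).2.2.2 * p4 (d * c ^ 3))

theorem fe_det : ∀ a b c d : ZMod 5, a * d - b * c = 1 →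
    (fe a b c d).1 * (fe a b c d).2.2.2 - (fe a b c d).2.1 * (fe a b c d).2.2.1 = 1 := by
  decide +kernel

theorem fe_u : ∀ a b c d : ZMod 5, a * d - b * c = 1 →
    fe a (a + b) c (c + d) = ((fe a b c d).1 * 3, (fe a b c d).2.1 * 4, (fe a b c d).2.2.1 * 3,
      (fe a b c d).2.2.2 * 4) := by
  decide +kernel

theorem fe_w : ∀ a b c d : ZMod 5, a * d - b * c = 1 →
    fe b (-a) d (-c) = ((fe a b c d).1 * 10 + (fe a b c d).2.1 * 9, (fe a b c d).1 + (fe a b c d).2.1,
      (fe a b c d).2.2.1 * 10 + (fe a b c d).2.2.2 * 9, (fe a b c d).2.2.1 + (fe a b c d).2.2.2) := by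
  decide +kernel

theorem fe_tr : ∀ a b c d : ZMod 5, a * d - b * c = 1 → ¬ (a = 1 ∧ b = 0 ∧ c = 0 ∧ d = 1) →
    (fe a b c d).1 + (fe a b c d).2.2.2 ≠ 2 := by
  decide +kernel

theorem det5 (A : SL5) : A 0 0 * A 1 1 - A 0 1 * A 1 0 = 1 := by
  have := A.2
  rwa [Matrix.det_fin_two] at this

def fA (A : SL5) : SL11 :=
  ⟨!![(fe (A 0 0) (A 0 1) (A 1 0) (A 1 1)).1, (fe (A 0 0) (A 0 1) (A 1 0) (A 1 1)).2.1;
      (fe (A 0 0) (A 0 1) (A 1 0) (A 1 1)).2.2.1, (fe (A 0 0) (A 0 1) (A 1 0) (A 1 1)).2.2.2], by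
    rw [Matrix.det_fin_two_of]
    exact fe_det _ _ _ _ (det5 A)⟩

def u5 : SL5 := ⟨!![1, 1; 0, 1], by decide⟩
def w5 : SL5 := ⟨!![0, -1; 1, 0], by decide⟩
def u11 : SL11 := ⟨!![3, 0; 0, 4], by decide⟩
def w11 : SL11 := ⟨!![10, 1; 9, 1], by decide⟩

theorem fA_u (A : SL5) : fA (A * u5) = fA A * u11 := by
  have h := fe_u _ _ _ _ (det5 A)
  have e00 : (A * u5 : SL5) 0 0 = A 0 0 := by
    change (A.1 * u5.1) 0 0 = _
    simp [u5, Matrix.mul_apply, Fin.sum_univ_two]
  have e01 : (A * u5 : SL5) 0 1 = A 0 0 + A 0 1 := by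
    change (A.1 * u5.1) 0 1 = _
    simp [u5, Matrix.mul_apply, Fin.sum_univ_two]
  have e10 : (A * u5 : SL5) 1 0 = A 1 0 := by
    change (A.1 * u5.1) 1 0 = _
    simp [u5, Matrix.mul_apply, Fin.sum_univ_two]
  have e11 : (A * u5 : SL5) 1 1 = A 1 0 + A 1 1 := by
    change (A.1 * u5.1) 1 1 = _
    simp [u5, Matrix.mul_apply, Fin.sum_univ_two]
  apply Subtype.ext
  rw [Matrix.SpecialLinearGroup.coe_mul]
  simp only [fA, u11]
  rw [e00, e01, e10, e11, h, Matrix.mul_fin_two]
  simp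

theorem fA_w (A : SL5) : fA (A * w5) = fA A * w11 := by
  have h := fe_w _ _ _ _ (det5 A)
  have e00 : (A * w5 : SL5) 0 0 = A 0 1 := by
    change (A.1 * w5.1) 0 0 = _
    simp [w5, Matrix.mul_apply, Fin.sum_univ_two]
  have e01 : (A * w5 : SL5) 0 1 = - A 0 0 := by
    change (A.1 * w5.1) 0 1 = _
    simp [w5, Matrix.mul_apply, Fin.sum_univ_two]
  have e10 : (A * w5 : SL5) 1 0 = A 1 1 := by
    change (A.1 * w5.1) 1 0 = _
    simp [w5, Matrix.mul_apply, Fin.sum_univ_two]
  have e11 : (A * w5 : SL5) 1 1 = - A 1 0 := by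
    change (A.1 * w5.1) 1 1 = _
    simp [w5, Matrix.mul_apply, Fin.sum_univ_two]
  apply Subtype.ext
  rw [Matrix.SpecialLinearGroup.coe_mul]
  simp only [fA, w11]
  rw [e00, e01, e10, e11, h, Matrix.mul_fin_two]
  simp

theorem fA_one : fA 1 = 1 := by
  apply Subtype.ext
  decide +kernel

theorem fA_u5 : fA u5 = u11 := by
  have := fA_u 1
  rwa [one_mul, fA_one, one_mul] at this

theorem fA_w5 : fA w5 = w11 := by
  have := fA_w 1
  rwa [one_mul, fA_one, one_mul] at this

/-- the set of elements on which `fA` is multiplicative from the right. -/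
def S : Subgroup SL5 where
  carrier := {B | ∀ A, fA (A * B) = fA A * fA B}
  mul_mem' := by
    intro x y hx hy A
    rw [← mul_assoc, hy, hx, mul_assoc, ← hy]
  one_mem' := by
    intro A
    rw [mul_one, fA_one, mul_one]
  inv_mem' := by
    intro x hx A
    have h1 := hx (A * x⁻¹)
    have h2 := hx x⁻¹
    rw [inv_mul_cancel_right] at h1
    rw [inv_mul_cancel, fA_one] at h2
    rw [h1, mul_assoc, mul_eq_one_iff_eq_inv.1 h2.symm, mul_inv_cancel, mul_one]

theorem u_mem : u5 ∈ S := fun A => by rw [fA_u, fA_u5]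
theorem w_mem : w5 ∈ S := fun A => by rw [fA_w, fA_w5]

def T (t : ZMod 5) : SL5 := ⟨!![1, t; 0, 1], by simp [Matrix.det_fin_two_of]⟩
def L (t : ZMod 5) : SL5 := ⟨!![1, 0; t, 1], by simp [Matrix.det_fin_two_of]⟩

theorem T_mem (t : ZMod 5) : T t ∈ S := by
  have h : ∀ t : ZMod 5, T t = u5 ^ t.val := by decide +kernel
  rw [h]
  exact S.pow_mem u_mem _

theorem L_mem (t : ZMod 5) : L t ∈ S := by
  have h : ∀ t : ZMod 5, L t = w5 * T (-t) * w5⁻¹ := by decide +kernel
  rw [h]
  exact S.mul_mem (S.mul_mem w_mem (T_mem _)) (S.inv_mem w_mem)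

instance : Fact (Nat.Prime 5) := ⟨by norm_num⟩
instance : Fact (Nat.Prime 11) := ⟨by norm_num⟩

theorem mem_of_ne (A : SL5) (hc : A 1 0 ≠ 0) : A ∈ S := by
  have h : A = T ((A 0 0 - 1) / A 1 0) * L (A 1 0) * T ((A 1 1 - 1) / A 1 0) := by
    have hd := det5 A
    apply Subtype.ext
    rw [Matrix.SpecialLinearGroup.coe_mul, Matrix.SpecialLinearGroup.coe_mul]
    simp only [T, L]
    rw [Matrix.mul_fin_two, Matrix.mul_fin_two]
    ext i j
    fin_cases i <;> fin_cases j
    · simp; field_simp; ring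
    · simp
      field_simp
      linear_combination -hd
    · simp
    · simp; field_simp; ring
  rw [h]
  exact S.mul_mem (S.mul_mem (T_mem _) (L_mem _)) (T_mem _)

theorem mem_S (A : SL5) : A ∈ S := by
  by_cases hc : A 1 0 = 0
  · have h1 : A * w5 ∈ S := by
      apply mem_of_ne
      have e10 : (A * w5 : SL5) 1 0 = A 1 1 := by
        change (A.1 * w5.1) 1 0 = _
        simp [w5, Matrix.mul_apply, Fin.sum_univ_two]
      rw [e10]
      intro h
      have := det5 A
      rw [hc, h] at this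
      simp at this
    have := S.mul_mem h1 (S.inv_mem w_mem)
    rwa [mul_inv_cancel_right] at this
  · exact mem_of_ne A hc

def F : SL5 →* SL11 where
  toFun := fA
  map_one' := fA_one
  map_mul' := fun A B => mem_S B A

theorem fpf (A : SL5) (hA : A ≠ 1) (v : Fin 2 → ZMod 11) (hv : (F A) • v = v) : v = 0 := by
  have htr : (F A : Matrix (Fin 2) (Fin 2) (ZMod 11)) 0 0 + (F A : Matrix (Fin 2) (Fin 2) (ZMod 11)) 1 1 ≠ 2 := by
    apply fe_tr _ _ _ _ (det5 A)
    rintro ⟨h1, h2, h3, h4⟩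
    apply hA
    ext i j
    fin_cases i <;> fin_cases j
    · exact h1
    · exact h2
    · exact h3
    · exact h4
  have hdet := (F A).2
  rw [Matrix.det_fin_two] at hdet
  have hd : ((F A : Matrix (Fin 2) (Fin 2) (ZMod 11)) - 1).det ≠ 0 := by
    rw [Matrix.det_fin_two]
    simp only [Matrix.sub_apply, Matrix.one_apply_eq]
    intro h
    apply htr
    rw [Matrix.one_apply_ne (by decide : (0 : Fin 2) ≠ 1), Matrix.one_apply_ne (by decide : (1 : Fin 2) ≠ 0)] at h
    linear_combination hdet - h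
  apply Matrix.eq_zero_of_mulVec_eq_zero hd
  rw [Matrix.sub_mulVec, Matrix.one_mulVec, sub_eq_zero]
  exact hv

abbrev V := Multiplicative (Fin 2 → ZMod 11)

def act : SL5 →* MulAut V where
  toFun := fun A => AddEquiv.toMultiplicative (DistribMulAction.toAddEquiv (Fin 2 → ZMod 11) (F A))
  map_one' := by
    ext v : 1
    change Multiplicative.ofAdd (F 1 • Multiplicative.toAdd v) = v
    rw [map_one, one_smul]; rfl
  map_mul' := by
    intro A B
    ext v : 1
    change Multiplicative.ofAdd (F (A * B) • Multiplicative.toAdd v) =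
      Multiplicative.ofAdd (F A • (F B • Multiplicative.toAdd v))
    rw [map_mul, mul_smul]

theorem act_fpf (A : SL5) (hA : A ≠ 1) (v : V) (hv : act A v = v) : v = 1 :=
  fpf A hA (Multiplicative.toAdd v) hv

/-- SL(2,5) occurs as a Frobenius complement: there is a finite group L with a subgroup H isomorphic to SL(2,5) which is a non-trivial proper subgroup meeting each conjugate gHg⁻¹ with g outside H trivially. -/
theorem result :
    ∃ (L : Type) (_ : Group L) (_ : Finite L) (H : Subgroup L),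
      Cfsg.IsFrobeniusComplement H ∧ Nonempty (H ≃* Matrix.SpecialLinearGroup (Fin 2) (ZMod 5)) := by
  refine ⟨V ⋊[act] SL5, inferInstance, Finite.of_equiv (V × SL5) SemidirectProduct.equivProd.symm,
    (SemidirectProduct.inr : SL5 →* V ⋊[act] SL5).range, ?_,
    ⟨(MonoidHom.ofInjective SemidirectProduct.inr_injective).symm⟩⟩
  have hmem : ∀ x : V ⋊[act] SL5, x ∈ (SemidirectProduct.inr : SL5 →* V ⋊[act] SL5).range ↔ x.left = 1 := by
    intro x
    constructor
    · rintro ⟨a, rfl⟩; rfl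
    · intro h
      exact ⟨x.right, SemidirectProduct.ext h.symm rfl⟩
  rw [Frob.isFrobeniusComplement_iff]
  refine ⟨?_, ?_, ?_⟩
  · intro h
    have h1 : (SemidirectProduct.inr w5 : V ⋊[act] SL5) ∈ (SemidirectProduct.inr : SL5 →* V ⋊[act] SL5).range := ⟨_, rfl⟩
    rw [h, Subgroup.mem_bot] at h1
    have h2 : w5 = 1 := congrArg (fun x => x.right) h1
    revert h2
    decide +kernel
  · intro h
    have h1 : (SemidirectProduct.inl (Multiplicative.ofAdd (fun _ => 1)) : V ⋊[act] SL5) ∈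
      (SemidirectProduct.inr : SL5 →* V ⋊[act] SL5).range := by rw [h]; trivial
    rw [hmem] at h1
    have h2 : (fun _ => 1 : Fin 2 → ZMod 11) = 0 := h1
    have h3 := congrFun h2 0
    revert h3
    decide
  · intro g h hh h1 hg
    obtain ⟨b, rfl⟩ := hh
    rw [hmem] at hg ⊢
    have hb : b ≠ 1 := by
      rintro rfl
      exact h1 (map_one _)
    have hb' : g.right * b * g.right⁻¹ ≠ 1 := by
      intro h
      apply hb
      have : b = g.right⁻¹ * (g.right * b * g.right⁻¹) * g.right := by group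
      rw [this, h]; group
    apply act_fpf _ hb'
    simp only [SemidirectProduct.mul_left, SemidirectProduct.left_inr, SemidirectProduct.right_inr,
      SemidirectProduct.mul_right, SemidirectProduct.inv_left, mul_one, map_one, map_mul, map_inv] at hg
    have e : (act (g.right * b * g.right⁻¹)) g.left = act g.right (act b (act g.right⁻¹ g.left)) := by
      rw [map_mul, map_mul]; rfl
    rw [e, map_inv]
    exact (mul_inv_eq_one.1 hg).symm

end Cfsg.Agent.S3374
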