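import Cfsg.Statements.S3375

set_option autoImplicit false
open Cfsg

namespace Cfsg.Agent.S3375

/-- Let γ be an automorphism of order 2 of a finite group H. (i) If γ fixes only the identity, then H is abelian and γ inverts every element. (ii) If γ has exactly two fixed points and H has a subgroup of index 2, then H has a γ-invariant abelian subgroup of index 2 on which γ acts by inversion. -/
theorem result {H : Type*} [Group H] [Finite H] (γ : MulAut H) (hγ : orderOf γ = 2) :
    ((∀ h : H, γ h = h → h = 1) → (∀ a b : H, a * b = b * a) ∧ ∀ h : H, γ h = h⁻¹) ∧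
    ((Nat.card {h : H // γ h = h} = 2 ∧ ∃ M : Subgroup H, M.index = 2) →
      ∃ A : Subgroup H, A.index = 2 ∧ IsMulCommutative A ∧ (∀ a ∈ A, γ a ∈ A) ∧ ∀ a ∈ A, γ a = a⁻¹) := by
  have hinv : ∀ h : H, γ (γ h) = h := by
    intro h
    have h2 : γ ^ 2 = 1 := by rw [← hγ]; exact pow_orderOf_eq_one γ
    have := congrArg (fun e : MulAut H => e h) h2
    simpa [pow_two] using this
  -- commutativity from inversion
  have hcomm : ∀ a b : H, γ a = a⁻¹ → γ b = b⁻¹ → γ (a * b) = (a * b)⁻¹ → a * b = b * a := by
    intro a b ha hb hab
    rw [map_mul, ha, hb, ← mul_inv_rev] at hab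
    exact (inv_injective hab).symm
  constructor
  · intro hfix
    have hinj : Function.Injective (fun h : H => h⁻¹ * γ h) := by
      intro h k hk
      have hk' : h⁻¹ * γ h = k⁻¹ * γ k := hk
      have h1 : γ (k * h⁻¹) = k * h⁻¹ := by
        rw [map_mul, map_inv]
        have : γ k = k * (h⁻¹ * γ h) := by rw [hk']; group
        rw [this]; group
      have h2 := hfix _ h1
      exact (mul_inv_eq_one.1 h2).symm
    have hsurj := Finite.surjective_of_injective hinj
    have hall : ∀ h : H, γ h = h⁻¹ := by
      intro x
      obtain ⟨h, rfl⟩ := hsurj x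
      simp only [map_mul, map_inv, hinv]
      group
    exact ⟨fun a b => hcomm a b (hall a) (hall b) (hall _), hall⟩
  · rintro ⟨hcard, M, hM⟩
    -- an invariant subgroup of index two
    obtain ⟨N, hN, hNinv⟩ : ∃ N : Subgroup H, N.index = 2 ∧ ∀ h : H, h ∈ N ↔ γ h ∈ N := by
      by_cases hinvM : ∀ h : H, h ∈ M ↔ γ h ∈ M
      · exact ⟨M, hM, hinvM⟩
      · push Not at hinvM
        obtain ⟨a, ha⟩ := hinvM
        have hmul : ∀ a b : H, a * b ∈ M ↔ (a ∈ M ↔ b ∈ M) := fun a b =>
          Subgroup.mul_mem_iff_of_index_two hM
        refine ⟨{ carrier := {h | h ∈ M ↔ γ h ∈ M}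
                  mul_mem' := ?_
                  one_mem' := ?_
                  inv_mem' := ?_ }, ?_, ?_⟩
        · intro x y hx hy
          simp only [Set.mem_setOf_eq, map_mul, hmul] at *
          tauto
        · simp
        · intro x hx
          simpa using hx
        · rw [Subgroup.index_eq_two_iff]
          refine ⟨a, fun b => ?_⟩
          simp only [Subgroup.mem_mk, Submonoid.mem_mk, Subsemigroup.mem_mk, Set.mem_setOf_eq, map_mul, hmul, Xor']
          tauto
        · intro h
          simp only [Subgroup.mem_mk, Submonoid.mem_mk, Subsemigroup.mem_mk, Set.mem_setOf_eq, hinv]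
          tauto
    have hmul : ∀ a b : H, a * b ∈ N ↔ (a ∈ N ↔ b ∈ N) := fun a b =>
      Subgroup.mul_mem_iff_of_index_two hN
    let C : Subgroup H :=
      { carrier := {h | γ h = h}
        mul_mem' := by
          intro x y hx hy
          simp only [Set.mem_setOf_eq, map_mul] at *
          rw [hx, hy]
        one_mem' := by simp
        inv_mem' := by
          intro x hx
          simp only [Set.mem_setOf_eq, map_inv] at *
          rw [hx] }
    have hCcard : Nat.card C = 2 := hcard
    let f : H ⧸ C → N := Quotient.lift (s := QuotientGroup.leftRel C)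
      (fun h => (⟨h * (γ h)⁻¹, by
        rw [hmul, inv_mem_iff]; exact hNinv h⟩ : N)) (by
        intro a b hab
        have hab' : a⁻¹ * b ∈ C := QuotientGroup.leftRel_apply.1 hab
        have h1 : γ (a⁻¹ * b) = a⁻¹ * b := hab'
        rw [map_mul, map_inv] at h1
        ext
        simp only
        have h2 : γ b = γ a * (a⁻¹ * b) := by rw [← h1]; group
        rw [h2]; group)
    have hf : ∀ h : H, ((f (h : H ⧸ C) : N) : H) = h * (γ h)⁻¹ := fun h => rfl
    have hfinj : Function.Injective f := by
      intro x y
      induction x using QuotientGroup.induction_on with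
      | H a =>
      induction y using QuotientGroup.induction_on with
      | H b =>
      intro hxy
      have h1 := congrArg (fun t : N => (t : H)) hxy
      simp only [hf] at h1
      rw [QuotientGroup.eq]
      change γ (a⁻¹ * b) = a⁻¹ * b
      rw [map_mul, map_inv]
      have : (γ a)⁻¹ = a⁻¹ * (b * (γ b)⁻¹) := by rw [← h1]; group
      rw [this]; group
    have hcardeq : Nat.card N ≤ Nat.card (H ⧸ C) := by
      have h1 := Subgroup.card_mul_index N
      have h2 := Subgroup.card_mul_index C
      rw [hN] at h1
      rw [hCcard] at h2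
      have h3 : Nat.card (H ⧸ C) = C.index := rfl
      omega
    have hfsurj : Function.Surjective f := (hfinj.bijective_of_nat_card_le hcardeq).2
    have hall : ∀ a ∈ N, γ a = a⁻¹ := by
      intro a ha
      obtain ⟨x, hx⟩ := hfsurj ⟨a, ha⟩
      induction x using QuotientGroup.induction_on with
      | H h =>
      have h1 := congrArg (fun t : N => (t : H)) hx
      simp only [hf] at h1
      rw [← h1, map_mul, map_inv, hinv]
      group
    refine ⟨N, hN, ?_, fun a ha => (hNinv a).1 ha, hall⟩
    rw [isMulCommutative_iff]
    rintro ⟨a, ha⟩ ⟨b, hb⟩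
    ext
    exact hcomm a b (hall a ha) (hall b hb) (hall _ (N.mul_mem ha hb))

end Cfsg.Agent.S3375
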