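import Cfsg.Statements.S3377
-- import your own Cfsg.Agent.* helpers here
import Cfsg.Agent.H56.Tri235

set_option autoImplicit false
open Cfsg

namespace Cfsg.Agent.S3377

/-- The alternating group of degree 5 has the presentation ⟨x, y | x³ = 1, y⁵ = 1, (xy)² = 1⟩: the group so presented is isomorphic to Alt(5). -/
theorem result :
    Nonempty (PresentedGroup ({FreeGroup.of (0 : Fin 2) ^ 3, FreeGroup.of (1 : Fin 2) ^ 5,
        (FreeGroup.of (0 : Fin 2) * FreeGroup.of 1) ^ 2} : Set (FreeGroup (Fin 2))) ≃* alternatingGroup (Fin 5)) := by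
  set R : Set (FreeGroup (Fin 2)) := {FreeGroup.of (0 : Fin 2) ^ 3, FreeGroup.of (1 : Fin 2) ^ 5,
        (FreeGroup.of (0 : Fin 2) * FreeGroup.of 1) ^ 2} with hR
  have hx : (PresentedGroup.of 0 : PresentedGroup R) ^ 3 = 1 :=
    PresentedGroup.one_of_mem (rels := R) (x := FreeGroup.of 0 ^ 3) (by rw [hR]; simp)
  have hy : (PresentedGroup.of 1 : PresentedGroup R) ^ 5 = 1 :=
    PresentedGroup.one_of_mem (rels := R) (x := FreeGroup.of 1 ^ 5) (by rw [hR]; simp)
  have hxy : ((PresentedGroup.of 0 : PresentedGroup R) * PresentedGroup.of 1) ^ 2 = 1 :=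
    PresentedGroup.one_of_mem (rels := R) (x := (FreeGroup.of 0 * FreeGroup.of 1) ^ 2) (by rw [hR]; simp)
  have hgen : Subgroup.closure {(PresentedGroup.of 0 : PresentedGroup R), PresentedGroup.of 1} = ⊤ := by
    rw [← PresentedGroup.closure_range_of R]
    congr 1
    ext z
    constructor
    · rintro (rfl | rfl) <;> exact ⟨_, rfl⟩
    · rintro ⟨i, rfl⟩
      fin_cases i
      · left; rfl
      · right; rfl
  obtain ⟨hfin, hcard⟩ := H56.Tri235.card_le hx hy hxy hgen
  let f : Fin 2 → alternatingGroup (Fin 5) := ![H56.Tri235.a5, H56.Tri235.b5]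
  have hf : ∀ r ∈ R, FreeGroup.lift f r = 1 := by
    rintro r (rfl | rfl | rfl)
    · simp only [map_pow, FreeGroup.lift_apply_of]
      exact H56.Tri235.a5_pow
    · simp only [map_pow, FreeGroup.lift_apply_of]
      exact H56.Tri235.b5_pow
    · simp only [map_pow, map_mul, FreeGroup.lift_apply_of]
      exact H56.Tri235.ab5_pow
  let φ : PresentedGroup R →* alternatingGroup (Fin 5) := PresentedGroup.toGroup hf
  have hφ0 : φ (PresentedGroup.of 0) = H56.Tri235.a5 := PresentedGroup.toGroup.of hf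
  have hφ1 : φ (PresentedGroup.of 1) = H56.Tri235.b5 := PresentedGroup.toGroup.of hf
  have hsurj : Function.Surjective φ := by
    rw [← MonoidHom.range_eq_top, eq_top_iff, ← H56.Tri235.closure_eq_top, Subgroup.closure_le]
    rintro z (rfl | rfl)
    · exact ⟨_, hφ0⟩
    · exact ⟨_, hφ1⟩
  have hle := Nat.card_le_card_of_surjective φ hsurj
  rw [H56.Tri235.card_alt5] at hle
  have hc : Nat.card (PresentedGroup R) = Nat.card (alternatingGroup (Fin 5)) := by
    rw [H56.Tri235.card_alt5]; omega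
  have hbij : Function.Bijective φ := (Nat.bijective_iff_surjective_and_card φ).2 ⟨hsurj, hc⟩
  exact ⟨MulEquiv.ofBijective φ hbij⟩

end Cfsg.Agent.S3377
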