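import Cfsg.Statements.S3379

set_option autoImplicit false
open Cfsg

namespace Cfsg.Agent.S3379

/-- Let G be a finite group all of whose Sylow subgroups are cyclic. Then G is generated by two elements x and y of coprime orders n and m with x⁻¹yx = y^r, where gcd(r − 1, m) = 1 and r^n ≡ 1 (mod m). -/
theorem result {G : Type*} [Group G] [Finite G]
    (hZ : ∀ (p : ℕ) [Fact p.Prime] (P : Sylow p G), IsCyclic (P : Subgroup G)) :
    ∃ (x y : G) (n m r : ℕ), Subgroup.closure {x, y} = ⊤ ∧ orderOf x = n ∧ orderOf y = m ∧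
      x⁻¹ * y * x = y ^ r ∧ Nat.Coprime (r - 1) m ∧ Nat.Coprime n m ∧ 1 ≤ r ∧ r ^ n % m = 1 % m := by
  have hG : IsZGroup G := ⟨fun p hp P => by
    have : Fact p.Prime := ⟨hp⟩
    exact hZ p P⟩
  obtain ⟨H, hH⟩ := Subgroup.exists_right_complement'_of_coprime hG.coprime_commutator_index
  have h1 : Abelianization G ≃* H := hH.symm.QuotientMulEquiv
  have hHc : IsCyclic H := isCyclic_of_surjective _ h1.surjective
  have hNc : IsCyclic (commutator G) := IsZGroup.isCyclic_commutator G
  have hcop : (Nat.card (commutator G)).Coprime (Nat.card H) :=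
    Nat.card_congr h1.toEquiv ▸ hG.coprime_commutator_index
  obtain ⟨x, hx⟩ := (Subgroup.isCyclic_iff_exists_zpowers_eq_top H).1 hHc
  obtain ⟨y, hy⟩ := (Subgroup.isCyclic_iff_exists_zpowers_eq_top (commutator G)).1 hNc
  have hsup : Subgroup.zpowers y ⊔ Subgroup.zpowers x = ⊤ := by
    rw [hx, hy]; exact hH.sup_eq_top
  have hclos : Subgroup.closure {x, y} = ⊤ := by
    rw [eq_top_iff, ← hsup, sup_le_iff, Subgroup.zpowers_le, Subgroup.zpowers_le]
    exact ⟨Subgroup.subset_closure (by simp), Subgroup.subset_closure (by simp)⟩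
  have hm : orderOf y = Nat.card (commutator G) := by rw [← hy, Nat.card_zpowers]
  have hn : orderOf x = Nat.card H := by rw [← hx, Nat.card_zpowers]
  have hypos : 0 < orderOf y := orderOf_pos y
  have hycomm : y ∈ commutator G := by rw [← hy]; exact Subgroup.mem_zpowers y
  obtain ⟨r₀, hr₀⟩ : ∃ r : ℕ, y ^ r = x⁻¹ * y * x := by
    have h2 : x⁻¹ * y * x ∈ Subgroup.zpowers y := by
      rw [hy]
      have := (inferInstance : (commutator G).Normal).conj_mem y hycomm x⁻¹
      simpa using this
    exact (mem_powers_iff_mem_zpowers.2 h2 : _)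
  set r := r₀ + orderOf y with hr
  have hxy : x⁻¹ * y * x = y ^ r := by
    rw [hr, pow_add, pow_orderOf_eq_one, mul_one, hr₀]
  have hr1 : 1 ≤ r := by omega
  have hconj : ∀ (k : ℕ), (x ^ k)⁻¹ * y * x ^ k = y ^ (r ^ k) := by
    intro k
    induction k with
    | zero => simp
    | succ k ih =>
      have : (x ^ (k + 1))⁻¹ * y * x ^ (k + 1) = x⁻¹ * ((x ^ k)⁻¹ * y * x ^ k) * x := by
        rw [pow_succ]; group
      rw [this, ih]
      have h3 : ∀ j : ℕ, x⁻¹ * y ^ j * x = (x⁻¹ * y * x) ^ j := by
        intro j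
        have := conj_pow (a := x⁻¹) (b := y) (i := j)
        rw [inv_inv] at this
        exact this.symm
      rw [h3, hxy, ← pow_mul, pow_succ, mul_comm]
  have hrn : r ^ orderOf x % orderOf y = 1 % orderOf y := by
    have h2 := hconj (orderOf x)
    rw [pow_orderOf_eq_one] at h2
    simp only [inv_one, one_mul, mul_one] at h2
    have h3 : y ^ 1 = y ^ (r ^ orderOf x) := by rw [pow_one]; exact h2
    exact (pow_eq_pow_iff_modEq.1 h3).symm
  -- the subgroup generated by y^(r-1) is normal with abelian quotient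
  have hcomm1 : y⁻¹ * (x⁻¹ * y * x) = y ^ (r - 1) := by
    rw [hxy]
    have : y ^ r = y * y ^ (r - 1) := by rw [← pow_succ']; congr 1; omega
    rw [this]; group
  set D := Subgroup.zpowers (y ^ (r - 1)) with hD
  have hDy : D ≤ Subgroup.zpowers y := by
    rw [hD, Subgroup.zpowers_le]
    exact Subgroup.pow_mem _ (Subgroup.mem_zpowers y) _
  have hDnorm : D.Normal := by
    have hle : Subgroup.closure {x, y} ≤ Subgroup.normalizer (D : Set G) := by
      have key : ∀ g : G, (∃ j : ℕ, g * y * g⁻¹ = y ^ j) → g ∈ Subgroup.normalizer (D : Set G) := by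
        rintro g ⟨j, hj⟩
        apply Subgroup.mem_normalizer_fintype
        rintro d ⟨i, rfl⟩
        simp only [SetLike.mem_coe]
        have : g * (y ^ (r - 1)) ^ i * g⁻¹ = ((y ^ (r - 1)) ^ i) ^ j := by
          rw [← conj_zpow, ← conj_pow, hj, ← pow_mul, ← zpow_natCast, ← zpow_natCast, ← zpow_natCast, ← zpow_mul, ← zpow_mul, ← zpow_mul]
          congr 1
          push_cast
          ring
        rw [this]
        exact Subgroup.pow_mem _ (Subgroup.zpow_mem _ (Subgroup.mem_zpowers _) _) _
      rw [Subgroup.closure_le]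
      rintro g (rfl | rfl)
      · -- x normalizes
        rw [SetLike.mem_coe, ← inv_mem_iff]
        exact key _ ⟨r, by rw [inv_inv]; exact hxy⟩
      · exact key _ ⟨1, by simp⟩
    rw [hclos] at hle
    exact Subgroup.normalizer_eq_top_iff.1 (top_le_iff.1 hle)
  have hcommD : commutator G ≤ D := by
    rw [← Subgroup.Normal.quotient_commutative_iff_commutator_le]
    have h5 : IsMulCommutative (Subgroup.closure ((QuotientGroup.mk' D) '' {x, y})) := by
      apply Subgroup.isMulCommutative_closure
      have hc : (QuotientGroup.mk' D x) * (QuotientGroup.mk' D y) = (QuotientGroup.mk' D y) * (QuotientGroup.mk' D x) := by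
        rw [← map_mul, ← map_mul, QuotientGroup.mk'_apply, QuotientGroup.mk'_apply, QuotientGroup.eq]
        have : (x * y)⁻¹ * (y * x) = y ^ (r - 1) := by rw [← hcomm1]; group
        rw [this]
        exact Subgroup.mem_zpowers _
      rw [Set.image_pair]
      rintro a (rfl | rfl) b (rfl | rfl)
      · rfl
      · exact hc
      · exact hc.symm
      · rfl
    rw [← MonoidHom.map_closure, hclos, Subgroup.map_top_of_surjective _ (QuotientGroup.mk'_surjective D)] at h5
    rw [isMulCommutative_iff] at h5 ⊢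
    intro a b
    exact congrArg Subtype.val (h5 ⟨a, Subgroup.mem_top a⟩ ⟨b, Subgroup.mem_top b⟩)
  have hyD : y ∈ D := hcommD hycomm
  have hcopr : Nat.Coprime (r - 1) (orderOf y) := by
    have h4 : orderOf (y ^ (r - 1)) = orderOf y := by
      apply le_antisymm
      · exact Nat.le_of_dvd hypos (orderOf_pow_dvd _)
      · rw [← Nat.card_zpowers, ← Nat.card_zpowers]
        exact Nat.card_le_card_of_injective _ (Subgroup.inclusion_injective (Subgroup.zpowers_le.2 hyD))
    by_cases hr0 : r - 1 = 0
    · rw [hr0, pow_zero, orderOf_one] at h4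
      rw [hr0, ← h4]
      exact Nat.coprime_one_right 0
    · rw [orderOf_pow' _ hr0] at h4
      rw [Nat.coprime_comm, Nat.coprime_iff_gcd_eq_one]
      have h6 : Nat.gcd (orderOf y) (r - 1) ∣ orderOf y := Nat.gcd_dvd_left _ _
      have h7 := Nat.div_mul_cancel h6
      rw [h4] at h7
      exact Nat.eq_of_mul_eq_mul_left hypos (by rw [h7, mul_one])
  exact ⟨x, y, orderOf x, orderOf y, r, hclos, rfl, rfl, hxy, hcopr, by rw [hm, hn]; exact hcop.symm, hr1, hrn⟩

end Cfsg.Agent.S3379
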