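import Cfsg.Statements.S3381

set_option autoImplicit false
open Cfsg

namespace Cfsg.Agent.S3381

open Module

variable {q : ℕ} [Fact q.Prime] {V : Type*} [AddCommGroup V] [Module (ZMod q) V]
    {G : Type*} [Group G] (ρ : G →* (V ≃ₗ[ZMod q] V))

/-- fixed space -/
def Fx (g : G) : Submodule (ZMod q) V where
  carrier := {v | ρ g v = v}
  add_mem' := by
    intro a b ha hb
    change ρ g (a + b) = a + b
    rw [map_add]
    exact congrArg₂ _ ha hb
  zero_mem' := map_zero (ρ g)
  smul_mem' := by
    intro c a ha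
    change ρ g (c • a) = c • a
    rw [map_smul]
    exact congrArg _ ha

theorem mem_Fx (g : G) (v : V) : v ∈ Fx ρ g ↔ ρ g v = v := Iff.rfl

theorem mul_apply (g h : G) (v : V) : ρ (g * h) v = ρ g (ρ h v) := by
  rw [map_mul]; rfl

/-- Let G be a finite group acting faithfully and linearly on a non-trivial finite vector space V over the field with q elements (q prime) so that every non-zero vector has a stabilizer of order 2, and suppose G has a central involution. Then V has q^(2r) elements for some r and G contains exactly q^r + 1 non-central involutions. -/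
theorem result
    (q : ℕ) [Fact q.Prime] {V : Type*} [AddCommGroup V] [Module (ZMod q) V] [Finite V] [Nontrivial V]
    {G : Type*} [Group G] [Finite G] (ρ : G →* (V ≃ₗ[ZMod q] V)) (hρ : Function.Injective ρ)
    (hstab : ∀ v : V, v ≠ 0 → Nat.card {g : G // ρ g v = v} = 2)
    (z : G) (hz : orderOf z = 2) (hzc : z ∈ Subgroup.center G) :
    ∃ r : ℕ, Nat.card V = q ^ (2 * r) ∧
      Nat.card {g : G // orderOf g = 2 ∧ g ∉ Subgroup.center G} = q ^ r + 1 := by
  have hq : q.Prime := Fact.out
  have hmul : ∀ (g h : G) (v : V), ρ (g * h) v = ρ g (ρ h v) := fun g h v => mul_apply ρ g h v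
  have hone : ∀ v : V, ρ 1 v = v := fun v => by rw [map_one]; rfl
  -- uniqueness of the involution fixing v
  have huniq : ∀ v : V, v ≠ 0 → ∀ s t : G, s ≠ 1 → t ≠ 1 → ρ s v = v → ρ t v = v → s = t := by
    intro v hv s t hs ht hsv htv
    by_contra hst
    have h2 := hstab v hv
    rw [Nat.card_eq_two_iff] at h2
    obtain ⟨x, y, hxy, huniv⟩ := h2
    have hmem : ∀ g : {g : G // ρ g v = v}, g = x ∨ g = y := by
      intro g
      have : g ∈ ({x, y} : Set _) := by rw [huniv]; trivial
      simpa using this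
    have h1 := hmem ⟨1, hone v⟩
    have h3 := hmem ⟨s, hsv⟩
    have h4 := hmem ⟨t, htv⟩
    rcases h1 with h1 | h1 <;> rcases h3 with h3 | h3 <;> rcases h4 with h4 | h4 <;>
      first
        | exact hst (congrArg Subtype.val (h3.trans h4.symm))
        | exact hs (congrArg Subtype.val (h3.trans h1.symm))
        | exact ht (congrArg Subtype.val (h4.trans h1.symm))
  have hexists : ∀ v : V, v ≠ 0 → ∃ t : G, orderOf t = 2 ∧ ρ t v = v := by
    intro v hv
    have h2 := hstab v hv
    obtain ⟨t, ht⟩ : ∃ t : {g : G // ρ g v = v}, t ≠ ⟨1, hone v⟩ := by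
      have : Nontrivial {g : G // ρ g v = v} := by
        rw [← Finite.one_lt_card_iff_nontrivial, h2]; norm_num
      exact exists_ne _
    have ht1 : (t : G) ≠ 1 := fun h => ht (Subtype.ext h)
    refine ⟨t, ?_, t.2⟩
    rw [orderOf_eq_prime_iff]
    refine ⟨?_, ht1⟩
    by_contra hne
    have h3 : ρ ((t : G) ^ 2) v = v := by
      rw [pow_two, hmul, t.2, t.2]
    have := huniq v hv _ _ hne ht1 h3 t.2
    rw [pow_two] at this
    exact ht1 (mul_eq_left.1 this)
  -- central involutions have no nonzero fixed vector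
  have hcent : ∀ c : G, orderOf c = 2 → c ∈ Subgroup.center G → ∀ v : V, ρ c v = v → v = 0 := by
    intro c hc hcc v hv
    by_contra hv0
    have hc1 : c ≠ 1 := by rintro rfl; simp at hc
    have hc2 : ∀ w, ρ c (ρ c w) = w := by
      intro w
      rw [← hmul, ← pow_two, ← hc, pow_orderOf_eq_one, hone]
    have hneg : ∀ w : V, ρ c w ≠ w → ρ c w = - w := by
      intro w hw
      by_contra hne
      have hu : w + ρ c w ≠ 0 := by
        intro h
        exact hne (eq_neg_of_add_eq_zero_right h)
      have hw0 : w ≠ 0 := by rintro rfl; exact hw (map_zero _)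
      obtain ⟨t, ht2, htw⟩ := hexists w hw0
      have ht1 : t ≠ 1 := by rintro rfl; simp at ht2
      have h1 : ρ t (w + ρ c w) = w + ρ c w := by
        rw [map_add, htw, ← hmul, Subgroup.mem_center_iff.1 hcc t, hmul, htw]
      have h2 : ρ c (w + ρ c w) = w + ρ c w := by
        rw [map_add, hc2, add_comm]
      have := huniq _ hu t c ht1 hc1 h1 h2
      rw [this] at htw
      exact hw htw
    obtain ⟨w, hw⟩ : ∃ w, ρ c w ≠ w := by
      by_contra h
      push Not at h
      apply hc1
      apply hρ
      rw [map_one]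
      ext w
      exact h w
    have h1 := hneg w hw
    have h2 : ρ c (w + v) ≠ w + v := by
      rw [map_add, hv]
      intro h
      exact hw (add_right_cancel h)
    have h3 := hneg _ h2
    rw [map_add, hv, h1, neg_add] at h3
    have h4 : v = -v := add_left_cancel h3
    -- v = -v with v ≠ 0 forces q = 2
    have h5 : (2 : ZMod q) • v = 0 := by
      rw [two_smul]
      nth_rewrite 1 [h4]
      exact neg_add_cancel v
    have h6 : (2 : ZMod q) = 0 := (smul_eq_zero.1 h5).resolve_right hv0
    apply hw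
    rw [h1]
    have h7 : (2 : ZMod q) • w = 0 := by rw [h6, zero_smul]
    rw [two_smul] at h7
    exact (eq_neg_of_add_eq_zero_right h7).symm
  have hz1 : z ≠ 1 := by rintro rfl; simp at hz
  have hinvol : ∀ t : G, orderOf t = 2 → ∀ w, ρ t (ρ t w) = w := by
    intro t ht w
    rw [← hmul, ← pow_two, ← ht, pow_orderOf_eq_one, hone]
  have hminus : ∀ t : G, orderOf t = 2 → (∀ v, ρ t v = v → v = 0) → ∀ w, ρ t w = - w := by
    intro t ht hfix w
    have : w + ρ t w = 0 := by
      apply hfix
      rw [map_add, hinvol t ht, add_comm]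
    exact eq_neg_of_add_eq_zero_right this
  have hzneg : ∀ w, ρ z w = - w := hminus z hz (hcent z hz hzc)
  -- characteristic not 2
  have hq2 : (2 : ZMod q) ≠ 0 := by
    intro h
    apply hz1
    apply hρ
    rw [map_one]
    ext w
    change ρ z w = w
    rw [hzneg]
    have h7 : (2 : ZMod q) • w = 0 := by rw [h, zero_smul]
    rw [two_smul] at h7
    exact (eq_neg_of_add_eq_zero_right h7).symm
  set I := {g : G // orderOf g = 2 ∧ g ∉ Subgroup.center G} with hI
  have hIne : ∀ t : I, (t : G) ≠ 1 := by
    rintro ⟨t, ht, -⟩ rfl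
    simp at ht
  have hzsq : z ^ 2 = 1 := by rw [← hz]; exact pow_orderOf_eq_one z
  have hzcomm : ∀ g : G, g * z = z * g := fun g => Subgroup.mem_center_iff.1 hzc g
  -- multiplication by z
  have hord_z : ∀ t : G, orderOf t = 2 → t ≠ z → orderOf (t * z) = 2 := by
    intro t ht htz
    have htsq : t ^ 2 = 1 := by rw [← ht]; exact pow_orderOf_eq_one t
    rw [orderOf_eq_prime_iff]
    constructor
    · have : (t * z) ^ 2 = t ^ 2 * z ^ 2 := Commute.mul_pow (show Commute t z from hzcomm t) 2
      rw [this, htsq, hzsq, one_mul]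
    · intro h
      apply htz
      have h1 : z * z = 1 := by rw [← pow_two]; exact hzsq
      rw [eq_inv_of_mul_eq_one_left h, ← eq_inv_of_mul_eq_one_left h1]
  have hnon : ∀ t : G, orderOf t = 2 → t ≠ z → (∃ v, v ≠ 0 ∧ ρ t v = v) ∧ t ∉ Subgroup.center G := by
    intro t ht htz
    have h1 : ∃ v, v ≠ 0 ∧ ρ t v = v := by
      by_contra h
      push Not at h
      apply htz
      apply hρ
      ext w
      rw [hzneg, hminus t ht (fun v hv => by
        by_contra hv0
        exact h v hv0 hv)]
    refine ⟨h1, fun htc => ?_⟩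
    obtain ⟨v, hv0, hv⟩ := h1
    exact hv0 (hcent t ht htc v hv)
  have hIz : ∀ t : I, (t : G) ≠ z := by
    rintro ⟨t, ht, htc⟩ rfl
    exact htc hzc
  -- the involution t * z
  let tz : I → I := fun t => ⟨(t : G) * z, hord_z t t.2.1 (hIz t), (hnon _ (hord_z t t.2.1 (hIz t)) (by
    intro h
    exact hIne t (mul_eq_right.1 h))).2⟩
  have htz_ne : ∀ t : I, tz t ≠ t := by
    intro t h
    have : (t : G) * z = t := congrArg Subtype.val h
    exact hz1 (mul_eq_left.1 this)
  have htzapply : ∀ (t : I) (w : V), ρ (tz t : G) w = - ρ (t : G) w := by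
    intro t w
    change ρ ((t : G) * z) w = _
    rw [hmul, hzneg, map_neg]
  have hcompl : ∀ t : I, IsCompl (Fx ρ (t : G)) (Fx ρ (tz t : G)) := by
    intro t
    constructor
    · rw [Submodule.disjoint_def]
      intro v hv1 hv2
      rw [mem_Fx] at hv1 hv2
      rw [htzapply, hv1] at hv2
      have h5 : (2 : ZMod q) • v = 0 := by
        rw [two_smul]
        nth_rewrite 1 [← hv2]
        exact neg_add_cancel v
      exact (smul_eq_zero.1 h5).resolve_left hq2
    · rw [codisjoint_iff, eq_top_iff]
      intro w _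
      rw [Submodule.mem_sup]
      refine ⟨(2 : ZMod q)⁻¹ • (w + ρ (t : G) w), ?_, (2 : ZMod q)⁻¹ • (w - ρ (t : G) w), ?_, ?_⟩
      · rw [mem_Fx, map_smul, map_add, hinvol _ t.2.1, add_comm]
      · rw [mem_Fx, map_smul, htzapply, map_sub, hinvol _ t.2.1, neg_sub]
      · rw [← smul_add, add_add_sub_cancel, ← two_smul (ZMod q) w, smul_smul, inv_mul_cancel₀ hq2, one_smul]
  have hdisj : ∀ s t : I, s ≠ t → Disjoint (Fx ρ (s : G)) (Fx ρ (t : G)) := by
    intro s t hst
    rw [Submodule.disjoint_def]
    intro v hv1 hv2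
    by_contra hv0
    exact hst (Subtype.ext (huniq v hv0 s t (hIne s) (hIne t) hv1 hv2))
  have hcover : ∀ v : V, v ≠ 0 → ∃ t : I, ρ (t : G) v = v := by
    intro v hv
    obtain ⟨t, ht2, htv⟩ := hexists v hv
    refine ⟨⟨t, ht2, (hnon t ht2 ?_).2⟩, htv⟩
    rintro rfl
    exact hv (hcent t hz hzc v htv)
  set n := finrank (ZMod q) V with hn
  have hsum : ∀ t : I, finrank (ZMod q) (Fx ρ (t : G)) + finrank (ZMod q) (Fx ρ (tz t : G)) = n :=
    fun t => Submodule.finrank_add_eq_of_isCompl (hcompl t)
  have hle : ∀ s t : I, s ≠ t → finrank (ZMod q) (Fx ρ (s : G)) + finrank (ZMod q) (Fx ρ (t : G)) ≤ n :=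
    fun s t hst => Submodule.finrank_add_finrank_le_of_disjoint (hdisj s t hst)
  have hproper : ∀ t : I, ∃ v, ρ (t : G) v ≠ v := by
    intro t
    by_contra h
    push Not at h
    apply hIne t
    apply hρ
    rw [map_one]
    ext w
    exact h w
  have hnot : ∀ t : I, ∃ s : I, s ≠ t ∧ s ≠ tz t := by
    intro t
    by_contra h
    push Not at h
    obtain ⟨a, ha⟩ := hproper t
    obtain ⟨b, hb⟩ := hproper (tz t)
    have key : ∀ v : V, ρ (t : G) v = v ∨ ρ (tz t : G) v = v := by
      intro v
      by_cases hv : v = 0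
      · left; rw [hv, map_zero]
      · obtain ⟨s, hs⟩ := hcover v hv
        by_cases hst : s = t
        · left; rw [← hst]; exact hs
        · right; rw [← h s hst]; exact hs
    have ha' : ρ (tz t : G) a = a := (key a).resolve_left ha
    have hb' : ρ (t : G) b = b := (key b).resolve_right hb
    rcases key (a + b) with h1 | h1
    · rw [map_add, hb'] at h1
      exact ha (add_right_cancel h1)
    · rw [map_add, ha'] at h1
      exact hb (add_left_cancel h1)
  have hdim : ∀ t : I, 2 * finrank (ZMod q) (Fx ρ (t : G)) = n := by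
    have hlt : ∀ t : I, ¬ n < 2 * finrank (ZMod q) (Fx ρ (t : G)) := by
      intro t ht
      obtain ⟨s, hst, hstz⟩ := hnot t
      have h1 := hle s t hst
      have h2 : tz s ≠ t := by
        intro h
        apply hstz
        rw [← h]
        apply Subtype.ext
        change (s : G) = (s : G) * z * z
        rw [mul_assoc, ← pow_two, hzsq, mul_one]
      have h3 := hle (tz s) t h2
      have h4 := hsum s
      omega
    intro t
    have h1 := hlt t
    have h2 := hlt (tz t)
    have h3 := hsum t
    omega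
  obtain ⟨v₀, hv₀⟩ := exists_ne (0 : V)
  obtain ⟨t₀, -⟩ := hcover v₀ hv₀
  set r := finrank (ZMod q) (Fx ρ (t₀ : G)) with hr
  have hn2 : n = 2 * r := (hdim t₀).symm
  have hcardV : Nat.card V = q ^ (2 * r) := by
    rw [Module.natCard_eq_pow_finrank (K := ZMod q), Nat.card_zmod, ← hn, hn2]
  have hcardF : ∀ t : I, Nat.card (Fx ρ (t : G)) = q ^ r := by
    intro t
    rw [Module.natCard_eq_pow_finrank (K := ZMod q), Nat.card_zmod]
    congr 1
    have := hdim t
    omega
  have hr1 : 1 ≤ r := by
    by_contra h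
    have hr0 : r = 0 := by omega
    rw [hr0, mul_zero, pow_zero] at hcardV
    have := Finite.one_lt_card (α := V)
    omega
  refine ⟨r, hcardV, ?_⟩
  -- counting
  have hbij : Function.Bijective (fun x : (Σ t : I, {v : Fx ρ (t : G) // v ≠ 0}) => (⟨((x.2 : Fx ρ (x.1 : G)) : V), by
      intro h
      exact x.2.2 (Subtype.ext h)⟩ : {v : V // v ≠ 0})) := by
    constructor
    · rintro ⟨s, v, hv⟩ ⟨t, w, hw⟩ h
      have h1 : (v : V) = w := congrArg Subtype.val h
      have hst : s = t := by
        by_contra hne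
        have h2 := Submodule.disjoint_def.1 (hdisj s t hne) v v.2 (by rw [h1]; exact w.2)
        exact hv (Subtype.ext h2)
      subst hst
      have h3 : v = w := Subtype.ext h1
      subst h3
      rfl
    · rintro ⟨v, hv⟩
      obtain ⟨t, ht⟩ := hcover v hv
      exact ⟨⟨t, ⟨⟨v, ht⟩, fun h => hv (congrArg Subtype.val h)⟩⟩, rfl⟩
  have hcount := Nat.card_congr (Equiv.ofBijective _ hbij)
  have hne0 : ∀ (W : Type _) [AddCommGroup W] [Finite W], Nat.card {v : W // v ≠ 0} = Nat.card W - 1 := by
    intro W _ _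
    classical
    have : Fintype W := Fintype.ofFinite W
    rw [Nat.card_eq_fintype_card, Nat.card_eq_fintype_card, Fintype.card_subtype_compl, Fintype.card_subtype_eq]
  have hfin : Fintype I := Fintype.ofFinite I
  rw [Nat.card_sigma, hne0 V, hcardV] at hcount
  have h1 : ∀ t : I, Nat.card {v : Fx ρ (t : G) // v ≠ 0} = q ^ r - 1 := by
    intro t
    rw [hne0, hcardF]
  simp only [h1, Finset.sum_const, Finset.card_univ, smul_eq_mul] at hcount
  rw [Nat.card_eq_fintype_card]
  have hqr : 1 < q ^ r := Nat.one_lt_pow (by omega) hq.one_lt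
  have h2 : q ^ (2 * r) - 1 = (q ^ r + 1) * (q ^ r - 1) := by
    rw [mul_comm 2 r, pow_mul, ← Nat.sq_sub_sq, one_pow]
  rw [h2] at hcount
  exact Nat.eq_of_mul_eq_mul_right (by omega) hcount

end Cfsg.Agent.S3381
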