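import Cfsg.Statements.S3382

set_option autoImplicit false
open Cfsg

namespace Cfsg.Agent.S3382

section general

variable {T : Type*} [Group T]

def Stab (N : Subgroup T) : Prop := ∀ α : MulAut T, ∃ k : ℕ, ∀ x ∈ N, (α ^ (2 ^ k)) x = x

theorem step {c : ℕ} (hc : ∀ x : T, x ^ (2 ^ c) = 1) {N M : Subgroup T}
    (hN : ∀ (α : MulAut T) (x : T), x ∈ N → α x ∈ N) (hM : ∀ (α : MulAut T) (x : T), x ∈ M → α x ∈ M)
    (hidx : ∀ x ∈ M, ∀ y ∈ M, x ∉ N → y ∉ N → x⁻¹ * y ∈ N) (hs : Stab N) : Stab M := by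
  intro α
  obtain ⟨k, hk⟩ := hs α
  set β := α ^ (2 ^ k) with hβ
  refine ⟨k + c, ?_⟩
  intro x hx
  have hn : x⁻¹ * β x ∈ N := by
    by_cases hxN : x ∈ N
    · exact N.mul_mem (N.inv_mem hxN) (hN β x hxN)
    · apply hidx x hx (β x) (hM β x hx) hxN
      intro h
      apply hxN
      have := hN β⁻¹ _ h
      simpa using this
  have hfix : β (x⁻¹ * β x) = x⁻¹ * β x := hk _ hn
  have hpow : ∀ j : ℕ, (β ^ j) x = x * (x⁻¹ * β x) ^ j := by
    intro j
    induction j with
    | zero => simp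
    | succ j ih =>
      rw [pow_succ', MulAut.mul_apply, ih, map_mul, map_pow, hfix, pow_succ' (x⁻¹ * β x)]
      simp [mul_assoc]
  rw [pow_add, pow_mul, ← hβ, hpow, hc, mul_one]

theorem isPGroup_of_stab (h : Stab (⊤ : Subgroup T)) : IsPGroup 2 (MulAut T) := by
  intro α
  obtain ⟨k, hk⟩ := h α
  refine ⟨k, ?_⟩
  ext x
  exact hk x (Subgroup.mem_top x)

theorem stab_bot : Stab (⊥ : Subgroup T) := by
  intro α
  refine ⟨0, fun x hx => ?_⟩
  rw [Subgroup.mem_bot.1 hx, map_one]

end general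

section model

variable (q : ℕ) [Fact q.Prime]

abbrev E := (Fin 2 → ZMod q) ≃ₗ[ZMod q] (Fin 2 → ZMod q)

variable {q}

def Dg (f : E q) (a s : ZMod q) : Prop := ∀ v, f v = ![a * v 0, s * a⁻¹ * v 1]
def An (f : E q) (a s : ZMod q) : Prop := ∀ v, f v = ![s * a⁻¹ * v 1, a * v 0]
def Sg (s : ZMod q) : Prop := s = 1 ∨ s = -1

theorem Sg.mul {s t : ZMod q} (hs : Sg s) (ht : Sg t) : Sg (s * t) := by
  rcases hs with rfl | rfl <;> rcases ht with rfl | rfl <;> simp [Sg]

theorem Sg.sq {s : ZMod q} (hs : Sg s) : s * s = 1 := by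
  rcases hs with rfl | rfl <;> simp

theorem Sg.inv {s : ZMod q} (hs : Sg s) : s⁻¹ = s := inv_eq_of_mul_eq_one_left hs.sq

theorem Sg.ne_zero {s : ZMod q} (hs : Sg s) : s ≠ 0 := by
  rintro rfl
  have := hs.sq
  simp at this

theorem mulv (f g : E q) (v : Fin 2 → ZMod q) : (f * g) v = f (g v) := rfl

theorem DD {f g : E q} {a s b t : ZMod q} (hf : Dg f a s) (hg : Dg g b t) : Dg (f * g) (a * b) (s * t) := by
  intro v
  rw [mulv, hg, hf]
  ext i
  fin_cases i
  · simp [mul_assoc]
  · simp only [Fin.mk_one, Matrix.cons_val_one, Matrix.cons_val_fin_one, mul_inv]; ring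

theorem AA {f g : E q} {a s b t : ZMod q} (hs : Sg s) (hf : An f a s) (hg : An g b t) :
    Dg (f * g) (s * a⁻¹ * b) (s * t) := by
  intro v
  rw [mulv, hg, hf]
  ext i
  fin_cases i
  · simp [mul_assoc]
  · simp only [Fin.mk_one, Matrix.cons_val_one, Matrix.cons_val_fin_one, Matrix.cons_val_zero, mul_inv, inv_inv, hs.inv]
    linear_combination (-(a * t * b⁻¹ * v 1)) * hs.sq

theorem DA {f g : E q} {a s b t : ZMod q} (hs : Sg s) (hf : Dg f a s) (hg : An g b t) :
    An (f * g) (s * a⁻¹ * b) (s * t) := by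
  intro v
  rw [mulv, hg, hf]
  ext i
  fin_cases i
  · simp only [Fin.zero_eta, Matrix.cons_val_one, Matrix.cons_val_fin_one, Matrix.cons_val_zero, mul_inv, inv_inv, hs.inv]
    linear_combination (-(a * t * b⁻¹ * v 1)) * hs.sq
  · simp [mul_assoc]

theorem AD {f g : E q} {a s b t : ZMod q} (hf : An f a s) (hg : Dg g b t) :
    An (f * g) (a * b) (s * t) := by
  intro v
  rw [mulv, hg, hf]
  ext i
  fin_cases i
  · simp only [Fin.zero_eta, Matrix.cons_val_one, Matrix.cons_val_fin_one, Matrix.cons_val_zero, mul_inv]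
    ring
  · simp [mul_assoc]

theorem D_inv {f : E q} {a s : ZMod q} (ha : a ≠ 0) (hs : Sg s) (hf : Dg f a s) : Dg f⁻¹ a⁻¹ s := by
  intro v
  have h1 : f (f⁻¹ v) = v := by rw [← mulv, mul_inv_cancel]; rfl
  rw [hf] at h1
  have h0 := congrFun h1 0
  have h2 := congrFun h1 1
  simp only [Matrix.cons_val_zero, Matrix.cons_val_one, Matrix.cons_val_fin_one] at h0 h2
  ext i
  fin_cases i
  · simp only [Fin.zero_eta, Matrix.cons_val_zero]
    rw [← h0]; field_simp
  · simp only [Fin.mk_one, Matrix.cons_val_one, Matrix.cons_val_fin_one, inv_inv]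
    rw [← h2]
    have := hs.sq
    field_simp
    linear_combination (-(f⁻¹ v 1)) * this

theorem A_inv {f : E q} {a s : ZMod q} (ha : a ≠ 0) (hs : Sg s) (hf : An f a s) : An f⁻¹ (s * a) s := by
  intro v
  have h1 : f (f⁻¹ v) = v := by rw [← mulv, mul_inv_cancel]; rfl
  rw [hf] at h1
  have h0 := congrFun h1 0
  have h2 := congrFun h1 1
  simp only [Matrix.cons_val_zero, Matrix.cons_val_one, Matrix.cons_val_fin_one] at h0 h2
  have hs0 := hs.ne_zero
  ext i
  fin_cases i
  · simp only [Fin.zero_eta, Matrix.cons_val_zero]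
    rw [← h2]; field_simp
  · simp only [Fin.mk_one, Matrix.cons_val_one, Matrix.cons_val_fin_one, inv_inv]
    rw [← h0]
    have := hs.sq
    field_simp
    linear_combination (-(f⁻¹ v 1)) * this

theorem D_one : Dg (1 : E q) 1 1 := by
  intro v
  ext i
  fin_cases i
  · simp
  · simp

theorem D_ext {f g : E q} {a s : ZMod q} (hf : Dg f a s) (hg : Dg g a s) : f = g := by
  ext v : 1
  exact (hf _).trans (hg _).symm

theorem A_ext {f g : E q} {a s : ZMod q} (hf : An f a s) (hg : An g a s) : f = g := by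
  ext v : 1
  exact (hf _).trans (hg _).symm

theorem D_uniq {f : E q} {a s b t : ZMod q} (ha : a ≠ 0) (hf : Dg f a s) (hg : Dg f b t) : a = b ∧ s = t := by
  have h1 := (hf ![1, 1]).symm.trans (hg ![1, 1])
  have h0 := congrFun h1 0
  have h2 := congrFun h1 1
  simp only [Matrix.cons_val_zero, Matrix.cons_val_one, Matrix.cons_val_fin_one, mul_one] at h0 h2
  subst h0
  exact ⟨rfl, mul_right_cancel₀ (inv_ne_zero ha) h2⟩

theorem A_uniq {f : E q} {a s b t : ZMod q} (ha : a ≠ 0) (hf : An f a s) (hg : An f b t) : a = b ∧ s = t := by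
  have h1 := (hf ![1, 1]).symm.trans (hg ![1, 1])
  have h0 := congrFun h1 0
  have h2 := congrFun h1 1
  simp only [Matrix.cons_val_zero, Matrix.cons_val_one, Matrix.cons_val_fin_one, mul_one] at h0 h2
  subst h2
  exact ⟨rfl, mul_right_cancel₀ (inv_ne_zero ha) h0⟩

theorem not_D_A {f : E q} {a s b t : ZMod q} (ha : a ≠ 0) (hf : Dg f a s) (hg : An f b t) : False := by
  have h1 := (hf ![1, 0]).symm.trans (hg ![1, 0])
  have h0 := congrFun h1 0
  simp only [Matrix.cons_val_zero, Matrix.cons_val_one, Matrix.cons_val_fin_one, mul_one, mul_zero] at h0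
  exact ha h0

theorem D_pow {f : E q} {a s : ZMod q} (hf : Dg f a s) (n : ℕ) : Dg (f ^ n) (a ^ n) (s ^ n) := by
  induction n with
  | zero => simpa using D_one
  | succ n ih => rw [pow_succ, pow_succ, pow_succ]; exact DD ih hf

theorem D_comm {f g : E q} {a s b t : ZMod q} (hf : Dg f a s) (hg : Dg g b t) : f * g = g * f :=
  D_ext (DD hf hg) (by rw [mul_comm a b, mul_comm s t]; exact DD hg hf)

theorem scalar_comm {f : E q} {c : ZMod q} (hc : c * c = 1) (hf : Dg f c 1) (g : E q) : g * f = f * g := by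
  have hcinv : c⁻¹ = c := inv_eq_of_mul_eq_one_left hc
  have hfc : ∀ v, f v = c • v := by
    intro v
    rw [hf]
    ext i
    fin_cases i
    · simp
    · simp [hcinv]
  ext v : 1
  rw [mulv, mulv, hfc, hfc, map_smul]

end model

theorem z2_one : ∀ a : ZMod 2, a ≠ 0 → a = 1 := by decide

theorem z3_one : ∀ a : ZMod 3, a ≠ 0 → a = 1 ∨ a = -1 := by decide

section main

variable {q : ℕ} [Fact q.Prime] (T : Subgroup (E q))
    (hT : ∀ f, f ∈ T ↔ ∃ a s : ZMod q, a ≠ 0 ∧ (s = 1 ∨ s = -1) ∧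
      ((∀ v, f v = ![a * v 0, s * a⁻¹ * v 1]) ∨ (∀ v, f v = ![s * a⁻¹ * v 1, a * v 0])))

def isD (f : E q) : Prop := ∃ a s : ZMod q, a ≠ 0 ∧ Sg s ∧ Dg f a s
def isA (f : E q) : Prop := ∃ a s : ZMod q, a ≠ 0 ∧ Sg s ∧ An f a s

theorem isD_or_isA {T : Subgroup (E q)} (hT : ∀ f, f ∈ T ↔ ∃ a s : ZMod q, a ≠ 0 ∧ (s = 1 ∨ s = -1) ∧
      ((∀ v, f v = ![a * v 0, s * a⁻¹ * v 1]) ∨ (∀ v, f v = ![s * a⁻¹ * v 1, a * v 0]))) {f : E q} (hf : f ∈ T) : isD f ∨ isA f := by
  obtain ⟨a, s, ha, hs, h | h⟩ := (hT f).1 hf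
  · exact Or.inl ⟨a, s, ha, hs, h⟩
  · exact Or.inr ⟨a, s, ha, hs, h⟩

theorem mem_of_isD {T : Subgroup (E q)} (hT : ∀ f, f ∈ T ↔ ∃ a s : ZMod q, a ≠ 0 ∧ (s = 1 ∨ s = -1) ∧
      ((∀ v, f v = ![a * v 0, s * a⁻¹ * v 1]) ∨ (∀ v, f v = ![s * a⁻¹ * v 1, a * v 0]))) {f : E q} (hf : isD f) : f ∈ T := by
  obtain ⟨a, s, ha, hs, h⟩ := hf
  exact (hT f).2 ⟨a, s, ha, hs, Or.inl h⟩

theorem mem_of_isA {T : Subgroup (E q)} (hT : ∀ f, f ∈ T ↔ ∃ a s : ZMod q, a ≠ 0 ∧ (s = 1 ∨ s = -1) ∧
      ((∀ v, f v = ![a * v 0, s * a⁻¹ * v 1]) ∨ (∀ v, f v = ![s * a⁻¹ * v 1, a * v 0]))) {f : E q} (hf : isA f) : f ∈ T := by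
  obtain ⟨a, s, ha, hs, h⟩ := hf
  exact (hT f).2 ⟨a, s, ha, hs, Or.inr h⟩

theorem isD_mul {f g : E q} (hf : isD f) (hg : isD g) : isD (f * g) := by
  obtain ⟨a, s, ha, hs, h⟩ := hf
  obtain ⟨b, t, hb, ht, h'⟩ := hg
  exact ⟨_, _, mul_ne_zero ha hb, hs.mul ht, DD h h'⟩

theorem isD_inv {f : E q} (hf : isD f) : isD f⁻¹ := by
  obtain ⟨a, s, ha, hs, h⟩ := hf
  exact ⟨_, _, inv_ne_zero ha, hs, D_inv ha hs h⟩

theorem isA_mul {f g : E q} (hf : isA f) (hg : isA g) : isD (f * g) := by
  obtain ⟨a, s, ha, hs, h⟩ := hf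
  obtain ⟨b, t, hb, ht, h'⟩ := hg
  exact ⟨_, _, mul_ne_zero (mul_ne_zero hs.ne_zero (inv_ne_zero ha)) hb, hs.mul ht, AA hs h h'⟩

theorem isA_inv {f : E q} (hf : isA f) : isA f⁻¹ := by
  obtain ⟨a, s, ha, hs, h⟩ := hf
  exact ⟨_, _, mul_ne_zero hs.ne_zero ha, hs, A_inv ha hs h⟩

theorem isA_pow_four {f : E q} (hf : isA f) : f ^ 4 = 1 := by
  obtain ⟨a, s, ha, hs, h⟩ := hf
  have h1 := AA hs h h
  have h2 := DD h1 h1
  have h3 : s * a⁻¹ * a * (s * a⁻¹ * a) = 1 := by
    rw [inv_mul_cancel_right₀ ha, hs.sq]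
  have h4 : s * s * (s * s) = 1 := by rw [hs.sq, one_mul]
  rw [h3, h4] at h2
  have : f ^ 4 = f * f * (f * f) := by simp [pow_succ, mul_assoc]
  rw [this]
  exact D_ext h2 D_one

/-- an element of diagonal type is 1 if its parameters are. -/
theorem pow_eq_one_iff_D {f : E q} {a s : ZMod q} (ha : a ≠ 0) (hf : Dg f a s) (n : ℕ) :
    f ^ n = 1 ↔ a ^ n = 1 ∧ s ^ n = 1 := by
  constructor
  · intro h
    have h1 := D_pow hf n
    rw [h] at h1
    exact D_uniq (pow_ne_zero n ha) h1 D_one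
  · rintro ⟨h1, h2⟩
    have h3 := D_pow hf n
    rw [h1, h2] at h3
    exact D_ext h3 D_one

theorem two_pow_exp {m : ℕ} (hq : q = 2 ^ m + 1) {f : E q} (hf : isD f) {k : ℕ} (hk : 1 ≤ k) (hmk : m ≤ k) :
    f ^ (2 ^ k) = 1 := by
  obtain ⟨a, s, ha, hs, h⟩ := hf
  rw [pow_eq_one_iff_D ha h]
  constructor
  · have h1 : a ^ (2 ^ m) = 1 := by
      have h0 := ZMod.pow_card_sub_one_eq_one ha
      have h1 : q - 1 = 2 ^ m := Nat.sub_eq_of_eq_add hq
      rwa [h1] at h0
    obtain ⟨c, rfl⟩ := Nat.exists_eq_add_of_le hmk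
    rw [pow_add, pow_mul, h1, one_pow]
  · obtain ⟨c, rfl⟩ := Nat.exists_eq_add_of_le hk
    rw [pow_add, pow_mul, pow_one, pow_two, hs.sq, one_pow]

/-- The diagonal subgroup of `T`. -/
def Dsub : Subgroup T where
  carrier := {x | isD (x : E q)}
  mul_mem' := fun {a b} ha hb => isD_mul ha hb
  one_mem' := ⟨1, 1, one_ne_zero, Or.inl rfl, D_one⟩
  inv_mem' := fun {a} ha => isD_inv ha

/-- The elements of order dividing `2^i` in the diagonal subgroup. -/
def Di (i : ℕ) : Subgroup T where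
  carrier := {x | isD (x : E q) ∧ x ^ (2 ^ i) = 1}
  mul_mem' := by
    rintro a b ⟨ha, ha'⟩ ⟨hb, hb'⟩
    refine ⟨isD_mul ha hb, ?_⟩
    have hc : Commute a b := by
      obtain ⟨_, _, _, _, h⟩ := ha
      obtain ⟨_, _, _, _, h'⟩ := hb
      exact Subtype.ext (D_comm h h')
    rw [hc.mul_pow, ha', hb', one_mul]
  one_mem' := ⟨⟨1, 1, one_ne_zero, Or.inl rfl, D_one⟩, one_pow _⟩
  inv_mem' := by
    rintro a ⟨ha, ha'⟩
    refine ⟨isD_inv ha, ?_⟩
    rw [inv_pow, ha', inv_one]

/-- The central elements of order dividing 2. -/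
def Z0 : Subgroup T where
  carrier := {x | x ∈ Subgroup.center T ∧ x ^ 2 = 1}
  mul_mem' := by
    rintro a b ⟨ha, ha'⟩ ⟨hb, hb'⟩
    refine ⟨Subgroup.mul_mem _ ha hb, ?_⟩
    have hc : Commute a b := (Subgroup.mem_center_iff.1 ha b).symm
    rw [hc.mul_pow, ha', hb', one_mul]
  one_mem' := ⟨Subgroup.one_mem _, one_pow _⟩
  inv_mem' := by
    rintro a ⟨ha, ha'⟩
    refine ⟨Subgroup.inv_mem _ ha, ?_⟩
    rw [inv_pow, ha', inv_one]

theorem Z0_char (α : MulAut T) (x : T) (hx : x ∈ Z0 T) : α x ∈ Z0 T := by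
  refine ⟨?_, ?_⟩
  · rw [Subgroup.mem_center_iff]
    intro y
    have h1 := Subgroup.mem_center_iff.1 hx.1 (α⁻¹ y)
    have h2 := congrArg α h1
    rw [map_mul, map_mul] at h2
    simpa using h2
  · rw [← map_pow, hx.2, map_one]

include hT in
theorem mem_Z0_iff (h2 : (2 : ZMod q) ≠ 0) (x : T) : x ∈ Z0 T ↔ Dg (x : E q) 1 1 ∨ Dg (x : E q) (-1) 1 := by
  have hone : (1 : ZMod q) ≠ 0 := one_ne_zero
  constructor
  · rintro ⟨hx, hx2⟩
    -- the reflection and the swap
    obtain ⟨w, hw⟩ : ∃ w : E q, An w 1 1 := by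
      refine ⟨LinearEquiv.funCongrLeft (ZMod q) (ZMod q) (Equiv.swap 0 1), ?_⟩
      intro v
      ext i
      fin_cases i
      · simp [LinearEquiv.funCongrLeft]
      · simp [LinearEquiv.funCongrLeft]
    obtain ⟨r, hr⟩ : ∃ r : E q, Dg r 1 (-1) := by
      refine ⟨LinearEquiv.ofInvolutive
        { toFun := fun v => ![v 0, - v 1]
          map_add' := by
            intro v w; ext i; fin_cases i
            · simp
            · simp only [Fin.mk_one, Matrix.cons_val_one, Matrix.cons_val_fin_one, Pi.add_apply]; ring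
          map_smul' := by
            intro c v; ext i; fin_cases i
            · simp
            · simp } ?_, ?_⟩
      · intro v; ext i; fin_cases i
        · simp
        · simp
      · intro v
        change ![v 0, - v 1] = _
        ext i; fin_cases i
        · simp
        · simp
    have hwT : w ∈ T := mem_of_isA hT ⟨1, 1, hone, Or.inl rfl, hw⟩
    have hrT : r ∈ T := mem_of_isD hT ⟨1, -1, hone, Or.inr rfl, hr⟩
    have hcw := congrArg Subtype.val (Subgroup.mem_center_iff.1 hx ⟨w, hwT⟩)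
    have hcr := congrArg Subtype.val (Subgroup.mem_center_iff.1 hx ⟨r, hrT⟩)
    simp only [Subgroup.coe_mul] at hcw hcr
    have hx2' : (x : E q) ^ 2 = 1 := by
      have := congrArg Subtype.val hx2
      simpa using this
    rcases isD_or_isA hT x.2 with ⟨a, s, ha, hs, h⟩ | ⟨a, s, ha, hs, h⟩
    · have h3 := AD hw h
      rw [hcw] at h3
      have h4 := DA hs h hw
      obtain ⟨h5, -⟩ := A_uniq (mul_ne_zero one_ne_zero ha) h3 h4
      have h6 : a * a = s := by
        rw [one_mul, mul_one] at h5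
        nth_rewrite 1 [h5]
        rw [inv_mul_cancel_right₀ ha]
      rw [pow_eq_one_iff_D ha h] at hx2'
      have h7 : s = 1 := by rw [← h6, ← pow_two]; exact hx2'.1
      rw [h7] at h h6
      rcases mul_self_eq_one_iff.1 h6 with h8 | h8
      · left; rw [h8] at h; exact h
      · right; rw [h8] at h; exact h
    · exfalso
      have h3 := DA (Or.inr rfl) hr h
      rw [hcr] at h3
      have h4 := AD h hr
      obtain ⟨h5, -⟩ := A_uniq (mul_ne_zero ha one_ne_zero) h4 h3
      rw [mul_one, inv_one, mul_one, neg_one_mul] at h5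
      have h6 : (2 : ZMod q) * a = 0 := by linear_combination h5
      rcases mul_eq_zero.1 h6 with h7 | h7
      · exact h2 h7
      · exact ha h7
  · intro h
    have key : ∀ c : ZMod q, c * c = 1 → Dg (x : E q) c 1 → x ∈ Z0 T := by
      intro c hc hx
      refine ⟨?_, ?_⟩
      · rw [Subgroup.mem_center_iff]
        intro g
        exact Subtype.ext (scalar_comm hc hx g)
      · apply Subtype.ext
        have hc0 : c ≠ 0 := by rintro rfl; simp at hc
        have : (x : E q) ^ 2 = 1 := by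
          rw [pow_eq_one_iff_D hc0 hx]
          exact ⟨by rw [pow_two, hc], one_pow _⟩
        exact this
    rcases h with h | h
    · exact key 1 (by ring) h
    · exact key (-1) (by ring) h

include hT in
theorem stab_Z0 (h2 : (2 : ZMod q) ≠ 0) {c : ℕ} (hc : ∀ x : T, x ^ (2 ^ c) = 1) : Stab (Z0 T) := by
  apply step hc (N := ⊥) (fun α x hx => by rw [Subgroup.mem_bot] at *; rw [hx, map_one]) (Z0_char T) ?_ stab_bot
  intro x hx y hy hx1 hy1
  rw [Subgroup.mem_bot] at *
  rw [mem_Z0_iff T hT h2] at hx hy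
  have hx' : Dg (x : E q) (-1) 1 := hx.resolve_left (fun h => hx1 (Subtype.ext (D_ext h D_one)))
  have hy' : Dg (y : E q) (-1) 1 := hy.resolve_left (fun h => hy1 (Subtype.ext (D_ext h D_one)))
  have : x = y := Subtype.ext (D_ext hx' hy')
  rw [this, inv_mul_cancel]

end main

/-- Let q = 2^m + 1 be a prime other than 5. Then the automorphism group of the group of linear maps of F_q² of the forms (x, y) ↦ (a x, ± a⁻¹ y) and (x, y) ↦ (± a⁻¹ y, a x) with a ≠ 0 is itself a 2-group. -/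
theorem result (q m : ℕ) [Fact q.Prime] (hq : q = 2 ^ m + 1) (hq5 : q ≠ 5)
    (T : Subgroup ((Fin 2 → ZMod q) ≃ₗ[ZMod q] (Fin 2 → ZMod q)))
    (hT : ∀ f, f ∈ T ↔ ∃ a s : ZMod q, a ≠ 0 ∧ (s = 1 ∨ s = -1) ∧
      ((∀ v, f v = ![a * v 0, s * a⁻¹ * v 1]) ∨ (∀ v, f v = ![s * a⁻¹ * v 1, a * v 0]))) :
    IsPGroup 2 (MulAut T) := by
  have hqp : q.Prime := Fact.out
  -- exponent
  have hexp : ∀ x : T, x ^ (2 ^ (m + 2)) = 1 := by
    intro x
    apply Subtype.ext
    have : (x : E q) ^ (2 ^ (m + 2)) = 1 := by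
      rcases isD_or_isA hT x.2 with h | h
      · exact two_pow_exp hq h (by omega) (by omega)
      · rw [show 2 ^ (m + 2) = 4 * 2 ^ m by ring, pow_mul, isA_pow_four h, one_pow]
    exact this
  have htop : ∀ (α : MulAut T) (x : T), x ∈ (⊤ : Subgroup T) → α x ∈ (⊤ : Subgroup T) := fun _ _ _ => Subgroup.mem_top _
  apply isPGroup_of_stab
  rcases Nat.eq_zero_or_pos m with hm0 | hm1
  · -- q = 2
    have hq2 : q = 2 := by rw [hq, hm0]; rfl
    subst hq2
    apply step hexp (N := ⊥) (fun α x hx => by rw [Subgroup.mem_bot] at *; rw [hx, map_one]) htop ?_ stab_bot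
    have key : ∀ x : T, x ≠ 1 → An (x : E 2) 1 1 := by
      intro x hx
      have hz := z2_one
      rcases isD_or_isA hT x.2 with ⟨a, s, ha, hs, h⟩ | ⟨a, s, ha, hs, h⟩
      · exfalso
        rw [hz a ha, hz s hs.ne_zero] at h
        exact hx (Subtype.ext (D_ext h D_one))
      · rwa [hz a ha, hz s hs.ne_zero] at h
    intro x _ y _ hx hy
    rw [Subgroup.mem_bot] at *
    have : x = y := Subtype.ext (A_ext (key x hx) (key y hy))
    rw [this, inv_mul_cancel]
  -- q odd
  have h2 : (2 : ZMod q) ≠ 0 := by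
    intro h
    have h3 : ((2 : ℕ) : ZMod q) = 0 := by exact_mod_cast h
    rw [ZMod.natCast_eq_zero_iff] at h3
    have h4 := (Nat.prime_dvd_prime_iff_eq hqp Nat.prime_two).1 h3
    have : 2 ^ 1 ≤ 2 ^ m := Nat.pow_le_pow_right (by norm_num) hm1
    omega
  have hZ := stab_Z0 T hT h2 hexp
  by_cases hq3 : q = 3
  · subst hq3
    have hD1 : ∀ (x : T) (a : ZMod 3), a ≠ 0 → Dg (x : E 3) a 1 → x ∈ Z0 T := by
      intro x a ha h
      rw [mem_Z0_iff T hT h2]
      rcases z3_one a ha with h1 | h1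
      · left; rwa [h1] at h
      · right; rwa [h1] at h
    have hZD : ∀ x : T, x ∈ Z0 T → ∃ a : ZMod 3, a ≠ 0 ∧ Dg (x : E 3) a 1 := by
      intro x hx
      rw [mem_Z0_iff T hT h2] at hx
      rcases hx with h | h
      · exact ⟨1, one_ne_zero, h⟩
      · exact ⟨-1, neg_ne_zero.2 one_ne_zero, h⟩
    let C : Subgroup T :=
      { carrier := {x | (∃ a : ZMod 3, a ≠ 0 ∧ Dg (x : E 3) a 1) ∨ (∃ a : ZMod 3, a ≠ 0 ∧ An (x : E 3) a (-1))}
        mul_mem' := by
          rintro x y (⟨a, ha, h⟩ | ⟨a, ha, h⟩) (⟨b, hb, h'⟩ | ⟨b, hb, h'⟩)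
          · left
            have := DD h h'
            rw [one_mul] at this
            exact ⟨_, mul_ne_zero ha hb, this⟩
          · right
            have := DA (Or.inl rfl) h h'
            rw [one_mul, one_mul] at this
            exact ⟨_, mul_ne_zero (inv_ne_zero ha) hb, this⟩
          · right
            have := AD h h'
            rw [mul_one] at this
            exact ⟨_, mul_ne_zero ha hb, this⟩
          · left
            have := AA (Or.inr rfl) h h'
            have e : (-1 : ZMod 3) * -1 = 1 := by ring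
            rw [e] at this
            exact ⟨_, mul_ne_zero (mul_ne_zero (neg_ne_zero.2 one_ne_zero) (inv_ne_zero ha)) hb, this⟩
        one_mem' := Or.inl ⟨1, one_ne_zero, D_one⟩
        inv_mem' := by
          rintro x (⟨a, ha, h⟩ | ⟨a, ha, h⟩)
          · left
            exact ⟨_, inv_ne_zero ha, D_inv ha (Or.inl rfl) h⟩
          · right
            exact ⟨_, mul_ne_zero (neg_ne_zero.2 one_ne_zero) ha, A_inv ha (Or.inr rfl) h⟩ }
    have hsq : ∀ x : T, x * x ≠ 1 → ∃ a : ZMod 3, a ≠ 0 ∧ An (x : E 3) a (-1) := by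
      intro x hx
      rcases isD_or_isA hT x.2 with ⟨a, s, ha, hs, h⟩ | ⟨a, s, ha, hs, h⟩
      · exfalso
        apply hx
        apply Subtype.ext
        have h1 := DD h h
        have h3 : a * a = 1 := by
          rcases z3_one a ha with h4 | h4 <;> rw [h4] <;> ring
        rw [h3, hs.sq] at h1
        exact D_ext h1 D_one
      · rcases hs with hs | hs
        · exfalso
          apply hx
          apply Subtype.ext
          rw [hs] at h
          have h1 := AA (Or.inl rfl) h h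
          rw [one_mul, inv_mul_cancel₀ ha, one_mul] at h1
          exact D_ext h1 D_one
        · rw [hs] at h
          exact ⟨a, ha, h⟩
    have hCchar : ∀ (α : MulAut T) (x : T), x ∈ C → α x ∈ C := by
      rintro α x (⟨a, ha, h⟩ | ⟨a, ha, h⟩)
      · left
        exact hZD _ (Z0_char T α x (hD1 x a ha h))
      · right
        apply hsq
        rw [← map_mul]
        intro h1
        have h3 : x * x = 1 := by
          apply α.injective
          rw [h1, map_one]
        have h4 : (x : E 3) * x = 1 := congrArg Subtype.val h3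
        have h5 := AA (Or.inr rfl) h h
        rw [h4, inv_mul_cancel_right₀ ha] at h5
        obtain ⟨h6, -⟩ := D_uniq (neg_ne_zero.2 one_ne_zero) h5 D_one
        have h7 : (2 : ZMod 3) = 0 := by linear_combination -h6
        exact h2 h7
    have hstabC : Stab C := by
      apply step hexp (Z0_char T) hCchar ?_ hZ
      rintro x (⟨a, ha, h⟩ | ⟨a, ha, h⟩) y (⟨b, hb, h'⟩ | ⟨b, hb, h'⟩) hx hy
      · exact absurd (hD1 x a ha h) hx
      · exact absurd (hD1 x a ha h) hx
      · exact absurd (hD1 y b hb h') hy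
      · have h3 := AA (Or.inr rfl) (A_inv ha (Or.inr rfl) h) h'
        rw [neg_one_mul, neg_one_mul, neg_one_mul, neg_neg] at h3
        exact hD1 _ _ (by
          apply mul_ne_zero _ hb
          apply neg_ne_zero.2 (inv_ne_zero (neg_ne_zero.2 ha))) h3
    apply step hexp hCchar htop ?_ hstabC
    have hnotC : ∀ x : T, x ∉ C → (∃ a : ZMod 3, a ≠ 0 ∧ Dg (x : E 3) a (-1)) ∨ (∃ a : ZMod 3, a ≠ 0 ∧ An (x : E 3) a 1) := by
      intro x hx
      rcases isD_or_isA hT x.2 with ⟨a, s, ha, hs, h⟩ | ⟨a, s, ha, hs, h⟩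
      · rcases hs with hs | hs
        · rw [hs] at h
          exact absurd (Or.inl ⟨a, ha, h⟩) hx
        · rw [hs] at h
          exact Or.inl ⟨a, ha, h⟩
      · rcases hs with hs | hs
        · rw [hs] at h
          exact Or.inr ⟨a, ha, h⟩
        · rw [hs] at h
          exact absurd (Or.inr ⟨a, ha, h⟩) hx
    intro x _ y _ hx hy
    rcases hnotC x hx with ⟨a, ha, h⟩ | ⟨a, ha, h⟩ <;> rcases hnotC y hy with ⟨b, hb, h'⟩ | ⟨b, hb, h'⟩
    · left
      have h3 := DD (D_inv ha (Or.inr rfl) h) h'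
      rw [neg_one_mul, neg_neg] at h3
      exact ⟨_, mul_ne_zero (inv_ne_zero ha) hb, h3⟩
    · right
      have h3 := DA (Or.inr rfl) (D_inv ha (Or.inr rfl) h) h'
      rw [mul_one] at h3
      exact ⟨_, mul_ne_zero (mul_ne_zero (neg_ne_zero.2 one_ne_zero) (inv_ne_zero (inv_ne_zero ha))) hb, h3⟩
    · right
      have h3 := AD (A_inv ha (Or.inl rfl) h) h'
      rw [one_mul, one_mul] at h3
      exact ⟨_, mul_ne_zero ha hb, h3⟩
    · left
      have h3 := AA (Or.inl rfl) (A_inv ha (Or.inl rfl) h) h'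
      rw [one_mul, one_mul, one_mul] at h3
      exact ⟨_, mul_ne_zero (inv_ne_zero ha) hb, h3⟩
  · -- q ≥ 7
    have h16 : (2 : ZMod q) ^ 4 ≠ 1 := by
      intro h
      have h3 : ((15 : ℕ) : ZMod q) = 0 := by
        have : (2 : ZMod q) ^ 4 - 1 = ((15 : ℕ) : ZMod q) := by push_cast; ring
        rw [← this, h, sub_self]
      rw [ZMod.natCast_eq_zero_iff] at h3
      have h4 : q ∣ 3 * 5 := h3
      rcases (Nat.Prime.dvd_mul hqp).1 h4 with h5 | h5
      · exact hq3 ((Nat.prime_dvd_prime_iff_eq hqp Nat.prime_three).1 h5)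
      · exact hq5 ((Nat.prime_dvd_prime_iff_eq hqp Nat.prime_five).1 h5)
    -- the element diag(2, 1/2)
    obtain ⟨g₀, hg₀⟩ : ∃ g : E q, Dg g 2 1 := by
      refine ⟨{ toFun := fun v => ![2 * v 0, 2⁻¹ * v 1]
                invFun := fun v => ![2⁻¹ * v 0, 2 * v 1]
                map_add' := ?_
                map_smul' := ?_
                left_inv := ?_
                right_inv := ?_ }, ?_⟩
      · intro v w; ext i; fin_cases i
        · simp [mul_add]
        · simp [mul_add]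
      · intro c v; ext i; fin_cases i
        · simp only [Fin.zero_eta, Matrix.cons_val_zero, Pi.smul_apply, smul_eq_mul, RingHom.id_apply]; ring
        · simp only [Fin.mk_one, Matrix.cons_val_one, Matrix.cons_val_fin_one, Pi.smul_apply, smul_eq_mul, RingHom.id_apply]; ring
      · intro v; ext i; fin_cases i
        · simp [h2]
        · simp [h2]
      · intro v; ext i; fin_cases i
        · simp [h2]
        · simp [h2]
      · intro v
        change ![2 * v 0, 2⁻¹ * v 1] = _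
        rw [one_mul]
    have hg₀T : g₀ ∈ T := mem_of_isD hT ⟨2, 1, h2, Or.inl rfl, hg₀⟩
    have hg₀4 : (⟨g₀, hg₀T⟩ : T) ^ 4 ≠ 1 := by
      intro h
      have h3 : g₀ ^ 4 = 1 := congrArg Subtype.val h
      rw [pow_eq_one_iff_D h2 hg₀] at h3
      exact h16 h3.1
    have hpow4 : ∀ x : T, x ^ 4 ≠ 1 → isD (x : E q) := by
      intro x hx
      rcases isD_or_isA hT x.2 with h | h
      · exact h
      · exact absurd (Subtype.ext (isA_pow_four h)) hx
    have hDchar : ∀ (α : MulAut T) (x : T), isD (x : E q) → isD (α x : E q) := by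
      intro α x hx
      by_cases hx4 : x ^ 4 = 1
      · have hz : (x * ⟨g₀, hg₀T⟩) ^ 4 ≠ 1 := by
          have hc : Commute x ⟨g₀, hg₀T⟩ := by
            obtain ⟨_, _, _, _, h⟩ := hx
            exact Subtype.ext (D_comm h hg₀)
          rw [hc.mul_pow, hx4, one_mul]
          exact hg₀4
        have hα : ∀ y : T, y ^ 4 ≠ 1 → isD (α y : E q) := by
          intro y hy
          apply hpow4
          rw [← map_pow]
          intro h
          apply hy
          apply α.injective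
          rw [h, map_one]
        have h3 := hα _ hz
        have h4 := hα _ hg₀4
        have h5 : α x = α (x * ⟨g₀, hg₀T⟩) * (α ⟨g₀, hg₀T⟩)⁻¹ := by
          rw [map_mul, mul_inv_cancel_right]
        rw [h5]
        exact isD_mul h3 (isD_inv h4)
      · apply hpow4
        rw [← map_pow]
        intro h
        apply hx4
        apply α.injective
        rw [h, map_one]
    have hDichar : ∀ i, ∀ (α : MulAut T) (x : T), x ∈ Di T i → α x ∈ Di T i := by
      rintro i α x ⟨hx, hx'⟩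
      exact ⟨hDchar α x hx, by rw [← map_pow, hx', map_one]⟩
    have hD1 : Stab (Di T 1) := by
      apply step hexp (Z0_char T) (hDichar 1) ?_ hZ
      have key : ∀ x : T, x ∈ Di T 1 → x ∉ Z0 T → ∃ a : ZMod q, (a = 1 ∨ a = -1) ∧ Dg (x : E q) a (-1) := by
        rintro x ⟨⟨a, s, ha, hs, h⟩, hx2⟩ hxZ
        have h3 : (x : E q) ^ (2 ^ 1) = 1 := congrArg Subtype.val hx2
        rw [pow_one, pow_eq_one_iff_D ha h] at h3
        have h4 : a = 1 ∨ a = -1 := by
          apply mul_self_eq_one_iff.1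
          rw [← pow_two]; exact h3.1
        rcases hs with hs | hs
        · exfalso
          apply hxZ
          rw [mem_Z0_iff T hT h2]
          rw [hs] at h
          rcases h4 with h4 | h4
          · left; rwa [h4] at h
          · right; rwa [h4] at h
        · rw [hs] at h
          exact ⟨a, h4, h⟩
      intro x hx y hy hxZ hyZ
      obtain ⟨a, ha, h⟩ := key x hx hxZ
      obtain ⟨b, hb, h'⟩ := key y hy hyZ
      have ha0 : a ≠ 0 := by
        rcases ha with h | h <;> rw [h] <;> simp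
      have h3 := DD (D_inv ha0 (Or.inr rfl) h) h'
      rw [neg_one_mul, neg_neg] at h3
      rw [mem_Z0_iff T hT h2]
      have h4 : a⁻¹ * b = 1 ∨ a⁻¹ * b = -1 := by
        rcases ha with h | h <;> rcases hb with h' | h' <;> rw [h, h'] <;> simp
      rcases h4 with h4 | h4
      · left; rw [h4] at h3; exact h3
      · right; rw [h4] at h3; exact h3
    have hDi : ∀ i, Stab (Di T (i + 1)) := by
      intro i
      induction i with
      | zero => exact hD1
      | succ i ih =>
        apply step hexp (hDichar _) (hDichar _) ?_ ih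
        have key : ∀ (x : T) (a s : ZMod q), a ≠ 0 → Sg s → Dg (x : E q) a s → x ∈ Di T (i + 1 + 1) →
            x ∉ Di T (i + 1) → a ^ (2 ^ (i + 1)) = -1 := by
          intro x a s ha hs h hx hx'
          have h3 : (x : E q) ^ (2 ^ (i + 1 + 1)) = 1 := congrArg Subtype.val hx.2
          rw [pow_eq_one_iff_D ha h] at h3
          have h4 : a ^ (2 ^ (i + 1)) * a ^ (2 ^ (i + 1)) = 1 := by
            rw [← pow_two, ← pow_mul, ← pow_succ]; exact h3.1
          rcases mul_self_eq_one_iff.1 h4 with h5 | h5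
          · exfalso
            apply hx'
            refine ⟨⟨a, s, ha, hs, h⟩, Subtype.ext ?_⟩
            have : (x : E q) ^ (2 ^ (i + 1)) = 1 := by
              rw [pow_eq_one_iff_D ha h]
              refine ⟨h5, ?_⟩
              rw [pow_succ, mul_comm, pow_mul, pow_two, hs.sq, one_pow]
            exact this
          · exact h5
        intro x hx y hy hx' hy'
        obtain ⟨a, s, ha, hs, h⟩ := hx.1
        obtain ⟨b, t, hb, ht, h'⟩ := hy.1
        have h3 := key x a s ha hs h hx hx'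
        have h4 := key y b t hb ht h' hy hy'
        have h5 := DD (D_inv ha hs h) h'
        refine ⟨⟨_, _, mul_ne_zero (inv_ne_zero ha) hb, hs.mul ht, h5⟩, Subtype.ext ?_⟩
        have : (((x : E q)⁻¹ * (y : E q)) : E q) ^ (2 ^ (i + 1)) = 1 := by
          rw [pow_eq_one_iff_D (mul_ne_zero (inv_ne_zero ha) hb) h5]
          constructor
          · rw [mul_pow, inv_pow, h3, h4]; norm_num
          · rw [pow_succ, mul_comm (2 ^ i) 2, pow_mul, pow_two, (hs.mul ht).sq, one_pow]
        exact this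
    have hfin := hDi m
    apply step hexp (hDichar _) htop ?_ hfin
    intro x _ y _ hx hy
    have key : ∀ x : T, isD (x : E q) → x ∈ Di T (m + 1) := by
      intro x hx
      exact ⟨hx, Subtype.ext (two_pow_exp hq hx (by omega) (by omega))⟩
    have hxA : isA (x : E q) := (isD_or_isA hT x.2).resolve_left (fun h => hx (key x h))
    have hyA : isA (y : E q) := (isD_or_isA hT y.2).resolve_left (fun h => hy (key y h))
    apply key
    exact isA_mul (isA_inv hxA) hyA

end Cfsg.Agent.S3382
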