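import Cfsg.Statements.S3383
import Cfsg.Agent.Frob.Basic

set_option autoImplicit false
open Cfsg

namespace Cfsg.Agent.S3383

open Cfsg.Agent.Frob

/-- Let H be a Frobenius complement in a finite group L and K the Frobenius kernel (as a subgroup). Then K is characteristic in L, and every normal subgroup of L either contains K or is contained in K. -/
theorem result {L : Type*} [Group L] [Finite L]
    (H : Subgroup L) (hH : Cfsg.IsFrobeniusComplement H)
    (K : Subgroup L) (hK : (K : Set L) = Cfsg.frobeniusKernel H) :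
    K.Characteristic ∧ ∀ N : Subgroup L, N.Normal → K ≤ N ∨ N ≤ K := by
  have hKmem : ∀ x, x ∈ K ↔ x ∈ Cfsg.frobeniusKernel H := fun x => by
    rw [← hK]; rfl
  have hKn : K.Normal := ⟨fun x hx g => (hKmem _).2 (conj_mem_frobeniusKernel ((hKmem _).1 hx) g)⟩
  have hcardK : Nat.card K = H.index := by
    have h1 := card_frobeniusKernel hH
    rw [← hK] at h1
    exact h1
  have hcop := coprime_card_index hH
  have hidxK : K.index = Nat.card H := by
    have h1 := Subgroup.card_mul_index K
    have h2 := Subgroup.card_mul_index H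
    rw [hcardK] at h1
    have h3 : H.index ≠ 0 := Subgroup.index_ne_zero_of_finite
    rw [← h2, mul_comm (Nat.card H)] at h1
    exact Nat.eq_of_mul_eq_mul_left (Nat.pos_of_ne_zero h3) h1
  constructor
  · rw [Subgroup.characteristic_iff_map_le]
    rintro φ _ ⟨x, hx, rfl⟩
    have h1 : orderOf (φ x) ∣ H.index := by
      rw [← hcardK, MulEquiv.orderOf_eq φ x]
      exact Subgroup.orderOf_dvd_natCard K hx
    have h2 : orderOf (QuotientGroup.mk' K (φ x)) ∣ H.index := (orderOf_map_dvd _ _).trans h1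
    have h3 : orderOf (QuotientGroup.mk' K (φ x)) ∣ Nat.card H := by
      rw [← hidxK]
      exact orderOf_dvd_natCard _
    have h4 : orderOf (QuotientGroup.mk' K (φ x)) = 1 := Nat.dvd_one.1 (hcop ▸ Nat.dvd_gcd h3 h2)
    have h5 := orderOf_eq_one_iff.1 h4
    rwa [QuotientGroup.mk'_apply, QuotientGroup.eq_one_iff] at h5
  · intro N hN
    by_cases hNK : N ≤ K
    · exact Or.inr hNK
    left
    obtain ⟨x, hxN, hxK⟩ := SetLike.not_le_iff_exists.1 hNK
    rw [hKmem, not_mem_frobeniusKernel_iff] at hxK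
    obtain ⟨hx1, g, hg⟩ := hxK
    set h := g⁻¹ * x * g with hh
    have hhN : h ∈ N := by
      have := hN.conj_mem x hxN g⁻¹
      simpa using this
    have hh1 : h ≠ 1 := by
      intro h1
      apply hx1
      have : x = g * h * g⁻¹ := by rw [hh]; group
      rw [this, h1]; simp
    let f : K → K := fun k => ⟨(k : L)⁻¹ * (h * k * h⁻¹), K.mul_mem (K.inv_mem k.2) (hKn.conj_mem _ k.2 h)⟩
    have hf : Function.Injective f := by
      intro k m hkm
      have h1 : (k : L)⁻¹ * (h * k * h⁻¹) = (m : L)⁻¹ * (h * m * h⁻¹) := congrArg Subtype.val hkm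
      have h2 : ((m : L) * (k : L)⁻¹) * h * ((m : L) * (k : L)⁻¹)⁻¹ = h := by
        have h3 : (k : L)⁻¹ * h * k = (m : L)⁻¹ * h * m := by
          calc (k : L)⁻¹ * h * k = ((k : L)⁻¹ * (h * k * h⁻¹)) * h := by group
            _ = ((m : L)⁻¹ * (h * m * h⁻¹)) * h := by rw [h1]
            _ = (m : L)⁻¹ * h * m := by group
        calc ((m : L) * (k : L)⁻¹) * h * ((m : L) * (k : L)⁻¹)⁻¹ = m * ((k : L)⁻¹ * h * k) * (m : L)⁻¹ := by group
          _ = m * ((m : L)⁻¹ * h * m) * (m : L)⁻¹ := by rw [h3]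
          _ = h := by group
      have h4 : (m : L) * (k : L)⁻¹ ∈ H := mem_of_conj_mem hH hg hh1 (by rw [h2]; exact hg)
      have h5 : (m : L) * (k : L)⁻¹ ∈ Cfsg.frobeniusKernel H := (hKmem _).1 (K.mul_mem m.2 (K.inv_mem k.2))
      rw [mem_frobeniusKernel_iff] at h5
      rcases h5 with h5 | h5
      · exact Subtype.ext (mul_inv_eq_one.1 h5).symm
      · exact absurd (by simpa using h4) (h5 1)
    have hsurj := Finite.surjective_of_injective hf
    intro k hk
    obtain ⟨m, hm⟩ := hsurj ⟨k, hk⟩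
    have h1 : (m : L)⁻¹ * (h * m * h⁻¹) = k := congrArg Subtype.val hm
    rw [← h1]
    have h2 : (m : L)⁻¹ * (h * m * h⁻¹) = ((m : L)⁻¹ * h * (m : L)⁻¹⁻¹) * h⁻¹ := by group
    rw [h2]
    exact N.mul_mem (hN.conj_mem h hhN _) (N.inv_mem hhN)

end Cfsg.Agent.S3383
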