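import Cfsg.Statements.S3431
import Cfsg.Agent.H25.NseD
import Cfsg.Agent.H80.Order12
import Cfsg.Agent.S0494
import Cfsg.Agent.S0497

set_option autoImplicit false
open Cfsg

namespace Cfsg.Agent.S3431

/-- Let n be 4, 5 or 6 and let G be a finite group whose set of sizes of same-order classes (the set of numbers #{g : o(g) = m} over the element orders m of G) equals that of the alternating group of degree n. Then G is isomorphic to that alternating group. -/
theorem result {G : Type*} [Group G] [Finite G] (n : ℕ) (hn : n = 4 ∨ n = 5 ∨ n = 6)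
    (h : ((fun m : ℕ => Nat.card {g : G // orderOf g = m}) '' Set.range (orderOf : G → ℕ)) = ((fun m : ℕ => Nat.card {g : ↥(alternatingGroup (Fin n)) // orderOf g = m}) '' Set.range (orderOf : ↥(alternatingGroup (Fin n)) → ℕ))) :
    Nonempty (G ≃* ↥(alternatingGroup (Fin n))) := by
  have h' : (FrobThm.so G) '' Set.range (orderOf : G → ℕ) =
      (FrobThm.so (alternatingGroup (Fin n))) '' Set.range (orderOf : alternatingGroup (Fin n) → ℕ) := h
  clear h
  rcases hn with rfl | rfl | rfl
  · rw [H25.Nse.img4] at h'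
    obtain ⟨hV, hV'⟩ := H25.Nse.hyps h'
    obtain ⟨hc, h1, h2⟩ := H25.Nse.case4 G hV hV'
    refine H80.order_twelve hc ?_
    intro z hz hzc
    have h3 : FrobThm.so G 3 ≠ 0 := by
      rw [h1 3 (by decide)]; decide
    have h6 : FrobThm.so G 6 = 0 := by
      rw [h1 6 (by decide)]; decide
    obtain ⟨g, hg⟩ := (FrobThm.so_ne_zero_iff 3).1 h3
    have hcm : Commute z g := ((Subgroup.mem_center_iff.1 hzc) g).symm
    apply (FrobThm.so_ne_zero_iff (G := G) 6).2 _ h6
    refine ⟨z * g, ?_⟩
    rw [hcm.orderOf_mul_eq_mul_orderOf_of_coprime (by rw [hz, hg]; norm_num), hz, hg]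
  · rw [H25.Nse.img5] at h'
    obtain ⟨hV, hV'⟩ := H25.Nse.hyps h'
    obtain ⟨hc, h1, h2⟩ := H25.Nse.case5 G hV hV'
    have h3 : FrobThm.so G 3 = 20 := by rw [h1 3 (by decide)]; decide
    have h5 : FrobThm.so G 5 = 24 := by rw [h1 5 (by decide)]; decide
    have h10 : FrobThm.so G 10 = 0 := by rw [h1 10 (by decide)]; decide
    have := H25.Nse.simple60 hc h3 h5 h10
    exact S0494.result hc
  · rw [H25.Nse.img6] at h'
    obtain ⟨hV, hV'⟩ := H25.Nse.hyps h'
    obtain ⟨hc, h1, h2⟩ := H25.Nse.case6 G hV hV'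
    have h3 : FrobThm.so G 3 = 80 := by rw [h1 3 (by decide)]; decide
    have h5 : FrobThm.so G 5 = 144 := by rw [h1 5 (by decide)]; decide
    have h10 : FrobThm.so G 10 = 0 := by rw [h1 10 (by decide)]; decide
    have h15 : FrobThm.so G 15 = 0 := by rw [h1 15 (by decide)]; decide
    have := H25.Nse.simple360 hc h3 h5 h10 h15
    exact S0497.result hc

end Cfsg.Agent.S3431
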