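import Cfsg.Statements.S3704

set_option autoImplicit false
open Cfsg

namespace Cfsg.Agent.S3704

open MulAction
open scoped Matrix

section
variable {G Ω : Type*} [Group G] [Finite G] [MulAction G Ω] (H : Subgroup G)

/-- matrix attached to a function on the orbits of `H` -/
noncomputable def mat (F : orbitRel.Quotient H Ω → ℚ) : Matrix (G ⧸ H) Ω ℚ :=
  fun x a => F (Quotient.mk'' (x.out⁻¹ • a))

theorem mat_eq (F : orbitRel.Quotient H Ω → ℚ) (g : G) (a : Ω) :
    mat H F (g : G ⧸ H) a = F (Quotient.mk'' (g⁻¹ • a)) := by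
  unfold mat
  congr 1
  apply Quotient.sound
  change orbitRel H Ω _ _
  rw [orbitRel_apply, mem_orbit_iff]
  obtain ⟨h, hh⟩ := QuotientGroup.mk_out_eq_mul H g
  refine ⟨h⁻¹, ?_⟩
  rw [hh]
  simp only [mul_inv_rev, mul_smul]
  rfl

theorem mat_smul (F : orbitRel.Quotient H Ω → ℚ) (g : G) (x : G ⧸ H) (a : Ω) :
    mat H F (g • x) (g • a) = mat H F x a := by
  induction x using QuotientGroup.induction_on with
  | H k =>
    have : (g • (k : G ⧸ H)) = ((g * k : G) : G ⧸ H) := rfl
    rw [this, mat_eq, mat_eq, mul_inv_rev, mul_smul, inv_smul_smul]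

variable [Fintype (G ⧸ H)]

/-- Gram form -/
noncomputable def gram (F F' : orbitRel.Quotient H Ω → ℚ) (a b : Ω) : ℚ :=
  ∑ x : G ⧸ H, mat H F x a * mat H F' x b

theorem gram_smul (F F' : orbitRel.Quotient H Ω → ℚ) (g : G) (a b : Ω) :
    gram H F F' (g • a) (g • b) = gram H F F' a b := by
  unfold gram
  rw [← Equiv.sum_comp (MulAction.toPerm g)]
  refine Finset.sum_congr rfl fun x _ => ?_
  rw [MulAction.toPerm_apply, mat_smul, mat_smul]
end

/-- Let G be a finite group acting faithfully and 2-transitively on a finite set Ω of size n, and let H be a subgroup of index n in G which is not transitive on Ω and fixes no point of Ω. Then H has exactly two orbits on Ω. -/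
theorem result {G Ω : Type*} [Group G] [Finite G] [MulAction G Ω] [FaithfulSMul G Ω] [Finite Ω] (h2 : MulAction.IsMultiplyPretransitive G Ω 2) (H : Subgroup G) (hidx : H.index = Nat.card Ω) (hnt : ¬ MulAction.IsPretransitive H Ω) (hfix : ∀ a : Ω, ∃ h : H, h • a ≠ a) : Nat.card (MulAction.orbitRel.Quotient H Ω) = 2 := by
  classical
  have : Fintype Ω := Fintype.ofFinite Ω
  have : Fintype (G ⧸ H) := Fintype.ofFinite _
  have : Fintype (orbitRel.Quotient H Ω) := Fintype.ofFinite _
  rw [is_two_pretransitive_iff] at h2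
  -- two points in different orbits
  obtain ⟨c, d, hcd⟩ : ∃ c d : Ω, (Quotient.mk'' c : orbitRel.Quotient H Ω) ≠ Quotient.mk'' d := by
    by_contra hcon
    push Not at hcon
    apply hnt
    constructor
    intro x y
    have h1 : orbitRel H Ω y x := Quotient.exact (hcon y x)
    rw [orbitRel_apply, mem_orbit_iff] at h1
    exact h1
  have hcd' : c ≠ d := fun h => hcd (by rw [h])
  have htrans : ∀ a b : Ω, ∃ g : G, g • a = b := by
    intro a b
    obtain ⟨a', ha'⟩ : ∃ a', a' ≠ a := by
      by_cases h : c = a
      · exact ⟨d, fun h' => hcd' (h.trans h'.symm)⟩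
      · exact ⟨c, h⟩
    obtain ⟨b', hb'⟩ : ∃ b', b' ≠ b := by
      by_cases h : c = b
      · exact ⟨d, fun h' => hcd' (h.trans h'.symm)⟩
      · exact ⟨c, h⟩
    obtain ⟨g, hg, -⟩ := h2 (a := a) (b := a') (c := b) (d := b') ha'.symm hb'.symm
    exact ⟨g, hg⟩
  let F₀ : orbitRel.Quotient H Ω → ℚ := fun q => if q = Quotient.mk'' c then 1 else 0
  have hF0 : ∀ q, 0 ≤ F₀ q := by
    intro q
    simp only [F₀]
    split_ifs <;> norm_num
  -- values of the Gram form
  have hdiag : ∀ F F' : orbitRel.Quotient H Ω → ℚ, ∀ a : Ω, gram H F F' a a = gram H F F' c c := by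
    intro F F' a
    obtain ⟨g, rfl⟩ := htrans c a
    exact gram_smul H F F' g c c
  have hoff : ∀ F F' : orbitRel.Quotient H Ω → ℚ, ∀ a b : Ω, a ≠ b → gram H F F' a b = gram H F F' c d := by
    intro F F' a b hab
    obtain ⟨g, rfl, rfl⟩ := h2 (a := c) (b := d) (c := a) (d := b) hcd' hab
    exact gram_smul H F F' g c d
  set r := gram H F₀ F₀ c c with hr
  set l := gram H F₀ F₀ c d with hl
  have hl0 : 0 ≤ l := Finset.sum_nonneg fun x _ => mul_nonneg (hF0 _) (hF0 _)
  have hrl : l < r := by
    have h1 : 2 * (r - l) = ∑ x : G ⧸ H, (mat H F₀ x c - mat H F₀ x d) ^ 2 := by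
      have e1 : ∑ x : G ⧸ H, (mat H F₀ x c - mat H F₀ x d) ^ 2 =
          gram H F₀ F₀ c c + gram H F₀ F₀ d d - 2 * gram H F₀ F₀ c d := by
        unfold gram
        rw [Finset.mul_sum, ← Finset.sum_add_distrib, ← Finset.sum_sub_distrib]
        refine Finset.sum_congr rfl fun x _ => ?_
        ring
      rw [e1, hdiag F₀ F₀ d]
      ring
    have h3 : 0 < ∑ x : G ⧸ H, (mat H F₀ x c - mat H F₀ x d) ^ 2 := by
      apply Finset.sum_pos' (fun x _ => sq_nonneg _)
      refine ⟨((1 : G) : G ⧸ H), Finset.mem_univ _, ?_⟩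
      rw [mat_eq, mat_eq, inv_one, one_smul, one_smul]
      simp only [F₀]
      rw [if_pos trivial, if_neg hcd.symm]
      norm_num
    linarith
  -- `M₀` is injective
  have hinj : Function.Injective (mat H F₀).mulVecLin := by
    rw [← LinearMap.ker_eq_bot, LinearMap.ker_eq_bot']
    intro v hv
    have hv' : ∀ x, ∑ b, mat H F₀ x b * v b = 0 := fun x => congrFun hv x
    have h1 : ∀ a, (r - l) * v a + l * ∑ b, v b = 0 := by
      intro a
      have e1 : ∑ b, gram H F₀ F₀ a b * v b = 0 := by
        unfold gram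
        simp only [Finset.sum_mul]
        rw [Finset.sum_comm]
        apply Finset.sum_eq_zero
        intro x _
        have := hv' x
        calc ∑ b, mat H F₀ x a * mat H F₀ x b * v b = mat H F₀ x a * ∑ b, mat H F₀ x b * v b := by
              rw [Finset.mul_sum]
              exact Finset.sum_congr rfl fun b _ => by ring
          _ = 0 := by rw [this, mul_zero]
      have e2 : ∀ b, gram H F₀ F₀ a b * v b = (if b = a then (r - l) * v b else 0) + l * v b := by
        intro b
        split_ifs with h
        · rw [h, hdiag F₀ F₀ a, ← hr]; ring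
        · rw [hoff F₀ F₀ a b (fun h' => h h'.symm), ← hl]; ring
      rw [Finset.sum_congr rfl fun b _ => e2 b, Finset.sum_add_distrib,
        Finset.sum_ite_eq' Finset.univ a, ← Finset.mul_sum] at e1
      simpa using e1
    have h4 : ((r - l) + (Fintype.card Ω : ℚ) * l) * ∑ b, v b = 0 := by
      have := Finset.sum_eq_zero (s := Finset.univ) fun a (_ : a ∈ Finset.univ) => h1 a
      rw [Finset.sum_add_distrib, ← Finset.mul_sum, Finset.sum_const, nsmul_eq_mul, Finset.card_univ] at this
      linarith
    have h5 : ∑ b, v b = 0 := by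
      rcases mul_eq_zero.1 h4 with h | h
      · exfalso
        have : 0 ≤ (Fintype.card Ω : ℚ) * l := mul_nonneg (Nat.cast_nonneg _) hl0
        linarith
      · exact h
    funext a
    have h6 := h1 a
    rw [h5, mul_zero, add_zero] at h6
    rcases mul_eq_zero.1 h6 with h | h
    · exfalso; linarith
    · exact h
  have hcard : Fintype.card (G ⧸ H) = Fintype.card Ω := by
    rw [← Nat.card_eq_fintype_card, ← Nat.card_eq_fintype_card, ← hidx]
    rfl
  have hrank : (mat H F₀)ᵀ.rank = Fintype.card (G ⧸ H) := by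
    rw [Matrix.rank_transpose, Matrix.rank, LinearMap.finrank_range_of_inj hinj, hcard]
    simp
  have hinjT : Function.Injective (mat H F₀)ᵀ.mulVecLin := by
    rw [← LinearMap.ker_eq_bot, ← Submodule.finrank_eq_zero (R := ℚ)]
    have := LinearMap.finrank_range_add_finrank_ker (mat H F₀)ᵀ.mulVecLin
    rw [← Matrix.rank, hrank] at this
    simpa using this
  -- the linear map
  let Φ : (orbitRel.Quotient H Ω → ℚ) →ₗ[ℚ] (ℚ × ℚ) :=
    { toFun := fun F => (gram H F₀ F c c, gram H F₀ F c d)
      map_add' := by
        intro F F'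
        have : ∀ a b, gram H F₀ (F + F') a b = gram H F₀ F a b + gram H F₀ F' a b := by
          intro a b
          unfold gram
          rw [← Finset.sum_add_distrib]
          refine Finset.sum_congr rfl fun x _ => ?_
          simp only [mat, Pi.add_apply]
          ring
        rw [this, this]; rfl
      map_smul' := by
        intro t F
        have : ∀ a b, gram H F₀ (t • F) a b = t * gram H F₀ F a b := by
          intro a b
          unfold gram
          rw [Finset.mul_sum]
          refine Finset.sum_congr rfl fun x _ => ?_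
          simp only [mat, Pi.smul_apply, smul_eq_mul]
          ring
        rw [this, this]; rfl }
  have hΦ : Function.Injective Φ := by
    rw [← LinearMap.ker_eq_bot, LinearMap.ker_eq_bot']
    intro F hF
    have h1 : gram H F₀ F c c = 0 := congrArg Prod.fst hF
    have h3 : gram H F₀ F c d = 0 := congrArg Prod.snd hF
    have h4 : ∀ a b, gram H F₀ F a b = 0 := by
      intro a b
      by_cases hab : a = b
      · rw [hab, hdiag, h1]
      · rw [hoff _ _ _ _ hab, h3]
    have h5 : ∀ b, (fun x => mat H F x b) = 0 := by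
      intro b
      apply hinjT
      rw [map_zero]
      funext a
      exact h4 a b
    funext q
    obtain ⟨a, rfl⟩ := Quotient.exists_rep q
    have := congrFun (h5 a) ((1 : G) : G ⧸ H)
    simp only [mat_eq, inv_one, one_smul, Pi.zero_apply] at this
    exact this
  have hle : Fintype.card (orbitRel.Quotient H Ω) ≤ 2 := by
    have := LinearMap.finrank_le_finrank_of_injective hΦ
    simpa using this
  have hge : 1 < Fintype.card (orbitRel.Quotient H Ω) :=
    Fintype.one_lt_card_iff.2 ⟨_, _, hcd⟩
  rw [Nat.card_eq_fintype_card]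
  omega

end Cfsg.Agent.S3704
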