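import Cfsg.Statements.S3733

set_option autoImplicit false
open Cfsg

namespace Cfsg.Agent.S3733

open scoped IsMulCommutative in
theorem aux {G : Type*} [Group G] [Finite G] (A V : Subgroup G) [IsMulCommutative V]
    (hV : V ≠ ⊥) (hAV : A ≤ Subgroup.normalizer (V : Set G)) (𝒜 : Finset (Subgroup G))
    (hne : 𝒜.Nonempty) (hprop : ∀ B ∈ 𝒜, B < A)
    (hpart : ∀ a ∈ A, a ≠ 1 → ∃! B, B ∈ 𝒜 ∧ a ∈ B)
    (hk : (𝒜.card - 1).Coprime (Nat.card V)) :
    ∃ B ∈ 𝒜, V ⊓ Subgroup.centralizer (B : Set G) ≠ ⊥ := by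
  classical
  by_contra hcon
  push Not at hcon
  have : Fintype A := Fintype.ofFinite A
  let f : A → V →* V := fun a => (V.normalizerMonoidHom (Subgroup.inclusion hAV a)).toMonoidHom
  have hf : ∀ (a : A) (v : V), ((f a v : V) : G) = a * v * (a : G)⁻¹ := fun a v => rfl
  have hfm : ∀ (a b : A) (v : V), f a (f b v) = f (a * b) v := by
    intro a b v
    apply Subtype.ext
    simp only [hf, Subgroup.coe_mul]
    group
  let N : Subgroup G → V → V := fun B v => ∏ a : A, if (a : G) ∈ B then f a v else 1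
  have hNfix : ∀ B : Subgroup G, B ≤ A → ∀ v : V, ∀ b ∈ B, b * (N B v : G) * b⁻¹ = N B v := by
    intro B hB v b hb
    have h1 : f ⟨b, hB hb⟩ (N B v) = N B v := by
      simp only [N]
      rw [map_prod]
      rw [← Equiv.prod_comp (Equiv.mulLeft (⟨b, hB hb⟩ : A)) (fun a : A => if (a : G) ∈ B then f a v else 1)]
      apply Finset.prod_congr rfl
      intro a _
      by_cases ha : (a : G) ∈ B
      · have h2 : ((Equiv.mulLeft (⟨b, hB hb⟩ : A)) a : G) ∈ B := by
          simpa using B.mul_mem hb ha
        rw [if_pos ha, if_pos h2, hfm]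
        rfl
      · have h2 : ((Equiv.mulLeft (⟨b, hB hb⟩ : A)) a : G) ∉ B := by
          intro h
          apply ha
          have h3 : (b * a : G) ∈ B := by simpa using h
          exact (Subgroup.mul_mem_cancel_left B hb).1 h3
        rw [if_neg ha, if_neg h2, map_one]
    have h2 := congrArg (fun x : V => (x : G)) h1
    simpa [hf] using h2
  have hN1 : ∀ B ∈ 𝒜, ∀ v : V, N B v = 1 := by
    intro B hB v
    have h1 : (N B v : G) ∈ V ⊓ Subgroup.centralizer (B : Set G) := by
      refine Subgroup.mem_inf.2 ⟨(N B v).2, Subgroup.mem_centralizer_iff.2 ?_⟩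
      intro b hb
      have := hNfix B (hprop B hB).le v b hb
      rw [mul_inv_eq_iff_eq_mul] at this
      exact this
    rw [hcon B hB, Subgroup.mem_bot] at h1
    exact Subtype.ext h1
  obtain ⟨B₀, hB₀⟩ := hne
  have hNA : ∀ v : V, N A v = 1 := by
    intro v
    have h1 : (N A v : G) ∈ V ⊓ Subgroup.centralizer (B₀ : Set G) := by
      refine Subgroup.mem_inf.2 ⟨(N A v).2, Subgroup.mem_centralizer_iff.2 ?_⟩
      intro b hb
      have := hNfix A le_rfl v b ((hprop B₀ hB₀).le hb)
      rw [mul_inv_eq_iff_eq_mul] at this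
      exact this
    rw [hcon B₀ hB₀, Subgroup.mem_bot] at h1
    exact Subtype.ext h1
  have key : ∀ v : V, v ^ (𝒜.card - 1) = 1 := by
    intro v
    have h1 : ∏ B ∈ 𝒜, N B v = 1 := Finset.prod_eq_one (fun B hB => hN1 B hB v)
    simp only [N] at h1
    rw [Finset.prod_comm] at h1
    have h2 : ∀ a : A, (∏ B ∈ 𝒜, if (a : G) ∈ B then f a v else 1) =
        (if (a : G) ∈ A then f a v else 1) * (if a = 1 then v ^ (𝒜.card - 1) else 1) := by
      intro a
      rw [if_pos a.2]
      by_cases ha : a = 1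
      · subst ha
        have : ∀ B ∈ 𝒜, (if ((1 : A) : G) ∈ B then f 1 v else 1) = v := by
          intro B _
          rw [if_pos (by simp [B.one_mem])]
          apply Subtype.ext
          simp [hf]
        rw [Finset.prod_congr rfl this, Finset.prod_const, if_pos rfl]
        have h3 : f 1 v = v := by
          apply Subtype.ext
          simp [hf]
        rw [h3, ← pow_succ']
        congr 1
        have := Finset.card_pos.2 ⟨B₀, hB₀⟩
        omega
      · rw [if_neg ha, mul_one]
        obtain ⟨B, ⟨hB1, hB2⟩, hB3⟩ := hpart a a.2 (fun h => ha (Subtype.ext h))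
        rw [Finset.prod_eq_single B]
        · rw [if_pos hB2]
        · intro C hC hCB
          rw [if_neg]
          intro h
          exact hCB (hB3 C ⟨hC, h⟩)
        · intro h
          exact absurd hB1 h
    rw [Finset.prod_congr rfl (fun a _ => h2 a), Finset.prod_mul_distrib] at h1
    have h3 : (∏ a : A, if (a : G) ∈ A then f a v else 1) = 1 := hNA v
    rw [h3, one_mul, Finset.prod_ite_eq' Finset.univ (1 : A)] at h1
    simpa using h1
  apply hV
  rw [Subgroup.eq_bot_iff_forall]
  intro v hv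
  have h1 := key ⟨v, hv⟩
  have h2 : orderOf (⟨v, hv⟩ : V) ∣ 𝒜.card - 1 := orderOf_dvd_of_pow_eq_one h1
  have h3 : orderOf (⟨v, hv⟩ : V) ∣ Nat.card V := orderOf_dvd_natCard _
  have h4 : orderOf (⟨v, hv⟩ : V) = 1 := Nat.eq_one_of_dvd_coprimes hk h2 h3
  rw [orderOf_eq_one_iff] at h4
  exact congrArg (fun x : V => (x : G)) h4

/-- Let A and V be subgroups of a finite group with V abelian and nontrivial and A normalizing V. Suppose a nonempty finite family of proper subgroups of A partitions A: every non-identity element of A lies in exactly one member. If the number of members minus one is coprime to the order of V, then some member B of the family has a non-identity fixed point on V, that is V ∩ C(B) ≠ 1. -/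
theorem result {G : Type*} [Group G] [Finite G] (A V : Subgroup G) (hVab : IsMulCommutative V) (hV : V ≠ ⊥) (hAV : A ≤ Subgroup.normalizer (V : Set G)) (𝒜 : Finset (Subgroup G)) (hne : 𝒜.Nonempty) (hprop : ∀ B ∈ 𝒜, B < A) (hpart : ∀ a ∈ A, a ≠ 1 → ∃! B, B ∈ 𝒜 ∧ a ∈ B) (hk : (𝒜.card - 1).Coprime (Nat.card V)) : ∃ B ∈ 𝒜, V ⊓ Subgroup.centralizer (B : Set G) ≠ ⊥ :=
  aux A V hV hAV 𝒜 hne hprop hpart hk

end Cfsg.Agent.S3733
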