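import Cfsg.Statements.S3735

set_option autoImplicit false
open Cfsg

namespace Cfsg.Agent.S3735

/-- `T` is a minimal nontrivial `A`-invariant subgroup of `V` -/
def IsAtomOf {G : Type*} [Group G] (A V T : Subgroup G) : Prop :=
  T ≠ ⊥ ∧ T ≤ V ∧ A ≤ Subgroup.normalizer (T : Set G) ∧
    ∀ T' : Subgroup G, T' ≤ T → A ≤ Subgroup.normalizer (T' : Set G) → T' = ⊥ ∨ T' = T

theorem exists_atom {G : Type*} [Group G] [Finite G] (A V W : Subgroup G) (hWV : W ≤ V)
    (hW : W ≠ ⊥) (hAW : A ≤ Subgroup.normalizer (W : Set G)) : ∃ T, IsAtomOf A V T ∧ T ≤ W := by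
  classical
  let s : Set (Subgroup G) := {T | T ≠ ⊥ ∧ T ≤ W ∧ A ≤ Subgroup.normalizer (T : Set G)}
  have hs : s.Finite := Set.toFinite _
  have hne : s.Nonempty := ⟨W, hW, le_rfl, hAW⟩
  obtain ⟨T, hT⟩ := hs.exists_minimal hne
  refine ⟨T, ⟨hT.prop.1, hT.prop.2.1.trans hWV, hT.prop.2.2, ?_⟩, hT.prop.2.1⟩
  intro T' h1 h2
  by_cases h3 : T' = ⊥
  · exact Or.inl h3
  · right
    exact le_antisymm h1 (hT.le_of_le ⟨h3, h1.trans hT.prop.2.1, h2⟩ h1)

theorem conj_atom {G : Type*} [Group G] [Finite G] (H A V T : Subgroup G)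
    (hHV : H ≤ Subgroup.normalizer (V : Set G))
    (hAn : H ≤ Subgroup.normalizer (A : Set G)) (hT : IsAtomOf A V T) (h : G) (hh : h ∈ H) :
    IsAtomOf A V (T.map (MulAut.conj h).toMonoidHom) := by
  obtain ⟨h1, h2, h3, h4⟩ := hT
  have inv : ∀ (U : Subgroup G) (k : G), k ∈ H → A ≤ Subgroup.normalizer (U : Set G) →
      A ≤ Subgroup.normalizer ((U.map (MulAut.conj k).toMonoidHom : Subgroup G) : Set G) := by
    intro U k hk hU a ha
    apply Subgroup.mem_normalizer_fintype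
    rintro _ ⟨t, ht, rfl⟩
    have h5 : k⁻¹ * a * k ∈ A := by
      have := (Subgroup.mem_normalizer_iff.1 (hAn (H.inv_mem hk)) a).1 ha
      simpa using this
    have h6 := (Subgroup.mem_normalizer_iff.1 (hU h5) t).1 ht
    refine ⟨_, h6, ?_⟩
    simp only [MulEquiv.coe_toMonoidHom, MulAut.conj_apply]
    group
  refine ⟨?_, ?_, inv T h hh h3, ?_⟩
  · intro h5
    apply h1
    rwa [Subgroup.map_eq_bot_iff_of_injective _ (MulAut.conj h).injective] at h5
  · rintro _ ⟨t, ht, rfl⟩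
    exact (Subgroup.mem_normalizer_iff.1 (hHV hh) t).1 (h2 ht)
  · intro T' h5 h6
    have h7 : T'.map (MulAut.conj h⁻¹).toMonoidHom ≤ T := by
      rintro _ ⟨t, ht, rfl⟩
      obtain ⟨u, hu, rfl⟩ := h5 ht
      simpa [mul_assoc] using hu
    have h9 : (T'.map (MulAut.conj h⁻¹).toMonoidHom).map (MulAut.conj h).toMonoidHom = T' := by
      rw [Subgroup.map_map]
      convert Subgroup.map_id T'
      ext x
      simp [mul_assoc]
    rcases h4 _ h7 (inv T' h⁻¹ (H.inv_mem hh) h6) with h8 | h8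
    · left
      rw [h8, Subgroup.map_bot] at h9
      exact h9.symm
    · right
      rw [h8] at h9
      exact h9.symm

/-- Clifford's Theorem for actions on finite abelian groups, first part. Let H and V be subgroups of a finite group with V abelian and H normalizing V, and let A be a normal subgroup of H. If every H-invariant subgroup of V has an H-invariant complement in V, then every A-invariant subgroup of V has an A-invariant complement in V. -/
theorem result {G : Type*} [Group G] [Finite G] (H A V : Subgroup G) (hVab : IsMulCommutative V) (hHV : H ≤ Subgroup.normalizer (V : Set G)) (hAH : A ≤ H) (hAn : H ≤ Subgroup.normalizer (A : Set G)) (hss : ∀ U : Subgroup G, U ≤ V → H ≤ Subgroup.normalizer (U : Set G) → ∃ W : Subgroup G, W ≤ V ∧ H ≤ Subgroup.normalizer (W : Set G) ∧ U ⊓ W = ⊥ ∧ U ⊔ W = V) (U : Subgroup G) (hUV : U ≤ V) (hAU : A ≤ Subgroup.normalizer (U : Set G)) : ∃ W : Subgroup G, W ≤ V ∧ A ≤ Subgroup.normalizer (W : Set G) ∧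 U ⊓ W = ⊥ ∧ U ⊔ W = V := by
  classical
  have hcomm : ∀ x ∈ V, ∀ y ∈ V, x * y = y * x := by
    intro x hx y hy
    have := hVab.is_comm.comm ⟨x, hx⟩ ⟨y, hy⟩
    exact congrArg (fun z : V => (z : G)) this
  let S : Subgroup G := sSup {T | IsAtomOf A V T}
  have hSV : S ≤ V := sSup_le fun T hT => hT.2.1
  have hHS : H ≤ Subgroup.normalizer (S : Set G) := by
    intro h hh
    apply Subgroup.mem_normalizer_fintype
    intro n hn
    have h1 : S.map (MulAut.conj h).toMonoidHom ≤ S := by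
      rw [Subgroup.map_le_iff_le_comap]
      apply sSup_le
      intro T hT
      rw [← Subgroup.map_le_iff_le_comap]
      exact le_sSup (conj_atom H A V T hHV hAn hT h hh)
    exact h1 ⟨n, hn, rfl⟩
  have hVS : S = V := by
    obtain ⟨W, hW1, hW2, hW3, hW4⟩ := hss S hSV hHS
    have : W = ⊥ := by
      by_contra hne
      obtain ⟨T, hT, hTW⟩ := exists_atom A V W hW1 hne (hAH.trans hW2)
      apply hT.1
      rw [eq_bot_iff, ← hW3]
      exact le_inf (le_sSup hT) hTW
    rw [this, sup_bot_eq] at hW4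
    exact hW4
  -- maximal invariant subgroup meeting `U` trivially
  let s : Set (Subgroup G) := {W | W ≤ V ∧ A ≤ Subgroup.normalizer (W : Set G) ∧ U ⊓ W = ⊥}
  have hs : s.Finite := Set.toFinite _
  have hne : s.Nonempty := ⟨⊥, bot_le, by rw [Subgroup.normalizer_eq_top]; exact le_top, inf_bot_eq _⟩
  obtain ⟨W, hW⟩ := hs.exists_maximal hne
  refine ⟨W, hW.prop.1, hW.prop.2.1, hW.prop.2.2, ?_⟩
  apply le_antisymm (sup_le hUV hW.prop.1)
  rw [← hVS]
  apply sSup_le
  intro T hT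
  by_contra hTn
  have supmem : ∀ (X Y : Subgroup G), X ≤ V → Y ≤ V → ∀ z, z ∈ X ⊔ Y → ∃ x ∈ X, ∃ y ∈ Y, x * y = z := by
    intro X Y hX hY z hz
    have hYn : Y ≤ Subgroup.normalizer (X : Set G) := by
      intro y hy
      apply Subgroup.mem_normalizer_fintype
      intro x hx
      rw [← hcomm x (hX hx) y (hY hy), mul_inv_cancel_right]
      exact hx
    have h3 : z ∈ ((X ⊔ Y : Subgroup G) : Set G) := hz
    rw [Subgroup.coe_mul_of_right_le_normalizer_left _ _ hYn] at h3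
    obtain ⟨x, hx, y, hy, rfl⟩ := h3
    exact ⟨x, hx, y, hy, rfl⟩
  have hnsup : ∀ X Y : Subgroup G, A ≤ Subgroup.normalizer (X : Set G) → A ≤ Subgroup.normalizer (Y : Set G) →
      A ≤ Subgroup.normalizer ((X ⊔ Y : Subgroup G) : Set G) := by
    intro X Y hX hY a ha
    apply Subgroup.mem_normalizer_fintype
    intro n hn
    have h1 : (X ⊔ Y).map (MulAut.conj a).toMonoidHom ≤ X ⊔ Y := by
      rw [Subgroup.map_sup]
      apply sup_le_sup
      · rintro _ ⟨x, hx, rfl⟩
        exact (Subgroup.mem_normalizer_iff.1 (hX ha) x).1 hx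
      · rintro _ ⟨x, hx, rfl⟩
        exact (Subgroup.mem_normalizer_iff.1 (hY ha) x).1 hx
    exact h1 ⟨n, hn, rfl⟩
  have hTinf : T ⊓ (U ⊔ W) = ⊥ := by
    rcases hT.2.2.2 (T ⊓ (U ⊔ W)) inf_le_left (by
      intro a ha
      apply Subgroup.mem_normalizer_fintype
      rintro n ⟨hn1, hn2⟩
      exact ⟨(Subgroup.mem_normalizer_iff.1 (hT.2.2.1 ha) n).1 hn1,
        (Subgroup.mem_normalizer_iff.1 (hnsup U W hAU hW.prop.2.1 ha) n).1 hn2⟩) with h | h
    · exact h
    · exact absurd (inf_eq_left.1 h) hTn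
  have hWT : W ⊔ T ∈ s := by
    refine ⟨sup_le hW.prop.1 hT.2.1, hnsup W T hW.prop.2.1 hT.2.2.1, ?_⟩
    rw [eq_bot_iff]
    rintro u ⟨hu, hwt⟩
    obtain ⟨w, hw, t, ht, rfl⟩ := supmem W T hW.prop.1 hT.2.1 u hwt
    have h1 : t ∈ T ⊓ (U ⊔ W) := by
      refine ⟨ht, ?_⟩
      have : t = w⁻¹ * (w * t) := by group
      rw [this]
      exact mul_mem (Subgroup.mem_sup_right (inv_mem hw)) (Subgroup.mem_sup_left hu)
    rw [hTinf, Subgroup.mem_bot] at h1
    subst h1
    rw [mul_one] at hu ⊢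
    have h2 : w ∈ U ⊓ W := ⟨hu, hw⟩
    rw [hW.prop.2.2] at h2
    exact h2
  have h1 : W ⊔ T ≤ W := hW.le_of_ge hWT le_sup_left
  exact hTn ((le_sup_right.trans h1).trans le_sup_right)

end Cfsg.Agent.S3735
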