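import Cfsg.Statements.S3738
import Cfsg.Agent.H62.RankTwo
-- import your own Cfsg.Agent.* helpers here

set_option autoImplicit false
set_option linter.style.haveILetI false
open Cfsg

namespace Cfsg.Agent.S3738

open Subgroup
open scoped commutatorElement

/-- Let d be a non-identity 3-element of a finite group and P a 2-subgroup normalized by d on which ⟨d⟩ acts faithfully (no non-identity power of d centralizes P) and without non-identity fixed points (C_P(d) = 1). If every abelian subgroup of P has 2-rank at most 2, then d has order 3. -/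
theorem result {X : Type*} [Group X] [Finite X] (d : X) (n : ℕ) (hn : 1 ≤ n) (hd : orderOf d = 3 ^ n) (P : Subgroup X) (hP : IsPGroup 2 P) (hdP : d ∈ Subgroup.normalizer (P : Set X)) (hfaith : Subgroup.zpowers d ⊓ Subgroup.centralizer (P : Set X) = ⊥) (hfpf : P ⊓ Subgroup.centralizer {d} = ⊥) (hrank : ∀ V : Subgroup X, V ≤ P → IsMulCommutative V → Cfsg.PRankLE 2 2 V) : orderOf d = 3 := by
  haveI : Fact (Nat.Prime 2) := ⟨Nat.prime_two⟩
  haveI : Fact (Nat.Prime 3) := ⟨Nat.prime_three⟩
  by_contra hne
  have hn2 : 2 ≤ n := by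
    rcases Nat.lt_or_ge n 2 with h | h
    · exfalso; apply hne; rw [hd]
      have : n = 1 := by omega
      rw [this, pow_one]
    · exact h
  have hrank4 : ∀ V : Subgroup X, V ≤ P → IsMulCommutative V → (∀ v ∈ V, v ^ 2 = 1) → Nat.card V ≤ 4 := by
    intro V hV hVc hVe
    have h1 := hrank V hV hVc ⊤ (by
      refine ⟨⟨?_⟩⟩
      rintro ⟨a, _⟩ ⟨b, _⟩
      exact Subtype.ext (hVc.1.1 a b)) (by
      intro a _
      exact Subtype.ext (hVe a a.2))
    rw [Subgroup.card_top] at h1
    exact h1
  set z := d ^ 3 ^ (n - 1) with hz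
  have hzd : z ∈ zpowers d := pow_mem (mem_zpowers d) _
  have hz1 : z ≠ 1 := by
    intro h
    have h1 : orderOf d ∣ 3 ^ (n - 1) := orderOf_dvd_of_pow_eq_one h
    rw [hd] at h1
    have := (Nat.pow_dvd_pow_iff_le_right (by norm_num : 1 < 3)).1 h1
    omega
  have hzz : zpowers z ≤ zpowers d := zpowers_le.2 hzd
  have hzcard : (Nat.card (zpowers z)).Coprime 2 := by
    rw [Nat.card_zpowers]
    have h1 : orderOf z ∣ 3 ^ n := by
      rw [← hd, hz]; exact orderOf_pow_dvd _
    exact Nat.Coprime.coprime_dvd_left h1 (Nat.Coprime.pow_left _ (by norm_num))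
  have hnt : ⁅P, zpowers z⁆ ≠ ⊥ := by
    intro h
    rw [commutator_eq_bot_iff_le_centralizer, le_centralizer_iff] at h
    have h1 : z ∈ zpowers d ⊓ centralizer (P : Set X) := ⟨hzd, h (mem_zpowers z)⟩
    rw [hfaith, mem_bot] at h1
    exact hz1 h1
  have hBP : zpowers d ≤ normalizer (P : Set X) := zpowers_le.2 hdP
  have hBA : zpowers d ≤ normalizer (zpowers z : Set X) := by
    have h1 : zpowers d ≤ centralizer (zpowers z : Set X) := by
      rw [le_centralizer_iff]
      intro y hy
      rw [mem_centralizer_iff]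
      rintro _ ⟨k, rfl⟩
      obtain ⟨l, rfl⟩ := hzz hy
      exact ((Commute.refl d).zpow_zpow k l).eq
    exact h1.trans (H49.centralizer_le_normalizer' _)
  obtain ⟨P0, hP0P, hBP0, hnt0, hmin⟩ := Cop.exists_min hBP hnt
  have hP0 : IsPGroup 2 P0 := hP.to_le hP0P
  have hst := Cop.min_structure hP0 hBP0 hzz hBA hzcard hnt0 hmin
  -- the whole group ⟨d⟩ acts freely outside the fixed points of `z`
  have hfree : 3 ^ n ∣ Nat.card ({x | x ∈ P0 ∧ x ∉ centralizer (zpowers z : Set X)} : Set X) := by
    rw [← hd, ← Nat.card_zpowers]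
    apply H62.card_dvd_of_free
    · rintro a ha x ⟨hx, hx'⟩
      refine ⟨(mem_normalizer_iff.1 (hBP0 ha) x).1 hx, ?_⟩
      intro h
      apply hx'
      have h1 : a⁻¹ ∈ normalizer ((centralizer (zpowers z : Set X) : Subgroup X) : Set X) := by
        apply le_normalizer
        exact inv_mem ((le_centralizer_iff.1 (show zpowers z ≤ centralizer (zpowers d : Set X) from by
          intro y hy
          rw [mem_centralizer_iff]
          rintro _ ⟨k, rfl⟩
          obtain ⟨l, rfl⟩ := hzz hy
          exact ((Commute.refl d).zpow_zpow k l).eq)) ha)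
      have h2 := (mem_normalizer_iff.1 h1 _).1 h
      have h3 : a⁻¹ * (a * x * a⁻¹) * a⁻¹⁻¹ = x := by group
      rwa [h3] at h2
    · rintro a ha x ⟨hx, hx'⟩ hax
      by_contra ha1
      apply hx'
      have h1 := H62.pow_mem_zpowers_of_ne_one hd ha ha1
      rw [mem_centralizer_iff]
      rintro y hy
      have h2 : y ∈ zpowers a := (zpowers_le.2 h1) hy
      obtain ⟨k, rfl⟩ := h2
      have h3 : Commute a x := mul_inv_eq_iff_eq_mul.1 hax
      exact (h3.zpow_left k).eq
  have hcardsub : ∀ C : Subgroup X, C = P0 ⊓ centralizer (zpowers z : Set X) →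
      Nat.card ({x | x ∈ P0 ∧ x ∉ centralizer (zpowers z : Set X)} : Set X) + Nat.card C = Nat.card P0 := by
    intro C hC
    have h1 : (P0 : Set X) = {x | x ∈ P0 ∧ x ∉ centralizer (zpowers z : Set X)} ∪ (C : Set X) := by
      ext x
      rw [hC]
      simp only [Set.mem_union, Set.mem_ofPred_eq, SetLike.mem_coe, mem_inf]
      tauto
    have h2 : Disjoint {x | x ∈ P0 ∧ x ∉ centralizer (zpowers z : Set X)} (C : Set X) := by
      rw [Set.disjoint_left, hC]
      rintro x ⟨_, h3⟩ ⟨_, h4⟩
      exact h3 h4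
    have h3 := Set.ncard_union_eq h2 (Set.toFinite _) (Set.toFinite _)
    rw [← h1] at h3
    exact h3.symm
  have h9 : 9 ∣ 3 ^ n := by
    have : 9 = 3 ^ 2 := by norm_num
    rw [this]; exact pow_dvd_pow 3 hn2
  rcases hst with ⟨hel, hC⟩ | ⟨hsp, hnc, hC⟩
  · have h1 := hcardsub ⊥ hC.symm
    rw [Subgroup.card_bot] at h1
    have h2 := hrank4 P0 hP0P hel.1 hel.2
    have h3 : Nat.card P0 ≠ 1 := by
      intro h
      apply hnt0
      rw [Subgroup.card_eq_one.1 h, commutator_bot_left]
    have h4 : 0 < Nat.card P0 := Nat.card_pos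
    have h5 := h9.trans hfree
    have h6 : 9 ≤ Nat.card ({x | x ∈ P0 ∧ x ∉ centralizer (zpowers z : Set X)} : Set X) :=
      Nat.le_of_dvd (by omega) h5
    omega
  · -- the centre has order 4
    set Z0 := (center P0).map P0.subtype with hZ0
    have hZ0P0 : Z0 ≤ P0 := map_subtype_le _
    have hZcard : Nat.card Z0 = Nat.card (center P0) := Cop.card_map_subtype _
    have hexp := H62.special_center_pow hsp
    have hZe : ∀ v ∈ Z0, v ^ 2 = 1 := by
      rintro _ ⟨v, hv, rfl⟩
      exact congrArg Subtype.val (hexp v hv)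
    have hZc : IsMulCommutative Z0 := by
      refine ⟨⟨?_⟩⟩
      rintro ⟨_, ⟨a, ha, rfl⟩⟩ ⟨_, ⟨b, hb, rfl⟩⟩
      apply Subtype.ext
      have h : (a : X) * b = b * a := congrArg Subtype.val (mem_center_iff.1 hb a)
      exact h
    have hZ4 := hrank4 Z0 (hZ0P0.trans hP0P) hZc hZe
    have hP0bot : P0 ≠ ⊥ := by
      rintro rfl
      exact hnt0 (commutator_bot_left _)
    haveI : Nontrivial P0 := (Subgroup.nontrivial_iff_ne_bot P0).2 hP0bot
    haveI := hP0.center_nontrivial
    have hZ1 : 1 < Nat.card Z0 := by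
      rw [hZcard]; exact Finite.one_lt_card
    have hdZ0 : zpowers d ≤ normalizer (Z0 : Set X) := hBP0.trans (H49.normalizer_le_normalizer_map_of_char P0 _)
    have hZmod : 3 ∣ Nat.card ({x | x ∈ Z0 ∧ x ≠ 1} : Set X) := by
      have h1 : Nat.card Z0 ≡ 1 [MOD 3] := by
        let act : MulAction (zpowers d) Z0 :=
          { smul := fun a x => ⟨(a : X) * x * (a : X)⁻¹, (mem_normalizer_iff.1 (hdZ0 a.2) x).1 x.2⟩
            one_smul := fun x => Subtype.ext (by change (1 : X) * x * (1 : X)⁻¹ = x; simp)
            mul_smul := fun a b x => Subtype.ext (by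
              change ((a : X) * b) * x * ((a : X) * b)⁻¹ = a * (b * x * (b : X)⁻¹) * (a : X)⁻¹
              group) }
        have hpg : IsPGroup 3 (zpowers d) := IsPGroup.of_card (n := n) (by rw [Nat.card_zpowers, hd])
        have h2 := hpg.card_modEq_card_fixedPoints Z0
        have h3 : Nat.card (MulAction.fixedPoints (zpowers d) Z0) = 1 := by
          rw [Nat.card_eq_one_iff_unique]
          refine ⟨⟨?_⟩, ⟨⟨1, ?_⟩⟩⟩
          · have key : ∀ x : Z0, x ∈ MulAction.fixedPoints (zpowers d) Z0 → (x : X) = 1 := by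
              intro x hx
              have h4 := congrArg Subtype.val (hx ⟨d, mem_zpowers d⟩)
              have h5 : d * x * d⁻¹ = x := h4
              have h6 : (x : X) ∈ P ⊓ centralizer {d} := by
                refine ⟨hP0P (hZ0P0 x.2), ?_⟩
                change (x : X) ∈ centralizer {d}
                rw [mem_centralizer_singleton_iff]
                exact (mul_inv_eq_iff_eq_mul.1 h5).symm
              rw [hfpf, mem_bot] at h6
              exact h6
            rintro ⟨x, hx⟩ ⟨y, hy⟩
            apply Subtype.ext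
            apply Subtype.ext
            rw [key x hx, key y hy]
          · intro a
            apply Subtype.ext
            change (a : X) * 1 * (a : X)⁻¹ = 1
            simp
        rw [h3] at h2
        exact h2
      have h2 : ({x | x ∈ Z0 ∧ x ≠ 1} : Set X).ncard + 1 = Nat.card Z0 := by
        have h3 : (Z0 : Set X) = {x | x ∈ Z0 ∧ x ≠ 1} ∪ {1} := by
          ext x
          simp only [Set.mem_union, Set.mem_ofPred_eq, SetLike.mem_coe, Set.mem_singleton_iff]
          constructor
          · intro h; by_cases hx : x = 1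
            · exact Or.inr hx
            · exact Or.inl ⟨h, hx⟩
          · rintro (h | h)
            · exact h.1
            · rw [h]; exact Z0.one_mem
        have h4 : Disjoint {x | x ∈ Z0 ∧ x ≠ 1} ({1} : Set X) := by
          rw [Set.disjoint_singleton_right]; simp
        have h5 := Set.ncard_union_eq h4 (Set.toFinite _) (Set.toFinite _)
        rw [← h3, Set.ncard_singleton] at h5
        exact h5.symm
      change 3 ∣ ({x | x ∈ Z0 ∧ x ≠ 1} : Set X).ncard
      have h3 : Nat.card Z0 % 3 = 1 := h1
      omega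
    have hZcard4 : Nat.card (center P0) = 4 := by
      have h2 : ({x | x ∈ Z0 ∧ x ≠ 1} : Set X).ncard + 1 = Nat.card Z0 := by
        have h3 : (Z0 : Set X) = {x | x ∈ Z0 ∧ x ≠ 1} ∪ {1} := by
          ext x
          simp only [Set.mem_union, Set.mem_ofPred_eq, SetLike.mem_coe, Set.mem_singleton_iff]
          constructor
          · intro h; by_cases hx : x = 1
            · exact Or.inr hx
            · exact Or.inl ⟨h, hx⟩
          · rintro (h | h)
            · exact h.1
            · rw [h]; exact Z0.one_mem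
        have h4 : Disjoint {x | x ∈ Z0 ∧ x ≠ 1} ({1} : Set X) := by
          rw [Set.disjoint_singleton_right]; simp
        have h5 := Set.ncard_union_eq h4 (Set.toFinite _) (Set.toFinite _)
        rw [← h3, Set.ncard_singleton] at h5
        exact h5.symm
      have h3 : 3 ∣ ({x | x ∈ Z0 ∧ x ≠ 1} : Set X).ncard := hZmod
      rw [← hZcard]
      omega
    -- order of P0
    obtain ⟨m, hm⟩ := IsPGroup.iff_card.1 hP0
    have h1 := hcardsub Z0 hC
    rw [hZcard, hZcard4] at h1
    have h5 := h9.trans hfree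
    have hne0 : Nat.card ({x | x ∈ P0 ∧ x ∉ centralizer (zpowers z : Set X)} : Set X) ≠ 0 := by
      intro h0
      have : Nat.card Z0 = Nat.card P0 := by rw [hZcard, hZcard4]; omega
      have h6 : Z0 = P0 := Subgroup.eq_of_le_of_card_ge hZ0P0 this.ge
      apply hnt0
      rw [commutator_eq_bot_iff_le_centralizer]
      rw [← h6, hC]
      exact inf_le_right
    have hm3 : 2 ≤ m := by
      by_contra hlt
      push Not at hlt
      interval_cases m
      · rw [pow_zero] at hm; omega
      · rw [pow_one] at hm; omega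
    obtain ⟨k, rfl⟩ := Nat.exists_eq_add_of_le hm3
    have h7 : Nat.card ({x | x ∈ P0 ∧ x ∉ centralizer (zpowers z : Set X)} : Set X) = 4 * (2 ^ k - 1) := by
      have h8 : 2 ^ (2 + k) = 4 * 2 ^ k := by rw [pow_add]; norm_num
      rw [h8] at hm
      have h9 : 0 < 2 ^ k := pow_pos (by norm_num) k
      omega
    rw [h7] at h5 hne0
    have h8 : 9 ∣ 2 ^ k - 1 := (Nat.Coprime.dvd_of_dvd_mul_left (by norm_num) h5)
    have hk0 : 0 < k := by
      rcases Nat.eq_zero_or_pos k with h | h
      · subst h; simp at hne0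
      · exact h
    have h6 := H62.six_le_of_nine_dvd hk0 h8
    refine H62.not_dvd_of_special hsp hZcard4 ?_ (by rw [hm]; exact pow_dvd_pow 2 (by omega))
    intro V hVc hVe
    have h9 := hrank4 (V.map P0.subtype) ((map_subtype_le _).trans hP0P) (by
      refine ⟨⟨?_⟩⟩
      rintro ⟨_, ⟨a, ha, rfl⟩⟩ ⟨_, ⟨b, hb, rfl⟩⟩
      apply Subtype.ext
      have h10 := congrArg Subtype.val (hVc.1.1 ⟨a, ha⟩ ⟨b, hb⟩)
      have h11 : (a : X) * b = b * a := congrArg Subtype.val h10
      exact h11) (by
      rintro _ ⟨v, hv, rfl⟩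
      exact congrArg Subtype.val (hVe v hv))
    rwa [Cop.card_map_subtype] at h9

end Cfsg.Agent.S3738
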