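import Cfsg.Statements.S3739
import Cfsg.Agent.H62.RankTwo
-- import your own Cfsg.Agent.* helpers here

set_option autoImplicit false
set_option linter.style.haveILetI false
open Cfsg

namespace Cfsg.Agent.S3739

open Subgroup
open scoped commutatorElement Pointwise

theorem odd_of_isPGroup_three {G : Type*} [Group G] [Finite G] {c : G} {H : Subgroup G}
    (hH : IsPGroup 3 H) (hc : c ∈ H) : Odd (orderOf c) := by
  haveI : Fact (Nat.Prime 3) := ⟨Nat.prime_three⟩
  obtain ⟨m, hm⟩ := IsPGroup.iff_orderOf.1 hH ⟨c, hc⟩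
  rw [Subgroup.orderOf_mk] at hm
  rw [hm]
  exact Odd.pow (by decide)

/-- Let G be a finite group with C_G(O₂(G)) ≤ O₂(G) containing an element of order 6, and let d be a non-identity 3-element of G normalizing a nontrivial elementary abelian 2-subgroup W with C_W(d) = 1. Then G has an elementary abelian subgroup of order 8. -/
theorem result {G : Type*} [Group G] [Finite G] (hchar : Subgroup.centralizer (Cfsg.pCore 2 G : Set G) ≤ Cfsg.pCore 2 G) (hsix : ∃ g : G, orderOf g = 6) (d : G) (hd1 : d ≠ 1) (hd : IsPGroup 3 ↥(Subgroup.zpowers d)) (W : Subgroup G) (hW : Cfsg.IsElementaryAbelian 2 W) (hW1 : W ≠ ⊥) (hdW : d ∈ Subgroup.normalizer (W : Set G)) (hfpf : W ⊓ Subgroup.centralizer {d} = ⊥) : ∃ E : Subgroup G, Cfsg.IsElementaryAbelian 2 E ∧ Nat.card E = 8 := by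
  haveI : Fact (Nat.Prime 2) := ⟨Nat.prime_two⟩
  haveI : Fact (Nat.Prime 3) := ⟨Nat.prime_three⟩
  by_contra hno
  -- rank at most 2
  have hrank4 : ∀ V : Subgroup G, IsMulCommutative V → (∀ v ∈ V, v ^ 2 = 1) → Nat.card V ≤ 4 := by
    intro V hVc hVe
    by_contra hlt
    push Not at hlt
    have hV2 : IsPGroup 2 V := fun v => ⟨1, Subtype.ext (by simpa using hVe v v.2)⟩
    obtain ⟨m, hm⟩ := IsPGroup.iff_card.1 hV2
    have hm3 : 3 ≤ m := by
      by_contra h
      push Not at h
      have : 2 ^ m ≤ 2 ^ 2 := Nat.pow_le_pow_right (by norm_num) (by omega)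
      omega
    obtain ⟨K, hK⟩ := Sylow.exists_subgroup_card_pow_prime (G := V) 2 (n := 3)
      (by rw [hm]; exact pow_dvd_pow 2 hm3)
    apply hno
    refine ⟨K.map V.subtype, ⟨?_, ?_⟩, ?_⟩
    · refine ⟨⟨?_⟩⟩
      rintro ⟨_, ⟨a, ha, rfl⟩⟩ ⟨_, ⟨b, hb, rfl⟩⟩
      apply Subtype.ext
      have h11 : (a : G) * b = b * a := congrArg Subtype.val (hVc.1.1 a b)
      exact h11
    · rintro _ ⟨a, _, rfl⟩
      exact hVe a a.2
    · rw [Cop.card_map_subtype, hK]; norm_num
  have hWfix : ∀ x ∈ W, d * x = x * d → x = 1 := by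
    intro x hx hdx
    have h1 : x ∈ W ⊓ centralizer {d} := ⟨hx, mem_centralizer_singleton_iff.2 hdx.symm⟩
    rwa [hfpf, mem_bot] at h1
  have hdodd : Odd (orderOf d) := odd_of_isPGroup_three hd (mem_zpowers d)
  have hWcard : Nat.card W = 4 := by
    have h1 : Nat.card W % 3 = 1 := H62.card_mod_of_fpf hd hdW hWfix
    have h2 := hrank4 W hW.1 hW.2
    have h3 : Nat.card W ≠ 1 := fun h => hW1 (Subgroup.card_eq_one.1 h)
    omega
  have hWcomm : ∀ a ∈ W, ∀ b ∈ W, a * b = b * a := fun a ha b hb =>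
    congrArg Subtype.val (hW.1.1.1 ⟨a, ha⟩ ⟨b, hb⟩)
  -- Q = O_2(G), V = Ω_1(Z(Q))
  set Q := Cfsg.pCore 2 G with hQ
  have hQ2 : IsPGroup 2 Q := Solv.pCore_isPGroup 2
  have hQn : Q.Normal := inferInstance
  have hNQ : normalizer (Q : Set G) = ⊤ := Subgroup.normalizer_eq_top Q
  have hQbot : Q ≠ ⊥ := by
    intro h
    rw [h] at hchar
    have h1 : d ∈ (⊥ : Subgroup G) := hchar (by rw [mem_centralizer_iff]; intro y hy; rw [show y = 1 from hy]; simp)
    exact hd1 (by simpa using h1)
  set Z := (center Q).map Q.subtype with hZ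
  have hZc : IsMulCommutative Z := by
    refine ⟨⟨?_⟩⟩
    rintro ⟨_, ⟨a, ha, rfl⟩⟩ ⟨_, ⟨b, hb, rfl⟩⟩
    apply Subtype.ext
    have h : (a : G) * b = b * a := congrArg Subtype.val (mem_center_iff.1 hb a)
    exact h
  set V := Cop.omegaAb Z hZc 2 with hV
  have hVQ : V ≤ Q := Cop.omegaAb_le.trans (map_subtype_le _)
  have hVcen : ∀ v ∈ V, ∀ x ∈ Q, v * x = x * v := by
    rintro v hv x hx
    obtain ⟨a, ha, rfl⟩ := Cop.omegaAb_le hv
    exact (congrArg Subtype.val (mem_center_iff.1 ha ⟨x, hx⟩)).symm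
  have hVe : ∀ v ∈ V, v ^ 2 = 1 := fun v hv => (Cop.mem_omegaAb.1 hv).2
  have hVc : IsMulCommutative V := by
    refine ⟨⟨?_⟩⟩
    rintro ⟨a, ha⟩ ⟨b, hb⟩
    exact Subtype.ext (hVcen a ha b (hVQ hb))
  have hVn : normalizer (V : Set G) = ⊤ := by
    rw [eq_top_iff, ← hNQ]
    exact (H49.normalizer_le_normalizer_map_of_char Q _).trans Cop.normalizer_omegaAb
  have hVconj : ∀ g : G, ∀ v ∈ V, g * v * g⁻¹ ∈ V := by
    intro g v hv
    have : g ∈ normalizer (V : Set G) := by rw [hVn]; trivial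
    exact (mem_normalizer_iff.1 this v).1 hv
  have hVbot : ∃ v ∈ V, v ≠ 1 := by
    haveI : Nontrivial Q := (Subgroup.nontrivial_iff_ne_bot Q).2 hQbot
    haveI := hQ2.center_nontrivial
    have hcp : IsPGroup 2 (center Q) := hQ2.to_subgroup _
    obtain ⟨n, hn0, hn⟩ := (IsPGroup.nontrivial_iff_card hcp).1 inferInstance
    have hdvd : 2 ∣ Nat.card (center Q) := by rw [hn]; exact dvd_pow_self 2 hn0.ne'
    obtain ⟨x, hx⟩ := exists_prime_orderOf_dvd_card' (G := center Q) 2 hdvd
    refine ⟨((x : Q) : G), ?_, ?_⟩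
    · refine Cop.mem_omegaAb.2 ⟨⟨x, x.2, rfl⟩, ?_⟩
      have := pow_orderOf_eq_one x
      rw [hx] at this
      have h2 := congrArg Subtype.val this
      exact congrArg Subtype.val h2
    · intro h
      have h1 : x = 1 := Subtype.ext (Subtype.ext h)
      rw [h1, orderOf_one] at hx
      exact absurd hx (by norm_num)
  have hVcard := hrank4 V hVc hVe
  have hWp : IsPGroup 2 W := IsPGroup.of_card (n := 2) (by rw [hWcard]; norm_num)
  -- W centralizes V
  have hWV : ∀ w ∈ W, ∀ v ∈ V, w * v = v * w := by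
    set C := V ⊓ centralizer (W : Set G) with hC
    have hCbot : ∃ v ∈ C, v ≠ 1 := by
      have h1 := H62.card_modEq_fixed W hWp (V : Set G) (fun a _ x hx => hVconj a x hx)
      have h2 : ({x | x ∈ (V : Set G) ∧ ∀ a ∈ W, a * x = x * a} : Set G) = (C : Set G) := by
        ext x
        constructor
        · rintro ⟨h3, h4⟩
          exact ⟨h3, mem_centralizer_iff.2 h4⟩
        · rintro ⟨h3, h4⟩
          exact ⟨h3, fun a ha => mem_centralizer_iff.1 h4 a ha⟩
      rw [h2] at h1
      have hV2 : IsPGroup 2 V := hQ2.to_le hVQ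
      obtain ⟨v, hv, hv1⟩ := hVbot
      have hVnt : Nontrivial V := ⟨⟨⟨v, hv⟩, 1, fun h => hv1 (congrArg Subtype.val h)⟩⟩
      obtain ⟨n, hn0, hn⟩ := (IsPGroup.nontrivial_iff_card hV2).1 hVnt
      have h3 : Nat.card V ≡ 0 [MOD 2] := by
        rw [Nat.modEq_zero_iff_dvd, hn]; exact dvd_pow_self 2 hn0.ne'
      have h4 : 2 ∣ Nat.card C := by
        rw [← Nat.modEq_zero_iff_dvd]; exact h1.symm.trans h3
      have h5 : C ≠ ⊥ := by
        intro h
        rw [h, Subgroup.card_bot] at h4
        omega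
      obtain ⟨v, hv, hv1⟩ := C.bot_or_exists_ne_one.resolve_left h5
      exact ⟨v, hv, hv1⟩
    obtain ⟨v, hvC, hv1⟩ := hCbot
    -- v is moved by d
    have hdv : d * v * d⁻¹ ≠ v := by
      intro h
      have hdv : d * v = v * d := mul_inv_eq_iff_eq_mul.1 h
      have h1 : v ∈ W := H62.mem_of_commute_of_rank hrank4 hW.1 hW.2 hWcard (hVe v hvC.1)
        (fun w hw => (mem_centralizer_iff.1 hvC.2 w hw).symm)
      exact hv1 (hWfix v h1 hdv)
    have hdvC : d * v * d⁻¹ ∈ C := by
      refine ⟨hVconj d v hvC.1, mem_centralizer_iff.2 ?_⟩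
      intro w hw
      have hw' : d⁻¹ * w * d ∈ W := (mem_normalizer_iff''.1 hdW w).1 hw
      have h1 := mem_centralizer_iff.1 hvC.2 _ hw'
      calc w * (d * v * d⁻¹) = d * ((d⁻¹ * w * d) * v) * d⁻¹ := by group
        _ = d * (v * (d⁻¹ * w * d)) * d⁻¹ := by rw [h1]
        _ = (d * v * d⁻¹) * w := by group
    have hdv1 : d * v * d⁻¹ ≠ 1 := by
      intro h; apply hv1
      have : v = d⁻¹ * (d * v * d⁻¹) * d := by group
      rw [this, h]; simp
    -- C = V by counting
    have hCV : C = V := by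
      apply Subgroup.eq_of_le_of_card_ge inf_le_left
      change Nat.card V ≤ Nat.card C
      have h1 : Nat.card C ∣ Nat.card V := Subgroup.card_dvd_of_le inf_le_left
      have h2 : 3 ≤ Nat.card C := by
        classical
        have h3 : (({1, v, d * v * d⁻¹} : Finset G) : Set G) ⊆ (C : Set G) := by
          intro x hx
          simp only [Finset.coe_insert, Finset.coe_singleton, Set.mem_insert_iff, Set.mem_singleton_iff] at hx
          rcases hx with rfl | rfl | rfl
          · exact C.one_mem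
          · exact hvC
          · exact hdvC
        have h4 := Set.ncard_le_ncard h3 (Set.toFinite _)
        rw [Set.ncard_coe_finset, Finset.card_insert_of_notMem, Finset.card_insert_of_notMem,
          Finset.card_singleton] at h4
        · exact h4
        · simpa using Ne.symm hdv
        · simp only [Finset.mem_insert, Finset.mem_singleton, not_or]
          exact ⟨Ne.symm hv1, Ne.symm hdv1⟩
      obtain ⟨k, hk⟩ := h1
      rcases Nat.lt_or_ge k 2 with h | h
      · interval_cases k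
        · have : 0 < Nat.card V := Nat.card_pos
          omega
        · omega
      · nlinarith
    intro w hw v hv
    rw [← hCV] at hv
    exact mem_centralizer_iff.1 hv.2 w hw
  -- V = W
  have hVW : V ≤ W := by
    intro v hv
    exact H62.mem_of_commute_of_rank hrank4 hW.1 hW.2 hWcard (hVe v hv)
      (fun w hw => (hWV w hw v hv).symm)
  have hVfix : ∀ x ∈ V, d * x = x * d → x = 1 := fun x hx => hWfix x (hVW hx)
  have hVcard4 : Nat.card V = 4 := by
    have h1 : Nat.card V % 3 = 1 := H62.card_mod_of_fpf hd (by rw [hVn]; trivial) hVfix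
    have h3 : Nat.card V ≠ 1 := by
      intro h
      obtain ⟨v, hv, hv1⟩ := hVbot
      have := Subgroup.card_eq_one.1 h
      rw [this, mem_bot] at hv
      exact hv1 hv
    have h4 : 0 < Nat.card V := Nat.card_pos
    omega
  have hWeq : V = W := Subgroup.eq_of_le_of_card_ge hVW (by rw [hVcard4, hWcard])
  have hWconj : ∀ g : G, ∀ w ∈ W, g * w * g⁻¹ ∈ W := by rw [← hWeq]; exact hVconj
  have hWn : normalizer (W : Set G) = ⊤ := by rw [← hWeq]; exact hVn
  -- involutions centralizing W are in W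
  have hinv : ∀ x : G, x ^ 2 = 1 → (∀ w ∈ W, x * w = w * x) → x ∈ W := fun x hx hxW =>
    H62.mem_of_commute_of_rank hrank4 hW.1 hW.2 hWcard hx hxW
  have hinvQ : ∀ x ∈ Q, x ^ 2 = 1 → x ∈ W := by
    intro x hx hx2
    apply hinv x hx2
    intro w hw
    rw [← hWeq] at hw
    exact (hVcen w hw x hx).symm
  -- an element of order 3 centralizing W
  obtain ⟨g, hg⟩ := hsix
  set c := g ^ 2 with hc
  set t := g ^ 3 with ht
  have hc3 : orderOf c = 3 := by
    rw [hc, orderOf_pow_of_dvd (by norm_num) (by rw [hg]; norm_num), hg]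
  have ht2 : orderOf t = 2 := by
    rw [ht, orderOf_pow_of_dvd (by norm_num) (by rw [hg]; norm_num), hg]
  have hct : c * t = t * c := ((Commute.refl g).pow_pow 2 3).eq
  have hcodd : Odd (orderOf c) := by rw [hc3]; decide
  have htsq : t ^ 2 = 1 := by rw [← ht2]; exact pow_orderOf_eq_one t
  have ht1 : t ≠ 1 := by intro h; rw [h, orderOf_one] at ht2; omega
  have hcW : ∀ w ∈ W, c * w = w * c := by
    by_cases htW : ∀ w ∈ W, t * w = w * t
    · exact H62.centralizes_of_fix_one hWcard (hWconj c) hcodd (hinv t htsq htW) ht1 hct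
    · push Not at htW
      obtain ⟨w, hw, htw⟩ := htW
      have hw1 : w ≠ 1 := by rintro rfl; simp at htw
      set w' := t * w * t⁻¹ with hw'
      have hw'W : w' ∈ W := hWconj t w hw
      have hw'1 : w' ≠ 1 := by
        intro h; apply hw1
        have : w = t⁻¹ * w' * t := by rw [hw']; group
        rw [this, h]; simp
      have hw'w : w' ≠ w := fun h => htw (mul_inv_eq_iff_eq_mul.1 h)
      have htt : t * t = 1 := by rw [← sq]; exact htsq
      have htinv : t⁻¹ = t := inv_eq_of_mul_eq_one_left htt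
      have hww : ∀ x ∈ W, x * x = 1 := fun x hx => by rw [← sq]; exact hW.2 x hx
      have htw' : t * w' * t⁻¹ = w := by
        rw [hw', htinv]
        calc t * (t * w * t) * t = (t * t) * w * (t * t) := by group
          _ = w := by rw [htt]; simp
      set v := w * w' with hv
      have hvW : v ∈ W := W.mul_mem hw hw'W
      have hv1 : v ≠ 1 := by
        intro h
        apply hw'w
        have : w * w' = w * w := by rw [← hv, h, hww w hw]
        exact mul_left_cancel this
      have htv : t * v * t⁻¹ = v := by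
        have : t * v * t⁻¹ = (t * w * t⁻¹) * (t * w' * t⁻¹) := by rw [hv]; group
        rw [this, ← hw', htw', hv, hWcomm w hw w' hw'W]
      -- elements of W fixed by t
      have hfixt : ∀ x ∈ W, t * x * t⁻¹ = x → x = 1 ∨ x = v := by
        intro x hx hxt
        have hvw : v ≠ w := by
          intro h; apply hw'1; rw [hv] at h; exact mul_eq_left.1 h
        have hvw' : v ≠ w' := by
          intro h; apply hw1; rw [hv] at h; exact mul_eq_right.1 h
        rcases H62.four_cases hWcard hw hw'W hvW hw1 hw'1 hv1 (Ne.symm hw'w) (Ne.symm hvw)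
          (Ne.symm hvw') x hx with h | h | h | h
        · exact Or.inl h
        · exfalso; apply hw'w; rw [h] at hxt; exact hxt
        · exfalso; apply hw'w; rw [h, htw'] at hxt; exact hxt.symm
        · exact Or.inr h
      apply H62.centralizes_of_fix_one hWcard (hWconj c) hcodd hvW hv1
      have h1 : t * (c * v * c⁻¹) * t⁻¹ = c * v * c⁻¹ := by
        calc t * (c * v * c⁻¹) * t⁻¹ = (t * c) * v * (t * c)⁻¹ := by group
          _ = (c * t) * v * (c * t)⁻¹ := by rw [hct]
          _ = c * (t * v * t⁻¹) * c⁻¹ := by group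
          _ = c * v * c⁻¹ := by rw [htv]
      rcases hfixt _ (hWconj c v hvW) h1 with h | h
      · exfalso; apply hv1
        have : v = c⁻¹ * (c * v * c⁻¹) * c := by group
        rw [this, h]; simp
      · exact mul_inv_eq_iff_eq_mul.1 h
  -- a nontrivial 3-element z centralizing W and commuting with d
  obtain ⟨z, hz1, hz3, hzW, hzd⟩ : ∃ z : G, z ≠ 1 ∧ IsPGroup 3 (zpowers z) ∧
      (∀ w ∈ W, z * w = w * z) ∧ d * z = z * d := by
    obtain ⟨R, hR⟩ := hd.exists_le_sylow
    have hc3' : IsPGroup 3 (zpowers c) := IsPGroup.of_card (n := 1) (by rw [Nat.card_zpowers, hc3]; norm_num)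
    obtain ⟨R', hR'⟩ := hc3'.exists_le_sylow
    obtain ⟨h, rfl⟩ := MulAction.exists_smul_eq G R R'
    have hcR : h⁻¹ * c * h ∈ (R : Subgroup G) := by
      have h1 := hR' (mem_zpowers c)
      have h2 : ((h • R : Sylow 3 G) : Subgroup G) = MulAut.conj h • (R : Subgroup G) := rfl
      rw [h2, Hall.mem_conj_smul] at h1
      exact h1
    set T := (R : Subgroup G) ⊓ centralizer (W : Set G) with hT
    have hT3 : IsPGroup 3 T := R.isPGroup'.to_le inf_le_left
    have hcT : h⁻¹ * c * h ∈ T := by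
      refine ⟨hcR, mem_centralizer_iff.2 ?_⟩
      intro w hw
      have h1 := hcW _ (hWconj h w hw)
      calc w * (h⁻¹ * c * h) = h⁻¹ * ((h * w * h⁻¹) * c) * h := by group
        _ = h⁻¹ * (c * (h * w * h⁻¹)) * h := by rw [h1]
        _ = (h⁻¹ * c * h) * w := by group
    have hTn : ∀ a ∈ zpowers d, ∀ x ∈ (T : Set G), a * x * a⁻¹ ∈ (T : Set G) := by
      rintro a ha x ⟨hx, hx'⟩
      have haR : a * x * a⁻¹ ∈ (R : Subgroup G) := mul_mem (mul_mem (hR ha) hx) (inv_mem (hR ha))
      refine ⟨haR, mem_centralizer_iff.2 ?_⟩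
      intro w hw
      have h1 := mem_centralizer_iff.1 hx' _ (hWconj a⁻¹ w hw)
      calc w * (a * x * a⁻¹) = a * ((a⁻¹ * w * a⁻¹⁻¹) * x) * a⁻¹ := by group
        _ = a * (x * (a⁻¹ * w * a⁻¹⁻¹)) * a⁻¹ := by rw [h1]
        _ = (a * x * a⁻¹) * w := by group
    have h1 := H62.card_modEq_fixed (zpowers d) hd (T : Set G) hTn
    have hTnt : Nontrivial T := by
      refine ⟨⟨⟨_, hcT⟩, 1, fun h2 => ?_⟩⟩
      have h3 : h⁻¹ * c * h = 1 := congrArg Subtype.val h2
      have h4 : c = 1 := by
        have : c = h * (h⁻¹ * c * h) * h⁻¹ := by group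
        rw [this, h3]; simp
      rw [h4, orderOf_one] at hc3
      omega
    obtain ⟨n, hn0, hn⟩ := (IsPGroup.nontrivial_iff_card hT3).1 hTnt
    have h3 : Nat.card T ≡ 0 [MOD 3] := by
      rw [Nat.modEq_zero_iff_dvd, hn]; exact dvd_pow_self 3 hn0.ne'
    have h4 : 3 ∣ Nat.card ({x | x ∈ (T : Set G) ∧ ∀ a ∈ zpowers d, a * x = x * a} : Set G) := by
      rw [← Nat.modEq_zero_iff_dvd]; exact h1.symm.trans h3
    have h5 : ∃ z ∈ ({x | x ∈ (T : Set G) ∧ ∀ a ∈ zpowers d, a * x = x * a} : Set G), z ≠ 1 := by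
      by_contra hcon
      push Not at hcon
      have h6 : ({x | x ∈ (T : Set G) ∧ ∀ a ∈ zpowers d, a * x = x * a} : Set G) = {1} := by
        ext x
        constructor
        · intro hx; exact hcon x hx
        · rintro rfl
          exact ⟨T.one_mem, fun a _ => by simp⟩
      rw [h6] at h4
      simp at h4
    obtain ⟨z, ⟨hzT, hz⟩, hz1⟩ := h5
    refine ⟨z, hz1, hT3.to_le (zpowers_le.2 hzT), ?_, hz d (mem_zpowers d)⟩
    intro w hw
    exact (mem_centralizer_iff.1 hzT.2 w hw).symm
  -- minimal subgroup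
  set A := zpowers z with hA
  set B := zpowers z ⊔ zpowers d with hB
  have hA2 : (Nat.card A).Coprime 2 := by
    obtain ⟨m, hm⟩ := IsPGroup.iff_card.1 hz3
    rw [hm]; exact Nat.Coprime.pow_left _ (by norm_num)
  have hBA : B ≤ normalizer (A : Set G) := by
    refine sup_le le_normalizer ?_
    refine le_trans ?_ (H49.centralizer_le_normalizer' _)
    rw [zpowers_le, mem_centralizer_iff]
    rintro _ ⟨k, rfl⟩
    have h1 : Commute z d := hzd.symm
    exact (h1.zpow_left k).eq
  have hntQ : ⁅Q, A⁆ ≠ ⊥ := by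
    intro h
    rw [commutator_eq_bot_iff_le_centralizer, le_centralizer_iff] at h
    have h1 : z ∈ Q := hchar (h (mem_zpowers z))
    obtain ⟨k, hk⟩ := IsPGroup.iff_orderOf.1 hQ2 ⟨z, h1⟩
    obtain ⟨l, hl⟩ := IsPGroup.iff_orderOf.1 hz3 ⟨z, mem_zpowers z⟩
    rw [Subgroup.orderOf_mk] at hk hl
    have h2 : orderOf z = 1 := by
      have h3 : Nat.Coprime (orderOf z) (orderOf z) := by
        conv_lhs => rw [hk]
        rw [hl]
        exact Nat.Coprime.pow _ _ (by norm_num)
      exact (Nat.coprime_self _).1 h3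
    exact hz1 (orderOf_eq_one_iff.1 h2)
  obtain ⟨P, hPQ, hBP, hntP, hmin⟩ := Cop.exists_min (B := B) (A := A) (P := Q) (by rw [hNQ]; exact le_top) hntQ
  have hP2 : IsPGroup 2 P := hQ2.to_le hPQ
  have hAP : A ≤ normalizer (P : Set G) := le_sup_left.trans hBP
  have hdP : d ∈ normalizer (P : Set G) := hBP (mem_sup_right (mem_zpowers d))
  rcases Cop.min_structure hP2 hBP le_sup_left hBA hA2 hntP hmin with ⟨hel, _⟩ | ⟨hsp, hnc, hC⟩
  · apply hntP
    rw [commutator_eq_bot_iff_le_centralizer]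
    intro x hx
    have hxW : x ∈ W := hinvQ x (hPQ hx) (hel.2 x hx)
    rw [mem_centralizer_iff]
    rintro _ ⟨k, rfl⟩
    have h1 : Commute z x := hzW x hxW
    exact (h1.zpow_left k).eq
  · set Z0 := (center P).map P.subtype with hZ0
    have hZ0P : Z0 ≤ P := map_subtype_le _
    have hexp := H62.special_center_pow hsp
    have hZe : ∀ v ∈ Z0, v ^ 2 = 1 := by
      rintro _ ⟨v, hv, rfl⟩
      exact congrArg Subtype.val (hexp v hv)
    have hZ0W : Z0 ≤ W := fun v hv => hinvQ v (hPQ (hZ0P hv)) (hZe v hv)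
    have hPbot : P ≠ ⊥ := by
      rintro rfl
      exact hntP (commutator_bot_left _)
    haveI : Nontrivial P := (Subgroup.nontrivial_iff_ne_bot P).2 hPbot
    haveI := hP2.center_nontrivial
    have hZ1 : 1 < Nat.card Z0 := by
      rw [Cop.card_map_subtype]; exact Finite.one_lt_card
    have hdZ0 : d ∈ normalizer (Z0 : Set G) := (H49.normalizer_le_normalizer_map_of_char P _) hdP
    have hZ04 : Nat.card Z0 = 4 := by
      have h1 : Nat.card Z0 % 3 = 1 := H62.card_mod_of_fpf hd hdZ0 (fun x hx => hWfix x (hZ0W hx))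
      have h2 : Nat.card Z0 ≤ 4 := by rw [← hWcard]; exact Subgroup.card_le_of_le hZ0W
      omega
    have hZ0eq : Z0 = W := Subgroup.eq_of_le_of_card_ge hZ0W (by rw [hZ04, hWcard])
    have hWP : W ≤ P := by rw [← hZ0eq]; exact hZ0P
    have hsqW : ∀ x ∈ P, x ^ 2 ∈ W := by
      intro x hx
      rw [← hZ0eq]
      refine ⟨(⟨x, hx⟩ : P) ^ 2, ?_, rfl⟩
      rw [← hsp.2.1]
      exact Solv.pow_mem_frattini_of_pGroup hP2 _
    -- fibres
    set Fb : G → Set G := fun w => {x | x ∈ P ∧ x ∉ W ∧ x ^ 2 = w} with hFb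
    have hfix3 : ∀ w ∈ W, 3 ∣ (Fb w).ncard := by
      intro w hw
      have h1 := H62.card_modEq_fixed A hz3 (Fb w) (by
        rintro a ha x ⟨hx, hx', hx2⟩
        have haW : ∀ u ∈ W, a * u = u * a := by
          obtain ⟨k, rfl⟩ := ha
          intro u hu
          have h1 : Commute z u := hzW u hu
          exact (h1.zpow_left k).eq
        refine ⟨(mem_normalizer_iff.1 (hAP ha) x).1 hx, ?_, ?_⟩
        · intro h
          apply hx'
          have h2 := hWconj a⁻¹ _ h
          have h3 : a⁻¹ * (a * x * a⁻¹) * a⁻¹⁻¹ = x := by group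
          rwa [h3] at h2
        · rw [conj_pow, hx2, haW w hw]; group)
      have h2 : ({x | x ∈ Fb w ∧ ∀ a ∈ A, a * x = x * a} : Set G) = ∅ := by
        rw [Set.eq_empty_iff_forall_notMem]
        rintro x ⟨⟨hx, hx', _⟩, h3⟩
        apply hx'
        rw [← hZ0eq, hC]
        exact ⟨hx, mem_centralizer_iff.2 h3⟩
      rw [h2] at h1
      simp only [Nat.card_eq_fintype_card, Fintype.card_of_isEmpty] at h1
      exact (Nat.modEq_zero_iff_dvd.1 h1)
    have hequi : ∀ w : G, (Fb w).ncard = (Fb (d * w * d⁻¹)).ncard := by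
      intro w
      have h1 : (fun x => d * x * d⁻¹) '' (Fb w) = Fb (d * w * d⁻¹) := by
        ext y
        constructor
        · rintro ⟨x, ⟨hx, hx', hx2⟩, rfl⟩
          refine ⟨(mem_normalizer_iff.1 hdP x).1 hx, ?_, ?_⟩
          · intro h
            apply hx'
            have h2 := hWconj d⁻¹ _ h
            have h3 : d⁻¹ * (d * x * d⁻¹) * d⁻¹⁻¹ = x := by group
            rwa [h3] at h2
          · simp only [conj_pow, hx2]
        · rintro ⟨hy, hy', hy2⟩
          refine ⟨d⁻¹ * y * d, ⟨(mem_normalizer_iff''.1 hdP y).1 hy, ?_, ?_⟩, by group⟩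
          · intro h
            apply hy'
            have h2 := hWconj d _ h
            have h3 : d * (d⁻¹ * y * d) * d⁻¹ = y := by group
            rwa [h3] at h2
          · have h4 : d⁻¹ * y * d = d⁻¹ * y * d⁻¹⁻¹ := by group
            rw [h4, conj_pow, hy2]; group
      rw [← h1, Set.ncard_image_of_injective]
      intro x y hxy
      exact mul_left_cancel (mul_right_cancel hxy)
    obtain ⟨w1, hw1, hw1'⟩ : ∃ w ∈ W, w ≠ 1 := W.bot_or_exists_ne_one.resolve_left hW1
    set w2 := d * w1 * d⁻¹ with hw2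
    set w3 := d * w2 * d⁻¹ with hw3
    have hw2W : w2 ∈ W := hWconj d w1 hw1
    have hw3W : w3 ∈ W := hWconj d w2 hw2W
    have hw2' : w2 ≠ 1 := by
      intro h; apply hw1'
      have : w1 = d⁻¹ * w2 * d := by rw [hw2]; group
      rw [this, h]; simp
    have hw3' : w3 ≠ 1 := by
      intro h; apply hw2'
      have : w2 = d⁻¹ * w3 * d := by rw [hw3]; group
      rw [this, h]; simp
    have h12 : w1 ≠ w2 := by
      intro h
      apply hw1'
      apply hWfix w1 hw1
      exact mul_inv_eq_iff_eq_mul.1 (by rw [← hw2, ← h])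
    have h23 : w2 ≠ w3 := by
      intro h
      apply hw2'
      apply hWfix w2 hw2W
      exact mul_inv_eq_iff_eq_mul.1 (by rw [← hw3, ← h])
    have h13 : w1 ≠ w3 := by
      intro h
      have h1 : d ^ 2 * w1 * (d ^ 2)⁻¹ = w1 := by
        have : d ^ 2 * w1 * (d ^ 2)⁻¹ = d * (d * w1 * d⁻¹) * d⁻¹ := by rw [sq]; group
        rw [this, ← hw2, ← hw3, ← h]
      have h2 : Commute (d ^ 2) w1 := mul_inv_eq_iff_eq_mul.1 h1
      have h4 : (orderOf d).Coprime 2 := (Nat.coprime_two_right.2 hdodd)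
      obtain ⟨m, hm⟩ := exists_pow_eq_self_of_coprime (x := d) h4.symm
      apply hw1'
      apply hWfix w1 hw1
      have h3 : Commute d w1 := by rw [← hm]; exact h2.pow_left m
      exact h3
    have hall := H62.four_cases hWcard hw1 hw2W hw3W hw1' hw2' hw3' h12 h13 h23
    have hunion : (P : Set G) = ((Fb w1 ∪ Fb w2) ∪ Fb w3) ∪ (W : Set G) := by
      ext x
      constructor
      · intro hx
        by_cases hxW : x ∈ W
        · exact Or.inr hxW
        · left
          rcases hall _ (hsqW x hx) with h | h | h | h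
          · exact absurd (hinvQ x (hPQ hx) h) hxW
          · exact Or.inl (Or.inl ⟨hx, hxW, h⟩)
          · exact Or.inl (Or.inr ⟨hx, hxW, h⟩)
          · exact Or.inr ⟨hx, hxW, h⟩
      · rintro (((h | h) | h) | h)
        · exact h.1
        · exact h.1
        · exact h.1
        · exact hWP h
    have hd1' : Disjoint (Fb w1) (Fb w2) := by
      rw [Set.disjoint_left]
      rintro x ⟨_, _, h1⟩ ⟨_, _, h2⟩
      exact h12 (h1.symm.trans h2)
    have hd2' : Disjoint (Fb w1 ∪ Fb w2) (Fb w3) := by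
      rw [Set.disjoint_left]
      rintro x (⟨_, _, h1⟩ | ⟨_, _, h1⟩) ⟨_, _, h2⟩
      · exact h13 (h1.symm.trans h2)
      · exact h23 (h1.symm.trans h2)
    have hd3' : Disjoint ((Fb w1 ∪ Fb w2) ∪ Fb w3) (W : Set G) := by
      rw [Set.disjoint_left]
      rintro x ((h | h) | h) h2
      · exact h.2.1 h2
      · exact h.2.1 h2
      · exact h.2.1 h2
    have hcount : Nat.card P = 3 * (Fb w1).ncard + 4 := by
      have h1 : Nat.card P = (P : Set G).ncard := rfl
      have h2 : (W : Set G).ncard = 4 := hWcard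
      rw [h1, hunion, Set.ncard_union_eq hd3' (Set.toFinite _) (Set.toFinite _),
        Set.ncard_union_eq hd2' (Set.toFinite _) (Set.toFinite _),
        Set.ncard_union_eq hd1' (Set.toFinite _) (Set.toFinite _), h2,
        ← hequi w2, ← hequi w1]
      ring
    obtain ⟨r, hr⟩ := hfix3 w1 hw1
    obtain ⟨m, hm⟩ := IsPGroup.iff_card.1 hP2
    have hm3 : 2 ≤ m := by
      by_contra hlt
      push Not at hlt
      interval_cases m
      · rw [pow_zero] at hm; omega
      · rw [pow_one] at hm; omega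
    obtain ⟨k, rfl⟩ := Nat.exists_eq_add_of_le hm3
    have h8 : 2 ^ (2 + k) = 4 * 2 ^ k := by rw [pow_add]; norm_num
    have hk0 : 0 < k := by
      rcases Nat.eq_zero_or_pos k with h | h
      · exfalso
        subst h
        apply hnc
        have : W = P := Subgroup.eq_of_le_of_card_ge hWP (by rw [hm, hWcard]; norm_num)
        rw [← this]; exact hW.1
      · exact h
    have h9 : 9 ∣ 2 ^ k - 1 := by
      have h10 : 9 ∣ 4 * (2 ^ k - 1) := by
        have h11 : 0 < 2 ^ k := pow_pos (by norm_num) k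
        refine ⟨r, ?_⟩
        omega
      exact Nat.Coprime.dvd_of_dvd_mul_left (by norm_num) h10
    have h6 := H62.six_le_of_nine_dvd hk0 h9
    refine H62.not_dvd_of_special hsp (by rw [← Cop.card_map_subtype]; exact hZ04) ?_
      (by rw [hm]; exact pow_dvd_pow 2 (by omega))
    intro U hUc hUe
    have h10 := hrank4 (U.map P.subtype) (by
      refine ⟨⟨?_⟩⟩
      rintro ⟨_, ⟨a, ha, rfl⟩⟩ ⟨_, ⟨b, hb, rfl⟩⟩
      apply Subtype.ext
      have h10 := congrArg Subtype.val (hUc.1.1 ⟨a, ha⟩ ⟨b, hb⟩)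
      have h11 : (a : G) * b = b * a := congrArg Subtype.val h10
      exact h11) (by
      rintro _ ⟨v, hv, rfl⟩
      exact congrArg Subtype.val (hUe v hv))
    rwa [Cop.card_map_subtype] at h10

end Cfsg.Agent.S3739
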