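import Cfsg.Statements.S3740
import Cfsg.Agent.H62.SL2Act
-- import your own Cfsg.Agent.* helpers here

set_option autoImplicit false
open Cfsg

namespace Cfsg.Agent.S3740

open scoped commutatorElement

/-- Let F be a finite field of odd characteristic p and let a be a p-element of SL₂(F) normalizing a subgroup R of order prime to p with [R, a] ≠ 1. Then p = 3, R is a quaternion group of order 8, and R⟨a⟩ is isomorphic to SL₂(3). -/
theorem result (F : Type) [Field F] [Fintype F] {p : ℕ} [Fact p.Prime] [CharP F p] (hp : p ≠ 2) (a : Matrix.SpecialLinearGroup (Fin 2) F) (ha : IsPGroup p ↥(Subgroup.zpowers a)) (R : Subgroup (Matrix.SpecialLinearGroup (Fin 2) F)) (hR : (Nat.card R).Coprime p) (haR : a ∈ Subgroup.normalizer (R : Set (Matrix.SpecialLinearGroup (Fin 2) F))) (hnt : ⁅R, Subgroup.zpowers a⁆ ≠ ⊥) : p = 3 ∧ Nonempty (↥R ≃* QuaternionGroup 2) ∧ Nonempty (↥(R ⊔ Subgroup.zpowers a) ≃* Matrix.SpecialLinearGroup (Fin 2) (ZMod 3)) := by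
  have hpp : p.Prime := Fact.out
  obtain ⟨k, hk⟩ := ha ⟨a, Subgroup.mem_zpowers a⟩
  have hk' : a ^ p ^ k = 1 := by simpa using congrArg Subtype.val hk
  have ha1 : a ≠ 1 := by
    rintro rfl
    apply hnt
    rw [Subgroup.zpowers_one_eq_bot, Subgroup.commutator_bot_right]
  have h20 := H62.two_ne_zero_of_char (F := F) hp
  obtain ⟨s, t, hss, htt, hts, has, hat, hRcl⟩ := H62.exists_quat_elements hp hk' ha1 hR
    (Subgroup.zpowers_le.2 haR) hnt
  have hap : a ^ p = 1 := H62.pow_p_of_tr_eq_two (p := p) (H62.tr_eq_two_of_pow hk')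
  have hast : a * (s * t) * a⁻¹ = s := by
    have h1 : a * (s * t) * a⁻¹ = (a * s * a⁻¹) * (a * t * a⁻¹) := by group
    rw [h1, has, hat, ← mul_assoc, hts, neg_mul, mul_assoc, htt]
    simp
  have ha3 : a ^ 3 * s = s * a ^ 3 := by
    have : a ^ 3 * s * (a ^ 3)⁻¹ = a * (a * (a * s * a⁻¹) * a⁻¹) * a⁻¹ := by
      simp only [pow_succ, pow_zero, one_mul, mul_assoc, mul_inv_rev]
    rw [has, hat, hast] at this
    exact mul_inv_eq_iff_eq_mul.1 this
  have hp3 : p = 3 := by
    by_contra hne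
    have hcop : Nat.Coprime 3 p := (Nat.coprime_primes Nat.prime_three hpp).2 (Ne.symm hne)
    have hcop2 : (orderOf a).Coprime 3 :=
      Nat.Coprime.coprime_dvd_left (orderOf_dvd_of_pow_eq_one hap) hcop.symm
    obtain ⟨m, hm⟩ := exists_pow_eq_self_of_coprime (x := a) hcop2.symm
    have h2 : Commute (a ^ 3) s := ha3
    have h3 : a * s = s * a := by
      have : Commute a s := by rw [← hm]; exact h2.pow_left m
      exact this
    have h4 : t = s := by rw [← has]; exact mul_inv_eq_of_eq_mul h3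
    rw [h4, hss] at hts
    apply H62.sl2_one_ne_neg_one (F := F) h20
    rw [neg_neg] at hts
    exact hts.symm
  have hs4 : s ^ (2 * 2) = 1 := by
    rw [pow_mul, sq s, hss]; simp
  have hs2 : s ^ 2 ≠ 1 := by
    rw [sq, hss]
    exact (H62.sl2_one_ne_neg_one (F := F) h20).symm
  have htt' : t * t = s ^ 2 := by rw [htt, sq, hss]
  have hsinv : s⁻¹ = -s := by
    rw [inv_eq_iff_mul_eq_one, mul_neg, hss, neg_neg]
  have hst : t * s * t⁻¹ = s⁻¹ := by
    rw [hts, hsinv, neg_mul, mul_inv_cancel_right]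
  refine ⟨hp3, ?_, ?_⟩
  · rw [hRcl]
    exact H62.closure_equiv_quat hs4 hs2 htt' hst
  · rw [hRcl]
    have ha3' : a ^ 3 = 1 := by rw [← hp3]; exact hap
    exact H62.sup_equiv_sl23 hs4 hs2 htt' hst has hat ha3' ha1

end Cfsg.Agent.S3740
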