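import Cfsg.Statements.S3741

set_option autoImplicit false
open Cfsg

namespace Cfsg.Agent.S3741

open scoped commutatorElement

/-- counting commuting pairs -/
theorem count {G : Type*} [Group G] [Finite G] {p : ℕ} [Fact p.Prime] (hG : IsPGroup p G)
    (A B : Subgroup G) [Fintype A] [Fintype B] [DecidableEq G]
    (hc : ∀ a ∈ A, ∀ b ∈ B, ∀ b' ∈ B, b' * ⁅a, b⁆ = ⁅a, b⁆ * b')
    (hcard : Nat.card ↥⁅A, B⁆ ≤ p) :
    p * ∑ a : A, ∑ b : B, (if (a : G) * b = b * a then 1 else 0) =
      Nat.card A * Nat.card B + (p - 1) * (Nat.card ↥(A ⊓ Subgroup.centralizer (B : Set G)) * Nat.card B) := by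
  classical
  have hp : p.Prime := Fact.out
  let φ : A → (B →* G) := fun a =>
    { toFun := fun b => ⁅(a : G), (b : G)⁆
      map_one' := by simp
      map_mul' := by
        intro b b'
        have h1 := hc a a.2 b' b'.2 b b.2
        have h2 : ⁅(a : G), ((b * b' : B) : G)⁆ = ⁅(a : G), (b : G)⁆ * ((b : G) * ⁅(a : G), (b' : G)⁆ * (b : G)⁻¹) := by
          simp only [commutatorElement_def, Subgroup.coe_mul]
          group
        rw [h2, h1]
        group }
  have hφ : ∀ (a : A) (b : B), φ a b = ⁅(a : G), (b : G)⁆ := fun a b => rfl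
  have hsum : ∀ a : A, (∑ b : B, (if (a : G) * b = b * a then 1 else 0)) = Nat.card (φ a).ker := by
    intro a
    rw [Finset.sum_ite, Finset.sum_const_zero, add_zero, Finset.sum_const, smul_eq_mul, mul_one,
      Nat.card_eq_fintype_card, Fintype.card_of_subtype (Finset.univ.filter fun b : B => (a : G) * b = b * a)]
    intro b
    simp only [Finset.mem_filter, Finset.mem_univ, true_and, MonoidHom.mem_ker, hφ,
      commutatorElement_eq_one_iff_mul_comm]
  have hval : ∀ a : A, p * Nat.card (φ a).ker =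
      Nat.card B + (p - 1) * (if (a : G) ∈ Subgroup.centralizer (B : Set G) then Nat.card B else 0) := by
    intro a
    have hk : Nat.card (φ a).range * Nat.card (φ a).ker = Nat.card B := by
      rw [mul_comm, ← Subgroup.index_ker]
      exact Subgroup.card_mul_index _
    split_ifs with ha
    · have h1 : (φ a).range = ⊥ := by
        rw [eq_bot_iff]
        rintro x ⟨b, rfl⟩
        rw [Subgroup.mem_bot, hφ, commutatorElement_eq_one_iff_mul_comm]
        exact (Subgroup.mem_centralizer_iff.1 ha b b.2).symm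
      rw [h1, Subgroup.card_bot, one_mul] at hk
      rw [hk]
      have : 1 ≤ p := hp.one_lt.le
      obtain ⟨q, rfl⟩ : ∃ q, p = q + 1 := ⟨p - 1, by omega⟩
      simp only [Nat.add_sub_cancel]
      ring
    · have h1 : (φ a).range ≤ ⁅A, B⁆ := by
        rintro x ⟨b, rfl⟩
        exact Subgroup.commutator_mem_commutator a.2 b.2
      have h2 : Nat.card (φ a).range ≤ p := (Subgroup.card_le_of_le h1).trans hcard
      have h3 : (φ a).range ≠ ⊥ := by
        intro h
        apply ha
        rw [Subgroup.mem_centralizer_iff]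
        intro b hb
        have h4 : φ a ⟨b, hb⟩ ∈ (φ a).range := ⟨_, rfl⟩
        rw [h, Subgroup.mem_bot, hφ, commutatorElement_eq_one_iff_mul_comm] at h4
        exact h4.symm
      obtain ⟨n, hn⟩ := IsPGroup.iff_card.1 (hG.to_subgroup (φ a).range)
      have h4 : n = 1 := by
        rcases Nat.lt_trichotomy n 1 with h | h | h
        · have : n = 0 := by omega
          subst this
          rw [pow_zero] at hn
          exact absurd (Subgroup.card_eq_one.1 hn) h3
        · exact h
        · exfalso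
          have h5 : p ^ 2 ≤ p ^ n := Nat.pow_le_pow_right hp.pos h
          have h6 : p < p ^ 2 := by
            rw [pow_two]
            exact lt_mul_of_one_lt_left hp.pos hp.one_lt
          omega
      subst h4
      rw [pow_one] at hn
      rw [hn] at hk
      rw [hk, mul_zero, add_zero]
  calc p * ∑ a : A, ∑ b : B, (if (a : G) * b = b * a then 1 else 0)
      = ∑ a : A, p * Nat.card (φ a).ker := by
        rw [Finset.mul_sum]
        exact Finset.sum_congr rfl fun a _ => by rw [hsum]
    _ = ∑ a : A, (Nat.card B + (p - 1) * (if (a : G) ∈ Subgroup.centralizer (B : Set G) then Nat.card B else 0)) :=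
        Finset.sum_congr rfl fun a _ => hval a
    _ = _ := by
        rw [Finset.sum_add_distrib, Finset.sum_const, ← Finset.mul_sum, smul_eq_mul, Finset.card_univ,
          ← Nat.card_eq_fintype_card]
        congr 2
        rw [Finset.sum_ite, Finset.sum_const_zero, add_zero, Finset.sum_const, smul_eq_mul]
        congr 1
        let e : ↥(A ⊓ Subgroup.centralizer (B : Set G)) ≃ {a : A // (a : G) ∈ Subgroup.centralizer (B : Set G)} :=
          { toFun := fun x => ⟨⟨x.1, x.2.1⟩, x.2.2⟩
            invFun := fun x => ⟨x.1.1, x.1.2, x.2⟩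
            left_inv := fun x => rfl
            right_inv := fun x => rfl }
        rw [Nat.card_congr e, Nat.card_eq_fintype_card, Fintype.card_subtype]

/-- Let A and B be subgroups of a finite p-group with [A, B] ≤ A ∩ B and [A, B] of order at most p. Then |A : C_A(B)| = |B : C_B(A)|. -/
theorem result {G : Type*} [Group G] [Finite G] {p : ℕ} [Fact p.Prime] (hG : IsPGroup p G) (A B : Subgroup G) (hAB : ⁅A, B⁆ ≤ A ⊓ B) (hcard : Nat.card ↥⁅A, B⁆ ≤ p) : (A ⊓ Subgroup.centralizer (B : Set G)).relIndex A = (B ⊓ Subgroup.centralizer (A : Set G)).relIndex B := by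
  classical
  have hp : p.Prime := Fact.out
  have : Fintype A := Fintype.ofFinite A
  have : Fintype B := Fintype.ofFinite B
  -- elements normalizing `[A,B]` centralize it
  have hcen : ∀ g : G, (∀ z ∈ ⁅A, B⁆, g * z * g⁻¹ ∈ ⁅A, B⁆) → ∀ z ∈ ⁅A, B⁆, g * z = z * g := by
    intro g hg z hz
    have hgn : g ∈ Subgroup.normalizer ((⁅A, B⁆ : Subgroup G) : Set G) :=
      Subgroup.mem_normalizer_fintype hg
    let f : MulAction (Subgroup.zpowers g) ↥⁅A, B⁆ :=
      MulAction.compHom _ ((Subgroup.normalizerMonoidHom ⁅A, B⁆).comp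
        (Subgroup.inclusion ((Subgroup.zpowers_le).2 hgn)))
    have hfx : ∀ (x : Subgroup.zpowers g) (z : ↥⁅A, B⁆), ((x • z : ↥⁅A, B⁆) : G) = x * z * (x : G)⁻¹ :=
      fun x z => rfl
    have hmod := (hG.to_subgroup (Subgroup.zpowers g)).card_modEq_card_fixedPoints ↥⁅A, B⁆
    obtain ⟨n, hn⟩ := IsPGroup.iff_card.1 (hG.to_subgroup ⁅A, B⁆)
    have hone : (1 : ↥⁅A, B⁆) ∈ MulAction.fixedPoints (Subgroup.zpowers g) ↥⁅A, B⁆ := by
      intro x
      apply Subtype.ext
      rw [hfx]
      simp
    have hall : MulAction.fixedPoints (Subgroup.zpowers g) ↥⁅A, B⁆ = Set.univ := by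
      rcases Nat.eq_zero_or_pos n with h0 | h0
      · subst h0
        rw [pow_zero] at hn
        have : Subsingleton ↥⁅A, B⁆ := (Nat.card_eq_one_iff_unique.1 hn).1
        rw [Set.eq_univ_iff_forall]
        intro z
        rw [Subsingleton.elim z 1]
        exact hone
      · have h1 : p ∣ Nat.card ↥⁅A, B⁆ := by
          rw [hn]
          exact dvd_pow_self p (by omega)
        have h2 : p ∣ Nat.card (MulAction.fixedPoints (Subgroup.zpowers g) ↥⁅A, B⁆) :=
          (Nat.ModEq.dvd_iff hmod dvd_rfl).1 h1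
        have h3 : 0 < Nat.card (MulAction.fixedPoints (Subgroup.zpowers g) ↥⁅A, B⁆) := by
          rw [Nat.card_pos_iff]
          exact ⟨⟨⟨1, hone⟩⟩, inferInstance⟩
        have h4 : p ≤ Nat.card (MulAction.fixedPoints (Subgroup.zpowers g) ↥⁅A, B⁆) := Nat.le_of_dvd h3 h2
        apply Set.eq_of_subset_of_ncard_le (Set.subset_univ _)
        rw [Set.ncard_univ]
        exact (hcard.trans h4)
    have h5 : (⟨z, hz⟩ : ↥⁅A, B⁆) ∈ MulAction.fixedPoints (Subgroup.zpowers g) ↥⁅A, B⁆ := by
      rw [hall]; trivial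
    have h6 := congrArg (fun x : ↥⁅A, B⁆ => (x : G)) (h5 ⟨g, Subgroup.mem_zpowers g⟩)
    simp only [hfx] at h6
    rwa [mul_inv_eq_iff_eq_mul] at h6
  have hcA : ∀ a ∈ A, ∀ z ∈ ⁅A, B⁆, a * z = z * a := by
    intro a ha
    apply hcen
    intro z hz
    have h1 : ⁅a, z⁆ ∈ ⁅A, B⁆ := Subgroup.commutator_mem_commutator ha (hAB hz).2
    have h2 : a * z * a⁻¹ = ⁅a, z⁆ * z := by
      rw [commutatorElement_def]; group
    rw [h2]
    exact mul_mem h1 hz
  have hcB : ∀ b ∈ B, ∀ z ∈ ⁅A, B⁆, b * z = z * b := by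
    intro b hb
    apply hcen
    intro z hz
    have h1 : ⁅z, b⁆ ∈ ⁅A, B⁆ := Subgroup.commutator_mem_commutator (hAB hz).1 hb
    have h2 : b * z * b⁻¹ = ⁅z, b⁆⁻¹ * z := by
      rw [commutatorElement_def]; group
    rw [h2]
    exact mul_mem (inv_mem h1) hz
  have h1 := count hG A B (fun a ha b hb b' hb' => hcB b' hb' _ (Subgroup.commutator_mem_commutator ha hb)) hcard
  have h2 := count hG B A (fun b hb a ha a' ha' => by
    apply hcA a' ha'
    rw [← inv_mem_iff, commutatorElement_inv]
    exact Subgroup.commutator_mem_commutator ha hb) (by rw [Subgroup.commutator_comm]; exact hcard)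
  have h3 : ∑ b : B, ∑ a : A, (if (b : G) * a = a * b then 1 else 0) =
      ∑ a : A, ∑ b : B, (if (a : G) * b = b * a then 1 else 0) := by
    rw [Finset.sum_comm]
    refine Finset.sum_congr rfl fun a _ => Finset.sum_congr rfl fun b _ => ?_
    simp only [eq_comm]
  rw [h3, h1, mul_comm (Nat.card B) (Nat.card A)] at h2
  have h4 := Nat.add_left_cancel h2
  have hp1 : 0 < p - 1 := by have := hp.one_lt; omega
  have h5 := Nat.eq_of_mul_eq_mul_left hp1 h4
  have hA := Subgroup.card_mul_index ((A ⊓ Subgroup.centralizer (B : Set G)).subgroupOf A)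
  have hB := Subgroup.card_mul_index ((B ⊓ Subgroup.centralizer (A : Set G)).subgroupOf B)
  rw [Nat.card_congr (Subgroup.subgroupOfEquivOfLe (inf_le_left)).toEquiv] at hA hB
  change _ * (A ⊓ Subgroup.centralizer (B : Set G)).relIndex A = _ at hA
  change _ * (B ⊓ Subgroup.centralizer (A : Set G)).relIndex B = _ at hB
  have hpA : 0 < Nat.card ↥(A ⊓ Subgroup.centralizer (B : Set G)) := Nat.card_pos
  have hpB : 0 < Nat.card ↥(B ⊓ Subgroup.centralizer (A : Set G)) := Nat.card_pos
  rw [← hA, ← hB] at h5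
  have h6 : Nat.card ↥(A ⊓ Subgroup.centralizer (B : Set G)) * Nat.card ↥(B ⊓ Subgroup.centralizer (A : Set G)) *
      (B ⊓ Subgroup.centralizer (A : Set G)).relIndex B =
      Nat.card ↥(A ⊓ Subgroup.centralizer (B : Set G)) * Nat.card ↥(B ⊓ Subgroup.centralizer (A : Set G)) *
      (A ⊓ Subgroup.centralizer (B : Set G)).relIndex A := by
    calc _ = Nat.card ↥(A ⊓ Subgroup.centralizer (B : Set G)) * (Nat.card ↥(B ⊓ Subgroup.centralizer (A : Set G)) *
      (B ⊓ Subgroup.centralizer (A : Set G)).relIndex B) := by ring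
    _ = _ := by rw [h5]; ring
  exact (Nat.eq_of_mul_eq_mul_left (Nat.mul_pos hpA hpB) h6).symm

end Cfsg.Agent.S3741
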