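import Cfsg.Statements.S3744
import Cfsg.Agent.Cop.Hall
-- import your own Cfsg.Agent.* helpers here

set_option autoImplicit false
open Cfsg

namespace Cfsg.Agent.S3744

/-- A finite p-soluble group has a p-complement, all its p-complements are conjugate, and every subgroup of order prime to p lies in one of them. Here a p-complement is a subgroup of order prime to p whose index is a power of p. -/
theorem result {G : Type*} [Group G] [Finite G] {p : ℕ} [Fact p.Prime] (hG : Cfsg.IsPSolvable p G) : (∃ H : Subgroup G, (Nat.card H).Coprime p ∧ ∃ n : ℕ, H.index = p ^ n) ∧ (∀ H₁ H₂ : Subgroup G, (Nat.card H₁).Coprime p → (∃ n : ℕ, H₁.index = p ^ n) → (Nat.card H₂).Coprime p → (∃ n : ℕ, H₂.index = p ^ n) → ∃ g : G, H₂ = H₁.map (MulAut.conj g).toMonoidHom) ∧ (∀ U : Subgroup G, (Nat.card U).Coprime p → ∃ H : Subgroup G, (Nat.card H).Coprime p ∧ (∃ n : ℕ, H.index = p ^ n) ∧ ∃ g : G, U.map (MulAut.conj g).toMonoidHom ≤ H) := by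
  have hp : p.Prime := Fact.out
  obtain ⟨k, m, hm, hk⟩ := Nat.exists_eq_pow_mul_and_not_dvd (Nat.card_pos (α := G)).ne' p hp.ne_one
  have hmp : m.Coprime p := Nat.Coprime.symm ((Nat.Prime.coprime_iff_not_dvd hp).2 hm)
  have hmk : m.Coprime (p ^ k) := Nat.Coprime.pow_right _ hmp
  have hcard : Nat.card G = m * p ^ k := by rw [hk, mul_comm]
  have hm0 : 0 < m := Nat.pos_of_ne_zero (by rintro rfl; simp at hm)
  obtain ⟨⟨H, hH⟩, hcont⟩ := Cop.hall_sep _ (G := G) rfl m (p ^ k) hcard hmk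
    (Cop.sep_of_isPSolvable hG k)
  have hidx : ∀ K : Subgroup G, Nat.card K = m → K.index = p ^ k := by
    intro K hK
    have h1 := K.card_mul_index
    rw [hK, hcard] at h1
    exact Nat.eq_of_mul_eq_mul_left hm0 h1
  have hcardof : ∀ K : Subgroup G, (Nat.card K).Coprime p → (∃ n : ℕ, K.index = p ^ n) →
      Nat.card K = m := by
    rintro K hK ⟨n, hn⟩
    have h1 := K.card_mul_index
    rw [hn, hcard] at h1
    apply Nat.dvd_antisymm
    · exact (Nat.Coprime.pow_right k hK).dvd_of_dvd_mul_right (Dvd.intro _ h1)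
    · exact (Nat.Coprime.pow_right n hmp).dvd_of_dvd_mul_right (Dvd.intro _ h1.symm)
  refine ⟨⟨H, by rw [hH]; exact hmp, k, hidx H hH⟩, ?_, ?_⟩
  · intro H₁ H₂ h1 h1' h2 h2'
    have h3 := hcardof H₁ h1 h1'
    have h4 := hcardof H₂ h2 h2'
    obtain ⟨g, hg⟩ := hcont H₁ H₂ h3 (by rw [h4]; exact hmk)
    refine ⟨g, ?_⟩
    refine Subgroup.eq_of_le_of_card_ge hg ?_
    have h5 := Hall.card_conj_smul g H₁
    rw [h4]
    exact (h5.trans h3).le
  · intro U hU
    obtain ⟨g, hg⟩ := hcont H U hH (Nat.Coprime.pow_right k hU)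
    refine ⟨H, by rw [hH]; exact hmp, ⟨k, hidx H hH⟩, g⁻¹, ?_⟩
    rintro _ ⟨u, hu, rfl⟩
    have h1 := hg hu
    rw [Hall.mem_conj_smul] at h1
    simpa using h1

end Cfsg.Agent.S3744
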