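import Cfsg.Statements.S3745
import Cfsg.Agent.Cop.Hall
-- import your own Cfsg.Agent.* helpers here

set_option autoImplicit false
open Cfsg

namespace Cfsg.Agent.S3745

theorem card_of_isPiHallOf {X : Type*} [Group X] [Finite X] {π : Set ℕ} {H G : Subgroup X}
    (h : Cfsg.IsPiHallOf π H G) {m n : ℕ} (hG : Nat.card G = m * n)
    (hm : ∀ p : ℕ, p.Prime → p ∣ m → p ∈ π) (hn : ∀ p : ℕ, p.Prime → p ∣ n → p ∉ π) :
    Nat.card H = m := by
  obtain ⟨hHG, h1, h2⟩ := h
  have h3 : Nat.card H * H.relIndex G = m * n := by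
    rw [← hG]
    have := (H.subgroupOf G).card_mul_index
    rw [Nat.card_congr (Subgroup.subgroupOfEquivOfLe hHG).toEquiv] at this
    exact this
  apply Nat.dvd_antisymm
  · exact Nat.Coprime.dvd_of_dvd_mul_right (Cop.coprime_of_pi h1 hn) (Dvd.intro _ h3)
  · refine Nat.Coprime.dvd_of_dvd_mul_right (n := H.relIndex G) ?_ (Dvd.intro _ h3.symm)
    exact Cop.coprime_of_pi (π := π) hm (fun p hp h4 h5 => h2 p hp h5 h4)

theorem isPiHallOf_of_card {X : Type*} [Group X] [Finite X] {π : Set ℕ} {H G : Subgroup X}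
    {m n : ℕ} (hG : Nat.card G = m * n)
    (hm : ∀ p : ℕ, p.Prime → p ∣ m → p ∈ π) (hn : ∀ p : ℕ, p.Prime → p ∣ n → p ∉ π)
    (hHG : H ≤ G) (hH : Nat.card H = m) : Cfsg.IsPiHallOf π H G := by
  refine ⟨hHG, by rw [hH]; exact hm, ?_⟩
  have h3 : Nat.card H * H.relIndex G = m * n := by
    rw [← hG]
    have := (H.subgroupOf G).card_mul_index
    rw [Nat.card_congr (Subgroup.subgroupOfEquivOfLe hHG).toEquiv] at this
    exact this
  rw [hH] at h3
  have hm0 : 0 < m := by rw [← hH]; exact Nat.card_pos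
  have h4 := Nat.eq_of_mul_eq_mul_left hm0 h3
  rw [h4]
  intro p hp h5 h6
  exact hn p hp h6 h5

/-- Coprime action on a solvable group and Hall subgroups. Let A and G be subgroups of a finite group with A normalizing G, the orders of A and G coprime, and G solvable, and let π be a set of primes. Then (a) G has an A-invariant Hall π-subgroup; (b) any two A-invariant Hall π-subgroups of G are conjugate by an element of C_G(A); (c) every A-invariant π-subgroup of G lies in an A-invariant Hall π-subgroup of G. -/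
theorem result {X : Type*} [Group X] [Finite X] (A G : Subgroup X) (hAG : A ≤ Subgroup.normalizer (G : Set X)) (hcop : (Nat.card A).Coprime (Nat.card G)) (hsolv : Group.IsSolvable G) (π : Set ℕ) : (∃ H : Subgroup X, Cfsg.IsPiHallOf π H G ∧ A ≤ Subgroup.normalizer (H : Set X)) ∧ (∀ H₁ H₂ : Subgroup X, Cfsg.IsPiHallOf π H₁ G → A ≤ Subgroup.normalizer (H₁ : Set X) → Cfsg.IsPiHallOf π H₂ G → A ≤ Subgroup.normalizer (H₂ : Set X) → ∃ c ∈ G ⊓ Subgroup.centralizer (A : Set X), H₂ = H₁.map (MulAut.conj c).toMonoidHom) ∧ (∀ U : Subgroup X, U ≤ G → A ≤ Subgroup.normalizer (U : Set X) → (∀ p : ℕ, p.Prime → p ∣ Nat.card U → p ∈ π) → ∃ H : Subgroup X, Cfsg.IsPiHallOf π H G ∧ A ≤ Subgroup.normalizer (H : Set X) ∧ U ≤ H) := by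
  obtain ⟨m, n, hG, hm, hn⟩ := Cop.exists_pi_parts π (Nat.card G) Nat.card_pos.ne'
  have hmn : m.Coprime n := Cop.coprime_of_pi hm hn
  refine ⟨?_, ?_, ?_⟩
  · obtain ⟨H, hHG, hH, hHA⟩ := Cop.exists_invariant_hall hAG hcop hsolv hG hmn
    exact ⟨H, isPiHallOf_of_card hG hm hn hHG hH, hHA⟩
  · intro H₁ H₂ h1 h1A h2 h2A
    obtain ⟨c, hc, hc'⟩ := Cop.exists_centralizer_conj_hall hAG hcop hsolv hG hmn h1.1 h2.1
      (card_of_isPiHallOf h1 hG hm hn) (card_of_isPiHallOf h2 hG hm hn) h1A h2A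
    exact ⟨c, hc, hc'.symm⟩
  · intro U hUG hUA hU
    obtain ⟨H, hHG, hH, hHA, hUH⟩ := Cop.exists_invariant_hall_ge hAG hcop hsolv hG hmn hUG hUA
      (Cop.coprime_of_pi hU hn)
    exact ⟨H, isPiHallOf_of_card hG hm hn hHG hH, hHA, hUH⟩

end Cfsg.Agent.S3745
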