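import Cfsg.Statements.S3747
import Cfsg.Agent.H1.Comp

set_option autoImplicit false
open Cfsg

namespace Cfsg.Agent.S3747

/-- Let G be a finite group. (a) If K is a component of G with trivial centre, then the normal closure of K in G is a minimal normal subgroup of G. (b) If the Fitting subgroup of G is trivial, then the layer E(G) is generated by the minimal normal subgroups of G. -/
theorem result {G : Type*} [Group G] [Finite G] : (∀ K : Subgroup G, Cfsg.IsComponent K → Subgroup.center ↥K = ⊥ → (Subgroup.normalClosure (K : Set G) ≠ ⊥ ∧ ∀ N : Subgroup G, N.Normal → N ≤ Subgroup.normalClosure (K : Set G) → N = ⊥ ∨ N = Subgroup.normalClosure (K : Set G))) ∧ (Cfsg.fittingSubgroup G = ⊥ → sSup {N : Subgroup G | N ≠ ⊥ ∧ N.Normal ∧ ∀ N' : Subgroup G, N'.Normal → N' ≤ N → N' = ⊥ ∨ N' = N} = Cfsg.layer G) := by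
  classical
  have hcl : ∀ K : Subgroup G, Cfsg.IsComponent K → Subgroup.normalClosure (K : Set G) ≠ ⊥ := by
    intro K hK h0
    apply FStar.ne_bot hK.2
    rw [eq_bot_iff, ← h0]
    exact Subgroup.le_normalClosure
  refine ⟨fun K hK hc => ⟨hcl K hK, fun N hN hNK => H1.normalClosure_minimal K hK hc N hN hNK⟩, ?_⟩
  intro hF
  apply le_antisymm
  · apply sSup_le
    rintro N ⟨hN0, hN, hmin⟩
    have := hN
    have hinf : N ⊓ Cfsg.layer G ≠ ⊥ := by
      intro h0
      have h1 : ⁅N, Cfsg.layer G⁆ = ⊥ := by
        rw [eq_bot_iff, ← h0]
        exact Subgroup.commutator_le_inf N (Cfsg.layer G)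
      have h2 : N ≤ Subgroup.centralizer (Cfsg.generalizedFittingSubgroup G : Set G) := by
        rw [Cfsg.generalizedFittingSubgroup, hF, sup_bot_eq]
        exact Subgroup.commutator_eq_bot_iff_le_centralizer.mp h1
      have h3 : N ≤ Cfsg.layer G := by
        have h4 := h2.trans (FStar.centralizer_generalizedFitting_le (G := G))
        rwa [Cfsg.generalizedFittingSubgroup, hF, sup_bot_eq] at h4
      rw [inf_eq_left.mpr h3] at h0
      exact hN0 h0
    rcases hmin (N ⊓ Cfsg.layer G) inferInstance inf_le_left with h | h
    · exact absurd h hinf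
    · rw [← h]; exact inf_le_right
  · rw [FStar.layer_le_iff]
    intro K hK
    have hc : Subgroup.center K = ⊥ := by
      have h1 : (Subgroup.center K).map K.subtype ≤ Cfsg.fittingSubgroup G := by
        apply H62.le_fitting_of_isSubnormal
        · refine Subgroup.IsSubnormal.step _ K (Subgroup.map_subtype_le _) hK.1 ?_
          rw [Subgroup.subgroupOf, Subgroup.comap_map_eq_self_of_injective K.subtype_injective]
          infer_instance
        · have h2 : Group.IsNilpotent (Subgroup.center K) := by
            let _ : CommGroup (Subgroup.center K) :=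
              { (inferInstance : Group (Subgroup.center K)) with
                mul_comm := fun a b => Subtype.ext (Subgroup.mem_center_iff.mp b.2 a) }
            exact CommGroup.isNilpotent
          exact Group.nilpotent_of_mulEquiv ((Subgroup.center K).equivMapOfInjective K.subtype K.subtype_injective)
      rw [hF, le_bot_iff] at h1
      exact (Subgroup.map_eq_bot_iff_of_injective _ K.subtype_injective).mp h1
    exact Subgroup.le_normalClosure.trans (le_sSup ⟨hcl K hK, inferInstance, fun N hN hNK => H1.normalClosure_minimal K hK hc N hN hNK⟩)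

end Cfsg.Agent.S3747
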