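import Cfsg.Statements.S3748
import Cfsg.Agent.H62.PiCore

set_option autoImplicit false
open Cfsg

namespace Cfsg.Agent.S3748

/-- Call a proper subgroup M of G primitive when M = N_G(N) for every non-trivial normal subgroup N of M. If M is a primitive subgroup of the finite group G, then no non-trivial subnormal subgroup of G is contained in M; in particular M ∩ F(G) = 1. -/
theorem result {G : Type*} [Group G] [Finite G] (M : Subgroup G) (hM : M ≠ ⊤) (hprim : ∀ N : Subgroup G, N ≤ M → M ≤ Subgroup.normalizer (N : Set G) → N ≠ ⊥ → Subgroup.normalizer (N : Set G) = M) : (∀ L : Subgroup G, L.IsSubnormal → L ≤ M → L = ⊥) ∧ M ⊓ Cfsg.fittingSubgroup G = ⊥ := by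
  have key : ∀ L : Subgroup G, L.IsSubnormal → L ≤ M → L = ⊥ := by
    let X : Set (Subgroup G) := {L | L.IsSubnormal ∧ L ≤ M}
    let S : Subgroup G := sSup X
    have hS : S.IsSubnormal := H62.isSubnormal_sSup X fun K hK => hK.1
    have hSM : S ≤ M := sSup_le fun K hK => hK.2
    have hSn : M ≤ Subgroup.normalizer (S : Set G) := by
      intro m hm
      apply Subgroup.mem_normalizer_fintype
      intro s hs
      have h1 : S.map (MulAut.conj m).toMonoidHom ≤ S := by
        rw [Subgroup.map_le_iff_le_comap]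
        apply sSup_le
        intro L hL
        rw [← Subgroup.map_le_iff_le_comap]
        refine le_sSup ⟨hL.1.map (MulAut.conj m).surjective, ?_⟩
        rintro _ ⟨x, hx, rfl⟩
        exact M.mul_mem (M.mul_mem hm (hL.2 hx)) (M.inv_mem hm)
      exact h1 ⟨s, hs, rfl⟩
    have hS1 : S = ⊥ := by
      by_contra hne
      have h1 := hprim S hSM hSn hne
      have hST : S ≠ ⊤ := fun h => hM (top_le_iff.1 (h ▸ hSM))
      rcases (Subgroup.IsSubnormal.iff_eq_top_or_exists).1 hS with h2 | ⟨K, hSK, hK, hn⟩
      · exact hST h2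
      · have h3 : K ≤ Subgroup.normalizer (S : Set G) :=
          (Subgroup.normal_subgroupOf_iff_le_normalizer hSK.le).1 hn
        rw [h1] at h3
        have h4 : K ≤ S := le_sSup ⟨hK, h3⟩
        exact absurd (lt_of_lt_of_le hSK h4) (lt_irrefl _)
    intro L hL hLM
    rw [eq_bot_iff, ← hS1]
    exact le_sSup ⟨hL, hLM⟩
  refine ⟨key, ?_⟩
  apply key _ _ inf_le_left
  have h1 : Group.IsNilpotent (Cfsg.fittingSubgroup G) := Solv.fitting_isNilpotent
  exact H62.isSubnormal_of_le_nilpotent inf_le_right (Subgroup.Normal.isSubnormal (Solv.fitting_normal)) h1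

end Cfsg.Agent.S3748
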