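import Cfsg.Statements.S3749
import Cfsg.Agent.H62.RankTwo
import Cfsg.Agent.Cop.Hall
-- import your own Cfsg.Agent.* helpers here

set_option autoImplicit false
set_option linter.style.haveILetI false
open Cfsg

namespace Cfsg.Agent.S3749

open Subgroup
open scoped Pointwise

/-- Call a proper subgroup M of G primitive when M = N_G(N) for every non-trivial normal subgroup N of M. Let M be a primitive subgroup of the finite group G, p a prime with O_p(M) ≠ 1, and N a normal subgroup of G with M ∩ N = 1. Then p does not divide the order of N; for every prime q there is exactly one Sylow q-subgroup of N normalized by M; and if the order of N has at least two prime divisors then M is not a maximal subgroup of G. -/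
theorem result {G : Type*} [Group G] [Finite G] (M : Subgroup G) (hM : M ≠ ⊤) (hprim : ∀ N : Subgroup G, N ≤ M → M ≤ Subgroup.normalizer (N : Set G) → N ≠ ⊥ → Subgroup.normalizer (N : Set G) = M) {p : ℕ} [Fact p.Prime] (hOp : Cfsg.pCore p ↥M ≠ ⊥) (N : Subgroup G) [N.Normal] (hMN : M ⊓ N = ⊥) : ¬ p ∣ Nat.card N ∧ (∀ q : ℕ, [Fact q.Prime] → ∃! Q : Sylow q ↥N, M ≤ Subgroup.normalizer ((Q : Subgroup ↥N).map N.subtype : Set G)) ∧ ((∃ q r : ℕ, q.Prime ∧ r.Prime ∧ q ≠ r ∧ q ∣ Nat.card N ∧ r ∣ Nat.card N) → ¬ IsCoatom M) := by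
  have hp : p.Prime := Fact.out
  set P := (Cfsg.pCore p M).map M.subtype with hPdef
  have hPM : P ≤ M := map_subtype_le _
  have hMP : M ≤ normalizer (P : Set G) :=
    le_normalizer.trans (H49.normalizer_le_normalizer_map_of_char M _)
  have hPp : IsPGroup p P := (Solv.pCore_isPGroup p).map _
  have hPbot : P ≠ ⊥ := by
    intro h
    apply hOp
    rwa [hPdef, Subgroup.map_eq_bot_iff_of_injective _ M.subtype_injective] at h
  have hNP : normalizer (P : Set G) = M := hprim P hPM hMP hPbot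
  have hCNP : N ⊓ centralizer (P : Set G) = ⊥ := by
    rw [eq_bot_iff, ← hMN]
    refine le_inf ?_ inf_le_left
    rw [← hNP]
    exact inf_le_right.trans (H49.centralizer_le_normalizer' _)
  have hNN : normalizer (N : Set G) = ⊤ := Subgroup.normalizer_eq_top N
  have hpN : ¬ p ∣ Nat.card N := by
    intro hdvd
    have h1 := H62.card_modEq_fixed P hPp (N : Set G) (fun a _ x hx =>
      Subgroup.Normal.conj_mem inferInstance x hx a)
    have h2 : ({x | x ∈ (N : Set G) ∧ ∀ a ∈ P, a * x = x * a} : Set G) = {1} := by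
      ext x
      constructor
      · rintro ⟨h3, h4⟩
        have h5 : x ∈ N ⊓ centralizer (P : Set G) := ⟨h3, mem_centralizer_iff.2 h4⟩
        rw [hCNP, mem_bot] at h5
        exact h5
      · rintro rfl
        exact ⟨N.one_mem, fun a _ => by simp⟩
    rw [h2] at h1
    have h3 : Nat.card N ≡ 1 [MOD p] := by simpa using h1
    have h4 : Nat.card N ≡ 0 [MOD p] := Nat.modEq_zero_iff_dvd.2 hdvd
    have h5 : 1 ≡ 0 [MOD p] := h3.symm.trans h4
    exact hp.one_lt.ne' (Nat.dvd_one.1 (Nat.modEq_zero_iff_dvd.1 h5))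
  have hcop : (Nat.card P).Coprime (Nat.card N) := by
    obtain ⟨m, hm⟩ := IsPGroup.iff_card.1 hPp
    rw [hm]
    exact Nat.Coprime.pow_left m ((Nat.Prime.coprime_iff_not_dvd hp).2 hpN)
  have hPN : P ≤ normalizer (N : Set G) := by rw [hNN]; exact le_top
  have hPs : Group.IsSolvable P := by
    have : Group.IsNilpotent P := hPp.isNilpotent
    infer_instance
  have key : ∀ q : ℕ, [Fact q.Prime] → ∃! Q : Sylow q ↥N,
      M ≤ Subgroup.normalizer ((Q : Subgroup ↥N).map N.subtype : Set G) := by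
    intro q _
    obtain ⟨Q, hQ⟩ := Cop.exists_invariant_sylow hPN hcop (Or.inl hPs) q
    have huniq : ∀ Q₁ Q₂ : Sylow q N, P ≤ normalizer ((Q₁ : Subgroup N).map N.subtype : Set G) →
        P ≤ normalizer ((Q₂ : Subgroup N).map N.subtype : Set G) → Q₁ = Q₂ := by
      intro Q₁ Q₂ h1 h2
      obtain ⟨c, hc, hc'⟩ := Cop.exists_centralizer_conj_sylow hPN hcop (Or.inl hPs) q Q₁ Q₂ h1 h2
      have h3 : (c : G) ∈ N ⊓ centralizer (P : Set G) := ⟨c.2, hc⟩
      rw [hCNP, mem_bot] at h3
      have h4 : c = 1 := Subtype.ext h3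
      rw [← hc', h4, map_one, one_smul]
    refine ⟨Q, ?_, ?_⟩
    · intro m hm
      obtain ⟨Q', hQ'⟩ := Cop.exists_sylow_conj Q (a := m) (by rw [hNN]; trivial)
      have h1 : P ≤ normalizer ((Q' : Subgroup N).map N.subtype : Set G) := by
        rw [hQ']
        intro x hx
        rw [Cop.mem_normalizer_conj_smul]
        exact hQ ((mem_normalizer_iff''.1 (hMP hm) x).1 hx)
      have h2 := huniq Q Q' hQ h1
      apply Cop.mem_normalizer_of_conj_smul_eq
      rw [← hQ', ← h2]
    · intro Q' hQ'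
      exact huniq Q' Q (hPM.trans hQ') hQ
  refine ⟨hpN, key, ?_⟩
  rintro ⟨q, r, hq, hr, hqr, hqN, hrN⟩ hco
  haveI : Fact q.Prime := ⟨hq⟩
  obtain ⟨Q, hQ, -⟩ := key q
  set Q' := (Q : Subgroup N).map N.subtype with hQ'
  have hQN : Q' ≤ N := map_subtype_le _
  have hQcard : Nat.card Q' = Nat.card Q := Cop.card_map_subtype _
  have hQbot : Q' ≠ ⊥ := by
    intro h
    rw [hQ', Subgroup.map_eq_bot_iff_of_injective _ N.subtype_injective] at h
    exact Q.ne_bot_of_dvd_card hqN h
  have hlt : M < Q' ⊔ M := by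
    refine lt_of_le_of_ne le_sup_right ?_
    intro h
    apply hQbot
    rw [eq_bot_iff, ← hMN]
    refine le_inf ?_ hQN
    conv_rhs => rw [h]
    exact le_sup_left
  have htop := hco.2 _ hlt
  -- N ≤ Q' M forces N = Q'
  have hNQ : N ≤ Q' := by
    intro x hx
    have h1 : x ∈ ((Q' ⊔ M : Subgroup G) : Set G) := by rw [htop]; trivial
    rw [Subgroup.coe_mul_of_right_le_normalizer_left _ _ hQ] at h1
    obtain ⟨y, hy, m, hm, hym⟩ := h1
    change y * m = x at hym
    have h2 : m ∈ M ⊓ N := by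
      refine ⟨hm, ?_⟩
      have : m = y⁻¹ * x := by rw [← hym]; group
      rw [this]
      exact N.mul_mem (N.inv_mem (hQN hy)) hx
    rw [hMN, mem_bot] at h2
    rw [h2, mul_one] at hym
    rw [← hym]; exact hy
  have h3 : r ∣ Nat.card Q := by
    rw [← hQcard]
    exact hrN.trans (Subgroup.card_dvd_of_le hNQ)
  obtain ⟨k, hk⟩ := IsPGroup.iff_card.1 Q.isPGroup'
  rw [hk] at h3
  exact hqr ((Nat.prime_dvd_prime_iff_eq hr hq).1 (hr.dvd_of_dvd_pow h3)).symm

end Cfsg.Agent.S3749
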