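import Cfsg.Statements.S3750
import Cfsg.Agent.H62.Prim

set_option autoImplicit false
open Cfsg

namespace Cfsg.Agent.S3750

/-- Call a proper subgroup M of G primitive when M = N_G(N) for every non-trivial normal subgroup N of M. Let M be a primitive subgroup of the finite group G and N a normal subgroup of G with M ∩ F*(N) ≠ 1. Then F(G) = 1 and F*(N) = F*(G) = E(G); in particular every minimal normal subgroup of G is contained in N. -/
theorem result {G : Type*} [Group G] [Finite G] (M : Subgroup G) (hM : M ≠ ⊤) (hprim : ∀ N : Subgroup G, N ≤ M → M ≤ Subgroup.normalizer (N : Set G) → N ≠ ⊥ → Subgroup.normalizer (N : Set G) = M) (N : Subgroup G) [N.Normal] (hMF : M ⊓ (Cfsg.generalizedFittingSubgroup ↥N).map N.subtype ≠ ⊥) : Cfsg.fittingSubgroup G = ⊥ ∧ (Cfsg.generalizedFittingSubgroup ↥N).map N.subtype = Cfsg.generalizedFittingSubgroup G ∧ Cfsg.generalizedFittingSubgroup G = Cfsg.layer G ∧ ∀ K : Subgroup G, K.Normal → K ≠ ⊥ → (∀ K' : Subgroup G, K'.Normal → K' ≤ K → K' = ⊥ ∨ K' = K) → K ≤ N := by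
  have hNs : N.IsSubnormal := Subgroup.Normal.isSubnormal inferInstance
  set Fs := (Cfsg.generalizedFittingSubgroup ↥N).map N.subtype with hFs
  have hFn : Fs.Normal := by rw [hFs]; infer_instance
  have hle : Fs ≤ Cfsg.generalizedFittingSubgroup G := by
    rw [hFs, Cfsg.generalizedFittingSubgroup, Subgroup.map_sup]
    refine sup_le ((FStar.map_layer_subtype_le hNs).trans FStar.layer_le_generalizedFitting) ?_
    rw [Solv.inf_fitting_eq N]
    exact inf_le_right.trans FStar.fitting_le_generalizedFitting
  have hnt : ∀ R : Subgroup G, R.Normal → R ≤ M → R = ⊥ := by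
    intro R hR hRM
    by_contra hne
    have h1 := hprim R hRM (by rw [Subgroup.normalizer_eq_top R]; exact le_top) hne
    rw [Subgroup.normalizer_eq_top R] at h1
    exact hM h1.symm
  -- a nontrivial subgroup centralized by much
  have hA : Subgroup.normalizer ((M ⊓ Fs : Subgroup G) : Set G) = M :=
    hprim _ inf_le_left (fun x hx => H33.norm_inf (Subgroup.le_normalizer hx)
      (by rw [Subgroup.normalizer_eq_top Fs]; trivial)) hMF
  have hcent : Subgroup.centralizer (Fs : Set G) ≤ M := by
    conv_rhs => rw [← hA]
    exact (Subgroup.centralizer_le (show ((M ⊓ Fs : Subgroup G) : Set G) ⊆ (Fs : Set G) from fun x hx => hx.2)).trans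
      (H33.cent_le_norm' _)
  have hC : Subgroup.centralizer (Fs : Set G) = ⊥ := hnt _ inferInstance hcent
  -- `F(G) = 1`
  have hF : Cfsg.fittingSubgroup G = ⊥ := by
    set R := Cfsg.fittingSubgroup G with hR
    haveI hnil : Group.IsNilpotent R := Agent.Solv.fitting_isNilpotent
    by_contra hne
    have hZ : Nontrivial (Subgroup.center R) := by
      haveI : Nontrivial R := (Subgroup.nontrivial_iff_ne_bot R).2 hne
      exact (Subgroup.nontrivial_iff_ne_bot _).2 (Group.IsNilpotent.center_ne_bot R)
    obtain ⟨⟨z, hz⟩, hz1⟩ := exists_ne (1 : Subgroup.center R)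
    have hz' : (z : G) ∈ Subgroup.centralizer (Fs : Set G) := by
      have h1 : (z : G) ∈ Subgroup.centralizer (Cfsg.generalizedFittingSubgroup G : Set G) := by
        have h2 : Cfsg.generalizedFittingSubgroup G ≤ Subgroup.centralizer {(z : G)} := by
          unfold Cfsg.generalizedFittingSubgroup
          refine sup_le ?_ ?_
          · intro y hy
            rw [Subgroup.mem_centralizer_singleton_iff]
            exact FStar.commutator_eq_bot_iff_forall.1 (FStar.layer_commute_fitting (G := G)) y hy z z.2
          · intro y hy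
            rw [Subgroup.mem_centralizer_singleton_iff]
            exact congrArg Subtype.val (Subgroup.mem_center_iff.1 hz ⟨y, hy⟩)
        rw [Subgroup.mem_centralizer_iff]
        intro y hy
        exact Subgroup.mem_centralizer_singleton_iff.1 (h2 hy)
      exact Subgroup.centralizer_le hle h1
    rw [hC, Subgroup.mem_bot] at hz'
    apply hz1
    apply Subtype.ext
    exact Subtype.ext hz'
  have hFG : Cfsg.generalizedFittingSubgroup G = Cfsg.layer G := by
    unfold Cfsg.generalizedFittingSubgroup
    rw [hF, sup_bot_eq]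
  have hge : Cfsg.layer G ≤ Fs := by
    rw [FStar.layer_le_iff]
    intro K hK
    rcases FStar.component_le_or_commute hK (Subgroup.Normal.isSubnormal hFn) with h | h
    · exact h
    · exfalso
      rw [Subgroup.commutator_eq_bot_iff_le_centralizer, hC, le_bot_iff] at h
      exact FStar.ne_bot hK.2 h
  have heq : Fs = Cfsg.generalizedFittingSubgroup G := le_antisymm hle (by rw [hFG]; exact hge)
  refine ⟨hF, heq, hFG, ?_⟩
  intro K hK hK1 hmin
  have hFN : Fs ≤ N := Subgroup.map_subtype_le _
  have hn : (K ⊓ Fs).Normal := inferInstance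
  rcases hmin (K ⊓ Fs) hn inf_le_left with h | h
  · exfalso
    apply hK1
    rw [eq_bot_iff, ← hC]
    rw [← Subgroup.commutator_eq_bot_iff_le_centralizer, eq_bot_iff, ← h]
    exact Subgroup.commutator_le_inf K Fs
  · rw [← h]
    exact inf_le_right.trans hFN

end Cfsg.Agent.S3750
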