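import Cfsg.Statements.S3751
import Cfsg.Agent.H62.PLoc

set_option autoImplicit false
open Cfsg

namespace Cfsg.Agent.S3751

/-- Two distinct subgroups M₁, M₂ of G form a primitive pair when, for {i, j} = {1, 2}, every non-trivial normal subgroup A of M_i contained in M₁ ∩ M₂ satisfies N_{M_j}(A) = M₁ ∩ M₂; the pair has characteristic p when moreover C_{M_i}(O_p(M_i)) ≤ O_p(M_i) for both i and O_p(M₁)O_p(M₂) ≤ M₁ ∩ M₂. Let G be a finite group, p a prime dividing its order, with O_p(G) = 1 and every p-local subgroup of characteristic p. Then either G has a primitive pair of characteristic p, or every maximal p-local subgroup M of G is strongly p-embedded in G: M is a proper subgroup, p divides its order, and for every g ∉ M the order of M ∩ gMg⁻¹ is prime to p. -/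
theorem result {G : Type*} [Group G] [Finite G] {p : ℕ} [Fact p.Prime] (hloc : Cfsg.IsOfLocalCharacteristic p G) (hOp : Cfsg.pCore p G = ⊥) : (∃ M₁ M₂ : Subgroup G, M₁ ≠ M₂ ∧ (∀ A : Subgroup G, A ≠ ⊥ → A ≤ M₁ ⊓ M₂ → (M₁ ≤ Subgroup.normalizer (A : Set G) → M₂ ⊓ Subgroup.normalizer (A : Set G) = M₁ ⊓ M₂) ∧ (M₂ ≤ Subgroup.normalizer (A : Set G) → M₁ ⊓ Subgroup.normalizer (A : Set G) = M₁ ⊓ M₂)) ∧ Subgroup.centralizer (Cfsg.pCore p ↥M₁ : Set ↥M₁) ≤ Cfsg.pCore p ↥M₁ ∧ Subgroup.centralizer (Cfsg.pCore p ↥M₂ : Set ↥M₂) ≤ Cfsg.pCore p ↥M₂ ∧ (Cfsg.pCore p ↥M₁).map M₁.subtype ⊔ (Cfsg.pCore p ↥M₂).map M₂.subtype ≤ M₁ ⊓ M₂) ∨ (∀ M : Subgroup G, (∃ T : Subgroup G, IsPGroup p T ∧ T ≠ ⊥ ∧ M = Subgroup.normalizer (T : Set G)) → (∀ L : Subgroup G, (∃ T : Subgroup G, IsPGroup p T ∧ T ≠ ⊥ ∧ L = Subgroup.normalizer (T : Set G)) → M ≤ L → L = M) → M ≠ ⊤ ∧ p ∣ Nat.card M ∧ ∀ g : G, g ∉ M → ¬ p ∣ Nat.card ↥(M ⊓ M.map (MulAut.conj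 g).toMonoidHom)) := by
  by_cases hex : ∃ M₁ M₂ : Subgroup G, IsMaximalPLocal p M₁ ∧ IsMaximalPLocal p M₂ ∧ M₁ ≠ M₂ ∧
      p ∣ Nat.card (M₁ ⊓ M₂ : Subgroup G)
  · left
    obtain ⟨N₁, N₂, h1, h2, hne, hd⟩ := hex
    obtain ⟨M₁, M₂, hne', h1', h2', hO1, hO2⟩ := H62.exists_pair hloc h1 h2 hne hd
    exact ⟨M₁, M₂, hne', H62.prim_pair hloc h1' h2' hO1 hO2⟩
  · right
    push Not at hex
    intro M hM hmax
    have hMm : IsMaximalPLocal p M := ⟨hM, hmax⟩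
    obtain ⟨T, hT, hT1, hMT⟩ := hM
    have hTM : T ≤ M := by rw [hMT]; exact Subgroup.le_normalizer
    refine ⟨?_, ?_, ?_⟩
    · intro h
      apply hT1
      rw [eq_bot_iff, ← hOp]
      have hTn : T.Normal := by
        rw [h] at hMT
        exact Subgroup.normalizer_eq_top_iff.1 hMT.symm
      exact Agent.Solv.le_pCore hTn hT
    · obtain ⟨k, hk⟩ := IsPGroup.iff_card.1 hT
      have hk0 : k ≠ 0 := by
        rintro rfl
        rw [pow_zero, Subgroup.card_eq_one] at hk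
        exact hT1 hk
      exact ((dvd_pow_self p hk0).trans (by rw [hk])).trans (Subgroup.card_dvd_of_le hTM)
    · intro g hg hd
      refine hex M (H33.cj g M) hMm (H62.IsMaximalPLocal_cj hMm g) ?_ hd
      intro h
      exact hg (H62.norm_max hMm (H33.mem_norm_iff.2 h.symm))

end Cfsg.Agent.S3751
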