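import Cfsg.Statements.S3753
import Cfsg.Agent.H11.PrimPair

set_option autoImplicit false
open Cfsg

namespace Cfsg.Agent.S3753

/-- Two distinct subgroups M₁, M₂ of G form a primitive pair when, for {i, j} = {1, 2}, every non-trivial normal subgroup A of M_i contained in M₁ ∩ M₂ satisfies N_{M_j}(A) = M₁ ∩ M₂; the pair has characteristic p when moreover C_{M_i}(O_p(M_i)) ≤ O_p(M_i) for both i and O_p(M₁)O_p(M₂) ≤ M₁ ∩ M₂. If the finite group G has a primitive pair (M₁, M₂) of characteristic p for some prime p, then M₁ or M₂ has non-abelian Sylow 2-subgroups. In particular no group of odd order has a primitive pair of characteristic p. -/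
theorem result {G : Type*} [Group G] [Finite G] {p : ℕ} [Fact p.Prime] (M₁ M₂ : Subgroup G) (hne : M₁ ≠ M₂) (hP : ∀ A : Subgroup G, A ≠ ⊥ → A ≤ M₁ ⊓ M₂ → (M₁ ≤ Subgroup.normalizer (A : Set G) → M₂ ⊓ Subgroup.normalizer (A : Set G) = M₁ ⊓ M₂) ∧ (M₂ ≤ Subgroup.normalizer (A : Set G) → M₁ ⊓ Subgroup.normalizer (A : Set G) = M₁ ⊓ M₂)) (hc₁ : Subgroup.centralizer (Cfsg.pCore p ↥M₁ : Set ↥M₁) ≤ Cfsg.pCore p ↥M₁) (hc₂ : Subgroup.centralizer (Cfsg.pCore p ↥M₂ : Set ↥M₂) ≤ Cfsg.pCore p ↥M₂) (hO : (Cfsg.pCore p ↥M₁).map M₁.subtype ⊔ (Cfsg.pCore p ↥M₂).map M₂.subtype ≤ M₁ ⊓ M₂) : (∃ S : Sylow 2 ↥M₁, ¬ IsMulCommutative (S : Subgroup ↥M₁)) ∨ (∃ S : Sylow 2 ↥M₂, ¬ IsMulCommutative (S : Subgroup ↥M₂)) := by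
  by_contra hcon
  push Not at hcon
  obtain ⟨hab₁, hab₂⟩ := hcon
  have hp' : p.Prime := Fact.out
  obtain ⟨B₁, hB₁⟩ : ∃ B : Subgroup G, B = (Cfsg.pCore p ↥M₁).map M₁.subtype := ⟨_, rfl⟩
  obtain ⟨B₂, hB₂⟩ : ∃ B : Subgroup G, B = (Cfsg.pCore p ↥M₂).map M₂.subtype := ⟨_, rfl⟩
  rw [← hB₁, ← hB₂] at hO
  have hBM₁ : B₁ ≤ M₁ ⊓ M₂ := le_sup_left.trans hO
  have hBM₂ : B₂ ≤ M₁ ⊓ M₂ := le_sup_right.trans hO
  have hBp₁ : IsPGroup p B₁ := by
    rw [hB₁]; exact (Cfsg.Agent.Solv.pCore_isPGroup (G := ↥M₁) p).map _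
  have hBp₂ : IsPGroup p B₂ := by
    rw [hB₂]; exact (Cfsg.Agent.Solv.pCore_isPGroup (G := ↥M₂) p).map _
  have hn : ∀ (M : Subgroup G) (m : G), m ∈ M → ∀ x ∈ (Cfsg.pCore p ↥M).map M.subtype,
      m * x * m⁻¹ ∈ (Cfsg.pCore p ↥M).map M.subtype := by
    rintro M m hm _ ⟨y, hy, rfl⟩
    have hN : (Cfsg.pCore p ↥M).Normal := inferInstance
    exact ⟨_, hN.conj_mem y hy ⟨m, hm⟩, rfl⟩
  have hnorm : ∀ (M : Subgroup G), M ≤ Subgroup.normalizer (((Cfsg.pCore p ↥M).map M.subtype : Subgroup G) : Set G) := by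
    intro M m hm
    rw [Subgroup.mem_normalizer_iff]
    refine fun h => ⟨fun hh => hn M m hm h hh, fun hh => ?_⟩
    have := hn M m⁻¹ (inv_mem hm) _ hh
    convert this using 1
    group
  -- a nontrivial subgroup of the intersection normal in both gives a contradiction
  have key : ∀ A : Subgroup G, A ≠ ⊥ → A ≤ M₁ ⊓ M₂ → M₁ ≤ Subgroup.normalizer (A : Set G) →
      M₂ ≤ Subgroup.normalizer (A : Set G) → False := by
    intro A hA hAle h1 h2
    obtain ⟨h3, h4⟩ := hP A hA hAle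
    have h5 := h3 h1
    have h6 := h4 h2
    rw [inf_eq_left.2 h2] at h5
    rw [inf_eq_left.2 h1] at h6
    exact hne (h6.trans h5.symm)
  -- O_p(M_i) is nontrivial
  have hne₀ : ¬ (B₁ = ⊥ ∧ B₂ = ⊥) := by
    rintro ⟨h1, h2⟩
    have h3 : ∀ M : Subgroup G, Subgroup.centralizer (Cfsg.pCore p ↥M : Set ↥M) ≤ Cfsg.pCore p ↥M →
        (Cfsg.pCore p ↥M).map M.subtype = ⊥ → M = ⊥ := by
      intro M hc h
      have h4 : Cfsg.pCore p ↥M = ⊥ := by
        rwa [Subgroup.map_eq_bot_iff_of_injective _ M.subtype_injective] at h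
      rw [h4] at hc
      rw [eq_bot_iff]
      intro m hm
      have h5 : (⟨m, hm⟩ : M) ∈ Subgroup.centralizer ((⊥ : Subgroup M) : Set M) := by
        rw [Subgroup.mem_centralizer_iff]
        intro x hx
        rw [SetLike.mem_coe, Subgroup.mem_bot] at hx
        rw [hx, one_mul, mul_one]
      have h6 := hc h5
      rw [Subgroup.mem_bot] at h6 ⊢
      exact congrArg Subtype.val h6
    exact hne ((h3 M₁ hc₁ (hB₁ ▸ h1)).trans (h3 M₂ hc₂ (hB₂ ▸ h2)).symm)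
  by_cases hp2 : p = 2
  · subst hp2
    -- O_2(M_i) contains every 2-subgroup of M_i
    have hall : ∀ M : Subgroup G, Subgroup.centralizer (Cfsg.pCore 2 ↥M : Set ↥M) ≤ Cfsg.pCore 2 ↥M →
        (∀ S : Sylow 2 ↥M, IsMulCommutative (S : Subgroup ↥M)) → ∀ A : Subgroup G, A ≤ M → IsPGroup 2 A →
        A ≤ (Cfsg.pCore 2 ↥M).map M.subtype := by
      intro M hc hab A hAM hAp
      have h1 : IsPGroup 2 (A.subgroupOf M) := hAp.comap_of_injective _ M.subtype_injective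
      obtain ⟨S, hS⟩ := h1.exists_le_sylow
      intro a ha
      have h2 : (⟨a, hAM ha⟩ : M) ∈ (S : Subgroup M) := hS ha
      have h3 : (⟨a, hAM ha⟩ : M) ∈ Subgroup.centralizer (Cfsg.pCore 2 ↥M : Set ↥M) := by
        rw [Subgroup.mem_centralizer_iff]
        intro y hy
        have hy' : y ∈ (S : Subgroup M) := Cfsg.Agent.Solv.pCore_le_sylow S hy
        exact congrArg Subtype.val ((hab S).is_comm.comm (⟨y, hy'⟩ : (S : Subgroup M)) ⟨_, h2⟩)
      exact ⟨_, hc h3, rfl⟩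
    have h1 : B₁ ≤ B₂ := by rw [hB₂]; exact hall M₂ hc₂ hab₂ B₁ (hBM₁.trans inf_le_right) hBp₁
    have h2 : B₂ ≤ B₁ := by rw [hB₁]; exact hall M₁ hc₁ hab₁ B₂ (hBM₂.trans inf_le_left) hBp₂
    have h3 : B₁ = B₂ := le_antisymm h1 h2
    refine key B₁ (fun h => hne₀ ⟨h, h3 ▸ h⟩) hBM₁ ?_ ?_
    · rw [hB₁]; exact hnorm M₁
    · rw [h3, hB₂]; exact hnorm M₂
  · have h12 : B₁ ≤ Subgroup.normalizer (B₂ : Set G) := by
      rw [hB₂]; exact (hBM₁.trans inf_le_right).trans (hnorm M₂)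
    have hSp : IsPGroup p ↥(B₁ ⊔ B₂) := hBp₁.to_sup_of_normal_right' hBp₂ h12
    have hn1 := Cfsg.Agent.H11.PrimPair.le_normalizer_kInf hp2 (hO.trans inf_le_left) hSp hab₁ hc₁
      (by rw [← hB₁]; exact le_sup_left)
    have hn2 := Cfsg.Agent.H11.PrimPair.le_normalizer_kInf hp2 (hO.trans inf_le_right) hSp hab₂ hc₂
      (by rw [← hB₂]; exact le_sup_right)
    refine key _ ?_ ?_ hn1 hn2
    · have h5 : B₁ ⊔ B₂ ≠ ⊥ := by
        intro h
        apply hne₀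
        rw [eq_bot_iff, eq_bot_iff, ← h]
        exact ⟨le_sup_left, le_sup_right⟩
      have hnt : Nontrivial ↥(B₁ ⊔ B₂) := (Subgroup.nontrivial_iff_ne_bot _).2 h5
      have h6 := (Cfsg.Agent.H2.isCharPFunctor_kInfLower p).1 ↥(B₁ ⊔ B₂) hSp hnt
      intro h
      apply h6
      exact (Subgroup.map_eq_bot_iff_of_injective _ (Subgroup.subtype_injective _)).1 h
    · exact (Subgroup.map_subtype_le _).trans hO

end Cfsg.Agent.S3753
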