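import Cfsg.Statements.S3755
import Cfsg.Agent.H62.W2

set_option autoImplicit false
set_option linter.style.haveILetI false
open Cfsg

namespace Cfsg.Agent.S3755

open Subgroup H62
open H34 (fixedBy mem_fixedBy fixedBy_anti)
open scoped IsMulCommutative

/-- Let M and V be subgroups of a finite group with V an elementary abelian 2-group, M normalizing V and acting faithfully on it (M ∩ C(V) = 1), and C_M(O_{2'}(M)) ≤ O_{2'}(M). If some elementary abelian 2-subgroup A of M satisfies |V : C_V(A)| < |A|², then M has a section isomorphic to the symmetric group of degree 3. -/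
theorem result {X : Type*} [Group X] [Finite X] (M V : Subgroup X) (hV : Cfsg.IsElementaryAbelian 2 V) (hMV : M ≤ Subgroup.normalizer (V : Set X)) (hfaith : M ⊓ Subgroup.centralizer (V : Set X) = ⊥) (hcon : Subgroup.centralizer (Cfsg.pPrimeCore 2 ↥M : Set ↥M) ≤ Cfsg.pPrimeCore 2 ↥M) (A : Subgroup X) (hAM : A ≤ M) (hA : Cfsg.IsElementaryAbelian 2 A) (hsmall : (V ⊓ Subgroup.centralizer (A : Set X)).relIndex V < Nat.card A ^ 2) : Cfsg.Involves (Equiv.Perm (Fin 3)) ↥M := by
  classical
  by_contra hno
  haveI := hV.1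
  set φ : M →* MulAut V := (Subgroup.normalizerMonoidHom V).comp (Subgroup.inclusion hMV) with hφ
  have hφa : ∀ (m : M) (v : V), ((φ m v : V) : X) = m * v * (m : X)⁻¹ := fun m v => rfl
  have hinj : Function.Injective φ := by
    rw [injective_iff_map_eq_one]
    intro m hm
    have h1 : (m : X) ∈ M ⊓ centralizer (V : Set X) := by
      refine ⟨m.2, mem_centralizer_iff.2 ?_⟩
      intro v hv
      have h2 := congrArg Subtype.val (DFunLike.congr_fun hm ⟨v, hv⟩)
      rw [hφa] at h2
      exact (mul_inv_eq_iff_eq_mul.1 h2).symm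
    rw [hfaith, mem_bot] at h1
    exact Subtype.ext h1
  have hA' := (H34.isElementaryAbelian_iff 2 A).1 hA
  let e : M ≃* φ.range := MonoidHom.ofInjective hinj
  have hVsq : ∀ u : V, u * u = 1 := by
    intro u
    have := hV.2 u u.2
    rw [sq] at this
    exact Subtype.ext this
  have h1 := sq_le_core (U := V) hVsq φ.range
    (fun h => hno (H46.involves_of_surj h φ.rangeRestrict φ.rangeRestrict_surjective))
    (by
      have h2 := Solv.map_pPrimeCore 2 e
      rw [← h2]
      intro y hy
      obtain ⟨m, rfl⟩ := e.surjective y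
      refine ⟨m, hcon ?_, rfl⟩
      rw [mem_centralizer_iff] at hy ⊢
      intro z hz
      apply e.injective
      rw [map_mul, map_mul]
      exact hy (e z) ⟨z, hz, rfl⟩)
    ((A.subgroupOf M).map φ) (Subgroup.map_le_range φ _)
    (by
      rintro _ ⟨a, ha, rfl⟩ _ ⟨b, hb, rfl⟩
      rw [← map_mul, ← map_mul]
      congr 1
      exact Subtype.ext (hA'.1 a ha b hb))
    (by
      rintro _ ⟨a, ha, rfl⟩
      rw [← map_mul]
      have : a * a = 1 := Subtype.ext (by have := hA'.2 a ha; rwa [sq] at this)
      rw [this, map_one])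
  have h2 : Nat.card ((A.subgroupOf M).map φ) = Nat.card A := by
    rw [← Nat.card_congr ((A.subgroupOf M).equivMapOfInjective φ hinj).toEquiv]
    exact Nat.card_congr (Subgroup.subgroupOfEquivOfLe hAM).toEquiv
  have h3 : fixedBy ((A.subgroupOf M).map φ) = (V ⊓ Subgroup.centralizer (A : Set X)).subgroupOf V := by
    ext v
    rw [mem_subgroupOf, mem_inf, mem_fixedBy]
    constructor
    · intro h
      refine ⟨v.2, mem_centralizer_iff.2 ?_⟩
      intro a ha
      have h4 := congrArg Subtype.val (h (φ ⟨a, hAM ha⟩) ⟨_, ha, rfl⟩)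
      rw [hφa] at h4
      exact mul_inv_eq_iff_eq_mul.1 h4
    · rintro ⟨_, h⟩ _ ⟨a, ha, rfl⟩
      apply Subtype.ext
      rw [hφa, mul_inv_eq_iff_eq_mul]
      exact mem_centralizer_iff.1 h a ha
  rw [h2, h3] at h1
  exact absurd hsmall (not_lt.2 h1)

end Cfsg.Agent.S3755
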