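import Cfsg.Statements.S3760
-- (no helper imports)

set_option autoImplicit false
open Cfsg

namespace Cfsg.Agent.S3760

/-- Let the group G act transitively on a set X, let x ∈ X with stabilizer H = G_x, and let K ≤ H. Then N_G(K) acts transitively on the set of fixed points of K if and only if every G-conjugate of K contained in H is already an H-conjugate of K. -/
theorem result {G : Type*} [Group G] {X : Type*} [MulAction G X] (htrans : ∀ a b : X, ∃ g : G, g • a = b) (x : X) (K : Subgroup G) (hK : K ≤ MulAction.stabilizer G x) : (∀ a b : X, (∀ k ∈ K, k • a = a) → (∀ k ∈ K, k • b = b) → ∃ g ∈ Subgroup.normalizer (K : Set G), g • a = b) ↔ ∀ g : G, K.map (MulAut.conj g).toMonoidHom ≤ MulAction.stabilizer G x → ∃ h ∈ MulAction.stabilizer G x, K.map (MulAut.conj g).toMonoidHom = K.map (MulAut.conj h).toMonoidHom := by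
  constructor
  · intro h g hg
    have h1 : ∀ k ∈ K, k • (g⁻¹ • x) = g⁻¹ • x := by
      intro k hk
      have h2 : g * k * g⁻¹ ∈ MulAction.stabilizer G x := hg ⟨k, hk, by simp⟩
      rw [MulAction.mem_stabilizer_iff] at h2
      have h3 : g⁻¹ • ((g * k * g⁻¹) • x) = g⁻¹ • x := by rw [h2]
      rw [smul_smul] at h3
      rw [smul_smul]
      have h4 : g⁻¹ * (g * k * g⁻¹) = k * g⁻¹ := by group
      rwa [h4] at h3
    have h2 : ∀ k ∈ K, k • x = x := fun k hk => hK hk
    obtain ⟨n, hn, hnx⟩ := h x (g⁻¹ • x) h2 h1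
    refine ⟨g * n, ?_, ?_⟩
    · rw [MulAction.mem_stabilizer_iff, mul_smul, hnx, smul_inv_smul]
    · rw [Subgroup.mem_normalizer_iff] at hn
      ext y
      constructor
      · rintro ⟨k, hk, rfl⟩
        refine ⟨n⁻¹ * k * n, ?_, ?_⟩
        · exact (hn _).2 (by simpa [mul_assoc] using hk)
        · simp [mul_assoc]
      · rintro ⟨k, hk, rfl⟩
        exact ⟨n * k * n⁻¹, (hn k).1 hk, by simp [mul_assoc]⟩
  · intro h a b ha hb
    obtain ⟨u, rfl⟩ := htrans x a
    obtain ⟨v, rfl⟩ := htrans x b
    have key : ∀ u : G, (∀ k ∈ K, k • u • x = u • x) →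
        ∃ n ∈ Subgroup.normalizer (K : Set G), n • x = u • x := by
      intro u hu
      have h1 : K.map (MulAut.conj u⁻¹).toMonoidHom ≤ MulAction.stabilizer G x := by
        rintro _ ⟨k, hk, rfl⟩
        have := hu k hk
        rw [MulAction.mem_stabilizer_iff]
        simp only [MulEquiv.toMonoidHom_eq_coe, MonoidHom.coe_coe, MulAut.conj_apply, inv_inv]
        rw [mul_smul, mul_smul, this, inv_smul_smul]
      obtain ⟨c, hc, hcK⟩ := h u⁻¹ h1
      refine ⟨u * c, ?_, ?_⟩
      · rw [Subgroup.mem_normalizer_iff]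
        intro y
        constructor
        · intro hy
          have h2 : c * y * c⁻¹ ∈ K.map (MulAut.conj c).toMonoidHom := ⟨y, hy, by simp⟩
          rw [← hcK] at h2
          obtain ⟨z, hz, hze⟩ := h2
          have h3 : u⁻¹ * z * u = c * y * c⁻¹ := by simpa using hze
          have h4 : u * c * y * (u * c)⁻¹ = z := by
            have : u * c * y * (u * c)⁻¹ = u * (c * y * c⁻¹) * u⁻¹ := by group
            rw [this, ← h3]; group
          rw [h4]; exact hz
        · intro hy
          have h2 : u⁻¹ * (u * c * y * (u * c)⁻¹) * u ∈ K.map (MulAut.conj u⁻¹).toMonoidHom :=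
            ⟨_, hy, by simp⟩
          rw [hcK] at h2
          obtain ⟨z, hz, hze⟩ := h2
          have h3 : c * z * c⁻¹ = u⁻¹ * (u * c * y * (u * c)⁻¹) * u := by simpa using hze
          have h4 : z = y := by
            have h5 : c * z * c⁻¹ = c * y * c⁻¹ := by rw [h3]; group
            exact mul_left_cancel (mul_right_cancel h5)
          rw [← h4]; exact hz
      · rw [mul_smul]
        have : c • x = x := hc
        rw [this]
    obtain ⟨n, hn, hnx⟩ := key u ha
    obtain ⟨m, hm, hmx⟩ := key v hb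
    refine ⟨m * n⁻¹, Subgroup.mul_mem _ hm (Subgroup.inv_mem _ hn), ?_⟩
    rw [mul_smul, ← hnx, inv_smul_smul, hmx]

end Cfsg.Agent.S3760
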