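import Cfsg.Statements.S3761
import Cfsg.Agent.H51.CyclicSelf

set_option autoImplicit false
open Cfsg

namespace Cfsg.Agent.S3761

/-- Let G be a finite non-abelian p-group with a cyclic normal subgroup U of order p^n such that C_G(U) = U. Then either p = 2 and G is dihedral, generalized quaternion or semidihedral of order 2^(n+1); or, writing U₁ for the subgroup generated by the p-th powers of elements of U and M = C_G(U₁), the subgroup U has index p in M and the subgroup Ω₁(M) generated by the elements of M of order dividing p is elementary abelian of order p² and characteristic in G. -/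
theorem result {G : Type*} [Group G] [Finite G] {p : ℕ} [Fact p.Prime] (hG : IsPGroup p G) (hna : ¬ IsMulCommutative G) (U : Subgroup G) [U.Normal] (hU : IsCyclic U) (n : ℕ) (hUn : Nat.card U = p ^ n) (hC : Subgroup.centralizer (U : Set G) = U) : (p = 2 ∧ Nat.card G = 2 ^ (n + 1) ∧ ((∃ m : ℕ, Nonempty (G ≃* DihedralGroup m)) ∨ (∃ m : ℕ, Nonempty (G ≃* QuaternionGroup m)) ∨ Cfsg.IsQuasiDihedral G)) ∨ (U.relIndex (Subgroup.centralizer (Cfsg.powerClosure p 1 U : Set G)) = p ∧ Cfsg.IsElementaryAbelian p (Cfsg.omegaOne p (Subgroup.centralizer (Cfsg.powerClosure p 1 U : Set G))) ∧ Nat.card ↥(Cfsg.omegaOne p (Subgroup.centralizer (Cfsg.powerClosure p 1 U : Set G))) = p ^ 2 ∧ (Cfsg.omegaOne p (Subgroup.centralizer (Cfsg.powerClosure p 1 U : Set G))).Characteristic) := by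
  classical
  have hp : p.Prime := Fact.out
  obtain ⟨a, rfl⟩ := (Subgroup.isCyclic_iff_exists_zpowers_eq_top U).1 hU
  have ha : orderOf a = p ^ n := by rw [← Nat.card_zpowers]; exact hUn
  have hAn : (Subgroup.zpowers a).Normal := inferInstance
  have hnc : ∃ x y : G, x * y ≠ y * x := by
    by_contra hcon
    push Not at hcon
    exact hna ⟨⟨hcon⟩⟩
  by_cases hex : 2 ≤ n ∧ (p = 2 → 3 ≤ n) ∧ ∃ g, g ∉ Subgroup.zpowers a ∧ ∃ k : ℤ, g * a * g⁻¹ = a ^ k ∧
      (p : ℤ) ^ (n - 1) ∣ k - 1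
  · right
    obtain ⟨hn2, hn3, g, hg, k, hk, hk1⟩ := hex
    obtain ⟨E, hE, hEab, hEp, hEc⟩ := Cfsg.Agent.H9.exists_normal_elementary_of_conj a hAn hC n ha hn2 hn3 g hg k hk hk1
    obtain ⟨h1, h2⟩ := Cfsg.Agent.H51.omega_of_elem a hAn hC n ha hn2 hn3 hE hEab hEp hEc
    rw [h2]
    refine ⟨h1, ⟨hEab, hEp⟩, hEc, ?_⟩
    rw [Subgroup.characteristic_iff_map_eq]
    intro φ
    have hE' : (E.map φ.toMonoidHom).Normal := hE.map _ φ.surjective
    have hEab' : IsMulCommutative (E.map φ.toMonoidHom) := by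
      refine ⟨⟨?_⟩⟩
      rintro ⟨_, x, hx, rfl⟩ ⟨_, y, hy, rfl⟩
      apply Subtype.ext
      change φ x * φ y = φ y * φ x
      rw [← map_mul, ← map_mul]
      congr 1
      exact congrArg Subtype.val (hEab.is_comm.comm (⟨x, hx⟩ : E) ⟨y, hy⟩)
    have hEp' : ∀ e ∈ E.map φ.toMonoidHom, e ^ p = 1 := by
      rintro _ ⟨x, hx, rfl⟩
      change (φ x) ^ p = 1
      rw [← map_pow, hEp x hx, map_one]
    have hEc' : Nat.card (E.map φ.toMonoidHom) = p ^ 2 := by
      rw [Subgroup.card_map_of_injective φ.injective, hEc]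
    obtain ⟨-, h3⟩ := Cfsg.Agent.H51.omega_of_elem a hAn hC n ha hn2 hn3 hE' hEab' hEp' hEc'
    exact h3.symm.trans h2
  · left
    obtain ⟨hp2, hn2, hidx⟩ := Cfsg.Agent.H51.index_two_of_no hG a hAn hC n ha hnc (by
      intro h1 h2 g hg k hk hk1
      exact hex ⟨h1, h2, g, hg, k, hk, hk1⟩)
    subst hp2
    have hcard : Nat.card G = 2 ^ (n + 1) := by
      rw [← Subgroup.card_mul_index (Subgroup.zpowers a), hidx, Nat.card_zpowers, ha, pow_succ]
    refine ⟨rfl, hcard, ?_⟩
    obtain ⟨a', b', hz, ha', hb', hrel⟩ := Cfsg.Agent.MaxClass.two_group_cyclic_max (n + 1) (by omega)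
      hcard (Subgroup.zpowers a) inferInstance hidx hnc
    have e1 : n + 1 - 1 = n := by omega
    have e2 : n + 1 - 2 = n - 1 := by omega
    rw [e1] at ha'
    rw [e2] at hrel
    rcases hrel with ⟨hb2, hconj⟩ | ⟨hb2, hconj⟩ | ⟨hm4, hb2, hconj⟩ | ⟨hm4, hb2, hconj⟩
    · left
      exact ⟨2 ^ n, Cfsg.Agent.H9.nonempty_mulEquiv_dihedralGroup (2 ^ n) (by positivity) ha' hb' hb2 hconj
        (by rw [hcard, pow_succ, mul_comm])⟩
    · right; left
      refine ⟨2 ^ (n - 1), Cfsg.Agent.H9.nonempty_mulEquiv_quaternionGroup (2 ^ (n - 1))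
        (by positivity) ?_ hb' hb2 hconj ?_⟩
      · rw [ha', ← pow_succ']; congr 1; omega
      · rw [hcard]
        have : n + 1 = (n - 1) + 2 := by omega
        rw [this, pow_add]; ring
    · exfalso
      apply hex
      refine ⟨hn2, fun _ => by omega, b', by rw [← hz]; exact hb', 1 + 2 ^ (n - 1), ?_, ⟨1, by push_cast; ring⟩⟩
      have haz : a ∈ Subgroup.zpowers a' := by rw [hz]; exact Subgroup.mem_zpowers a
      obtain ⟨i, hi⟩ := Subgroup.mem_zpowers_iff.mp haz
      have hconj' : b' * a' * b'⁻¹ = a' ^ (1 + 2 ^ (n - 1) : ℤ) := by rw [hconj]; norm_cast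
      have h3 := Cfsg.Agent.MaxClass.conj_zpow_of hconj' i
      rw [← hi, h3, ← zpow_mul, mul_comm]
    · right; right
      refine ⟨n, by omega, hcard, a', b', ha', ?_, hconj⟩
      exact orderOf_eq_prime hb2 (fun h => hb' (by rw [h]; exact one_mem _))

end Cfsg.Agent.S3761
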