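import Cfsg.Statements.S3763
import Cfsg.Agent.H73.ExSp2

set_option autoImplicit false
open Cfsg

namespace Cfsg.Agent.S3763

/-- Let E be an extraspecial 2-group of order 2^(2n+1). Then the largest elementary abelian subgroups of E have order 2^n or 2^(n+1); and two extraspecial 2-groups of the same order whose largest elementary abelian subgroups have the same order are isomorphic. -/
theorem result {E : Type*} [Group E] [Finite E] (hE : Cfsg.IsExtraspecial 2 E) (n : ℕ) (hn : Nat.card E = 2 ^ (2 * n + 1)) : ((Cfsg.PRankLE 2 n E ∧ ¬ Cfsg.PRankLE 2 (n - 1) E) ∨ (Cfsg.PRankLE 2 (n + 1) E ∧ ¬ Cfsg.PRankLE 2 n E)) ∧ ∀ (E' : Type*) [Group E'] [Finite E'], Cfsg.IsExtraspecial 2 E' → Nat.card E' = Nat.card E → (∀ k : ℕ, Cfsg.PRankLE 2 k E ↔ Cfsg.PRankLE 2 k E') → Nonempty (E ≃* E') := by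
  have h2 : Fact (Nat.Prime 2) := ⟨Nat.prime_two⟩
  have hG := Extra.ges_of_isExtraspecial hE
  have hn1 : 1 ≤ n := by
    obtain ⟨m, hm1, hm⟩ := Extra.card_of_isExtraspecial hE
    rw [hn] at hm
    have := Nat.pow_right_injective (le_refl 2) hm
    omega
  refine ⟨?_, ?_⟩
  · rcases H73.ExSp2.rank_cases hG hn1 hn with h | h
    · exact Or.inr h.2
    · exact Or.inl h.2
  · intro E' _ _ hE' hc hr
    have hG' := Extra.ges_of_isExtraspecial hE'
    have hn' := hc.trans hn
    apply H73.ExSp2.iso_of_sq n hG hG' hn hn'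
    rcases H73.ExSp2.rank_cases hG hn1 hn with ⟨h1, h2, h3⟩ | ⟨h1, h2, h3⟩ <;>
    rcases H73.ExSp2.rank_cases hG' hn1 hn' with ⟨h1', h2', h3'⟩ | ⟨h1', h2', h3'⟩
    · omega
    · exact absurd ((hr n).mpr h2') h3
    · exact absurd ((hr n).mp h2) h3'
    · omega

end Cfsg.Agent.S3763
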