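import Cfsg.Statements.S3764
import Cfsg.Agent.HH.GroupC
import Cfsg.Agent.HH.EMod
import Cfsg.Agent.Solv.Frattini
import Cfsg.Agent.H63.PG

set_option autoImplicit false
open Cfsg

namespace Cfsg.Agent.S3764


open Cfsg.Agent.HH
open scoped commutatorElement


/-- Let p, q, r be distinct primes and let X, Q, V be subgroups of a finite group with X of order r, Q an extraspecial q-group normalized by X with C_Q(X) = Z(Q), and V an elementary abelian p-group normalized by X and Q on which XQ acts faithfully ((X ⊔ Q) ∩ C(V) = 1). If C_V(X) = 1, then q = 2, r = 2^n + 1 for some n, and Q has order 2^(2n+1). -/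
theorem result {G : Type*} [Group G] [Finite G] {p q r : ℕ} (hp : p.Prime) (hq : q.Prime) (hr : r.Prime) (hpq : p ≠ q) (hpr : p ≠ r) (hqr : q ≠ r) (X Q V : Subgroup G) (hX : Nat.card X = r) (hQ : Cfsg.IsExtraspecial q ↥Q) (hXQ : X ≤ Subgroup.normalizer (Q : Set G)) (hCQ : Q ⊓ Subgroup.centralizer (X : Set G) = (Subgroup.center ↥Q).map Q.subtype) (hV : Cfsg.IsElementaryAbelian p V) (hXV : X ≤ Subgroup.normalizer (V : Set G)) (hQV : Q ≤ Subgroup.normalizer (V : Set G)) (hfaith : (X ⊔ Q) ⊓ Subgroup.centralizer (V : Set G) = ⊥) (hCV : V ⊓ Subgroup.centralizer (X : Set G) = ⊥) : q = 2 ∧ ∃ n : ℕ, r = 2 ^ n + 1 ∧ Nat.card Q = 2 ^ (2 * n + 1) := by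
  classical
  haveI : Fact p.Prime := ⟨hp⟩
  haveI : Fact q.Prime := ⟨hq⟩
  haveI : Fact r.Prime := ⟨hr⟩
  obtain ⟨x, hxX, hox, hzX⟩ := exists_zpowers_of_card_prime hX
  set Y := X ⊔ Q with hY
  have hYV : Y ≤ Subgroup.normalizer (V : Set G) := sup_le hXV hQV
  obtain ⟨A, _, _, _, ⟨E⟩⟩ := exists_emod hV hYV
  have hinj := E.injective hYV hfaith
  have hxY : x ∈ Y := (le_sup_left : X ≤ Y) hxX
  have hQY : Q ≤ Y := le_sup_right
  set x' : Y := ⟨x, hxY⟩ with hx'
  have hox' : orderOf x' = r ^ 1 := by rw [pow_one, hx', Subgroup.orderOf_mk, hox]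
  set L := Q.subgroupOf Y with hL
  have hQq : IsPGroup q Q := hQ.1.1
  have hLcard : Nat.card L = Nat.card Q := Nat.card_congr (Subgroup.subgroupOfEquivOfLe hQY).toEquiv
  have hLq : IsPGroup q L := by
    obtain ⟨k, hk⟩ := IsPGroup.iff_card.1 hQq
    exact IsPGroup.of_card (n := k) (by rw [hLcard, hk])
  have hxL : x' ∈ Subgroup.normalizer (L : Set Y) := by
    rw [Subgroup.mem_normalizer_iff]
    intro g
    rw [hL, Subgroup.mem_subgroupOf, Subgroup.mem_subgroupOf]
    exact Subgroup.mem_normalizer_iff.1 (hXQ hxX) g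
  have hx0 : x' ^ r ^ (1 - 1) = x' := by rw [Nat.sub_self, pow_zero, pow_one]
  -- center of Q
  have hZ : ∀ g ∈ Q, g ∈ Subgroup.centralizer (X : Set G) → ∀ h ∈ Q, g * h = h * g := by
    intro g hg hgc h hh
    have h1 : g ∈ Q ⊓ Subgroup.centralizer (X : Set G) := ⟨hg, hgc⟩
    rw [hCQ] at h1
    obtain ⟨z, hz, rfl⟩ := h1
    exact (congrArg Subtype.val (Subgroup.mem_center_iff.1 hz ⟨h, hh⟩)).symm
  have hcentx : ∀ g : G, Commute x g → g ∈ Subgroup.centralizer (X : Set G) := by
    intro g hg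
    rw [Subgroup.mem_centralizer_iff]
    intro h hh
    rw [← hzX] at hh
    obtain ⟨k, rfl⟩ := Subgroup.mem_zpowers_iff.1 hh
    exact hg.zpow_left k
  have hcl : ∀ g ∈ Q, ∀ h ∈ Q, ∀ k ∈ Q, ⁅g, h⁆ * k = k * ⁅g, h⁆ := by
    intro g hg h hh k hk
    have h1 : ⁅(⟨g, hg⟩ : Q), (⟨h, hh⟩ : Q)⁆ ∈ Subgroup.center Q := by
      rw [← hQ.1.2.2, _root_.commutator_def]
      exact Subgroup.commutator_mem_commutator (Subgroup.mem_top _) (Subgroup.mem_top _)
    exact (congrArg Subtype.val (Subgroup.mem_center_iff.1 h1 ⟨k, hk⟩)).symm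
  have hcopXQ : (Nat.card X).Coprime (Nat.card Q) := by
    obtain ⟨k, hk⟩ := IsPGroup.iff_card.1 hQq
    rw [hX, hk]
    exact Nat.Coprime.pow_right _ ((Nat.coprime_primes hr hq).2 (Ne.symm hqr))
  have hQX : ⁅Q, X⁆ = Q := by
    have hle : ⁅Q, X⁆ ≤ Q := Subgroup.le_normalizer_iff_commutator_le_left.1 hXQ
    haveI : Group.IsSolvable Q := by
      haveI := IsPGroup.isNilpotent hQq
      infer_instance
    have h2 : (⁅Q, X⁆.subgroupOf Q) ⊔ frattini Q = ⊤ := by
      rw [eq_top_iff]
      intro g _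
      obtain ⟨u, hu, c, hc, huc⟩ := Cop.exists_eq_mul_of_mem hXQ hcopXQ (Or.inr inferInstance) g.2
      have hc' := hc
      rw [hCQ] at hc'
      obtain ⟨z, hz, hzc⟩ := hc'
      have h3 : g = ⟨u, hle hu⟩ * z := Subtype.ext (by
        rw [huc]
        change u * c = u * z
        rw [← hzc]; rfl)
      rw [h3]
      apply mul_mem
      · exact Subgroup.mem_sup_left hu
      · apply Subgroup.mem_sup_right
        rw [hQ.1.2.1]; exact hz
    have h3 := frattini_nongenerating h2
    rw [Subgroup.subgroupOf_eq_top] at h3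
    exact le_antisymm hle h3
  have hLmap : L.map Y.subtype = Q := by
    rw [hL, Subgroup.subgroupOf_map_subtype, inf_eq_left.2 hQY]
  have hxmap : (Subgroup.zpowers x').map Y.subtype = X := by
    rw [MonoidHom.map_zpowers]; exact hzX
  have hcommL : ⁅L, Subgroup.zpowers (x' ^ r ^ (1 - 1))⁆ = L := by
    rw [hx0]
    apply Subgroup.map_injective Y.subtype_injective
    rw [Subgroup.map_commutator, hLmap, hxmap, hQX]
  have hcentL : ∀ g ∈ L, Commute (x' ^ r ^ (1 - 1)) g → ∀ h ∈ L, g * h = h * g := by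
    rw [hx0]
    intro g hg hc h hh
    apply Subtype.ext
    exact hZ g hg (hcentx g (congrArg Subtype.val hc)) h hh
  have hclL : ∀ g ∈ L, ∀ h ∈ L, ∀ k ∈ L, ⁅g, h⁆ * k = k * ⁅g, h⁆ := by
    intro g hg h hh k hk
    apply Subtype.ext
    exact hcl g hg h hh k hk
  have hLne : L ≠ ⊥ := by
    intro h0
    rw [h0, Subgroup.card_bot] at hLcard
    have h1 := hQ.2
    have h2 : Nat.card (Subgroup.center Q) ∣ Nat.card Q := Subgroup.card_subgroup_dvd_card _
    rw [← hLcard, h1, Nat.dvd_one] at h2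
    exact hq.one_lt.ne' h2
  haveI : FiniteDimensional (ZMod p) A := Module.Finite.of_finite
  have hres := all_or_exc (ρ := bc (ZMod p) E.ρ) (Ne.symm hqr) hLq hxL hcommL hcentL hclL hox'
    (cast_ne_zero_bc hq hpq) (cast_ne_zero_bc hr hpr)
    (exists_ne_of_injective (bc_injective _ _ hinj) hLne)
  rcases hres with h1 | ⟨W, k₁, n₀, b, U, R, -, -, hE⟩
  · exfalso
    obtain ⟨v, hv0, hv⟩ := h1 1 (one_pow _)
    obtain ⟨w, hw0, hw⟩ := bc_fixed (ZMod p) E.ρ x' 1 hv0 (by rw [_root_.map_one]; exact hv)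
    rw [one_smul] at hw
    obtain ⟨v', hv', hcomm⟩ := E.fixed hYV x' hw
    have h2 : (v' : G) ∈ V ⊓ Subgroup.centralizer (X : Set G) := ⟨v'.2, hcentx _ hcomm⟩
    rw [hCV, Subgroup.mem_bot] at h2
    have h3 : v' = 1 := Subtype.ext h2
    rw [h3, E.map_one] at hv'
    exact hw0 hv'.symm
  · have hn₀ : n₀ = 1 := by
      have := hE.one_le
      have := hE.le
      omega
    have hb := hE.eq
    rw [hn₀, pow_one] at hb
    have hr2 : r ≠ 2 := by
      rintro rfl
      have h2 : q ^ b = 1 := by omega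
      rw [Nat.pow_eq_one] at h2
      have := hE.b_pos
      rcases h2 with h2 | h2
      · exact hq.one_lt.ne' h2
      · omega
    have hq2 := hE.q_eq hr2
    refine ⟨hq2, b, ?_, ?_⟩
    · rw [← hq2]
      have := hr.pos
      omega
    · -- |Q|
      have hRL : R ≤ L := fun g hg => ((hE.memR g).1 hg).1
      -- the center of L
      have hcardZ : Nat.card (Subgroup.center Q) = q := hQ.2
      -- an element of the center acting trivially
      have hfix : ∀ z ∈ L, (∀ h ∈ L, z * h = h * z) → z ≠ 1 →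
          ¬ (∀ w ∈ U, bc (ZMod p) E.ρ z w = w) := by
        intro z hz hzc hz1 hzU
        obtain ⟨g, hg, hgR⟩ := hE.neR
        apply hgR
        rw [hE.memR]
        refine ⟨hg, ?_⟩
        intro h hh w hw
        -- ⁅g, h⁆ is a power of z
        have hzQ : (⟨(z : G), hz⟩ : Q) ∈ Subgroup.center Q := by
          rw [Subgroup.mem_center_iff]
          intro k
          apply Subtype.ext
          exact (congrArg Subtype.val (hzc ⟨k, hQY k.2⟩ k.2)).symm
        have hcQ : ⁅(⟨(g : G), hg⟩ : Q), (⟨(h : G), hh⟩ : Q)⁆ ∈ Subgroup.center Q := by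
          rw [← hQ.1.2.2, _root_.commutator_def]
          exact Subgroup.commutator_mem_commutator (Subgroup.mem_top _) (Subgroup.mem_top _)
        have hgen : Subgroup.zpowers (⟨(z : G), hz⟩ : Q) = Subgroup.center Q := by
          apply Subgroup.eq_of_le_of_card_ge
          · rw [Subgroup.zpowers_le]; exact hzQ
          · rw [hcardZ, Nat.card_zpowers]
            have h3 : orderOf (⟨(z : G), hz⟩ : Q) ∣ q := by
              have h4 : orderOf (⟨⟨(z : G), hz⟩, hzQ⟩ : Subgroup.center Q) ∣ Nat.card (Subgroup.center Q) := orderOf_dvd_natCard _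
              rwa [Subgroup.orderOf_mk, hcardZ] at h4
            rcases (Nat.dvd_prime hq).1 h3 with h4 | h4
            · exfalso
              rw [orderOf_eq_one_iff] at h4
              apply hz1
              have h5 : (z : G) = 1 := congrArg Subtype.val h4
              exact Subtype.ext h5
            · rw [h4]
        rw [← hgen] at hcQ
        obtain ⟨j, hj⟩ := Subgroup.mem_zpowers_iff.1 hcQ
        have hj' : z ^ j = ⁅g, h⁆ := by
          apply Subtype.ext
          have := congrArg Subtype.val hj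
          exact this
        have h5 : ∀ w ∈ U, bc (ZMod p) E.ρ (z ^ j) w = w := by
          intro w hw
          let F : Subgroup Y :=
            { carrier := {g | ∀ w ∈ U, bc (ZMod p) E.ρ g w = w}
              one_mem' := fun w _ => by rw [_root_.map_one]; rfl
              mul_mem' := by
                intro a b ha hb w hw
                rw [rho_mul, hb w hw, ha w hw]
              inv_mem' := by
                intro a ha w hw
                have h4 := ha w hw
                calc bc (ZMod p) E.ρ a⁻¹ w = bc (ZMod p) E.ρ a⁻¹ (bc (ZMod p) E.ρ a w) := by rw [h4]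
                  _ = w := rho_inv_apply _ _ _ }
          have h6 : z ∈ F := hzU
          exact (F.zpow_mem h6 j) w hw
        have h7 : g * h = ⁅g, h⁆ * (h * g) := by rw [commutatorElement_def]; group
        rw [← rho_mul, h7, ← hj', rho_mul (bc (ZMod p) E.ρ) (z ^ j), h5 _ (by
          rw [rho_mul]; exact hE.invQ _ hh _ (hE.invQ _ hg w hw)), rho_mul]
      have hRc : ∀ g, g ∈ R ↔ g ∈ L ∧ ∀ h ∈ L, g * h = h * g := by
        intro g
        rw [hE.memR]
        constructor
        · rintro ⟨hg, hgR⟩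
          refine ⟨hg, fun h hh => ?_⟩
          by_contra hne
          refine hfix ⁅g, h⁆ ?_ (hclL g hg h hh) ?_ ?_
          · rw [commutatorElement_def]
            exact L.mul_mem (L.mul_mem (L.mul_mem hg hh) (L.inv_mem hg)) (L.inv_mem hh)
          · intro h1
            exact hne (commutatorElement_eq_one_iff_mul_comm.1 h1)
          · intro w hw
            have h1 : ⁅g, h⁆ * (h * g) = g * h := by rw [commutatorElement_def]; group
            have h2 : bc (ZMod p) E.ρ (h * g)⁻¹ w ∈ U := hE.invQ _ (L.inv_mem (L.mul_mem hh hg)) w hw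
            have h3 := hgR h hh _ h2
            have e1 : bc (ZMod p) E.ρ g (bc (ZMod p) E.ρ h (bc (ZMod p) E.ρ (h * g)⁻¹ w)) =
                bc (ZMod p) E.ρ ⁅g, h⁆ w := by
              rw [← rho_mul (bc (ZMod p) E.ρ) g h, ← h1, rho_mul (bc (ZMod p) E.ρ) ⁅g, h⁆ (h * g), rho_apply_inv]
            have e2 : bc (ZMod p) E.ρ h (bc (ZMod p) E.ρ g (bc (ZMod p) E.ρ (h * g)⁻¹ w)) = w := by
              rw [← rho_mul (bc (ZMod p) E.ρ) h g, rho_apply_inv]
            rw [e1, e2] at h3
            exact h3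
        · rintro ⟨hg, hgc⟩
          refine ⟨hg, fun h hh w _ => ?_⟩
          rw [← rho_mul, ← rho_mul, hgc h hh]
      have hcardR : Nat.card R = q := by
        rw [← hcardZ]
        apply Nat.card_congr
        exact {
          toFun := fun g => ⟨⟨(g : Y), hRL g.2⟩, by
            rw [Subgroup.mem_center_iff]
            intro k
            apply Subtype.ext
            exact (congrArg Subtype.val (((hRc g).1 g.2).2 ⟨k, hQY k.2⟩ k.2)).symm⟩
          invFun := fun z => ⟨⟨(z : Q), hQY (z : Q).2⟩, (hRc _).2 ⟨(z : Q).2, by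
            intro h hh
            apply Subtype.ext
            exact (congrArg Subtype.val (Subgroup.mem_center_iff.1 z.2 ⟨(h : G), hh⟩)).symm⟩⟩
          left_inv := fun _ => rfl
          right_inv := fun _ => rfl }
      rw [← hLcard, ← H63.card_mul_relIndex hRL, hcardR, hE.relR, hq2, ← pow_succ']

end Cfsg.Agent.S3764
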