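import Cfsg.Statements.S3765
import Cfsg.Agent.HH.GroupC
import Cfsg.Agent.HH.EMod

set_option autoImplicit false
open Cfsg

namespace Cfsg.Agent.S3765


open Cfsg.Agent.HH


/-- Let p, q, r be distinct primes and let X, Q, V be subgroups of a finite group with X of order r normalizing the q-group Q and acting faithfully on it (X ∩ C(Q) = 1), and V a nontrivial elementary abelian p-group normalized by X and Q on which XQ acts faithfully. If q = 2 and r has the form 2^n + 1, assume in addition that Q is abelian. Then C_V(X) ≠ 1. -/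
theorem result {G : Type*} [Group G] [Finite G] {p q r : ℕ} (hp : p.Prime) (hq : q.Prime) (hr : r.Prime) (hpq : p ≠ q) (hpr : p ≠ r) (hqr : q ≠ r) (X Q V : Subgroup G) (hX : Nat.card X = r) (hQ : IsPGroup q Q) (hXQ : X ≤ Subgroup.normalizer (Q : Set G)) (hXfaith : X ⊓ Subgroup.centralizer (Q : Set G) = ⊥) (hV : Cfsg.IsElementaryAbelian p V) (hV1 : V ≠ ⊥) (hXV : X ≤ Subgroup.normalizer (V : Set G)) (hQV : Q ≤ Subgroup.normalizer (V : Set G)) (hfaith : (X ⊔ Q) ⊓ Subgroup.centralizer (V : Set G) = ⊥) (hexc : q = 2 → (∃ n : ℕ, r = 2 ^ n + 1) → IsMulCommutative Q) : V ⊓ Subgroup.centralizer (X : Set G) ≠ ⊥ := by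
  classical
  haveI : Fact p.Prime := ⟨hp⟩
  haveI : Fact q.Prime := ⟨hq⟩
  haveI : Fact r.Prime := ⟨hr⟩
  obtain ⟨x, hxX, hox, hzX⟩ := exists_zpowers_of_card_prime hX
  set Y := X ⊔ Q with hY
  have hYV : Y ≤ Subgroup.normalizer (V : Set G) := sup_le hXV hQV
  obtain ⟨A, _, _, _, ⟨E⟩⟩ := exists_emod hV hYV
  have hinj := E.injective hYV hfaith
  have hxY : x ∈ Y := (le_sup_left : X ≤ Y) hxX
  have hQY : Q ≤ Y := le_sup_right
  set x' : Y := ⟨x, hxY⟩ with hx'
  have hox' : orderOf x' = r ^ 1 := by rw [pow_one, hx', Subgroup.orderOf_mk, hox]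
  set L := Q.subgroupOf Y with hL
  have hLcard : Nat.card L = Nat.card Q := Nat.card_congr (Subgroup.subgroupOfEquivOfLe hQY).toEquiv
  have hLq : IsPGroup q L := by
    obtain ⟨k, hk⟩ := IsPGroup.iff_card.1 hQ
    exact IsPGroup.of_card (n := k) (by rw [hLcard, hk])
  have hLcop : (Nat.card L).Coprime r := by
    obtain ⟨k, hk⟩ := IsPGroup.iff_card.1 hLq
    rw [hk]
    exact Nat.Coprime.pow_left _ ((Nat.coprime_primes hq hr).2 hqr)
  have hxL : x' ∈ Subgroup.normalizer (L : Set Y) := by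
    rw [Subgroup.mem_normalizer_iff]
    intro g
    rw [hL, Subgroup.mem_subgroupOf, Subgroup.mem_subgroupOf]
    exact Subgroup.mem_normalizer_iff.1 (hXQ hxX) g
  have hx0 : x' ^ r ^ (1 - 1) = x' := by rw [Nat.sub_self, pow_zero, pow_one]
  have hnt : ⁅L, Subgroup.zpowers (x' ^ r ^ (1 - 1))⁆ ≠ ⊥ := by
    rw [hx0]
    intro h0
    rw [Subgroup.commutator_comm, Subgroup.commutator_eq_bot_iff_le_centralizer] at h0
    have h1 := Subgroup.mem_centralizer_iff.1 (h0 (Subgroup.mem_zpowers x'))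
    have h2 : x ∈ X ⊓ Subgroup.centralizer (Q : Set G) := by
      refine ⟨hxX, Subgroup.mem_centralizer_iff.2 ?_⟩
      intro g hg
      exact congrArg Subtype.val (h1 ⟨g, hQY hg⟩ hg)
    rw [hXfaith, Subgroup.mem_bot] at h2
    rw [h2, orderOf_one] at hox
    exact hr.one_lt.ne hox
  obtain ⟨q', hq', Q', hM⟩ := exists_minQ L hLcop hox' hxL hnt
  have hqq : q' = q := by
    obtain ⟨g, hg⟩ := Subgroup.ne_bot_iff_exists_ne_one.1 hM.nt
    obtain ⟨k, hk⟩ := hM.isP g
    obtain ⟨l, hl⟩ := hLq ⟨g, hM.le g.2⟩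
    have hk' : (g : Y) ^ q' ^ k = 1 := congrArg Subtype.val hk
    have hl' : (g : Y) ^ q ^ l = 1 := congrArg Subtype.val hl
    by_contra hne
    have hcop : Nat.Coprime (q' ^ k) (q ^ l) := Nat.Coprime.pow _ _ ((Nat.coprime_primes hq'.out hq).2 hne)
    have h1 : orderOf (g : Y) = 1 := Nat.dvd_one.1 (hcop ▸ Nat.dvd_gcd (orderOf_dvd_of_pow_eq_one hk') (orderOf_dvd_of_pow_eq_one hl'))
    rw [orderOf_eq_one_iff] at h1
    exact hg (Subtype.ext h1)
  subst hqq
  haveI : FiniteDimensional (ZMod p) A := Module.Finite.of_finite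
  have hres := hM.all_or_exc (ρ := bc (ZMod p) E.ρ) hox' (cast_ne_zero_bc hq hpq) (cast_ne_zero_bc hr hpr)
    (bc_injective _ _ hinj)
  rcases hres with h1 | ⟨W, k₁, n₀, b, U, R, -, -, hE⟩
  · obtain ⟨v, hv0, hv⟩ := h1 1 (one_pow _)
    obtain ⟨w, hw0, hw⟩ := bc_fixed (ZMod p) E.ρ x' 1 hv0 (by rw [_root_.map_one]; exact hv)
    rw [one_smul] at hw
    obtain ⟨v', hv', hcomm⟩ := E.fixed hYV x' hw
    intro hbot
    have h2 : (v' : G) ∈ V ⊓ Subgroup.centralizer (X : Set G) := by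
      refine ⟨v'.2, Subgroup.mem_centralizer_iff.2 ?_⟩
      intro h hh
      rw [← hzX] at hh
      obtain ⟨k, rfl⟩ := Subgroup.mem_zpowers_iff.1 hh
      exact (show Commute x (v' : G) from hcomm).zpow_left k
    rw [hbot, Subgroup.mem_bot] at h2
    have h3 : v' = 1 := Subtype.ext h2
    rw [h3, E.map_one] at hv'
    exact hw0 hv'.symm
  · exfalso
    have hn₀ : n₀ = 1 := by
      have := hE.one_le
      have := hE.le
      omega
    have hb := hE.eq
    rw [hn₀, pow_one] at hb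
    have hr2 : r ≠ 2 := by
      rintro rfl
      have h2 : q' ^ b = 1 := by omega
      rw [Nat.pow_eq_one] at h2
      have := hE.b_pos
      rcases h2 with h2 | h2
      · exact hq.one_lt.ne' h2
      · omega
    have hq2 := hE.q_eq hr2
    have hQc : IsMulCommutative Q := hexc hq2 ⟨b, by
      rw [← hq2]
      have := hr.pos
      omega⟩
    obtain ⟨g, hg, k, hk, hne⟩ := hE.noncomm
    apply hne
    apply Subtype.ext
    have h4 : (g : G) ∈ Q := hM.le hg
    have h5 : (k : G) ∈ Q := hM.le hk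
    have h6 : (g : G) * (k : G) = (k : G) * (g : G) :=
      congrArg Subtype.val (hQc.is_comm.comm (⟨(g : G), h4⟩ : Q) ⟨(k : G), h5⟩)
    exact h6

end Cfsg.Agent.S3765
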