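import Cfsg.Statements.S3767
import Cfsg.Agent.HH.CritOn
import Cfsg.Agent.Cop.Basic
import Cfsg.Agent.HH.ThmB

set_option autoImplicit false
open Cfsg

namespace Cfsg.Agent.S3767


open Cfsg.Agent.HH Module

/-- the regular representation on functions -/
noncomputable def regRep (G : Type*) [Group G] : Representation ℂ G (G → ℂ) where
  toFun g :=
    { toFun := fun f x => f (x * g)
      map_add' := fun _ _ => rfl
      map_smul' := fun _ _ => rfl }
  map_one' := by ext f x; simp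
  map_mul' a b := by ext f x; simp [mul_assoc]

theorem regRep_inj {G : Type*} [Group G] (g : G) (h : regRep G g = 1) : g = 1 := by
  classical
  have h2 := congrFun (LinearMap.congr_fun h (Pi.single 1 1)) g⁻¹
  have h3 : (regRep G g (Pi.single 1 1 : G → ℂ)) g⁻¹ = (Pi.single 1 1 : G → ℂ) (g⁻¹ * g) := rfl
  rw [h3, inv_mul_cancel, Pi.single_eq_same, Module.End.one_apply] at h2
  by_contra hne
  rw [Pi.single_eq_of_ne (fun h => hne (inv_eq_one.1 h))] at h2
  exact one_ne_zero h2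

theorem fix_quot {G : Type*} [Group G] [Finite G] {P Z : Subgroup G} {p : ℕ} (hp : p.Prime)
    (hP : IsPGroup p P) (hZP : Z ≤ P) (hZc : ∀ z ∈ Z, ∀ g ∈ P, z * g = g * z) {c : G}
    (hc : c ∈ Subgroup.normalizer (P : Set G)) (hcop : (orderOf c).Coprime p)
    (hZy : ∀ z ∈ Z, z * c = c * z)
    (hfix : P ⊓ Subgroup.centralizer {c} = Z) {g : G} (hg : g ∈ P) (h : c * g * c⁻¹ * g⁻¹ ∈ Z) : g ∈ Z := by
  have hcz : Subgroup.zpowers c ≤ Subgroup.normalizer (P : Set G) := by
    rw [Subgroup.zpowers_le]; exact hc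
  have hcentc : ∀ z ∈ Z, ∀ a ∈ Subgroup.zpowers c, a * z * a⁻¹ = z := by
    intro z hz a ha
    obtain ⟨k, rfl⟩ := Subgroup.mem_zpowers_iff.1 ha
    have h1 : Commute c z := (hZy z hz).symm
    rw [(h1.zpow_left k).eq, mul_inv_cancel_right]
  have hstep : ∀ j : ℕ, c ^ j * g * (c ^ j)⁻¹ * g⁻¹ ∈ Z := by
    intro j
    induction j with
    | zero => simp [Z.one_mem]
    | succ j ih =>
      have h8 : c ^ (j + 1) * g * (c ^ (j + 1))⁻¹ * g⁻¹ =
          (c * (c ^ j * g * (c ^ j)⁻¹ * g⁻¹) * c⁻¹) * (c * g * c⁻¹ * g⁻¹) := by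
        rw [pow_succ']; group
      rw [h8, hcentc _ ih c (Subgroup.mem_zpowers c)]
      exact Z.mul_mem ih h
  haveI : Fact p.Prime := ⟨hp⟩
  obtain ⟨k, hk⟩ := IsPGroup.iff_card.1 hP
  obtain ⟨d, ⟨hdP, hdC⟩, hdZ⟩ := Cop.fixed_points_quotient (Subgroup.zpowers c) P hcz
    (by rw [Nat.card_zpowers, hk]; exact Nat.Coprime.pow_right _ hcop) (Or.inl inferInstance) Z hZP (by
      intro x hx
      rw [Subgroup.mem_normalizer_iff]
      intro g
      constructor
      · intro hg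
        rw [← hZc g hg x hx, mul_inv_cancel_right]; exact hg
      · intro hg
        have h1 := hZc _ hg x hx
        have h2 : x * g * x⁻¹ = g := by
          have h3 : x * g * x⁻¹ * x = x * (x * g * x⁻¹) := h1
          have h4 : x * g * x⁻¹ * x = x * g := by group
          rw [h4] at h3
          exact (mul_left_cancel h3).symm
        rwa [h2] at hg) (by
      intro x hx
      rw [Subgroup.mem_normalizer_iff]
      intro g
      constructor
      · intro hg
        rw [hcentc g hg x hx]; exact hg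
      · intro hg
        have h1 := hcentc _ hg x⁻¹ (Subgroup.inv_mem _ hx)
        have h2 : x⁻¹ * (x * g * x⁻¹) * x⁻¹⁻¹ = g := by group
        rw [h2] at h1
        rw [h1]; exact hg) g hg (by
      intro a ha
      obtain ⟨j, hj⟩ := (Submonoid.mem_powers_iff a c).1 ((isOfFinOrder_of_finite c).mem_powers_iff_mem_zpowers.2 ha)
      rw [← hj]
      exact hstep j)
  have hd : d ∈ Z := by
    rw [← hfix]
    refine ⟨hdP, Subgroup.mem_centralizer_iff.2 ?_⟩
    intro x hx
    rw [Set.mem_singleton_iff.1 hx]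
    exact Subgroup.mem_centralizer_iff.1 hdC c (Subgroup.mem_zpowers c)
  have h9 : g⁻¹ * d * d⁻¹ ∈ Z := Z.mul_mem hdZ (Z.inv_mem hd)
  rw [mul_inv_cancel_right] at h9
  simpa using Z.inv_mem h9

/-- Let P be an extraspecial p-group of order p^(2n+1) and H a cyclic group of order h prime to p acting on P (inside a common finite group: H normalizes P) so that C_P(x) = Z(P) for every non-identity x ∈ H. Then h divides p^n + 1 or h divides p^n − 1. -/
theorem result {G : Type*} [Group G] [Finite G] {p : ℕ} [Fact p.Prime] (P H : Subgroup G) (hP : Cfsg.IsExtraspecial p ↥P) (n : ℕ) (hn : Nat.card P = p ^ (2 * n + 1)) (hH : IsCyclic H) (hcop : (Nat.card H).Coprime p) (hHP : H ≤ Subgroup.normalizer (P : Set G)) (hfix : ∀ x ∈ H, x ≠ 1 → P ⊓ Subgroup.centralizer {x} = (Subgroup.center ↥P).map P.subtype) : Nat.card H ∣ p ^ n + 1 ∨ Nat.card H ∣ p ^ n - 1 := by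
  classical
  have hp : p.Prime := Fact.out
  rcases eq_or_ne (Nat.card H) 1 with h1 | h1
  · left; rw [h1]; exact one_dvd _
  obtain ⟨y0, hy0⟩ := hH.exists_generator
  obtain ⟨y, hy⟩ : ∃ y : G, y = (y0 : G) := ⟨_, rfl⟩
  have hyH : y ∈ H := hy ▸ y0.2
  have hyz : Subgroup.zpowers y = H := by
    apply le_antisymm
    · rw [Subgroup.zpowers_le]; exact hyH
    · intro x hx
      obtain ⟨k, hk⟩ := Subgroup.mem_zpowers_iff.1 (hy0 ⟨x, hx⟩)
      rw [Subgroup.mem_zpowers_iff]
      exact ⟨k, by rw [hy]; exact congrArg Subtype.val hk⟩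
  have hoy : orderOf y = Nat.card H := by rw [← hyz, Nat.card_zpowers]
  have hy1 : y ≠ 1 := by
    rintro rfl
    rw [orderOf_one] at hoy
    exact h1 hoy.symm
  obtain ⟨Z, hZ⟩ : ∃ Z : Subgroup G, Z = (Subgroup.center P).map P.subtype := ⟨_, rfl⟩
  have hZP : Z ≤ P := by
    rw [hZ]; rintro _ ⟨z, -, rfl⟩; exact z.2
  have hZc : ∀ z ∈ Z, ∀ g ∈ P, z * g = g * z := by
    intro z hz g hg
    rw [hZ] at hz
    obtain ⟨z, hz, rfl⟩ := hz
    exact (congrArg Subtype.val (Subgroup.mem_center_iff.1 hz ⟨g, hg⟩)).symm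
  have hZcard : Nat.card Z = p := by
    rw [hZ, ← hP.2]
    exact Nat.card_congr ((Subgroup.center P).equivMapOfInjective _ P.subtype_injective).symm.toEquiv
  have hfix' : ∀ x ∈ H, x ≠ 1 → P ⊓ Subgroup.centralizer {x} = Z := by rw [hZ]; exact hfix
  have hZH : ∀ z ∈ Z, ∀ x ∈ H, z * x = x * z := by
    intro z hz x hx
    by_cases hx1 : x = 1
    · rw [hx1, mul_one, one_mul]
    rw [← hfix' x hx hx1] at hz
    exact (Subgroup.mem_centralizer_iff.1 hz.2 x rfl).symm
  have hcomm : ∀ g ∈ P, ∀ h ∈ P, h * g * h⁻¹ * g⁻¹ ∈ Z := by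
    intro g hg h hh
    have h2 : (⟨h, hh⟩ : P) * ⟨g, hg⟩ * (⟨h, hh⟩ : P)⁻¹ * (⟨g, hg⟩ : P)⁻¹ ∈ Subgroup.center P := by
      rw [← hP.1.2.2]
      exact Subgroup.commutator_mem_commutator (Subgroup.mem_top _) (Subgroup.mem_top _)
    rw [hZ]
    exact ⟨_, h2, rfl⟩
  -- the representation
  obtain ⟨ρ, hρ⟩ : ∃ ρ : Representation ℂ G (G → ℂ), ρ = regRep G := ⟨_, rfl⟩
  have hinj : ∀ g, ρ g = 1 → g = 1 := by
    intro g hg
    exact regRep_inj g (hρ ▸ hg)
  obtain ⟨z, hzZ, hz1⟩ : ∃ z ∈ Z, z ≠ 1 := by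
    by_contra hcon
    push Not at hcon
    have : Z = ⊥ := (Subgroup.eq_bot_iff_forall _).2 hcon
    rw [this, Subgroup.card_bot] at hZcard
    exact hp.one_lt.ne hZcard
  set T := ρ z - 1 with hT
  have hTcomm : ∀ g ∈ P ⊔ Subgroup.zpowers y, ∀ w, T (ρ g w) = ρ g (T w) := by
    intro g hg w
    have h2 : z * g = g * z := by
      have h3 : P ⊔ Subgroup.zpowers y ≤ Subgroup.centralizer {z} := by
        apply sup_le
        · intro g hg
          rw [Subgroup.mem_centralizer_iff]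
          intro x hx
          rw [Set.mem_singleton_iff.1 hx]; exact hZc z hzZ g hg
        · rw [Subgroup.zpowers_le, Subgroup.mem_centralizer_iff]
          intro x hx
          rw [Set.mem_singleton_iff.1 hx]; exact hZH z hzZ y hyH
      exact Subgroup.mem_centralizer_iff.1 (h3 hg) z rfl
    rw [hT, LinearMap.sub_apply, LinearMap.sub_apply, Module.End.one_apply, Module.End.one_apply, map_sub,
      ← rho_mul, ← rho_mul, h2]
  have hV' : LinearMap.range T ≠ ⊥ := by
    intro h2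
    rw [LinearMap.range_eq_bot] at h2
    exact hz1 (hinj z (sub_eq_zero.1 h2))
  obtain ⟨U, hUV, hU⟩ := exists_irrOn ρ P y hV' (by
    rintro g hg _ ⟨w, rfl⟩
    exact ⟨ρ g w, hTcomm g (Subgroup.mem_sup_left hg) w⟩) (by
    rintro _ ⟨w, rfl⟩
    exact ⟨ρ y w, hTcomm y (Subgroup.mem_sup_right (Subgroup.mem_zpowers y)) w⟩)
  have hr1 : ∀ g ∈ Z, ∃ c : ℂ, ∀ w ∈ U, ρ g w = c • w := by
    intro g hg
    apply hU.schur (ρ g) (hU.invQ g (hZP hg))
    · intro h hh w hw
      rw [← rho_mul, ← rho_mul, hZc g hg h hh]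
    · intro w hw
      rw [← rho_mul, ← rho_mul, hZH g hg y hyH]
  obtain ⟨u₀, hu₀, hu₀0⟩ := (Submodule.ne_bot_iff _).1 hU.ne
  have hnt : ∀ g ∈ Z, g ≠ 1 → ∀ c : ℂ, (∀ w ∈ U, ρ g w = c • w) → c ≠ 1 := by
    intro g hg hg1 c hc hc1
    have h2 : z ∈ Subgroup.zpowers g := by
      haveI : Fact (Nat.card Z).Prime := ⟨by rw [hZcard]; exact hp⟩
      have h3 : (⟨z, hzZ⟩ : Z) ∈ Subgroup.zpowers (⟨g, hg⟩ : Z) := by
        have : Nat.card Z = p := hZcard
        haveI : Fact p.Prime := ⟨hp⟩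
        exact mem_zpowers_of_prime_card hZcard (fun h => hg1 (congrArg Subtype.val h))
      obtain ⟨k, hk⟩ := Subgroup.mem_zpowers_iff.1 h3
      exact Subgroup.mem_zpowers_iff.2 ⟨k, congrArg Subtype.val hk⟩
    have h3 : ρ z u₀ = u₀ := by
      obtain ⟨k, hk⟩ := (Submonoid.mem_powers_iff z g).1 ((isOfFinOrder_of_finite g).mem_powers_iff_mem_zpowers.2 h2)
      rw [← hk]
      clear hk
      induction k with
      | zero => rw [pow_zero, map_one]; rfl
      | succ j ih => rw [pow_succ', rho_mul, ih, hc u₀ hu₀, hc1, one_smul]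
    obtain ⟨w, hw⟩ := hUV hu₀
    have h4 : ρ z w = w + u₀ := by
      rw [← hw, hT, LinearMap.sub_apply, Module.End.one_apply, add_sub_cancel]
    have h5 : ∀ k : ℕ, ρ (z ^ k) w = w + (k : ℂ) • u₀ := by
      intro k
      induction k with
      | zero => rw [pow_zero, map_one]; simp
      | succ j ih =>
        rw [pow_succ', rho_mul, ih, map_add, map_smul, h3, h4]
        push_cast
        rw [add_smul, one_smul]; abel
    have h6 := h5 (orderOf z)
    rw [pow_orderOf_eq_one, map_one, Module.End.one_apply] at h6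
    have h7 : (orderOf z : ℂ) • u₀ = 0 := by
      have := h6.symm
      rwa [add_eq_left] at this
    rcases smul_eq_zero.1 h7 with h8 | h8
    · exact (orderOf_pos z).ne' (by exact_mod_cast h8)
    · exact hu₀0 h8
  have hcoc : ∀ c ∈ H, (orderOf c).Coprime p := fun c hc =>
    Nat.Coprime.coprime_dvd_left (Subgroup.orderOf_dvd_natCard H hc) hcop
  have hr3 : ∀ g ∈ P, ∀ h ∈ P, ∃ c : ℂ, ∀ w ∈ U, ρ (h * g * h⁻¹) w = c • ρ g w := by
    intro g hg h hh
    obtain ⟨c, hc⟩ := hr1 _ (hcomm g hg h hh)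
    refine ⟨c, fun w hw => ?_⟩
    have := hc _ (hU.invQ g hg w hw)
    rwa [← rho_mul, inv_mul_cancel_right] at this
  have hcrit := hU.crit (Q := P) (R := Z) (y := y) (by
      exact_mod_cast Nat.card_pos.ne') (by exact_mod_cast (orderOf_pos y).ne') (hHP hyH) hZP hr1 (by
      intro g hg hgZ
      obtain ⟨h, hh⟩ : ∃ h : P, h * ⟨g, hg⟩ ≠ ⟨g, hg⟩ * h := by
        by_contra hcon
        push Not at hcon
        apply hgZ
        rw [hZ]
        exact ⟨⟨g, hg⟩, Subgroup.mem_center_iff.2 hcon, rfl⟩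
      have h2 := hcomm g hg h h.2
      obtain ⟨c, hc⟩ := hr1 _ h2
      refine ⟨h, h.2, c, hnt _ h2 ?_ c hc, fun w hw => ?_⟩
      · intro h3
        apply hh
        apply Subtype.ext
        change (h : G) * g = g * (h : G)
        rw [mul_inv_eq_one, mul_inv_eq_iff_eq_mul] at h3
        exact h3
      · have := hc _ (hU.invQ g hg w hw)
        rwa [← rho_mul, inv_mul_cancel_right] at this) hr3 (by
      intro g hg h2
      apply fix_quot hp hP.1.1 hZP hZc (hHP hyH) (hcoc y hyH) (fun z hz => hZH z hz y hyH) (hfix' y hyH hy1) hg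
      have h3 := Z.inv_mem h2
      have h4 : (g * y * g⁻¹ * y⁻¹)⁻¹ = y * g * y⁻¹ * g⁻¹ := by group
      rwa [h4] at h3) (by
      intro c hc hc1 g hg h2
      rw [hyz] at hc
      apply fix_quot hp hP.1.1 hZP hZc (hHP hc) (hcoc c hc) (fun z hz => hZH z hz c hc) (hfix' c hc hc1) hg
      have h3 := hZc _ h2 g hg
      have h4 : c * g * c⁻¹ * g⁻¹ = g⁻¹ * (c * g * c⁻¹) := by
        have : g⁻¹ * (c * g * c⁻¹) * g = c * g * c⁻¹ := by rw [h3]; group
        exact (eq_mul_inv_of_mul_eq this).symm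
      rw [h4]; exact h2)
  obtain ⟨h2, m, hm1, hm2⟩ := hcrit
  have h3 : finrank ℂ U = p ^ n := by
    have h4 : p * Z.relIndex P = p ^ (2 * n + 1) := by
      have := Subgroup.relIndex_mul_relIndex ⊥ Z P bot_le hZP
      rwa [Subgroup.relIndex_bot_left, Subgroup.relIndex_bot_left, hZcard, hn] at this
    rw [h2, pow_succ' p, Nat.mul_left_cancel_iff hp.pos, mul_comm 2 n, pow_mul p] at h4
    exact Nat.pow_left_injective (by norm_num) h4
  rw [← h3, ← hoy]
  exact dvd_of_sum_sq m (orderOf_pos y) hm1 hm2 (by rw [h3]; exact (hcoc y hyH).pow_right n)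

end Cfsg.Agent.S3767
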