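import Cfsg.Statements.S3768
import Cfsg.Agent.Frob.Basic
import Cfsg.Agent.Frob.Kernel

set_option autoImplicit false
open Cfsg

namespace Cfsg.Agent.S3768

open Subgroup

/-- Let G be a finite Frobenius group with Frobenius complement R and Frobenius kernel K (the identity together with the elements in no conjugate of R), and let N be a normal subgroup of G not containing K. Then G/N is a Frobenius group with Frobenius complement RN/N whose Frobenius kernel is the image of K. -/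
theorem result {G : Type*} [Group G] [Finite G] (R : Subgroup G) (hR : Cfsg.IsFrobeniusComplement R) (N : Subgroup G) [N.Normal] (hKN : ¬ Cfsg.frobeniusKernel R ⊆ N) : Cfsg.IsFrobeniusComplement (R.map (QuotientGroup.mk' N)) ∧ Cfsg.frobeniusKernel (R.map (QuotientGroup.mk' N)) = QuotientGroup.mk' N '' Cfsg.frobeniusKernel R := by
  classical
  obtain ⟨K, hKset, hKn, hKR⟩ := Frob.exists_normal_complement hR
  have hKb : K ≠ ⊥ := by
    rintro rfl
    rw [Subgroup.isComplement'_bot_left] at hKR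
    exact hR.2.1 hKR
  have hfpf := (Frob.isFrobeniusComplement_iff_fpf hKR hKb hR.1).1 hR
  have hKRdis : K ⊓ R = ⊥ := hKR.disjoint.eq_bot
  have hKRsup : K ⊔ R = ⊤ := hKR.sup_eq_top
  have hKN' : ¬ K ≤ N := by
    intro h
    apply hKN
    rw [← hKset]
    exact h
  -- the element-wise fixed point free condition
  have hfix : ∀ r ∈ R, r ≠ 1 → ∀ k ∈ K, r * k * r⁻¹ = k → k = 1 := by
    intro r hr hr1 k hk hc
    have h1 : k ∈ K ⊓ centralizer {r} := by
      refine ⟨hk, ?_⟩
      apply mem_centralizer_singleton_iff.2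
      exact (mul_inv_eq_iff_eq_mul.1 hc).symm
    rw [hfpf r hr hr1, mem_bot] at h1
    exact h1
  -- surjectivity of n ↦ n⁻¹ (r n r⁻¹) on r-invariant subgroups of K
  have hsurj : ∀ r ∈ R, r ≠ 1 → ∀ M : Subgroup G, M.Normal → M ≤ K → ∀ m ∈ M,
      ∃ n ∈ M, n⁻¹ * (r * n * r⁻¹) = m := by
    intro r hr hr1 M hM hMK m hm
    let f : M → M := fun n => ⟨(n : G)⁻¹ * (r * n * r⁻¹), M.mul_mem (M.inv_mem n.2) (hM.conj_mem _ n.2 r)⟩
    have hf : Function.Injective f := by
      intro n m' h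
      have h1 : (n : G)⁻¹ * (r * n * r⁻¹) = (m' : G)⁻¹ * (r * m' * r⁻¹) := congrArg Subtype.val h
      have h2 : r * ((m' : G) * (n : G)⁻¹) * r⁻¹ = (m' : G) * (n : G)⁻¹ := by
        have h3 : r * (m' : G) * r⁻¹ = m' * ((n : G)⁻¹ * (r * n * r⁻¹)) := by rw [h1]; group
        have h4 : r * ((m' : G) * (n : G)⁻¹) * r⁻¹ = (r * (m' : G) * r⁻¹) * (r * n * r⁻¹)⁻¹ := by group
        rw [h4, h3]; group
      have h5 := hfix r hr hr1 _ (hMK (M.mul_mem m'.2 (M.inv_mem n.2))) h2
      exact Subtype.ext (mul_inv_eq_one.1 h5).symm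
    obtain ⟨n, hn⟩ := (Finite.injective_iff_surjective.1 hf) ⟨m, hm⟩
    exact ⟨n, n.2, congrArg Subtype.val hn⟩
  -- N ≤ K
  have hNK : N ≤ K := by
    by_contra hcon
    obtain ⟨x, hxN, hxK⟩ := SetLike.not_le_iff_exists.1 hcon
    obtain ⟨g, hg⟩ := Frob.exists_conj_mem_of_not_mem hR hKR hxK
    set r := g⁻¹ * x * g with hr
    have hrN : r ∈ N := by
      have := (inferInstance : N.Normal).conj_mem x hxN g⁻¹
      rwa [inv_inv] at this
    have hr1 : r ≠ 1 := by
      intro h
      have : x = 1 := by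
        have h2 : x = g * r * g⁻¹ := by rw [hr]; group
        rw [h2, h]; group
      exact hxK (this ▸ K.one_mem)
    apply hKN'
    intro k hk
    obtain ⟨n, hn, hnk⟩ := hsurj r hg hr1 K hKn le_rfl k hk
    rw [← hnk]
    have h3 : n⁻¹ * (r * n * r⁻¹) = (n⁻¹ * r * n⁻¹⁻¹) * r⁻¹ := by group
    rw [h3]
    exact N.mul_mem ((inferInstance : N.Normal).conj_mem r hrN n⁻¹) (N.inv_mem hrN)
  set π := QuotientGroup.mk' N with hπ
  have hπs : Function.Surjective π := QuotientGroup.mk'_surjective N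
  have hKn' : (K.map π).Normal := hKn.map π hπs
  have hmemK : ∀ x : G, π x ∈ K.map π ↔ x ∈ K := by
    intro x
    constructor
    · rintro ⟨k, hk, hkx⟩
      have h1 : k⁻¹ * x ∈ N := QuotientGroup.eq.1 hkx
      have h2 : x = k * (k⁻¹ * x) := by group
      rw [h2]
      exact K.mul_mem hk (hNK h1)
    · intro h
      exact ⟨x, h, rfl⟩
  have hcomp : Subgroup.IsComplement' (K.map π) (R.map π) := by
    apply Subgroup.isComplement'_of_disjoint_and_mul_eq_univ
    · rw [disjoint_iff, eq_bot_iff]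
      rintro _ ⟨h1, r, hr, rfl⟩
      replace h1 := (hmemK r).1 h1
      have h2 : r ∈ K ⊓ R := ⟨h1, hr⟩
      rw [hKRdis, mem_bot] at h2
      rw [h2, map_one]; exact one_mem _
    · have h1 : K.map π ⊔ R.map π = ⊤ := by
        rw [← Subgroup.map_sup, hKRsup, Subgroup.map_top_of_surjective π hπs]
      rw [← Subgroup.normal_mul, h1]; rfl
  have hKb' : K.map π ≠ ⊥ := by
    intro h
    rw [Subgroup.map_eq_bot_iff, hπ, QuotientGroup.ker_mk'] at h
    exact hKN' h
  have hRb' : R.map π ≠ ⊥ := by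
    intro h
    rw [Subgroup.map_eq_bot_iff, hπ, QuotientGroup.ker_mk'] at h
    apply hR.1
    rw [← hKRdis, eq_comm, inf_eq_right]
    exact h.trans hNK
  have hF : Cfsg.IsFrobeniusComplement (R.map π) := by
    rw [Frob.isFrobeniusComplement_iff_fpf hcomp hKb' hRb']
    rintro _ ⟨r, hr, rfl⟩ hr1
    rw [eq_bot_iff]
    rintro _ ⟨⟨k, hk, rfl⟩, hc⟩
    have hr1' : r ≠ 1 := fun h => hr1 (by rw [h, map_one])
    replace hc := mem_centralizer_singleton_iff.1 hc
    have h1 : k * (r * k * r⁻¹)⁻¹ ∈ N := by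
      rw [← QuotientGroup.eq_one_iff]
      have : π (k * (r * k * r⁻¹)⁻¹) = π k * (π r * π k * (π r)⁻¹)⁻¹ := by
        simp only [map_mul, map_inv]
      have h2 : π (k * (r * k * r⁻¹)⁻¹) = 1 := by
        rw [this, ← hc]; group
      exact h2
    obtain ⟨n, hn, hnk⟩ := hsurj r hr hr1' N inferInstance hNK _ h1
    have h2 : r * (n * k) * r⁻¹ = n * k := by
      have h3 : r * n * r⁻¹ = n * (k * (r * k * r⁻¹)⁻¹) := by rw [← hnk]; group
      have h4 : r * (n * k) * r⁻¹ = (r * n * r⁻¹) * (r * k * r⁻¹) := by group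
      rw [h4, h3]; group
    have h5 := hfix r hr hr1' (n * k) (K.mul_mem (hNK hn) hk) h2
    rw [mem_bot]
    apply (QuotientGroup.eq_one_iff k).2
    have h6 : k = n⁻¹ := (inv_eq_of_mul_eq_one_right h5).symm
    rw [h6]; exact N.inv_mem hn
  refine ⟨hF, ?_⟩
  rw [← Frob.coe_eq_frobeniusKernel hF hcomp, ← hKset]
  rfl

end Cfsg.Agent.S3768
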