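import Cfsg.Statements.S3769
import Cfsg.Agent.HH.FixC
import Cfsg.Agent.H63.PG

set_option autoImplicit false
open Cfsg

namespace Cfsg.Agent.S3769


open Cfsg.Agent.HH


/-- Let G and V be subgroups of a finite group with G solvable of odd order normalizing V, V an elementary abelian ℓ-group for a prime ℓ not dividing the order of G, and suppose G has a normal Hall subgroup K with a complement R of prime order. If C_V(R) = 1, then [R, K] centralizes V. -/
theorem result {X : Type*} [Group X] [Finite X] (G : Subgroup X) (hsolv : Group.IsSolvable G) (hodd : Odd (Nat.card G)) (V : Subgroup X) {ℓ : ℕ} (hℓ : ℓ.Prime) (hV : Cfsg.IsElementaryAbelian ℓ V) (hℓG : ¬ ℓ ∣ Nat.card G) (hGV : G ≤ Subgroup.normalizer (V : Set X)) (K R : Subgroup X) (hKG : K ≤ G) (hKn : G ≤ Subgroup.normalizer (K : Set X)) (hHall : (Nat.card K).Coprime (K.relIndex G)) (hRG : R ≤ G) (hR : (Nat.card R).Prime) (hKR : K ⊓ R = ⊥) (hKRG : K ⊔ R = G) (hCV : V ⊓ Subgroup.centralizer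 (R : Set X) = ⊥) : ⁅R, K⁆ ≤ Subgroup.centralizer (V : Set X) := by
  classical
  haveI : Fact ℓ.Prime := ⟨hℓ⟩
  set r := Nat.card R with hr
  haveI : Fact r.Prime := ⟨hR⟩
  obtain ⟨x, hxR, hox, hzR⟩ := exists_zpowers_of_card_prime (H := R) (r := r) rfl
  obtain ⟨A, _, _, _, ⟨E⟩⟩ := exists_emod hV hGV
  set x' : G := ⟨x, hRG hxR⟩ with hx'
  have hox' : orderOf x' = r ^ 1 := by rw [pow_one, hx', Subgroup.orderOf_mk, hox]
  set L := K.subgroupOf G with hL
  have hLcard : Nat.card L = Nat.card K := Nat.card_congr (Subgroup.subgroupOfEquivOfLe hKG).toEquiv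
  have hKnR : R ≤ Subgroup.normalizer (K : Set X) := hRG.trans hKn
  have hrel : K.relIndex G = r := by
    rw [← hKRG, sup_comm, Cop.relIndex_sup_eq hKnR, ← Subgroup.inf_relIndex_right, hKR, Subgroup.relIndex_bot_left]
  have hcop : (Nat.card L).Coprime r := by rw [hLcard, ← hrel]; exact hHall
  have hLG : Nat.card L ∣ Nat.card G := Subgroup.card_subgroup_dvd_card L
  have hRG' : r ∣ Nat.card G := Subgroup.card_dvd_of_le hRG
  have hLl : ¬ ℓ ∣ Nat.card L := fun h => hℓG (h.trans hLG)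
  have hlr : ℓ ≠ r := by rintro h; exact hℓG (h ▸ hRG')
  have hxL : x' ∈ Subgroup.normalizer (L : Set G) := by
    rw [Subgroup.mem_normalizer_iff]
    intro g
    rw [hL, Subgroup.mem_subgroupOf, Subgroup.mem_subgroupOf]
    exact Subgroup.mem_normalizer_iff.1 (hKnR hxR) g
  have hx0 : x' ^ r ^ (1 - 1) = x' := by rw [Nat.sub_self, pow_zero, pow_one]
  by_contra hcon
  have hnt : ∃ g ∈ ⁅L, Subgroup.zpowers (x' ^ r ^ (1 - 1))⁆, E.ρ g ≠ 1 := by
    rw [hx0]
    by_contra hcon2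
    push Not at hcon2
    apply hcon
    have h1 : (⁅L, Subgroup.zpowers x'⁆).map G.subtype = ⁅R, K⁆ := by
      rw [Subgroup.map_commutator, MonoidHom.map_zpowers, hL, Subgroup.subgroupOf_map_subtype,
        inf_eq_left.2 hKG, Subgroup.commutator_comm]
      congr 1
    rw [← h1]
    rintro _ ⟨g, hg, rfl⟩
    rw [Subgroup.mem_centralizer_iff]
    intro v hv
    have h2 : (g : X) * v * (g : X)⁻¹ ∈ V := (Subgroup.mem_normalizer_iff.1 (hGV g.2) v).1 hv
    have h3 := E.equiv g ⟨v, hv⟩ ⟨_, h2⟩ rfl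
    rw [hcon2 g hg] at h3
    have h4 := congrArg Subtype.val (E.bij.1 h3)
    have h5 : (g : X) * v * (g : X)⁻¹ = v := h4
    rw [mul_inv_eq_iff_eq_mul] at h5
    exact h5.symm
  rcases fixed_or_prime E.ρ hox' L hcop hLl hlr hxL hnt with h1 | ⟨q, n₀, b, hq, hqL, hn₀, hn₀', hb, heq⟩
  · obtain ⟨v, hv0, hv⟩ := h1 1 (one_pow _)
    rw [one_smul] at hv
    obtain ⟨v', hv', hcomm⟩ := E.fixed hGV x' hv
    have h2 : (v' : X) ∈ V ⊓ Subgroup.centralizer (R : Set X) := by
      refine ⟨v'.2, Subgroup.mem_centralizer_iff.2 ?_⟩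
      intro h hh
      rw [← hzR] at hh
      obtain ⟨k, rfl⟩ := Subgroup.mem_zpowers_iff.1 hh
      exact (show Commute x (v' : X) from hcomm).zpow_left k
    rw [hCV, Subgroup.mem_bot] at h2
    have h3 : v' = 1 := Subtype.ext h2
    rw [h3, E.map_one] at hv'
    exact hv0 hv'.symm
  · have hn : n₀ = 1 := by omega
    rw [hn, pow_one] at heq
    have hrodd : Odd r := Odd.of_dvd_nat hodd hRG'
    have hqodd : Odd q := Odd.of_dvd_nat hodd (hqL.trans hLG)
    have h1 : Odd (q ^ b) := hqodd.pow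
    rw [← heq] at h1
    obtain ⟨c, hc⟩ := hrodd
    obtain ⟨d, hd⟩ := h1
    omega

end Cfsg.Agent.S3769
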