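import Cfsg.Statements.S3770
import Cfsg.Agent.S0042
import Cfsg.Agent.HH.GroupC
import Cfsg.Agent.HH.EMod
import Cfsg.Agent.HH.ThmB
import Cfsg.Agent.Cop.Basic

set_option autoImplicit false
open Cfsg

namespace Cfsg.Agent.S3770


open Cfsg.Agent.HH Module
open scoped TensorProduct commutatorElement

section

universe u v w

variable {K : Type w} [Field K] {V : Type v} [AddCommGroup V] [Module K V]
variable {G : Type u} [Group G] {ρ : Representation K G V}

theorem exists_nofix_norm (ρ : Representation K G V) (Q : Subgroup G) [Finite Q]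
    (hQK : (Nat.card Q : K) ≠ 0) (hnt : ∃ g ∈ Q, ρ g ≠ 1) :
    ∃ W : Submodule K V, W ≠ ⊥ ∧ (∀ g ∈ Subgroup.normalizer (Q : Set G), ∀ w ∈ W, ρ g w ∈ W) ∧
      ∀ w ∈ W, (∀ g ∈ Q, ρ g w = w) → w = 0 := by
  classical
  haveI := Fintype.ofFinite Q
  set e : Module.End K V := ∑ g : Q, ρ (g : G) with he
  have heQ : ∀ k ∈ Q, e * ρ k = e := by
    intro k hk
    rw [he, Finset.sum_mul]
    conv_rhs => rw [← Equiv.sum_comp (Equiv.mulRight (⟨k, hk⟩ : Q))]
    apply Finset.sum_congr rfl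
    intro g _
    rw [← map_mul]; rfl
  have hey : ∀ y ∈ Subgroup.normalizer (Q : Set G), e * ρ y = ρ y * e := by
    intro y hy
    have hyQ : ∀ g ∈ Q, y * g * y⁻¹ ∈ Q := fun g hg => (Subgroup.mem_normalizer_iff.1 hy g).1 hg
    have hyQ' : ∀ g ∈ Q, y⁻¹ * g * y ∈ Q := fun g hg => (Subgroup.mem_normalizer_iff''.1 hy g).1 hg
    let f : Q ≃ Q :=
      { toFun := fun g => ⟨y * g * y⁻¹, hyQ g g.2⟩
        invFun := fun g => ⟨y⁻¹ * g * y, hyQ' g g.2⟩
        left_inv := fun g => Subtype.ext (by change y⁻¹ * (y * (g : G) * y⁻¹) * y = g; group)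
        right_inv := fun g => Subtype.ext (by change y * (y⁻¹ * (g : G) * y) * y⁻¹ = g; group) }
    rw [he, Finset.sum_mul, Finset.mul_sum, ← Equiv.sum_comp f]
    apply Finset.sum_congr rfl
    intro g _
    rw [← map_mul, ← map_mul]
    congr 1
    change y * (g : G) * y⁻¹ * y = y * g
    group
  refine ⟨LinearMap.ker e, ?_, ?_, ?_⟩
  · intro h0
    obtain ⟨g, hg, hne⟩ := hnt
    apply hne
    have h1 : e * (ρ g - 1) = 0 := by rw [mul_sub, heQ g hg, mul_one, sub_self]
    have h2 : ρ g - 1 = 0 := by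
      apply LinearMap.ext
      intro v
      have h3 : (ρ g - 1) v ∈ LinearMap.ker e := by
        rw [LinearMap.mem_ker]
        exact LinearMap.congr_fun h1 v
      rw [h0, Submodule.mem_bot] at h3
      exact h3
    exact sub_eq_zero.1 h2
  · intro g hg w hw
    rw [LinearMap.mem_ker] at hw ⊢
    have h1 := LinearMap.congr_fun (hey g hg) w
    rw [Module.End.mul_apply, Module.End.mul_apply, hw, map_zero] at h1
    exact h1
  · intro w hw hfix
    rw [LinearMap.mem_ker, he, LinearMap.sum_apply, Finset.sum_congr rfl (fun (g : Q) _ => hfix g g.2),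
      Finset.sum_const, Finset.card_univ, ← Nat.card_eq_fintype_card, ← Nat.cast_smul_eq_nsmul K] at hw
    rcases smul_eq_zero.1 hw with h | h
    · exact absurd h hQK
    · exact h

theorem core_frob [IsAlgClosed K] [FiniteDimensional K V] [Finite G] {r : ℕ} [hr : Fact r.Prime]
    {N : Subgroup G} [N.Normal] {x : G} (hx : x ^ r = 1) (hnil : Group.IsNilpotent N)
    (hNK : (Nat.card N : K) ≠ 0) (hcop : (Nat.card (Subgroup.zpowers x)).Coprime (Nat.card N))
    (hfpf : ∀ g ∈ N, g * x = x * g → g = 1)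
    (v₀ : V) (hv₀ : ∀ v, ∃ c : K, ∑ j ∈ Finset.range r, ρ (x ^ j) v = c • v₀) :
    ∀ g ∈ ⁅N, N⁆, ρ g = 1 := by
  classical
  by_contra hcon
  push Not at hcon
  have hDle : ⁅N, N⁆ ≤ N := Subgroup.commutator_le_left N N
  haveI : (⁅N, N⁆ : Subgroup G).Normal := inferInstance
  obtain ⟨W, hW0, hWinv, hWfix⟩ := exists_nofix_norm ρ ⁅N, N⁆ (by
    intro h0
    apply hNK
    obtain ⟨m, hm⟩ := Subgroup.card_dvd_of_le hDle
    rw [hm, Nat.cast_mul, h0, zero_mul]) hcon
  have hall : ∀ g : G, ∀ w ∈ W, ρ g w ∈ W := fun g => hWinv g (by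
    rw [Subgroup.normalizer_eq_top]; trivial)
  obtain ⟨U, hUW, hU⟩ := exists_irrOn ρ N x hW0 (fun g _ => hall g) (hall x)
  have hxN : ∀ g ∈ N, x⁻¹ * g * x ∈ N := by
    intro g hg
    have := (inferInstance : N.Normal).conj_mem g hg x⁻¹
    rwa [inv_inv] at this
  let Z : Subgroup G :=
    { carrier := {g | g ∈ N ∧ ∀ h ∈ N, ∀ w ∈ U, ρ g (ρ h w) = ρ h (ρ g w)}
      one_mem' := ⟨N.one_mem, fun h _ w _ => by rw [map_one]; rfl⟩
      mul_mem' := by
        rintro a b ⟨ha, ha'⟩ ⟨hb, hb'⟩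
        refine ⟨N.mul_mem ha hb, fun h hh w hw => ?_⟩
        rw [rho_mul, rho_mul, hb' h hh w hw, ha' h hh _ (hU.invQ b hb w hw)]
      inv_mem' := by
        rintro a ⟨ha, ha'⟩
        refine ⟨N.inv_mem ha, fun h hh w hw => ?_⟩
        have h1 := ha' h hh (ρ a⁻¹ w) (hU.invQ _ (N.inv_mem ha) w hw)
        have h2 : ρ a (ρ a⁻¹ w) = w := by rw [← rho_mul, mul_inv_cancel, map_one]; rfl
        rw [h2] at h1
        rw [← h1, ← rho_mul, inv_mul_cancel, map_one]; rfl }
  have hZmem : ∀ g, g ∈ Z ↔ g ∈ N ∧ ∀ h ∈ N, ∀ w ∈ U, ρ g (ρ h w) = ρ h (ρ g w) := fun g => Iff.rfl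
  have hinvx : ∀ c ∈ Subgroup.zpowers x, ∀ w ∈ U, ρ c w ∈ U :=
    stable_zpowers (isOfFinOrder_of_finite x) hU.invy
  have hZx : ∀ a ∈ Z, x⁻¹ * a * x ∈ Z := by
    rintro a ⟨ha, ha'⟩
    refine ⟨hxN a ha, fun h hh w hw => ?_⟩
    have h1 := ha' (x * h * x⁻¹) ((inferInstance : N.Normal).conj_mem h hh x) (ρ x w) (hU.invy w hw)
    have h2 : ρ (x⁻¹ * a * x) (ρ h w) = ρ x⁻¹ (ρ a (ρ (x * h * x⁻¹) (ρ x w))) := by
      simp only [← rho_mul]; congr 2; group
    have h3 : ρ h (ρ (x⁻¹ * a * x) w) = ρ x⁻¹ (ρ (x * h * x⁻¹) (ρ a (ρ x w))) := by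
      simp only [← rho_mul]; congr 2; group
    rw [h2, h3, h1]
  obtain ⟨k, hk, U', hU'U, hU', hscal, hindep⟩ := hU.weight_step (p := r) (n := 1) (A := Z)
    (by rw [pow_one]; exact hx) hxN (fun g hg => hg.1) hZx (fun a ha g hg w hw => ha.2 g hg w hw)
  obtain ⟨u₀, hu₀, hu₀0⟩ := (Submodule.ne_bot_iff _).1 hU'.ne
  rcases Nat.le_one_iff_eq_zero_or_eq_one.1 hk with rfl | rfl
  · -- everything in `Z` is scalar
    rw [pow_zero, pow_one] at hU'
    have hUU' : U' = U := by
      rcases hU.irr U' hU'U hU'.invQ hU'.invy with h | h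
      · exact absurd h hU'.ne
      · exact h
    subst hUU'
    let C : Subgroup G :=
      { carrier := {g | g ∈ N ∧ ∀ w ∈ U', ρ g w = w}
        one_mem' := ⟨N.one_mem, fun w _ => by rw [map_one]; rfl⟩
        mul_mem' := by
          rintro a b ⟨ha, ha'⟩ ⟨hb, hb'⟩
          refine ⟨N.mul_mem ha hb, fun w hw => ?_⟩
          rw [rho_mul, hb' w hw, ha' w hw]
        inv_mem' := by
          rintro a ⟨ha, ha'⟩
          refine ⟨N.inv_mem ha, fun w hw => ?_⟩
          conv_lhs => rw [← ha' w hw]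
          rw [← rho_mul, inv_mul_cancel, map_one]; rfl }
    have hCn : ∀ y : G, (∀ w ∈ U', ρ y w ∈ U') → (∀ w ∈ U', ρ y⁻¹ w ∈ U') → ∀ g ∈ C, y * g * y⁻¹ ∈ C := by
      rintro y - hy' g ⟨hg, hg'⟩
      refine ⟨(inferInstance : N.Normal).conj_mem g hg y, fun w hw => ?_⟩
      rw [rho_mul, rho_mul, hg' _ (hy' w hw), ← rho_mul, mul_inv_cancel, map_one]; rfl
    have hCnorm : ∀ y : G, (∀ w ∈ U', ρ y w ∈ U') → (∀ w ∈ U', ρ y⁻¹ w ∈ U') →
        y ∈ Subgroup.normalizer (C : Set G) := by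
      intro y hy hy'
      rw [Subgroup.mem_normalizer_iff]
      intro g
      refine ⟨fun hg => hCn y hy hy' g hg, fun hg => ?_⟩
      have h1 := hCn y⁻¹ hy' (by rw [inv_inv]; exact hy) _ hg
      have h2 : y⁻¹ * (y * g * y⁻¹) * y⁻¹⁻¹ = g := by group
      rwa [h2] at h1
    have hZC : Z ≤ C := by
      intro z hz
      obtain ⟨c, hc⟩ := hscal z hz
      obtain ⟨d, ⟨hdN, hdC⟩, hd⟩ := Cop.fixed_points_quotient (Subgroup.zpowers x) N
        (by rw [Subgroup.normalizer_eq_top]; exact le_top) hcop (Or.inl inferInstance) C (fun g hg => hg.1)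
        (fun g hg => hCnorm g (hU.invQ g hg) (hU.invQ _ (N.inv_mem hg)))
        (fun g hg => hCnorm g (hinvx g hg) (hinvx _ (Subgroup.inv_mem _ hg))) z hz.1 (by
          intro a ha
          refine ⟨N.mul_mem ((inferInstance : N.Normal).conj_mem z hz.1 a) (N.inv_mem hz.1), fun w hw => ?_⟩
          have h1 : ρ z⁻¹ w ∈ U' := hU.invQ _ (N.inv_mem hz.1) w hw
          have h2 : ρ a⁻¹ (ρ z⁻¹ w) ∈ U' := hinvx _ (Subgroup.inv_mem _ ha) _ h1
          have h3 : ρ z (ρ z⁻¹ w) = w := by rw [← rho_mul, mul_inv_cancel, map_one]; rfl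
          have h4 : ρ (a * z * a⁻¹ * z⁻¹) w = ρ a (ρ z (ρ a⁻¹ (ρ z⁻¹ w))) := by
            simp only [← rho_mul]; congr 2; group
          have h5 : ρ a (ρ a⁻¹ (ρ z⁻¹ w)) = ρ z⁻¹ w := by rw [← rho_mul, mul_inv_cancel, map_one]; rfl
          rw [h4, hc _ h2, map_smul, h5, ← hc _ h1, h3])
      have hd1 : d = 1 := hfpf d hdN (Subgroup.mem_centralizer_iff.1 hdC x (Subgroup.mem_zpowers x)).symm
      rw [hd1, mul_one] at hd
      simpa using C.inv_mem hd
    have hlN : ∀ i, N.lowerCentralSeries i ≤ N := fun i => N.lowerCentralSeries_antitone (Nat.zero_le i)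
    have hstep : ∀ i : ℕ, N.lowerCentralSeries (i + 1) ≤ C → N.lowerCentralSeries i ≤ C := by
      intro i hi z hz
      apply hZC
      have hzN := hlN i hz
      refine ⟨hzN, fun h hh w hw => ?_⟩
      have h1 : ⁅z, h⁆ ∈ N.lowerCentralSeries (i + 1) := Subgroup.commutator_mem_commutator hz hh
      have h2 : z * h * z⁻¹ * h⁻¹ ∈ C := hi h1
      have h3 := h2.2 (ρ (h * z) w) (by
        rw [rho_mul]; exact hU.invQ h hh _ (hU.invQ z hzN w hw))
      rw [← rho_mul, ← rho_mul, ← h3, ← rho_mul]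
      congr 2
      group
    obtain ⟨n, hn⟩ := (Subgroup.isNilpotent_iff_lowerCentralSeries N).1 hnil
    have hall' : ∀ i, N.lowerCentralSeries (n - i) ≤ C := by
      intro i
      induction i with
      | zero => rw [Nat.sub_zero, hn]; exact bot_le
      | succ i ih =>
        rcases Nat.lt_or_ge i n with hin | hin
        · have h1 : n - i = n - (i + 1) + 1 := by omega
          rw [h1] at ih
          exact hstep _ ih
        · have h1 : n - (i + 1) = n - i := by omega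
          rw [h1]; exact ih
    have hNC : N ≤ C := by
      have := hall' n
      rwa [Nat.sub_self, Subgroup.lowerCentralSeries_zero] at this
    exact hu₀0 (hWfix u₀ (hUW hu₀) (fun g hg => (hNC (hDle hg)).2 u₀ hu₀))
  · -- one dimensional
    rw [pow_one] at hindep
    obtain ⟨c₀, hc₀⟩ := hv₀ u₀
    have hc₀0 : c₀ ≠ 0 := by
      rintro rfl
      rw [zero_smul] at hc₀
      exact hindep u₀ hu₀ hu₀0 hc₀
    have hone : ∀ u ∈ U', ∃ c : K, u = c • u₀ := by
      intro u hu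
      obtain ⟨c, hc⟩ := hv₀ u
      refine ⟨c * c₀⁻¹, ?_⟩
      by_contra hne
      apply hindep (u - (c * c₀⁻¹) • u₀) (U'.sub_mem hu (U'.smul_mem _ hu₀)) (sub_ne_zero.2 hne)
      simp only [map_sub, map_smul, Finset.sum_sub_distrib, ← Finset.smul_sum, hc₀, hc, smul_smul]
      rw [mul_assoc, inv_mul_cancel₀ hc₀0, mul_one, sub_self]
    let S : Subgroup G :=
      { carrier := {g | ρ g u₀ = u₀}
        one_mem' := by change ρ 1 u₀ = u₀; rw [map_one]; rfl
        mul_mem' := by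
          intro a b ha hb
          change ρ (a * b) u₀ = u₀
          rw [rho_mul, show ρ b u₀ = u₀ from hb]; exact ha
        inv_mem' := by
          intro a ha
          change ρ a⁻¹ u₀ = u₀
          conv_lhs => rw [← (show ρ a u₀ = u₀ from ha)]
          rw [← rho_mul, inv_mul_cancel, map_one]; rfl }
    have hDS : ⁅N, N⁆ ≤ S := by
      rw [Subgroup.commutator_le]
      intro a ha b hb
      obtain ⟨ca, hca⟩ := hone _ (hU'.invQ a ha u₀ hu₀)
      obtain ⟨cb, hcb⟩ := hone _ (hU'.invQ b hb u₀ hu₀)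
      have h1 : ρ (a * b) u₀ = ρ (b * a) u₀ := by
        rw [rho_mul, rho_mul, hca, hcb, map_smul, map_smul, hca, hcb, smul_smul, smul_smul, mul_comm]
      change ρ (a * b * a⁻¹ * b⁻¹) u₀ = u₀
      have h2 : ca * cb ≠ 0 := by
        intro h0
        have h3 : ρ (a * b) u₀ = 0 := by
          rw [rho_mul, hcb, map_smul, hca, smul_smul, mul_comm, h0, zero_smul]
        have h4 : u₀ = ρ (a * b)⁻¹ (ρ (a * b) u₀) := by rw [← rho_mul, inv_mul_cancel, map_one]; rfl
        rw [h3, map_zero] at h4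
        exact hu₀0 h4
      have h3 : ρ (a * b) u₀ = (ca * cb) • u₀ := by
        rw [rho_mul, hcb, map_smul, hca, smul_smul, mul_comm cb ca]
      have h4 : ρ (a * b * a⁻¹ * b⁻¹) ((ca * cb) • u₀) = (ca * cb) • u₀ := by
        rw [← h3]
        conv_lhs => rw [h1]
        rw [← rho_mul]
        congr 2
        group
      rw [map_smul] at h4
      exact smul_right_injective V h2 h4
    exact hu₀0 (hWfix u₀ (hUW (hU'U hu₀)) (fun g hg => hDS hg))

end

/-- Let G and V be subgroups of a finite group with G a Frobenius group with complement R of prime order and kernel K, G normalizing V, and V an elementary abelian ℓ-group for a prime ℓ not dividing the order of G. If C_V(R) has order ℓ, then the derived subgroup of K centralizes V. -/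
theorem result {X : Type*} [Group X] [Finite X] (G : Subgroup X) (V : Subgroup X) {ℓ : ℕ} (hℓ : ℓ.Prime) (hV : Cfsg.IsElementaryAbelian ℓ V) (hℓG : ¬ ℓ ∣ Nat.card G) (hGV : G ≤ Subgroup.normalizer (V : Set X)) (R : Subgroup ↥G) (hR : Cfsg.IsFrobeniusComplement R) (hRp : (Nat.card R).Prime) (hCV : Nat.card ↥(V ⊓ Subgroup.centralizer ((R.map G.subtype : Subgroup X) : Set X)) = ℓ) : ⁅Subgroup.closure (Subtype.val '' Cfsg.frobeniusKernel R), Subgroup.closure (Subtype.val '' Cfsg.frobeniusKernel R)⁆ ≤ Subgroup.centralizer (V : Set X) := by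
  classical
  haveI : Fact ℓ.Prime := ⟨hℓ⟩
  haveI : Fact (Nat.card R).Prime := ⟨hRp⟩
  obtain ⟨N, hNset, hNn, hnil⟩ := Cfsg.Agent.S0042.result R hR
  obtain ⟨N', hN'set, hN'n, hcompl⟩ := Frob.exists_normal_complement hR
  have hNN : N = N' := SetLike.coe_injective (hNset.trans hN'set.symm)
  subst hNN
  have hNb : N ≠ ⊥ := by
    rintro rfl
    rw [Subgroup.isComplement'_bot_left] at hcompl
    exact hR.2.1 hcompl
  have hfpf := (Frob.isFrobeniusComplement_iff_fpf hcompl hNb hR.1).mp hR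
  obtain ⟨x, hxR, hox, hzR⟩ := exists_zpowers_of_card_prime (rfl : Nat.card R = Nat.card R)
  have hx1 : x ≠ 1 := by
    rintro rfl
    rw [orderOf_one] at hox
    exact hRp.one_lt.ne hox
  have hcopN : (Nat.card R).Coprime (Nat.card N) := by
    have h1 := Frob.coprime_card_index hR
    have h2 : R.index = Nat.card N := by
      have := hcompl.index_eq_card
      exact this
    rwa [h2] at h1
  obtain ⟨A, _, _, _, ⟨E⟩⟩ := exists_emod hV hGV
  haveI : FiniteDimensional (ZMod ℓ) A := Module.Finite.of_finite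
  -- the fixed space of `x`
  let F : Submodule (ZMod ℓ) A := LinearMap.ker (E.ρ x - 1)
  have hFmem : ∀ a, a ∈ F ↔ E.ρ x a = a := by
    intro a
    rw [LinearMap.mem_ker, LinearMap.sub_apply, Module.End.one_apply, sub_eq_zero]
  have hFcard : Nat.card F = ℓ := by
    refine Eq.trans ?_ hCV
    symm
    refine Nat.card_congr (Equiv.ofBijective (fun v => ⟨E.π ⟨v.1, v.2.1⟩, ?_⟩) ⟨?_, ?_⟩)
    · rw [hFmem]
      symm
      apply E.equiv x ⟨v.1, v.2.1⟩ ⟨v.1, v.2.1⟩
      have h1 := Subgroup.mem_centralizer_iff.1 v.2.2 (x : X) ⟨x, hxR, rfl⟩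
      change (v.1 : X) = x * v.1 * (x : X)⁻¹
      rw [h1, mul_inv_cancel_right]
    · intro v w hvw
      have h1 := E.bij.1 (congrArg Subtype.val hvw)
      exact Subtype.ext (Subtype.mk.inj h1)
    · rintro ⟨a, ha⟩
      obtain ⟨v, hv, hcomm⟩ := E.fixed hGV x ((hFmem a).1 ha)
      refine ⟨⟨v, v.2, ?_⟩, ?_⟩
      · refine Subgroup.mem_centralizer_iff.2 ?_
        rintro _ ⟨y, hy, rfl⟩
        rw [SetLike.mem_coe, ← hzR] at hy
        obtain ⟨k, rfl⟩ := Subgroup.mem_zpowers_iff.1 hy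
        have h1 : Commute (x : X) (v : X) := hcomm
        have h2 := h1.zpow_left k
        exact h2
      · apply Subtype.ext
        exact hv
  have hF1 : finrank (ZMod ℓ) F = 1 := by
    have h1 := Module.natCard_eq_pow_finrank (K := ZMod ℓ) (V := F)
    rw [hFcard, Nat.card_zmod] at h1
    exact (Nat.pow_right_injective hℓ.two_le ((pow_one ℓ).trans h1)).symm
  obtain ⟨v₀, hv₀0, hv₀⟩ := finrank_eq_one_iff'.1 hF1
  have hsum : ∀ a : A, ∃ c : ZMod ℓ, ∑ j ∈ Finset.range (Nat.card R), E.ρ (x ^ j) a = c • (v₀ : A) := by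
    intro a
    have h1 : ∑ j ∈ Finset.range (Nat.card R), E.ρ (x ^ j) a ∈ F := by
      rw [hFmem, map_sum]
      have h2 : ∀ j, E.ρ x (E.ρ (x ^ j) a) = E.ρ (x ^ (j + 1)) a := by
        intro j
        rw [pow_succ', map_mul]; rfl
      simp only [h2]
      have h3 := Finset.sum_range_succ' (fun j => E.ρ (x ^ j) a) (Nat.card R)
      rw [Finset.sum_range_succ] at h3
      have h4 : E.ρ (x ^ Nat.card R) a = E.ρ (x ^ 0) a := by rw [← hox, pow_orderOf_eq_one, pow_zero]
      rw [h4] at h3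
      exact (add_right_cancel h3).symm
    obtain ⟨c, hc⟩ := hv₀ ⟨_, h1⟩
    exact ⟨c, (congrArg Subtype.val hc).symm⟩
  have key := core_frob (ρ := bc (ZMod ℓ) E.ρ) (r := Nat.card R) (N := N) (x := x) (by rw [← hox]; exact pow_orderOf_eq_one x)
    hnil (by
      intro h0
      apply hℓG
      haveI : CharP (AlgebraicClosure (ZMod ℓ)) ℓ := inferInstance
      have h1 := (CharP.cast_eq_zero_iff (AlgebraicClosure (ZMod ℓ)) ℓ _).1 h0
      exact h1.trans (Subgroup.card_subgroup_dvd_card N)) (by rw [hzR]; exact hcopN) (by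
      intro g hg hgx
      have h1 : g ∈ N ⊓ Subgroup.centralizer {x} := by
        refine ⟨hg, Subgroup.mem_centralizer_iff.2 ?_⟩
        intro y hy
        rw [Set.mem_singleton_iff.1 hy]
        exact hgx.symm
      rw [hfpf x hxR hx1, Subgroup.mem_bot] at h1
      exact h1) ((1 : AlgebraicClosure (ZMod ℓ)) ⊗ₜ[ZMod ℓ] (v₀ : A)) (by
      intro m
      induction m using TensorProduct.induction_on with
      | zero => exact ⟨0, by simp⟩
      | tmul a v =>
        obtain ⟨c, hc⟩ := hsum v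
        refine ⟨algebraMap (ZMod ℓ) _ c * a, ?_⟩
        have h1 : ∀ j, bc (ZMod ℓ) E.ρ (x ^ j) (a ⊗ₜ[ZMod ℓ] v) = a ⊗ₜ[ZMod ℓ] (E.ρ (x ^ j) v) := fun _ => rfl
        simp only [h1]
        rw [← TensorProduct.tmul_sum, hc, TensorProduct.tmul_smul, TensorProduct.smul_tmul', TensorProduct.smul_tmul',
          smul_eq_mul, mul_one, Algebra.smul_def]
      | add m₁ m₂ h₁ h₂ =>
        obtain ⟨c₁, h₁⟩ := h₁
        obtain ⟨c₂, h₂⟩ := h₂
        refine ⟨c₁ + c₂, ?_⟩
        simp only [map_add, Finset.sum_add_distrib, h₁, h₂, add_smul])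
  have hcl : Subgroup.closure (Subtype.val '' Cfsg.frobeniusKernel R) = N.map G.subtype := by
    rw [← hNset]
    have : (Subtype.val '' (N : Set G) : Set X) = ((N.map G.subtype : Subgroup X) : Set X) := rfl
    rw [this, Subgroup.closure_eq]
  rw [hcl, ← Subgroup.map_commutator]
  rintro _ ⟨g, hg, rfl⟩
  have h1 := key g hg
  have h2 : E.ρ g = 1 := by
    apply LinearMap.ext
    intro v
    have h3 := LinearMap.congr_fun h1 ((1 : AlgebraicClosure (ZMod ℓ)) ⊗ₜ[ZMod ℓ] v)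
    have h4 : (1 : AlgebraicClosure (ZMod ℓ)) ⊗ₜ[ZMod ℓ] (E.ρ g v) = (1 : AlgebraicClosure (ZMod ℓ)) ⊗ₜ[ZMod ℓ] v := h3
    exact (Module.FaithfullyFlat.tensorProduct_mk_injective (A := ZMod ℓ) (B := AlgebraicClosure (ZMod ℓ)) A) h4
  rw [Subgroup.mem_centralizer_iff]
  intro v hv
  obtain ⟨v', hv', hcomm⟩ := E.fixed hGV g (a := E.π ⟨v, hv⟩) (by rw [h2]; rfl)
  have h3 := E.bij.1 hv'
  rw [h3] at hcomm
  exact hcomm.symm

end Cfsg.Agent.S3770
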