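import Cfsg.Statements.S3772
import Cfsg.Agent.H63.QuadTwo
import Cfsg.Agent.H63.PG
import Cfsg.Agent.H63.IndexP
import Cfsg.Agent.Extra.Basic
import Cfsg.Agent.Solv.Frattini

set_option autoImplicit false
open Cfsg

namespace Cfsg.Agent.S3772

open scoped commutatorElement

/-- Let G be a finite 2-group whose Frattini subgroup Φ(G) has order 2, with |G : Φ(G)| = 2^d, and let j be the number of elements x of G with x² = 1. Then j = 2^d, or j = 2^d + 2^(d−r) or j = 2^d − 2^(d−r) for some positive integer r with 2r ≤ d. Moreover if d = 2r and j is 2^d + 2^r or 2^d − 2^r, then G is extraspecial. -/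
theorem result {G : Type*} [Group G] [Finite G] (hG : IsPGroup 2 G) (hΦ : Nat.card (frattini G) = 2) (d : ℕ) (hd : (frattini G).index = 2 ^ d) : (Nat.card {x : G // x ^ 2 = 1} = 2 ^ d ∨ ∃ r : ℕ, 1 ≤ r ∧ 2 * r ≤ d ∧ (Nat.card {x : G // x ^ 2 = 1} = 2 ^ d + 2 ^ (d - r) ∨ Nat.card {x : G // x ^ 2 = 1} + 2 ^ (d - r) = 2 ^ d)) ∧ (∀ r : ℕ, d = 2 * r → (Nat.card {x : G // x ^ 2 = 1} = 2 ^ d + 2 ^ r ∨ Nat.card {x : G // x ^ 2 = 1} + 2 ^ r = 2 ^ d) → Cfsg.IsExtraspecial 2 G) := by
  classical
  haveI := Fintype.ofFinite G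
  haveI : Fact (Nat.Prime 2) := ⟨Nat.prime_two⟩
  have hΦc : frattini G ≤ Subgroup.center G := H63.le_center_of_card_eq_prime hG _ hΦ
  have h2 : Extra.ClassTwo G := (Solv.commutator_le_frattini_of_pGroup hG).trans hΦc
  have hsqΦ : ∀ x : G, x ^ 2 ∈ frattini G := Solv.pow_mem_frattini_of_pGroup hG
  have hsq : ∀ x : G, x ^ 2 ∈ Subgroup.center G := fun x => hΦc (hsqΦ x)
  have hΦ2 : ∀ x ∈ frattini G, x ^ 2 = 1 := by
    intro x hx
    have := pow_card_eq_one' (x := (⟨x, hx⟩ : frattini G))
    rw [hΦ] at this
    exact congrArg Subtype.val this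
  have hexp : ∀ x : G, x ^ 4 = 1 := by
    intro x
    have := hΦ2 _ (hsqΦ x)
    rwa [← pow_mul] at this
  -- generator of Φ
  obtain ⟨z, hz⟩ : ∃ z : frattini G, z ≠ 1 := by
    haveI : Nontrivial (frattini G) := (Finite.one_lt_card_iff_nontrivial).1 (by rw [hΦ]; norm_num)
    exact exists_ne 1
  have hz1 : (z : G) ≠ 1 := fun h => hz (Subtype.ext h)
  have htwo : ∀ x ∈ frattini G, x = 1 ∨ x = z := by
    intro x hx
    by_contra hcon
    push Not at hcon
    have h3 : ({(1 : frattini G), z, ⟨x, hx⟩} : Finset (frattini G)).card = 3 := by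
      rw [Finset.card_eq_three]
      exact ⟨1, z, ⟨x, hx⟩, hz.symm, fun h => hcon.1 (congrArg Subtype.val h).symm,
        fun h => hcon.2 (congrArg Subtype.val h).symm, rfl⟩
    have h4 := Finset.card_le_univ ({(1 : frattini G), z, ⟨x, hx⟩} : Finset (frattini G))
    rw [h3, ← Nat.card_eq_fintype_card, hΦ] at h4
    omega
  have hq := H63.qmap h2 hsq hexp
  -- the character
  set zA : H63.OmZ G := ⟨z, hΦc z.2, hΦ2 _ z.2⟩ with hzA
  have hzA1 : zA ≠ 1 := fun h => hz1 (congrArg (fun a : H63.OmZ G => (a : G)) h)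
  obtain ⟨χ, hχ⟩ : ∃ χ : H63.OmZ G →* ℤˣ, χ zA ≠ 1 := by
    have hexpA : Monoid.exponent (H63.OmZ G) ∣ 2 := by
      rw [Monoid.exponent_dvd_iff_forall_pow_eq_one]
      intro a
      rw [pow_two]; exact hq.sq a
    haveI : HasEnoughRootsOfUnity ℤ (Monoid.exponent (H63.OmZ G)) := by
      rcases (Nat.dvd_prime Nat.prime_two).1 hexpA with h1 | h1
      · rw [h1]; exact H63.QMap.hasEnough_one
      · rw [h1]; exact H63.QMap.hasEnough_two
    exact CommGroup.exists_apply_ne_one_of_hasEnoughRootsOfUnity _ ℤ hzA1
  have hχz : χ zA = -1 := (Int.units_eq_one_or _).resolve_left hχ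
  set χ' : H63.OmZ G →* ℤ := (Units.coeHom ℤ).comp χ with hχ'
  have hχ'z : χ' zA = -1 := by
    change ((χ zA : ℤˣ) : ℤ) = -1
    rw [hχz]; rfl
  have hval : ∀ a : H63.OmZ G, (a : G) ∈ frattini G → χ' a = if (a : G) = 1 then 1 else -1 := by
    intro a ha
    split_ifs with h
    · have : a = 1 := Subtype.ext h
      rw [this, map_one]
    · have : a = zA := Subtype.ext ((htwo _ ha).resolve_left h)
      rw [this, hχ'z]
  have hcardG : Nat.card G = 2 ^ (d + 1) := by
    rw [← Subgroup.card_mul_index (frattini G), hΦ, hd]; ring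
  set S : ℤ := ∑ x : G, χ' (H63.sqQ hsq hexp x) with hS
  have hSj : S = 2 * (Nat.card {x : G // x ^ 2 = 1} : ℤ) - Nat.card G := by
    have h3 : ∀ x : G, χ' (H63.sqQ hsq hexp x) = 2 * (if x ^ 2 = 1 then 1 else 0) - 1 := by
      intro x
      rw [hval _ (hsqΦ x), H63.sqQ_coe]
      by_cases h5 : x ^ 2 = 1
      · rw [if_pos h5, if_pos h5]; norm_num
      · rw [if_neg h5, if_neg h5]; norm_num
    rw [hS, Finset.sum_congr rfl (fun x _ => h3 x), Finset.sum_sub_distrib, ← Finset.mul_sum]
    have h4 : ∑ x : G, (if x ^ 2 = 1 then (1 : ℤ) else 0) = (Nat.card {x : G // x ^ 2 = 1} : ℤ) := by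
      rw [Finset.sum_boole, Nat.card_eq_fintype_card, Fintype.card_subtype]
    rw [h4]
    simp [Nat.card_eq_fintype_card]
  have hrad : hq.rad χ' = Subgroup.center G := by
    ext w
    rw [H63.QMap.mem_rad, Subgroup.mem_center_iff]
    constructor
    · intro h x
      have h3 := h x
      have h4 : ((H63.commB h2 hsq x w : H63.OmZ G) : G) ∈ frattini G :=
        Solv.commutator_le_frattini_of_pGroup hG
          (Subgroup.commutator_mem_commutator (Subgroup.mem_top w) (Subgroup.mem_top x))
      rw [hval _ h4] at h3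
      split_ifs at h3 with h5
      rw [H63.commB_coe, commutatorElement_eq_one_iff_mul_comm] at h5
      exact h5.symm
    · intro h x
      have : H63.commB h2 hsq x w = 1 := by
        apply H63.om_ext
        rw [H63.commB_coe]
        exact commutatorElement_eq_one_iff_mul_comm.2 (h x).symm
      rw [this, map_one]
  have hmain := hq.sum_sq χ'
  rw [hrad] at hmain
  rw [← hS] at hmain
  obtain ⟨s, hs⟩ := IsPGroup.iff_card.1 (hG.to_subgroup (Subgroup.center G))
  set j := Nat.card {x : G // x ^ 2 = 1} with hj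
  have hs1 : 1 ≤ s := by
    by_contra h
    have : s = 0 := by omega
    have h3 := Subgroup.card_le_of_le hΦc
    rw [hs, this, hΦ] at h3
    norm_num at h3
  -- consequences of the nonzero case
  have hnz : (∀ w ∈ Subgroup.center G, χ' (H63.sqQ hsq hexp w) = 1) → Subgroup.center G ≠ ⊤ := by
    intro h htop
    have h3 : frattini G = ⊥ := by
      rw [eq_bot_iff]
      refine Solv.frattini_le_of_elementary_quotient (p := 2) ⊥ ?_ ?_
      · rw [commutator_def, Subgroup.commutator_le]
        intro x _ y _
        rw [Subgroup.mem_bot, commutatorElement_eq_one_iff_mul_comm]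
        exact (Subgroup.mem_center_iff.1 (by rw [htop]; exact Subgroup.mem_top x) y).symm
      · intro x
        rw [Subgroup.mem_bot]
        have h4 := h x (by rw [htop]; exact Subgroup.mem_top x)
        rw [hval _ (hsqΦ x)] at h4
        split_ifs at h4 with h5
        exact h5
    rw [h3, Subgroup.card_bot] at hΦ
    norm_num at hΦ
  have hsd : Subgroup.center G ≠ ⊤ → s + 1 ≤ d := by
    intro hne
    have h3 := Subgroup.card_mul_index (Subgroup.center G)
    rw [hs, hcardG] at h3
    have h4 : s ≤ d + 1 := by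
      have := Nat.le_of_dvd (by positivity) (Dvd.intro _ h3)
      exact (Nat.pow_le_pow_iff_right (by norm_num)).1 this
    have h5 : s ≠ d + 1 := by
      rintro rfl
      have h6 : (Subgroup.center G).index = 1 := by
        have : 0 < 2 ^ (d + 1) := by positivity
        exact Nat.eq_of_mul_eq_mul_left this (by rw [h3, mul_one])
      exact hne (Subgroup.index_eq_one.1 h6)
    have h6 : s ≠ d := by
      rintro rfl
      have h7 : (Subgroup.center G).index = 2 := by
        have : 0 < 2 ^ s := by positivity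
        exact Nat.eq_of_mul_eq_mul_left this (by rw [h3]; ring)
      have h8 := H63.isCoatom_of_index_prime Nat.prime_two h7
      obtain ⟨x, hx⟩ : ∃ x : G, x ∉ Subgroup.center G := by
        by_contra hcon
        push Not at hcon
        exact hne (Subgroup.eq_top_iff' _ |>.2 hcon)
      have h9 : Subgroup.center G < Subgroup.centralizer ({x} : Set G) := by
        refine lt_of_le_of_ne ?_ ?_
        · intro c hc
          rw [Subgroup.mem_centralizer_singleton_iff]
          exact (Subgroup.mem_center_iff.1 hc x).symm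
        · intro h
          apply hx
          rw [h, Subgroup.mem_centralizer_singleton_iff]
      have h10 := h8.2 _ h9
      apply hx
      rw [Subgroup.mem_center_iff]
      intro y
      have : y ∈ Subgroup.centralizer ({x} : Set G) := by rw [h10]; exact Subgroup.mem_top y
      rw [Subgroup.mem_centralizer_singleton_iff] at this
      exact this
    omega
  have hjle : (j : ℤ) ≤ Nat.card G := by
    have : Nat.card {x : G // x ^ 2 = 1} ≤ Nat.card G := Nat.card_le_card_of_injective _ Subtype.val_injective
    exact_mod_cast this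
  constructor
  · rcases hmain with h0 | ⟨h1, h3⟩
    · left
      have h4 : S = 0 := by
        exact pow_eq_zero_iff (by norm_num) |>.1 h0
      rw [h4, hcardG] at hSj
      have h5 : (j : ℤ) = 2 ^ d := by
        push_cast [pow_succ] at hSj
        linarith
      exact_mod_cast h5
    · right
      have hne := hnz h3
      have h4 := hsd hne
      rw [hcardG, hs, ← pow_add] at h1
      -- the exponent is even
      have h5 : Even (d + 1 + s) := by
        have h6 : S.natAbs ^ 2 = 2 ^ (d + 1 + s) := by
          have := congrArg Int.natAbs h1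
          rw [Int.natAbs_pow] at this
          rw [this]
          simp
        have h7 := congrArg (fun t => t.factorization 2) h6
        simp only [Nat.factorization_pow, Finsupp.smul_apply, smul_eq_mul,
          Nat.prime_two.factorization_self, mul_one] at h7
        rw [← h7]
        exact even_two_mul _
      obtain ⟨m, hm⟩ := h5
      have hSm : S = 2 ^ m ∨ S = - 2 ^ m := by
        apply sq_eq_sq_iff_eq_or_eq_neg.1
        rw [h1, hm]
        push_cast
        ring
      refine ⟨d + 1 - m, by omega, by omega, ?_⟩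
      have h8 : d - (d + 1 - m) = m - 1 := by omega
      rw [h8]
      have hm1 : 1 ≤ m := by omega
      obtain ⟨m', rfl⟩ : ∃ m', m = m' + 1 := ⟨m - 1, by omega⟩
      rw [Nat.add_sub_cancel]
      rw [hcardG] at hSj
      push_cast [pow_succ] at hSj
      rcases hSm with h9 | h9
      · left
        rw [h9, pow_succ] at hSj
        have : (j : ℤ) = 2 ^ d + 2 ^ m' := by linarith
        exact_mod_cast this
      · right
        rw [h9, pow_succ] at hSj
        have : (j : ℤ) + 2 ^ m' = 2 ^ d := by linarith
        exact_mod_cast this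
  · intro r hdr hjr
    have hS2 : S ^ 2 = 2 ^ (d + 2) := by
      rw [hcardG] at hSj
      push_cast [pow_succ] at hSj
      rcases hjr with h | h
      · have h5 : (j : ℤ) = 2 ^ d + 2 ^ r := by exact_mod_cast h
        have h6 : S = 2 * 2 ^ r := by rw [hSj, h5]; ring
        rw [h6, hdr]; ring
      · have h5 : (j : ℤ) + 2 ^ r = 2 ^ d := by exact_mod_cast h
        have h6 : S = - (2 * 2 ^ r) := by
          have : (j : ℤ) = 2 ^ d - 2 ^ r := by linarith
          rw [hSj, this]; ring
        rw [h6, hdr]; ring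
    rcases hmain with h0 | ⟨h1, h3⟩
    · rw [hS2] at h0
      have : (2 : ℤ) ^ (d + 2) ≠ 0 := by positivity
      exact absurd h0 this
    · have hne := hnz h3
      rw [hS2, hcardG, hs, ← pow_add] at h1
      have h4 : 2 ^ (d + 2) = 2 ^ (d + 1 + s) := by exact_mod_cast h1
      have h5 : d + 2 = d + 1 + s := Nat.pow_right_injective (le_refl 2) h4
      have h6 : s = 1 := by omega
      exact Extra.isExtraspecial_of_ges ⟨by rw [hs, h6, pow_one], h2⟩ hne

end Cfsg.Agent.S3772
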