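import Cfsg.Statements.S3773
import Cfsg.Agent.H63.QuadTwo
import Cfsg.Agent.H63.PG
import Cfsg.Agent.H63.IndexP
import Cfsg.Agent.Extra.Basic
import Cfsg.Agent.Solv.Frattini

set_option autoImplicit false
open Cfsg

namespace Cfsg.Agent.S3773

open scoped commutatorElement

theorem classTwo_of_lcs {G : Type*} [Group G] (hcl : (⊤ : Subgroup G).lowerCentralSeries 2 = ⊥) :
    Extra.ClassTwo G := by
  rw [Extra.classTwo_iff]
  intro x y
  rw [Subgroup.mem_center_iff]
  intro z
  have h1 : ⁅⁅x, y⁆, z⁆ ∈ (⊤ : Subgroup G).lowerCentralSeries 2 := by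
    rw [Subgroup.lowerCentralSeries_succ]
    apply Subgroup.commutator_mem_commutator _ (Subgroup.mem_top z)
    rw [Subgroup.lowerCentralSeries_succ]
    exact Subgroup.commutator_mem_commutator (by simp) (Subgroup.mem_top y)
  rw [hcl, Subgroup.mem_bot, commutatorElement_eq_one_iff_mul_comm] at h1
  exact h1.symm

/-- Let G be a finite 2-group of nilpotency class at most 2 and exponent dividing 4 in which the elements x with x² = 1 form a subgroup N. Then |G| ≤ |N|³, and |G| < |N|³ unless G is special. -/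
theorem result {G : Type*} [Group G] [Finite G] (hG : IsPGroup 2 G) (hcl : (⊤ : Subgroup G).lowerCentralSeries 2 = ⊥) (hexp : ∀ x : G, x ^ 4 = 1) (hN : ∀ x y : G, x ^ 2 = 1 → y ^ 2 = 1 → (x * y) ^ 2 = 1) : Nat.card G ≤ Nat.card {x : G // x ^ 2 = 1} ^ 3 ∧ (¬ Cfsg.IsSpecial 2 G → Nat.card G < Nat.card {x : G // x ^ 2 = 1} ^ 3) := by
  classical
  haveI : Fact (Nat.Prime 2) := ⟨Nat.prime_two⟩
  have h2 : Extra.ClassTwo G := classTwo_of_lcs hcl
  -- the subgroup N
  let N : Subgroup G :=
    { carrier := {x | x ^ 2 = 1}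
      one_mem' := one_pow 2
      mul_mem' := fun {a b} ha hb => hN a b ha hb
      inv_mem' := fun {a} ha => by
        change a⁻¹ ^ 2 = 1
        rw [inv_pow, show a ^ 2 = 1 from ha, inv_one] }
  have hNmem : ∀ x : G, x ∈ N ↔ x ^ 2 = 1 := fun x => Iff.rfl
  have hcardN : Nat.card {x : G // x ^ 2 = 1} = Nat.card N := rfl
  have hcs : ∀ x y : G, ⁅x, y⁆ ^ 2 = 1 := by
    intro x y
    have h3 := h2.mul_pow y x 4
    rw [hexp, hexp, hexp, one_mul, one_mul] at h3
    have h4 : ⁅x, y⁆ ^ 4 = 1 := hexp _
    have h5 : Nat.choose 4 2 = 4 + 2 := by decide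
    rw [h5, pow_add, h4, one_mul] at h3
    exact h3.symm
  have hsq : ∀ x : G, x ^ 2 ∈ Subgroup.center G := by
    intro x
    rw [Subgroup.mem_center_iff]
    intro y
    have h3 : ⁅x ^ 2, y⁆ = 1 := by rw [h2.pow_left, hcs]
    exact (commutatorElement_eq_one_iff_mul_comm.1 h3).symm
  have hq := H63.qmap h2 hsq hexp
  obtain ⟨g, hg⟩ := IsPGroup.iff_card.1 hG
  obtain ⟨n, hn⟩ := IsPGroup.iff_card.1 (hG.to_subgroup N)
  obtain ⟨a, ha⟩ := IsPGroup.iff_card.1 (hG.to_subgroup (H63.OmZ G))
  have haN : H63.OmZ G ≤ N := fun x hx => hx.2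
  have han : a ≤ n := by
    have := Subgroup.card_le_of_le haN
    rw [ha, hn] at this
    exact (Nat.pow_le_pow_iff_right (by norm_num)).1 this
  have hb1 : g + a ≤ 2 * (a + n) := by
    apply hq.bound (H63.OmZ G) ?_ hg ha ha
    · rw [← hn, ← hcardN]
      apply Nat.card_congr
      exact Equiv.subtypeEquivRight (fun x => H63.sqQ_eq_one_iff hsq hexp x)
    · intro w hw x
      apply H63.om_ext
      rw [H63.commB_coe]
      exact commutatorElement_eq_one_iff_mul_comm.2 (Subgroup.mem_center_iff.1 hw.1 x).symm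
  rw [hcardN, hn, hg, ← pow_mul]
  refine ⟨Nat.pow_le_pow_right (by norm_num) (by omega), ?_⟩
  intro hns
  apply Nat.pow_lt_pow_right (by norm_num)
  by_contra hcon
  have hg3 : g = 3 * n := by omega
  have hna : a = n := by omega
  apply hns
  have hOm : H63.OmZ G = N := Subgroup.eq_of_le_of_card_ge haN (by rw [ha, hn, hna])
  have hNZ : N ≤ Subgroup.center G := by
    rw [← hOm]; exact fun x hx => hx.1
  -- step A: the centre is N
  have hZN : Subgroup.center G ≤ N := by
    intro x hx
    by_contra hxN
    set z : H63.OmZ G := ⟨x ^ 2, hsq x, by rw [← pow_mul]; exact hexp x⟩ with hz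
    have hz1 : z ≠ 1 := fun h => hxN (congrArg (fun a : H63.OmZ G => (a : G)) h)
    have hzo : orderOf z = 2 := orderOf_eq_prime (by rw [pow_two]; exact hq.sq z) hz1
    have hq' := hq.comp (QuotientGroup.mk' (Subgroup.zpowers z)) (QuotientGroup.mk'_surjective _)
    -- zero set
    have hzp : ∀ w : H63.OmZ G, w ∈ Subgroup.zpowers z ↔ w = 1 ∨ w = z := by
      intro w
      constructor
      · intro hw
        obtain ⟨k, rfl⟩ := Subgroup.mem_zpowers_iff.1 hw
        rcases Int.even_or_odd k with ⟨m, rfl⟩ | ⟨m, rfl⟩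
        · left
          rw [← two_mul, zpow_mul]
          have : z ^ (2 : ℤ) = 1 := by
            have := hq.sq z
            rw [← pow_two] at this
            exact_mod_cast this
          rw [this, one_zpow]
        · right
          rw [zpow_add, zpow_mul, zpow_one]
          have : z ^ (2 : ℤ) = 1 := by
            have := hq.sq z
            rw [← pow_two] at this
            exact_mod_cast this
          rw [this, one_zpow, one_mul]
      · rintro (rfl | rfl)
        · exact one_mem _
        · exact Subgroup.mem_zpowers z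
    have hzero : ∀ y : G, (QuotientGroup.mk' (Subgroup.zpowers z)) (H63.sqQ hsq hexp y) = 1 ↔
        y ∈ N ⊔ Subgroup.zpowers x := by
      intro y
      have h3 : (QuotientGroup.mk' (Subgroup.zpowers z)) (H63.sqQ hsq hexp y) = 1 ↔
          H63.sqQ hsq hexp y ∈ Subgroup.zpowers z := QuotientGroup.eq_one_iff _
      rw [h3, hzp]
      constructor
      · rintro (h | h)
        · exact (le_sup_left : N ≤ _) ((H63.sqQ_eq_one_iff hsq hexp y).1 h)
        · have h4 : y ^ 2 = x ^ 2 := congrArg (fun a : H63.OmZ G => (a : G)) h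
          have h5 : y * x⁻¹ ∈ N := by
            rw [hNmem]
            have hc : Commute y x⁻¹ := (Subgroup.mem_center_iff.1 (inv_mem hx) y)
            rw [hc.mul_pow, h4, inv_pow, mul_inv_cancel]
          have h6 : y = y * x⁻¹ * x := by group
          rw [h6]
          exact mul_mem ((le_sup_left : N ≤ _) h5)
            ((le_sup_right : Subgroup.zpowers x ≤ _) (Subgroup.mem_zpowers x))
      · intro h
        haveI : N.Normal := by rw [← hOm]; exact ⟨fun n hn g => by
          have := Subgroup.mem_center_iff.1 hn.1 g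
          rw [this, mul_inv_cancel_right]; exact hn⟩
        obtain ⟨m, hm, w, hw, rfl⟩ := Subgroup.mem_sup_of_normal_left.1 h
        obtain ⟨k, rfl⟩ := Subgroup.mem_zpowers_iff.1 hw
        have hc : Commute m (x ^ k) :=
          ((Subgroup.mem_center_iff.1 (hNZ hm) (x ^ k))).symm
        have h7 : H63.sqQ hsq hexp (m * x ^ k) = z ^ k := by
          apply H63.om_ext
          rw [H63.sqQ_coe, hc.mul_pow, (hNmem m).1 hm, one_mul, Subgroup.coe_zpow]
          change (x ^ k) ^ 2 = (x ^ 2) ^ k
          rw [← zpow_natCast, ← zpow_mul, ← zpow_natCast x 2, ← zpow_mul, mul_comm]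
        rw [← hzp, h7]
        exact Subgroup.zpow_mem_zpowers z k
    haveI : N.Normal := by rw [← hOm]; exact ⟨fun n hn g => by
          have := Subgroup.mem_center_iff.1 hn.1 g
          rw [this, mul_inv_cancel_right]; exact hn⟩
    obtain ⟨k, hk⟩ := IsPGroup.iff_card.1 (hG.to_subgroup (N ⊔ Subgroup.zpowers x))
    have hkn : k ≤ n + 1 := by
      -- |K| ≤ 2 |N|
      have hpos : N.relIndex (N ⊔ Subgroup.zpowers x) ≤ 2 := by
        rw [← QuotientGroup.ker_mk' N, Subgroup.relIndex_ker, Subgroup.map_sup, MonoidHom.map_zpowers,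
          (Subgroup.map_eq_bot_iff _).2 (by rw [QuotientGroup.ker_mk']), bot_sup_eq, Nat.card_zpowers]
        apply Nat.le_of_dvd (by norm_num)
        apply orderOf_dvd_of_pow_eq_one
        rw [← map_pow]
        apply (QuotientGroup.eq_one_iff _).2
        rw [hNmem, ← pow_mul]; exact hexp x
      have h3 := H63.card_mul_relIndex (le_sup_left : N ≤ N ⊔ Subgroup.zpowers x)
      rw [hn, hk] at h3
      have h4 : 2 ^ k ≤ 2 ^ (n + 1) := by
        rw [← h3, pow_succ]; exact Nat.mul_le_mul_left _ hpos
      exact (Nat.pow_le_pow_iff_right (by norm_num)).1 h4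
    obtain ⟨a', ha'⟩ := IsPGroup.iff_card.1 ((hG.to_subgroup (H63.OmZ G)).to_quotient (Subgroup.zpowers z))
    have haa : a = a' + 1 := by
      have h3 := Subgroup.card_mul_index (Subgroup.zpowers z)
      rw [Nat.card_zpowers, hzo, Subgroup.index_eq_card, ha', ha] at h3
      have h4 : 2 ^ (a' + 1) = 2 ^ a := by rw [← h3]; ring
      exact (Nat.pow_right_injective (le_refl 2) h4).symm
    have hb2 := hq'.bound (N ⊔ Subgroup.zpowers x) (by
        intro w hw y
        have hwZ : w ∈ Subgroup.center G :=
          (sup_le hNZ (Subgroup.zpowers_le.2 hx)) hw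
        have : H63.commB h2 hsq y w = 1 := by
          apply H63.om_ext
          rw [H63.commB_coe]
          exact commutatorElement_eq_one_iff_mul_comm.2 (Subgroup.mem_center_iff.1 hwZ y).symm
        rw [this, map_one]) hg hk ha' (c := k) (by
        rw [← hk]
        exact Nat.card_congr (Equiv.subtypeEquivRight hzero))
    omega
  have hZeq : Subgroup.center G = N := le_antisymm hZN hNZ
  -- step B: the commutator subgroup is the centre
  have hcomm : commutator G = Subgroup.center G := by
    by_contra hne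
    have hlt : commutator G < Subgroup.center G := lt_of_le_of_ne h2 hne
    obtain ⟨y, hy, hyc⟩ := SetLike.exists_of_lt hlt
    -- quotient of Ω by G'
    set D : Subgroup (H63.OmZ G) := (commutator G).subgroupOf (H63.OmZ G) with hD
    have hyO : y ∈ H63.OmZ G := by rw [hOm, ← hZeq]; exact hy
    set yA : H63.OmZ G := ⟨y, hyO⟩
    have hyD : (QuotientGroup.mk' D) yA ≠ 1 := by
      intro h
      have h3 : yA ∈ D := (QuotientGroup.eq_one_iff _).1 h
      exact hyc (Subgroup.mem_subgroupOf.1 h3)
    obtain ⟨φ, hφ⟩ : ∃ φ : (H63.OmZ G ⧸ D) →* ℤˣ, φ ((QuotientGroup.mk' D) yA) ≠ 1 := by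
      have hexpA : Monoid.exponent (H63.OmZ G ⧸ D) ∣ 2 := by
        rw [Monoid.exponent_dvd_iff_forall_pow_eq_one]
        intro b
        obtain ⟨b, rfl⟩ := QuotientGroup.mk'_surjective D b
        rw [← map_pow, pow_two, hq.sq b, map_one]
      haveI : HasEnoughRootsOfUnity ℤ (Monoid.exponent (H63.OmZ G ⧸ D)) := by
        rcases (Nat.dvd_prime Nat.prime_two).1 hexpA with h1 | h1
        · rw [h1]; exact H63.QMap.hasEnough_one
        · rw [h1]; exact H63.QMap.hasEnough_two
      exact CommGroup.exists_apply_ne_one_of_hasEnoughRootsOfUnity _ ℤ hyD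
    set χ : H63.OmZ G →* ℤˣ := φ.comp (QuotientGroup.mk' D) with hχ
    have hχβ : ∀ x w, χ (H63.commB h2 hsq x w) = 1 := by
      intro x w
      rw [hχ, MonoidHom.comp_apply]
      have : QuotientGroup.mk' D (H63.commB h2 hsq x w) = 1 := by
        apply (QuotientGroup.eq_one_iff _).2
        rw [hD, Subgroup.mem_subgroupOf, H63.commB_coe]
        exact Subgroup.commutator_mem_commutator (Subgroup.mem_top w) (Subgroup.mem_top x)
      rw [this, map_one]
    let f : G →* ℤˣ :=
      { toFun := fun x => χ (H63.sqQ hsq hexp x)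
        map_one' := by rw [hq.map_one, map_one]
        map_mul' := fun x w => by rw [hq.mul, map_mul, map_mul, hχβ, mul_one] }
    have hf : ∀ x, f x = χ (H63.sqQ hsq hexp x) := fun x => rfl
    have hq' := hq.restrict f.ker χ.ker (fun x => by
      have := x.2
      rw [MonoidHom.mem_ker] at this ⊢
      exact this) (fun x w => by rw [MonoidHom.mem_ker]; exact hχβ x w)
    obtain ⟨g', hg'⟩ := IsPGroup.iff_card.1 (hG.to_subgroup f.ker)
    obtain ⟨a', ha'⟩ := IsPGroup.iff_card.1 ((hG.to_subgroup (H63.OmZ G)).to_subgroup χ.ker)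
    have hgg : g ≤ g' + 1 := by
      have h3 := Subgroup.card_mul_index f.ker
      have h4 : f.ker.index ≤ 2 := by
        rw [Subgroup.index_ker]
        calc Nat.card f.range ≤ Nat.card ℤˣ := Nat.card_le_card_of_injective _ Subtype.val_injective
          _ = 2 := by rw [Nat.card_eq_fintype_card]; rfl
      have h5 : 2 ^ g ≤ 2 ^ (g' + 1) := by
        rw [← hg, ← h3, hg', pow_succ]; exact Nat.mul_le_mul_left _ h4
      exact (Nat.pow_le_pow_iff_right (by norm_num)).1 h5
    have haa : a' + 1 ≤ a := by
      have h3 : χ.ker < ⊤ := by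
        refine lt_of_le_of_ne le_top ?_
        intro h
        apply hφ
        have : yA ∈ χ.ker := by rw [h]; exact Subgroup.mem_top _
        exact this
      have h4 : Nat.card χ.ker < Nat.card (H63.OmZ G) := by
        have h5 : Nat.card χ.ker ≠ Nat.card (H63.OmZ G) := by
          intro h5
          exact h3.ne (Subgroup.eq_top_of_card_eq _ h5)
        exact lt_of_le_of_ne (Subgroup.card_le_card_group _) h5
      rw [ha', ha] at h4
      exact (Nat.pow_lt_pow_iff_right (by norm_num)).1 h4
    have hNf : N ≤ f.ker := by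
      intro x hx
      rw [MonoidHom.mem_ker, hf, (H63.sqQ_eq_one_iff hsq hexp x).2 hx, map_one]
    have hb2 := hq'.bound (N.subgroupOf f.ker) (by
        intro w hw y
        apply Subtype.ext
        change H63.commB h2 hsq y w = 1
        apply H63.om_ext
        rw [H63.commB_coe]
        exact commutatorElement_eq_one_iff_mul_comm.2
          (Subgroup.mem_center_iff.1 (hNZ (Subgroup.mem_subgroupOf.1 hw)) y).symm) hg' (k := n) (by
        rw [Nat.card_congr (Subgroup.subgroupOfEquivOfLe hNf).toEquiv]
        exact hn) ha' (c := n) (by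
        rw [← hn]
        apply Nat.card_congr
        refine
          { toFun := fun x => ⟨x.1.1, ?_⟩
            invFun := fun x => ⟨⟨x.1, hNf x.2⟩, ?_⟩
            left_inv := fun x => rfl
            right_inv := fun x => rfl }
        · exact (H63.sqQ_eq_one_iff hsq hexp _).1 (congrArg Subtype.val x.2)
        · exact Subtype.ext ((H63.sqQ_eq_one_iff hsq hexp _).2 x.2))
    omega
  refine ⟨hG, le_antisymm ?_ ?_, hcomm⟩
  · exact Solv.frattini_le_of_elementary_quotient (p := 2) _ h2 hsq
  · rw [← hcomm]; exact Solv.commutator_le_frattini_of_pGroup hG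

end Cfsg.Agent.S3773
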