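import Cfsg.Statements.S3774
import Mathlib.Data.Nat.GCD.Basic
import Mathlib.Tactic

set_option autoImplicit false
open Cfsg

namespace Cfsg.Agent.S3774

/-- Let G be a nontrivial finite 2-group whose automorphism group permutes the involutions of G transitively. Then every involution of G is central, so that the involutions together with 1 form the subgroup Ω₁(Z(G)), and if this subgroup has order q then |G| is a power of q. -/
theorem result {G : Type*} [Group G] [Finite G] [Nontrivial G] (hG : IsPGroup 2 G) (htrans : ∀ x y : G, x ≠ 1 → x ^ 2 = 1 → y ≠ 1 → y ^ 2 = 1 → ∃ a : MulAut G, a x = y) : (∀ x : G, x ^ 2 = 1 → x ∈ Subgroup.center G) ∧ ∃ m : ℕ, Nat.card G = Nat.card {z : G // z ^ 2 = 1} ^ m := by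
  classical
  have hcentral : ∀ x : G, x ^ 2 = 1 → x ∈ Subgroup.center G := by
    intro x hx
    by_cases hx1 : x = 1
    · rw [hx1]; exact Subgroup.one_mem _
    haveI : Nontrivial (Subgroup.center G) := hG.center_nontrivial
    have hZ : IsPGroup 2 (Subgroup.center G) := hG.to_subgroup _
    obtain ⟨n, hn, hcard⟩ := hZ.nontrivial_iff_card.1 inferInstance
    have hdvd : 2 ∣ Nat.card (Subgroup.center G) := by
      rw [hcard]; exact dvd_pow_self 2 (by omega)
    obtain ⟨z, hz⟩ := exists_prime_orderOf_dvd_card' 2 hdvd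
    have hz1 : (z : G) ≠ 1 := by
      intro h
      rw [← Subgroup.orderOf_coe, h, orderOf_one] at hz
      omega
    have hz2 : (z : G) ^ 2 = 1 := by
      have := pow_orderOf_eq_one z
      rw [hz] at this
      exact_mod_cast congrArg Subtype.val this
    obtain ⟨a, ha⟩ := htrans z x hz1 hz2 hx1 hx
    have hc : (Subgroup.center G).Characteristic := inferInstance
    have := (Subgroup.characteristic_iff_le_comap.1 hc) a z.2
    rw [← ha]
    simpa using this
  refine ⟨hcentral, ?_⟩
  haveI := Fintype.ofFinite G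
  -- the involution power
  let f : G → G := fun g => g ^ (orderOf g / 2)
  have horder : ∀ g : G, g ≠ 1 → 2 ∣ orderOf g := by
    intro g hg
    obtain ⟨k, hk⟩ := (IsPGroup.iff_orderOf.1 hG) g
    rw [hk]
    apply dvd_pow_self
    rintro rfl
    rw [pow_zero, orderOf_eq_one_iff] at hk
    exact hg hk
  have hf1 : ∀ g : G, g ≠ 1 → f g ≠ 1 ∧ f g ^ 2 = 1 := by
    intro g hg
    have h2 := horder g hg
    have hpos : 0 < orderOf g := orderOf_pos g
    constructor
    · intro h
      have h3 : orderOf g ∣ orderOf g / 2 := orderOf_dvd_of_pow_eq_one h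
      have h4 : 0 < orderOf g / 2 := by omega
      have := Nat.le_of_dvd h4 h3
      omega
    · show (g ^ (orderOf g / 2)) ^ 2 = 1
      rw [← pow_mul, Nat.div_mul_cancel h2, pow_orderOf_eq_one]
  have hfa : ∀ (a : MulAut G) (g : G), f (a g) = a (f g) := by
    intro a g
    show (a g) ^ (orderOf (a g) / 2) = a (g ^ (orderOf g / 2))
    rw [map_pow]
    congr 2
    exact orderOf_injective a.toMonoidHom a.injective g
  -- counting
  set T : Finset G := Finset.univ.filter (fun z => z ≠ 1 ∧ z ^ 2 = 1) with hT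
  set S : Finset G := Finset.univ.erase 1 with hS
  have hmaps : ∀ g ∈ S, f g ∈ T := by
    intro g hg
    rw [hT, Finset.mem_filter]
    exact ⟨Finset.mem_univ _, hf1 g (Finset.ne_of_mem_erase hg)⟩
  have hsum := Finset.card_eq_sum_card_fiberwise hmaps
  have hTne : T.Nonempty := by
    obtain ⟨g, hg⟩ := exists_ne (1 : G)
    exact ⟨f g, hmaps g (Finset.mem_erase.2 ⟨hg, Finset.mem_univ _⟩)⟩
  obtain ⟨z0, hz0⟩ := hTne
  have hz0' := (Finset.mem_filter.1 hz0).2
  have hconst : ∀ z ∈ T, (S.filter (fun g => f g = z)).card = (S.filter (fun g => f g = z0)).card := by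
    intro z hz
    have hz' := (Finset.mem_filter.1 hz).2
    obtain ⟨a, ha⟩ := htrans z z0 hz'.1 hz'.2 hz0'.1 hz0'.2
    apply Finset.card_bij (fun g _ => a g)
    · intro g hg
      rw [Finset.mem_filter] at hg ⊢
      refine ⟨Finset.mem_erase.2 ⟨?_, Finset.mem_univ _⟩, ?_⟩
      · intro h
        exact Finset.ne_of_mem_erase hg.1 ((map_eq_one_iff a a.injective).1 h)
      · rw [hfa, hg.2, ha]
    · intro g _ g' _ h
      exact a.injective h
    · intro g hg
      rw [Finset.mem_filter] at hg
      refine ⟨a⁻¹ g, ?_, by simp⟩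
      rw [Finset.mem_filter]
      refine ⟨Finset.mem_erase.2 ⟨?_, Finset.mem_univ _⟩, ?_⟩
      · intro h
        exact Finset.ne_of_mem_erase hg.1 ((map_eq_one_iff a⁻¹ (a⁻¹).injective).1 h)
      · rw [hfa, hg.2, ← ha]; simp
  rw [Finset.sum_congr rfl hconst, Finset.sum_const, smul_eq_mul] at hsum
  have hScard : S.card = Nat.card G - 1 := by
    rw [hS, Finset.card_erase_of_mem (Finset.mem_univ _), Finset.card_univ, Nat.card_eq_fintype_card]
  have hTcard : T.card = Nat.card {z : G // z ^ 2 = 1} - 1 := by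
    have h1 : T = (Finset.univ.filter (fun z : G => z ^ 2 = 1)).erase 1 := by
      ext z
      simp [hT, and_comm]
    rw [h1, Finset.card_erase_of_mem (by simp), Nat.card_eq_fintype_card, Fintype.card_subtype]
  -- prime power orders
  obtain ⟨m, hm⟩ := IsPGroup.iff_card.1 hG
  let Ω : Subgroup G :=
    { carrier := {z | z ^ 2 = 1}
      one_mem' := by simp
      mul_mem' := by
        intro a b ha hb
        have hab : Commute a b := (Subgroup.mem_center_iff.1 (hcentral b hb) a)
        show (a * b) ^ 2 = 1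
        rw [hab.mul_pow, ha, hb, one_mul]
      inv_mem' := by
        intro a ha
        show (a⁻¹) ^ 2 = 1
        rw [inv_pow, ha, inv_one] }
  have hΩ : Nat.card {z : G // z ^ 2 = 1} = Nat.card Ω := rfl
  obtain ⟨b, hb⟩ := IsPGroup.iff_card.1 (hG.to_subgroup Ω)
  rw [← hΩ] at hb
  have hdvd : 2 ^ b - 1 ∣ 2 ^ m - 1 := by
    rw [← hm, ← hb, ← hScard, hsum, hTcard]
    exact dvd_mul_right _ _
  have hgcd := Nat.pow_sub_one_gcd_pow_sub_one 2 b m
  rw [Nat.gcd_eq_left hdvd] at hgcd
  have hbm : b = Nat.gcd b m := by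
    have h1 : 2 ^ b = 2 ^ Nat.gcd b m := by
      have := Nat.one_le_two_pow (n := b)
      have := Nat.one_le_two_pow (n := Nat.gcd b m)
      omega
    exact Nat.pow_right_injective le_rfl h1
  obtain ⟨c, hc⟩ : b ∣ m := hbm ▸ Nat.gcd_dvd_right b m
  refine ⟨c, ?_⟩
  rw [hm, hb, ← pow_mul, hc]

end Cfsg.Agent.S3774
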