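import Cfsg.Statements.S3775
import Cfsg.Agent.Solv.Frattini

set_option autoImplicit false
open Cfsg

namespace Cfsg.Agent.S3775

open Subgroup

def Inv {A : Type*} [CommGroup A] (X : Subgroup (MulAut A)) (B : Subgroup A) : Prop :=
  ∀ x ∈ X, B.map x.toMonoidHom = B

theorem inv_of_mem {A : Type*} [CommGroup A] {X : Subgroup (MulAut A)} {B : Subgroup A}
    (h : ∀ x ∈ X, ∀ b ∈ B, x b ∈ B) : Inv X B := by
  intro x hx
  apply le_antisymm
  · rintro _ ⟨b, hb, rfl⟩
    exact h x hx b hb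
  · intro b hb
    refine ⟨x⁻¹ b, h x⁻¹ (X.inv_mem hx) b hb, ?_⟩
    change x (x⁻¹ b) = b
    exact MulAut.apply_inv_self A x b

theorem Inv.mem {A : Type*} [CommGroup A] {X : Subgroup (MulAut A)} {B : Subgroup A}
    (h : Inv X B) {x : MulAut A} (hx : x ∈ X) {b : A} (hb : b ∈ B) : x b ∈ B := by
  rw [← h x hx]
  exact ⟨b, hb, rfl⟩

/-- Homocyclic subgroups of maximal exponent are direct factors. -/
theorem exists_compl {A : Type*} [CommGroup A] [Finite A] {p : ℕ} (hp : p.Prime) {n : ℕ} (hn : 1 ≤ n)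
    (hexp : ∀ x : A, x ^ p ^ n = 1) (W : Subgroup A)
    (hW : ∀ y ∈ W, y ^ p ^ (n - 1) = 1 → ∃ z ∈ W, y = z ^ p) :
    ∃ C : Subgroup A, W ⊓ C = ⊥ ∧ W ⊔ C = ⊤ := by
  classical
  obtain ⟨C, -, hC⟩ := (Set.toFinite {C : Subgroup A | W ⊓ C = ⊥}).exists_le_maximal (a := ⊥)
    (by simp)
  have hC0 : W ⊓ C = ⊥ := hC.prop
  refine ⟨C, hC0, ?_⟩
  by_contra hne
  obtain ⟨x, hx⟩ : ∃ x : A, x ∉ W ⊔ C := by
    by_contra hcon
    push Not at hcon
    exact hne (Subgroup.eq_top_iff' _ |>.2 hcon)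
  have hex : ∃ k, x ^ p ^ k ∈ W ⊔ C := ⟨n, by rw [hexp]; exact one_mem _⟩
  set k := Nat.find hex with hk
  have hk1 : x ^ p ^ k ∈ W ⊔ C := Nat.find_spec hex
  have hk0 : k ≠ 0 := by
    intro h
    rw [h, pow_zero, pow_one] at hk1
    exact hx hk1
  have hk2 : x ^ p ^ (k - 1) ∉ W ⊔ C := Nat.find_min hex (by omega)
  set x' := x ^ p ^ (k - 1) with hx'
  have hx'p : x' ^ p ∈ W ⊔ C := by
    rw [hx', ← pow_mul, ← pow_succ, Nat.sub_add_cancel (by omega)]
    exact hk1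
  obtain ⟨w, hw, c, hc, hwc⟩ := Subgroup.mem_sup.1 hx'p
  have hw1 : w ^ p ^ (n - 1) = 1 := by
    have h1 : (w * c) ^ p ^ (n - 1) = 1 := by
      rw [hwc, ← pow_mul, mul_comm, ← pow_succ, Nat.sub_add_cancel hn, hexp]
    rw [mul_pow] at h1
    have h2 : w ^ p ^ (n - 1) ∈ W ⊓ C := by
      refine ⟨W.pow_mem hw _, ?_⟩
      rw [eq_inv_of_mul_eq_one_left h1]
      exact C.inv_mem (C.pow_mem hc _)
    rwa [hC0, Subgroup.mem_bot] at h2
  obtain ⟨z, hz, rfl⟩ := hW w hw hw1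
  set u := x' * z⁻¹ with hu
  have hup : u ^ p ∈ C := by
    have : u ^ p = c := by
      rw [hu, mul_pow, ← hwc, inv_pow]
      rw [mul_right_comm, mul_inv_cancel, one_mul]
    rw [this]; exact hc
  have hun : u ∉ W ⊔ C := by
    intro h
    apply hk2
    have : x' = u * z := by rw [hu, inv_mul_cancel_right]
    rw [this]
    exact mul_mem h ((le_sup_left : W ≤ W ⊔ C) hz)
  have hlt : C < C ⊔ zpowers u := by
    refine lt_of_le_of_ne le_sup_left ?_
    intro h
    apply hun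
    apply (le_sup_right : C ≤ W ⊔ C)
    rw [h]
    exact (le_sup_right : zpowers u ≤ _) (mem_zpowers u)
  have h3 : ¬ (W ⊓ (C ⊔ zpowers u) = ⊥) := fun h => hlt.not_ge (hC.le_of_ge h hlt.le)
  obtain ⟨y, hy⟩ := (Subgroup.ne_bot_iff_exists_ne_one).1 h3
  have hyW : (y : A) ∈ W := y.2.1
  obtain ⟨c', hc', v, hv, hcv⟩ := Subgroup.mem_sup.1 y.2.2
  obtain ⟨l, rfl⟩ := mem_zpowers_iff.1 hv
  by_cases hpl : (p : ℤ) ∣ l
  · obtain ⟨j, rfl⟩ := hpl
    apply hy
    have h4 : (y : A) ∈ W ⊓ C := by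
      refine ⟨hyW, ?_⟩
      rw [← hcv, zpow_mul, zpow_natCast]
      exact C.mul_mem hc' (C.zpow_mem hup j)
    rw [hC0, mem_bot] at h4
    exact Subtype.ext h4
  · apply hun
    have hcop : IsCoprime (p : ℤ) l := by
      rw [Int.isCoprime_iff_gcd_eq_one]
      exact (Nat.Prime.coprime_iff_not_dvd hp).2 (fun h => hpl (Int.natCast_dvd.2 h))
    obtain ⟨s, t, hst⟩ := hcop
    have h5 : u ^ l ∈ W ⊔ C := by
      have : u ^ l = c'⁻¹ * y := by rw [← hcv]; group
      rw [this]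
      exact mul_mem ((le_sup_right : C ≤ W ⊔ C) (C.inv_mem hc')) ((le_sup_left : W ≤ W ⊔ C) hyW)
    have h6 : u = (u ^ p) ^ s * (u ^ l) ^ t := by
      rw [← zpow_natCast u p, ← zpow_mul, ← zpow_mul, ← zpow_add]
      have : (p : ℤ) * s + l * t = 1 := by rw [← hst]; ring
      rw [this, zpow_one]
    rw [h6]
    exact mul_mem (zpow_mem ((le_sup_right : C ≤ W ⊔ C) hup) s) (zpow_mem h5 t)

/-- Averaging an endomorphism over a group of automorphisms. -/
noncomputable def avg {A : Type*} [CommGroup A] (X : Subgroup (MulAut A)) [Fintype X] (m : ℕ) (π : A →* A) :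
    A →* A where
  toFun a := (∏ x : X, (x : MulAut A) (π ((x : MulAut A)⁻¹ a))) ^ m
  map_one' := by simp
  map_mul' a b := by
    simp only [map_mul]
    rw [Finset.prod_mul_distrib, mul_pow]

theorem avg_equiv {A : Type*} [CommGroup A] (X : Subgroup (MulAut A)) [Fintype X] (m : ℕ) (π : A →* A)
    {y : MulAut A} (hy : y ∈ X) (a : A) : avg X m π (y a) = y (avg X m π a) := by
  change (∏ x : X, (x : MulAut A) (π ((x : MulAut A)⁻¹ (y a)))) ^ m =
    y ((∏ x : X, (x : MulAut A) (π ((x : MulAut A)⁻¹ a))) ^ m)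
  rw [map_pow, map_prod, ← Equiv.prod_comp (Equiv.mulLeft (⟨y, hy⟩ : X))]
  congr 1
  apply Finset.prod_congr rfl
  intro x _
  rw [Equiv.coe_mulLeft]
  have h1 : (((⟨y, hy⟩ : X) * x : X) : MulAut A) = y * (x : MulAut A) := rfl
  rw [h1, MulAut.mul_apply]
  congr 3
  rw [mul_inv_rev, MulAut.mul_apply, MulAut.inv_apply_self]

/-- Fitting's lemma: some power of an endomorphism of a finite monoid element is idempotent. -/
theorem exists_idem {M : Type*} [Monoid M] [Finite M] (f : M) : ∃ N : ℕ, 1 ≤ N ∧ f ^ N * f ^ N = f ^ N := by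
  obtain ⟨i, j, hij, h⟩ := Finite.exists_ne_map_eq_of_infinite (fun n : ℕ => f ^ n)
  wlog hlt : i < j generalizing i j
  · exact this j i hij.symm h.symm (lt_of_le_of_ne (not_lt.1 hlt) hij.symm)
  have key : ∀ t k, i ≤ k → f ^ (k + t * (j - i)) = f ^ k := by
    intro t
    induction t with
    | zero => intro k _; simp
    | succ t ih =>
      intro k hk
      have h1 : k + (t + 1) * (j - i) = (k + (j - i)) + t * (j - i) := by ring
      rw [h1, ih (k + (j - i)) (by omega)]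
      have h2 : k + (j - i) = (k - i) + j := by omega
      rw [h2, pow_add, ← h, ← pow_add]
      congr 1; omega
  refine ⟨(i + 1) * (j - i), ?_, ?_⟩
  · have : 1 ≤ j - i := by omega
    nlinarith
  · rw [← pow_add]
    apply key
    have : 1 ≤ j - i := by omega
    nlinarith

theorem one_two {A : Type*} [CommGroup A] [Finite A] {p : ℕ} (hp : p.Prime) (hA : IsPGroup p A)
    (X : Subgroup (MulAut A)) (hX : (Nat.card X).Coprime p)
    (hind : ¬ ∃ B C : Subgroup A, B ≠ ⊥ ∧ C ≠ ⊥ ∧ Inv X B ∧ Inv X C ∧ B ⊓ C = ⊥ ∧ B ⊔ C = ⊤)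
    (B : Subgroup A) (hB : Inv X B) (hBp : ∀ b ∈ B, b ^ p = 1) : B = ⊥ ∨ ∀ a : A, a ∈ B ↔ a ^ p = 1 := by
  classical
  haveI : Fact p.Prime := ⟨hp⟩
  by_contra hcon
  push Not at hcon
  obtain ⟨hBbot, a₀, ha₀⟩ := hcon
  have ha₀' : a₀ ∉ B ∧ a₀ ^ p = 1 := by
    rcases ha₀ with h | h
    · exact absurd (hBp a₀ h.1) h.2
    · exact h
  apply hind
  -- exponent
  have hex : ∃ n, ∀ x : A, x ^ p ^ n = 1 := by
    obtain ⟨n, hn⟩ := IsPGroup.iff_card.1 hA
    exact ⟨n, fun x => by rw [← hn]; exact pow_card_eq_one'⟩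
  set n := Nat.find hex with hn
  have hexp : ∀ x : A, x ^ p ^ n = 1 := Nat.find_spec hex
  have hn1 : 1 ≤ n := by
    by_contra h
    have h0 : n = 0 := by omega
    have h1 : a₀ = 1 := by
      have := hexp a₀
      rwa [h0, pow_zero, pow_one] at this
    exact ha₀'.1 (h1 ▸ B.one_mem)
  have hnmin : ∃ x : A, x ^ p ^ (n - 1) ≠ 1 := by
    have := Nat.find_min hex (m := n - 1) (by omega)
    push Not at this
    exact this
  -- V
  set V : Subgroup A := (powMonoidHom (p ^ (n - 1)) : A →* A).range with hV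
  have hVmem : ∀ v, v ∈ V ↔ ∃ x, x ^ p ^ (n - 1) = v := fun v => Iff.rfl
  have hVp : ∀ v ∈ V, v ^ p = 1 := by
    rintro v ⟨x, rfl⟩
    change (x ^ p ^ (n - 1)) ^ p = 1
    rw [← pow_mul, ← pow_succ, Nat.sub_add_cancel hn1, hexp]
  have hVinv : Inv X V := by
    apply inv_of_mem
    rintro x hx v ⟨y, rfl⟩
    exact ⟨x y, (map_pow x y _).symm⟩
  have hVbot : V ≠ ⊥ := by
    obtain ⟨x, hx⟩ := hnmin
    intro h
    apply hx
    have : x ^ p ^ (n - 1) ∈ V := ⟨x, rfl⟩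
    rwa [h, mem_bot] at this
  -- V₁
  obtain ⟨V₁, hV₁V, hV₁inv, hV₁bot, b₀, hb₀, hb₀p⟩ : ∃ V₁ : Subgroup A, V₁ ≤ V ∧ Inv X V₁ ∧ V₁ ≠ ⊥ ∧
      ∃ b₀ : A, b₀ ∉ V₁ ∧ b₀ ^ p = 1 := by
    by_cases h : ∀ a : A, a ^ p = 1 → a ∈ V
    · exact ⟨B, fun b hb => h b (hBp b hb), hB, hBbot, a₀, ha₀'⟩
    · push Not at h
      obtain ⟨b, hb, hb'⟩ := h
      exact ⟨V, le_rfl, hVinv, hVbot, b, hb', hb⟩
  -- W minimal with W^(p^(n-1)) ⊇ V₁
  obtain ⟨W, -, hWmin⟩ := (Set.toFinite {W : Subgroup A | W.map (powMonoidHom (p ^ (n - 1)) : A →* A) = V₁}).exists_le_minimal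
    (a := V₁.comap (powMonoidHom (p ^ (n - 1)) : A →* A)) (by
      change Subgroup.map _ (Subgroup.comap _ _) = _
      rw [Subgroup.map_comap_eq, inf_eq_right]
      exact hV₁V)
  have hWV : W.map (powMonoidHom (p ^ (n - 1)) : A →* A) = V₁ := hWmin.prop
  have hWhom : ∀ y ∈ W, y ^ p ^ (n - 1) = 1 → ∃ z ∈ W, y = z ^ p := by
    intro y hy hy1
    by_contra hcon
    push Not at hcon
    -- the subgroup of p-th powers of W
    set N : Subgroup W := (powMonoidHom p : W →* W).range with hN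
    have hyN : (⟨y, hy⟩ : W) ∉ N := by
      rintro ⟨z, hz⟩
      exact hcon z z.2 (congrArg Subtype.val hz).symm
    have hfr : frattini W ≤ N := by
      apply Solv.frattini_le_of_elementary_quotient (p := p) N
      · rw [commutator_def, Subgroup.commutator_le]
        intro a _ b _
        rw [commutatorElement_eq_one_iff_mul_comm.2 (mul_comm a b)]
        exact one_mem _
      · intro x
        exact ⟨x, rfl⟩
    have hyf : (⟨y, hy⟩ : W) ∉ frattini W := fun h => hyN (hfr h)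
    obtain ⟨M, hM, hyM⟩ : ∃ M : Subgroup W, IsCoatom M ∧ (⟨y, hy⟩ : W) ∉ M := by
      by_contra h
      push Not at h
      apply hyf
      rw [frattini, Order.radical, mem_iInf]
      intro M
      rw [mem_iInf]
      exact fun hM => h M hM
    have hMlt : M.map W.subtype < W := by
      refine lt_of_le_of_ne (map_subtype_le M) ?_
      intro h
      apply hyM
      have : y ∈ M.map W.subtype := by rw [h]; exact hy
      obtain ⟨m, hm, hmy⟩ := this
      have h2 : m = ⟨y, hy⟩ := Subtype.ext hmy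
      rw [← h2]; exact hm
    have hMsup : M ⊔ zpowers (⟨y, hy⟩ : W) = ⊤ := by
      apply hM.2
      refine lt_of_le_of_ne le_sup_left ?_
      intro h
      apply hyM
      rw [h]
      exact (le_sup_right : zpowers (⟨y, hy⟩ : W) ≤ _) (mem_zpowers _)
    have hMV : (M.map W.subtype).map (powMonoidHom (p ^ (n - 1)) : A →* A) = V₁ := by
      rw [← hWV]
      apply le_antisymm (map_mono hMlt.le)
      rintro _ ⟨w, hw, rfl⟩
      have h1 : (⟨w, hw⟩ : W) ∈ M ⊔ zpowers (⟨y, hy⟩ : W) := by rw [hMsup]; exact mem_top _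
      obtain ⟨m, hm, v, hv, hmv⟩ := Subgroup.mem_sup.1 h1
      obtain ⟨l, rfl⟩ := mem_zpowers_iff.1 hv
      refine ⟨(m : A), ⟨m, hm, rfl⟩, ?_⟩
      have h2 : (m : A) * y ^ l = w := congrArg Subtype.val hmv
      change (m : A) ^ p ^ (n - 1) = w ^ p ^ (n - 1)
      rw [← h2, mul_pow, ← zpow_natCast (y ^ l), ← zpow_mul, mul_comm l, zpow_mul, zpow_natCast, hy1,
        one_zpow, mul_one]
    exact hMlt.not_ge (hWmin.le_of_le hMV hMlt.le)
  obtain ⟨C, hWC, hWC'⟩ := exists_compl hp hn1 hexp W hWhom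
  -- Ω₁(W) = V₁
  have hΩW : ∀ y ∈ W, y ^ p = 1 → y ∈ V₁ := by
    have key : ∀ k, k ≤ n - 1 → ∀ y ∈ W, y ^ p = 1 → ∃ z ∈ W, y = z ^ p ^ k := by
      intro k
      induction k with
      | zero => intro _ y hy _; exact ⟨y, hy, by simp⟩
      | succ k ih =>
        intro hk y hy hyp
        obtain ⟨z, hz, rfl⟩ := ih (by omega) y hy hyp
        obtain ⟨z', hz', rfl⟩ := hWhom z hz (by
          rw [← pow_mul, ← pow_succ] at hyp
          have h1 : p ^ (n - 1) = p ^ (k + 1) * p ^ (n - 1 - (k + 1)) := by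
            rw [← pow_add]; congr 1; omega
          rw [h1, pow_mul, hyp, one_pow])
        exact ⟨z', hz', by rw [← pow_mul, ← pow_succ']⟩
    intro y hy hyp
    obtain ⟨z, hz, rfl⟩ := key (n - 1) le_rfl y hy hyp
    rw [← hWV]
    exact ⟨z, hz, rfl⟩
  have hV₁W : V₁ ≤ W := by
    rw [← hWV]
    rintro _ ⟨w, hw, rfl⟩
    exact W.pow_mem hw _
  have hV₁p : ∀ v ∈ V₁, v ^ p = 1 := fun v hv => hVp v (hV₁V hv)
  -- the projection
  obtain ⟨π, hπW, hπid⟩ : ∃ π : A →* A, (∀ a, π a ∈ W) ∧ ∀ w ∈ W, π w = w := by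
    have hex : ∀ a : A, ∃ w ∈ W, w⁻¹ * a ∈ C := by
      intro a
      have : a ∈ W ⊔ C := by rw [hWC']; exact mem_top a
      obtain ⟨w, hw, c, hc, rfl⟩ := Subgroup.mem_sup.1 this
      exact ⟨w, hw, by rw [inv_mul_cancel_left]; exact hc⟩
    choose f hf1 hf2 using hex
    have huniq : ∀ a w, w ∈ W → w⁻¹ * a ∈ C → f a = w := by
      intro a w hw hwa
      have h1 : f a * w⁻¹ ∈ W ⊓ C := by
        refine ⟨W.mul_mem (hf1 a) (W.inv_mem hw), ?_⟩
        have : f a * w⁻¹ = (w⁻¹ * a) * ((f a)⁻¹ * a)⁻¹ := by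
          rw [mul_comm (f a)]; group
        rw [this]
        exact C.mul_mem hwa (C.inv_mem (hf2 a))
      rw [hWC, mem_bot] at h1
      exact mul_inv_eq_one.1 h1
    refine ⟨⟨⟨f, huniq 1 1 W.one_mem (by simpa using C.one_mem)⟩, ?_⟩, hf1, ?_⟩
    · intro a b
      apply huniq _ _ (W.mul_mem (hf1 a) (hf1 b))
      have : (f a * f b)⁻¹ * (a * b) = ((f a)⁻¹ * a) * ((f b)⁻¹ * b) := by
        rw [mul_inv, mul_mul_mul_comm]
      rw [this]
      exact C.mul_mem (hf2 a) (hf2 b)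
    · intro w hw
      exact huniq w w hw (by simpa using C.one_mem)
  -- averaging
  haveI : Fintype X := Fintype.ofFinite X
  obtain ⟨m, hm⟩ : ∃ m : ℕ, ∀ a : A, (a ^ Nat.card X) ^ m = a := by
    have hcop : (Nat.card X).Coprime (p ^ n) := Nat.Coprime.pow_right n hX
    obtain ⟨m, -, hm⟩ := Nat.exists_mul_mod_eq_one_of_coprime hcop
      (Nat.one_lt_pow (by omega) hp.one_lt)
    refine ⟨m, fun a => ?_⟩
    rw [← pow_mul, ← Nat.div_add_mod (Nat.card X * m) (p ^ n), hm, pow_add, pow_mul, hexp, one_pow,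
      one_mul, pow_one]
  set π' := avg X m π with hπ'
  have hπ'V : ∀ v ∈ V₁, π' v = v := by
    intro v hv
    change (∏ x : X, (x : MulAut A) (π ((x : MulAut A)⁻¹ v))) ^ m = v
    have h1 : ∀ x : X, (x : MulAut A) (π ((x : MulAut A)⁻¹ v)) = v := by
      intro x
      rw [hπid _ (hV₁W (hV₁inv.mem (X.inv_mem x.2) hv)), MulAut.apply_inv_self]
    rw [Finset.prod_congr rfl (fun x _ => h1 x), Finset.prod_const, Finset.card_univ,
      ← Nat.card_eq_fintype_card, hm]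
  have hπ'Ω : ∀ a : A, a ^ p = 1 → π' a ∈ V₁ := by
    intro a ha
    apply V₁.pow_mem
    apply V₁.prod_mem
    intro x _
    apply hV₁inv.mem x.2
    apply hΩW _ (hπW _)
    rw [← map_pow, ← map_pow, ha, map_one, map_one]
  haveI : Finite (Monoid.End A) := DFunLike.finite (A →* A)
  obtain ⟨N, hN, hidem⟩ := exists_idem (M := Monoid.End A) π'
  set e : Monoid.End A := (show Monoid.End A from π') ^ N with he
  have heV : ∀ v ∈ V₁, e v = v := by
    intro v hv
    have : ∀ k : ℕ, ((show Monoid.End A from π') ^ k) v = v := by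
      intro k
      induction k with
      | zero => rfl
      | succ k ih =>
        rw [pow_succ]
        change ((show Monoid.End A from π') ^ k) (π' v) = v
        rw [hπ'V v hv, ih]
    exact this N
  have heΩ : ∀ a : A, a ^ p = 1 → e a ∈ V₁ := by
    intro a ha
    rw [he, ← Nat.sub_add_cancel hN, pow_succ]
    change ((show Monoid.End A from π') ^ (N - 1)) (π' a) ∈ V₁
    have : ∀ k : ℕ, ∀ v ∈ V₁, ((show Monoid.End A from π') ^ k) v ∈ V₁ := by
      intro k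
      induction k with
      | zero => intro v hv; exact hv
      | succ k ih =>
        intro v hv
        rw [pow_succ]
        change ((show Monoid.End A from π') ^ k) (π' v) ∈ V₁
        rw [hπ'V v hv]; exact ih v hv
    exact this _ _ (hπ'Ω a ha)
  have heX : ∀ y ∈ X, ∀ a, e (y a) = y (e a) := by
    intro y hy
    have : ∀ k : ℕ, ∀ a, ((show Monoid.End A from π') ^ k) (y a) = y (((show Monoid.End A from π') ^ k) a) := by
      intro k
      induction k with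
      | zero => intro a; rfl
      | succ k ih =>
        intro a
        rw [pow_succ]
        change ((show Monoid.End A from π') ^ k) (π' (y a)) = y (((show Monoid.End A from π') ^ k) (π' a))
        rw [hπ', avg_equiv X m π hy, ih]
    exact this N
  have hee : ∀ a, e (e a) = e a := fun a => congrArg (fun f : Monoid.End A => f a) hidem
  let eh : A →* A := e
  refine ⟨eh.range, eh.ker, ?_, ?_, ?_, ?_, ?_, ?_⟩
  · intro h
    obtain ⟨v, hv⟩ := (Subgroup.ne_bot_iff_exists_ne_one).1 hV₁bot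
    apply hv
    have h1 : (v : A) ∈ eh.range := ⟨v, heV v v.2⟩
    rw [h, mem_bot] at h1
    exact Subtype.ext h1
  · intro h
    -- e is injective on Ω₁, mapping it to V₁
    have h1 : (b₀ * (e b₀)⁻¹) ∈ eh.ker := by
      rw [MonoidHom.mem_ker]
      change e (b₀ * (e b₀)⁻¹) = 1
      rw [map_mul, map_inv, hee, mul_inv_cancel]
    rw [h, mem_bot, mul_inv_eq_one] at h1
    apply hb₀
    rw [h1]
    exact heΩ b₀ hb₀p
  · apply inv_of_mem
    rintro x hx _ ⟨a, rfl⟩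
    exact ⟨x a, heX x hx a⟩
  · apply inv_of_mem
    intro x hx a ha
    rw [MonoidHom.mem_ker] at ha ⊢
    have : e (x a) = x (e a) := heX x hx a
    change e (x a) = 1
    rw [this, show e a = 1 from ha, map_one]
  · rw [eq_bot_iff]
    rintro _ ⟨⟨a, rfl⟩, ha⟩
    have h1 : e (e a) = 1 := ha
    rw [hee] at h1
    exact h1
  · rw [eq_top_iff]
    intro a _
    have h1 : a = e a * (a * (e a)⁻¹) := by rw [mul_comm a, mul_inv_cancel_left]
    rw [h1]
    apply Subgroup.mul_mem_sup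
    · exact ⟨a, rfl⟩
    · rw [MonoidHom.mem_ker]
      change e (a * (e a)⁻¹) = 1
      rw [map_mul, map_inv, hee, mul_inv_cancel]
theorem exists_order_p {A : Type*} [CommGroup A] [Finite A] {p : ℕ} (hp : p.Prime) (hA : IsPGroup p A)
    (B : Subgroup A) (hB : B ≠ ⊥) : ∃ b ∈ B, b ≠ 1 ∧ b ^ p = 1 := by
  haveI : Fact p.Prime := ⟨hp⟩
  haveI : Nontrivial B := (Subgroup.nontrivial_iff_ne_bot B).2 hB
  obtain ⟨k, hk⟩ := IsPGroup.iff_card.1 (hA.to_subgroup B)
  have hk0 : k ≠ 0 := by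
    rintro rfl
    have := Finite.one_lt_card (α := B)
    rw [hk] at this
    simp at this
  obtain ⟨b, hb⟩ := exists_prime_orderOf_dvd_card' (G := B) p (by rw [hk]; exact dvd_pow_self p hk0)
  refine ⟨b, b.2, ?_, ?_⟩
  · intro h
    have h1 : b = 1 := Subtype.ext h
    rw [h1, orderOf_one] at hb
    exact hp.one_lt.ne hb
  · have := pow_orderOf_eq_one b
    rw [hb] at this
    exact congrArg Subtype.val this

/-- Let A be a finite abelian p-group and X a group of automorphisms of A of order prime to p. Call a subgroup of A invariant when every element of X maps it onto itself. Then the following are equivalent: (i) A is not the direct product of two nontrivial invariant subgroups; (ii) every invariant subgroup of A is one of the subgroups Ω_i(A) = {a : a^(p^i) = 1}; (iii) the subgroup Ω₁(A) of elements of order dividing p has no invariant subgroups other than 1 and itself. -/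
theorem result {A : Type*} [CommGroup A] [Finite A] {p : ℕ} [Fact p.Prime] (hA : IsPGroup p A) (X : Subgroup (MulAut A)) (hX : (Nat.card X).Coprime p) : ((¬ ∃ B C : Subgroup A, B ≠ ⊥ ∧ C ≠ ⊥ ∧ (∀ x ∈ X, B.map x.toMonoidHom = B) ∧ (∀ x ∈ X, C.map x.toMonoidHom = C) ∧ B ⊓ C = ⊥ ∧ B ⊔ C = ⊤) ↔ (∀ B : Subgroup A, (∀ x ∈ X, B.map x.toMonoidHom = B) → ∃ i : ℕ, ∀ a : A, a ∈ B ↔ a ^ p ^ i = 1)) ∧ ((∀ B : Subgroup A, (∀ x ∈ X, B.map x.toMonoidHom = B) → ∃ i : ℕ, ∀ a : A, a ∈ B ↔ a ^ p ^ i = 1) ↔ (∀ B : Subgroup A, (∀ x ∈ X, B.map x.toMonoidHom = B) → (∀ b ∈ B, b ^ p = 1) → B = ⊥ ∨ ∀ a : A, a ∈ B ↔ a ^ p = 1)) := by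
  classical
  haveI hpf : Fact p.Prime := inferInstance
  have hp : p.Prime := Fact.out
  -- (i) → (iii)
  have h13 : (¬ ∃ B C : Subgroup A, B ≠ ⊥ ∧ C ≠ ⊥ ∧ (∀ x ∈ X, B.map x.toMonoidHom = B) ∧ (∀ x ∈ X, C.map x.toMonoidHom = C) ∧ B ⊓ C = ⊥ ∧ B ⊔ C = ⊤) →
      (∀ B : Subgroup A, (∀ x ∈ X, B.map x.toMonoidHom = B) → (∀ b ∈ B, b ^ p = 1) → B = ⊥ ∨ ∀ a : A, a ∈ B ↔ a ^ p = 1) :=
    fun h B hB hBp => one_two hp hA X hX h B hB hBp
  -- (iii) → (ii)
  have h32 : (∀ B : Subgroup A, (∀ x ∈ X, B.map x.toMonoidHom = B) → (∀ b ∈ B, b ^ p = 1) → B = ⊥ ∨ ∀ a : A, a ∈ B ↔ a ^ p = 1) →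
      (∀ B : Subgroup A, (∀ x ∈ X, B.map x.toMonoidHom = B) → ∃ i : ℕ, ∀ a : A, a ∈ B ↔ a ^ p ^ i = 1) := by
    intro h B hB
    have hBinv : Inv X B := hB
    have hex : ∃ i, ∀ b ∈ B, b ^ p ^ i = 1 := by
      obtain ⟨n, hn⟩ := IsPGroup.iff_card.1 hA
      exact ⟨n, fun x _ => by rw [← hn]; exact pow_card_eq_one'⟩
    set i := Nat.find hex with hi
    have hi1 : ∀ b ∈ B, b ^ p ^ i = 1 := Nat.find_spec hex
    refine ⟨i, fun a => ⟨hi1 a, ?_⟩⟩
    rcases Nat.eq_zero_or_pos i with h0 | hpos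
    · intro ha
      rw [h0, pow_zero, pow_one] at ha
      rw [ha]; exact B.one_mem
    -- B^(p^(i-1)) = Ω₁
    have hV := h (B.map (powMonoidHom (p ^ (i - 1)) : A →* A)) (by
      apply inv_of_mem
      rintro x hx _ ⟨y, hy, rfl⟩
      exact ⟨x y, hBinv.mem hx hy, (map_pow x y _).symm⟩) (by
      rintro _ ⟨y, hy, rfl⟩
      change (y ^ p ^ (i - 1)) ^ p = 1
      rw [← pow_mul, ← pow_succ, Nat.sub_add_cancel hpos, hi1 y hy])
    have hVΩ : ∀ a : A, a ^ p = 1 → ∃ b ∈ B, b ^ p ^ (i - 1) = a := by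
      rcases hV with hV | hV
      · exfalso
        have := Nat.find_min hex (m := i - 1) (by omega)
        push Not at this
        obtain ⟨b, hb, hb1⟩ := this
        apply hb1
        have h1 : b ^ p ^ (i - 1) ∈ B.map (powMonoidHom (p ^ (i - 1)) : A →* A) := ⟨b, hb, rfl⟩
        rwa [hV, mem_bot] at h1
      · intro a ha
        obtain ⟨b, hb, hba⟩ := (hV a).2 ha
        exact ⟨b, hb, hba⟩
    have key : ∀ j, j ≤ i → ∀ a : A, a ^ p ^ j = 1 → a ∈ B := by
      intro j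
      induction j with
      | zero =>
        intro _ a ha
        rw [pow_zero, pow_one] at ha
        rw [ha]; exact B.one_mem
      | succ j ih =>
        intro hj a ha
        obtain ⟨b, hb, hba⟩ := hVΩ (a ^ p ^ j) (by rw [← pow_mul, ← pow_succ]; exact ha)
        have h1 : (a * (b ^ p ^ (i - 1 - j))⁻¹) ^ p ^ j = 1 := by
          rw [mul_pow, inv_pow, ← hba, ← pow_mul, ← pow_add]
          have : i - 1 - j + j = i - 1 := by omega
          rw [this, mul_inv_cancel]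
        have h2 := ih (by omega) _ h1
        have h3 : a = a * (b ^ p ^ (i - 1 - j))⁻¹ * b ^ p ^ (i - 1 - j) := by group
        rw [h3]
        exact B.mul_mem h2 (B.pow_mem hb _)
    exact key i le_rfl a
  -- (ii) → (iii)
  have h23 : (∀ B : Subgroup A, (∀ x ∈ X, B.map x.toMonoidHom = B) → ∃ i : ℕ, ∀ a : A, a ∈ B ↔ a ^ p ^ i = 1) →
      (∀ B : Subgroup A, (∀ x ∈ X, B.map x.toMonoidHom = B) → (∀ b ∈ B, b ^ p = 1) → B = ⊥ ∨ ∀ a : A, a ∈ B ↔ a ^ p = 1) := by
    intro h B hB hBp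
    obtain ⟨i, hi⟩ := h B hB
    rcases Nat.eq_zero_or_pos i with h0 | hpos
    · left
      rw [eq_bot_iff]
      intro b hb
      have := (hi b).1 hb
      rw [h0, pow_zero, pow_one] at this
      exact this
    · right
      intro a
      refine ⟨hBp a, fun ha => (hi a).2 ?_⟩
      have : p ^ i = p * p ^ (i - 1) := by rw [← pow_succ']; congr 1; omega
      rw [this, pow_mul, ha, one_pow]
  -- (iii) → (i)
  have h31 : (∀ B : Subgroup A, (∀ x ∈ X, B.map x.toMonoidHom = B) → (∀ b ∈ B, b ^ p = 1) → B = ⊥ ∨ ∀ a : A, a ∈ B ↔ a ^ p = 1) →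
      (¬ ∃ B C : Subgroup A, B ≠ ⊥ ∧ C ≠ ⊥ ∧ (∀ x ∈ X, B.map x.toMonoidHom = B) ∧ (∀ x ∈ X, C.map x.toMonoidHom = C) ∧ B ⊓ C = ⊥ ∧ B ⊔ C = ⊤) := by
    rintro h ⟨B, C, hB1, hC1, hB, hC, hBC, -⟩
    have key : ∀ D : Subgroup A, D ≠ ⊥ → (∀ x ∈ X, D.map x.toMonoidHom = D) → ∀ a : A, a ^ p = 1 → a ∈ D := by
      intro D hD1 hD a ha
      have hDinv : Inv X D := hD
      obtain ⟨d, hd, hd1, hdp⟩ := exists_order_p hp hA D hD1
      rcases h (D ⊓ (powMonoidHom p : A →* A).ker) (by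
        apply inv_of_mem
        rintro x hx y ⟨hy1, hy2⟩
        refine ⟨hDinv.mem hx hy1, ?_⟩
        have hy3 : y ^ p = 1 := hy2
        change (x y) ^ p = 1
        rw [← map_pow, hy3, map_one]) (fun b hb => hb.2) with h1 | h1
      · exfalso
        apply hd1
        have : d ∈ D ⊓ (powMonoidHom p : A →* A).ker := ⟨hd, hdp⟩
        rwa [h1, mem_bot] at this
      · exact ((h1 a).2 ha).1
    obtain ⟨b, hb, hb1, hbp⟩ := exists_order_p hp hA B hB1
    apply hb1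
    have : b ∈ B ⊓ C := ⟨hb, key C hC1 hC b hbp⟩
    rwa [hBC, mem_bot] at this
  exact ⟨⟨fun h => h32 (h13 h), fun h => h31 (h23 h)⟩, ⟨h23, h32⟩⟩

end Cfsg.Agent.S3775
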