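import Cfsg.Statements.S3778
import Mathlib.GroupTheory.Nilpotent
import Mathlib.GroupTheory.PGroup
import Mathlib.GroupTheory.Index

set_option autoImplicit false
open Cfsg

namespace Cfsg.Agent.S3778

open scoped commutatorElement

/-- two-step centralizer -/
def tsc (G : Type*) [Group G] (i : ℕ) : Subgroup G where
  carrier := {x | ∀ g ∈ (⊤ : Subgroup G).lowerCentralSeries i, ⁅g, x⁆ ∈ (⊤ : Subgroup G).lowerCentralSeries (i + 2)}
  one_mem' := by
    intro g hg
    simp only [commutatorElement_one_right]
    exact one_mem _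
  mul_mem' := by
    intro x y hx hy g hg
    have e : ⁅g, x * y⁆ = ⁅g, x⁆ * (x * ⁅g, y⁆ * x⁻¹) := by
      simp only [commutatorElement_def]; group
    rw [e]
    have hN : ((⊤ : Subgroup G).lowerCentralSeries (i + 2)).Normal := inferInstance
    exact mul_mem (hx g hg) (hN.conj_mem _ (hy g hg) x)
  inv_mem' := by
    intro x hx g hg
    have e : ⁅g, x⁻¹⁆ = x⁻¹ * ⁅g, x⁆⁻¹ * (x⁻¹)⁻¹ := by
      simp only [commutatorElement_def]; group
    rw [e]
    have hN : ((⊤ : Subgroup G).lowerCentralSeries (i + 2)).Normal := inferInstance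
    exact hN.conj_mem _ (inv_mem (hx g hg)) x⁻¹

theorem mem_tsc {G : Type*} [Group G] {i : ℕ} {x : G} :
    x ∈ tsc G i ↔ ∀ g ∈ (⊤ : Subgroup G).lowerCentralSeries i, ⁅g, x⁆ ∈ (⊤ : Subgroup G).lowerCentralSeries (i + 2) :=
  Iff.rfl

theorem rel_ne {G : Type*} [Group G] [Finite G] (H K : Subgroup G) : H.relIndex K ≠ 0 :=
  Subgroup.index_ne_zero_of_finite (H := H.subgroupOf K)

theorem relIndex_sup_aux {G : Type*} [Group G] [Finite G] (D N : Subgroup G) [N.Normal] :
    D.relIndex (D ⊔ N) = D.relIndex N := by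
  have h1 := Subgroup.relIndex_mul_relIndex (D ⊓ N) D (D ⊔ N) inf_le_left le_sup_left
  have h2 := Subgroup.relIndex_mul_relIndex (D ⊓ N) N (D ⊔ N) inf_le_right le_sup_right
  rw [Subgroup.inf_relIndex_left, ] at h1
  rw [Subgroup.inf_relIndex_right] at h2
  have h3 : N.relIndex (D ⊔ N) = N.relIndex D := Subgroup.relIndex_sup_right D N
  rw [h3] at h2
  have h4 : N.relIndex D ≠ 0 := rel_ne _ _
  have : N.relIndex D * D.relIndex (D ⊔ N) = N.relIndex D * D.relIndex N := by
    rw [h1, ← h2, mul_comm]
  exact Nat.eq_of_mul_eq_mul_left (Nat.pos_of_ne_zero h4) this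

open scoped Classical in
/-- one step -/
theorem step {G : Type*} [Group G] [Finite G] {p : ℕ} [Fact p.Prime] (hG : IsPGroup p G) (x : G) (i : ℕ) :
    (if x ∈ tsc G i then 1 else p) * (Subgroup.centralizer ({x} : Set G)).relIndex ((⊤ : Subgroup G).lowerCentralSeries (i + 1)) ≤
      (Subgroup.centralizer ({x} : Set G)).relIndex ((⊤ : Subgroup G).lowerCentralSeries i) := by
  set C := Subgroup.centralizer ({x} : Set G) with hC
  set L := (⊤ : Subgroup G).lowerCentralSeries with hL
  have hle : L (i + 1) ≤ L i := (⊤ : Subgroup G).lowerCentralSeries_antitone (Nat.le_succ i)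
  have hN : (L (i + 1)).Normal := by rw [hL]; infer_instance
  set D := C ⊓ L i with hD
  have e1 : C.relIndex (L i) = D.relIndex (L i) := by
    rw [hD, Subgroup.inf_relIndex_right]
  have hDL : D ⊔ L (i + 1) ≤ L i := sup_le inf_le_right hle
  have e2 : D.relIndex (D ⊔ L (i + 1)) * (D ⊔ L (i + 1)).relIndex (L i) = D.relIndex (L i) :=
    Subgroup.relIndex_mul_relIndex _ _ _ le_sup_left hDL
  have e3 : D.relIndex (D ⊔ L (i + 1)) = C.relIndex (L (i + 1)) := by
    rw [relIndex_sup_aux]
    rw [← Subgroup.inf_relIndex_right, ← Subgroup.inf_relIndex_right C]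
    congr 1
    rw [hD, inf_assoc, inf_eq_right.mpr hle]
  rw [e1, ← e2, e3, mul_comm]
  apply Nat.mul_le_mul_left
  split_ifs with hx
  · exact Nat.pos_of_ne_zero (rel_ne _ _)
  · -- index is a power of p, ≠ 1
    have hne : (D ⊔ L (i + 1)).relIndex (L i) ≠ 1 := by
      rw [Ne, Subgroup.relIndex_eq_one]
      intro hcon
      apply hx
      rw [mem_tsc]
      intro g hg
      have hg' := hcon hg
      rw [sup_comm, Subgroup.mem_sup_of_normal_left] at hg'
      obtain ⟨h, hh, c, hc, rfl⟩ := hg'
      have hcx : c * x = x * c := by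
        have h0 : c ∈ Subgroup.centralizer ({x} : Set G) := hc.1
        exact Subgroup.mem_centralizer_singleton_iff.mp h0
      have e : ⁅h * c, x⁆ = ⁅h, x⁆ := by
        simp only [commutatorElement_def, mul_inv_rev]
        calc h * c * x * (c⁻¹ * h⁻¹) * x⁻¹ = h * (c * x) * (c⁻¹ * h⁻¹) * x⁻¹ := by group
          _ = h * (x * c) * (c⁻¹ * h⁻¹) * x⁻¹ := by rw [hcx]
          _ = h * x * h⁻¹ * x⁻¹ := by group
      rw [e]
      exact Subgroup.commutator_mem_commutator hh (Subgroup.mem_top x)
    have hp : IsPGroup p (L i) := hG.to_subgroup _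
    obtain ⟨k, hk⟩ := hp.index ((D ⊔ L (i + 1)).subgroupOf (L i))
    have hk' : (D ⊔ L (i + 1)).relIndex (L i) = p ^ k := hk
    rw [hk'] at hne ⊢
    rcases Nat.eq_zero_or_pos k with rfl | hk0
    · simp at hne
    · exact Nat.le_self_pow (by omega) p

open Finset in
open scoped Classical in
theorem cnt {G : Type*} [Group G] [Finite G] {p : ℕ} [Fact p.Prime] (hG : IsPGroup p G) (x : G) (m : ℕ) :
    p ^ ((range m).filter (fun i => ¬ x ∈ tsc G i)).card * (Subgroup.centralizer ({x} : Set G)).relIndex ((⊤ : Subgroup G).lowerCentralSeries m) ≤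
      (Subgroup.centralizer ({x} : Set G)).index := by
  induction m with
  | zero => simp
  | succ m ih =>
    refine le_trans ?_ ih
    have hs := step hG x m
    rw [range_add_one, filter_insert]
    by_cases hx : x ∈ tsc G m
    · rw [if_pos hx, one_mul] at hs
      rw [if_neg (by simpa using hx)]
      exact Nat.mul_le_mul_left _ hs
    · rw [if_neg hx] at hs
      rw [if_pos hx, card_insert_of_notMem (by simp), pow_succ, mul_assoc]
      exact Nat.mul_le_mul_left _ hs

theorem tsc_ne_top {G : Type*} [Group G] [Finite G] [Group.IsNilpotent G] {i : ℕ}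
    (hi : (⊤ : Subgroup G).lowerCentralSeries (i + 1) ≠ ⊥) : tsc G i ≠ ⊤ := by
  intro htop
  apply hi
  have h1 : (⊤ : Subgroup G).lowerCentralSeries (i + 1) ≤ (⊤ : Subgroup G).lowerCentralSeries (i + 2) := by
    rw [Subgroup.lowerCentralSeries_succ ⊤ i, Subgroup.commutator_le]
    intro g hg x _
    have : x ∈ tsc G i := by rw [htop]; trivial
    exact this g hg
  have h2 : ∀ k, (⊤ : Subgroup G).lowerCentralSeries (i + 1) ≤ (⊤ : Subgroup G).lowerCentralSeries (i + 1 + k) := by
    intro k
    induction k with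
    | zero => exact le_rfl
    | succ k ih =>
      calc (⊤ : Subgroup G).lowerCentralSeries (i + 1) ≤ (⊤ : Subgroup G).lowerCentralSeries (i + 2) := h1
        _ = ⁅(⊤ : Subgroup G).lowerCentralSeries (i + 1), ⊤⁆ := rfl
        _ ≤ ⁅(⊤ : Subgroup G).lowerCentralSeries (i + 1 + k), ⊤⁆ := Subgroup.commutator_mono ih le_rfl
        _ = (⊤ : Subgroup G).lowerCentralSeries (i + 1 + (k + 1)) := rfl
  obtain ⟨n, hn⟩ := Subgroup.nilpotent_iff_lowerCentralSeries.mp (inferInstance : Group.IsNilpotent G)
  rw [eq_bot_iff, ← hn]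
  exact (h2 n).trans ((⊤ : Subgroup G).lowerCentralSeries_antitone (by omega))

/-- If G is a finite p-group in which every conjugacy class has at most p^b elements (every element has centralizer of index at most p^b), then G is abelian when b = 0, and when b ≥ 1 its nilpotency class c satisfies (c − 1)(p − 1) < bp, that is c < bp/(p − 1) + 1, and hence c ≤ 2b. -/
theorem result {G : Type*} [Group G] [Finite G] {p : ℕ} [Fact p.Prime] (hG : IsPGroup p G) (b : ℕ) (hb : ∀ x : G, (Subgroup.centralizer ({x} : Set G)).index ≤ p ^ b) : ∃ c : ℕ, (⊤ : Subgroup G).lowerCentralSeries c = ⊥ ∧ (b ≠ 0 → (c - 1) * (p - 1) < b * p ∧ c ≤ 2 * b) ∧ (b = 0 → c ≤ 1) := by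
  classical
  haveI : Fintype G := Fintype.ofFinite G
  haveI hnil : Group.IsNilpotent G := hG.isNilpotent
  set c := Group.nilpotencyClass G with hc
  have hp : 2 ≤ p := (Fact.out : p.Prime).two_le
  have hnb : ∀ i, i < c → (⊤ : Subgroup G).lowerCentralSeries i ≠ ⊥ := by
    intro i hi hcon
    rw [Subgroup.lowerCentralSeries_eq_bot_iff_nilpotencyClass_le] at hcon
    omega
  have hcard : ∀ x : G, ((Finset.range (c - 1)).filter (fun i => ¬ x ∈ tsc G i)).card ≤ b := by
    intro x
    have h1 := cnt hG x (c - 1)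
    have h2 : 1 ≤ (Subgroup.centralizer ({x} : Set G)).relIndex ((⊤ : Subgroup G).lowerCentralSeries (c - 1)) :=
      Nat.pos_of_ne_zero (rel_ne _ _)
    have h3 : p ^ ((Finset.range (c - 1)).filter (fun i => ¬ x ∈ tsc G i)).card ≤ p ^ b :=
      le_trans (le_trans (Nat.le_mul_of_pos_right _ h2) h1) (hb x)
    exact (Nat.pow_le_pow_iff_right (by omega)).mp h3
  refine ⟨c, Subgroup.lowerCentralSeries_nilpotencyClass, ?_, ?_⟩
  · intro hb0
    have main : (c - 1) * (p - 1) < b * p := by
      -- double count
      have hsum : ∑ x : G, ((Finset.range (c - 1)).filter (fun i => ¬ x ∈ tsc G i)).card =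
          ∑ i ∈ Finset.range (c - 1), (Finset.univ.filter (fun x : G => ¬ x ∈ tsc G i)).card := by
        simp only [Finset.card_filter]
        exact Finset.sum_comm
      have hupper : ∑ x : G, ((Finset.range (c - 1)).filter (fun i => ¬ x ∈ tsc G i)).card < b * Fintype.card G := by
        have : ∑ x : G, ((Finset.range (c - 1)).filter (fun i => ¬ x ∈ tsc G i)).card < ∑ _x : G, b := by
          apply Finset.sum_lt_sum (fun x _ => hcard x)
          refine ⟨1, Finset.mem_univ _, ?_⟩
          have : (Finset.range (c - 1)).filter (fun i => ¬ (1 : G) ∈ tsc G i) = ∅ := by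
            rw [Finset.filter_eq_empty_iff]
            intro i _
            simp [one_mem]
          rw [this]
          simpa using Nat.pos_of_ne_zero hb0
        simpa [mul_comm] using this
      have hlower : ∀ i ∈ Finset.range (c - 1), (p - 1) * Fintype.card G ≤ p * (Finset.univ.filter (fun x : G => ¬ x ∈ tsc G i)).card := by
        intro i hi
        rw [Finset.mem_range] at hi
        have hne := tsc_ne_top (hnb (i + 1) (by omega))
        have hidx : p ≤ (tsc G i).index := by
          obtain ⟨k, hk⟩ := hG.index (tsc G i)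
          have : (tsc G i).index ≠ 1 := by
            rwa [Ne, Subgroup.index_eq_one]
          rw [hk] at this ⊢
          rcases Nat.eq_zero_or_pos k with rfl | hk0
          · simp at this
          · exact Nat.le_self_pow (by omega) p
        have hc1 : Nat.card (tsc G i) = (Finset.univ.filter (fun x : G => x ∈ tsc G i)).card := by
          rw [Nat.card_eq_fintype_card, Fintype.card_subtype]
        have hc2 : (Finset.univ.filter (fun x : G => x ∈ tsc G i)).card + (Finset.univ.filter (fun x : G => ¬ x ∈ tsc G i)).card = Fintype.card G := by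
          rw [Finset.card_filter_add_card_filter_not, Finset.card_univ]
        have hc3 : Nat.card (tsc G i) * (tsc G i).index = Fintype.card G := by
          rw [Subgroup.card_mul_index, Nat.card_eq_fintype_card]
        have hc4 : p * Nat.card (tsc G i) ≤ Fintype.card G := by
          rw [← hc3, mul_comm]
          exact Nat.mul_le_mul_left _ hidx
        rw [hc1] at hc4
        obtain ⟨q, rfl⟩ : ∃ q, p = q + 1 := ⟨p - 1, by omega⟩
        simp only [Nat.add_sub_cancel]
        nlinarith
      have h5 : (c - 1) * ((p - 1) * Fintype.card G) ≤ p * ∑ i ∈ Finset.range (c - 1), (Finset.univ.filter (fun x : G => ¬ x ∈ tsc G i)).card := by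
        rw [Finset.mul_sum]
        have := Finset.card_nsmul_le_sum (Finset.range (c - 1)) (fun i => p * (Finset.univ.filter (fun x : G => ¬ x ∈ tsc G i)).card) _ hlower
        simpa using this
      rw [← hsum] at h5
      have hG0 : 0 < Fintype.card G := Fintype.card_pos
      have h6 : p * ∑ x : G, ((Finset.range (c - 1)).filter (fun i => ¬ x ∈ tsc G i)).card < p * (b * Fintype.card G) :=
        Nat.mul_lt_mul_of_pos_left hupper (by omega)
      have h7 : ((c - 1) * (p - 1)) * Fintype.card G < (b * p) * Fintype.card G := by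
        calc ((c - 1) * (p - 1)) * Fintype.card G = (c - 1) * ((p - 1) * Fintype.card G) := by ring
          _ ≤ _ := h5
          _ < _ := h6
          _ = _ := by ring
      exact Nat.lt_of_mul_lt_mul_right h7
    refine ⟨main, ?_⟩
    by_contra hcon
    obtain ⟨q, rfl⟩ : ∃ q, p = q + 2 := ⟨p - 2, by omega⟩
    have h1 : 2 * b ≤ c - 1 := by omega
    have h2 : (2 * b) * (q + 2 - 1) ≤ (c - 1) * (q + 2 - 1) := Nat.mul_le_mul_right _ h1
    have h3 : (q + 2 - 1) = q + 1 := by omega
    rw [h3] at h2 main
    nlinarith [Nat.zero_le (b * q)]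
  · intro hb0
    by_contra hcon
    have hne := tsc_ne_top (hnb (0 + 1) (by omega))
    apply hne
    rw [Subgroup.eq_top_iff']
    intro x
    by_contra hx
    have := hcard x
    rw [hb0, Nat.le_zero, Finset.card_eq_zero, Finset.filter_eq_empty_iff] at this
    exact this (Finset.mem_range.mpr (by omega : 0 < c - 1)) hx

end Cfsg.Agent.S3778
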