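import Cfsg.Statements.S3780
import Cfsg.Agent.Solv.Frattini
import Mathlib

set_option autoImplicit false
open Cfsg

namespace Cfsg.Agent.S3780


theorem card_ker_pow_le {M : Type*} [AddCommGroup M] [Finite M] (f : AddMonoid.End M) (k : ℕ) :
    Nat.card {v : M // (f ^ k) v = 0} ≤ Nat.card {v : M // f v = 0} ^ k := by
  induction k with
  | zero =>
    rw [pow_zero]
    apply Finite.card_le_one_iff_subsingleton.2
    refine ⟨?_⟩
    rintro ⟨a, ha⟩ ⟨b, hb⟩
    have h1 : a = 0 := by simpa using ha
    have h2 : b = 0 := by simpa using hb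
    exact Subtype.ext (h1.trans h2.symm)
  | succ k ih =>
    -- map v ↦ f v from ker f^(k+1) to ker f^k
    let K1 : AddSubgroup M := (f ^ (k + 1) : AddMonoid.End M).ker
    let g : K1 →+ M := (f : M →+ M).comp K1.subtype
    have h1 : Nat.card g.ker * Nat.card g.range = Nat.card K1 := by
      rw [← AddSubgroup.index_ker, AddSubgroup.card_mul_index]
    have h2 : Nat.card g.ker ≤ Nat.card {v : M // f v = 0} := by
      apply Nat.card_le_card_of_injective (fun x : g.ker => (⟨(x : K1), x.2⟩ : {v : M // f v = 0}))
      rintro ⟨⟨a, ha⟩, ha'⟩ ⟨⟨b, hb⟩, hb'⟩ h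
      have : a = b := congrArg Subtype.val h
      subst this
      rfl
    have h3 : Nat.card g.range ≤ Nat.card {v : M // (f ^ k) v = 0} := by
      apply Nat.card_le_card_of_injective (fun x : g.range => (⟨(x : M), by
        obtain ⟨_, ⟨y, hy⟩, rfl⟩ := x
        have hy' : (f ^ (k + 1)) y = 0 := hy
        rw [pow_succ] at hy'
        exact hy'⟩ : {v : M // (f ^ k) v = 0}))
      rintro ⟨a, ha⟩ ⟨b, hb⟩ h
      have : a = b := congrArg Subtype.val h
      subst this
      rfl
    have h4 : Nat.card {v : M // (f ^ (k + 1)) v = 0} = Nat.card K1 := rfl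
    rw [h4, ← h1, pow_succ']
    exact Nat.mul_le_mul h2 (h3.trans ih)

theorem card_torsion_le {M : Type*} [AddCommGroup M] [Finite M] {p : ℕ} (hp : p.Prime) (a : AddMonoid.End M)
    (ha : a ^ p = 1) (n : ℕ) (hfix : Nat.card {v : M // a v = v} = p ^ n) :
    Nat.card {v : M // p • v = 0} ≤ p ^ (p * n) := by
  have hcomm : Commute a (-1 : AddMonoid.End M) := (Commute.one_right a).neg_right
  obtain ⟨r, hr⟩ := hcomm.exists_add_pow_prime_eq hp
  have hr' : ∃ r' : AddMonoid.End M, (a - 1) ^ p = (p : AddMonoid.End M) * r' := by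
    rw [sub_eq_add_neg, hr, ha]
    rcases hp.eq_two_or_odd' with h2 | h2
    · subst h2
      refine ⟨1 + (a * (-1) * r), ?_⟩
      rw [mul_add]
      norm_num
      noncomm_ring
    · refine ⟨a * (-1) * r, ?_⟩
      rw [h2.neg_one_pow]
      noncomm_ring
  obtain ⟨r', hr'⟩ := hr'
  have h1 : Nat.card {v : M // p • v = 0} ≤ Nat.card {v : M // ((a - 1) ^ p) v = 0} := by
    apply Nat.card_le_card_of_injective (fun x => ⟨x.1, by
      rw [hr']
      have h2 : ((p : AddMonoid.End M) * r') x.1 = p • (r' x.1) := by
        have h3 : ((p : AddMonoid.End M) * r') x.1 = (p : AddMonoid.End M) (r' x.1) := rfl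
        rw [h3, AddMonoid.End.natCast_apply]
      rw [h2, ← map_nsmul, x.2, map_zero]⟩)
    rintro ⟨a, ha⟩ ⟨b, hb⟩ h
    have : a = b := congrArg Subtype.val h
    subst this
    rfl
  have h2 := card_ker_pow_le (a - 1) p
  have h3 : Nat.card {v : M // (a - 1) v = 0} = p ^ n := by
    rw [← hfix]
    apply Nat.card_congr
    apply Equiv.subtypeEquivRight
    intro v
    have h5 : (a - 1) v = a v - v := rfl
    rw [h5, sub_eq_zero]
  rw [h3, ← pow_mul, mul_comm] at h2
  exact h1.trans h2

/-- Let V be a finite abelian p-group and α an automorphism of V of order p whose fixed-point subgroup has order p^n. Then V can be generated by pn elements: some subset of V with at most pn elements generates V. -/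
theorem result {V : Type*} [CommGroup V] [Finite V] {p : ℕ} [Fact p.Prime] (hV : IsPGroup p V) (α : MulAut V) (hα : orderOf α = p) (n : ℕ) (hfix : Nat.card {v : V // α v = v} = p ^ n) : ∃ S : Finset V, S.card ≤ p * n ∧ Subgroup.closure (S : Set V) = ⊤ := by
  classical
  have hp : p.Prime := Fact.out
  obtain ⟨r, hr⟩ := hV.index (frattini V)
  obtain ⟨⟨T, -, hTcard, hTtop⟩, -⟩ := Cfsg.Agent.Solv.burnside_basis hV hr (Set.univ : Set V) (by simp)
  have hTfin : T.Finite := Set.toFinite _
  refine ⟨hTfin.toFinset, ?_, by simpa using hTtop⟩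
  rw [← Set.ncard_eq_toFinset_card T hTfin, hTcard]
  -- index of frattini ≤ card of torsion
  let a : AddMonoid.End (Additive V) := MonoidHom.toAdditive (α : V →* V)
  have hapow : ∀ k : ℕ, ∀ v : V, (a ^ k) (Additive.ofMul v) = Additive.ofMul ((α ^ k) v) := by
    intro k
    induction k with
    | zero => intro v; simp
    | succ k ih =>
      intro v
      rw [pow_succ, pow_succ]
      exact ih (α v)
  have ha : a ^ p = 1 := by
    ext v
    have h := hapow p v.toMul
    rw [← hα, pow_orderOf_eq_one] at h
    rw [← hα]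
    exact h
  have hcard := card_torsion_le hp a ha n hfix
  -- power map
  have hpow : (powMonoidHom p : V →* V).range = frattini V := by
    apply le_antisymm
    · rintro _ ⟨v, rfl⟩
      exact Cfsg.Agent.Solv.pow_mem_frattini_of_pGroup hV v
    · apply Cfsg.Agent.Solv.frattini_le_of_elementary_quotient (p := p)
      · rw [commutator_def, Subgroup.commutator_le]
        intro x _ y _
        have : x * y * x⁻¹ * y⁻¹ = 1 := by rw [mul_comm x y]; group
        rw [commutatorElement_def, this]
        exact Subgroup.one_mem _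
      · intro x; exact ⟨x, rfl⟩
  have h1 : Nat.card (powMonoidHom p : V →* V).ker = p ^ r := by
    have h2 := Subgroup.card_mul_index (powMonoidHom p : V →* V).ker
    rw [Subgroup.index_ker, hpow] at h2
    have h3 := Subgroup.card_mul_index (frattini V)
    rw [hr, ← h2, mul_comm] at h3
    exact (Nat.eq_of_mul_eq_mul_right Nat.card_pos h3).symm
  have h4 : Nat.card (powMonoidHom p : V →* V).ker = Nat.card {v : Additive V // p • v = 0} := rfl
  rw [← h4, h1] at hcard
  exact (Nat.pow_le_pow_iff_right hp.one_lt).1 hcard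

end Cfsg.Agent.S3780
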