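import Cfsg.Statements.S3781
import Cfsg.Agent.H63.Comm

set_option autoImplicit false
open Cfsg

namespace Cfsg.Agent.S3781

/-- Let G be a finite p-group and n ≥ 1, and write γ_1(G) = G, γ_{k+1}(G) = [γ_k(G), G], and likewise γ_k(N) for a subgroup N. Let N be a normal subgroup of G contained in γ_n(G). If i > 1 and γ_{i+1}(N) ≠ 1, then |γ_i(N) : γ_{i+1}(N)| ≥ p^n. -/
theorem result {G : Type*} [Group G] [Finite G] {p : ℕ} [Fact p.Prime] (hG : IsPGroup p G) (n : ℕ) (hn : 1 ≤ n) (N : Subgroup G) [N.Normal] (hN : N ≤ (⊤ : Subgroup G).lowerCentralSeries (n - 1)) (i : ℕ) (hi : 1 < i) (hne : N.lowerCentralSeries i ≠ ⊥) : p ^ n ≤ (N.lowerCentralSeries i).relIndex (N.lowerCentralSeries (i - 1)) := by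
  have hp : p.Prime := Fact.out
  have hnil : Group.IsNilpotent G := hG.isNilpotent
  have hLn : ∀ k, (N.lowerCentralSeries k).Normal := by
    intro k
    induction k with
    | zero => simpa using (inferInstance : N.Normal)
    | succ k ih => rw [Subgroup.lowerCentralSeries_succ]; infer_instance
  obtain ⟨j, rfl⟩ : ∃ j, i = j + 1 := ⟨i - 1, by omega⟩
  obtain ⟨m, rfl⟩ : ∃ m, n = m + 1 := ⟨n - 1, by omega⟩
  simp only [Nat.add_sub_cancel] at hN ⊢
  by_contra hlt
  push Not at hlt
  have := hLn j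
  have := hLn (j + 1)
  have h1 : Cfsg.Agent.H63.iterComm (N.lowerCentralSeries j) m ≤ N.lowerCentralSeries (j + 1) :=
    Cfsg.Agent.H63.iterComm_le_of_relIndex_le hG _ m _ inferInstance hlt
  have h2 : Cfsg.Agent.H63.iterComm (N.lowerCentralSeries j) (m + 1) ≤
      ⁅N.lowerCentralSeries (j + 1), (⊤ : Subgroup G)⁆ := Subgroup.commutator_mono h1 le_rfl
  have h3 : N.lowerCentralSeries (j + 1) ≤ Cfsg.Agent.H63.iterComm (N.lowerCentralSeries j) (m + 1) := by
    rw [Subgroup.lowerCentralSeries_succ]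
    refine (Subgroup.commutator_mono le_rfl hN).trans ?_
    have h4 := Cfsg.Agent.H63.iterComm_commutator_lowerCentralSeries_le (N.lowerCentralSeries j) m 0
    rw [Cfsg.Agent.H63.iterComm_zero] at h4
    simpa using h4
  exact hne (Cfsg.Agent.H63.eq_bot_of_le_commutator (h3.trans h2))

end Cfsg.Agent.S3781
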