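import Cfsg.Statements.S3783
import Cfsg.Agent.HH.PLenExp

set_option autoImplicit false
open Cfsg

namespace Cfsg.Agent.S3783


open Cfsg.Agent.HH


/-- Let G be a finite p-soluble group in which, for every prime q ≠ p, the Sylow q-subgroups are abelian. If the Sylow p-subgroups of G have exponent dividing p^n, then G has p-length at most n. -/
theorem result {G : Type*} [Group G] [Finite G] {p : ℕ} [Fact p.Prime] (hG : Cfsg.IsPSolvable p G) (hab : ∀ (q : ℕ) [Fact q.Prime], q ≠ p → ∀ Q : Sylow q G, IsMulCommutative (Q : Subgroup G)) (n : ℕ) (hexp : ∀ (P : Sylow p G), ∀ x ∈ (P : Subgroup G), x ^ p ^ n = 1) : Cfsg.PLengthLE p n G := by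
  apply pLength_le_exp n G hG (pExp_of_sylow hexp)
  rintro q hq ⟨n₀, m, hn₀, hm, h⟩ Q
  apply hab q ?_ Q
  rintro rfl
  have hp : q.Prime := Fact.out
  have h1 : q ∣ q ^ n₀ - 1 := by rw [h]; exact dvd_pow_self q (by omega)
  have h2 : q ∣ q ^ n₀ := dvd_pow_self q (by omega)
  have h3 : 0 < q ^ n₀ := pow_pos hp.pos _
  have h4 : q ∣ 1 := by
    have := Nat.dvd_sub h2 h1
    rwa [Nat.sub_sub_self (by omega)] at this
  exact hp.one_lt.ne' (Nat.dvd_one.1 h4)

end Cfsg.Agent.S3783
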