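import Cfsg.Statements.S3784
import Mathlib.NumberTheory.LucasLehmer
import Mathlib.NumberTheory.Fermat
import Mathlib.Tactic

set_option autoImplicit false
open Cfsg

namespace Cfsg.Agent.S3784


theorem plus_aux (q : ℤ) (hq : Odd q) (m : ℕ) : ∃ S : ℤ, Odd S ∧ q ^ (2 * m + 1) + 1 = (q + 1) * S := by
  induction m with
  | zero => exact ⟨1, odd_one, by ring⟩
  | succ m ih =>
    obtain ⟨S, hS, hS'⟩ := ih
    refine ⟨q ^ 2 * S - (q - 1), ?_, ?_⟩
    · have h1 : Odd (q ^ 2 * S) := (hq.pow).mul hS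
      have h2 : Even (q - 1) := hq.sub_odd odd_one
      exact h1.sub_even h2
    · have : q ^ (2 * (m + 1) + 1) + 1 = q ^ 2 * (q ^ (2 * m + 1) + 1) - q ^ 2 + 1 := by ring
      rw [this, hS']; ring

theorem minus_aux (q : ℤ) (hq : Odd q) (m : ℕ) : ∃ S : ℤ, Odd S ∧ q ^ (2 * m + 1) - 1 = (q - 1) * S := by
  induction m with
  | zero => exact ⟨1, odd_one, by ring⟩
  | succ m ih =>
    obtain ⟨S, hS, hS'⟩ := ih
    refine ⟨q ^ 2 * S + (q + 1), ?_, ?_⟩
    · have h1 : Odd (q ^ 2 * S) := (hq.pow).mul hS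
      have h2 : Even (q + 1) := hq.add_odd odd_one
      exact h1.add_even h2
    · have : q ^ (2 * (m + 1) + 1) - 1 = q ^ 2 * (q ^ (2 * m + 1) - 1) + q ^ 2 - 1 := by ring
      rw [this, hS']; ring

theorem odd_dvd_two_pow (S : ℤ) (hS : Odd S) (a : ℕ) (h : S ∣ 2 ^ a) (hpos : 0 < S) : S = 1 := by
  have h1 : IsCoprime S (2 ^ a) := by
    apply IsCoprime.pow_right
    exact Int.isCoprime_iff_gcd_eq_one.2 (by
      have := hS
      have h2 : Int.gcd S 2 = 1 := by
        rw [Int.gcd_comm]
        exact (Int.isCoprime_iff_gcd_eq_one.1 (Int.isCoprime_two_left.2 hS))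
      exact h2)
  have h2 : IsUnit S := h1.isUnit_of_dvd' dvd_rfl h
  rcases Int.isUnit_iff.1 h2 with h3 | h3
  · exact h3
  · omega

/-- Let p, q be primes and a, b positive integers with p^a = q^b + 1. Then either p = 2, b = 1, a is prime and q = 2^a − 1; or q = 2, a = 1, b is a power of 2 and p = 2^b + 1; or p^a = 9 and q^b = 8. -/
theorem result (p q a b : ℕ) (hp : p.Prime) (hq : q.Prime) (ha : 1 ≤ a) (hb : 1 ≤ b) (h : p ^ a = q ^ b + 1) : (p = 2 ∧ b = 1 ∧ a.Prime ∧ q + 1 = 2 ^ a) ∨ (q = 2 ∧ a = 1 ∧ (∃ m : ℕ, b = 2 ^ m) ∧ p = 2 ^ b + 1) ∨ (p ^ a = 9 ∧ q ^ b = 8) := by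
  rcases hp.eq_two_or_odd' with rfl | hpo
  · -- p = 2
    left
    have hq2 : q ≠ 2 := by
      rintro rfl
      have h1 : Even (2 ^ a) := (Nat.even_pow.2 ⟨even_two, by omega⟩)
      have h2 : Even (2 ^ b) := (Nat.even_pow.2 ⟨even_two, by omega⟩)
      rw [h] at h1
      exact (Nat.not_even_iff_odd.2 h2.add_one) h1
    have hqo : Odd q := hq.odd_of_ne_two hq2
    have hq3 : 3 ≤ q := by
      have := hq.two_le
      omega
    rcases Nat.even_or_odd' b with ⟨c, rfl | rfl⟩
    · -- b even
      exfalso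
      have h1 : q ^ (2 * c) % 4 = 1 := by
        rw [pow_mul]
        obtain ⟨k, rfl⟩ := hqo
        have : (2 * k + 1) ^ 2 % 4 = 1 := by
          have : (2 * k + 1) ^ 2 = 4 * (k ^ 2 + k) + 1 := by ring
          omega
        rw [Nat.pow_mod, this]; simp
      have h2 : 2 ^ a % 4 = 2 := by omega
      have ha1 : a = 1 := by
        by_contra hne
        have h3 : 4 ∣ 2 ^ a := by
          have : (2 : ℕ) ^ 2 ∣ 2 ^ a := pow_dvd_pow 2 (by omega)
          simpa using this
        omega
      subst ha1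
      have h4 : q ^ (2 * c) = 1 := by omega
      have h5 : 3 ≤ q ^ (2 * c) := le_trans hq3 (Nat.le_self_pow (by omega) q)
      omega
    · obtain ⟨S, hS, hS'⟩ := plus_aux (q : ℤ) (by exact_mod_cast hqo) c
      have hh : ((q : ℤ) + 1) * S = 2 ^ a := by
        rw [← hS']; exact_mod_cast h.symm
      have hSpos : 0 < S := by
        have h6 : (0 : ℤ) < 2 ^ a := by positivity
        rw [← hh] at h6
        have h7 : (0 : ℤ) < (q : ℤ) + 1 := by positivity
        exact (mul_pos_iff_of_pos_left h7).1 h6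
      have hS1 : S = 1 := odd_dvd_two_pow S hS a ⟨(q : ℤ) + 1, by rw [← hh]; ring⟩ hSpos
      rw [hS1, mul_one] at hh
      have hh' : q + 1 = 2 ^ a := by exact_mod_cast hh
      have hc : 2 * c + 1 = 1 := by
        have h8 : q ^ (2 * c + 1) = q := by omega
        exact Nat.pow_right_injective hq.two_le (by simpa using h8)
      refine ⟨rfl, hc, ?_, hh'⟩
      have hqe : 2 ^ a - 1 = q := by omega
      have ha1 : a ≠ 1 := by
        rintro rfl
        norm_num at hh'
        omega
      exact (Nat.prime_of_pow_sub_one_prime ha1 (by rw [hqe]; exact hq)).2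
  · right
    have hq2 : q = 2 := by
      rcases hq.eq_two_or_odd' with h1 | h1
      · exact h1
      · exfalso
        have h2 : Odd (p ^ a) := hpo.pow
        have h3 : Odd (q ^ b) := h1.pow
        rw [h] at h2
        exact (Nat.not_odd_iff_even.2 h3.add_one) h2
    subst hq2
    have hp3 : 3 ≤ p := by
      have := hp.two_le
      rcases hpo with ⟨k, hk⟩
      omega
    rcases Nat.even_or_odd' a with ⟨c, rfl | rfl⟩
    · right
      have hc : 1 ≤ c := by omega
      have hge : 3 ≤ p ^ c := le_trans hp3 (Nat.le_self_pow (by omega) p)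
      have h1 : (p ^ c - 1) * (p ^ c + 1) = 2 ^ b := by
        have h2 : p ^ (2 * c) = p ^ c * p ^ c := by rw [two_mul, pow_add]
        rw [h2] at h
        obtain ⟨k, hk⟩ : ∃ k, p ^ c = k + 1 := ⟨p ^ c - 1, by omega⟩
        rw [hk] at h ⊢
        simp only [Nat.add_sub_cancel]
        nlinarith
      obtain ⟨i, -, hi⟩ := (Nat.dvd_prime_pow Nat.prime_two).1 (Dvd.intro _ h1)
      obtain ⟨j, -, hj⟩ := (Nat.dvd_prime_pow Nat.prime_two).1 (Dvd.intro_left _ h1)
      have h3 : 2 ^ j = 2 ^ i + 2 := by omega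
      have hi1 : i = 1 := by
        rcases i with _ | _ | i
        · simp at h3
          simp at hi
          omega
        · rfl
        · exfalso
          have h4 : 4 ∣ 2 ^ (i + 1 + 1) := by
            rw [pow_succ, pow_succ]; exact ⟨2 ^ i, by ring⟩
          have hj2 : 2 ≤ j := by
            by_contra hlt
            have h5 : 2 ^ j ≤ 2 ^ 1 := Nat.pow_le_pow_right (by norm_num) (by omega)
            have h6 : 0 < 2 ^ (i + 1 + 1) := by positivity
            omega
          have h5 : 4 ∣ 2 ^ j := by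
            have : (2 : ℕ) ^ 2 ∣ 2 ^ j := pow_dvd_pow 2 hj2
            simpa using this
          omega
      subst hi1
      have h4 : p ^ c = 3 := by omega
      have h5 : p ^ (2 * c) = 9 := by rw [mul_comm, pow_mul, h4]; norm_num
      exact ⟨h5, by omega⟩
    · left
      obtain ⟨S, hS, hS'⟩ := minus_aux (p : ℤ) (by exact_mod_cast hpo) c
      have hh : ((p : ℤ) - 1) * S = 2 ^ b := by
        rw [← hS']
        have : (p : ℤ) ^ (2 * c + 1) = 2 ^ b + 1 := by exact_mod_cast h
        rw [this]; ring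
      have hSpos : 0 < S := by
        have h6 : (0 : ℤ) < 2 ^ b := by positivity
        rw [← hh] at h6
        have h7 : (0 : ℤ) < (p : ℤ) - 1 := by
          have : (3 : ℤ) ≤ p := by exact_mod_cast hp3
          omega
        exact (mul_pos_iff_of_pos_left h7).1 h6
      have hS1 : S = 1 := odd_dvd_two_pow S hS b ⟨(p : ℤ) - 1, by rw [← hh]; ring⟩ hSpos
      rw [hS1, mul_one] at hh hS'
      have h8 : p ^ (2 * c + 1) = p := by
        have : (p : ℤ) ^ (2 * c + 1) = p := by linarith
        exact_mod_cast this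
      have hc : 2 * c + 1 = 1 := Nat.pow_right_injective hp.two_le (by simpa using h8)
      rw [h8] at h
      refine ⟨rfl, hc, ?_, h⟩
      exact Nat.pow_of_pow_add_prime (a := 2) (n := b) (by norm_num) (by omega) (h ▸ hp)

end Cfsg.Agent.S3784
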