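import Cfsg.Statements.S3785
import Cfsg.Agent.H63.Omega

set_option autoImplicit false
open Cfsg

namespace Cfsg.Agent.S3785

open Subgroup
open scoped commutatorElement

theorem cent_pCore {G : Type*} [Group G] [Finite G] (hodd : Odd (Nat.card (Cfsg.fittingSubgroup G)))
    {x : G} (hx : ∀ u ∈ Cfsg.fittingSubgroup G, (orderOf u).Prime → x * u = u * x)
    {p : ℕ} (hp : p.Prime) {a : ℕ} (hxp : x ^ p ^ a = 1) {r : ℕ} (hr : r.Prime) (hrp : r ≠ p) :
    x ∈ centralizer (Cfsg.pCore r G : Set G) := by
  haveI : Fact r.Prime := ⟨hr⟩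
  have key : ∀ u ∈ Cfsg.pCore r G, u ^ r = 1 → u ∈ centralizer (zpowers x : Set G) := by
    intro u hu hur
    have hc : x * u = u * x := by
      by_cases h1 : u = 1
      · rw [h1]; simp
      · apply hx u (Solv.pCore_le_fitting r hu)
        rw [orderOf_eq_prime hur h1]; exact hr
    rw [mem_centralizer_iff]
    rintro _ ⟨n, rfl⟩
    exact (Commute.zpow_left (show Commute x u from hc) n).eq
  have hA : (Nat.card (zpowers x)).Coprime r := by
    rw [Nat.card_zpowers]
    apply Nat.Coprime.coprime_dvd_left (orderOf_dvd_of_pow_eq_one hxp)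
    exact Nat.Coprime.pow_left a ((Nat.coprime_primes hp hr).2 (Ne.symm hrp))
  have h1 := H63.le_centralizer_of_omega (zpowers x) (Cfsg.pCore r G) (Solv.pCore_isPGroup r)
    (by rw [normalizer_eq_top]; exact le_top) hA key (by
      intro hr2 u hu hu4
      have hu2 : u = 1 := by
        have h2 : orderOf (⟨u, Solv.pCore_le_fitting r hu⟩ : Cfsg.fittingSubgroup G) ∣ 1 := by
          have h3 : (Nat.card (Cfsg.fittingSubgroup G)).Coprime 4 := by
            rw [show 4 = 2 ^ 2 by norm_num]
            exact Nat.Coprime.pow_right 2 (Nat.coprime_two_right.2 hodd)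
          rw [← h3]
          apply Nat.dvd_gcd (orderOf_dvd_natCard _)
          apply orderOf_dvd_of_pow_eq_one
          exact Subtype.ext hu4
        rw [Nat.dvd_one, orderOf_eq_one_iff] at h2
        exact congrArg Subtype.val h2
      rw [hu2]; exact one_mem _)
  exact h1 (mem_zpowers x)

theorem comm_of_cent {G : Type*} [Group G] [Finite G] (hG : Group.IsSolvable G)
    {p q : ℕ} (hp : p.Prime) (hq : q.Prime) (hpq : p ≠ q) {x y : G}
    {a b : ℕ} (hxp : x ^ p ^ a = 1) (hyq : y ^ q ^ b = 1)
    (hx : ∀ r : ℕ, r.Prime → r ≠ p → x ∈ centralizer (Cfsg.pCore r G : Set G))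
    (hy : ∀ r : ℕ, r.Prime → r ≠ q → y ∈ centralizer (Cfsg.pCore r G : Set G)) : x * y = y * x := by
  haveI : Fact p.Prime := ⟨hp⟩
  haveI := hG
  set z := ⁅x, y⁆ with hz
  have hzF : z ∈ Cfsg.fittingSubgroup G := by
    apply Solv.centralizer_fitting_le
    rw [Solv.fitting_eq_iSup_pCore]
    have h1 : ⨆ r : Nat.Primes, Cfsg.pCore (r : ℕ) G ≤ centralizer ({z} : Set G) := by
      apply iSup_le
      intro r u hu
      rw [mem_centralizer_singleton_iff]
      have h2 : z ∈ centralizer (Cfsg.pCore (r : ℕ) G : Set G) := by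
        by_cases hr : (r : ℕ) = p
        · have h3 := hy r r.2 (by rw [hr]; exact hpq)
          have hn : (centralizer (Cfsg.pCore (r : ℕ) G : Set G)).Normal := inferInstance
          rw [hz, commutatorElement_def]
          exact mul_mem (hn.conj_mem _ h3 x) (inv_mem h3)
        · have h3 := hx r r.2 hr
          have hn : (centralizer (Cfsg.pCore (r : ℕ) G : Set G)).Normal := inferInstance
          rw [hz, commutatorElement_def, mul_assoc x y, mul_assoc x]
          exact mul_mem h3 (hn.conj_mem _ (inv_mem h3) y)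
      exact (mem_centralizer_iff.1 h2 u hu)
    rw [mem_centralizer_iff]
    intro u hu
    have := h1 hu
    rw [mem_centralizer_singleton_iff] at this
    exact this
  -- z ∈ O_p
  have hzp : z ∈ Cfsg.pCore p G := by
    apply H63.mem_pCore_of_mem_fitting hzF
    refine ⟨a, ?_⟩
    have hFc : Cfsg.fittingSubgroup G ≤ (centralizer ({QuotientGroup.mk' (Cfsg.pCore p G) x} : Set _)).comap
        (QuotientGroup.mk' (Cfsg.pCore p G)) := by
      rw [Solv.fitting_eq_iSup_pCore]
      apply iSup_le
      intro r u hu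
      rw [mem_comap, mem_centralizer_singleton_iff]
      by_cases hr : (r : ℕ) = p
      · have h3 : QuotientGroup.mk' (Cfsg.pCore p G) u = 1 := by
          apply (QuotientGroup.eq_one_iff _).2
          rw [← hr]; exact hu
        rw [h3]; simp
      · have h3 := mem_centralizer_iff.1 (hx r r.2 hr) u hu
        rw [← map_mul, ← map_mul, h3]
    have h4 := hFc hzF
    rw [mem_comap, mem_centralizer_singleton_iff] at h4
    rw [← QuotientGroup.eq_one_iff]
    have h5 : (x⁻¹ * z) ^ p ^ a = 1 := by
      have : x⁻¹ * z = y * x⁻¹ * y⁻¹ := by rw [hz, commutatorElement_def]; group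
      rw [this, conj_pow, inv_pow, hxp, inv_one, mul_one, mul_inv_cancel]
    have h6 := congrArg (QuotientGroup.mk' (Cfsg.pCore p G)) h5
    have hc : Commute (QuotientGroup.mk' (Cfsg.pCore p G) x⁻¹) (QuotientGroup.mk' (Cfsg.pCore p G) z) := by
      rw [map_inv]
      exact (show Commute _ _ from h4.symm).inv_left
    rw [map_pow, map_mul, hc.mul_pow, ← map_pow, ← map_pow, inv_pow, hxp, inv_one, map_one, one_mul] at h6
    exact h6
  have hyz := mem_centralizer_iff.1 (hy p hp hpq) z hzp
  have h7 : z ^ q ^ b = 1 := by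
    have h8 : z * y = x * y * x⁻¹ := by rw [hz, commutatorElement_def]; group
    have h9 : (z * y) ^ q ^ b = 1 := by
      rw [h8, conj_pow, hyq, mul_one, mul_inv_cancel]
    rwa [(show Commute z y from hyz).mul_pow, hyq, mul_one] at h9
  obtain ⟨c, hc⟩ := (Solv.pCore_isPGroup (G := G) p) ⟨z, hzp⟩
  have h10 : z ^ p ^ c = 1 := congrArg Subtype.val hc
  have h11 : z = 1 := by
    have : orderOf z ∣ 1 := by
      have h12 : (p ^ c).Coprime (q ^ b) := Nat.Coprime.pow _ _ ((Nat.coprime_primes hp hq).2 hpq)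
      rw [← h12]
      exact Nat.dvd_gcd (orderOf_dvd_of_pow_eq_one h10) (orderOf_dvd_of_pow_eq_one h7)
    rw [Nat.dvd_one, orderOf_eq_one_iff] at this
    exact this
  exact commutatorElement_eq_one_iff_mul_comm.1 h11

/-- Let G be a finite solvable group whose Fitting subgroup F(G) has odd order. If an element g of G commutes with every element of prime order of F(G), then g ∈ F(G). -/
theorem result {G : Type*} [Group G] [Finite G] (hG : Group.IsSolvable G) (hodd : Odd (Nat.card (Cfsg.fittingSubgroup G))) (g : G) (hg : ∀ x ∈ Cfsg.fittingSubgroup G, (orderOf x).Prime → g * x = x * g) : g ∈ Cfsg.fittingSubgroup G := by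
  set C : Subgroup G := centralizer {u : G | u ∈ Cfsg.fittingSubgroup G ∧ (orderOf u).Prime} with hC
  have hCn : C.Normal := by
    constructor
    intro n hn h
    rw [hC, mem_centralizer_iff] at hn ⊢
    rintro u ⟨hu, huo⟩
    have hu' : h⁻¹ * u * h ∈ Cfsg.fittingSubgroup G := by
      have := (inferInstance : (Cfsg.fittingSubgroup G).Normal).conj_mem u hu h⁻¹
      rwa [inv_inv] at this
    have huo' : (orderOf (h⁻¹ * u * h)).Prime := by
      have h3 : orderOf (MulAut.conj h⁻¹ u) = orderOf u := MulEquiv.orderOf_eq (MulAut.conj h⁻¹) u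
      rw [MulAut.conj_apply, inv_inv] at h3
      rw [h3]
      exact huo
    have h1 := hn _ ⟨hu', huo'⟩
    have h2 : u * (h * n * h⁻¹) = h * (h⁻¹ * u * h * n) * h⁻¹ := by group
    rw [h2, h1]; group
  have hCnil : Group.IsNilpotent C := by
    apply H63.isNilpotent_of_commute
    rintro p q hp hq hpq ⟨x, hx⟩ ⟨y, hy⟩ ⟨a, ha⟩ ⟨b, hb⟩
    apply Subtype.ext
    have ha' : x ^ p ^ a = 1 := congrArg Subtype.val ha
    have hb' : y ^ q ^ b = 1 := congrArg Subtype.val hb
    rw [hC, mem_centralizer_iff] at hx hy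
    exact comm_of_cent hG hp hq hpq ha' hb'
      (fun r hr hrp => cent_pCore hodd (fun u hu huo => (hx u ⟨hu, huo⟩).symm) hp ha' hr hrp)
      (fun r hr hrq => cent_pCore hodd (fun u hu huo => (hy u ⟨hu, huo⟩).symm) hq hb' hr hrq)
  have hle : C ≤ Cfsg.fittingSubgroup G := Solv.le_fitting hCn hCnil
  apply hle
  rw [hC, mem_centralizer_iff]
  rintro u ⟨hu, huo⟩
  exact (hg u hu huo).symm

end Cfsg.Agent.S3785
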