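import Cfsg.Statements.S3786
import Cfsg.Agent.H34.HL8

set_option autoImplicit false
open Cfsg

namespace Cfsg.Agent.S3786

open Cfsg.Agent.H34.HL


/-- The Hall–Higman bound on p-length. Let p be an odd prime and G a finite p-soluble group whose Sylow p-subgroups have exponent dividing p^e. (a) If p is not of the form 2^k + 1, or if the Sylow 2-subgroups of G are abelian, then G has p-length at most e. (b) In every case G has p-length at most 2e. -/
theorem result {G : Type*} [Group G] [Finite G] {p : ℕ} [Fact p.Prime] (hp : p ≠ 2) (hG : Cfsg.IsPSolvable p G) (e : ℕ) (hexp : ∀ (P : Sylow p G), ∀ x ∈ (P : Subgroup G), x ^ p ^ e = 1) : (((¬ ∃ k : ℕ, p = 2 ^ k + 1) ∨ ∀ S : Sylow 2 G, IsMulCommutative (S : Subgroup G)) → Cfsg.PLengthLE p e G) ∧ Cfsg.PLengthLE p (2 * e) G := by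
  have hpp : p.Prime := Fact.out
  have hp3 : 3 ≤ p := by
    have := hpp.two_le
    omega
  have hE : Ex p e G := by
    intro g hg
    obtain ⟨k, hk⟩ := hg
    obtain ⟨j, -, hj⟩ := (Nat.dvd_prime_pow hpp).mp (orderOf_dvd_of_pow_eq_one hk)
    have h1 : IsPGroup p (Subgroup.zpowers g) := by
      apply IsPGroup.of_card (n := j)
      rw [Nat.card_zpowers, hj]
    obtain ⟨P, hP⟩ := h1.exists_le_sylow
    exact hexp P g (hP (Subgroup.mem_zpowers g))
  exact ⟨fun h => thmA p hp3 _ G rfl hG e hE h, thmB p hp3 _ G rfl hG e hE⟩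

end Cfsg.Agent.S3786
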