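import Cfsg.Statements.S3787
import Cfsg.Agent.HH.Wreath

set_option autoImplicit false
open Cfsg

namespace Cfsg.Agent.S3787


open Cfsg.Agent.HH

theorem involves_of_surj {P W : Type*} [Group P] [Group W] (K : Subgroup P) (g : K →* W)
    (hg : Function.Surjective g) : Cfsg.Involves W P := by
  have h1 : (g.ker.map K.subtype).subgroupOf K = g.ker :=
    Subgroup.comap_map_eq_self_of_injective K.subtype_injective _
  have hn : ((g.ker.map K.subtype).subgroupOf K).Normal := by rw [h1]; infer_instance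
  refine ⟨K, g.ker.map K.subtype, hn, ⟨?_⟩⟩
  exact (QuotientGroup.quotientMulEquivOfEq h1).trans (QuotientGroup.quotientKerEquivOfSurjective g hg)


/-- Let G be a finite p-soluble group, p an odd prime not of the form 2^k + 1, and suppose the wreath product C_p ≀ C_p (of order p^(p+1)) is not involved in a Sylow p-subgroup of G: no section of a Sylow p-subgroup is isomorphic to it. Then G has p-length at most 1. -/
theorem result {G : Type*} [Group G] [Finite G] {p : ℕ} [Fact p.Prime] (hp2 : p ≠ 2) (hnf : (¬ ∃ k : ℕ, p = 2 ^ k + 1)) (hG : Cfsg.IsPSolvable p G) (P : Sylow p G) (hwr : ∀ (W : Type) [Group W] [Finite W], (∃ (B : Subgroup W) (t : W), B.Normal ∧ IsMulCommutative B ∧ (∀ b ∈ B, b ^ p = 1) ∧ Nat.card B = p ^ p ∧ orderOf t = p ∧ t ∉ B ∧ Nat.card W = p ^ (p + 1) ∧ Nat.card ↥(B ⊓ Subgroup.centralizer ({t} : Set W)) = p) → ¬ Cfsg.Involves W ↥(P : Subgroup G)) : Cfsg.PLengthLE p 1 G := by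
  classical
  have hpp : p.Prime := Fact.out
  haveI : (Cfsg.pPrimeCore p G).Normal := (Solv.coprime_card_sSup p _ (fun _ h => h)).1
  apply H63.pLengthLE_of_quotient_coprime (Cfsg.pPrimeCore p G) (Solv.pPrimeCore_card_coprime p)
  set G₁ := G ⧸ Cfsg.pPrimeCore p G with hG₁
  have hG1 : Cfsg.IsPSolvable p G₁ := H76.isPSolvable_quotient _ hG
  have hcore : Cfsg.pPrimeCore p G₁ = ⊥ := pPrimeCore_quotient_eq_bot
  haveI : (Cfsg.pCore p G₁).Normal := Solv.pCore_normal p
  have hP : IsPGroup p (Cfsg.pCore p G₁) := Solv.pCore_isPGroup p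
  apply H63.pLengthLE_of_quotient_pgroup (Cfsg.pCore p G₁) hP
  rw [H63.pLengthLE_zero_iff]
  let mk := QuotientGroup.mk' (Cfsg.pPrimeCore p G)
  have hmk : Function.Surjective mk := QuotientGroup.mk'_surjective _
  let S : Sylow p G₁ := P.mapSurjective hmk
  have hP₀S : Cfsg.pCore p G₁ ≤ S := by
    obtain ⟨g, hg⟩ := hP.exists_le_sylow
    obtain ⟨a, ha⟩ := MulAction.exists_smul_eq G₁ g S
    intro y hy
    rw [← ha]
    have h1 : a⁻¹ * y * a ∈ Cfsg.pCore p G₁ := by
      have := (inferInstance : (Cfsg.pCore p G₁).Normal).conj_mem y hy a⁻¹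
      rwa [inv_inv] at this
    have h2 := hg h1
    rw [Sylow.coe_subgroup_smul]
    refine ⟨_, h2, ?_⟩
    change a * (a⁻¹ * y * a) * a⁻¹ = y
    group
  by_contra hcon
  obtain ⟨s, hs, hsP⟩ : ∃ s ∈ (S : Subgroup G₁), s ∉ Cfsg.pCore p G₁ := by
    by_contra hcon2
    push Not at hcon2
    apply hcon
    rw [Nat.coprime_comm, Nat.Prime.coprime_iff_not_dvd hpp]
    intro hdvd
    have h1 : (Cfsg.pCore p G₁).index ∣ (S : Subgroup G₁).index := Subgroup.index_dvd_of_le hcon2
    exact S.not_dvd_index (hdvd.trans h1)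
  have hex : ∃ k, s ^ p ^ k ∈ Cfsg.pCore p G₁ := by
    obtain ⟨k, hk⟩ := S.isPGroup' ⟨s, hs⟩
    exact ⟨k, by
      have := congrArg Subtype.val hk
      change s ^ p ^ k = 1 at this
      rw [this]; exact one_mem _⟩
  have hk := Nat.find_spec hex
  have hkmin := fun m => Nat.find_min hex (m := m)
  set k := Nat.find hex
  have hk0 : k ≠ 0 := by
    intro h0
    rw [h0, pow_zero, pow_one] at hk
    exact hsP hk
  obtain ⟨k', hk'⟩ : ∃ k', k = k' + 1 := ⟨k - 1, by omega⟩
  set x := s ^ p ^ k' with hx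
  have hxP : x ∉ Cfsg.pCore p G₁ := hkmin k' (by omega)
  have hxp : x ^ p ∈ Cfsg.pCore p G₁ := by
    rw [hx, ← pow_mul, ← pow_succ, ← hk']; exact hk
  obtain ⟨V, _, _, _, ⟨F⟩⟩ := exists_fmod hG1 hcore
  have hne : (F.ρ x - 1) ^ (p - 1) ≠ 0 := by
    rcases F.thmB hG1 (x := x) (n := 1) le_rfl (by rw [pow_one]; exact hxp)
      (by rw [Nat.sub_self, pow_zero, pow_one]; exact hxP) with h1 | ⟨n₀, q, m, hn₀, hn₀', hq, hm, hpq, -, -⟩
    · rwa [pow_one] at h1
    · exfalso
      have hn : n₀ = 1 := by omega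
      rw [hn, pow_one] at hpq
      have hodd : Odd p := hpp.odd_of_ne_two hp2
      have h2 : 2 ∣ q ^ m := by
        rw [← hpq]
        obtain ⟨c, hc⟩ := hodd
        exact ⟨c, by omega⟩
      have h3 : q = 2 := ((Nat.prime_dvd_prime_iff_eq Nat.prime_two hq).1 (Nat.prime_two.dvd_of_dvd_pow h2)).symm
      rw [h3] at hpq
      apply hnf
      have := hpp.pos
      exact ⟨m, by omega⟩
  obtain ⟨W, _, _, f, hf, hWL⟩ := F.exists_wreath hxp hxP hne
  -- transport to Type
  haveI : Small.{0} W := inferInstance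
  let e : W ≃* Shrink.{0} W := (Shrink.mulEquiv (α := W)).symm
  haveI : Finite (Shrink.{0} W) := Finite.of_equiv W e.toEquiv
  refine hwr (Shrink.{0} W) (WreathLike.of_equiv e hWL) ?_
  have hKS : Cfsg.pCore p G₁ ⊔ Subgroup.zpowers x ≤ S := by
    apply sup_le hP₀S
    rw [Subgroup.zpowers_le]
    exact Subgroup.pow_mem _ hs _
  let K : Subgroup (P : Subgroup G) :=
    (Cfsg.pCore p G₁ ⊔ Subgroup.zpowers x).comap (mk.comp (P : Subgroup G).subtype)
  let g : K →* ↥(Cfsg.pCore p G₁ ⊔ Subgroup.zpowers x) :=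
    (mk.comp (P : Subgroup G).subtype).subgroupComap (Cfsg.pCore p G₁ ⊔ Subgroup.zpowers x)
  have hg : Function.Surjective g := by
    rintro ⟨y, hy⟩
    obtain ⟨a, ha, hay⟩ : y ∈ (P : Subgroup G).map mk := hKS hy
    refine ⟨⟨⟨a, ha⟩, ?_⟩, ?_⟩
    · change mk a ∈ Cfsg.pCore p G₁ ⊔ Subgroup.zpowers x
      rw [hay]; exact hy
    · exact Subtype.ext hay
  exact involves_of_surj K (e.toMonoidHom.comp (f.comp g)) (e.surjective.comp (hf.comp hg))

end Cfsg.Agent.S3787
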