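import Cfsg.Statements.S3788
import Cfsg.Agent.HH.QuadA
import Cfsg.Agent.HH.PLenExp
import Cfsg.Agent.H62.W2
import Cfsg.Agent.H34.Involves

set_option autoImplicit false
open Cfsg

namespace Cfsg.Agent.S3788


open Subgroup Cfsg.Agent.HH
open scoped commutatorElement

universe u v

/-- a subspace on which the commuting element acts trivially -/
theorem trivial_of_comm {X : Type u} [Group X] {K : Type v} [Field K] {V : Type*} [AddCommGroup V] [Module K V]
    (ρ : Representation K X V) {Q : Subgroup X} {a z : X} (hQ : ⁅Q, zpowers a⁆ = Q)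
    (hz : ∀ g ∈ Q, g * z = z * g) (h0 : (ρ a - 1) * (ρ z - 1) = 0) : ∀ g ∈ Q, (ρ g - 1) * (ρ z - 1) = 0 := by
  have hcomm : ∀ g, g * z = z * g → ρ g * (ρ z - 1) = (ρ z - 1) * ρ g := by
    intro g hg
    rw [mul_sub, sub_mul, ← map_mul, ← map_mul, hg, mul_one, one_mul]
  let S : Subgroup X :=
    { carrier := {g | ρ g * (ρ z - 1) = (ρ z - 1)}
      one_mem' := by change ρ 1 * _ = _; rw [map_one, one_mul]
      mul_mem' := by
        intro x y hx hy
        change ρ (x * y) * _ = _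
        rw [map_mul, mul_assoc, hy, hx]
      inv_mem' := by
        intro x hx
        change ρ x⁻¹ * _ = _
        have hx' : ρ x * (ρ z - 1) = (ρ z - 1) := hx
        conv_lhs => rw [← hx']
        rw [← mul_assoc, ← map_mul, inv_mul_cancel, map_one, one_mul] }
  have hS : ∀ g, g ∈ S ↔ ρ g * (ρ z - 1) = (ρ z - 1) := fun _ => Iff.rfl
  have haS : a ∈ S := by
    rw [hS]
    rw [sub_mul, one_mul, sub_eq_zero] at h0
    exact h0
  have hle : zpowers a ≤ S := by rw [zpowers_le]; exact haS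
  have h1 : ⁅Q, zpowers a⁆ ≤ S := by
    rw [commutator_le]
    intro g hg b hb
    rw [hS, commutatorElement_def, map_mul, map_mul, map_mul]
    have hb' := (hS b).1 (hle hb)
    have hb'' := (hS b⁻¹).1 (S.inv_mem (hle hb))
    have hg' := hcomm g⁻¹ (by
      have := hz g⁻¹ (inv_mem hg)
      exact this)
    rw [mul_assoc, hb'', mul_assoc, hg', mul_assoc, ← mul_assoc (ρ b), hb', ← hg', ← mul_assoc, ← map_mul,
      mul_inv_cancel, map_one, one_mul]
  rw [hQ] at h1
  intro g hg
  have := (hS g).1 (h1 hg)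
  rw [sub_mul, one_mul, this, sub_self]

section Odd

variable {p : ℕ} [hp : Fact p.Prime] {G : Type u} [Group G] [Finite G] {V : Type v} [AddCommGroup V]
  [Module (ZMod p) V] [Finite V]

theorem key_odd (hp2 : p ≠ 2) (F : FMod p G V) {a t : G} (ha : a ∉ pCore p G)
    (hn : ∀ v ∈ pCore p G, a * v * a⁻¹ * v⁻¹ ∈ zpowers a)
    (hquad : (F.ρ a - 1) * (F.ρ a - 1) = 0) (ht : (orderOf t).Coprime p)
    (hta : a * t * a⁻¹ * t⁻¹ ∈ pCore p G) : (F.ρ t - 1) * (F.ρ a - 1) = 0 := by
  classical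
  have hpp : p.Prime := hp.out
  set O := pCore p G with hO
  haveI hOn : O.Normal := Solv.pCore_normal p
  have hOp : IsPGroup p O := Solv.pCore_isPGroup p
  have hVnt : Nontrivial V := by
    by_contra hcon
    rw [not_nontrivial_iff_subsingleton] at hcon
    apply ha
    rw [← F.faithful]
    apply LinearMap.ext
    intro v
    exact Subsingleton.elim _ _
  haveI : CharP (Module.End (ZMod p) V) p := charP_end_of
  have hp3 : 3 ≤ p := by
    have := hpp.two_le
    omega
  have hpow0 : ∀ m, 2 ≤ m → (F.ρ a - 1) ^ m = 0 := by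
    intro m hm
    rw [show m = 2 + (m - 2) by omega, pow_add, pow_two, hquad, zero_mul]
  have hapO : a ^ p ∈ O := by
    rw [← F.faithful, map_pow, ← sub_eq_zero]
    have h1 : (F.ρ a - 1) ^ p = F.ρ a ^ p - 1 := by
      rw [sub_pow_char_of_commute p (Commute.one_right _), one_pow]
    rw [← h1]
    exact hpow0 p (by omega)
  -- a' = a * n
  have hcop : (Nat.card (zpowers t)).Coprime (Nat.card O) := by
    rw [Nat.card_zpowers]
    obtain ⟨k, hk⟩ := IsPGroup.iff_card.1 hOp
    rw [hk]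
    exact Nat.Coprime.pow_right k ht
  have hcommO : ∀ b ∈ zpowers t, a⁻¹ * b * a * b⁻¹ ∈ O := by
    intro b hb
    have h1 : QuotientGroup.mk' O a * QuotientGroup.mk' O t = QuotientGroup.mk' O t * QuotientGroup.mk' O a := by
      rw [← map_mul, ← map_mul]
      apply (QuotientGroup.eq (s := O)).2
      have h2 := hOn.conj_mem _ (O.inv_mem hta) (t * a)⁻¹
      have h3 : (t * a)⁻¹ * (a * t * a⁻¹ * t⁻¹)⁻¹ * (t * a)⁻¹⁻¹ = (a * t)⁻¹ * (t * a) := by group
      rwa [h3] at h2
    obtain ⟨k, rfl⟩ := mem_zpowers_iff.1 hb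
    rw [← QuotientGroup.eq_one_iff]
    change QuotientGroup.mk' O _ = 1
    rw [map_mul, map_mul, map_mul, map_inv, map_inv, map_zpow]
    have h2 : Commute (QuotientGroup.mk' O a) (QuotientGroup.mk' O t ^ k) := Commute.zpow_right h1 k
    rw [mul_assoc (QuotientGroup.mk' O a)⁻¹, ← h2.eq, inv_mul_cancel_left, mul_inv_cancel]
  obtain ⟨n, hnO, hn'⟩ := Cop.exists_mul_normalizes (A := zpowers t) (D := O)
    (by rw [normalizer_eq_top]; exact le_top) hcop (Or.inl inferInstance) (x := a) hcommO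
  set a' := a * n with ha'
  have ha't : a' * t * a'⁻¹ = t := by
    have h1 : a' * t * a'⁻¹ * t⁻¹ ∈ zpowers t := mul_mem (hn' t (mem_zpowers t)) (inv_mem (mem_zpowers t))
    have h2 : a' * t * a'⁻¹ * t⁻¹ ∈ O := by
      have h3 : a' * t * a'⁻¹ * t⁻¹ = (a * (n * (t * n⁻¹ * t⁻¹)) * a⁻¹) * (a * t * a⁻¹ * t⁻¹) := by
        rw [ha']; group
      rw [h3]
      exact mul_mem (hOn.conj_mem _ (mul_mem hnO (hOn.conj_mem _ (inv_mem hnO) t)) a) hta
    have h3 := Cop.eq_one_of_mem_of_mem hcop h1 h2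
    exact mul_inv_eq_one.1 h3
  -- a' = v a
  have hvO : a * n * a⁻¹ ∈ O := hOn.conj_mem n hnO a
  obtain ⟨w, hw, hπ⟩ := F.pi_mul_pow ⟨a * n * a⁻¹, hvO⟩ a p
  have hva : (a * n * a⁻¹) * a = a' := by rw [ha']; group
  have hgeom : ∑ i ∈ Finset.range p, F.ρ a ^ i = 0 := by
    have := geom_eq_pow (p := p) (F.ρ a) 1
    rw [pow_one] at this
    rw [this]
    exact hpow0 _ (by omega)
  rw [← LinearMap.sum_apply, hgeom, LinearMap.zero_apply] at hπ
  change (w : G) = ((a * n * a⁻¹) * a) ^ p * (a ^ p)⁻¹ at hw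
  rw [hva] at hw
  have hw1 : (w : G) * a ^ p = a' ^ p := by rw [hw, inv_mul_cancel_right]
  have ha'pO : a' ^ p ∈ O := by rw [← hw1]; exact mul_mem w.2 hapO
  have hπeq : (F.π ⟨a' ^ p, ha'pO⟩).toAdd = (F.π ⟨a ^ p, hapO⟩).toAdd := by
    have h1 : (⟨a' ^ p, ha'pO⟩ : O) = w * ⟨a ^ p, hapO⟩ := Subtype.ext hw1.symm
    rw [h1, map_mul, toAdd_mul, hπ, zero_add]
  have htfix : F.ρ t (F.π ⟨a ^ p, hapO⟩).toAdd = (F.π ⟨a ^ p, hapO⟩).toAdd := by
    rw [← hπeq]
    symm
    apply F.equiv t ⟨a' ^ p, ha'pO⟩ ⟨a' ^ p, ha'pO⟩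
    change a' ^ p = t * a' ^ p * t⁻¹
    have h1 : Commute t a' := by
      change t * a' = a' * t
      conv_lhs => rw [← ha't]
      group
    rw [(h1.pow_right p).eq, mul_inv_cancel_right]
  apply LinearMap.ext
  intro u
  obtain ⟨v, rfl⟩ := F.exists_pi u
  have hcO : a * v * a⁻¹ * (v : G)⁻¹ ∈ O := mul_mem (hOn.conj_mem _ v.2 a) (inv_mem v.2)
  have h1 := F.pi_comm a v ⟨_, hcO⟩ rfl
  rw [Module.End.mul_apply, ← h1, LinearMap.zero_apply]
  obtain ⟨m, hm⟩ := mem_zpowers_iff.1 (hn v v.2)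
  have hpm : (p : ℤ) ∣ m := by
    by_contra hcon
    apply ha
    have hcop2 : IsCoprime (p : ℤ) m := (Nat.prime_iff_prime_int.1 hpp).coprime_iff_not_dvd.2 hcon
    obtain ⟨x, y, hxy⟩ := hcop2
    have h3 : a = (a ^ p) ^ x * (a ^ m) ^ y := by
      rw [← zpow_natCast, ← zpow_mul, ← zpow_mul, ← zpow_add]
      have : (p : ℤ) * x + m * y = 1 := by rw [← hxy]; ring
      rw [this, zpow_one]
    rw [h3]
    refine mul_mem (zpow_mem hapO _) (zpow_mem ?_ _)
    rw [hm]; exact hcO
  obtain ⟨m', rfl⟩ := hpm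
  have h4 : (⟨a * v * a⁻¹ * (v : G)⁻¹, hcO⟩ : O) = ⟨a ^ p, hapO⟩ ^ m' := by
    apply Subtype.ext
    change a * v * a⁻¹ * (v : G)⁻¹ = ((⟨a ^ p, hapO⟩ ^ m' : O) : G)
    rw [Subgroup.coe_zpow, ← hm, zpow_mul, zpow_natCast]
  rw [h4, map_zpow, toAdd_zpow, map_zsmul, LinearMap.sub_apply, Module.End.one_apply, htfix, sub_self, smul_zero]

end Odd

section Two

/-- an element of a set of at most four elements -/
theorem perm_pow_24 {Ω : Type*} [Finite Ω] (hΩ : Nat.card Ω ≤ 4) (e : Equiv.Perm Ω) : e ^ 24 = 1 := by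
  classical
  haveI := Fintype.ofFinite Ω
  have h1 : orderOf e ∣ 24 := by
    refine (orderOf_dvd_card (G := Equiv.Perm Ω)).trans ?_
    rw [Fintype.card_perm, ← Nat.card_eq_fintype_card]
    exact Nat.factorial_dvd_factorial hΩ
  exact orderOf_dvd_iff_pow_eq_one.1 h1

theorem key_two {X : Type u} [Group X] [Finite X] {V : Type v} [AddCommGroup V] [Module (ZMod 2) V] [Finite V]
    (ρ : Representation (ZMod 2) X V) (hinj : Function.Injective ρ) {x l : X} (hx : x * x = 1) (hne : l * x ≠ x * l)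
    {L : Subgroup X} [L.Normal] (hL : (Nat.card L).Coprime 2) (hl : l ∈ L) (w₀ : V)
    (hw : ∀ u : V, ∃ m : ZMod 2, (ρ x - 1) u = m • w₀) : Involves (Equiv.Perm (Fin 3)) X := by
  classical
  haveI : Fact (Nat.Prime 2) := ⟨Nat.prime_two⟩
  have hVnt : Nontrivial V := by
    by_contra hcon
    rw [not_nontrivial_iff_subsingleton] at hcon
    apply hne
    apply hinj
    apply LinearMap.ext
    intro v
    exact Subsingleton.elim _ _
  haveI : CharP (Module.End (ZMod 2) V) 2 := charP_end_of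
  have hxi : x⁻¹ = x := inv_eq_of_mul_eq_one_right hx
  set y := l * x * l⁻¹ * x with hy
  have hyL : y ∈ L := by
    have h1 : y = l * (x * l⁻¹ * x⁻¹) := by rw [hy, hxi]; group
    rw [h1]
    exact mul_mem hl ((inferInstance : L.Normal).conj_mem _ (inv_mem hl) x)
  have hy1 : y ≠ 1 := by
    intro h
    apply hne
    have h1 : l * x * l⁻¹ = x⁻¹ := eq_inv_of_mul_eq_one_left h
    rw [hxi] at h1
    calc l * x = l * x * l⁻¹ * l := by group
      _ = x * l := by rw [h1]
  have hxy : x * y * x⁻¹ = y⁻¹ := by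
    have h1 : y⁻¹ = x⁻¹ * (l * x⁻¹ * l⁻¹) := by rw [hy]; group
    rw [h1, hxi, hy]
    calc x * (l * x * l⁻¹ * x) * x = x * (l * x * l⁻¹) * (x * x) := by group
      _ = x * (l * x * l⁻¹) := by rw [hx, mul_one]
  have hodd : (orderOf y).Coprime 2 :=
    Nat.Coprime.coprime_dvd_left (by
      have := orderOf_dvd_natCard (⟨y, hyL⟩ : L)
      rwa [Subgroup.orderOf_mk] at this) hL
  -- the range of y - 1
  set w₁ := ρ l w₀ with hw₁
  have hrange : ∀ u : V, ∃ m n : ZMod 2, (ρ y - 1) u = m • w₁ + n • w₀ := by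
    intro u
    obtain ⟨n, hn⟩ := hw u
    obtain ⟨m, hm⟩ := hw (ρ l⁻¹ (ρ x u))
    refine ⟨m, n, ?_⟩
    have h1 : (ρ y - 1) u = ρ l ((ρ x - 1) (ρ l⁻¹ (ρ x u))) + (ρ x - 1) u := by
      simp only [LinearMap.sub_apply, Module.End.one_apply, map_sub]
      rw [hy, rho_mul, rho_mul, rho_mul, rho_apply_inv]
      abel
    rw [h1, hm, hn, map_smul]
  by_cases h3 : 3 ∣ orderOf y
  · obtain ⟨k, hk⟩ := h3
    have hk0 : k ≠ 0 := by
      rintro rfl
      rw [mul_zero] at hk
      exact (orderOf_pos y).ne' hk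
    have hok : orderOf (y ^ k) = 3 := by
      rw [orderOf_pow_of_dvd hk0 (by rw [hk]; exact Dvd.intro_left 3 rfl), hk, Nat.mul_div_cancel _ (Nat.pos_of_ne_zero hk0)]
    apply H62.involves_S3_of_inverted (x := x) (y := y ^ k)
    · have h4 : orderOf x ∣ 2 ^ 1 := by
        rw [pow_one, orderOf_dvd_iff_pow_eq_one, pow_two]; exact hx
      obtain ⟨j, -, hj⟩ := (Nat.dvd_prime_pow Nat.prime_two).1 h4
      exact ⟨j, hj⟩
    · rw [← hok, pow_orderOf_eq_one]
    · intro h
      rw [h, orderOf_one] at hok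
      omega
    · rw [← conj_pow, hxy, inv_pow]
  · exfalso
    -- y acts trivially on the range
    have hcop : Nat.Coprime (orderOf y) 24 := by
      have h4 : Nat.Coprime (orderOf y) 3 := ((Nat.Prime.coprime_iff_not_dvd Nat.prime_three).2 h3).symm
      have : (24 : ℕ) = 2 ^ 3 * 3 := by norm_num
      rw [this]
      exact Nat.Coprime.mul_right (Nat.Coprime.pow_right 3 hodd) h4
    set U := LinearMap.range (ρ y - 1) with hU
    have hUinv : ∀ g ∈ zpowers y, ∀ u ∈ U, ρ g u ∈ U := by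
      rintro g hg _ ⟨v, rfl⟩
      obtain ⟨k, rfl⟩ := mem_zpowers_iff.1 hg
      refine ⟨ρ (y ^ k) v, ?_⟩
      rw [LinearMap.sub_apply, LinearMap.sub_apply, map_sub, Module.End.one_apply, Module.End.one_apply, ← rho_mul,
        ← rho_mul, ((Commute.refl y).zpow_right k).eq]
    have hcardU : Nat.card U ≤ 4 := by
      let f : ZMod 2 × ZMod 2 → V := fun z => z.1 • w₁ + z.2 • w₀
      have h4 : ∀ u : U, ∃ z, f z = u := by
        rintro ⟨_, v, rfl⟩
        obtain ⟨m, n, h5⟩ := hrange v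
        exact ⟨(m, n), h5.symm⟩
      choose g hg using h4
      have hginj : Function.Injective g := by
        intro a b hab
        apply Subtype.ext
        rw [← hg a, ← hg b, hab]
      have := Nat.card_le_card_of_injective g hginj
      simpa using this
    have hyz : y ∈ zpowers y := mem_zpowers y
    let e : Equiv.Perm U :=
      ⟨fun u => ⟨ρ y u, hUinv y hyz u u.2⟩, fun u => ⟨ρ y⁻¹ u, hUinv y⁻¹ (inv_mem hyz) u u.2⟩,
        fun u => Subtype.ext (rho_inv_apply ρ y u), fun u => Subtype.ext (rho_apply_inv ρ y u)⟩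
    have he : ∀ (k : ℕ) (u : U), (((e ^ k) u : U) : V) = ρ (y ^ k) u := by
      intro k
      induction k with
      | zero => intro u; rw [pow_zero, pow_zero, map_one]; rfl
      | succ k ih =>
        intro u
        rw [pow_succ, pow_succ, Equiv.Perm.mul_apply, ih, rho_mul]
        rfl
    have h24 := perm_pow_24 hcardU e
    have hfix24 : ∀ u ∈ U, ρ (y ^ 24) u = u := by
      intro u hu
      rw [← he 24 ⟨u, hu⟩, h24]; rfl
    obtain ⟨j, hj⟩ : ∃ j : ℕ, (y ^ 24) ^ j = y := by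
      obtain ⟨j, -, hj⟩ := Nat.exists_mul_mod_eq_one_of_coprime (k := orderOf y) (n := 24) hcop.symm (by
        rcases Nat.lt_or_ge 1 (orderOf y) with h | h
        · exact h
        · exfalso
          have := orderOf_pos y
          have h5 : orderOf y = 1 := by omega
          exact hy1 (orderOf_eq_one_iff.1 h5))
      refine ⟨j, ?_⟩
      rw [← pow_mul]
      conv_rhs => rw [← pow_one y]
      rw [pow_eq_pow_iff_modEq]
      have h6 : 1 < orderOf y := by
        rcases Nat.lt_or_ge 1 (orderOf y) with h | h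
        · exact h
        · exfalso
          have := orderOf_pos y
          have h5 : orderOf y = 1 := by omega
          exact hy1 (orderOf_eq_one_iff.1 h5)
      rw [Nat.ModEq, Nat.mod_eq_of_lt h6]
      exact hj
    have hfix : ∀ u ∈ U, ρ y u = u := by
      have h7 : ∀ (k : ℕ) u, u ∈ U → ρ ((y ^ 24) ^ k) u = u := by
        intro k
        induction k with
        | zero => intro u _; rw [pow_zero, map_one]; rfl
        | succ k ih => intro u hu; rw [pow_succ, rho_mul, hfix24 u hu, ih u hu]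
      intro u hu
      have := h7 j u hu
      rwa [hj] at this
    have h8 : (ρ y - 1) ^ 2 = 0 := by
      apply LinearMap.ext
      intro v
      rw [pow_two, Module.End.mul_apply, LinearMap.sub_apply, hfix _ ⟨v, rfl⟩, Module.End.one_apply, sub_self]
      rfl
    have h9 : ρ (y ^ 2) = ρ 1 := by
      rw [map_pow, map_one, ← sub_eq_zero]
      have h10 : (ρ y - 1) ^ 2 = ρ y ^ 2 - 1 := by
        rw [sub_pow_char_of_commute 2 (Commute.one_right _), one_pow]
      rw [← h10, h8]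
    have h11 : orderOf y ∣ 2 := orderOf_dvd_iff_pow_eq_one.2 (hinj h9)
    have h12 : orderOf y = 1 := Nat.Coprime.eq_one_of_dvd hodd h11
    exact hy1 (orderOf_eq_one_iff.1 h12)

end Two

theorem main1 {p : ℕ} [hp : Fact p.Prime] {G : Type u} [Group G] [Finite G] (hG : IsPSolvable p G)
    (hcore : pPrimeCore p G = ⊥) {b : G} {k : ℕ} (hbp : b ^ p ^ k = 1)
    (hn : ∀ v ∈ pCore p G, b * v * b⁻¹ * v⁻¹ ∈ zpowers b)
    (h : p ≠ 2 ∨ ¬ Involves (Equiv.Perm (Fin 4)) G) : b ∈ pCore p G := by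
  classical
  by_contra hb
  have hpp : p.Prime := hp.out
  set O := pCore p G with hO
  haveI hOn : O.Normal := Solv.pCore_normal p
  obtain ⟨V, _, _, _, ⟨F⟩⟩ := exists_fmod hG hcore
  have hcO : ∀ v ∈ O, b * v * b⁻¹ * v⁻¹ ∈ O := fun v hv => mul_mem (hOn.conj_mem _ hv b) (inv_mem hv)
  have hquad : (F.ρ b - 1) * (F.ρ b - 1) = 0 := by
    apply LinearMap.ext
    intro u
    obtain ⟨v, rfl⟩ := F.exists_pi u
    have h1 := F.pi_comm b v ⟨_, hcO v v.2⟩ rfl
    rw [Module.End.mul_apply, ← h1]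
    obtain ⟨m, hm⟩ := mem_zpowers_iff.1 (hn v v.2)
    have h2 : b * (b * v * b⁻¹ * (v : G)⁻¹) * b⁻¹ * (b * v * b⁻¹ * (v : G)⁻¹)⁻¹ = 1 := by
      rw [← hm]
      have : Commute b (b ^ m) := (Commute.refl b).zpow_right m
      rw [this.eq]; group
    have h3 := F.pi_comm b ⟨_, hcO v v.2⟩ ⟨_, hcO _ (hcO v v.2)⟩ rfl
    rw [← h3]
    have h4 : (⟨b * (b * v * b⁻¹ * (v : G)⁻¹) * b⁻¹ * (b * v * b⁻¹ * (v : G)⁻¹)⁻¹, hcO _ (hcO v v.2)⟩ : O) = 1 :=
      Subtype.ext h2
    rw [h4, map_one]; rfl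
  set X := G ⧸ O with hX
  have hXs : IsPSolvable p X := H76.isPSolvable_quotient _ hG
  have hXc : pCore p X = ⊥ := pCore_quotient_eq_bot
  set x : X := QuotientGroup.mk b with hx
  have hx1 : x ≠ 1 := fun h => hb ((QuotientGroup.eq_one_iff b).1 h)
  have hxp : IsPGroup p (zpowers x) := by
    rintro ⟨y, hy⟩
    obtain ⟨j, rfl⟩ := mem_zpowers_iff.1 hy
    refine ⟨k, Subtype.ext ?_⟩
    change (x ^ j) ^ p ^ k = 1
    have h1 : x ^ p ^ k = 1 := by rw [hx, ← QuotientGroup.mk_pow, hbp]; rfl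
    rw [← zpow_natCast, ← zpow_mul, mul_comm, zpow_mul, zpow_natCast, h1, one_zpow]
  have hnt : ⁅pPrimeCore p X, zpowers x⁆ ≠ ⊥ := comm_pPrimeCore_ne hXs hXc hxp (by
    rw [Ne, zpowers_eq_bot]; exact hx1)
  haveI hLn : (pPrimeCore p X).Normal := (Solv.coprime_card_sSup p _ (fun _ h => h)).1
  have hinj := F.toX_injective
  by_cases hp2 : p = 2
  · subst hp2
    have h4 := h.resolve_left (fun h => h rfl)
    apply h4
    have hVnt : Nontrivial V := by
      by_contra hcon
      rw [not_nontrivial_iff_subsingleton] at hcon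
      apply hx1
      apply hinj
      apply LinearMap.ext
      intro v
      exact Subsingleton.elim _ _
    haveI : CharP (Module.End (ZMod 2) V) 2 := charP_end_of
    have hxx : x * x = 1 := by
      apply hinj
      have h10 : (F.ρ b - 1) ^ 2 = F.ρ b ^ 2 - 1 := by
        rw [sub_pow_char_of_commute 2 (Commute.one_right _), one_pow]
      rw [← pow_two, map_pow, map_one, F.toX_mk, ← sub_eq_zero, ← h10, pow_two, hquad]
    obtain ⟨l, hl, hne⟩ : ∃ l ∈ pPrimeCore 2 X, l * x ≠ x * l := by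
      by_contra hcon
      push Not at hcon
      apply hnt
      rw [Subgroup.commutator_comm, commutator_eq_bot_iff_le_centralizer, zpowers_le, mem_centralizer_iff]
      exact hcon
    haveI hcyc : IsCyclic (zpowers b ⊓ O : Subgroup G) := Subgroup.isCyclic_of_le (inf_le_left (b := O))
    obtain ⟨⟨c₀, hc₀⟩, hgen⟩ := hcyc.exists_generator
    have hS3 := key_two F.toX hinj hxx hne (Solv.pPrimeCore_card_coprime 2) hl (F.π ⟨c₀, hc₀.2⟩).toAdd (by
      intro u
      obtain ⟨v, rfl⟩ := F.exists_pi u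
      obtain ⟨m, hm⟩ := mem_zpowers_iff.1 (hgen ⟨_, hn v v.2, hcO v v.2⟩)
      refine ⟨(m : ZMod 2), ?_⟩
      have h1 := F.pi_comm b v ⟨_, hcO v v.2⟩ rfl
      rw [F.toX_mk, ← h1]
      have h2 : (⟨b * v * b⁻¹ * (v : G)⁻¹, hcO v v.2⟩ : O) = ⟨c₀, hc₀.2⟩ ^ m := by
        apply Subtype.ext
        have := congrArg Subtype.val hm
        rw [Subgroup.coe_zpow] at this ⊢
        exact this.symm
      rw [h2, map_zpow, toAdd_zpow, Int.cast_smul_eq_zsmul])
    apply (S2759.result (G := G)).2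
    refine ⟨O, Solv.pCore_isPGroup 2, ?_⟩
    let f : normalizer (O : Set G) →* X := (QuotientGroup.mk' O).comp (normalizer (O : Set G)).subtype
    have hf : Function.Surjective f := by
      intro z
      obtain ⟨g, rfl⟩ := QuotientGroup.mk_surjective z
      exact ⟨⟨g, by rw [normalizer_eq_top]; exact mem_top g⟩, rfl⟩
    let f' : (normalizer (O : Set G)) ⧸ (centralizer (O : Set G)).subgroupOf (normalizer (O : Set G)) →* X :=
      QuotientGroup.lift _ f (by
        intro g hg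
        apply (QuotientGroup.eq_one_iff _).2
        exact H76.centralizer_pCore_le hG hcore hg)
    refine H34.involves_of_surjective f' ?_ hS3
    intro z
    obtain ⟨g, rfl⟩ := hf z
    exact ⟨QuotientGroup.mk g, rfl⟩
  · obtain ⟨hp3, Q, hQL, hQ2, hxQ, hQc, ⟨g, hg, h', hh', hne⟩, hcl, hcx⟩ := quad_exc hp2 F.toX hinj hx1 (by
      rw [F.toX_mk]; exact hquad) (Solv.pPrimeCore_card_coprime p) (by rw [normalizer_eq_top]; exact mem_top x) hnt
    set z := ⁅g, h'⁆ with hz
    have hz1 : z ≠ 1 := fun h => hne (commutatorElement_eq_one_iff_mul_comm.1 h)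
    have hzQ : z ∈ Q := by
      rw [hz, commutatorElement_def]
      exact mul_mem (mul_mem (mul_mem hg hh') (inv_mem hg)) (inv_mem hh')
    obtain ⟨k', hk'⟩ := hQ2 ⟨z, hzQ⟩
    have hzk : z ^ 2 ^ k' = 1 := congrArg Subtype.val hk'
    haveI : Fact (Nat.Prime 2) := ⟨Nat.prime_two⟩
    obtain ⟨t, htz, l, htl⟩ := exists_lift_pelt (QuotientGroup.mk' O) (QuotientGroup.mk'_surjective O) z hzk
    have htcop : (orderOf t).Coprime p := by
      apply Nat.Coprime.coprime_dvd_left (orderOf_dvd_of_pow_eq_one htl)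
      apply Nat.Coprime.pow_left
      rw [hp3]; norm_num
    have hzx : x * z = z * x := hcx g hg h' hh'
    have h5 := key_odd hp2 F hb hn hquad htcop (by
      rw [← QuotientGroup.eq_one_iff]
      change x * (QuotientGroup.mk' O t) * x⁻¹ * (QuotientGroup.mk' O t)⁻¹ = 1
      rw [htz, hzx]; group)
    have h6 : (F.toX x - 1) * (F.toX z - 1) = 0 := by
      have h7 : (F.toX z - 1) * (F.toX x - 1) = 0 := by
        rw [← htz]; exact h5
      have h8 : (F.toX x - 1) * (F.toX z - 1) = (F.toX z - 1) * (F.toX x - 1) := by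
        have h9 : F.toX x * F.toX z = F.toX z * F.toX x := by rw [← map_mul, ← map_mul, hzx]
        have e1 : ∀ P Q : Module.End (ZMod p) V, (P - 1) * (Q - 1) = P * Q - P - Q + 1 := by
          intro P Q; noncomm_ring
        rw [e1, e1, h9]; abel
      rw [h8, h7]
    have h7 := trivial_of_comm F.toX hQc (fun g' hg' => (hcl g hg h' hh' g' hg').symm) h6 z hzQ
    have hVnt : Nontrivial V := by
      by_contra hcon
      rw [not_nontrivial_iff_subsingleton] at hcon
      apply hx1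
      apply hinj
      apply LinearMap.ext
      intro v
      exact Subsingleton.elim _ _
    haveI : CharP (Module.End (ZMod p) V) p := charP_end_of
    have hp3' : 3 ≤ p := by omega
    have hzp : z ^ p = 1 := by
      apply hinj
      rw [map_pow, map_one, ← sub_eq_zero]
      have h10 : (F.toX z - 1) ^ p = F.toX z ^ p - 1 := by
        rw [sub_pow_char_of_commute p (Commute.one_right _), one_pow]
      rw [← h10]
      have h11 : ∀ m, 2 ≤ m → (F.toX z - 1) ^ m = 0 := by
        intro m hm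
        rw [show m = 2 + (m - 2) by omega, pow_add, pow_two, h7, zero_mul]
      exact h11 p (by omega)
    apply hz1
    rw [← orderOf_eq_one_iff]
    apply Nat.dvd_one.1
    have h12 : Nat.Coprime p (2 ^ k') := by
      apply Nat.Coprime.pow_right
      rw [hp3]; norm_num
    rw [← Nat.Coprime.gcd_eq_one h12]
    exact Nat.dvd_gcd (orderOf_dvd_of_pow_eq_one hzp) (orderOf_dvd_of_pow_eq_one hzk)

/-- Let G be a finite p-soluble group, P a Sylow p-subgroup of G and A a cyclic normal subgroup of P. If p is odd, or if no section of G is isomorphic to the symmetric group of degree 4, then A ≤ O_{p',p}(G). -/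
theorem result {G : Type*} [Group G] [Finite G] {p : ℕ} [Fact p.Prime] (hG : Cfsg.IsPSolvable p G) (P : Sylow p G) (A : Subgroup G) (hAP : A ≤ (P : Subgroup G)) (hAn : (P : Subgroup G) ≤ Subgroup.normalizer (A : Set G)) (hA : IsCyclic A) (h : p ≠ 2 ∨ ¬ Cfsg.Involves (Equiv.Perm (Fin 4)) G) : A ≤ Cfsg.pPrimePCore p G := by
  classical
  haveI : (Cfsg.pPrimeCore p G).Normal := (Solv.coprime_card_sSup p _ (fun _ h => h)).1
  let mk := QuotientGroup.mk' (Cfsg.pPrimeCore p G)
  have hmk : Function.Surjective mk := QuotientGroup.mk'_surjective _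
  set G₁ := G ⧸ Cfsg.pPrimeCore p G with hG₁
  let S : Sylow p G₁ := P.mapSurjective hmk
  obtain ⟨⟨a, haA⟩, hgen⟩ := hA.exists_generator
  have hAeq : A = zpowers a := by
    apply le_antisymm
    · intro y hy
      obtain ⟨m, hm⟩ := mem_zpowers_iff.1 (hgen ⟨y, hy⟩)
      exact mem_zpowers_iff.2 ⟨m, by have := congrArg Subtype.val hm; rwa [Subgroup.coe_zpow] at this⟩
    · rw [zpowers_le]; exact haA
  obtain ⟨k, hk⟩ := P.isPGroup' ⟨a, hAP haA⟩
  have hk' : a ^ p ^ k = 1 := congrArg Subtype.val hk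
  have hmain := main1 (p := p) (G := G₁) (H76.isPSolvable_quotient _ hG) pPrimeCore_quotient_eq_bot (b := mk a)
    (k := k) (by rw [← map_pow, hk', map_one]) (by
      intro v hv
      have h1 : v ∈ (S : Subgroup G₁) := Solv.pCore_le_sylow S hv
      obtain ⟨x, hx, rfl⟩ := h1
      have h2 : x * a⁻¹ * x⁻¹ ∈ A := (mem_normalizer_iff.1 (hAn hx) _).1 (inv_mem haA)
      rw [hAeq] at h2
      obtain ⟨m, hm⟩ := mem_zpowers_iff.1 h2
      refine mem_zpowers_iff.2 ⟨1 + m, ?_⟩
      rw [zpow_add, zpow_one, ← map_zpow, hm, map_mul, map_mul, map_inv, map_inv]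
      change mk a * (mk x * (mk a)⁻¹ * (mk x)⁻¹) = mk a * mk x * (mk a)⁻¹ * (mk x)⁻¹
      group) (h.imp_right (fun h h' => h (H34.involves_of_quotient _ h')))
  rw [hAeq, zpowers_le]
  exact hmain

end Cfsg.Agent.S3788
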