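import Cfsg.Statements.S3789
import Cfsg.Agent.HH.QuadB
import Cfsg.Agent.HH.PLenExp
import Cfsg.Agent.H63.PLen

set_option autoImplicit false
open Cfsg

namespace Cfsg.Agent.S3789


open Subgroup Cfsg.Agent.HH
open scoped commutatorElement

universe u v

/-- the key claim -/
theorem claim {p : ℕ} [hp : Fact p.Prime] (hp2 : p ≠ 2) {G : Type u} [Group G] [Finite G] (hG : IsPSolvable p G)
    (hcore : pPrimeCore p G = ⊥) {H : Subgroup G} (hH : IsPGroup p H)
    (hOH : pCore p G ≤ normalizer (H : Set G)) (hab : ⁅⁅H, H⁆, ⁅H, H⁆⁆ = ⊥) : ⁅H, H⁆ ≤ pCore p G := by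
  classical
  set O := pCore p G with hO
  haveI hOn : O.Normal := Solv.pCore_normal p
  set A := ⁅H, H⁆ with hA
  have hOA : O ≤ normalizer (A : Set G) := by
    intro h hh
    apply mem_normalizer_of_conj
    have h3 : A ≤ (⁅H, H⁆).comap (MulAut.conj h).toMonoidHom := by
      rw [hA, commutator_le]
      intro x hx y hy
      change h * ⁅x, y⁆ * h⁻¹ ∈ ⁅H, H⁆
      have h4 : h * ⁅x, y⁆ * h⁻¹ = ⁅h * x * h⁻¹, h * y * h⁻¹⁆ := by
        rw [commutatorElement_def, commutatorElement_def]; group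
      rw [h4]
      exact commutator_mem_commutator ((mem_normalizer_iff.1 (hOH hh) x).1 hx) ((mem_normalizer_iff.1 (hOH hh) y).1 hy)
    intro d hd
    exact h3 hd
  have hcN : ∀ N : Subgroup G, O ≤ normalizer (N : Set G) → ∀ g ∈ N, ∀ v ∈ O, g * v * g⁻¹ * v⁻¹ ∈ N := by
    intro N hN g hg v hv
    have h1 := (mem_normalizer_iff.1 (hN hv) g⁻¹).1 (inv_mem hg)
    have h2 : g * v * g⁻¹ * v⁻¹ = g * (v * g⁻¹ * v⁻¹) := by group
    rw [h2]
    exact mul_mem hg h1
  have hcO : ∀ g : G, ∀ v ∈ O, g * v * g⁻¹ * v⁻¹ ∈ O := fun g v hv => mul_mem (hOn.conj_mem _ hv g) (inv_mem hv)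
  have hAc : ∀ x ∈ A, ∀ y ∈ A, x * y * x⁻¹ * y⁻¹ = 1 := by
    intro x hx y hy
    have := commutator_mem_commutator hx hy
    rw [hab, mem_bot, commutatorElement_def] at this
    exact this
  obtain ⟨V, _, _, _, ⟨F⟩⟩ := exists_fmod hG hcore
  have hXs : IsPSolvable p (G ⧸ O) := H76.isPSolvable_quotient _ hG
  have hXc : pCore p (G ⧸ O) = ⊥ := pCore_quotient_eq_bot
  set mk := QuotientGroup.mk' O with hmk
  have hmap : ⁅H.map mk, H.map mk⁆ = A.map mk := by rw [hA, map_commutator]
  have hstep : ∀ g : G, ∀ v : O, (F.ρ g - 1) (F.π v).toAdd = (F.π ⟨g * v * g⁻¹ * (v : G)⁻¹, hcO g v v.2⟩).toAdd :=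
    fun g v => (F.pi_comm g v _ rfl).symm
  have hone : ∀ (x : G) (hx : x ∈ O), x = 1 → (F.π ⟨x, hx⟩).toAdd = 0 := by
    rintro x hx rfl
    have : (⟨1, hx⟩ : O) = 1 := rfl
    rw [this, map_one]; rfl
  have hres := quad_comm_trivial hp2 hXs hXc F.toX F.toX_injective (H := H.map mk) (hH.map mk) (by
    rw [hmap]
    rintro _ ⟨a, ha, rfl⟩ _ ⟨b, hb, rfl⟩
    apply LinearMap.ext
    intro u
    obtain ⟨v, rfl⟩ := F.exists_pi u
    rw [Module.End.mul_apply]
    change (F.ρ a - 1) ((F.ρ b - 1) _) = _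
    rw [hstep, hstep]
    apply hone
    exact hAc a ha _ (hcN A hOA b hb v v.2)) (by
    rw [hmap]
    rintro _ ⟨a, ha, rfl⟩ _ ⟨h, hh, rfl⟩
    apply LinearMap.ext
    intro u
    obtain ⟨v, rfl⟩ := F.exists_pi u
    rw [Module.End.mul_apply, Module.End.mul_apply]
    change (F.ρ a - 1) ((F.ρ h - 1) ((F.ρ h - 1) _)) = _
    rw [hstep, hstep, hstep]
    apply hone
    refine hAc a ha _ ?_
    have := commutator_mem_commutator hh (hcN H hOH h hh v v.2)
    rw [commutatorElement_def] at this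
    exact this)
  rw [hmap] at hres
  intro x hx
  have h1 : mk x ∈ A.map mk := ⟨x, hx, rfl⟩
  rw [hres, mem_bot] at h1
  exact (QuotientGroup.eq_one_iff x).1 h1

/-- Sylow subgroups of quotients. -/
theorem exists_surj {p : ℕ} [hp : Fact p.Prime] {G : Type u} [Group G] [Finite G] (N : Subgroup G) [N.Normal]
    (S : Sylow p (G ⧸ N)) (P : Sylow p G) : ∃ f : (P : Subgroup G) →* (S : Subgroup (G ⧸ N)), Function.Surjective f ∧
      ∀ x : (P : Subgroup G), (x : G) ∈ N → f x = 1 := by
  have hmk : Function.Surjective (QuotientGroup.mk' N) := QuotientGroup.mk'_surjective N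
  let e := Sylow.equiv (P.mapSurjective hmk) S
  let g : (P : Subgroup G) →* (P.mapSurjective hmk : Subgroup (G ⧸ N)) :=
    ((QuotientGroup.mk' N).comp (P : Subgroup G).subtype).codRestrict _ (fun x => ⟨x, x.2, rfl⟩)
  have hg : Function.Surjective g := by
    rintro ⟨_, x, hx, rfl⟩
    exact ⟨⟨x, hx⟩, rfl⟩
  refine ⟨e.toMonoidHom.comp g, e.surjective.comp hg, ?_⟩
  intro x hx
  have h1 : g x = 1 := Subtype.ext ((QuotientGroup.eq_one_iff _).2 hx)
  change e (g x) = 1
  rw [h1, map_one]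

theorem main (p : ℕ) [hp : Fact p.Prime] (hp2 : p ≠ 2) : ∀ (d : ℕ) (G : Type u) [Group G] [Finite G],
    IsPSolvable p G → (∀ P : Sylow p G, derivedSeries ↥(P : Subgroup G) d = ⊥) → PLengthLE p d G := by
  have hpp : p.Prime := hp.out
  intro d
  induction d with
  | zero =>
    intro G _ _ _ hd
    rw [H63.pLengthLE_zero_iff]
    obtain ⟨P⟩ : Nonempty (Sylow p G) := inferInstance
    have h1 := hd P
    rw [derivedSeries_zero] at h1
    have h2 : Nat.card (P : Subgroup G) = 1 := by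
      rw [← Subgroup.card_top (G := (P : Subgroup G)), h1, Subgroup.card_bot]
    rw [Nat.coprime_comm, Nat.Prime.coprime_iff_not_dvd hpp]
    intro hdvd
    have h3 : p ^ 1 ∣ Nat.card (P : Subgroup G) := P.pow_dvd_card_of_pow_dvd_card (by rwa [pow_one])
    rw [h2, pow_one] at h3
    exact hpp.one_lt.ne' (Nat.dvd_one.1 h3)
  | succ d ih =>
    intro G _ _ hG hd
    haveI : (pPrimeCore p G).Normal := (Solv.coprime_card_sSup p _ (fun _ h => h)).1
    apply H63.pLengthLE_of_quotient_coprime (pPrimeCore p G) (Solv.pPrimeCore_card_coprime p)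
    set G₁ := G ⧸ pPrimeCore p G with hG₁
    have hG1 : IsPSolvable p G₁ := H76.isPSolvable_quotient _ hG
    have hcore : pPrimeCore p G₁ = ⊥ := pPrimeCore_quotient_eq_bot
    haveI : (pCore p G₁).Normal := Solv.pCore_normal p
    have hP : IsPGroup p (pCore p G₁) := Solv.pCore_isPGroup p
    have hd1 : ∀ S : Sylow p G₁, derivedSeries ↥(S : Subgroup G₁) (d + 1) = ⊥ := by
      intro S
      obtain ⟨P⟩ : Nonempty (Sylow p G) := inferInstance
      obtain ⟨f, hf, -⟩ := exists_surj (pPrimeCore p G) S P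
      rw [← map_derivedSeries_eq hf, hd P, Subgroup.map_bot]
    apply H63.pLengthLE_of_quotient_pgroup (pCore p G₁) hP
    apply ih (G₁ ⧸ pCore p G₁) (H76.isPSolvable_quotient _ hG1)
    intro S
    obtain ⟨P⟩ : Nonempty (Sylow p G₁) := inferInstance
    have hOP : pCore p G₁ ≤ (P : Subgroup G₁) := Solv.pCore_le_sylow P
    have hkey : (derivedSeries (P : Subgroup G₁) d).map (P : Subgroup G₁).subtype ≤ pCore p G₁ := by
      cases d with
      | zero =>
        have h1 := hd1 P
        rw [derivedSeries_succ, derivedSeries_zero] at h1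
        refine le_trans ?_ (H76.centralizer_pCore_le hG1 hcore)
        rintro _ ⟨x, -, rfl⟩
        rw [mem_centralizer_iff]
        intro y hy
        have h2 : ⁅(⟨y, hOP hy⟩ : (P : Subgroup G₁)), x⁆ ∈ ⁅(⊤ : Subgroup (P : Subgroup G₁)), ⊤⁆ :=
          commutator_mem_commutator (mem_top _) (mem_top _)
        rw [h1, mem_bot, commutatorElement_eq_one_iff_mul_comm] at h2
        exact congrArg Subtype.val h2
      | succ d' =>
        have h1 := hd1 P
        rw [derivedSeries_succ, derivedSeries_succ] at h1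
        rw [derivedSeries_succ, map_commutator]
        set K := derivedSeries (P : Subgroup G₁) d' with hK
        apply claim hp2 hG1 hcore
        · exact P.isPGroup'.to_le (Subgroup.map_subtype_le _)
        · refine hOP.trans ?_
          intro g hg
          apply mem_normalizer_of_conj
          rintro _ ⟨x, hx, rfl⟩
          haveI : K.Normal := derivedSeries_normal _ _
          exact ⟨⟨g, hg⟩ * x * (⟨g, hg⟩)⁻¹, (inferInstance : K.Normal).conj_mem x hx _, rfl⟩
        · rw [← map_commutator, ← map_commutator, h1, Subgroup.map_bot]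
    obtain ⟨f, hf, hf1⟩ := exists_surj (pCore p G₁) S P
    rw [← map_derivedSeries_eq hf, eq_bot_iff]
    rintro _ ⟨x, hx, rfl⟩
    rw [mem_bot]
    exact hf1 x (hkey ⟨x, hx, rfl⟩)

/-- Let p be an odd prime and G a finite p-soluble group whose Sylow p-subgroups have derived length at most d. Then G has p-length at most d. -/
theorem result {G : Type*} [Group G] [Finite G] {p : ℕ} [Fact p.Prime] (hp : p ≠ 2) (hG : Cfsg.IsPSolvable p G) (d : ℕ) (hd : ∀ P : Sylow p G, derivedSeries ↥(P : Subgroup G) d = ⊥) : Cfsg.PLengthLE p d G := by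
  exact main p hp d G hG hd

end Cfsg.Agent.S3789
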