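import Cfsg.Statements.S3790
import Cfsg.Agent.H63.PLen
import Cfsg.Agent.Solv.MinNormal

set_option autoImplicit false
open Cfsg

namespace Cfsg.Agent.S3790


open Cfsg.Agent.H63 in
theorem series_of_quotient {G : Type*} [Group G] [Finite G] {p k : ℕ} [Fact p.Prime] (N : Subgroup G) [N.Normal]
    (h : Cfsg.PLengthLE p k (G ⧸ N)) : ∃ H : ℕ → Subgroup G, PSer p H ∧ H 0 ≤ N ∧ H (2 * k + 1) = ⊤ := by
  obtain ⟨H, hH, h0, htop⟩ := pLengthLE_iff.1 h
  refine ⟨_, hH.comap (QuotientGroup.mk' N), ?_, ?_⟩
  · simp only [h0, MonoidHom.comap_bot, QuotientGroup.ker_mk', le_refl]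
  · simp only [htop, Subgroup.comap_top]

open Cfsg.Agent.H63 in
theorem pSer_top {G : Type*} [Group G] (p : ℕ) : PSer p (fun _ : ℕ => (⊤ : Subgroup G)) := by
  refine ⟨fun _ => inferInstance, fun _ _ _ => le_rfl, ?_, ?_⟩
  · intro n _
    simp
  · intro n _
    exact ⟨0, by simp⟩

open Cfsg.Agent.H63 in
theorem pSer_finset_inf {G : Type*} [Group G] [Finite G] {p k : ℕ} [Fact p.Prime] {ι : Type*}
    (s : Finset ι) (N : ι → Subgroup G)
    (h : ∀ i ∈ s, ∃ H : ℕ → Subgroup G, PSer p H ∧ H 0 ≤ N i ∧ H (2 * k + 1) = ⊤) :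
    ∃ H : ℕ → Subgroup G, PSer p H ∧ H 0 ≤ s.inf N ∧ H (2 * k + 1) = ⊤ := by
  classical
  induction s using Finset.induction_on with
  | empty => exact ⟨_, pSer_top p, by simp, rfl⟩
  | insert a s ha ih =>
    obtain ⟨H, hH, h0, htop⟩ := ih (fun i hi => h i (Finset.mem_insert_of_mem hi))
    obtain ⟨H', hH', h0', htop'⟩ := h a (Finset.mem_insert_self a s)
    refine ⟨_, hH'.inf hH, ?_, ?_⟩
    · rw [Finset.inf_insert]
      exact inf_le_inf h0' h0
    · simp only [htop, htop', inf_top_eq]

universe u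

open Cfsg.Agent.H63 in
theorem claim {r : ℕ} (q : Fin r → ℕ) (p : ℕ) [Fact p.Prime] (hq : ∀ i, (q i).Prime ∧ q i ≠ p) (n : ℕ)
    (ih : ∀ m < n, ∀ (G : Type u) [Group G] [Finite G], Nat.card G = m → Group.IsSolvable G →
      ∀ (l : Fin r → ℕ), (∀ s : ℕ, s.Prime → s ∣ Nat.card G → s ≠ p → ∃ i, q i = s) →
      (∀ i, Cfsg.PLengthLE (q i) (l i) G) → Cfsg.PLengthLE p (Finset.univ.prod fun i => 1 + l i) G)
    (K : Type u) [Group K] [Finite K] (hK : Nat.card K ≤ n) (hsol : Group.IsSolvable K)
    (l : Fin r → ℕ) (hcover : ∀ s : ℕ, s.Prime → s ∣ Nat.card K → s ≠ p → ∃ i, q i = s)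
    (hl : ∀ i, Cfsg.PLengthLE (q i) (l i) K) (hcore : Cfsg.pCore p K = ⊥) :
    Cfsg.PLengthLE p ((Finset.univ.prod fun i => 1 + l i) - 1) K := by
  have hprime : ∀ i, Fact (q i).Prime := fun i => Fact.mk (hq i).1
  obtain ⟨H, hH, h0, htop⟩ := pSer_finset_inf (p := p) (k := (Finset.univ.prod fun i => 1 + l i) - 1)
    Finset.univ (fun i => Cfsg.pPrimeCore (q i) K) (by
      intro i _
      apply series_of_quotient
      -- K_i
      set Ki := K ⧸ Cfsg.pPrimeCore (q i) K
      by_cases hnt : Subsingleton Ki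
      · apply pLengthLE_of_coprime
        rw [Nat.card_of_subsingleton (1 : Ki)]
        exact Nat.coprime_one_left p
      rw [not_subsingleton_iff_nontrivial] at hnt
      have hcoreKi : Cfsg.pPrimeCore (q i) Ki = ⊥ := Cfsg.Agent.Solv.pPrimeCore_quotient_pPrimeCore (q i)
      have hOne : Cfsg.pCore (q i) Ki ≠ ⊥ := by
        obtain ⟨N, hNn, -, hN1, hNmin⟩ := Cfsg.Agent.Solv.exists_minimal_normal (⊤ : Subgroup Ki)
          inferInstance (by
            intro h
            have : Nontrivial (⊤ : Subgroup Ki) := inferInstance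
            rw [h] at this
            exact not_subsingleton (⊥ : Subgroup Ki) inferInstance)
        obtain ⟨s, hs, hNs⟩ := Cfsg.Agent.Solv.minimal_normal_isPGroup N inferInstance hN1 hNmin
        have hsq : s = q i := by
          by_contra hne
          apply hN1
          rw [eq_bot_iff, ← hcoreKi]
          apply Cfsg.Agent.Solv.le_pPrimeCore hNn
          haveI := Fact.mk hs
          obtain ⟨m, hm⟩ := IsPGroup.iff_card.1 hNs
          rw [hm]
          exact Nat.Coprime.pow_left m ((Nat.coprime_primes hs (hq i).1).2 hne)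
        subst hsq
        intro h
        apply hN1
        rw [eq_bot_iff, ← h]
        exact Cfsg.Agent.Solv.le_pCore hNn hNs
      have hlKi : Cfsg.PLengthLE (q i) (l i) Ki := pLengthLE_quotient (hl i) _
      have hli : l i ≠ 0 := by
        intro h0
        rw [h0, pLengthLE_zero_iff] at hlKi
        rcases (Cfsg.Agent.Solv.pCore_isPGroup (G := Ki) (q i)).card_eq_or_dvd with h | h
        · exact hOne (Subgroup.card_eq_one.1 h)
        · exact (hq i).1.one_lt.ne' (Nat.eq_one_of_dvd_coprimes hlKi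
            (h.trans (Subgroup.card_subgroup_dvd_card _)) dvd_rfl)
      obtain ⟨m, hm⟩ : ∃ m, l i = m + 1 := ⟨l i - 1, by omega⟩
      rw [hm] at hlKi
      have hdrop := pLengthLE_quotient_pCore hcoreKi hlKi
      -- the induction hypothesis
      have hlt : Nat.card (Ki ⧸ Cfsg.pCore (q i) Ki) < n := by
        have h1 : 1 < Nat.card (Cfsg.pCore (q i) Ki) := Subgroup.one_lt_card_iff_ne_bot _ |>.2 hOne
        have h2 : 0 < (Cfsg.pCore (q i) Ki).index := Nat.pos_of_ne_zero Subgroup.FiniteIndex.index_ne_zero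
        have h3 := Subgroup.card_mul_index (Cfsg.pCore (q i) Ki)
        have h4 : Nat.card Ki ≤ Nat.card K := Nat.le_of_dvd Nat.card_pos (Subgroup.card_quotient_dvd_card _)
        rw [← Subgroup.index_eq_card]
        nlinarith
      have hdvd : Nat.card (Ki ⧸ Cfsg.pCore (q i) Ki) ∣ Nat.card K :=
        (Subgroup.card_quotient_dvd_card _).trans (Subgroup.card_quotient_dvd_card _)
      have h5 := ih _ hlt (Ki ⧸ Cfsg.pCore (q i) Ki) rfl inferInstance (Function.update l i m)
        (fun s hs hsd hsp => hcover s hs (hsd.trans hdvd) hsp) (by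
          intro j
          by_cases hj : j = i
          · subst hj
            rw [Function.update_self]
            exact hdrop
          · rw [Function.update_of_ne hj]
            exact pLengthLE_quotient (pLengthLE_quotient (hl j) _) _)
      have h6 : (Nat.card (Cfsg.pCore (q i) Ki)).Coprime p := by
        obtain ⟨m, hm⟩ := IsPGroup.iff_card.1 (Cfsg.Agent.Solv.pCore_isPGroup (G := Ki) (q i))
        rw [hm]
        exact Nat.Coprime.pow_left m ((Nat.coprime_primes (hq i).1 Fact.out).2 (hq i).2)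
      have h7 := pLengthLE_of_quotient_coprime _ h6 h5
      refine pLengthLE_mono' h7 ?_
      have e1 : (Finset.univ.prod fun j => 1 + (Function.update l i m) j) =
          (1 + m) * (Finset.univ.erase i).prod (fun j => 1 + l j) := by
        rw [← Finset.mul_prod_erase _ _ (Finset.mem_univ i), Function.update_self]
        congr 1
        apply Finset.prod_congr rfl
        intro j hj
        rw [Function.update_of_ne (Finset.ne_of_mem_erase hj)]
      have e2 : (Finset.univ.prod fun j => 1 + l j) =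
          (1 + l i) * (Finset.univ.erase i).prod (fun j => 1 + l j) := by
        rw [← Finset.mul_prod_erase _ _ (Finset.mem_univ i)]
      rw [e1, e2, hm]
      have hpos : 0 < (Finset.univ.erase i).prod (fun j => 1 + l j) :=
        Finset.prod_pos (fun j _ => by omega)
      have : (1 + (m + 1)) * (Finset.univ.erase i).prod (fun j => 1 + l j) =
        (1 + m) * (Finset.univ.erase i).prod (fun j => 1 + l j) + (Finset.univ.erase i).prod (fun j => 1 + l j) := by
        ring
      omega)
  have hbot : Finset.univ.inf (fun i => Cfsg.pPrimeCore (q i) K) = ⊥ := by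
    set M := Finset.univ.inf (fun i => Cfsg.pPrimeCore (q i) K) with hM
    have hMn : M.Normal := by
      refine ⟨fun x hx g => ?_⟩
      rw [hM] at hx ⊢
      have h1 : ∀ i, x ∈ Cfsg.pPrimeCore (q i) K := fun i =>
        (Finset.inf_le (f := fun i => Cfsg.pPrimeCore (q i) K) (Finset.mem_univ i) : _ ≤ _) hx
      have h2 : ∀ i ∈ (Finset.univ : Finset (Fin r)), Subgroup.zpowers (g * x * g⁻¹) ≤ Cfsg.pPrimeCore (q i) K := by
        intro i _
        rw [Subgroup.zpowers_le]
        exact (inferInstance : (Cfsg.pPrimeCore (q i) K).Normal).conj_mem _ (h1 i) g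
      exact (Finset.le_inf h2) (Subgroup.mem_zpowers _)
    have hMp : IsPGroup p M := by
      have h1 : ∀ {s : ℕ}, s.Prime → s ∣ Nat.card M → s = p := by
        intro s hs hsd
        by_contra hne
        obtain ⟨i, hi⟩ := hcover s hs (hsd.trans (Subgroup.card_subgroup_dvd_card M)) hne
        subst hi
        have h2 : Nat.card M ∣ Nat.card (Cfsg.pPrimeCore (q i) K) :=
          Subgroup.card_dvd_of_le (Finset.inf_le (Finset.mem_univ i))
        exact (hq i).1.one_lt.ne' (Nat.eq_one_of_dvd_coprimes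
          (Cfsg.Agent.Solv.pPrimeCore_card_coprime (q i)) (hsd.trans h2) dvd_rfl)
      exact IsPGroup.of_card (Nat.eq_prime_pow_of_unique_prime_dvd Nat.card_pos.ne' h1)
    rw [eq_bot_iff, ← hcore]
    exact Cfsg.Agent.Solv.le_pCore hMn hMp
  rw [hbot, le_bot_iff] at h0
  exact pLengthLE_iff.2 ⟨H, hH, h0, htop⟩

open Cfsg.Agent.H63 in
theorem main {r : ℕ} (q : Fin r → ℕ) (p : ℕ) [Fact p.Prime] (hq : ∀ i, (q i).Prime ∧ q i ≠ p) (n : ℕ) :
    ∀ (G : Type u) [Group G] [Finite G], Nat.card G = n → Group.IsSolvable G → ∀ (l : Fin r → ℕ),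
    (∀ s : ℕ, s.Prime → s ∣ Nat.card G → s ≠ p → ∃ i, q i = s) →
    (∀ i, Cfsg.PLengthLE (q i) (l i) G) →
    Cfsg.PLengthLE p (Finset.univ.prod fun i => 1 + l i) G := by
  induction n using Nat.strong_induction_on with
  | _ n ih =>
    intro G _ _ hcard hG l hcover hl
    have hprime : ∀ i, Fact (q i).Prime := fun i => Fact.mk (hq i).1
    by_cases hcore : Cfsg.pPrimeCore p G = ⊥
    · have hpos : 0 < (Finset.univ.prod fun i => 1 + l i) := Finset.prod_pos (fun j _ => by omega)
      have h1 := claim q p hq n ih (G ⧸ Cfsg.pCore p G)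
        (by rw [← hcard]; exact Nat.le_of_dvd Nat.card_pos (Subgroup.card_quotient_dvd_card _))
        inferInstance l
        (fun s hs hsd hsp => hcover s hs (hsd.trans (Subgroup.card_quotient_dvd_card _)) hsp)
        (fun i => pLengthLE_quotient (hl i) _)
        (Cfsg.Agent.Solv.pCore_quotient_pCore p)
      have h2 := pLengthLE_of_quotient_pgroup _ (Cfsg.Agent.Solv.pCore_isPGroup (G := G) p) h1
      rwa [Nat.sub_add_cancel hpos] at h2
    · have hlt : Nat.card (G ⧸ Cfsg.pPrimeCore p G) < n := by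
        rw [← Subgroup.index_eq_card, ← hcard, ← Subgroup.card_mul_index (Cfsg.pPrimeCore p G)]
        have h1 : 1 < Nat.card (Cfsg.pPrimeCore p G) := Subgroup.one_lt_card_iff_ne_bot _ |>.2 hcore
        have h2 : 0 < (Cfsg.pPrimeCore p G).index := Nat.pos_of_ne_zero Subgroup.FiniteIndex.index_ne_zero
        nlinarith
      have h1 := ih _ hlt (G ⧸ Cfsg.pPrimeCore p G) rfl inferInstance l
        (fun s hs hsd hsp => hcover s hs (hsd.trans (Subgroup.card_quotient_dvd_card _)) hsp)
        (fun i => pLengthLE_quotient (hl i) _)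
      exact pLengthLE_of_quotient_coprime _ (Cfsg.Agent.Solv.pPrimeCore_card_coprime p) h1

/-- Let G be a finite solvable group and p a prime. Suppose p₁, …, p_r are distinct primes, all different from p, that include every prime dividing the order of G other than p, and that G has p_i-length at most l_i for each i. Then G has p-length at most the product of the numbers 1 + l_i. -/
theorem result {G : Type*} [Group G] [Finite G] (hG : Group.IsSolvable G) (p : ℕ) [Fact p.Prime] (r : ℕ) (q : Fin r → ℕ) (hq : ∀ i, (q i).Prime ∧ q i ≠ p) (hinj : Function.Injective q) (hcover : ∀ s : ℕ, s.Prime → s ∣ Nat.card G → s ≠ p → ∃ i, q i = s) (l : Fin r → ℕ) (hl : ∀ i, Cfsg.PLengthLE (q i) (l i) G) : Cfsg.PLengthLE p (Finset.univ.prod fun i => 1 + l i) G := by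
  exact main q p hq _ G rfl hG l hcover hl

end Cfsg.Agent.S3790
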