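import Cfsg.Statements.S3791
import Cfsg.Agent.H63.PLen
import Cfsg.Agent.Solv.MinNormal

set_option autoImplicit false
open Cfsg

namespace Cfsg.Agent.S3791


theorem derivedSeries_add_le {G : Type*} [Group G] (H : Subgroup G) (m : ℕ) (hm : derivedSeries G m ≤ H) (j : ℕ) :
    derivedSeries G (m + j) ≤ (derivedSeries H j).map H.subtype := by
  induction j with
  | zero =>
    rw [add_zero, derivedSeries_zero, ← MonoidHom.range_eq_map, Subgroup.range_subtype]
    exact hm
  | succ j ih =>
    rw [← add_assoc, derivedSeries_succ, derivedSeries_succ, Subgroup.map_commutator]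
    exact Subgroup.commutator_mono ih ih

theorem derivedSeries_le_of_quotient {G : Type*} [Group G] (N : Subgroup G) [N.Normal] (m : ℕ)
    (h : derivedSeries (G ⧸ N) m = ⊥) : derivedSeries G m ≤ N := by
  have h1 := map_derivedSeries_le_derivedSeries (QuotientGroup.mk' N) m
  rw [h, le_bot_iff, Subgroup.map_eq_bot_iff, QuotientGroup.ker_mk'] at h1
  exact h1

theorem main {r : ℕ} (q : Fin r → ℕ) (hq : ∀ i, (q i).Prime) (d : Fin r → ℕ) (n : ℕ) :
    ∀ (G : Type*) [Group G] [Finite G], Nat.card G = n → Group.IsSolvable G → ∀ (l : Fin r → ℕ),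
    (∀ s : ℕ, s.Prime → s ∣ Nat.card G → ∃ i, q i = s) →
    (∀ i, ∀ P : Subgroup G, (haveI := Fact.mk (hq i); ∃ S : Sylow (q i) G, (S : Subgroup G) = P) →
      derivedSeries ↥P (d i) = ⊥) →
    (∀ i, Cfsg.PLengthLE (q i) (l i) G) →
    derivedSeries G (Finset.univ.sum fun i => d i * l i) = ⊥ := by
  induction n using Nat.strong_induction_on with
  | _ n ih =>
    intro G _ _ hcard hG l hcover hd hl
    by_cases hnt : Subsingleton G
    · exact Subsingleton.elim _ _
    rw [not_subsingleton_iff_nontrivial] at hnt
    -- hypotheses pass to quotients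
    have hquot : ∀ N : Subgroup G, N ≠ ⊥ → ∀ _ : N.Normal, ∀ l' : Fin r → ℕ,
        (∀ i, Cfsg.PLengthLE (q i) (l' i) (G ⧸ N)) →
        derivedSeries G (Finset.univ.sum fun i => d i * l' i) ≤ N := by
      intro N hN hNn l' hl'
      apply derivedSeries_le_of_quotient
      have hlt : Nat.card (G ⧸ N) < n := by
        rw [← Subgroup.index_eq_card, ← hcard, ← Subgroup.card_mul_index N]
        have h1 : 1 < Nat.card N := Subgroup.one_lt_card_iff_ne_bot N |>.2 hN
        have h2 : 0 < N.index := Nat.pos_of_ne_zero Subgroup.FiniteIndex.index_ne_zero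
        nlinarith
      refine ih _ hlt (G ⧸ N) rfl inferInstance l' ?_ ?_ hl'
      · intro s hs hdvd
        exact hcover s hs (hdvd.trans (Subgroup.card_quotient_dvd_card N))
      · intro i P hP
        haveI := Fact.mk (hq i)
        obtain ⟨S, rfl⟩ := hP
        obtain ⟨S', hS'⟩ := Sylow.mapSurjective_surjective (QuotientGroup.mk'_surjective N) (q i) S
        have h1 := hd i S' ⟨S', rfl⟩
        have h2 : (S : Subgroup (G ⧸ N)) = (S' : Subgroup G).map (QuotientGroup.mk' N) := by
          rw [← hS']; rfl
        rw [h2]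
        have hsurj := MonoidHom.subgroupMap_surjective (QuotientGroup.mk' N) (S' : Subgroup G)
        rw [eq_bot_iff, ← map_derivedSeries_eq hsurj, h1, Subgroup.map_bot]
    by_cases htwo : ∃ N₁ N₂ : Subgroup G, N₁.Normal ∧ N₂.Normal ∧ N₁ ≠ ⊥ ∧ N₂ ≠ ⊥ ∧ N₁ ⊓ N₂ = ⊥
    · obtain ⟨N₁, N₂, hn1, hn2, h1, h2, h12⟩ := htwo
      rw [eq_bot_iff, ← h12]
      apply le_inf
      · refine hquot N₁ h1 hn1 l (fun i => ?_)
        haveI := Fact.mk (hq i)
        exact Cfsg.Agent.H63.pLengthLE_quotient (hl i) N₁
      · refine hquot N₂ h2 hn2 l (fun i => ?_)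
        haveI := Fact.mk (hq i)
        exact Cfsg.Agent.H63.pLengthLE_quotient (hl i) N₂
    · push Not at htwo
      obtain ⟨N, hNn, -, hN1, hNmin⟩ := Cfsg.Agent.Solv.exists_minimal_normal (⊤ : Subgroup G)
        inferInstance (by
          intro h
          have : Nontrivial (⊤ : Subgroup G) := inferInstance
          rw [h] at this
          exact not_subsingleton (⊥ : Subgroup G) inferInstance)
      obtain ⟨s, hs, hNs⟩ := Cfsg.Agent.Solv.minimal_normal_isPGroup N inferInstance hN1 hNmin
      have hsdvd : s ∣ Nat.card N := by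
        haveI := Fact.mk hs
        rcases hNs.card_eq_or_dvd with h | h
        · exact absurd (Subgroup.card_eq_one.1 h) hN1
        · exact h
      obtain ⟨i, hi⟩ := hcover s hs (hsdvd.trans (Subgroup.card_subgroup_dvd_card N))
      subst hi
      haveI := Fact.mk (hq i)
      have hcore : Cfsg.pPrimeCore (q i) G = ⊥ := by
        by_contra hne
        refine htwo (Cfsg.pPrimeCore (q i) G) N inferInstance hNn hne hN1 ?_
        have h1 : (Nat.card (Cfsg.pPrimeCore (q i) G)).Coprime (Nat.card N) := by
          obtain ⟨m, hm⟩ := IsPGroup.iff_card.1 hNs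
          rw [hm]
          exact (Cfsg.Agent.Solv.pPrimeCore_card_coprime (q i)).pow_right m
        exact Subgroup.inf_eq_bot_of_coprime h1
      have hNO : N ≤ Cfsg.pCore (q i) G := Cfsg.Agent.Solv.le_pCore hNn hNs
      have hOne : Cfsg.pCore (q i) G ≠ ⊥ := by
        intro h
        rw [h, le_bot_iff] at hNO
        exact hN1 hNO
      have hli : l i ≠ 0 := by
        intro h0
        have h1 := hl i
        rw [h0, Cfsg.Agent.H63.pLengthLE_zero_iff] at h1
        have h2 : q i ∣ Nat.card G := hsdvd.trans (Subgroup.card_subgroup_dvd_card N)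
        exact (hq i).one_lt.ne' (Nat.eq_one_of_dvd_coprimes h1 h2 dvd_rfl)
      obtain ⟨m, hm⟩ : ∃ m, l i = m + 1 := ⟨l i - 1, by omega⟩
      have h1 := hquot (Cfsg.pCore (q i) G) hOne inferInstance (Function.update l i m) (by
        intro j
        by_cases hj : j = i
        · subst hj
          rw [Function.update_self]
          exact Cfsg.Agent.H63.pLengthLE_quotient_pCore hcore (hm ▸ hl j)
        · rw [Function.update_of_ne hj]
          haveI := Fact.mk (hq j)
          exact Cfsg.Agent.H63.pLengthLE_quotient (hl j) _)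
      obtain ⟨S, hS⟩ := (Cfsg.Agent.Solv.pCore_isPGroup (G := G) (q i)).exists_le_sylow
      have h2 := hd i S ⟨S, rfl⟩
      have h3 : (Finset.univ.sum fun j => d j * l j) =
          (Finset.univ.sum fun j => d j * (Function.update l i m) j) + d i := by
        rw [← Finset.add_sum_erase _ _ (Finset.mem_univ i), ← Finset.add_sum_erase _ _ (Finset.mem_univ i),
          Function.update_self, hm]
        have h4 : (Finset.univ.erase i).sum (fun j => d j * l j) =
            (Finset.univ.erase i).sum (fun j => d j * (Function.update l i m) j) := by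
          apply Finset.sum_congr rfl
          intro j hj
          rw [Function.update_of_ne (Finset.ne_of_mem_erase hj)]
        rw [h4]; ring
      rw [h3, eq_bot_iff]
      refine (derivedSeries_add_le (S : Subgroup G) _ (h1.trans hS) (d i)).trans ?_
      rw [h2, Subgroup.map_bot]

/-- The Hall–Higman bound on derived length: let G be a finite solvable group, let p₁, …, p_r be distinct primes that include every prime dividing the order of G, and suppose that for each i the Sylow p_i-subgroups of G have derived length at most d_i and G has p_i-length at most l_i. Then G has derived length at most Σ d_i l_i. -/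
theorem result {G : Type*} [Group G] [Finite G] (hG : Group.IsSolvable G) (r : ℕ) (q : Fin r → ℕ) (hq : ∀ i, (q i).Prime) (hinj : Function.Injective q) (hcover : ∀ s : ℕ, s.Prime → s ∣ Nat.card G → ∃ i, q i = s) (d l : Fin r → ℕ) (hd : ∀ i, ∀ P : Subgroup G, (haveI := Fact.mk (hq i); ∃ S : Sylow (q i) G, (S : Subgroup G) = P) → derivedSeries ↥P (d i) = ⊥) (hl : ∀ i, Cfsg.PLengthLE (q i) (l i) G) : derivedSeries G (Finset.univ.sum fun i => d i * l i) = ⊥ := by
  exact main q hq d _ G rfl hG l hcover hd hl

end Cfsg.Agent.S3791
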