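import Cfsg.Statements.S3792
import Cfsg.Agent.H11.PRad4

set_option autoImplicit false
open Cfsg

namespace Cfsg.Agent.S3792

/-- Powell's Theorem: let G be a finite non-abelian simple group and p an odd prime dividing its order such that every proper subgroup of G is p-soluble. Then G can be generated by three elements. -/
theorem result {G : Type*} [Group G] [Finite G] [IsSimpleGroup G] (hna : ¬ IsMulCommutative G) {p : ℕ} [Fact p.Prime] (hp : p ≠ 2) (hdvd : p ∣ Nat.card G) (hprop : ∀ H : Subgroup G, H ≠ ⊤ → Cfsg.IsPSolvable p ↥H) : ∃ x y z : G, Subgroup.closure ({x, y, z} : Set G) = ⊤ := by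
  exact Cfsg.Agent.H11.PRad.main hna hdvd hprop

end Cfsg.Agent.S3792
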