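import Cfsg.Statements.S3797
import Cfsg.Agent.H93.ThOne.Final

set_option autoImplicit false
open Cfsg

namespace Cfsg.Agent.S3797

open Subgroup Cfsg.Agent.H93.ThOne in
theorem thompson_aux (n : ℕ) : ∀ (G : Type*) [Group G] [Finite G], Nat.card G = n → Group.IsSolvable G → HConj G → HTwo G →
    Concl G := by
  induction n using Nat.strong_induction_on with
  | _ n ih =>
    intro G _ _ hn hs hc ht
    by_cases h0 : pPrimeCore 2 G = ⊥
    · exact final_step h0 hc ht (fun Y _ _ hY hYs hYc hYt => ih _ (by rw [← hn]; exact hY) Y rfl hYs hYc hYt)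
    · have hcop := Cfsg.Agent.Solv.pPrimeCore_card_coprime (G := G) 2
      apply concl_of_quot (pPrimeCore 2 G) hcop
      refine ih _ ?_ (G ⧸ pPrimeCore 2 G) rfl inferInstance (hconj_quot _ hcop hc) (htwo_quot _ hcop ht)
      have h1 : Nat.card G = Nat.card (G ⧸ pPrimeCore 2 G) * Nat.card (pPrimeCore 2 G) :=
        Subgroup.card_eq_card_quotient_mul_card_subgroup _
      have h2 : 1 < Nat.card (pPrimeCore 2 G) := (Subgroup.one_lt_card_iff_ne_bot _).2 h0
      have h4 : 0 < Nat.card (G ⧸ pPrimeCore 2 G) := Nat.card_pos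
      rw [← hn]
      nlinarith

theorem homocyclic {P : Type*} [CommGroup P] [Finite P] (hP : IsPGroup 2 P)
    (h : ∀ x y : P, x ≠ 1 → x ^ 2 = 1 → y ≠ 1 → y ^ 2 = 1 → ∃ a : P ≃* P, a x = y) :
    ∃ m r : ℕ, Nonempty (P ≃* (Fin r → Multiplicative (ZMod (2 ^ m)))) := by
  classical
  obtain ⟨ι, _, n, hn1, ⟨φ⟩⟩ := CommGroup.equiv_prod_multiplicative_zmod_of_finite P
  have hpow : ∀ i, ∃ e, 1 ≤ e ∧ n i = 2 ^ e := by
    intro i
    have : NeZero (n i) := ⟨by have := hn1 i; omega⟩
    let w : P := φ.symm (Pi.mulSingle i (Multiplicative.ofAdd (1 : ZMod (n i))))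
    obtain ⟨k, hk⟩ := hP w
    have h1 : (Pi.mulSingle i (Multiplicative.ofAdd (1 : ZMod (n i))) : (i : ι) → Multiplicative (ZMod (n i))) ^ 2 ^ k = 1 := by
      have := congrArg φ hk
      rw [map_pow, MulEquiv.apply_symm_apply] at this
      exact this.trans (map_one φ)
    have h2 := congrFun h1 i
    rw [Pi.pow_apply, Pi.mulSingle_eq_same, Pi.one_apply, ← ofAdd_nsmul] at h2
    have h3 : (2 ^ k : ℕ) • (1 : ZMod (n i)) = 0 := h2
    rw [nsmul_one, ZMod.natCast_eq_zero_iff] at h3
    obtain ⟨e, _, he⟩ := (Nat.dvd_prime_pow Nat.prime_two).1 h3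
    refine ⟨e, ?_, he⟩
    by_contra h0
    have : e = 0 := by omega
    have := hn1 i
    rw [he, ‹e = 0›] at this
    norm_num at this
  choose e he1 he using hpow
  have hle : ∀ i j, e j ≤ e i := by
    intro i j
    by_contra hlt
    push Not at hlt
    -- involutions
    have key : ∀ i, ((2 ^ (e i - 1) : ℕ) : ZMod (n i)) ≠ 0 ∧ (2 : ℕ) • ((2 ^ (e i - 1) : ℕ) : ZMod (n i)) = 0 := by
      intro i
      constructor
      · intro h0
        rw [ZMod.natCast_eq_zero_iff, he i] at h0
        have := Nat.le_of_dvd (by positivity) h0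
        have h1 : 2 ^ (e i - 1) < 2 ^ e i := Nat.pow_lt_pow_right (by norm_num) (by have := he1 i; omega)
        omega
      · rw [nsmul_eq_mul, ← Nat.cast_mul, ZMod.natCast_eq_zero_iff, he i, ← pow_succ', Nat.sub_add_cancel (he1 i)]
    let s : (i : ι) → ((i : ι) → Multiplicative (ZMod (n i))) := fun i =>
      Pi.mulSingle i (Multiplicative.ofAdd ((2 ^ (e i - 1) : ℕ) : ZMod (n i)))
    have hs1 : ∀ i, s i ≠ 1 := by
      intro i h0
      have := congrFun h0 i
      rw [Pi.one_apply] at this
      simp only [s, Pi.mulSingle_eq_same] at this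
      exact (key i).1 this
    have hs2 : ∀ i, s i ^ 2 = 1 := by
      intro i
      simp only [s]
      rw [← Pi.mulSingle_pow, ← ofAdd_nsmul, (key i).2]
      exact Pi.mulSingle_one i
    obtain ⟨a, ha⟩ := h (φ.symm (s j)) (φ.symm (s i)) (fun h0 => hs1 j (by simpa using h0))
      (by rw [← map_pow, hs2, map_one]) (fun h0 => hs1 i (by simpa using h0)) (by rw [← map_pow, hs2, map_one])
    -- s j is a power
    have h1 : s j = (Pi.mulSingle j (Multiplicative.ofAdd (1 : ZMod (n j)))) ^ 2 ^ (e j - 1) := by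
      simp only [s]
      rw [← Pi.mulSingle_pow, ← ofAdd_nsmul, nsmul_one]
    rw [h1, map_pow, map_pow] at ha
    have h2 := congrArg φ ha
    rw [map_pow, MulEquiv.apply_symm_apply] at h2
    have h3 := congrFun h2 i
    rw [Pi.pow_apply] at h3
    set c := φ (a (φ.symm (Pi.mulSingle j (Multiplicative.ofAdd (1 : ZMod (n j)))))) i with hc
    have h4 : c ^ 2 ^ (e j - 1) = 1 := by
      obtain ⟨k, hk⟩ : ∃ k, e j - 1 = e i + k := ⟨e j - 1 - e i, by omega⟩
      have h5 : c ^ 2 ^ e i = 1 := by
        have : (2 ^ e i : ℕ) • (Multiplicative.toAdd c) = 0 := by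
          rw [nsmul_eq_mul, ← he i, ZMod.natCast_self, zero_mul]
        exact this
      rw [hk, pow_add, pow_mul, h5, one_pow]
    rw [h4] at h3
    simp only [s, Pi.mulSingle_eq_same] at h3
    exact (key i).1 h3.symm
  rcases isEmpty_or_nonempty ι with hι | ⟨⟨i₀⟩⟩
  · refine ⟨0, 0, ⟨?_⟩⟩
    have h1 : Subsingleton P := by
      have : Subsingleton ((i : ι) → Multiplicative (ZMod (n i))) := inferInstance
      exact φ.toEquiv.subsingleton
    exact { toFun := fun _ => 1, invFun := fun _ => 1, left_inv := fun x => Subsingleton.elim _ _,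
            right_inv := fun x => Subsingleton.elim _ _, map_mul' := fun _ _ => by rw [mul_one] }
  · have hn : n = fun _ => 2 ^ e i₀ := by
      funext i
      rw [he i, le_antisymm (hle i₀ i) (hle i i₀)]
    subst hn
    let f := Fintype.equivFin ι
    exact ⟨e i₀, Fintype.card ι, ⟨φ.trans (MulEquiv.arrowCongr f (MulEquiv.refl _))⟩⟩

/-- Let G be a finite solvable group of even order whose Sylow 2-subgroups contain more than one involution, and suppose all involutions of G are conjugate. Then G has 2-length at most 1, and a Sylow 2-subgroup S of G is either homocyclic (a direct product of cyclic groups of one common order) or a non-abelian 2-group with more than one involution admitting a solvable group of automorphisms transitive on its involutions. -/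
theorem result {G : Type*} [Group G] [Finite G] (hG : Group.IsSolvable G) (heven : Even (Nat.card G)) (S : Sylow 2 G) (htwo : ∃ x y : G, x ∈ (S : Subgroup G) ∧ y ∈ (S : Subgroup G) ∧ x ≠ y ∧ x ≠ 1 ∧ x ^ 2 = 1 ∧ y ≠ 1 ∧ y ^ 2 = 1) (hconj : ∀ x y : G, x ≠ 1 → x ^ 2 = 1 → y ≠ 1 → y ^ 2 = 1 → IsConj x y) : Cfsg.PLengthLE 2 1 G ∧ ((∃ m r : ℕ, Nonempty (↥(S : Subgroup G) ≃* (Fin r → Multiplicative (ZMod (2 ^ m))))) ∨ (¬ IsMulCommutative (S : Subgroup G) ∧ ∃ Y : Subgroup (MulAut ↥(S : Subgroup G)), Group.IsSolvable Y ∧ ∀ x y : ↥(S : Subgroup G), x ≠ 1 → x ^ 2 = 1 → y ≠ 1 → y ^ 2 = 1 → ∃ a ∈ Y, a x = y)) := by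

  classical
  open Subgroup Cfsg.Agent.H93.ThOne in
  have : Fact (Nat.Prime 2) := ⟨Nat.prime_two⟩
  have hS : IsPGroup 2 (S : Subgroup G) := S.isPGroup'
  have hc : HConj G := by
    intro x y hx1 hx2 hy1 hy2
    obtain ⟨g, hg⟩ := isConj_iff.1 (hconj x y hx1 (by rw [pow_two]; exact hx2) hy1 (by rw [pow_two]; exact hy2))
    exact ⟨g, hg⟩
  have ht : HTwo G := by
    obtain ⟨x, y, hxS, hyS, hxy, hx1, hx2, hy1, hy2⟩ := htwo
    rw [pow_two] at hx2 hy2
    have hSne : (S : Subgroup G) ≠ ⊥ := by
      intro h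
      rw [h, mem_bot] at hxS
      exact hx1 hxS
    obtain ⟨v, hvS, hv1, hvc⟩ := exists_fixed hS le_normalizer hS hSne
    have hZne : (S : Subgroup G) ⊓ centralizer ((S : Subgroup G) : Set G) ≠ ⊥ := by
      intro h
      have : v ∈ (S : Subgroup G) ⊓ centralizer ((S : Subgroup G) : Set G) := ⟨hvS, mem_centralizer_iff.2 hvc⟩
      rw [h, mem_bot] at this
      exact hv1 this
    obtain ⟨z, hz, hz1, hz2⟩ := exists_involution (hS.to_le inf_le_left) hZne
    have hzc := mem_centralizer_iff.1 hz.2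
    by_cases hzx : z = x
    · refine ⟨z, y, hz1, hy1, by rw [hzx]; exact hxy, hz2, hy2, (hzc y hyS).symm⟩
    · exact ⟨z, x, hz1, hx1, hzx, hz2, hx2, (hzc x hxS).symm⟩
  obtain ⟨K, L, hK, hL, hKL, hK2, ⟨e, he⟩, hL2⟩ := thompson_aux _ G rfl hG hc ht
  refine ⟨?_, ?_⟩
  · rw [Cfsg.Agent.H63.pLengthLE_iff]
    refine ⟨fun n => if n = 0 then ⊥ else if n = 1 then K else if n = 2 then L else ⊤, ⟨?_, ?_, ?_, ?_⟩, rfl, rfl⟩
    · intro n
      try dsimp only
      split_ifs <;> infer_instance
    · apply monotone_nat_of_le_succ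
      intro n
      try dsimp only
      rcases n with _ | _ | _ | n
      · simp
      · simpa using hKL
      · simp
      · simp
    · intro n hn
      try dsimp only
      rcases n with _ | _ | _ | n
      · simp only [if_true, zero_add, Nat.one_ne_zero, if_false, Subgroup.relIndex_bot_left]
        exact hK2
      · exact absurd hn (by decide)
      · simp only [zero_add, Nat.reduceAdd, OfNat.ofNat_ne_zero, if_false, OfNat.ofNat_ne_one, if_true, Nat.reduceEqDiff,
          Subgroup.relIndex_top_right]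
        exact hL2
      · simp
    · intro n hn
      try dsimp only
      rcases n with _ | _ | _ | n
      · exact absurd (by decide) hn
      · simp only [zero_add, Nat.one_ne_zero, if_false, if_true, Nat.reduceAdd, OfNat.ofNat_ne_zero, OfNat.ofNat_ne_one]
        exact ⟨e, by rw [he]⟩
      · exact absurd (by decide) hn
      · exact ⟨0, by simp⟩
  · -- S is isomorphic to its image, which is normal
    have hSL : (S : Subgroup G) ≤ L := by
      rw [← Subgroup.relIndex_eq_one]
      have h1 : L.relIndex S ∣ L.index := Subgroup.relIndex_dvd_index_of_normal L S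
      obtain ⟨n, hn⟩ := IsPGroup.iff_card.1 hS
      have h2 : L.relIndex S ∣ 2 ^ n := by
        rw [← hn]
        exact Subgroup.relIndex_dvd_card L S
      have h3 := Nat.dvd_gcd h1 h2
      rw [Nat.Coprime.pow_right n hL2] at h3
      exact Nat.dvd_one.1 h3
    have hKS : K ⊔ (S : Subgroup G) = L := by
      apply Subgroup.eq_of_le_of_card_ge (sup_le hKL hSL)
      have h1 := card_mul_relIndex' hKL
      rw [he] at h1
      have h2 : 2 ^ e ∣ Nat.card S := S.pow_dvd_card_of_pow_dvd_card (by
        have h3 : Nat.card L ∣ Nat.card G := Subgroup.card_subgroup_dvd_card L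
        rw [← h1] at h3
        exact (Dvd.intro_left _ rfl).trans h3)
      obtain ⟨n, hn⟩ := IsPGroup.iff_card.1 hS
      have h4 : Nat.card K * Nat.card S ∣ Nat.card (K ⊔ (S : Subgroup G) : Subgroup G) := by
        apply Nat.Coprime.mul_dvd_of_dvd_of_dvd
        · rw [hn]; exact Nat.Coprime.pow_right n hK2
        · exact Subgroup.card_dvd_of_le le_sup_left
        · exact Subgroup.card_dvd_of_le le_sup_right
      have h5 := Nat.le_of_dvd Nat.card_pos h4
      rw [← h1]
      exact (Nat.mul_le_mul_left _ (Nat.le_of_dvd Nat.card_pos h2)).trans h5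
    set Sb : Subgroup (G ⧸ K) := L.map (QuotientGroup.mk' K) with hSb
    have hSbn : Sb.Normal := hL.map _ (QuotientGroup.mk'_surjective K)
    have hmem : ∀ s ∈ (S : Subgroup G), QuotientGroup.mk' K s ∈ Sb := fun s hs => ⟨s, hSL hs, rfl⟩
    let ι : (S : Subgroup G) →* Sb :=
      { toFun := fun s => ⟨QuotientGroup.mk' K s, hmem s s.2⟩
        map_one' := Subtype.ext (map_one _)
        map_mul' := fun a b => Subtype.ext (map_mul _ _ _) }
    have hinj : Function.Injective ι := by
      rw [injective_iff_map_eq_one]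
      rintro ⟨s, hs⟩ h
      have h1 : (QuotientGroup.mk' K s) = 1 := congrArg Subtype.val h
      have h2 : s ∈ K := (QuotientGroup.eq_one_iff s).1 h1
      apply Subtype.ext
      show s = 1
      have h3 : orderOf s ∣ Nat.card K := Subgroup.orderOf_dvd_natCard K h2
      have h4 : orderOf s ∣ Nat.card (S : Subgroup G) := Subgroup.orderOf_dvd_natCard _ hs
      obtain ⟨n, hn⟩ := IsPGroup.iff_card.1 hS
      rw [hn] at h4
      have h5 := Nat.dvd_gcd h3 h4
      rw [Nat.Coprime.pow_right n hK2] at h5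
      exact orderOf_eq_one_iff.1 (Nat.dvd_one.1 h5)
    have hsurj : Function.Surjective ι := by
      rintro ⟨_, ⟨l, hl, rfl⟩⟩
      rw [← hKS] at hl
      obtain ⟨k, hk, s, hs, rfl⟩ := Subgroup.mem_sup_of_normal_left.1 hl
      refine ⟨⟨s, hs⟩, Subtype.ext ?_⟩
      show QuotientGroup.mk' K s = QuotientGroup.mk' K (k * s)
      have h0 : QuotientGroup.mk' K k = 1 := (QuotientGroup.eq_one_iff k).2 hk
      rw [map_mul, h0, one_mul]
    let ie : (S : Subgroup G) ≃* Sb := MulEquiv.ofBijective ι ⟨hinj, hsurj⟩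
    let act : G →* MulAut (S : Subgroup G) :=
      (MulAut.congr ie.symm).toMonoidHom.comp ((MulAut.conjNormal : (G ⧸ K) →* MulAut Sb).comp (QuotientGroup.mk' K))
    have hact : ∀ (g : G) (x y : (S : Subgroup G)), g * (x : G) * g⁻¹ = y → act g x = y := by
      intro g x y hg
      show ie.symm (MulAut.conjNormal (QuotientGroup.mk' K g) (ie x)) = y
      rw [MulEquiv.symm_apply_eq]
      apply Subtype.ext
      rw [MulAut.conjNormal_apply]
      show QuotientGroup.mk' K g * QuotientGroup.mk' K x * (QuotientGroup.mk' K g)⁻¹ = QuotientGroup.mk' K y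
      rw [← hg, map_mul, map_mul, map_inv]
    have htrans : ∀ x y : (S : Subgroup G), x ≠ 1 → x ^ 2 = 1 → y ≠ 1 → y ^ 2 = 1 → ∃ a ∈ act.range, a x = y := by
      intro x y hx1 hx2 hy1 hy2
      obtain ⟨g, hg⟩ := hc x y (fun h => hx1 (Subtype.ext h)) (by rw [← pow_two]; exact congrArg Subtype.val hx2)
        (fun h => hy1 (Subtype.ext h)) (by rw [← pow_two]; exact congrArg Subtype.val hy2)
      exact ⟨act g, ⟨g, rfl⟩, hact g x y hg⟩
    by_cases hcom : IsMulCommutative (S : Subgroup G)
    · left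
      let hcg : CommGroup (S : Subgroup G) := { (inferInstance : Group (S : Subgroup G)) with mul_comm := hcom.1.1 }
      exact homocyclic hS (fun x y hx1 hx2 hy1 hy2 => by
        obtain ⟨a, _, ha⟩ := htrans x y hx1 hx2 hy1 hy2
        exact ⟨a, ha⟩)
    · right
      refine ⟨hcom, act.range, ?_, htrans⟩
      exact Group.isSolvable_of_surjective (f := act.rangeRestrict) act.rangeRestrict_surjective

end Cfsg.Agent.S3797
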