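import Cfsg.Statements.S3798
import Cfsg.Agent.H63.PLen
import Cfsg.Agent.H30.PLenMore
import Cfsg.Agent.H76.PSolvable
import Cfsg.Agent.BG.OmegaOdd
import Cfsg.Agent.Hall.Hall

set_option autoImplicit false
set_option linter.unusedSectionVars false
open Cfsg

namespace Cfsg.Agent.S3798

open Subgroup

open scoped Pointwise commutatorElement

section

variable {G : Type*} [Group G] [Finite G] {p : ℕ} [hp : Fact p.Prime]

/-- Transitivity on subgroups of order `p` in terms of elements. -/
def Trans (G : Type*) [Group G] (p : ℕ) : Prop :=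
  ∀ x y : G, orderOf x = p → orderOf y = p → ∃ a : MulAut G, ∃ z ∈ zpowers x, a z = y

theorem mem_of_trans (ht : Trans G p) {C : Subgroup G} (hC : ∀ (a : MulAut G), ∀ c ∈ C, a c ∈ C)
    {x y : G} (hx : x ∈ C) (hxo : orderOf x = p) (hyo : orderOf y = p) : y ∈ C := by
  obtain ⟨a, z, hz, rfl⟩ := ht x y hxo hyo
  exact hC a z ((zpowers_le.2 hx) hz)

theorem pCore_char (a : MulAut G) {c : G} (hc : c ∈ pCore p G) : a c ∈ pCore p G := by
  have h := Solv.map_pCore p a
  rw [← h]
  exact ⟨c, hc, rfl⟩

theorem centralizer_char {C : Subgroup G} (hC : ∀ (a : MulAut G), ∀ c ∈ C, a c ∈ C) (a : MulAut G)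
    {c : G} (hc : c ∈ centralizer (C : Set G)) : a c ∈ centralizer (C : Set G) := by
  rw [mem_centralizer_iff] at hc ⊢
  intro h hh
  have h1 := hc (a⁻¹ h) (hC a⁻¹ h hh)
  have h2 := congrArg a h1
  rw [map_mul, map_mul] at h2
  have h3 : a (a⁻¹ h) = h := MulAut.apply_inv_self _ a h
  rw [h3] at h2
  exact h2

/-- The preimage of `O_{p'}(G/O_p(G))`. -/
noncomputable def LL (G : Type*) [Group G] (p : ℕ) : Subgroup G :=
  (pPrimeCore p (G ⧸ pCore p G)).comap (QuotientGroup.mk' (pCore p G))

theorem LL_char (a : MulAut G) {c : G} (hc : c ∈ LL G p) : a c ∈ LL G p := by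
  have hmap : (pCore p G).map (a : G →* G) = pCore p G := Solv.map_pCore p a
  let e : G ⧸ pCore p G ≃* G ⧸ pCore p G := QuotientGroup.congr _ _ a hmap
  have h := Solv.map_pPrimeCore p e
  rw [LL, mem_comap] at hc ⊢
  rw [← h]
  exact ⟨_, hc, rfl⟩

theorem main (hp2 : p ≠ 2) (hG : IsPSolvable p G) (hcore : pPrimeCore p G = ⊥) (ht : Trans G p) :
    ¬ p ∣ Nat.card (G ⧸ pCore p G) := by
  intro hdvd
  have hCK := H76.centralizer_pCore_le hG hcore
  have hKp : IsPGroup p (pCore p G) := Solv.pCore_isPGroup p
  -- the core is nontrivial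
  have hKne : pCore p G ≠ ⊥ := by
    intro h
    have h1 : (⊤ : Subgroup G) ≤ ⊥ := by
      have h2 := hCK
      rw [h] at h2
      refine le_trans ?_ h2
      intro x _
      rw [mem_centralizer_iff]
      intro y hy
      have : y = 1 := mem_bot.1 hy
      rw [this]; simp
    have h2 : Nat.card (G ⧸ pCore p G) ∣ Nat.card G := card_quotient_dvd_card _
    have h3 : Nat.card G = 1 := by
      rw [← card_top (G := G), (le_bot_iff.1 h1), card_bot]
    have h4 := (hdvd.trans h2)
    rw [h3] at h4
    exact hp.out.one_lt.ne' (Nat.dvd_one.1 h4)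
  -- all elements of order p are central in the core
  have hZ : ∀ y : G, orderOf y = p → y ∈ pCore p G ⊓ centralizer ((pCore p G : Subgroup G) : Set G) := by
    have hnt : Nontrivial (pCore p G) := (nontrivial_iff_ne_bot _).2 hKne
    have hcn := hKp.center_nontrivial
    obtain ⟨k, hk⟩ := IsPGroup.iff_card.1 (hKp.to_subgroup (center (pCore p G)))
    have hk0 : k ≠ 0 := by
      rintro rfl
      rw [pow_zero] at hk
      have := Finite.one_lt_card_iff_nontrivial.2 hcn
      omega
    obtain ⟨z, hz⟩ := exists_prime_orderOf_dvd_card' (G := center (pCore p G)) p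
      (by rw [hk]; exact dvd_pow_self p hk0)
    have hz' : orderOf (((z : pCore p G) : G)) = p := by rw [orderOf_coe, orderOf_coe, hz]
    intro y hy
    refine mem_of_trans ht ?_ (x := ((z : pCore p G) : G)) ?_ hz' hy
    · intro a c hc
      exact ⟨pCore_char a hc.1, centralizer_char (fun a c hc => pCore_char a hc) a hc.2⟩
    · refine ⟨(z : pCore p G).2, ?_⟩
      change ((z : pCore p G) : G) ∈ centralizer ((pCore p G : Subgroup G) : Set G)
      rw [mem_centralizer_iff]
      intro h hh
      have := mem_center_iff.1 z.2 ⟨h, hh⟩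
      exact congrArg Subtype.val this
  -- complement of the core
  set K : Subgroup G := pCore p G with hK
  set L : Subgroup G := LL G p with hL
  have hKL : K ≤ L := H63.le_comap_mk' _ _
  have hLn : L.Normal := by rw [hL, LL]; infer_instance
  have hrel : K.relIndex L = Nat.card (pPrimeCore p (G ⧸ K)) := H63.relIndex_comap_mk' _ _
  have hcopKL : (Nat.card K).Coprime (K.relIndex L) := by
    obtain ⟨k, hk⟩ := IsPGroup.iff_card.1 hKp
    rw [hk, hrel]
    exact (Solv.pPrimeCore_card_coprime p).symm.pow_left k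
  obtain ⟨H, hHL, hHc, hKH⟩ : ∃ H : Subgroup G, H ≤ L ∧ Nat.card H = K.relIndex L ∧ K ⊓ H = ⊥ := by
    have hn : (K.subgroupOf L).Normal := inferInstance
    have hcard : Nat.card (K.subgroupOf L) = Nat.card K :=
      Nat.card_congr (subgroupOfEquivOfLe hKL).toEquiv
    obtain ⟨H', hH'⟩ := exists_right_complement'_of_coprime (N := K.subgroupOf L) (by
      rw [hcard]; exact hcopKL)
    refine ⟨H'.map L.subtype, map_subtype_le _, ?_, ?_⟩
    · rw [card_map_of_injective L.subtype_injective, ← hH'.symm.index_eq_card]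
      rfl
    · rw [eq_bot_iff]
      rintro _ ⟨hxK, x, hx, rfl⟩
      have h1 : x ∈ K.subgroupOf L ⊓ H' := ⟨hxK, hx⟩
      rw [hH'.disjoint.eq_bot, mem_bot] at h1
      rw [h1]; simp
  -- Frattini
  have hfr : ∀ g : G, ∃ k ∈ K, k⁻¹ * g ∈ normalizer (H : Set G) := by
    intro g
    have hgH : MulAut.conj g • H ≤ L := by
      rintro _ ⟨h, hh, rfl⟩
      exact hLn.conj_mem h (hHL hh) g
    have hnil : Group.IsNilpotent K := hKp.isNilpotent
    obtain ⟨k, hk, e⟩ := Hall.sz_conj_rel K L hKL (le_normalizer_of_normal) hcopKL inferInstance H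
      (MulAut.conj g • H) hHL hgH hHc (by rw [Hall.card_conj_smul, hHc])
    refine ⟨k, hk, ?_⟩
    have h1 : MulAut.conj (k⁻¹ * g) • H = H := by
      rw [map_mul, mul_smul, ← e, ← mul_smul, ← map_mul, inv_mul_cancel, map_one, one_smul]
    rw [mem_normalizer_iff]
    intro y
    constructor
    · intro hy
      rw [← h1]
      exact ⟨y, hy, rfl⟩
    · intro hy
      rw [← h1] at hy
      obtain ⟨z, hz, e2⟩ := hy
      have : z = y := (MulAut.conj (k⁻¹ * g)).injective e2
      rwa [← this]
  -- L = K H
  have hLKH : L ≤ K ⊔ H := by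
    have h1 := Solv.mul_card_sup_of_normal H K
    rw [inf_comm, hKH, card_bot, mul_one, sup_comm, hHc] at h1
    have h2 : Nat.card L = Nat.card (K ⊔ H : Subgroup G) := by
      rw [h1, ← relIndex_bot_left, ← relIndex_mul_relIndex ⊥ K L bot_le hKL, relIndex_bot_left,
        mul_comm]
    exact (eq_of_le_of_card_ge (sup_le hKL hHL) h2.le).ge
  -- the intersection with K is trivial
  have hNK : normalizer (H : Set G) ⊓ K = ⊥ := by
    by_contra hne
    have hcent : normalizer (H : Set G) ⊓ K ≤ centralizer (H : Set G) := by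
      rintro x ⟨hxN, hxK⟩
      rw [mem_centralizer_iff]
      intro h hh
      have h1 : x * h * x⁻¹ * h⁻¹ ∈ K ⊓ H := by
        constructor
        · have : x * h * x⁻¹ * h⁻¹ = x * (h * x⁻¹ * h⁻¹) := by group
          rw [this]
          exact K.mul_mem hxK (Subgroup.Normal.conj_mem inferInstance _ (K.inv_mem hxK) h)
        · exact H.mul_mem ((mem_normalizer_iff.1 hxN h).1 hh) (H.inv_mem hh)
      rw [hKH, mem_bot, mul_inv_eq_one, mul_inv_eq_iff_eq_mul] at h1
      exact h1.symm
    have hp3 : IsPGroup p (normalizer (H : Set G) ⊓ K : Subgroup G) := hKp.to_le inf_le_right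
    obtain ⟨k, hk⟩ := IsPGroup.iff_card.1 hp3
    have hk0 : k ≠ 0 := by
      rintro rfl
      rw [pow_zero, card_eq_one] at hk
      exact hne hk
    obtain ⟨x, hx⟩ := exists_prime_orderOf_dvd_card' (G := (normalizer (H : Set G) ⊓ K : Subgroup G)) p
      (by rw [hk]; exact dvd_pow_self p hk0)
    have hx' : orderOf (x : G) = p := by rw [orderOf_coe, hx]
    have hxZ := hZ x hx'
    -- all elements of order p centralize L
    have hall : ∀ y : G, orderOf y = p → y ∈ centralizer (L : Set G) := by
      intro y hy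
      refine mem_of_trans ht (C := centralizer (L : Set G)) ?_ (x := (x : G)) ?_ hx' hy
      · intro a c hc
        exact centralizer_char (fun a c hc => LL_char a hc) a hc
      · have h1 : K ⊔ H ≤ centralizer ({(x : G)} : Set G) := by
          rw [sup_le_iff]
          constructor
          · intro c hc
            rw [mem_centralizer_singleton_iff]
            exact (mem_centralizer_iff.1 hxZ.2) c hc
          · intro c hc
            rw [mem_centralizer_singleton_iff]
            exact (mem_centralizer_iff.1 (hcent x.2)) c hc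
        rw [mem_centralizer_iff]
        intro c hc
        exact mem_centralizer_singleton_iff.1 (h1 (hLKH hc))
    have hcopH : (Nat.card H).Coprime p := by
      rw [hHc, hrel]
      exact Solv.pPrimeCore_card_coprime p
    have h1 := BG.le_centralizer_of_omega1 hp2 H hcopH _ K rfl hKp (le_normalizer_of_normal) (by
      intro y hy hyp a ha
      by_cases hy1 : y = 1
      · rw [hy1]; simp
      · have hyo : orderOf y = p := orderOf_eq_prime hyp hy1
        exact ((mem_centralizer_iff.1 (hall y hyo)) a (hHL ha)))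
    have h2 : H = ⊥ := by
      rw [← hKH]
      exact (inf_eq_right.2 (h1.trans hCK)).symm
    rw [h2, card_bot, hrel] at hHc
    have h3 : pPrimeCore p (G ⧸ K) = ⊥ := by
      rw [← card_eq_one]; exact hHc.symm
    have h4 : pCore p (G ⧸ K) = ⊥ := Solv.pCore_quotient_pCore p
    have h5 := H76.centralizer_pCore_le (H76.isPSolvable_quotient K hG) h3
    rw [h4] at h5
    have h6 : (⊤ : Subgroup (G ⧸ K)) ≤ ⊥ := by
      refine le_trans ?_ h5
      intro x _
      rw [mem_centralizer_iff]
      intro y hy
      have : y = 1 := mem_bot.1 hy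
      rw [this]; simp
    have h7 : Nat.card (G ⧸ K) = 1 := by
      rw [← card_top (G := G ⧸ K), (le_bot_iff.1 h6), card_bot]
    rw [h7] at hdvd
    exact hp.out.one_lt.ne' (Nat.dvd_one.1 hdvd)
  -- an element of order p in the normalizer of H
  have hsurj : Nat.card (G ⧸ K) ∣ Nat.card (normalizer (H : Set G)) := by
    have h1 : K ⊔ normalizer (H : Set G) = ⊤ := by
      rw [eq_top_iff]
      intro g _
      obtain ⟨k, hk, hkg⟩ := hfr g
      have : g = k * (k⁻¹ * g) := by group
      rw [this]
      exact mul_mem_sup hk hkg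
    have h2 : K.relIndex (normalizer (H : Set G)) = K.index := by
      rw [← relIndex_sup_right (H := normalizer (H : Set G)) (K := K), sup_comm, h1, relIndex_top_right]
    rw [← index_eq_card, ← h2]
    exact index_dvd_card _
  obtain ⟨y, hy⟩ := exists_prime_orderOf_dvd_card' (G := normalizer (H : Set G)) p (hdvd.trans hsurj)
  have hy' : orderOf (y : G) = p := by rw [orderOf_coe, hy]
  have h1 : (y : G) ∈ normalizer (H : Set G) ⊓ K := ⟨y.2, (hZ y hy').1⟩
  rw [hNK, mem_bot] at h1
  rw [h1, orderOf_one] at hy'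
  exact hp.out.one_lt.ne hy'

theorem trans_quotient (ht : Trans G p) : Trans (G ⧸ pPrimeCore p G) p := by
  set N := pPrimeCore p G with hN
  have hNc : (Nat.card N).Coprime p := Solv.pPrimeCore_card_coprime p
  -- lifting elements of order p
  have hlift : ∀ x : G ⧸ N, orderOf x = p → ∃ g : G, orderOf g = p ∧ zpowers (QuotientGroup.mk g : G ⧸ N) = zpowers x := by
    intro x hx
    obtain ⟨g, rfl⟩ := QuotientGroup.mk_surjective x
    have h1 : p ∣ orderOf g := by
      rw [← hx]; exact orderOf_map_dvd (QuotientGroup.mk' N) g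
    obtain ⟨m, hm⟩ := h1
    have hm0 : m ≠ 0 := by
      rintro rfl
      exact (orderOf_pos g).ne' (by simpa using hm)
    have h2 : orderOf (g ^ m) = p := by
      rw [orderOf_pow_of_dvd hm0 ⟨p, by rw [hm]; ring⟩, hm]
      exact Nat.mul_div_cancel _ (Nat.pos_of_ne_zero hm0)
    refine ⟨g ^ m, h2, ?_⟩
    apply eq_of_le_of_card_ge
    · rw [zpowers_le, QuotientGroup.mk_pow]
      exact pow_mem (mem_zpowers _) m
    · rw [Nat.card_zpowers, Nat.card_zpowers, hx]
      have h3 : orderOf (QuotientGroup.mk (g ^ m) : G ⧸ N) ∣ p :=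
        (orderOf_map_dvd (QuotientGroup.mk' N) (g ^ m)).trans h2.dvd
      rcases (Nat.dvd_prime hp.out).1 h3 with h | h
      · exfalso
        rw [orderOf_eq_one_iff, QuotientGroup.eq_one_iff] at h
        have h4 : p ∣ Nat.card N := by
          have := orderOf_dvd_natCard (⟨g ^ m, h⟩ : N)
          rw [orderOf_mk, h2] at this
          exact this
        exact hp.out.one_lt.ne' (Nat.Coprime.eq_one_of_dvd hNc.symm h4)
      · exact h.ge
  intro x y hx hy
  obtain ⟨g, hg, hgx⟩ := hlift x hx
  obtain ⟨h, hh, hhy⟩ := hlift y hy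
  obtain ⟨a, z, hz, haz⟩ := ht g h hg hh
  have hmap : N.map (a : G →* G) = N := Solv.map_pPrimeCore p a
  let e : G ⧸ N ≃* G ⧸ N := QuotientGroup.congr _ _ a hmap
  have h1 : y ∈ zpowers (QuotientGroup.mk h : G ⧸ N) := by rw [hhy]; exact mem_zpowers y
  obtain ⟨k, hk⟩ := h1
  refine ⟨e, (QuotientGroup.mk z : G ⧸ N) ^ k, ?_, ?_⟩
  · rw [← hgx]
    apply zpow_mem
    obtain ⟨j, rfl⟩ := hz
    exact ⟨j, rfl⟩
  · rw [map_zpow]
    have : e (QuotientGroup.mk z : G ⧸ N) = QuotientGroup.mk h := by
      rw [← haz]; rfl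
    rw [this]
    exact hk

end

/-- The Gaschütz–Yen Theorem: let G be a finite p-soluble group, p an odd prime dividing its order, such that the automorphism group of G permutes the subgroups of G of order p transitively. Then G has p-length at most 1. -/
theorem result {G : Type*} [Group G] [Finite G] {p : ℕ} [Fact p.Prime] (hp : p ≠ 2) (hdvd : p ∣ Nat.card G) (hG : Cfsg.IsPSolvable p G) (htrans : ∀ U V : Subgroup G, Nat.card U = p → Nat.card V = p → ∃ a : MulAut G, U.map a.toMonoidHom = V) : Cfsg.PLengthLE p 1 G := by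
  have ht : Trans G p := by
    intro x y hx hy
    obtain ⟨a, ha⟩ := htrans (zpowers x) (zpowers y) (by rw [Nat.card_zpowers, hx])
      (by rw [Nat.card_zpowers, hy])
    have h1 : y ∈ (zpowers x).map a.toMonoidHom := by rw [ha]; exact mem_zpowers y
    obtain ⟨z, hz, e⟩ := h1
    exact ⟨a, z, hz, e⟩
  have ht' := trans_quotient ht
  have h1 := main hp (H76.isPSolvable_quotient (pPrimeCore p G) hG)
    (Solv.pPrimeCore_quotient_pPrimeCore p) ht'
  apply H30.pLengthLE_one_of_index
  rw [pPrimePCore, index_comap_of_surjective _ (QuotientGroup.mk'_surjective _), index_eq_card]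
  exact ((Nat.Prime.coprime_iff_not_dvd Fact.out).2 h1).symm

end Cfsg.Agent.S3798
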