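import Cfsg.Statements.S3799
import Cfsg.Agent.Extra.Basic

set_option autoImplicit false
open Cfsg

namespace Cfsg.Agent.S3799

open scoped commutatorElement

/-- The Heisenberg group. -/
@[ext] structure Heis (n : ℕ) (F : Type) where
  a : Fin n → F
  b : Fin n → F
  c : F

variable {n : ℕ} {F : Type} [Field F]

instance : Mul (Heis n F) := ⟨fun x y => ⟨x.a + y.a, x.b + y.b, x.c + y.c + x.a ⬝ᵥ y.b⟩⟩
instance : One (Heis n F) := ⟨⟨0, 0, 0⟩⟩
instance : Inv (Heis n F) := ⟨fun x => ⟨-x.a, -x.b, -x.c + x.a ⬝ᵥ x.b⟩⟩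

@[simp] theorem mul_a (x y : Heis n F) : (x * y).a = x.a + y.a := rfl
@[simp] theorem mul_b (x y : Heis n F) : (x * y).b = x.b + y.b := rfl
@[simp] theorem mul_c (x y : Heis n F) : (x * y).c = x.c + y.c + x.a ⬝ᵥ y.b := rfl
@[simp] theorem one_a : (1 : Heis n F).a = 0 := rfl
@[simp] theorem one_b : (1 : Heis n F).b = 0 := rfl
@[simp] theorem one_c : (1 : Heis n F).c = 0 := rfl
@[simp] theorem inv_a (x : Heis n F) : (x⁻¹).a = -x.a := rfl
@[simp] theorem inv_b (x : Heis n F) : (x⁻¹).b = -x.b := rfl
@[simp] theorem inv_c (x : Heis n F) : (x⁻¹).c = -x.c + x.a ⬝ᵥ x.b := rfl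

instance : Group (Heis n F) :=
  Group.ofLeftAxioms
    (by
      intro x y z
      ext <;> simp [add_assoc, dotProduct_add, add_dotProduct]
      ring)
    (by intro x; ext <;> simp)
    (by intro x; ext <;> simp)

def equivProd : Heis n F ≃ (Fin n → F) × (Fin n → F) × F where
  toFun x := (x.a, x.b, x.c)
  invFun x := ⟨x.1, x.2.1, x.2.2⟩
  left_inv x := rfl
  right_inv x := rfl

theorem pow_formula (x : Heis n F) (k : ℕ) :
    x ^ k = ⟨(k : F) • x.a, (k : F) • x.b, (k : F) * x.c + ((k.choose 2 : ℕ) : F) * (x.a ⬝ᵥ x.b)⟩ := by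
  induction k with
  | zero => ext <;> simp
  | succ k ih =>
    rw [pow_succ, ih]
    ext
    · simp [add_mul]
    · simp [add_mul]
    · simp only [mul_c, smul_dotProduct, smul_eq_mul]
      rw [Nat.choose_succ_succ' k 1, Nat.choose_one_right]
      push_cast
      ring

theorem mem_center_iff (x : Heis n F) : x ∈ Subgroup.center (Heis n F) ↔ x.a = 0 ∧ x.b = 0 := by
  rw [Subgroup.mem_center_iff]
  constructor
  · intro h
    constructor
    · apply funext
      intro i
      have h1 := congrArg Heis.c (h ⟨0, Pi.single i 1, 0⟩)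
      simpa [add_comm] using h1
    · apply funext
      intro i
      have h1 := congrArg Heis.c (h ⟨Pi.single i 1, 0, 0⟩)
      simpa [add_comm] using h1
  · rintro ⟨h1, h2⟩ y
    ext <;> simp [h1, h2, add_comm]

theorem card_center : Nat.card (Subgroup.center (Heis n F)) = Nat.card F := by
  apply Nat.card_congr
  exact
    { toFun := fun x => x.1.c
      invFun := fun t => ⟨⟨0, 0, t⟩, (mem_center_iff _).2 ⟨rfl, rfl⟩⟩
      left_inv := by
        rintro ⟨x, hx⟩
        have := (mem_center_iff _).1 hx
        apply Subtype.ext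
        ext <;> simp [this.1, this.2]
      right_inv := fun t => rfl }

theorem classTwo : Extra.ClassTwo (Heis n F) := by
  change commutator (Heis n F) ≤ _
  rw [commutator_def, Subgroup.commutator_le]
  intro x _ y _
  rw [mem_center_iff, commutatorElement_def]
  constructor <;> simp

/-- The action on `F × Fⁿ × F`. -/
def act (x : Heis n F) : (F × (Fin n → F) × F) →ₗ[F] (F × (Fin n → F) × F) where
  toFun v := (v.1 + x.a ⬝ᵥ v.2.1 + x.c * v.2.2, v.2.1 + v.2.2 • x.b, v.2.2)
  map_add' u v := by
    simp only [Prod.fst_add, Prod.snd_add, dotProduct_add, Prod.mk_add_mk, Prod.mk.injEq, and_true]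
    constructor
    · ring
    · rw [add_smul]; abel
  map_smul' r v := by
    simp only [Prod.smul_fst, Prod.smul_snd, smul_eq_mul, dotProduct_smul, RingHom.id_apply,
      Prod.smul_mk, Prod.mk.injEq, and_true]
    constructor
    · ring
    · rw [smul_add, mul_smul]

def actHom : Heis n F →* Module.End F (F × (Fin n → F) × F) where
  toFun := act
  map_one' := by
    apply LinearMap.ext
    rintro ⟨u, v, w⟩
    simp [act]
  map_mul' x y := by
    apply LinearMap.ext
    rintro ⟨u, v, w⟩
    simp only [act, mul_a, mul_b, mul_c, LinearMap.coe_mk, AddHom.coe_mk, Module.End.mul_apply,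
      Prod.mk.injEq, and_true, add_dotProduct, dotProduct_add, dotProduct_smul, smul_eq_mul]
    constructor
    · ring
    · rw [smul_add]; abel

theorem actHom_injective : Function.Injective (actHom (n := n) (F := F)) := by
  intro x y h
  have h1 : ∀ v, act x v = act y v := fun v => congrArg (fun f : Module.End F _ => f v) h
  have h2 := h1 (0, 0, 1)
  simp only [act, LinearMap.coe_mk, AddHom.coe_mk, Prod.mk.injEq, dotProduct_zero, add_zero, zero_add,
    mul_one, one_smul, and_true] at h2
  ext i
  · have h3 := h1 (0, Pi.single i 1, 0)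
    simpa [act] using h3
  · exact congrFun h2.2 i
  · exact h2.1

/-- For every odd prime p and every n ≥ 1 there is an extraspecial p-group of order p^(1+2n) and exponent p; concretely, the general linear group of degree n + 2 over the field with p elements contains such a subgroup. -/
theorem result (p : ℕ) [Fact p.Prime] (hp : p ≠ 2) (n : ℕ) (hn : 1 ≤ n) : ∃ E : Subgroup (Matrix.GeneralLinearGroup (Fin (n + 2)) (ZMod p)), Cfsg.IsExtraspecial p ↥E ∧ Nat.card E = p ^ (1 + 2 * n) ∧ ∀ x ∈ E, x ^ p = 1 := by
  have hpp : p.Prime := Fact.out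
  let V := ZMod p × (Fin n → ZMod p) × ZMod p
  have hfr : Module.finrank (ZMod p) V = n + 2 := by
    simp only [V, Module.finrank_prod, Module.finrank_self, Module.finrank_fin_fun]
    ring
  let B : Module.Basis (Fin (n + 2)) (ZMod p) V := Module.finBasisOfFinrankEq (ZMod p) V hfr
  let ψ : Heis n (ZMod p) →* Matrix.GeneralLinearGroup (Fin (n + 2)) (ZMod p) :=
    MonoidHom.toHomUnits ((LinearMap.toMatrixAlgEquiv B).toMulEquiv.toMonoidHom.comp
      (actHom (n := n) (F := ZMod p)))
  have hψ : Function.Injective ψ := by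
    intro x y h
    apply actHom_injective
    apply (LinearMap.toMatrixAlgEquiv B).injective
    exact congrArg Units.val h
  haveI : Finite (Heis n (ZMod p)) := Finite.of_equiv _ (equivProd (n := n) (F := ZMod p)).symm
  have hcard : Nat.card (Heis n (ZMod p)) = p ^ (1 + 2 * n) := by
    rw [Nat.card_congr (equivProd (n := n) (F := ZMod p))]
    rw [Nat.card_prod, Nat.card_prod, Nat.card_eq_fintype_card, Nat.card_eq_fintype_card]
    simp only [Fintype.card_pi, ZMod.card, Finset.prod_const, Finset.card_univ, Fintype.card_fin]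
    ring
  have hges : Extra.GES p (Heis n (ZMod p)) :=
    ⟨by rw [card_center, Nat.card_eq_fintype_card, ZMod.card], classTwo⟩
  have hges2 : Extra.GES p ψ.range := hges.of_equiv (MonoidHom.ofInjective hψ)
  have hcardE : Nat.card ψ.range = p ^ (1 + 2 * n) := by
    rw [← hcard]
    exact (Nat.card_congr (MonoidHom.ofInjective hψ).toEquiv).symm
  refine ⟨ψ.range, ?_, hcardE, ?_⟩
  · apply Extra.isExtraspecial_of_ges hges2
    intro htop
    have h1 := hges2.card_center
    rw [htop, Subgroup.card_top, hcardE] at h1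
    have h2 : 1 + 2 * n = 1 := Nat.pow_right_injective hpp.two_le (by simpa using h1)
    omega
  · rintro _ ⟨x, rfl⟩
    rw [← map_pow, pow_formula]
    have h1 : ((p.choose 2 : ℕ) : ZMod p) = 0 := by
      rw [ZMod.natCast_eq_zero_iff]
      apply hpp.dvd_choose_self (by norm_num)
      exact lt_of_le_of_ne hpp.two_le (Ne.symm hp)
    have h2 : ((p : ℕ) : ZMod p) = 0 := by simp
    rw [h1, h2]
    simp only [zero_smul, zero_mul, add_zero]
    exact map_one ψ

end Cfsg.Agent.S3799
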