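import Cfsg.Statements.S3979
import Cfsg.Agent.SchurMult.Basic

set_option autoImplicit false
open Cfsg

namespace Cfsg.Agent.S3979

/-- A finite cyclic group has trivial Schur multiplier: every finite stem extension of it is an isomorphism, said through `HasCyclicSchurMultiplier G 1`. -/
theorem result {G : Type*} [Group G] [Finite G] [IsCyclic G] : Cfsg.HasCyclicSchurMultiplier G 1 := by
  rw [Cfsg.Agent.SchurMult.hasCyclicSchurMultiplier_one_iff]
  intro Γ _ _ σ hσ
  obtain ⟨hs, hc, hcomm⟩ := hσ
  have hcyc : IsCyclic (Γ ⧸ σ.ker) :=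
    isCyclic_of_surjective (QuotientGroup.quotientKerEquivOfSurjective σ hs).symm
      (QuotientGroup.quotientKerEquivOfSurjective σ hs).symm.surjective
  have hcom : ∀ a b : Γ, a * b = b * a := by
    intro a b
    exact commutative_of_cyclic_center_quotient (QuotientGroup.mk' σ.ker) (by simpa using hc) a b
  rw [eq_bot_iff]
  refine hcomm.trans ?_
  rw [commutator_def, Subgroup.commutator_le]
  intro a _ b _
  rw [Subgroup.mem_bot, commutatorElement_eq_one_iff_mul_comm]
  exact hcom a b

end Cfsg.Agent.S3979
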