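import Cfsg.Statements.S3950
import Mathlib
import Cfsg.Agent.SchurMult.Tools
import Cfsg.Agent.S3979

set_option autoImplicit false
open Cfsg

namespace Cfsg.Agent.S3950

open Cfsg.Agent.SchurMult Subgroup
open scoped commutatorElement

/-- The bimultiplicative map `(x, y) ↦ x i * y j` modulo `d`. -/
def bilPi {ι : Type} (n : ι → ℕ) (i j : ι) (d : ℕ) (hi : d ∣ n i) (hj : d ∣ n j) :
    ((k : ι) → Multiplicative (ZMod (n k))) →* ((k : ι) → Multiplicative (ZMod (n k))) →*
    Multiplicative (ZMod d) :=
  MonoidHom.mk'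
    (fun g => MonoidHom.mk' (fun h => Multiplicative.ofAdd
      (ZMod.castHom hi (ZMod d) (Multiplicative.toAdd (g i)) * ZMod.castHom hj (ZMod d) (Multiplicative.toAdd (h j)))) (by
        intro a b
        simp only [Pi.mul_apply, toAdd_mul, map_add, mul_add, ofAdd_add]))
    (by
      intro a b
      refine MonoidHom.ext fun h => ?_
      simp only [MonoidHom.mk'_apply, MonoidHom.mul_apply, Pi.mul_apply, toAdd_mul, map_add, add_mul, ofAdd_add])

theorem bilPi_apply {ι : Type} (n : ι → ℕ) (i j : ι) (d : ℕ) (hi : d ∣ n i) (hj : d ∣ n j)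
    (g h : (k : ι) → Multiplicative (ZMod (n k))) :
    bilPi n i j d hi hj g h = Multiplicative.ofAdd
      (ZMod.castHom hi (ZMod d) (Multiplicative.toAdd (g i)) * ZMod.castHom hj (ZMod d) (Multiplicative.toAdd (h j))) :=
  rfl

/-- Two non-coprime cyclic factors give a non-trivial stem extension. -/
theorem coprime_of_trivial {ι : Type} [Fintype ι] [DecidableEq ι] (n : ι → ℕ) (hn : ∀ i, 1 < n i)
    (h : HasCyclicSchurMultiplier ((k : ι) → Multiplicative (ZMod (n k))) 1) (i j : ι) (hij : i ≠ j) :
    Nat.Coprime (n i) (n j) := by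
  have : ∀ k, NeZero (n k) := fun k => ⟨by have := hn k; omega⟩
  have hfin : ∀ k, Finite (Multiplicative (ZMod (n k))) := fun k => inferInstanceAs (Finite (ZMod (n k)))
  set d := Nat.gcd (n i) (n j) with hd
  have hdi : d ∣ n i := Nat.gcd_dvd_left _ _
  have hdj : d ∣ n j := Nat.gcd_dvd_right _ _
  have hd0 : NeZero d := ⟨by
    intro h0
    have := Nat.eq_zero_of_gcd_eq_zero_left (hd ▸ h0)
    have := hn i
    omega⟩
  have hfd : Finite (Multiplicative (ZMod d)) := inferInstanceAs (Finite (ZMod d))
  have hstem : IsStemExtension (BilExt.proj (bilPi n i j d hdi hdj)) := by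
    apply BilExt.isStemExtension_proj
    rw [eq_top_iff]
    intro a _
    have h1 : Multiplicative.ofAdd (1 : ZMod d) ∈ Subgroup.closure {a : Multiplicative (ZMod d) |
        ∃ g h : (k : ι) → Multiplicative (ZMod (n k)), g * h = h * g ∧
          a = bilPi n i j d hdi hdj g h * (bilPi n i j d hdi hdj h g)⁻¹} := by
      apply Subgroup.subset_closure
      refine ⟨Pi.mulSingle i (Multiplicative.ofAdd 1), Pi.mulSingle j (Multiplicative.ofAdd 1), mul_comm _ _, ?_⟩
      rw [bilPi_apply, bilPi_apply]
      have h1 : ZMod.castHom hdi (ZMod d) 1 = 1 := map_one _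
      have h0 : ZMod.castHom hdi (ZMod d) 0 = 0 := map_zero _
      have h1' : ZMod.castHom hdj (ZMod d) 1 = 1 := map_one _
      have h0' : ZMod.castHom hdj (ZMod d) 0 = 0 := map_zero _
      simp only [Pi.mulSingle_eq_same, Pi.mulSingle_eq_of_ne hij, Pi.mulSingle_eq_of_ne hij.symm, toAdd_ofAdd,
        toAdd_one, h1, h0, h1', h0', mul_zero, mul_one, ofAdd_zero, inv_one]
    have h2 : a = (Multiplicative.ofAdd (1 : ZMod d)) ^ (Multiplicative.toAdd a).val := by
      rw [← ofAdd_nsmul]
      simp
    rw [h2]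
    exact Subgroup.pow_mem _ h1 _
  have hker := (hasCyclicSchurMultiplier_one_iff.mp h)
  have hb := ker_inf_commutator_eq_bot h (BilExt.proj (bilPi n i j d hdi hdj)) hstem.1 hstem.2.1
  rw [inf_eq_left.mpr hstem.2.2] at hb
  have hc : Nat.card (BilExt.proj (bilPi n i j d hdi hdj)).ker = d := by
    rw [← Nat.card_congr (BilExt.kerEquiv (bilPi n i j d hdi hdj)).toEquiv, Nat.card_congr Multiplicative.toAdd,
      Nat.card_zmod]
  rw [hb, Subgroup.card_bot] at hc
  exact hc.symm

theorem isCyclic_of_coprime {ι : Type} [Fintype ι] [DecidableEq ι] (n : ι → ℕ) (hn : ∀ i, 1 < n i)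
    (h : ∀ i j, i ≠ j → Nat.Coprime (n i) (n j)) : IsCyclic ((k : ι) → Multiplicative (ZMod (n k))) := by
  have : ∀ k, NeZero (n k) := fun k => ⟨by have := hn k; omega⟩
  have hfin : ∀ k, Finite (Multiplicative (ZMod (n k))) := fun k => inferInstanceAs (Finite (ZMod (n k)))
  have hcard : ∀ k, Nat.card (Multiplicative (ZMod (n k))) = n k := fun k => by
    rw [Nat.card_congr Multiplicative.toAdd, Nat.card_zmod]
  apply IsCyclic.of_exponent_eq_card
  rw [Monoid.exponent_pi, Nat.card_pi]
  have he : ∀ k, Monoid.exponent (Multiplicative (ZMod (n k))) = n k := by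
    intro k
    rw [IsCyclic.exponent_eq_card, hcard]
  simp only [he, hcard]
  apply Finset.lcm_eq_prod
  intro i _ j _ hij
  exact h i j hij

/-- A finite abelian group has trivial Schur multiplier if and only if it is cyclic. -/
theorem result {G : Type*} [CommGroup G] [Finite G] : Cfsg.HasCyclicSchurMultiplier G 1 ↔ IsCyclic G := by
  constructor
  · intro h
    classical
    obtain ⟨ι, hι, n, hn, ⟨e⟩⟩ := CommGroup.equiv_prod_multiplicative_zmod_of_finite G
    have h1 : HasCyclicSchurMultiplier ((k : ι) → Multiplicative (ZMod (n k))) 1 :=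
      hasSchurMultiplier_of_equiv e h
    have h2 : IsCyclic ((k : ι) → Multiplicative (ZMod (n k))) :=
      isCyclic_of_coprime n hn (fun i j hij => coprime_of_trivial n hn h1 i j hij)
    exact isCyclic_of_surjective e.symm e.symm.surjective
  · intro h
    exact Cfsg.Agent.S3979.result

end Cfsg.Agent.S3950
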