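import Cfsg.Statements.S3951
import Mathlib
import Cfsg.Agent.SchurMult.Tools

set_option autoImplicit false
open Cfsg

namespace Cfsg.Agent.S3951

open Cfsg.Agent.SchurMult Subgroup
open scoped commutatorElement

/-- The bimultiplicative map `((x, y), (x', y')) ↦ x y'`. -/
def bil (m n : ℕ) (hnm : n ∣ m) : Multiplicative (ZMod m × ZMod n) →* Multiplicative (ZMod m × ZMod n) →*
    Multiplicative (ZMod n) :=
  MonoidHom.mk'
    (fun g => MonoidHom.mk' (fun h => Multiplicative.ofAdd
      (ZMod.castHom hnm (ZMod n) (Multiplicative.toAdd g).1 * (Multiplicative.toAdd h).2)) (by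
        intro a b
        rw [← ofAdd_add, ← mul_add]; rfl))
    (by
      intro a b
      refine MonoidHom.ext fun h => ?_
      simp only [MonoidHom.mk'_apply, MonoidHom.mul_apply, toAdd_mul, Prod.fst_add, map_add, add_mul, ofAdd_add])

theorem bil_apply (m n : ℕ) (hnm : n ∣ m) (a b : ZMod m × ZMod n) :
    bil m n hnm (Multiplicative.ofAdd a) (Multiplicative.ofAdd b)
      = Multiplicative.ofAdd (ZMod.castHom hnm (ZMod n) a.1 * b.2) := rfl

/-- For positive integers `m` and `n` with `n` dividing `m`, the Schur multiplier of the abelian group `ZMod m × ZMod n` (written multiplicatively) is cyclic of order `n`. In particular the elementary abelian group of order `p ^ 2` has multiplier of order `p`. -/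
theorem result (m n : ℕ) [NeZero m] [NeZero n] (hnm : n ∣ m) : Cfsg.HasCyclicSchurMultiplier (Multiplicative (ZMod m × ZMod n)) n := by
  apply hasSchurMultiplier_of_card_le
  · refine ⟨BilExt (bil m n hnm), inferInstance, ?_, BilExt.proj _, ?_, ⟨(BilExt.kerEquiv _).symm⟩⟩
    · have : Finite (Multiplicative (ZMod m × ZMod n)) := inferInstanceAs (Finite (ZMod m × ZMod n))
      infer_instance
    · apply BilExt.isStemExtension_proj
      rw [eq_top_iff]
      intro a _
      have h1 : Multiplicative.ofAdd (1 : ZMod n) ∈ Subgroup.closure {a : Multiplicative (ZMod n) |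
          ∃ g h : Multiplicative (ZMod m × ZMod n), g * h = h * g ∧
            a = bil m n hnm g h * (bil m n hnm h g)⁻¹} := by
        apply Subgroup.subset_closure
        refine ⟨Multiplicative.ofAdd (1, 0), Multiplicative.ofAdd (0, 1), mul_comm _ _, ?_⟩
        rw [bil_apply, bil_apply]
        have h1 : ZMod.castHom hnm (ZMod n) 1 = 1 := map_one _
        have h0 : ZMod.castHom hnm (ZMod n) 0 = 0 := map_zero _
        simp only [h1, h0, mul_zero, mul_one, ofAdd_zero, inv_one]
      have h2 : a = (Multiplicative.ofAdd (1 : ZMod n)) ^ (Multiplicative.toAdd a).val := by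
        rw [← ofAdd_nsmul]
        simp
      rw [h2]
      exact Subgroup.pow_mem _ h1 _
  · intro Γ _ _ σ hσ
    obtain ⟨hs, hc, hcomm⟩ := hσ
    obtain ⟨x, hx⟩ := hs (Multiplicative.ofAdd ((1, 0) : ZMod m × ZMod n))
    obtain ⟨y, hy⟩ := hs (Multiplicative.ofAdd ((0, 1) : ZMod m × ZMod n))
    have hk : ∀ a b : Γ, ⁅a, b⁆ ∈ σ.ker := by
      intro a b
      rw [MonoidHom.mem_ker, map_commutatorElement, commutatorElement_eq_one_iff_mul_comm]
      exact mul_comm _ _
    have hgen : Subgroup.closure (σ '' {x, y}) = ⊤ := by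
      rw [eq_top_iff]
      intro q _
      have h1 : q = (σ x) ^ (Multiplicative.toAdd q).1.val * (σ y) ^ (Multiplicative.toAdd q).2.val := by
        rw [hx, hy, ← ofAdd_nsmul, ← ofAdd_nsmul, ← ofAdd_add]
        simp
      rw [h1]
      exact mul_mem (Subgroup.pow_mem _ (Subgroup.subset_closure (Set.mem_image_of_mem σ (by simp))) _)
        (Subgroup.pow_mem _ (Subgroup.subset_closure (Set.mem_image_of_mem σ (by simp))) _)
    have hnorm : (zpowers ⁅x, y⁆).Normal := ⟨fun a ha g => by
      have h1 : zpowers ⁅x, y⁆ ≤ center Γ := by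
        rw [Subgroup.zpowers_le]; exact hc (hk x y)
      rw [Subgroup.mem_center_iff.mp (h1 ha) g]
      simpa using ha⟩
    have h2 : commutator Γ ≤ zpowers ⁅x, y⁆ := by
      apply commutator_le_of_generators _ {x, y} (closure_union_center σ hc _ hgen)
      intro s hs' t ht
      rcases hs' with rfl | rfl <;> rcases ht with rfl | rfl
      · simp
      · exact Subgroup.mem_zpowers _
      · rw [← commutatorElement_inv t s]
        exact Subgroup.inv_mem _ (Subgroup.mem_zpowers _)
      · simp
    have h3 : ⁅x, y⁆ ^ n = 1 := by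
      rw [← commutator_pow_right_of_central x y (hc (hk x y)) n, commutatorElement_eq_one_iff_mul_comm]
      have h4 : y ^ n ∈ σ.ker := by
        rw [MonoidHom.mem_ker, map_pow, hy, ← ofAdd_nsmul]
        simp
      exact Subgroup.mem_center_iff.mp (hc h4) x
    have h5 : Nat.card σ.ker ≤ Nat.card (zpowers ⁅x, y⁆) :=
      Subgroup.card_le_of_le (hcomm.trans h2)
    rw [Nat.card_zpowers] at h5
    have h6 : Nat.card (Multiplicative (ZMod n)) = n := by
      rw [Nat.card_congr Multiplicative.toAdd, Nat.card_zmod]
    rw [h6]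
    exact h5.trans (orderOf_le_of_pow_eq_one (Nat.pos_of_ne_zero (NeZero.ne n)) h3)

end Cfsg.Agent.S3951
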