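import Cfsg.Statements.S3952
import Cfsg.Agent.SchurMult.ExpSq

set_option autoImplicit false
open Cfsg

namespace Cfsg.Agent.S3952

/-- If `A` is the Schur multiplier of the finite group `Q`, then the square of the exponent of `A` divides the order of `Q`. -/
theorem result {Q : Type*} [Group Q] [Finite Q] {A : Type*} [CommGroup A] (hA : Cfsg.HasSchurMultiplier Q A) : Monoid.exponent A ^ 2 ∣ Nat.card Q := by
  obtain ⟨⟨Γ, hΓ, hΓf, σ, hσ, ⟨e⟩⟩, _⟩ := hA
  have hAf : Finite A := Finite.of_equiv _ e.toEquiv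
  have hQcard : Nat.card Q = σ.ker.index := by
    rw [Subgroup.index_ker, MonoidHom.range_eq_top.2 hσ.1, Subgroup.card_top]
  obtain ⟨b, hb⟩ := Monoid.exists_orderOf_eq_exponent (Monoid.ExponentExists.of_finite (G := A))
  obtain ⟨lam, hlam⟩ := Cfsg.Agent.SchurMult.exists_faithful_on b
  have h1 := Cfsg.Agent.SchurMult.sq_order_dvd_index σ.ker hσ.2.1 hσ.2.2 (lam.comp e.toMonoidHom) (e.symm b)
  rw [hQcard, ← hb, ← hlam]
  convert h1 using 3
  simp

end Cfsg.Agent.S3952
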