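import Cfsg.Statements.S3953
import Mathlib
import Cfsg.Agent.SchurMult.Transfer

set_option autoImplicit false
open Cfsg

namespace Cfsg.Agent.S3953

open Cfsg.Agent.SchurMult

/-- Let `P` be a Sylow `p`-subgroup of the finite group `G`, let `A` be the Schur multiplier of `G` and `B` that of `P`. Then the `p`-primary component of `A` is isomorphic to a direct factor of `B`: there are subgroups `C` and `D` of `B` meeting trivially and generating `B`, with `C` isomorphic to the `p`-primary component of `A`. -/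
theorem result {G : Type*} [Group G] [Finite G] (p : ℕ) [Fact p.Prime] (P : Sylow p G) {A B : Type*} [CommGroup A] [CommGroup B] (hA : Cfsg.HasSchurMultiplier G A) (hB : Cfsg.HasSchurMultiplier P B) : ∃ C D : Subgroup B, C ⊓ D = ⊥ ∧ C ⊔ D = ⊤ ∧ Nonempty (CommGroup.primaryComponent A p ≃* C) := by
  obtain ⟨res, cor, h⟩ := exists_res_cor hA (P : Subgroup G) hB
  have hfA := hasSchurMultiplier_finite hA
  have hfB := hasSchurMultiplier_finite hB
  set m := (P : Subgroup G).index with hm
  have hmp : Nat.Coprime m p := by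
    have := P.not_dvd_index
    exact ((Nat.Prime.coprime_iff_not_dvd Fact.out).mpr this).symm
  -- `card A = p ^ k * n` with `p ∤ n`
  obtain ⟨k, n, hpn, hcard⟩ := Nat.exists_eq_pow_mul_and_not_dvd (n := Nat.card A) Nat.card_pos.ne' p
    (Fact.out : p.Prime).ne_one
  have hnp : Nat.Coprime n p := ((Nat.Prime.coprime_iff_not_dvd Fact.out).mpr hpn).symm
  have hmn : Nat.Coprime (m * n) (p ^ k) := Nat.Coprime.pow_right k (Nat.Coprime.mul_left hmp hnp)
  let Ap := CommGroup.primaryComponent A p
  let D : Subgroup B := ((powMonoidHom n).comp cor).ker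
  have hD : ∀ b, b ∈ D ↔ (cor b) ^ n = 1 := fun b => Iff.rfl
  refine ⟨Ap.map res, D, ?_, ?_, ?_⟩
  · rw [eq_bot_iff]
    rintro _ ⟨⟨a, ha, rfl⟩, hd⟩
    have h1 : (cor (res a)) ^ n = 1 := hd
    rw [h, ← pow_mul] at h1
    obtain ⟨j, hj⟩ := (CommGroup.mem_primaryComponent (p := p)).mp ha
    have h2 : orderOf a ∣ 1 := by
      have hc : Nat.Coprime (m * n) (p ^ j) := Nat.Coprime.pow_right j (Nat.Coprime.mul_left hmp hnp)
      rw [← hc]
      exact Nat.dvd_gcd (orderOf_dvd_of_pow_eq_one h1) (orderOf_dvd_of_pow_eq_one hj)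
    rw [orderOf_eq_one_iff.mp (Nat.dvd_one.mp h2), map_one]
    exact Subgroup.mem_bot.mpr rfl
  · rw [eq_top_iff]
    intro b _
    set x := (cor b) ^ n with hx
    have hxp : x ^ p ^ k = 1 := by
      rw [hx, ← pow_mul, mul_comm n, ← hcard, pow_card_eq_one']
    have hxo : orderOf x ∣ p ^ k := orderOf_dvd_of_pow_eq_one hxp
    obtain ⟨t, ht⟩ := exists_pow_eq_self_of_coprime (Nat.Coprime.coprime_dvd_right hxo hmn)
    have hy : (x ^ t) ∈ Ap := (CommGroup.mem_primaryComponent (p := p)).mpr ⟨k, by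
      rw [← pow_mul, mul_comm, pow_mul, hxp, one_pow]⟩
    have hd : (res (x ^ t))⁻¹ * b ∈ D := by
      rw [hD, map_mul, map_inv, h, mul_pow, inv_pow, ← hx, ← pow_mul, ← pow_mul]
      rw [show t * (m * n) = (m * n) * t by ring, pow_mul, ht, inv_mul_cancel]
    have e : b = res (x ^ t) * ((res (x ^ t))⁻¹ * b) := by group
    rw [e]
    exact Subgroup.mul_mem_sup ⟨_, hy, rfl⟩ hd
  · have hinj : Function.Injective (res.comp Ap.subtype) := by
      rw [injective_iff_map_eq_one]
      rintro ⟨a, ha⟩ hra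
      have h1 : res a = 1 := hra
      have h2 : a ^ m = 1 := by rw [← h, h1, map_one]
      obtain ⟨j, hj⟩ := (CommGroup.mem_primaryComponent (p := p)).mp ha
      have h3 : orderOf a ∣ 1 := by
        have hc : Nat.Coprime m (p ^ j) := Nat.Coprime.pow_right j hmp
        rw [← hc]
        exact Nat.dvd_gcd (orderOf_dvd_of_pow_eq_one h2) (orderOf_dvd_of_pow_eq_one hj)
      exact Subtype.ext (orderOf_eq_one_iff.mp (Nat.dvd_one.mp h3))
    have e1 := MonoidHom.ofInjective hinj
    have e2 : (res.comp Ap.subtype).range = Ap.map res := by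
      rw [MonoidHom.range_comp, Subgroup.range_subtype]
    exact ⟨e1.trans (MulEquiv.subgroupCongr e2)⟩

end Cfsg.Agent.S3953
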