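import Cfsg.Statements.S3954
import Mathlib
import Cfsg.Agent.SchurMult.Transfer

set_option autoImplicit false
open Cfsg

namespace Cfsg.Agent.S3954

open Cfsg.Agent.SchurMult

/-- A homomorphic image of a finite commutative group embeds in it. -/
theorem exists_injective_of_surjective {B C : Type*} [CommGroup B] [CommGroup C] [Finite B] (f : B →* C)
    (hf : Function.Surjective f) : ∃ g : C →* B, Function.Injective g := by
  have hC : Finite C := Finite.of_surjective f hf
  have h1 : NeZero (Monoid.exponent B) := ⟨Monoid.exponent_ne_zero_of_finite⟩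
  have h2 : NeZero (Monoid.exponent C) := ⟨Monoid.exponent_ne_zero_of_finite⟩
  obtain ⟨eB⟩ := CommGroup.monoidHom_mulEquiv_of_hasEnoughRootsOfUnity B ℂ
  obtain ⟨eC⟩ := CommGroup.monoidHom_mulEquiv_of_hasEnoughRootsOfUnity C ℂ
  let d : (C →* ℂˣ) →* (B →* ℂˣ) :=
    { toFun := fun χ => χ.comp f
      map_one' := by ext; simp
      map_mul' := fun a b => by ext; simp }
  have hd : Function.Injective d := by
    intro a b hab
    ext c
    obtain ⟨x, rfl⟩ := hf c
    exact congrArg Units.val (DFunLike.congr_fun hab x)
  exact ⟨eB.toMonoidHom.comp (d.comp eC.symm.toMonoidHom), eB.injective.comp (hd.comp eC.symm.injective)⟩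

/-- Let `U` be a subgroup of index `m` in the finite group `G`, let `A` be the Schur multiplier of `G` and `B` that of `U`. Then the subgroup of `m`-th powers of `A` is isomorphic to a subgroup of `B`. -/
theorem result {G : Type*} [Group G] [Finite G] (U : Subgroup G) {A B : Type*} [CommGroup A] [CommGroup B] (hA : Cfsg.HasSchurMultiplier G A) (hB : Cfsg.HasSchurMultiplier U B) : ∃ C : Subgroup B, Nonempty ((powMonoidHom U.index : A →* A).range ≃* C) := by
  obtain ⟨res, cor, h⟩ := exists_res_cor hA U hB
  have hB' := hasSchurMultiplier_finite hB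
  -- the power subgroup is a quotient of `res.range`
  let f : res.range →* (powMonoidHom U.index : A →* A).range :=
    { toFun := fun x => ⟨cor x.1, by
        obtain ⟨y, a, rfl⟩ := x
        exact ⟨a, (h a).symm⟩⟩
      map_one' := by apply Subtype.ext; simp
      map_mul' := fun a b => by apply Subtype.ext; simp }
  have hf : Function.Surjective f := by
    rintro ⟨_, a, rfl⟩
    exact ⟨⟨res a, a, rfl⟩, Subtype.ext (h a)⟩
  obtain ⟨g, hg⟩ := exists_injective_of_surjective f hf
  let g' : (powMonoidHom U.index : A →* A).range →* B := res.range.subtype.comp g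
  have hg' : Function.Injective g' := Subtype.val_injective.comp hg
  exact ⟨g'.range, ⟨MonoidHom.ofInjective hg'⟩⟩

end Cfsg.Agent.S3954
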