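import Cfsg.Statements.S3955
import Mathlib
import Cfsg.Agent.SchurMult.Projective

set_option autoImplicit false
open Cfsg

namespace Cfsg.Agent.S3955

open Cfsg.Agent.SchurMult

/-- Let `Q` be a finite group with Schur multiplier `A`, and let `σ : Γ →* Q` be a finite stem extension whose kernel is isomorphic to `A` (a Schur covering group of `Q`). Then every homomorphism `γ` from `Q` to the quotient of `GL n ℂ` by its centre lifts along `σ`: there is a homomorphism `ρ : Γ →* GL n ℂ` which, followed by the quotient map, equals `γ ∘ σ`. -/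
theorem result {Q : Type*} [Group Q] [Finite Q] {A : Type*} [CommGroup A] (hA : Cfsg.HasSchurMultiplier Q A) {Γ : Type*} [Group Γ] [Finite Γ] (σ : Γ →* Q) (hσ : Cfsg.IsStemExtension σ) (hk : Nonempty (σ.ker ≃* A)) (n : ℕ) (γ : Q →* (GL (Fin n) ℂ ⧸ Subgroup.center (GL (Fin n) ℂ))) : ∃ ρ : Γ →* GL (Fin n) ℂ, (QuotientGroup.mk' (Subgroup.center (GL (Fin n) ℂ))).comp ρ = γ.comp σ := by
  have hQ := hasSchurMultiplier_finite_base hA
  let φ := FreeGroup.lift (id : Q → Q)
  have hφ : Function.Surjective φ := fun q => ⟨FreeGroup.of q, by simp [φ]⟩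
  obtain ⟨hs, hc, hcomm⟩ := hσ
  -- `E₀ → Γ`
  obtain ⟨ψ, hψ⟩ := exists_lift_of_free σ hs φ
  obtain ⟨η, hη1, hη2⟩ := exists_lift_relComm φ σ hc ψ hψ
  have hs' : Function.Surjective (σ.comp η) := by rw [hη2]; exact toBase_surjective φ hφ
  have hηs : Function.Surjective η := surjective_of_stem σ hc hcomm η hs'
  -- `hopf φ → ker σ` is bijective
  have hkermap := ker_inf_commutator_eq_map σ hc η hs'
  rw [inf_eq_left.mpr hcomm, hη2] at hkermap
  let f : hopf φ →* σ.ker :=
    { toFun := fun x => ⟨η x.1, by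
        rw [MonoidHom.mem_ker, ← MonoidHom.comp_apply, hη2]; exact x.2.1⟩
      map_one' := by apply Subtype.ext; simp
      map_mul' := by intro a b; apply Subtype.ext; simp }
  have hfs : Function.Surjective f := by
    rintro ⟨y, hy⟩
    rw [hkermap] at hy
    obtain ⟨x, hx, hxy⟩ := hy
    exact ⟨⟨x, hx⟩, Subtype.ext hxy⟩
  have hfin : Finite (hopf φ) := finite_hopf φ
  have hfb : Function.Bijective f := by
    refine (Nat.bijective_iff_surjective_and_card f).mpr ⟨hfs, ?_⟩
    obtain ⟨e⟩ := hk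
    obtain ⟨e'⟩ := equiv_hopf hA φ hφ
    rw [Nat.card_congr e.toEquiv, Nat.card_congr e'.toEquiv]
  -- `E₀ → GL`
  let mk' := QuotientGroup.mk' (Subgroup.center (GL (Fin n) ℂ))
  obtain ⟨θ, hθ⟩ := exists_lift_of_free mk' (QuotientGroup.mk'_surjective _) (γ.comp φ)
  have hθR : ∀ r ∈ φ.ker, θ r ∈ Subgroup.center (GL (Fin n) ℂ) := by
    intro r hr
    have h1 : mk' (θ r) = 1 := by
      rw [← MonoidHom.comp_apply, hθ, MonoidHom.comp_apply, MonoidHom.mem_ker.mp hr, map_one]
    exact (QuotientGroup.eq_one_iff _).mp h1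
  have hθk : relComm φ ≤ θ.ker := by
    unfold relComm
    rw [Subgroup.commutator_le]
    intro x _ r hr
    rw [MonoidHom.mem_ker, map_commutatorElement, commutatorElement_eq_one_iff_mul_comm]
    exact (Subgroup.mem_center_iff.mp (hθR r hr)) (θ x)
  let θ' : FreeGroup Q ⧸ relComm φ →* GL (Fin n) ℂ := QuotientGroup.lift _ θ hθk
  have hθ' : ∀ x, mk' (θ' x) = γ (toBase φ x) := by
    intro x
    obtain ⟨w, rfl⟩ := QuotientGroup.mk_surjective x
    exact DFunLike.congr_fun hθ w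
  -- the kernel of `η`
  let C := η.ker
  have hCK : C ≤ (toBase φ).ker := by
    intro x hx
    rw [MonoidHom.mem_ker, ← hη2, MonoidHom.comp_apply, MonoidHom.mem_ker.mp hx, map_one]
  have hCh : C ⊓ hopf φ = ⊥ := by
    rw [eq_bot_iff]
    rintro x ⟨hx1, hx2⟩
    have h1 : f ⟨x, hx2⟩ = 1 := Subtype.ext hx1
    have h2 := (injective_iff_map_eq_one f).mp hfb.1 _ h1
    exact Subgroup.mem_bot.mpr (congrArg Subtype.val h2)
  -- scalars of the elements of `C`
  let sc : ℂˣ →* GL (Fin n) ℂ := Matrix.GeneralLinearGroup.scalar (Fin n)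
  have hcen : Subgroup.center (GL (Fin n) ℂ) = sc.range := Matrix.GeneralLinearGroup.center_eq_range_scalar
  have hCcen : ∀ x : C, θ' x ∈ sc.range := by
    intro x
    rw [← hcen]
    have h1 : mk' (θ' x) = 1 := by rw [hθ', MonoidHom.mem_ker.mp (hCK x.2), map_one]
    exact (QuotientGroup.eq_one_iff _).mp h1
  let hcommC : CommGroup C :=
    { (inferInstance : Group C) with
      mul_comm := fun a b => Subtype.ext
        ((Subgroup.mem_center_iff.mp (ker_toBase_le_center φ (hCK b.2))) a.1) }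
  -- the homomorphism on `C` with values in `ℂˣ`
  obtain ⟨χ₀, hχ₀⟩ : ∃ χ₀ : C →* ℂˣ, ∀ x, sc (χ₀ x) = θ' x := by
    rcases Nat.eq_zero_or_pos n with hn | hn
    · subst hn
      refine ⟨1, fun x => ?_⟩
      apply Units.ext
      exact Subsingleton.elim _ _
    · have hinj : Function.Injective sc := by
        have : Nonempty (Fin n) := ⟨⟨0, hn⟩⟩
        intro a b hab
        have h1 : Matrix.scalar (Fin n) (a : ℂ) = Matrix.scalar (Fin n) (b : ℂ) := congrArg Units.val hab
        exact Units.ext (Matrix.scalar_inj.mp h1)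
      let e := MonoidHom.ofInjective hinj
      let θC : C →* sc.range :=
        { toFun := fun x => ⟨θ' x, hCcen x⟩
          map_one' := by apply Subtype.ext; simp
          map_mul' := by intro a b; apply Subtype.ext; simp }
      refine ⟨e.symm.toMonoidHom.comp θC, fun x => ?_⟩
      have h1 := e.apply_symm_apply (θC x)
      exact congrArg Subtype.val h1
  have hinjC : Function.Injective ((toAb φ).comp C.subtype) := by
    rw [injective_iff_map_eq_one]
    intro x hx
    have h1 : x.1 ∈ (toAb φ).ker := hx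
    rw [toAb_ker] at h1
    have h2 : x.1 ∈ C ⊓ hopf φ := ⟨x.2, hCK x.2, h1⟩
    rw [hCh] at h2
    exact Subtype.ext (Subgroup.mem_bot.mp h2)
  obtain ⟨χ, hχ⟩ := exists_extension_units ((toAb φ).comp C.subtype) hinjC χ₀
  let χ' : FreeGroup Q ⧸ relComm φ →* ℂˣ := χ.comp (toAb φ)
  have hχ' : ∀ x : C, sc (χ' x) = θ' x := by
    intro x
    rw [← hχ₀]
    exact congrArg sc (DFunLike.congr_fun hχ x)
  have hsc : ∀ z g, sc z * g = g * sc z := by
    intro z g
    have : sc z ∈ Subgroup.center (GL (Fin n) ℂ) := by rw [hcen]; exact ⟨z, rfl⟩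
    exact ((Subgroup.mem_center_iff.mp this) g).symm
  let ρ₀ : FreeGroup Q ⧸ relComm φ →* GL (Fin n) ℂ :=
    { toFun := fun x => θ' x * sc (χ' x)⁻¹
      map_one' := by simp
      map_mul' := by
        intro a b
        rw [map_mul, map_mul, mul_inv, map_mul]
        rw [mul_assoc (θ' a) (sc (χ' a)⁻¹), ← mul_assoc (sc (χ' a)⁻¹) (θ' b), hsc (χ' a)⁻¹ (θ' b)]
        simp only [mul_assoc] }
  have hρ₀ : ∀ x, mk' (ρ₀ x) = γ (toBase φ x) := by
    intro x
    have h1 : mk' (sc (χ' x)⁻¹) = 1 := by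
      apply (QuotientGroup.eq_one_iff _).mpr
      rw [hcen]; exact ⟨_, rfl⟩
    show mk' (θ' x * sc (χ' x)⁻¹) = _
    rw [map_mul, h1, mul_one, hθ']
  have hρ₀k : η.ker ≤ ρ₀.ker := by
    intro x hx
    show θ' x * sc (χ' x)⁻¹ = 1
    rw [map_inv, hχ' ⟨x, hx⟩, mul_inv_cancel]
  refine ⟨(η.liftOfSurjective hηs) ⟨ρ₀, hρ₀k⟩, ?_⟩
  ext1 y
  obtain ⟨x, rfl⟩ := hηs y
  have e1 : ((η.liftOfSurjective hηs) ⟨ρ₀, hρ₀k⟩) (η x) = ρ₀ x :=
    MonoidHom.liftOfRightInverse_comp_apply _ _ _ _ _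
  show mk' (((η.liftOfSurjective hηs) ⟨ρ₀, hρ₀k⟩) (η x)) = γ (σ (η x))
  rw [e1, hρ₀, ← hη2]; rfl

end Cfsg.Agent.S3955
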