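import Cfsg.Statements.S3956
import Mathlib
import Cfsg.Agent.SchurMult.Projective

set_option autoImplicit false
universe u v
open Cfsg

namespace Cfsg.Agent.S3956

open Cfsg.Agent.SchurMult

/-- Let `σ : Γ →* Q` be a finite stem extension of the finite group `Q` such that every homomorphism from `Q` to the quotient of `GL n ℂ` by its centre, for every `n`, lifts along `σ` to a homomorphism `Γ →* GL n ℂ`. Then `σ` is a Schur covering group of `Q`: for every finite stem extension `τ : Δ →* Q` with `Δ` in the same universe as `Q`, the kernel of `τ` is a homomorphic image of the kernel of `σ`. -/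
theorem result {Q : Type u} [Group Q] [Finite Q] {Γ : Type v} [Group Γ] [Finite Γ] (σ : Γ →* Q) (hσ : Cfsg.IsStemExtension σ) (hlift : ∀ (n : ℕ) (γ : Q →* (GL (Fin n) ℂ ⧸ Subgroup.center (GL (Fin n) ℂ))), ∃ ρ : Γ →* GL (Fin n) ℂ, (QuotientGroup.mk' (Subgroup.center (GL (Fin n) ℂ))).comp ρ = γ.comp σ) (Δ : Type u) [Group Δ] [Finite Δ] (τ : Δ →* Q) (hτ : Cfsg.IsStemExtension τ) : ∃ π : σ.ker →* τ.ker, Function.Surjective π := by
  obtain ⟨hs, hc, hcomm⟩ := hσ
  let φ := FreeGroup.lift (id : Q → Q)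
  have hφ : Function.Surjective φ := fun q => ⟨FreeGroup.of q, by simp [φ]⟩
  -- `E₀ → Γ`
  obtain ⟨ψ, hψ⟩ := exists_lift_of_free σ hs φ
  obtain ⟨η, hη1, hη2⟩ := exists_lift_relComm φ σ hc ψ hψ
  have hs' : Function.Surjective (σ.comp η) := by rw [hη2]; exact toBase_surjective φ hφ
  have hkermap := ker_inf_commutator_eq_map σ hc η hs'
  rw [inf_eq_left.mpr hcomm, hη2] at hkermap
  let f : hopf φ →* σ.ker :=
    { toFun := fun x => ⟨η x.1, by
        rw [MonoidHom.mem_ker, ← MonoidHom.comp_apply, hη2]; exact x.2.1⟩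
      map_one' := by apply Subtype.ext; simp
      map_mul' := by intro a b; apply Subtype.ext; simp }
  have hfs : Function.Surjective f := by
    rintro ⟨y, hy⟩
    rw [hkermap] at hy
    obtain ⟨x, hx, hxy⟩ := hy
    exact ⟨⟨x, hx⟩, Subtype.ext hxy⟩
  -- a Schur cover
  obtain ⟨C, hC, h1, h2⟩ := exists_complement_hopf (φ := φ) (toBase φ).ker le_rfl le_sup_left
  have hn : C.Normal := normal_of_le_ker φ C hC
  have hst := isStemExtension_coverMap hφ C hC h2
  obtain ⟨e⟩ := ker_coverMap C hC h1 h2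
  have hfin : Finite (hopf φ) := finite_hopf φ
  have hfk : Finite (coverMap φ C hC).ker := Finite.of_equiv _ e.symm.toEquiv
  have hf : Finite ((FreeGroup Q ⧸ relComm φ) ⧸ C) := finite_of_finite_ker (coverMap φ C hC)
  have hinj : Function.Injective f := by
    rw [injective_iff_map_eq_one]
    intro m hm
    by_contra hm1
    let Z := (coverMap φ C hC).ker
    let hcommZ : CommGroup Z :=
      { (inferInstance : Group Z) with
        mul_comm := fun a b => Subtype.ext ((Subgroup.mem_center_iff.mp (hst.2.1 b.2)) a) }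
    let m₀ : Z := ⟨QuotientGroup.mk m.1, m.2.1⟩
    have hm₀ : m₀ ≠ 1 := by
      intro h3
      have h4 : (QuotientGroup.mk m.1 : (FreeGroup Q ⧸ relComm φ) ⧸ C) = 1 := congrArg Subtype.val h3
      rw [QuotientGroup.eq_one_iff] at h4
      have h5 : m.1 ∈ C ⊓ hopf φ := ⟨h4, m.2⟩
      rw [h1] at h5
      exact hm1 (Subtype.ext (Subgroup.mem_bot.mp h5))
    have hexp : NeZero (Monoid.exponent Z) := ⟨Monoid.exponent_ne_zero_of_finite⟩
    obtain ⟨χ, hχ⟩ := CommGroup.exists_apply_ne_one_of_hasEnoughRootsOfUnity Z ℂ hm₀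
    obtain ⟨n, β, hn0, hβ⟩ := exists_rep_of_central_character Z hst.2.1 χ
    let mk' := QuotientGroup.mk' (Subgroup.center (GL (Fin n) ℂ))
    have hcen : Subgroup.center (GL (Fin n) ℂ) = (Matrix.GeneralLinearGroup.scalar (Fin n)).range :=
      Matrix.GeneralLinearGroup.center_eq_range_scalar
    have hkk : (coverMap φ C hC).ker ≤ (mk'.comp β).ker := by
      intro z hz
      show mk' (β z) = 1
      apply (QuotientGroup.eq_one_iff _).mpr
      rw [hcen]
      exact ⟨χ ⟨z, hz⟩, (hβ ⟨z, hz⟩).symm⟩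
    let γ := ((coverMap φ C hC).liftOfSurjective hst.1) ⟨mk'.comp β, hkk⟩
    have hγ : ∀ x, γ (coverMap φ C hC x) = mk' (β x) := fun x =>
      MonoidHom.liftOfRightInverse_comp_apply _ _ _ _ _
    obtain ⟨ρ, hρ⟩ := hlift n γ
    have hagree := eq_on_commutator (ρ.comp η) (β.comp (QuotientGroup.mk' C)) (by
      intro x
      apply (QuotientGroup.eq_one_iff _).mp
      have h3 : mk' (ρ (η x)) = γ (toBase φ x) := by
        rw [← hη2]; exact DFunLike.congr_fun hρ (η x)
      have h4 : mk' (β (QuotientGroup.mk x)) = γ (toBase φ x) := (hγ _).symm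
      show mk' ((β (QuotientGroup.mk x))⁻¹ * ρ (η x)) = 1
      rw [map_mul, map_inv, h3, h4, inv_mul_cancel])
    have h5 := hagree m.1 m.2.2
    have h6 : ρ (η m.1) = 1 := by
      have : η m.1 = 1 := congrArg Subtype.val hm
      rw [this, map_one]
    have h7 : β (QuotientGroup.mk m.1) = Matrix.GeneralLinearGroup.scalar (Fin n) (χ m₀) := hβ m₀
    have h8 : Matrix.GeneralLinearGroup.scalar (Fin n) (χ m₀) = 1 := by
      rw [← h7, ← h6]; exact h5.symm
    apply hχ
    have : Nonempty (Fin n) := ⟨⟨0, hn0⟩⟩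
    have h9 : Matrix.scalar (Fin n) ((χ m₀ : ℂˣ) : ℂ) = Matrix.scalar (Fin n) 1 := by
      rw [map_one]; exact congrArg Units.val h8
    exact Units.ext (Matrix.scalar_inj.mp h9)
  have hM := hasSchurMultiplier_hopf hφ
  obtain ⟨q, hq⟩ := exists_surjective_ker hM τ hτ
  exact ⟨q.comp (MulEquiv.ofBijective f ⟨hinj, hfs⟩).symm.toMonoidHom,
    hq.comp (MulEquiv.ofBijective f ⟨hinj, hfs⟩).symm.surjective⟩

end Cfsg.Agent.S3956
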