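import Cfsg.Statements.S3957
import Mathlib
import Cfsg.Agent.SchurMult.Basic

set_option autoImplicit false
universe u v
open Cfsg

namespace Cfsg.Agent.S3957

open Cfsg.Agent.SchurMult Subgroup
open scoped commutatorElement

/-- Let `Q` be a finite group with Schur multiplier `A` and let `τ : Δ →* Q` be a finite stem extension, `Δ` in the universe of `Q`. Then there is a finite stem extension `σ : Γ →* Q` with kernel isomorphic to `A` (a Schur covering group) and a surjective homomorphism `β : Γ →* Δ` with `τ ∘ β = σ`. -/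
theorem result {Q : Type u} [Group Q] [Finite Q] {A : Type v} [CommGroup A] (hA : Cfsg.HasSchurMultiplier Q A) {Δ : Type u} [Group Δ] [Finite Δ] (τ : Δ →* Q) (hτ : Cfsg.IsStemExtension τ) : ∃ (Γ : Type u) (_ : Group Γ) (_ : Finite Γ) (σ : Γ →* Q), Cfsg.IsStemExtension σ ∧ Nonempty (σ.ker ≃* A) ∧ ∃ β : Γ →* Δ, Function.Surjective β ∧ τ.comp β = σ := by
  have hQ : Finite Q := hasSchurMultiplier_finite_base hA
  let φ := FreeGroup.lift (id : Q → Q)
  have hφ : Function.Surjective φ := fun q => ⟨FreeGroup.of q, by simp [φ]⟩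
  obtain ⟨hs, hc, hcomm⟩ := hτ
  obtain ⟨ψ, hψ⟩ := exists_lift_of_free τ hs φ
  obtain ⟨ψ', h1, h2⟩ := exists_lift_relComm φ τ hc ψ hψ
  have hs' : Function.Surjective (τ.comp ψ') := by rw [h2]; exact toBase_surjective φ hφ
  have hψs : Function.Surjective ψ' := surjective_of_stem τ hc hcomm ψ' hs'
  have hNk : ψ'.ker ≤ (toBase φ).ker := by
    intro x hx
    rw [MonoidHom.mem_ker, ← h2, MonoidHom.comp_apply, MonoidHom.mem_ker.mp hx, map_one]
  have hNs : (toBase φ).ker ≤ ψ'.ker ⊔ hopf φ := by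
    intro x hx
    have h3 := ker_inf_commutator_eq_map τ hc ψ' hs'
    rw [inf_eq_left.mpr hcomm] at h3
    have h4 : ψ' x ∈ τ.ker := by
      rw [MonoidHom.mem_ker, ← MonoidHom.comp_apply, h2]; exact hx
    rw [h3, h2] at h4
    obtain ⟨y, hy, hyx⟩ := h4
    have h5 : x * y⁻¹ ∈ ψ'.ker := by
      rw [MonoidHom.mem_ker, map_mul, map_inv, hyx]; simp
    have h6 : x = (x * y⁻¹) * y := by group
    rw [h6]
    exact Subgroup.mul_mem_sup h5 hy
  obtain ⟨C, hCN, hC1, hC2⟩ := exists_complement_hopf ψ'.ker hNk hNs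
  have hn : C.Normal := normal_of_le_ker φ C (hCN.trans hNk)
  have hst := isStemExtension_coverMap hφ C (hCN.trans hNk) hC2
  obtain ⟨e⟩ := ker_coverMap C (hCN.trans hNk) hC1 hC2
  have hfk : Finite (coverMap φ C (hCN.trans hNk)).ker := Finite.of_equiv _ e.symm.toEquiv
  have hf : Finite ((FreeGroup Q ⧸ relComm φ) ⧸ C) := finite_of_finite_ker (coverMap φ C (hCN.trans hNk))
  obtain ⟨e'⟩ := equiv_hopf hA φ hφ
  refine ⟨(FreeGroup Q ⧸ relComm φ) ⧸ C, inferInstance, hf, coverMap φ C (hCN.trans hNk), hst,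
    ⟨e.trans e'.symm⟩, QuotientGroup.lift C ψ' hCN, ?_, ?_⟩
  · intro d
    obtain ⟨x, rfl⟩ := hψs d
    exact ⟨QuotientGroup.mk x, rfl⟩
  · ext x
    exact DFunLike.congr_fun h2 (QuotientGroup.mk (FreeGroup.of x) : FreeGroup Q ⧸ relComm φ)

end Cfsg.Agent.S3957
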