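import Cfsg.Statements.S3960
import Mathlib
import Cfsg.Agent.SchurMult.Basic

set_option autoImplicit false
universe u
open Cfsg

namespace Cfsg.Agent.S3960

open Cfsg.Agent.SchurMult Subgroup
open scoped commutatorElement

/-- Two homomorphisms from a perfect group into a central extension which agree on the base are equal. -/
theorem hom_ext_of_perfect {G X Q : Type*} [Group G] [Group X] [Group Q] (hG : Group.IsPerfect G)
    (ξ : X →* Q) (hξ : ξ.ker ≤ center X) (η₁ η₂ : G →* X) (h : ξ.comp η₁ = ξ.comp η₂) : η₁ = η₂ := by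
  have hk : ∀ g, η₁ g * (η₂ g)⁻¹ ∈ center X := fun g => hξ (by
    rw [MonoidHom.mem_ker, map_mul, map_inv, ← MonoidHom.comp_apply, ← MonoidHom.comp_apply, h]; simp)
  let f : G →* X :=
    { toFun := fun g => η₁ g * (η₂ g)⁻¹
      map_one' := by simp
      map_mul' := by
        intro a b
        have h1 := Subgroup.mem_center_iff.mp (hk b) (η₂ a)⁻¹
        rw [map_mul, map_mul]
        calc η₁ a * η₁ b * (η₂ a * η₂ b)⁻¹ = η₁ a * ((η₁ b * (η₂ b)⁻¹) * (η₂ a)⁻¹) := by group
          _ = η₁ a * ((η₂ a)⁻¹ * (η₁ b * (η₂ b)⁻¹)) := by rw [h1]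
          _ = _ := by group }
  have hf : commutator G ≤ f.ker := by
    rw [commutator_def, Subgroup.commutator_le]
    intro a _ b _
    rw [MonoidHom.mem_ker, map_commutatorElement, commutatorElement_eq_one_iff_mul_comm]
    exact (Subgroup.mem_center_iff.mp (hk b)) (f a)
  rw [hG.commutator_eq_top] at hf
  ext g
  have h1 : η₁ g * (η₂ g)⁻¹ = 1 := hf (mem_top g)
  exact mul_inv_eq_one.mp h1

/-- A finite perfect group `Q` has a universal central extension: a finite perfect group `G` in the universe of `Q` and a surjective homomorphism `π : G →* Q` with central kernel such that for every group `X` in that universe and every surjective homomorphism `ξ : X →* Q` with central kernel there is exactly one homomorphism `η : G →* X` with `ξ ∘ η = π`. -/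
theorem result {Q : Type u} [Group Q] [Finite Q] (hQ : Group.IsPerfect Q) : ∃ (G : Type u) (_ : Group G) (_ : Finite G) (π : G →* Q), Group.IsPerfect G ∧ Function.Surjective π ∧ π.ker ≤ Subgroup.center G ∧ ∀ (X : Type u) [Group X] (ξ : X →* Q), Function.Surjective ξ → ξ.ker ≤ Subgroup.center X → ∃! η : G →* X, ξ.comp η = π := by
  let φ := FreeGroup.lift (id : Q → Q)
  have hφ : Function.Surjective φ := fun q => ⟨FreeGroup.of q, by simp [φ]⟩
  let E := FreeGroup Q ⧸ relComm φ
  let G : Subgroup E := commutator E
  have hfin : Finite G := finite_commutator_relComm φ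
  -- `E = G K` since `Q` is perfect
  have hGQ : ∀ q : Q, ∃ g ∈ G, toBase φ g = q := by
    intro q
    have hq : q ∈ commutator Q := hQ.mem_commutator
    have h1 : commutator Q ≤ (commutator E).map (toBase φ) := by
      rw [commutator_def, commutator_def, Subgroup.map_commutator]
      rw [← MonoidHom.range_eq_map, MonoidHom.range_eq_top.mpr (toBase_surjective φ hφ)]
    obtain ⟨g, hg, hgq⟩ := h1 hq
    exact ⟨g, hg, hgq⟩
  let π : G →* Q := (toBase φ).comp G.subtype
  have hπ : Function.Surjective π := by
    intro q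
    obtain ⟨g, hg, hgq⟩ := hGQ q
    exact ⟨⟨g, hg⟩, hgq⟩
  have hperf : Group.IsPerfect G := by
    rw [Subgroup.isPerfect_iff]
    apply le_antisymm (Subgroup.commutator_le_right G G)
    have h1 := commutator_le_map_of_central (toBase φ) (ker_toBase_le_center φ) G.subtype hπ
    have h2 : (commutator G).map G.subtype = ⁅G, G⁆ := by
      rw [commutator_def, Subgroup.map_commutator, ← MonoidHom.range_eq_map, Subgroup.range_subtype]
    rw [h2] at h1
    exact h1
  refine ⟨G, inferInstance, hfin, π, hperf, hπ, ?_, ?_⟩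
  · intro x hx
    have hx' : x.1 ∈ (toBase φ).ker := hx
    have := Subgroup.mem_center_iff.mp (ker_toBase_le_center φ hx')
    rw [Subgroup.mem_center_iff]
    intro y
    exact Subtype.ext (this y.1)
  · intro X _ ξ hξ hc
    obtain ⟨ψ, hψ⟩ := exists_lift_of_free ξ hξ φ
    obtain ⟨ψ', h1, h2⟩ := exists_lift_relComm φ ξ hc ψ hψ
    refine ⟨ψ'.comp G.subtype, ?_, ?_⟩
    · show ξ.comp (ψ'.comp G.subtype) = (toBase φ).comp G.subtype
      rw [← MonoidHom.comp_assoc, h2]
    · intro η hη
      apply hom_ext_of_perfect hperf ξ hc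
      show ξ.comp η = _
      rw [hη, ← MonoidHom.comp_assoc, h2]

end Cfsg.Agent.S3960
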