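import Cfsg.Statements.S3962
import Mathlib
-- import your own Cfsg.Agent.* helpers here

set_option autoImplicit false
open Cfsg

namespace Cfsg.Agent.S3962

/-- Let `G` be a perfect group and `π : G →* Q` a surjective homomorphism whose kernel is central. Then `π` maps the centre of `G` onto the centre of `Q`. Taking `π` to be the map to `G ⧸ Z(G)` shows that the central quotient of a perfect group has trivial centre. -/
theorem result {G Q : Type*} [Group G] [Group Q] (hG : Group.IsPerfect G) (π : G →* Q) (hπ : Function.Surjective π) (hker : π.ker ≤ Subgroup.center G) : (Subgroup.center G).map π = Subgroup.center Q := by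
  apply le_antisymm
  · rintro _ ⟨g, hg, rfl⟩
    rw [Subgroup.mem_center_iff]
    intro q
    obtain ⟨x, rfl⟩ := hπ q
    rw [← map_mul, ← map_mul, (Subgroup.mem_center_iff.mp hg) x]
  · intro q hq
    obtain ⟨g, rfl⟩ := hπ q
    refine ⟨g, ?_, rfl⟩
    have hc : ∀ x : G, g * x * g⁻¹ * x⁻¹ ∈ Subgroup.center G := by
      intro x
      apply hker
      rw [MonoidHom.mem_ker]
      have := (Subgroup.mem_center_iff.mp hq) (π x)
      simp only [map_mul, map_inv]
      rw [← this]; group
    let f : G →* Subgroup.center G :=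
      { toFun := fun x => ⟨g * x * g⁻¹ * x⁻¹, hc x⟩
        map_one' := by ext; simp
        map_mul' := by
          intro x y
          ext
          simp only [Subgroup.coe_mul]
          have h1 := (Subgroup.mem_center_iff.mp (hc y)) x
          calc g * (x * y) * g⁻¹ * (x * y)⁻¹ = (g * x * g⁻¹) * (g * y * g⁻¹ * y⁻¹) * x⁻¹ := by group
            _ = (g * x * g⁻¹ * x⁻¹) * (x * (g * y * g⁻¹ * y⁻¹)) * x⁻¹ := by group
            _ = (g * x * g⁻¹ * x⁻¹) * ((g * y * g⁻¹ * y⁻¹) * x) * x⁻¹ := by rw [h1]
            _ = g * x * g⁻¹ * x⁻¹ * (g * y * g⁻¹ * y⁻¹) := by group }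
    have hf : commutator G ≤ f.ker := by
      rw [commutator_def, Subgroup.commutator_le]
      intro a _ b _
      rw [MonoidHom.mem_ker, map_commutatorElement, commutatorElement_eq_one_iff_mul_comm]
      exact ((Subgroup.mem_center_iff.mp (f b).2) (f a) |> fun h => Subtype.ext h)
    rw [hG.commutator_eq_top] at hf
    rw [SetLike.mem_coe, Subgroup.mem_center_iff]
    intro x
    have h2 : f x = 1 := hf (Subgroup.mem_top x)
    have h3 : g * x * g⁻¹ * x⁻¹ = 1 := congrArg Subtype.val h2
    have h4 : g * x = x * g := mul_inv_eq_iff_eq_mul.mp (mul_inv_eq_one.mp h3)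
    exact h4.symm

end Cfsg.Agent.S3962
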