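import Cfsg.Statements.S3961
import Mathlib
import Cfsg.Agent.SchurMult.Basic
import Cfsg.Agent.S3960
import Cfsg.Agent.S3962

set_option autoImplicit false
universe u v
open Cfsg

namespace Cfsg.Agent.S3961

open Cfsg.Agent.SchurMult Subgroup
open scoped commutatorElement

theorem splits_of_trivial {G Q : Type*} [Group G] [Group Q] [Finite G] (hG : Group.IsPerfect G) (π : G →* Q)
    (hm : HasCyclicSchurMultiplier G 1) {X : Type*} [Group X] (ξ : X →* Q)
    (hξ : Function.Surjective ξ) (hc : ξ.ker ≤ center X) : ∃ η : G →* X, ξ.comp η = π := by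
  let P : Subgroup (G × X) := (π.comp (MonoidHom.fst G X)).eqLocus (ξ.comp (MonoidHom.snd G X))
  let p1 : P →* G := (MonoidHom.fst G X).comp P.subtype
  let p2 : P →* X := (MonoidHom.snd G X).comp P.subtype
  have hp : ∀ x : P, π (p1 x) = ξ (p2 x) := fun x => x.2
  have hs : Function.Surjective p1 := by
    intro g
    obtain ⟨x, hx⟩ := hξ (π g)
    exact ⟨⟨(g, x), hx.symm⟩, rfl⟩
  have hk : p1.ker ≤ center P := by
    intro x hx
    have h1 : p1 x = 1 := hx
    have h2 : p2 x ∈ ξ.ker := by rw [MonoidHom.mem_ker, ← hp, h1, map_one]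
    have h3 := Subgroup.mem_center_iff.mp (hc h2)
    rw [Subgroup.mem_center_iff]
    intro y
    apply Subtype.ext
    apply Prod.ext
    · show p1 y * p1 x = p1 x * p1 y
      rw [h1]; simp
    · exact h3 (p2 y)
  have h0 := ker_inf_commutator_eq_bot hm p1 hs hk
  have h1 : (commutator P).map p1 = ⊤ := by
    rw [commutator_def, Subgroup.map_commutator, ← MonoidHom.range_eq_map, MonoidHom.range_eq_top.mpr hs,
      ← commutator_def, hG.commutator_eq_top]
  let q : commutator P →* G := p1.comp (commutator P).subtype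
  have hq : Function.Bijective q := by
    constructor
    · rw [injective_iff_map_eq_one]
      intro x hx
      have : x.1 ∈ p1.ker ⊓ commutator P := ⟨hx, x.2⟩
      rw [h0, Subgroup.mem_bot] at this
      exact Subtype.ext this
    · intro g
      have : g ∈ (commutator P).map p1 := by rw [h1]; exact mem_top g
      obtain ⟨x, hx, hxg⟩ := this
      exact ⟨⟨x, hx⟩, hxg⟩
  let e := MulEquiv.ofBijective q hq
  refine ⟨p2.comp ((commutator P).subtype.comp e.symm.toMonoidHom), ?_⟩
  ext g
  show ξ (p2 (e.symm g).1) = π g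
  rw [← hp]
  congr 1
  exact e.apply_symm_apply g

/-- Let `π : G →* Q` be a surjective homomorphism with central kernel from a finite perfect group `G` (a perfect cover of `Q`). Then `π` is universal, in the sense that every surjective homomorphism `ξ : X →* Q` with central kernel from a group `X` in the universe of `G` admits a homomorphism `η : G →* X` with `ξ ∘ η = π`, if and only if `G` has trivial Schur multiplier. -/
theorem result {G : Type u} {Q : Type v} [Group G] [Group Q] [Finite G] (hG : Group.IsPerfect G) (π : G →* Q) (hπ : Function.Surjective π) (hker : π.ker ≤ Subgroup.center G) : (∀ (X : Type u) [Group X] (ξ : X →* Q), Function.Surjective ξ → ξ.ker ≤ Subgroup.center X → ∃ η : G →* X, ξ.comp η = π) ↔ Cfsg.HasCyclicSchurMultiplier G 1 := by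
  constructor
  · intro h
    rw [hasCyclicSchurMultiplier_one_iff]
    intro Γ _ _ σ hσ
    obtain ⟨hs, hc, hcomm⟩ := hσ
    have hΓ : Group.IsPerfect Γ := by
      constructor
      rw [eq_top_iff]
      intro x _
      have h1 : (commutator Γ).map σ = ⊤ := by
        rw [commutator_def, Subgroup.map_commutator, ← MonoidHom.range_eq_map, MonoidHom.range_eq_top.mpr hs,
          ← commutator_def, hG.commutator_eq_top]
      have h2 : σ x ∈ (commutator Γ).map σ := by rw [h1]; exact mem_top _
      obtain ⟨y, hy, hyx⟩ := h2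
      have h3 : y⁻¹ * x ∈ σ.ker := by
        rw [MonoidHom.mem_ker, map_mul, map_inv, hyx]; simp
      have h4 := (commutator Γ).mul_mem hy (hcomm h3)
      simpa using h4
    have hker2 : (π.comp σ).ker ≤ center Γ := by
      intro x hx
      have h1 : σ x ∈ center G := hker hx
      rw [← Cfsg.Agent.S3962.result hΓ σ hs hc] at h1
      obtain ⟨z, hz, hzx⟩ := h1
      have h3 : z⁻¹ * x ∈ σ.ker := by
        rw [MonoidHom.mem_ker, map_mul, map_inv, hzx]; simp
      have h4 := (center Γ).mul_mem hz (hc h3)
      simpa using h4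
    obtain ⟨η, hη⟩ := h Γ (π.comp σ) (hπ.comp hs) hker2
    have h5 : σ.comp η = MonoidHom.id G :=
      Cfsg.Agent.S3960.hom_ext_of_perfect hG π hker _ _ (by
        rw [← MonoidHom.comp_assoc, hη]; rfl)
    have h6 : η.comp σ = MonoidHom.id Γ :=
      Cfsg.Agent.S3960.hom_ext_of_perfect hΓ (π.comp σ) hker2 _ _ (by
        rw [MonoidHom.comp_assoc, ← MonoidHom.comp_assoc σ η σ, h5]; rfl)
    rw [eq_bot_iff]
    intro x hx
    have h7 : (η.comp σ) x = x := by rw [h6]; rfl
    rw [MonoidHom.comp_apply, MonoidHom.mem_ker.mp hx, map_one] at h7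
    exact Subgroup.mem_bot.mpr h7.symm
  · intro hm X _ ξ hξ hc
    exact splits_of_trivial hG π hm ξ hξ hc

end Cfsg.Agent.S3961
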