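import Cfsg.Statements.S3963
import Mathlib
import Cfsg.Agent.SchurMult.Dihedral

set_option autoImplicit false
open Cfsg

namespace Cfsg.Agent.S3963

open Cfsg.Agent.SchurMult Subgroup
open scoped commutatorElement

/-- For every `n ≥ 1` the dicyclic (generalized quaternion) group of order `4 n` has trivial Schur multiplier. -/
theorem result (n : ℕ) [NeZero n] : Cfsg.HasCyclicSchurMultiplier (QuaternionGroup n) 1 := by
  rw [hasCyclicSchurMultiplier_one_iff]
  intro Γ _ _ σ hσ
  obtain ⟨hs, hc, hcomm⟩ := hσ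
  obtain ⟨r, hr⟩ := hs (QuaternionGroup.a 1)
  obtain ⟨s, hs'⟩ := hs (QuaternionGroup.xa 0)
  have h : σ s * σ r * (σ s)⁻¹ = (σ r)⁻¹ := by
    rw [hr, hs']
    have e1 : (QuaternionGroup.a 1 : QuaternionGroup n)⁻¹ = QuaternionGroup.a (-1) := rfl
    have e2 : (QuaternionGroup.xa 0 : QuaternionGroup n)⁻¹ = QuaternionGroup.xa ((n : ZMod (2 * n)) + 0) := rfl
    rw [e1, e2, QuaternionGroup.xa_mul_a, QuaternionGroup.xa_mul_xa]
    congr 1
    have h3 : (((2 * n : ℕ)) : ZMod (2 * n)) = 0 := ZMod.natCast_self _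
    push_cast at h3
    linear_combination h3
  have hgen : Subgroup.closure {σ r, σ s} = ⊤ := by
    rw [hr, hs', eq_top_iff]
    have ha : ∀ i : ZMod (2 * n), (QuaternionGroup.a i : QuaternionGroup n) ∈
        Subgroup.closure {(QuaternionGroup.a 1 : QuaternionGroup n), QuaternionGroup.xa 0} := by
      intro i
      have : (QuaternionGroup.a i : QuaternionGroup n) = (QuaternionGroup.a 1) ^ i.val := by
        rw [QuaternionGroup.a_one_pow, ZMod.natCast_zmod_val]
      rw [this]
      exact Subgroup.pow_mem _ (Subgroup.subset_closure (by simp)) _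
    rintro (i | i) -
    · exact ha i
    · have : (QuaternionGroup.xa i : QuaternionGroup n) = QuaternionGroup.xa 0 * QuaternionGroup.a i := by
        rw [QuaternionGroup.xa_mul_a, zero_add]
      rw [this]
      exact mul_mem (Subgroup.subset_closure (by simp)) (ha i)
  have hcommute : s * r ^ n = r ^ n * s := by
    have h1 : (s ^ 2)⁻¹ * r ^ n ∈ σ.ker := by
      rw [MonoidHom.mem_ker, map_mul, map_inv, map_pow, map_pow, hr, hs', QuaternionGroup.xa_sq,
        QuaternionGroup.a_one_pow, inv_mul_cancel]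
    have h2 := Subgroup.mem_center_iff.mp (hc h1) s
    have h3 : r ^ n = s ^ 2 * ((s ^ 2)⁻¹ * r ^ n) := by group
    calc s * r ^ n = s * (s ^ 2 * ((s ^ 2)⁻¹ * r ^ n)) := by rw [← h3]
      _ = s ^ 2 * (s * ((s ^ 2)⁻¹ * r ^ n)) := by rw [pow_two]; simp only [mul_assoc]
      _ = s ^ 2 * (((s ^ 2)⁻¹ * r ^ n) * s) := by rw [h2]
      _ = r ^ n * s := by rw [← mul_assoc, ← h3]
  have hcn := commutator_pow_of_inverts σ hc r s h n hcommute
  rw [eq_bot_iff]
  intro x hx
  obtain ⟨j, hj, hdvd⟩ := mem_ker_of_inverts σ hc hcomm r s h hgen x hx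
  rw [hr, QuaternionGroup.orderOf_a_one] at hdvd
  have hdvd' : (n : ℤ) ∣ j := by
    push_cast at hdvd
    exact Int.dvd_of_mul_dvd_mul_left (by norm_num) hdvd
  obtain ⟨t, rfl⟩ := hdvd'
  rw [Subgroup.mem_bot, hj, zpow_mul, zpow_natCast, hcn, one_zpow]

end Cfsg.Agent.S3963
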