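import Cfsg.Statements.S3964
import Mathlib
import Cfsg.Agent.SchurMult.Dihedral

set_option autoImplicit false
open Cfsg

namespace Cfsg.Agent.S3964

open Cfsg.Agent.SchurMult Subgroup
open scoped commutatorElement

/-- Facts on stem extensions of dihedral groups. -/
theorem stem_dihedral (n : ℕ) [NeZero n] {Γ : Type*} [Group Γ] (σ : Γ →* DihedralGroup n) (hσ : IsStemExtension σ) :
    ∃ c : Γ, c ^ n = 1 ∧ ∀ x ∈ σ.ker, ∃ j : ℤ, x = c ^ j ∧ (n : ℤ) ∣ 2 * j := by
  obtain ⟨hs, hc, hcomm⟩ := hσ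
  obtain ⟨r, hr⟩ := hs (DihedralGroup.r 1)
  obtain ⟨s, hs'⟩ := hs (DihedralGroup.sr 0)
  have h : σ s * σ r * (σ s)⁻¹ = (σ r)⁻¹ := by
    rw [hr, hs', DihedralGroup.inv_r, DihedralGroup.inv_sr, DihedralGroup.sr_mul_r, DihedralGroup.sr_mul_sr]
    congr 1
    ring
  have hgen : Subgroup.closure {σ r, σ s} = ⊤ := by
    rw [hr, hs', eq_top_iff]
    have ha : ∀ i : ZMod n, (DihedralGroup.r i : DihedralGroup n) ∈
        Subgroup.closure {(DihedralGroup.r 1 : DihedralGroup n), DihedralGroup.sr 0} := by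
      intro i
      have : (DihedralGroup.r i : DihedralGroup n) = (DihedralGroup.r 1) ^ i.val := by
        rw [DihedralGroup.r_one_pow, ZMod.natCast_zmod_val]
      rw [this]
      exact Subgroup.pow_mem _ (Subgroup.subset_closure (by simp)) _
    rintro (i | i) -
    · exact ha i
    · have : (DihedralGroup.sr i : DihedralGroup n) = DihedralGroup.sr 0 * DihedralGroup.r i := by
        rw [DihedralGroup.sr_mul_r, zero_add]
      rw [this]
      exact mul_mem (Subgroup.subset_closure (by simp)) (ha i)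
  have hcommute : s * r ^ n = r ^ n * s := by
    have h1 : r ^ n ∈ σ.ker := by
      rw [MonoidHom.mem_ker, map_pow, hr, DihedralGroup.r_one_pow_n]
    exact Subgroup.mem_center_iff.mp (hc h1) s
  have hcn := commutator_pow_of_inverts σ hc r s h n hcommute
  refine ⟨⁅s, r⁆, hcn, ?_⟩
  intro x hx
  obtain ⟨j, hj, hdvd⟩ := mem_ker_of_inverts σ hc hcomm r s h hgen x hx
  rw [hr, DihedralGroup.orderOf_r_one] at hdvd
  exact ⟨j, hj, hdvd⟩

/-- For odd `n` the dihedral group of order `2 n` has trivial Schur multiplier. -/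
theorem result (n : ℕ) (hn : Odd n) : Cfsg.HasCyclicSchurMultiplier (DihedralGroup n) 1 := by
  have hn0 : NeZero n := ⟨by rintro rfl; exact absurd hn (by decide)⟩
  rw [hasCyclicSchurMultiplier_one_iff]
  intro Γ _ _ σ hσ
  obtain ⟨c, hcn, hk⟩ := stem_dihedral n σ hσ
  rw [eq_bot_iff]
  intro x hx
  obtain ⟨j, hj, hdvd⟩ := hk x hx
  have hdvd' : (n : ℤ) ∣ j := by
    have h2 : IsCoprime (n : ℤ) 2 := by
      rw [Int.isCoprime_iff_gcd_eq_one]
      exact (Nat.coprime_two_right.mpr hn)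
    exact h2.dvd_of_dvd_mul_left hdvd
  obtain ⟨t, rfl⟩ := hdvd'
  rw [Subgroup.mem_bot, hj, zpow_mul, zpow_natCast, hcn, one_zpow]

end Cfsg.Agent.S3964
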