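import Cfsg.Statements.S3966
import Mathlib

set_option autoImplicit false
open Cfsg

namespace Cfsg.Agent.S3966

open scoped commutatorElement

/-- The map from the dicyclic to the dihedral group. -/
def toDih (n : ℕ) : QuaternionGroup n →* DihedralGroup n where
  toFun
    | .a i => .r (ZMod.castHom (Dvd.intro_left 2 rfl) (ZMod n) i)
    | .xa i => .sr (ZMod.castHom (Dvd.intro_left 2 rfl) (ZMod n) i)
  map_one' := by
    show DihedralGroup.r (ZMod.castHom (Dvd.intro_left 2 rfl) (ZMod n) 0) = 1
    rw [map_zero]; rfl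
  map_mul' := by
    have hn : ZMod.castHom (Dvd.intro_left 2 rfl) (ZMod n) ((n : ℕ) : ZMod (2 * n)) = 0 := by
      rw [map_natCast]; simp
    rintro (i | i) (j | j)
    · rw [QuaternionGroup.a_mul_a]
      simp only [DihedralGroup.r_mul_r, map_add]
    · rw [QuaternionGroup.a_mul_xa]
      simp only [DihedralGroup.r_mul_sr, map_sub]
    · rw [QuaternionGroup.xa_mul_a]
      simp only [DihedralGroup.sr_mul_r, map_add]
    · rw [QuaternionGroup.xa_mul_xa]
      simp only [DihedralGroup.sr_mul_sr, map_sub, map_add, hn, zero_add]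

theorem toDih_surjective (n : ℕ) : Function.Surjective (toDih n) := by
  have h : Function.Surjective (ZMod.castHom (Dvd.intro_left 2 rfl : n ∣ 2 * n) (ZMod n)) :=
    ZMod.castHom_surjective _
  rintro (i | i)
  · obtain ⟨j, rfl⟩ := h i
    exact ⟨.a j, rfl⟩
  · obtain ⟨j, rfl⟩ := h i
    exact ⟨.xa j, rfl⟩

theorem mem_ker_toDih (n : ℕ) [NeZero n] (x : QuaternionGroup n) (hx : x ∈ (toDih n).ker) :
    ∃ k : ℕ, x = .a ((n : ZMod (2 * n)) * k) := by
  rcases x with i | i
  · have h : DihedralGroup.r (ZMod.castHom (Dvd.intro_left 2 rfl) (ZMod n) i) = DihedralGroup.r 0 := hx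
    rw [DihedralGroup.r.injEq] at h
    obtain ⟨m, rfl⟩ := ZMod.natCast_zmod_surjective i
    rw [map_natCast, ZMod.natCast_eq_zero_iff] at h
    obtain ⟨k, rfl⟩ := h
    exact ⟨k, by push_cast; rfl⟩
  · exact absurd hx (by
      intro h
      have : DihedralGroup.sr (ZMod.castHom (Dvd.intro_left 2 rfl) (ZMod n) i) = DihedralGroup.r 0 := h
      nomatch this)

theorem two_n_eq_zero (n : ℕ) : ((2 : ZMod (2 * n)) * (n : ZMod (2 * n))) = 0 := by
  have : (((2 * n : ℕ)) : ZMod (2 * n)) = 0 := ZMod.natCast_self _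
  push_cast at this
  exact this

/-- For even `n ≥ 2` the dicyclic group of order `4 n` is a stem extension of the dihedral group of order `2 n` with kernel of order `2`: there is a surjective homomorphism `QuaternionGroup n →* DihedralGroup n` whose kernel is central, lies in the commutator subgroup and has two elements. Together with the order of the multiplier this exhibits the dicyclic group as a Schur covering group of the dihedral group. -/
theorem result (n : ℕ) [NeZero n] (hn : Even n) : ∃ σ : QuaternionGroup n →* DihedralGroup n, Cfsg.IsStemExtension σ ∧ Nat.card σ.ker = 2 := by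
  refine ⟨toDih n, ⟨toDih_surjective n, ?_, ?_⟩, ?_⟩
  · intro x hx
    obtain ⟨k, rfl⟩ := mem_ker_toDih n x hx
    have h2 : (n : ZMod (2 * n)) * k = - ((n : ZMod (2 * n)) * k) := by
      rw [eq_neg_iff_add_eq_zero, ← two_mul, ← mul_assoc, two_n_eq_zero, zero_mul]
    rw [Subgroup.mem_center_iff]
    rintro (j | j)
    · rw [QuaternionGroup.a_mul_a, QuaternionGroup.a_mul_a, add_comm]
    · rw [QuaternionGroup.a_mul_xa, QuaternionGroup.xa_mul_a, sub_eq_add_neg, ← h2]
  · intro x hx
    obtain ⟨k, rfl⟩ := mem_ker_toDih n x hx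
    obtain ⟨m, hm⟩ := hn
    have h1 : (QuaternionGroup.a ((n : ZMod (2 * n)) * k) : QuaternionGroup n)
        = ⁅(QuaternionGroup.a ((m * k : ℕ) : ZMod (2 * n)) : QuaternionGroup n), QuaternionGroup.xa 0⁆ := by
      rw [commutatorElement_def]
      have e1 : (QuaternionGroup.a ((m * k : ℕ) : ZMod (2 * n)) : QuaternionGroup n)⁻¹
          = QuaternionGroup.a (-((m * k : ℕ) : ZMod (2 * n))) := rfl
      have e2 : (QuaternionGroup.xa 0 : QuaternionGroup n)⁻¹ = QuaternionGroup.xa ((n : ZMod (2 * n)) + 0) := rfl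
      rw [e1, e2, QuaternionGroup.a_mul_xa, QuaternionGroup.xa_mul_a, QuaternionGroup.xa_mul_xa]
      congr 1
      have h3 : (n : ZMod (2 * n)) * k = 2 * ((m * k : ℕ) : ZMod (2 * n)) := by
        have : ((n : ZMod (2 * n))) = ((m + m : ℕ) : ZMod (2 * n)) := by rw [← hm]
        rw [this]; push_cast; ring
      have h4 : (n : ZMod (2 * n)) + n = 0 := by rw [← two_mul]; exact two_n_eq_zero n
      rw [h3]
      linear_combination (-1 : ZMod (2 * n)) * h4
    rw [h1]
    exact Subgroup.commutator_mem_commutator (Subgroup.mem_top _) (Subgroup.mem_top _)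
  · have h1 : (toDih n).ker.index = 2 * n := by
      rw [Subgroup.index_ker, MonoidHom.range_eq_top.mpr (toDih_surjective n), Subgroup.card_top,
        DihedralGroup.nat_card]
    have h2 := (toDih n).ker.card_mul_index
    rw [h1, Nat.card_eq_fintype_card (α := QuaternionGroup n), QuaternionGroup.card] at h2
    have h3 : 0 < n := Nat.pos_of_ne_zero (NeZero.ne n)
    have h4 : Nat.card (toDih n).ker * (2 * n) = 2 * (2 * n) := by rw [h2]; ring
    exact Nat.eq_of_mul_eq_mul_right (by positivity) h4

end Cfsg.Agent.S3966
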