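import Cfsg.Statements.S3965
import Mathlib
import Cfsg.Agent.S3964
import Cfsg.Agent.S3966

set_option autoImplicit false
open Cfsg

namespace Cfsg.Agent.S3965

open Cfsg.Agent.SchurMult Subgroup
open scoped commutatorElement

/-- For even `n ≥ 2` the dihedral group of order `2 n` has Schur multiplier cyclic of order `2`. -/
theorem result (n : ℕ) [NeZero n] (hn : Even n) : Cfsg.HasCyclicSchurMultiplier (DihedralGroup n) 2 := by
  have h2 : Nat.card (Multiplicative (ZMod 2)) = 2 := by
    rw [Nat.card_congr Multiplicative.toAdd, Nat.card_zmod]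
  have hfin : Finite (Multiplicative (ZMod 2)) := Nat.finite_of_card_ne_zero (by rw [h2]; norm_num)
  apply hasSchurMultiplier_of_card_le
  · obtain ⟨σ, hσ, hcard⟩ := Cfsg.Agent.S3966.result n hn
    have : Fact (Nat.Prime 2) := ⟨Nat.prime_two⟩
    have hf : Finite (QuaternionGroup n) := inferInstance
    exact ⟨QuaternionGroup n, inferInstance, hf, σ, hσ, ⟨mulEquivOfPrimeCardEq (p := 2) hcard h2⟩⟩
  · intro Γ _ _ σ hσ
    obtain ⟨c, hcn, hk⟩ := Cfsg.Agent.S3964.stem_dihedral n σ hσ
    obtain ⟨m, hm⟩ := hn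
    have h3 : σ.ker ≤ zpowers (c ^ m) := by
      intro x hx
      obtain ⟨j, hj, hdvd⟩ := hk x hx
      have hdvd' : (m : ℤ) ∣ j := by
        have h4 : ((2 : ℤ) * m) ∣ 2 * j := by
          have : ((n : ℕ) : ℤ) = 2 * m := by rw [hm]; push_cast; ring
          rwa [this] at hdvd
        exact Int.dvd_of_mul_dvd_mul_left (by norm_num) h4
      obtain ⟨t, rfl⟩ := hdvd'
      rw [hj, zpow_mul, zpow_natCast]
      exact Subgroup.zpow_mem _ (Subgroup.mem_zpowers _) _
    rw [h2]
    refine (Subgroup.card_le_of_le h3).trans ?_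
    rw [Nat.card_zpowers]
    refine orderOf_le_of_pow_eq_one (by norm_num) ?_
    rw [← pow_mul, mul_two, ← hm, hcn]

end Cfsg.Agent.S3965
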