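import Cfsg.Statements.S3967
import Cfsg.Agent.H29.MetaC
-- import your own Cfsg.Agent.* helpers here

set_option autoImplicit false
open Cfsg

namespace Cfsg.Agent.S3967

theorem key {d m0 ρ m n r l h g : ℕ} (hm : m = d * m0) (hr : r = d * ρ + 1) (hd : 0 < d) (hm0 : 0 < m0)
    (hn : 0 < n) (hcop : Nat.Coprime ρ m0) (hrn : r ^ n ≡ 1 [MOD m])
    (he : Nat.gcd m (∑ i ∈ Finset.range n, r ^ i) = m0 * h)
    (hg : g = Nat.gcd l h) (hgp : 0 < g) :
    Cfsg.HasCyclicSchurMultiplier (H29.Meta.MG m n r (m0 * l)) g := by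
  subst hm hr
  exact H29.Meta.main hd hm0 hn hcop hrn he hg hgp

/-- Let `m, n ≥ 1`, `r ≥ 1` with `r ^ n ≡ 1 (mod m)`, and `l` a natural number; put `d = gcd(m, r - 1)`, `t = m l / d` and `h = d · gcd(m, 1 + r + ⋯ + r^(n-1)) / m`. The group presented by generators `a, b` and relations `a ^ m = 1`, `b ^ n = a ^ t`, `b a b⁻¹ = a ^ r` (a metacyclic group of order `m n`) has Schur multiplier cyclic of order `gcd(l, h)`. -/
theorem result (m n r l : ℕ) (hm : 0 < m) (hn : 0 < n) (hr : 0 < r) (hrn : r ^ n ≡ 1 [MOD m]) : Cfsg.HasCyclicSchurMultiplier (PresentedGroup ({FreeGroup.of true ^ m, (FreeGroup.of false) ^ n * (FreeGroup.of true ^ (m * l / Nat.gcd m (r - 1)))⁻¹, FreeGroup.of false * FreeGroup.of true * (FreeGroup.of false)⁻¹ * (FreeGroup.of true ^ r)⁻¹} : Set (FreeGroup Bool))) (Nat.gcd l (Nat.gcd m (r - 1) * Nat.gcd m (∑ i ∈ Finset.range n, r ^ i) / m)) := by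
  have hd : 0 < Nat.gcd m (r - 1) := Nat.gcd_pos_of_pos_left _ hm
  obtain ⟨m0, ρ, hcop, hm', hr'⟩ := Nat.exists_coprime m (r - 1)
  have hm1 : m = Nat.gcd m (r - 1) * m0 := by rw [mul_comm]; exact hm'
  have hr1 : r = Nat.gcd m (r - 1) * ρ + 1 := by
    have : r - 1 = Nat.gcd m (r - 1) * ρ := by rw [mul_comm]; exact hr'
    omega
  generalize hdd : Nat.gcd m (r - 1) = d at *
  have hm0 : 0 < m0 := by
    rcases Nat.eq_zero_or_pos m0 with h | h
    · rw [h, mul_zero] at hm1; omega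
    · exact h
  have ht : m * l / d = m0 * l := by
    rw [hm1, mul_assoc, Nat.mul_div_cancel_left _ hd]
  have hS : m0 ∣ ∑ i ∈ Finset.range n, r ^ i := by
    have h1 : (m : ℤ) ∣ ((r : ℤ) - 1) * ∑ i ∈ Finset.range n, (r : ℤ) ^ i := by
      rw [mul_geom_sum]
      have h2 := (Nat.modEq_iff_dvd.1 hrn.symm)
      push_cast at h2
      exact h2
    have h3 : ((r : ℤ) - 1) = d * ρ := by
      rw [hr1]; push_cast; ring
    rw [h3, hm1] at h1
    have h4 : (m0 : ℤ) ∣ ρ * ∑ i ∈ Finset.range n, (r : ℤ) ^ i := by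
      push_cast at h1
      rw [mul_assoc] at h1
      exact Int.dvd_of_mul_dvd_mul_left (by exact_mod_cast hd.ne') h1
    have h5 : (m0 : ℤ) ∣ ∑ i ∈ Finset.range n, (r : ℤ) ^ i :=
      (Nat.isCoprime_iff_coprime.2 hcop).dvd_of_dvd_mul_left h4
    exact_mod_cast h5
  obtain ⟨h, hh⟩ : m0 ∣ Nat.gcd m (∑ i ∈ Finset.range n, r ^ i) :=
    Nat.dvd_gcd (by rw [hm1]; exact Dvd.intro_left d rfl) hS
  have hquot : d * Nat.gcd m (∑ i ∈ Finset.range n, r ^ i) / m = h := by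
    rw [hh, ← mul_assoc, ← hm1, Nat.mul_div_cancel_left _ hm]
  have hh0 : 0 < h := by
    rcases Nat.eq_zero_or_pos h with h0 | h0
    · rw [h0, mul_zero] at hh
      have := Nat.gcd_pos_of_pos_left (∑ i ∈ Finset.range n, r ^ i) hm
      omega
    · exact h0
  rw [ht, hquot]
  exact key hm1 hr1 hd hm0 hn hcop.symm hrn hh rfl (Nat.gcd_pos_of_pos_right _ hh0)

end Cfsg.Agent.S3967
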