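import Cfsg.Statements.S3968
import Cfsg.Agent.CharBase.Ortho
import Cfsg.Agent.CharBase.Central
import Cfsg.Agent.Char.Values
import Cfsg.Agent.Char.ClassSum
import Cfsg.Agent.Char.Linear
import Cfsg.Agent.Char.CentralChar

set_option autoImplicit false
open Cfsg

namespace Cfsg.Agent.S3968

open scoped ComplexConjugate

/-- In a group with a faithful irreducible character, elements of maximal character norm are central. -/
theorem mem_center_of_norm {G : Type*} [Group G] [Finite G] (χ : Cfsg.IrrCharacter G)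
    (hfaith : ∀ g : G, χ.1 g = χ.1 1 → g = 1) (g : G) (n : ℕ) (hn : χ.1 1 = n)
    (hg : ‖χ.1 g‖ = n) : g ∈ Subgroup.center G := by
  obtain ⟨m, ρ, hρ, hρχ⟩ := χ.2
  have hm : m = n := by
    have : (m : ℂ) = n := by
      rw [← hn, ← hρχ, Representation.char_one]; simp
    exact_mod_cast this
  subst hm
  have h1 : ‖ρ.character g‖ = (Module.finrank ℂ (Fin m → ℂ) : ℝ) := by
    rw [hρχ, hg]; simp
  obtain ⟨ω, hω⟩ := (Cfsg.Agent.Char.rep_norm_character_eq_iff ρ g).mp h1
  rw [Subgroup.mem_center_iff]
  intro x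
  have h2 : ρ (x * g * x⁻¹ * g⁻¹) = 1 := by
    have e1 : ρ (x * g * x⁻¹) = ρ g := by
      rw [map_mul, map_mul, hω]
      have hx : ρ x * ρ x⁻¹ = 1 := by rw [← map_mul, mul_inv_cancel, map_one]
      ext v i
      have h3 := congrArg (fun f : Module.End ℂ (Fin m → ℂ) => f v) hx
      simp only [Module.End.mul_apply, Module.End.one_apply] at h3
      simp [h3]
    rw [map_mul, e1, ← map_mul, mul_inv_cancel, map_one]
  have h3 : x * g * x⁻¹ * g⁻¹ = 1 := by
    apply hfaith
    rw [← hρχ]
    simp only [Representation.character, h2, map_one]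
  have h4 : x * g * x⁻¹ = g := by
    have := mul_eq_one_iff_eq_inv.mp h3
    rwa [inv_inv] at this
  calc x * g = x * g * x⁻¹ * x := by group
    _ = g * x := by rw [h4]

/-- Let `p` be a prime and `G` a finite group with a faithful irreducible complex character of degree `p` (so `G` is an irreducible linear group in `p` variables). If `p ^ 2` divides the order of `G`, then the centre of `G` is nontrivial. -/
theorem result {G : Type*} [Group G] [Finite G] (p : ℕ) (hp : p.Prime) (χ : Cfsg.IrrCharacter G) (hdeg : χ.1 1 = p) (hfaith : ∀ g : G, χ.1 g = χ.1 1 → g = 1) (hdiv : p ^ 2 ∣ Nat.card G) : Subgroup.center G ≠ ⊥ := by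
  classical
  by_contra hcon
  have hp' : Fact p.Prime := ⟨hp⟩
  have hdeg' : χ.1 1 = ((p : ℕ) : ℂ) := hdeg
  have hbad : ∀ g : G, ‖χ.1 g‖ = p → g = 1 := by
    intro g hg
    have := mem_center_of_norm χ hfaith g p hdeg' hg
    rw [hcon, Subgroup.mem_bot] at this
    exact this
  obtain ⟨P⟩ : Nonempty (Sylow p G) := inferInstance
  have hPcard : p ^ 2 ∣ Nat.card P := by
    rw [P.card_eq_multiplicity]
    exact pow_dvd_pow p ((hp.pow_dvd_iff_le_factorization Nat.card_pos.ne').mp hdiv)
  have hPpos : 0 < Nat.card P := Nat.card_pos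
  obtain ⟨m, ρ, hρ, hρχ⟩ := χ.2
  have hm : m = p := by
    have : (m : ℂ) = p := by
      rw [← hdeg, ← hρχ, Representation.char_one]; simp
    exact_mod_cast this
  subst hm
  have hresc : IsCharacter ↥(P : Subgroup G) (fun x : (P : Subgroup G) => χ.1 x) :=
    Cfsg.Agent.CharBase.isCharacter_restrict (Cfsg.Agent.CharBase.irr_isCharacter χ) _
  haveI : Fintype (P : Subgroup G) := Fintype.ofFinite _
  by_cases hab : ∀ x y : (P : Subgroup G), x * y = y * x
  · -- abelian Sylow subgroup
    have hzero : ∀ g : (P : Subgroup G), g ≠ 1 → χ.1 (g : G) = 0 := by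
      intro g hg
      have hle : (P : Subgroup G) ≤ Subgroup.centralizer ({(g : G)} : Set G) := by
        intro x hx
        rw [Subgroup.mem_centralizer_singleton_iff]
        exact (congrArg Subtype.val (hab ⟨x, hx⟩ g))
      have hcop : Nat.Coprime (Module.finrank ℂ (Fin m → ℂ))
          (Subgroup.centralizer ({(g : G)} : Set G)).index := by
        rw [Module.finrank_fin_fun]
        refine (Nat.Prime.coprime_iff_not_dvd hp).mpr (fun h => ?_)
        exact P.not_dvd_index (h.trans (Subgroup.index_dvd_of_le hle))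
      rcases Cfsg.Agent.Char.character_eq_zero_or_norm_eq ρ (g : G) hcop with h0 | h0
      · rw [← hρχ]; exact h0
      · exfalso
        apply hg
        apply Subtype.ext
        apply hbad
        rw [← hρχ, h0, Module.finrank_fin_fun]
    obtain ⟨k, hk⟩ := Cfsg.Agent.CharBase.classInner_natCast hresc
      (Cfsg.Agent.CharBase.irr_isCharacter (Cfsg.Agent.CharBase.oneIrr ↥(P : Subgroup G)))
    unfold Cfsg.classInner at hk
    rw [Finset.sum_eq_single (1 : (P : Subgroup G))] at hk
    · simp only [OneMemClass.coe_one, Cfsg.Agent.CharBase.oneIrr_apply, map_one, mul_one] at hk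
      rw [hdeg'] at hk
      have hP0 : (Nat.card (P : Subgroup G) : ℂ) ≠ 0 := by exact_mod_cast hPpos.ne'
      have h5 : (m : ℂ) = ((Nat.card (P : Subgroup G) * k : ℕ) : ℂ) := by
        push_cast
        field_simp at hk
        exact hk
      have h6 : m = Nat.card (P : Subgroup G) * k := by exact_mod_cast h5
      have h7 : m ^ 2 ∣ m := by
        exact hPcard.trans (Dvd.intro k h6.symm)
      have := Nat.le_of_dvd hp.pos h7
      have := hp.two_le
      nlinarith
    · intro b _ hb
      simp only [hzero b hb, zero_mul]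
    · intro h; exact absurd (Finset.mem_univ _) h
  · -- nonabelian Sylow subgroup
    push Not at hab
    obtain ⟨x, y, hxy⟩ := hab
    haveI : Fintype (Cfsg.IrrCharacter ↥(P : Subgroup G)) := Fintype.ofFinite _
    obtain ⟨mu, hmu1, hmu2⟩ := Cfsg.Agent.CharBase.exists_mult_of_isCharacter hresc
    -- some constituent is nonlinear
    obtain ⟨ψ, hψ, hψ1⟩ : ∃ ψ : Cfsg.IrrCharacter ↥(P : Subgroup G), mu ψ ≠ 0 ∧
        ψ.1 1 ≠ 1 := by
      by_contra hno
      push Not at hno
      have h1 : χ.1 (((x * y * x⁻¹ * y⁻¹ : (P : Subgroup G))) : G) = χ.1 1 := by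
        have e1 := congrFun hmu2 (x * y * x⁻¹ * y⁻¹)
        have e2 := congrFun hmu2 1
        simp only [Finset.sum_apply, Pi.smul_apply] at e1 e2
        rw [e1]
        have : χ.1 (1 : G) = ∑ ψ : Cfsg.IrrCharacter ↥(P : Subgroup G), mu ψ • ψ.1 1 := by
          simpa using e2
        rw [this]
        refine Finset.sum_congr rfl (fun ψ _ => ?_)
        by_cases h0 : mu ψ = 0
        · rw [h0]; simp
        · have hl := hno ψ h0
          have hc := Cfsg.Agent.CharBase.irr_isCharacter ψ
          congr 1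
          rw [Cfsg.Agent.Char.linChar_mul hc hl, Cfsg.Agent.Char.linChar_mul hc hl,
            Cfsg.Agent.Char.linChar_mul hc hl, Cfsg.Agent.Char.linChar_inv hc hl,
            Cfsg.Agent.Char.linChar_inv hc hl, hl]
          have hx0 := Cfsg.Agent.Char.linChar_ne_zero hc hl x
          have hy0 := Cfsg.Agent.Char.linChar_ne_zero hc hl y
          field_simp
      have h2 := hfaith _ h1
      apply hxy
      have h3 : x * y * x⁻¹ * y⁻¹ = 1 := Subtype.ext h2
      have h4 : x * y * x⁻¹ = y := by
        have := mul_eq_one_iff_eq_inv.mp h3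
        rwa [inv_inv] at this
      calc x * y = x * y * x⁻¹ * x := by group
        _ = y * x := by rw [h4]
    obtain ⟨d, hd⟩ := Cfsg.Agent.CharBase.exists_nat_degree (Cfsg.Agent.CharBase.irr_isCharacter ψ)
    have hdd := Cfsg.Agent.CharBase.degree_dvd_card ψ.2 hd
    -- the degrees add up
    have hsum : (m : ℂ) = ∑ ψ : Cfsg.IrrCharacter ↥(P : Subgroup G), mu ψ • ψ.1 1 := by
      have e2 := congrFun hmu2 1
      simp only [Finset.sum_apply, Pi.smul_apply] at e2
      rw [← hdeg']
      simpa using e2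
    choose dd hdd' using fun ψ : Cfsg.IrrCharacter ↥(P : Subgroup G) =>
      Cfsg.Agent.CharBase.exists_nat_degree (Cfsg.Agent.CharBase.irr_isCharacter ψ)
    have hsumN : m = ∑ ψ : Cfsg.IrrCharacter ↥(P : Subgroup G), mu ψ * dd ψ := by
      have : (m : ℂ) = ((∑ ψ : Cfsg.IrrCharacter ↥(P : Subgroup G), mu ψ * dd ψ : ℕ) : ℂ) := by
        rw [hsum]
        push_cast
        refine Finset.sum_congr rfl (fun ψ _ => ?_)
        have := hdd' ψ
        rw [show ψ.1 1 = (dd ψ : ℂ) from this, nsmul_eq_mul]
      exact_mod_cast this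
    have hdψ : dd ψ = d := by
      have h1 := hdd' ψ
      have : (dd ψ : ℂ) = d := by rw [← h1, ← hd]
      exact_mod_cast this
    have hle : mu ψ * d ≤ m := by
      rw [hsumN, ← hdψ]
      exact Finset.single_le_sum (f := fun ψ => mu ψ * dd ψ) (fun _ _ => Nat.zero_le _)
        (Finset.mem_univ ψ)
    have hd1 : d ≠ 1 := by
      rintro rfl
      exact hψ1 (by rw [show ψ.1 1 = ((1 : ℕ) : ℂ) from hd]; simp)
    obtain ⟨a, ha⟩ := (IsPGroup.iff_card.mp P.isPGroup')
    rw [ha] at hdd
    obtain ⟨b, -, hb⟩ := (Nat.dvd_prime_pow hp).mp hdd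
    have hb1 : 1 ≤ b := by
      rcases Nat.eq_zero_or_pos b with h | h
      · exact absurd (by rw [hb, h, pow_zero]) hd1
      · exact h
    have hdm : m ≤ d := by
      rw [hb]
      calc m = m ^ 1 := (pow_one m).symm
        _ ≤ m ^ b := Nat.pow_le_pow_right hp.pos hb1
    have hmu1' : 1 ≤ mu ψ := Nat.one_le_iff_ne_zero.mpr hψ
    have hdeq : d = m := le_antisymm ((Nat.le_mul_of_pos_left d hmu1').trans hle) hdm
    have hmuψ : mu ψ = 1 := by
      rw [hdeq] at hle
      have := hp.pos
      nlinarith
    -- the restriction is `ψ`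
    have hres : (fun x : (P : Subgroup G) => χ.1 x) = ψ.1 := by
      have hrest : ∀ φ : Cfsg.IrrCharacter ↥(P : Subgroup G), φ ≠ ψ → mu φ = 0 := by
        intro φ hφ
        by_contra h0
        have h1 : mu ψ * dd ψ + mu φ * dd φ ≤ m := by
          rw [hsumN]
          have := Finset.add_le_sum (f := fun ψ => mu ψ * dd ψ) (s := Finset.univ)
            (fun _ _ => Nat.zero_le _) (Finset.mem_univ ψ) (Finset.mem_univ φ) hφ.symm
          simpa using this
        rw [hdψ, hdeq, hmuψ] at h1
        have h2 : mu φ * dd φ = 0 := by omega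
        rcases Nat.mul_eq_zero.mp h2 with h3 | h3
        · exact h0 h3
        · have := Cfsg.Agent.CharBase.irr_one_ne_zero φ.2
          exact this (by rw [show φ.1 1 = (dd φ : ℂ) from hdd' φ, h3]; simp)
      rw [hmu2, Finset.sum_eq_single ψ]
      · rw [hmuψ, one_smul]
      · intro φ _ hφ
        rw [hrest φ hφ, zero_smul]
      · intro h; exact absurd (Finset.mem_univ _) h
    -- a central element of `P`
    haveI : Nontrivial ↥(P : Subgroup G) := by
      by_contra hno
      rw [not_nontrivial_iff_subsingleton] at hno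
      exact hxy (Subsingleton.elim _ _)
    have hcent := P.isPGroup'.center_nontrivial
    obtain ⟨z, hz⟩ := exists_ne (1 : Subgroup.center ↥(P : Subgroup G))
    obtain ⟨c, hc1, hc2, hc3⟩ := Cfsg.Agent.Char.CC.exists_scalar ψ.2 (z : (P : Subgroup G)) z.2
    apply hz
    apply Subtype.ext
    apply Subtype.ext
    apply hbad
    have h8 := hc3 1
    rw [mul_one] at h8
    have h9 : χ.1 ((z : (P : Subgroup G)) : G) = ψ.1 (z : (P : Subgroup G)) := congrFun hres _
    rw [h9, show ψ.1 (z : (P : Subgroup G)) = c * ψ.1 1 from h8, norm_mul, hc1, one_mul,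
      show ψ.1 1 = (d : ℂ) from hd, hdeq]
    simp

end Cfsg.Agent.S3968
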