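import Cfsg.Statements.S3969
import Cfsg.Agent.H66.CoprimeRank
import Cfsg.Agent.Transfer.NPC

set_option autoImplicit false
open Cfsg

namespace Cfsg.Agent.S3969

open Cfsg.Agent.H66

/-- Let `P` be an abelian Sylow `p`-subgroup of the finite group `G`, generated by `d` elements (`d` its minimal number of generators). If the order of `G` is coprime to `(p - 1)(p ^ 2 - 1) ⋯ (p ^ d - 1)`, then `G` has a normal `p`-complement. (The classical statement needs only the largest number of cyclic factors of `P` of equal order in place of `d`; the form here follows from it.) -/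
theorem result {G : Type*} [Group G] [Finite G] (p : ℕ) [Fact p.Prime] (P : Sylow p G) (hab : IsMulCommutative (P : Subgroup G)) (hcop : Nat.Coprime (Nat.card G) (∏ i ∈ Finset.Icc 1 (Group.rank (P : Subgroup G)), (p ^ i - 1))) : Cfsg.HasNormalPComplement p G := by
  have hpp : p.Prime := Fact.out
  apply Cfsg.Agent.Transfer.hasNPC_of_normalizer_le_centralizer P
  rw [← Subgroup.subgroupOf_eq_top]
  apply eq_top_of_sylow_le
  intro q hq
  by_cases hqp : q = p
  · subst hqp
    refine ⟨P.subtype Subgroup.le_normalizer, ?_⟩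
    intro x hx
    have hx' : (x : G) ∈ (P : Subgroup G) := hx
    rw [Subgroup.mem_subgroupOf, Subgroup.mem_centralizer_iff]
    intro y hy
    have h1 := IsMulCommutative.is_comm.comm (⟨y, hy⟩ : (P : Subgroup G)) ⟨x, hx'⟩
    exact congrArg Subtype.val h1
  · obtain ⟨Q⟩ : Nonempty (Sylow q (Subgroup.normalizer ((P : Subgroup G) : Set G))) := inferInstance
    refine ⟨Q, ?_⟩
    have hQG : IsPGroup q ((Q : Subgroup (Subgroup.normalizer ((P : Subgroup G) : Set G))).map (Subgroup.subtype _)) :=
      Q.isPGroup'.map _
    obtain ⟨k, hk⟩ := IsPGroup.iff_card.1 hQG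
    have h1 : (Q : Subgroup (Subgroup.normalizer ((P : Subgroup G) : Set G))).map (Subgroup.subtype _) ≤
        Subgroup.centralizer ((P : Subgroup G) : Set G) := by
      apply le_centralizer_of_coprime_rank (p := p) _ P.isPGroup' (Subgroup.map_subtype_le _)
        (Group.rank (P : Subgroup G)) le_rfl
      · intro r hr hrd i hi1 hi2 hri
        have h2 : r ∣ Nat.card G := hrd.trans (Subgroup.card_subgroup_dvd_card _)
        have h3 : r ∣ ∏ i ∈ Finset.Icc 1 (Group.rank (P : Subgroup G)), (p ^ i - 1) :=
          hri.trans (Finset.dvd_prod_of_mem _ (Finset.mem_Icc.2 ⟨hi1, hi2⟩))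
        have h4 := Nat.dvd_gcd h2 h3
        rw [hcop] at h4
        exact hr.one_lt.ne' (Nat.dvd_one.1 h4)
      · rw [hk]
        exact Nat.Coprime.pow_left _ ((Nat.coprime_primes hq.out hpp).2 hqp)
    intro x hx
    exact h1 (Subgroup.mem_map_of_mem _ hx)

end Cfsg.Agent.S3969
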