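import Cfsg.Statements.S3970
import Cfsg.Agent.S3969
import Cfsg.Agent.H66.Rank
import Cfsg.Agent.Transfer.NPC

set_option autoImplicit false
open Cfsg

namespace Cfsg.Agent.S3970

open Cfsg.Agent.H66

theorem aux (n : ℕ) : ∀ (G : Type*) [Group G] [Finite G], Nat.card G = n →
    (∀ p : ℕ, p.Prime → p ∣ Nat.card G → (∃ q : ℕ, q.Prime ∧ q ∣ Nat.card G ∧ p < q) →
      ∀ P : Sylow p G, IsMulCommutative (P : Subgroup G) ∧ Group.rank (P : Subgroup G) ≤ 2) →
    ¬ 12 ∣ Nat.card G → Group.IsSolvable G := by
  induction n using Nat.strong_induction_on with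
  | _ n ih =>
    intro G _ _ hG h h12
    by_cases h1 : Nat.card G = 1
    · have : Subsingleton G := (Nat.card_eq_one_iff_unique.1 h1).1
      infer_instance
    set p := (Nat.card G).minFac with hpdef
    have hpp : p.Prime := Nat.minFac_prime h1
    have hpf : Fact p.Prime := ⟨hpp⟩
    have hpd : p ∣ Nat.card G := Nat.minFac_dvd _
    by_cases hex : ∃ q : ℕ, q.Prime ∧ q ∣ Nat.card G ∧ p < q
    swap
    · push Not at hex
      have hPG : IsPGroup p G := by
        have h2 := Nat.eq_prime_pow_of_unique_prime_dvd (n := Nat.card G) (p := p) Nat.card_pos.ne'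
          (fun {r} hr hrd => le_antisymm (hex r hr hrd) (Nat.minFac_le_of_dvd hr.two_le hrd))
        exact IsPGroup.of_card h2
      have := hPG.isNilpotent
      infer_instance
    obtain ⟨P⟩ : Nonempty (Sylow p G) := inferInstance
    obtain ⟨hab, hrk⟩ := h p hpp hpd hex P
    have hNPC : Cfsg.HasNormalPComplement p G := by
      apply Cfsg.Agent.S3969.result p P hab
      by_contra hnc
      obtain ⟨r, hr, hrd⟩ := Nat.exists_prime_and_dvd hnc
      have hrG : r ∣ Nat.card G := hrd.trans (Nat.gcd_dvd_left _ _)
      have hrprod := hrd.trans (Nat.gcd_dvd_right _ _)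
      rw [Prime.dvd_finsetProd_iff hr.prime] at hrprod
      obtain ⟨i, hi, hri⟩ := hrprod
      rw [Finset.mem_Icc] at hi
      have hpr : p ≤ r := Nat.minFac_le_of_dvd hr.two_le hrG
      have hrp : r ≠ p := by
        intro heq
        rw [heq] at hri
        have h2 : p ∣ p ^ i := dvd_pow_self p (by omega)
        have h3 : 1 ≤ p ^ i := Nat.one_le_pow _ _ hpp.pos
        have h4 : p ∣ p ^ i - (p ^ i - 1) := Nat.dvd_sub h2 hri
        rw [Nat.sub_sub_self h3] at h4
        exact hpp.one_lt.ne' (Nat.dvd_one.1 h4)
      have hlt : p < r := lt_of_le_of_ne hpr hrp.symm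
      have hp2 := hpp.two_le
      have hi2 : i = 1 ∨ i = 2 := by omega
      rcases hi2 with rfl | rfl
      · rw [pow_one] at hri
        have := Nat.le_of_dvd (by omega) hri
        omega
      · have h2 : p ^ 2 - 1 = (p + 1) * (p - 1) := by
          have := Nat.sq_sub_sq p 1
          simpa using this
        rw [h2] at hri
        rcases (Nat.Prime.dvd_mul hr).1 hri with h3 | h3
        · have h4 := Nat.le_of_dvd (by omega) h3
          have h5 : r = p + 1 := by omega
          -- p = 2, r = 3
          have h6 : p = 2 := by
            by_contra hne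
            have h7 : Odd p := hpp.odd_of_ne_two hne
            have h8 : Odd r := hr.odd_of_ne_two (by omega)
            rw [h5] at h8
            exact (Nat.not_even_iff_odd.2 h8) (h7.add_one)
          have h7 : r = 3 := by omega
          have h8 : ¬ 4 ∣ Nat.card G := by
            intro h9
            apply h12
            rw [show (12 : ℕ) = 4 * 3 by norm_num]
            exact Nat.Coprime.mul_dvd_of_dvd_of_dvd (by norm_num) h9 (h7 ▸ hrG)
          have h9 : Nat.card (P : Subgroup G) = 2 := by
            obtain ⟨k, hk⟩ := IsPGroup.iff_card.1 P.isPGroup'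
            have hk1 : k < 2 := by
              by_contra hge
              apply h8
              refine Dvd.dvd.trans ?_ (Subgroup.card_subgroup_dvd_card (P : Subgroup G))
              rw [hk, h6]
              exact pow_dvd_pow 2 (show 2 ≤ k by omega)
            have hk0 : k ≠ 0 := by
              intro hk0
              have := P.dvd_card_of_dvd_card hpd
              rw [hk, hk0, pow_zero] at this
              exact hpp.one_lt.ne' (Nat.dvd_one.1 this)
            have hk2 : k = 1 := by omega
            rw [hk, hk2, h6]; norm_num
          have h10 : Group.rank (P : Subgroup G) ≤ 1 := by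
            apply rank_le_one_of_isCyclic
            have : Fact (Nat.Prime 2) := ⟨Nat.prime_two⟩
            exact isCyclic_of_prime_card h9
          omega
        · have := Nat.le_of_dvd (by omega) h3
          omega
    obtain ⟨N, hN, hcop, k, hk⟩ := Cfsg.Agent.Transfer.hasNPC_iff_exists.1 hNPC
    have hNlt : Nat.card N < n := by
      rw [← hG]
      apply lt_of_le_of_ne (Subgroup.card_le_card_group N)
      intro heq
      rw [heq] at hcop
      exact ((Nat.Prime.coprime_iff_not_dvd hpp).1 hcop.symm) hpd
    have hNd : Nat.card N ∣ Nat.card G := Subgroup.card_subgroup_dvd_card N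
    have hNs : Group.IsSolvable N := by
      apply ih _ hNlt N rfl
      · intro r hr hrN ⟨q, hq, hqN, hrq⟩ R
        have hrf : Fact r.Prime := ⟨hr⟩
        have hrp : r ≠ p := by
          rintro rfl
          exact ((Nat.Prime.coprime_iff_not_dvd hr).1 hcop.symm) hrN
        have hR : IsPGroup r ((R : Subgroup N).map N.subtype) := R.isPGroup'.map _
        obtain ⟨R', hR'⟩ := hR.exists_le_sylow
        have hcard : Nat.card (R' : Subgroup G) = Nat.card ((R : Subgroup N).map N.subtype) := by
          rw [Nat.card_congr (((R : Subgroup N).equivMapOfInjective _ N.subtype_injective).symm.toEquiv)]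
          rw [Sylow.card_eq_multiplicity, Sylow.card_eq_multiplicity]
          congr 1
          have h2 : Nat.card G = Nat.card N * p ^ k := by rw [← hk, Subgroup.card_mul_index]
          rw [h2, Nat.factorization_mul Nat.card_pos.ne' (pow_ne_zero _ hpp.ne_zero)]
          rw [Finsupp.add_apply, hpp.factorization_pow, Finsupp.single_apply, if_neg (fun h => hrp h.symm), add_zero]
        have heq : (R : Subgroup N).map N.subtype = (R' : Subgroup G) :=
          Subgroup.eq_of_le_of_card_ge hR' hcard.le
        obtain ⟨h3, h4⟩ := h r hr (hrN.trans hNd) ⟨q, hq, hqN.trans hNd, hrq⟩ R'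
        have e : (R : Subgroup N) ≃* (R' : Subgroup G) :=
          ((R : Subgroup N).equivMapOfInjective _ N.subtype_injective).trans (MulEquiv.subgroupCongr heq)
        constructor
        · refine ⟨⟨fun a b => ?_⟩⟩
          apply e.injective
          rw [map_mul, map_mul]
          exact IsMulCommutative.is_comm.comm _ _
        · rw [Group.rank_congr e]
          exact h4
      · exact fun h => h12 (h.trans hNd)
    have hQs : Group.IsSolvable (G ⧸ N) := by
      have hPQ : IsPGroup p (G ⧸ N) := IsPGroup.of_card (n := k) (by rw [← hk]; rfl)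
      have := hPQ.isNilpotent
      infer_instance
    exact Group.isSolvable_of_ker_le_range N.subtype (QuotientGroup.mk' N)
      (by rw [QuotientGroup.ker_mk', Subgroup.range_subtype])

/-- Let `G` be a finite group such that for every prime `p` dividing its order, other than the largest such prime, the Sylow `p`-subgroups are abelian and generated by at most two elements, and suppose `12` does not divide the order of `G`. Then `G` is solvable. In particular a group of cube-free order not divisible by `12` is solvable. -/
theorem result {G : Type*} [Group G] [Finite G] (h : ∀ p : ℕ, p.Prime → p ∣ Nat.card G → (∃ q : ℕ, q.Prime ∧ q ∣ Nat.card G ∧ p < q) → ∀ P : Sylow p G, IsMulCommutative (P : Subgroup G) ∧ Group.rank (P : Subgroup G) ≤ 2) (h12 : ¬ 12 ∣ Nat.card G) : Group.IsSolvable G := by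
  exact aux _ G rfl h h12

end Cfsg.Agent.S3970
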