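import Cfsg.Statements.S3971
import Cfsg.Agent.H66.CoprimeRank
import Cfsg.Agent.H66.Rank
import Cfsg.Agent.Transfer.Frobenius

set_option autoImplicit false
open Cfsg

namespace Cfsg.Agent.S3971

open Cfsg.Agent.H66

/-- Let `G` be a finite group of order `2 ^ a * n` with `n` odd and not divisible by `3`, and suppose `G` has an element of order `2 ^ (a - 1)` (so a Sylow `2`-subgroup has a cyclic subgroup of index at most `2`). Then `G` has a normal subgroup of order `n`. -/
theorem result {G : Type*} [Group G] [Finite G] (a n : ℕ) (hG : Nat.card G = 2 ^ a * n) (hn : Odd n) (h3 : ¬ 3 ∣ n) (hx : ∃ x : G, orderOf x = 2 ^ (a - 1)) : ∃ N : Subgroup G, N.Normal ∧ Nat.card N = n := by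
  classical
  have h2f : Fact (Nat.Prime 2) := ⟨Nat.prime_two⟩
  obtain ⟨x, hx⟩ := hx
  have hn0 : 0 < n := hn.pos
  have hcop : (2 ^ a).Coprime n := Nat.Coprime.pow_left _ (Nat.coprime_two_left.2 hn)
  have hxP : IsPGroup 2 (Subgroup.zpowers x) := by
    rw [IsPGroup.iff_card, Nat.card_zpowers]; exact ⟨_, hx⟩
  obtain ⟨P, hP⟩ := hxP.exists_le_sylow
  have hPcard : Nat.card (P : Subgroup G) = 2 ^ a := by
    rw [Sylow.card_eq_multiplicity, hG, Nat.factorization_mul (pow_ne_zero _ two_ne_zero) hn0.ne']
    rw [Finsupp.add_apply, Nat.prime_two.factorization_pow, Finsupp.single_apply, if_pos rfl,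
      Nat.factorization_eq_zero_of_not_dvd (fun h => (Nat.not_even_iff_odd.2 hn) (even_iff_two_dvd.2 h)), add_zero]
  -- index of the cyclic subgroup
  have hidx : (Subgroup.zpowers x).relIndex (P : Subgroup G) ≤ 2 := by
    have h1 := Subgroup.card_mul_index ((Subgroup.zpowers x).subgroupOf (P : Subgroup G))
    rw [Nat.card_congr (Subgroup.subgroupOfEquivOfLe hP).toEquiv, hPcard, Nat.card_zpowers, hx, mul_comm] at h1
    change (Subgroup.zpowers x).relIndex (P : Subgroup G) * 2 ^ (a - 1) = 2 ^ a at h1
    rcases Nat.eq_zero_or_pos a with ha | ha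
    · subst ha
      rw [show 0 - 1 = 0 from rfl, pow_zero, mul_one] at h1
      omega
    · have h2 : 2 ^ a = 2 * 2 ^ (a - 1) := by
        rw [← pow_succ']
        congr 1
        omega
      rw [h2] at h1
      exact (Nat.eq_of_mul_eq_mul_right (pow_pos two_pos _) h1).le
  -- 2-subgroups have rank at most two
  have hrank : ∀ Q : Subgroup G, IsPGroup 2 Q → Group.rank Q ≤ 2 := by
    intro Q hQ
    obtain ⟨P', hP'⟩ := hQ.exists_le_sylow
    obtain ⟨g, hg⟩ := MulAction.exists_smul_eq G P P'
    -- the conjugate cyclic group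
    set C : Subgroup G := (Subgroup.zpowers x).map (MulAut.conj g).toMonoidHom with hC
    have hPg : (P' : Subgroup G) = (P : Subgroup G).map (MulAut.conj g).toMonoidHom := by
      rw [← hg]; rfl
    have h1 : C.relIndex (P' : Subgroup G) ≤ 2 := by
      rw [hPg, hC, Subgroup.relIndex_map_map_of_injective _ _ (MulAut.conj g).injective]
      exact hidx
    have h2 : C.relIndex Q ≤ 2 := (Subgroup.relIndex_le_of_le_right hP' (by
      exact Subgroup.index_ne_zero_of_finite)).trans h1
    apply rank_le_two_of_index (C.subgroupOf Q) _ h2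
    have hCc : IsCyclic C := by
      have : IsCyclic (Subgroup.zpowers x) := inferInstance
      let e := (Subgroup.zpowers x).equivMapOfInjective (MulAut.conj g).toMonoidHom (MulAut.conj g).injective
      exact isCyclic_of_surjective e e.surjective
    let f : C.subgroupOf Q →* C := { toFun := fun u => ⟨u.1.1, u.2⟩, map_one' := rfl, map_mul' := fun _ _ => rfl }
    refine isCyclic_of_injective f ?_
    intro u v huv
    have h3 : (u.1.1 : G) = v.1.1 := congrArg (fun z : C => (z : G)) huv
    exact Subtype.ext (Subtype.ext h3)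
  have hNPC : Cfsg.HasNormalPComplement 2 G := by
    apply Cfsg.Agent.Transfer.hasNPC_of_frobenius
    intro Q hQ g hg hgc
    have h1 : Subgroup.zpowers g ≤ Subgroup.centralizer (Q : Set G) := by
      apply le_centralizer_of_coprime_rank (p := 2) _ hQ (by rwa [Subgroup.zpowers_le]) 2 (hrank Q hQ)
      · intro q hq hqg i hi1 hi2 hqi
        rw [Nat.card_zpowers] at hqg
        have hq2 : q ≠ 2 := by
          rintro rfl
          exact ((Nat.Prime.coprime_iff_not_dvd Nat.prime_two).1 hgc.symm) hqg
        have hqG : q ∣ 2 ^ a * n := by rw [← hG]; exact hqg.trans (orderOf_dvd_natCard g)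
        have hqn : q ∣ n := by
          have : q.Coprime (2 ^ a) := Nat.Coprime.pow_right _ ((Nat.coprime_primes hq Nat.prime_two).2 hq2)
          exact this.dvd_of_dvd_mul_left hqG
        have hq3 : q ≠ 3 := by rintro rfl; exact h3 hqn
        interval_cases i
        · norm_num at hqi
          exact hq.one_lt.ne' hqi
        · norm_num at hqi
          exact hq3 ((Nat.prime_dvd_prime_iff_eq hq Nat.prime_three).1 hqi)
      · rw [Nat.card_zpowers]; exact hgc
    exact h1 (Subgroup.mem_zpowers g)
  obtain ⟨N, hN, hNc, k, hk⟩ := Cfsg.Agent.Transfer.hasNPC_iff_exists.1 hNPC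
  refine ⟨N, hN, ?_⟩
  have h1 : Nat.card N * 2 ^ k = 2 ^ a * n := by rw [← hk, Subgroup.card_mul_index, hG]
  have h2 : Nat.card N ∣ n := by
    have : (Nat.card N).Coprime (2 ^ a) := Nat.Coprime.pow_right _ hNc
    exact this.dvd_of_dvd_mul_left (by rw [← h1]; exact Dvd.intro _ rfl)
  have h4 : n ∣ Nat.card N := by
    have : n.Coprime (2 ^ k) := Nat.Coprime.pow_right _ (Nat.coprime_two_right.2 hn)
    exact this.dvd_of_dvd_mul_right (by rw [h1]; exact Dvd.intro_left _ rfl)
  exact Nat.dvd_antisymm h2 h4

end Cfsg.Agent.S3971
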