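import Cfsg.Statements.S3973
import Mathlib
import Cfsg.Agent.SchurMult.Rank

set_option autoImplicit false
open Cfsg

namespace Cfsg.Agent.S3973

open Cfsg.Agent.SchurMult

/-- If a finite group is presented by `n` generators and a finite set of `r` relators, then its Schur multiplier can be generated by `r - n` elements. In particular a finite group with a presentation having as many relators as generators has trivial Schur multiplier. -/
theorem result (n : ℕ) (rels : Finset (FreeGroup (Fin n))) [Finite (PresentedGroup (rels : Set (FreeGroup (Fin n))))] {A : Type*} [CommGroup A] [Finite A] (hA : Cfsg.HasSchurMultiplier (PresentedGroup (rels : Set (FreeGroup (Fin n)))) A) : Group.rank A ≤ rels.card - n := by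
  classical
  let φ : FreeGroup (Fin n) →* PresentedGroup (rels : Set (FreeGroup (Fin n))) := PresentedGroup.mk _
  have hφ : Function.Surjective φ := PresentedGroup.mk_surjective _
  have hφk : φ.ker = Subgroup.normalClosure (rels : Set (FreeGroup (Fin n))) := QuotientGroup.ker_mk' _
  obtain ⟨e⟩ := equiv_hopf hA φ hφ
  let hK : CommGroup (toBase φ).ker :=
    { (inferInstance : Group (toBase φ).ker) with
      mul_comm := fun a b => Subtype.ext ((Subgroup.mem_center_iff.mp (ker_toBase_le_center φ b.2)) a) }
  have hrel : ∀ r ∈ rels, φ r = 1 := by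
    intro r hr
    rw [← MonoidHom.mem_ker, hφk]
    exact Subgroup.subset_normalClosure hr
  -- the generators of the kernel
  have hrel' : ∀ r ∈ rels, (QuotientGroup.mk r : FreeGroup (Fin n) ⧸ relComm φ) ∈ (toBase φ).ker :=
    fun r hr => hrel r hr
  let S : Finset (Additive (toBase φ).ker) :=
    rels.attach.image (fun r => Additive.ofMul (⟨QuotientGroup.mk r.1, hrel' r.1 r.2⟩ : (toBase φ).ker))
  have hScard : S.card ≤ rels.card := by
    refine Finset.card_image_le.trans ?_
    rw [Finset.card_attach]
  have hS : Submodule.span ℤ (S : Set (Additive (toBase φ).ker)) = ⊤ := by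
    rw [eq_top_iff]
    rintro x -
    obtain ⟨w, hw⟩ := QuotientGroup.mk_surjective (Additive.toMul x).1
    have key : ∀ w : FreeGroup (Fin n), w ∈ φ.ker → ∀ hw' : (QuotientGroup.mk w : FreeGroup (Fin n) ⧸ relComm φ) ∈ (toBase φ).ker,
        Additive.ofMul (⟨QuotientGroup.mk w, hw'⟩ : (toBase φ).ker) ∈ Submodule.span ℤ (S : Set (Additive (toBase φ).ker)) := by
      intro w hw
      rw [hφk] at hw
      refine Subgroup.closure_induction (p := fun w _ => ∀ hw' : (QuotientGroup.mk w : FreeGroup (Fin n) ⧸ relComm φ) ∈ (toBase φ).ker,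
        Additive.ofMul (⟨QuotientGroup.mk w, hw'⟩ : (toBase φ).ker) ∈ Submodule.span ℤ (S : Set (Additive (toBase φ).ker))) ?_ ?_ ?_ ?_ hw
      · intro y hy hy'
        obtain ⟨r, hr, hc⟩ := Group.mem_conjugatesOfSet_iff.mp hy
        apply Submodule.subset_span
        rw [Finset.mem_coe, Finset.mem_image]
        refine ⟨⟨r, hr⟩, Finset.mem_attach _ _, ?_⟩
        congr 1
        apply Subtype.ext
        show (QuotientGroup.mk r : FreeGroup (Fin n) ⧸ relComm φ) = QuotientGroup.mk y
        obtain ⟨c, hc⟩ := isConj_iff.mp hc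
        have h1 : (QuotientGroup.mk r : FreeGroup (Fin n) ⧸ relComm φ) ∈ Subgroup.center _ :=
          ker_toBase_le_center φ (hrel r hr)
        rw [← hc, QuotientGroup.mk_mul, QuotientGroup.mk_mul, Subgroup.mem_center_iff.mp h1, mul_assoc,
          ← QuotientGroup.mk_mul, mul_inv_cancel]
        simp
      · intro _
        exact zero_mem _
      · intro a b ha hb iha ihb hab
        have ha' : (QuotientGroup.mk a : FreeGroup (Fin n) ⧸ relComm φ) ∈ (toBase φ).ker := by
          show φ a = 1
          rw [← MonoidHom.mem_ker, hφk]; exact ha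
        have hb' : (QuotientGroup.mk b : FreeGroup (Fin n) ⧸ relComm φ) ∈ (toBase φ).ker := by
          show φ b = 1
          rw [← MonoidHom.mem_ker, hφk]; exact hb
        exact add_mem (iha ha') (ihb hb')
      · intro a ha iha ha'
        have ha'' : (QuotientGroup.mk a : FreeGroup (Fin n) ⧸ relComm φ) ∈ (toBase φ).ker := by
          show φ a = 1
          rw [← MonoidHom.mem_ker, hφk]; exact ha
        exact neg_mem (iha ha'')
    have hw2 : (QuotientGroup.mk w : FreeGroup (Fin n) ⧸ relComm φ) ∈ (toBase φ).ker := by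
      rw [hw]; exact (Additive.toMul x).2
    have h2 := key w hw2 hw2
    have h3 : Additive.ofMul (⟨QuotientGroup.mk w, hw2⟩ : (toBase φ).ker) = x :=
      congrArg Additive.ofMul (Subtype.ext hw)
    rw [← h3]; exact h2
  -- the map to the abelianization
  let q₀ : (toBase φ).ker →* Abelianization (FreeGroup (Fin n)) := (toAb φ).comp (toBase φ).ker.subtype
  let q : Additive (toBase φ).ker →ₗ[ℤ] Additive (Abelianization (FreeGroup (Fin n))) :=
    (MonoidHom.toAdditive q₀).toIntLinearMap
  have hrank : Module.finrank ℤ (Additive (Abelianization (FreeGroup (Fin n)))) = n := by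
    have e1 : FreeAbelianGroup (Fin n) ≃+ (Fin n →₀ ℤ) := FreeAbelianGroup.equivFinsupp (Fin n)
    have e2 : Additive (Abelianization (FreeGroup (Fin n))) ≃ₗ[ℤ] (Fin n →₀ ℤ) := e1.toIntLinearEquiv
    rw [e2.finrank_eq, Module.finrank_finsupp_self, Fintype.card_fin]
  have hfinL : Module.Finite ℤ (Additive (Abelianization (FreeGroup (Fin n)))) := by
    have e1 : FreeAbelianGroup (Fin n) ≃+ (Fin n →₀ ℤ) := FreeAbelianGroup.equivFinsupp (Fin n)
    have e2 : Additive (Abelianization (FreeGroup (Fin n))) ≃ₗ[ℤ] (Fin n →₀ ℤ) := e1.toIntLinearEquiv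
    exact Module.Finite.equiv e2.symm
  have hfin : Finite (Additive (Abelianization (FreeGroup (Fin n))) ⧸ LinearMap.range q) := by
    refine Finite.of_surjective (α := PresentedGroup (rels : Set (FreeGroup (Fin n))))
      (fun x => Submodule.Quotient.mk (Additive.ofMul (Abelianization.of ((hφ x).choose)))) ?_
    intro y
    obtain ⟨y, rfl⟩ := Submodule.Quotient.mk_surjective _ y
    obtain ⟨w, hw⟩ := QuotientGroup.mk_surjective (s := _root_.commutator (FreeGroup (Fin n))) (Additive.toMul y)
    refine ⟨φ w, ?_⟩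
    rw [Submodule.Quotient.eq]
    have h1 : φ ((hφ (φ w)).choose) = φ w := (hφ (φ w)).choose_spec
    have h2 : (QuotientGroup.mk ((hφ (φ w)).choose * w⁻¹) : FreeGroup (Fin n) ⧸ relComm φ) ∈ (toBase φ).ker := by
      show φ _ = 1
      rw [map_mul, map_inv, h1, mul_inv_cancel]
    refine ⟨Additive.ofMul ⟨_, h2⟩, ?_⟩
    have h3 : y = Additive.ofMul (Abelianization.of w) := congrArg Additive.ofMul hw.symm
    rw [h3]
    show Additive.ofMul (Abelianization.of ((hφ (φ w)).choose * w⁻¹)) = _
    rw [map_mul, map_inv]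
    rfl
  obtain ⟨T, hT1, hT2⟩ := exists_generators_ker S hS q hfin
  rw [hrank] at hT1
  have hTk : ∀ t ∈ T, (Additive.toMul t).1 ∈ hopf φ := by
    intro t ht
    have h1 : t ∈ LinearMap.ker q := by rw [← hT2]; exact Submodule.subset_span ht
    refine ⟨(Additive.toMul t).2, ?_⟩
    have h2 : (Additive.toMul t).1 ∈ (toAb φ).ker := h1
    rw [toAb_ker] at h2
    exact h2
  let T' : Finset A := T.attach.image (fun t => e.symm ⟨(Additive.toMul t.1).1, hTk t.1 t.2⟩)
  have hT'card : T'.card ≤ T.card := by
    refine Finset.card_image_le.trans ?_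
    rw [Finset.card_attach]
  have hT' : Subgroup.closure (T' : Set A) = ⊤ := by
    rw [eq_top_iff]
    intro a _
    have h1 : Additive.ofMul (⟨(e a).1, (e a).2.1⟩ : (toBase φ).ker) ∈ Submodule.span ℤ (T : Set (Additive (toBase φ).ker)) := by
      rw [hT2]
      have h2 : (e a).1 ∈ (toAb φ).ker := by rw [toAb_ker]; exact (e a).2.2
      exact h2
    have key : ∀ x ∈ Submodule.span ℤ (T : Set (Additive (toBase φ).ker)),
        ∃ b ∈ Subgroup.closure (T' : Set A), (e b).1 = (Additive.toMul x).1 := by
      intro x hx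
      refine Submodule.span_induction (p := fun x _ => ∃ b ∈ Subgroup.closure (T' : Set A), (e b).1 = (Additive.toMul x).1)
        ?_ ?_ ?_ ?_ hx
      · intro t ht
        refine ⟨e.symm ⟨(Additive.toMul t).1, hTk t ht⟩, Subgroup.subset_closure ?_, ?_⟩
        · rw [Finset.mem_coe, Finset.mem_image]
          exact ⟨⟨t, ht⟩, Finset.mem_attach _ _, rfl⟩
        · rw [e.apply_symm_apply]
      · exact ⟨1, one_mem _, by rw [map_one]; rfl⟩
      · rintro x y _ _ ⟨b, hb, hb'⟩ ⟨c, hc, hc'⟩
        refine ⟨b * c, mul_mem hb hc, ?_⟩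
        rw [map_mul]
        show (e b).1 * (e c).1 = _
        rw [hb', hc']; rfl
      · rintro z x _ ⟨b, hb, hb'⟩
        refine ⟨b ^ z, zpow_mem hb z, ?_⟩
        rw [map_zpow]
        show (e b).1 ^ z = _
        rw [hb']; rfl
    obtain ⟨b, hb, hb'⟩ := key _ h1
    have h3 : b = a := e.injective (Subtype.ext hb')
    rw [← h3]; exact hb
  exact (Group.rank_le hT').trans (hT'card.trans (hT1.trans (Nat.sub_le_sub_right hScard n)))

end Cfsg.Agent.S3973
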