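import Cfsg.Statements.S3974
import Mathlib
import Cfsg.Agent.SchurMult.Basic

set_option autoImplicit false
universe u v
open Cfsg

namespace Cfsg.Agent.S3974

open Cfsg.Agent.SchurMult Subgroup
open scoped commutatorElement

/-- The image of a complement in `Fᵃᵇ` is the kernel of `Fᵃᵇ → Qᵃᵇ`. -/
theorem ker_map_eq {F : Type*} {Q : Type*} [Group F] [Group Q] (φ : F →* Q) (hφ : Function.Surjective φ)
    (C : Subgroup (F ⧸ relComm φ)) (hC : C ≤ (toBase φ).ker) (h2 : (toBase φ).ker ≤ C ⊔ hopf φ) (x : Abelianization F) :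
    Abelianization.map φ x = 1 ↔ ∃ c ∈ C, toAb φ c = x := by
  constructor
  · intro hx
    obtain ⟨f, rfl⟩ := QuotientGroup.mk_surjective x
    have h3 : φ f ∈ _root_.commutator Q := by
      rw [← Abelianization.ker_of]
      exact hx
    have h4 : (_root_.commutator F).map φ = _root_.commutator Q := by
      rw [_root_.commutator_def, Subgroup.map_commutator, ← MonoidHom.range_eq_map, MonoidHom.range_eq_top.mpr hφ,
        ← _root_.commutator_def]
    rw [← h4] at h3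
    obtain ⟨g, hg, hgf⟩ := h3
    have h5 : (QuotientGroup.mk (f * g⁻¹) : F ⧸ relComm φ) ∈ (toBase φ).ker := by
      show φ _ = 1
      rw [map_mul, map_inv, hgf, mul_inv_cancel]
    obtain ⟨c, hc, m, hm, hcm⟩ := Subgroup.mem_sup_of_normal_right.mp (h2 h5)
    refine ⟨c, hc, ?_⟩
    have h6 : toAb φ m = 1 := by
      have := hm.2
      rwa [SetLike.mem_coe, ← toAb_ker] at this
    have h7 : toAb φ (QuotientGroup.mk (f * g⁻¹)) = toAb φ c := by
      rw [← hcm, map_mul, h6, mul_one]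
    rw [← h7]
    show Abelianization.of (f * g⁻¹) = Abelianization.of f
    have h8 : Abelianization.of g = 1 := by
      rw [← MonoidHom.mem_ker, Abelianization.ker_of]; exact hg
    rw [map_mul, map_inv, h8, inv_one, mul_one]
  · rintro ⟨c, hc, rfl⟩
    obtain ⟨f, rfl⟩ := QuotientGroup.mk_surjective c
    have h3 : φ f = 1 := hC hc
    show Abelianization.map φ (Abelianization.of f) = 1
    rw [Abelianization.map_of, h3, map_one]

/-- the map of a Hopf model to a stem extension with kernel of the right order. -/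
theorem exists_cover_map {Q : Type u} [Group Q] {A : Type v} [CommGroup A] (hA : Cfsg.HasSchurMultiplier Q A)
    {Γ : Type u} [Group Γ] [Finite Γ] (σ : Γ →* Q) (hσ : Cfsg.IsStemExtension σ) (hk : Nonempty (σ.ker ≃* A))
    (φ : FreeGroup Q →* Q) (hφ : Function.Surjective φ) :
    ∃ η : FreeGroup Q ⧸ relComm φ →* Γ, σ.comp η = toBase φ ∧ Function.Surjective η ∧ η.ker ≤ (toBase φ).ker ∧
      η.ker ⊓ hopf φ = ⊥ ∧ (toBase φ).ker ≤ η.ker ⊔ hopf φ := by
  have hQ := hasSchurMultiplier_finite_base hA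
  obtain ⟨hs, hc, hcomm⟩ := hσ
  obtain ⟨ψ, hψ⟩ := exists_lift_of_free σ hs φ
  obtain ⟨η, hη1, hη2⟩ := exists_lift_relComm φ σ hc ψ hψ
  have hs' : Function.Surjective (σ.comp η) := by rw [hη2]; exact toBase_surjective φ hφ
  have hηs : Function.Surjective η := surjective_of_stem σ hc hcomm η hs'
  have hkermap := ker_inf_commutator_eq_map σ hc η hs'
  rw [inf_eq_left.mpr hcomm, hη2] at hkermap
  let f : hopf φ →* σ.ker :=
    { toFun := fun x => ⟨η x.1, by
        rw [MonoidHom.mem_ker, ← MonoidHom.comp_apply, hη2]; exact x.2.1⟩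
      map_one' := by apply Subtype.ext; simp
      map_mul' := by intro a b; apply Subtype.ext; simp }
  have hfs : Function.Surjective f := by
    rintro ⟨y, hy⟩
    rw [hkermap] at hy
    obtain ⟨x, hx, hxy⟩ := hy
    exact ⟨⟨x, hx⟩, Subtype.ext hxy⟩
  have hfin : Finite (hopf φ) := finite_hopf φ
  have hfb : Function.Bijective f := by
    refine (Nat.bijective_iff_surjective_and_card f).mpr ⟨hfs, ?_⟩
    obtain ⟨e⟩ := hk
    obtain ⟨e'⟩ := equiv_hopf hA φ hφ
    rw [Nat.card_congr e.toEquiv, Nat.card_congr e'.toEquiv]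
  refine ⟨η, hη2, hηs, ?_, ?_, ?_⟩
  · intro x hx
    rw [MonoidHom.mem_ker, ← hη2, MonoidHom.comp_apply, MonoidHom.mem_ker.mp hx, map_one]
  · rw [eq_bot_iff]
    rintro x ⟨hx1, hx2⟩
    have h1 : f ⟨x, hx2⟩ = 1 := Subtype.ext hx1
    have h2 := (injective_iff_map_eq_one f).mp hfb.1 _ h1
    exact Subgroup.mem_bot.mpr (congrArg Subtype.val h2)
  · intro x hx
    have h4 : η x ∈ σ.ker := by
      rw [MonoidHom.mem_ker, ← MonoidHom.comp_apply, hη2]; exact hx
    rw [hkermap] at h4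
    obtain ⟨y, hy, hyx⟩ := h4
    have h5 : x * y⁻¹ ∈ η.ker := by
      rw [MonoidHom.mem_ker, map_mul, map_inv, hyx]; simp
    have h6 : x = (x * y⁻¹) * y := by group
    rw [h6]
    exact Subgroup.mul_mem_sup h5 hy

/-- Uniqueness of covers over the base in the coprime case. -/
theorem unique_of_coprime {Q : Type u} [Group Q] {A : Type v} [CommGroup A] (hA : Cfsg.HasSchurMultiplier Q A)
    (hcop : Nat.Coprime (Nat.card (Abelianization Q)) (Nat.card A))
    {Γ₁ Γ₂ : Type u} [Group Γ₁] [Finite Γ₁] [Group Γ₂] [Finite Γ₂] (σ₁ : Γ₁ →* Q) (σ₂ : Γ₂ →* Q)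
    (h₁ : Cfsg.IsStemExtension σ₁) (h₂ : Cfsg.IsStemExtension σ₂) (hk₁ : Nonempty (σ₁.ker ≃* A))
    (hk₂ : Nonempty (σ₂.ker ≃* A)) : ∃ e : Γ₁ ≃* Γ₂, σ₂.comp e.toMonoidHom = σ₁ := by
  have hQ := hasSchurMultiplier_finite_base hA
  let φ := FreeGroup.lift (id : Q → Q)
  have hφ : Function.Surjective φ := fun q => ⟨FreeGroup.of q, by simp [φ]⟩
  obtain ⟨η₁, ho₁, hs₁, hC₁, hCh₁, hCs₁⟩ := exists_cover_map hA σ₁ h₁ hk₁ φ hφ
  obtain ⟨η₂, ho₂, hs₂, hC₂, hCh₂, hCs₂⟩ := exists_cover_map hA σ₂ h₂ hk₂ φ hφ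
  let C := η₁.ker
  let hC : CommGroup C :=
    { (inferInstance : Group C) with
      mul_comm := fun a b => Subtype.ext ((Subgroup.mem_center_iff.mp (ker_toBase_le_center φ (hC₁ b.2))) a.1) }
  let hK₂ : CommGroup σ₂.ker :=
    { (inferInstance : Group σ₂.ker) with
      mul_comm := fun a b => Subtype.ext ((Subgroup.mem_center_iff.mp (h₂.2.1 b.2)) a.1) }
  -- `C` embeds in `Fᵃᵇ`
  let i : C →* Abelianization (FreeGroup Q) := (toAb φ).comp C.subtype
  have hi : Function.Injective i := by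
    rw [injective_iff_map_eq_one]
    intro x hx
    have h1 : x.1 ∈ (toAb φ).ker := hx
    rw [toAb_ker] at h1
    have h2 : x.1 ∈ C ⊓ hopf φ := ⟨x.2, hC₁ x.2, h1⟩
    rw [hCh₁] at h2
    exact Subtype.ext (Subgroup.mem_bot.mp h2)
  let ei := MonoidHom.ofInjective hi
  set t := Nat.card (Abelianization Q) with ht
  have hpow : ∀ x : Abelianization (FreeGroup Q), x ^ t ∈ i.range := by
    intro x
    have h1 : Abelianization.map φ (x ^ t) = 1 := by rw [map_pow, ht, pow_card_eq_one']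
    obtain ⟨c, hc, hcx⟩ := (ker_map_eq φ hφ C hC₁ hCs₁ _).mp h1
    exact ⟨⟨c, hc⟩, hcx⟩
  let pw : Abelianization (FreeGroup Q) →* i.range :=
    { toFun := fun x => ⟨x ^ t, hpow x⟩
      map_one' := by apply Subtype.ext; simp
      map_mul' := by intro a b; apply Subtype.ext; simp [mul_pow] }
  let g : C →* σ₂.ker :=
    { toFun := fun x => ⟨η₂ x.1, by
        rw [MonoidHom.mem_ker, ← MonoidHom.comp_apply, ho₂]; exact hC₁ x.2⟩
      map_one' := by apply Subtype.ext; simp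
      map_mul' := by intro a b; apply Subtype.ext; simp }
  -- the inverse of `t`
  obtain ⟨e₂⟩ := hk₂
  have hcardK : Nat.card σ₂.ker = Nat.card A := Nat.card_congr e₂.toEquiv
  obtain ⟨t', ht'⟩ : ∃ t' : ℕ, ∀ y : σ₂.ker, (y ^ t) ^ t' = y := by
    have h1 : Nat.Coprime t (Nat.card σ₂.ker) := by rw [hcardK]; exact hcop
    refine ⟨(Int.emod (Nat.gcdA t (Nat.card σ₂.ker)) (Nat.card σ₂.ker)).toNat, fun y => ?_⟩
    have hN : (0 : ℤ) < Nat.card σ₂.ker := by exact_mod_cast Nat.card_pos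
    have h2 : (t : ℤ) * Nat.gcdA t (Nat.card σ₂.ker) + (Nat.card σ₂.ker) * Nat.gcdB t (Nat.card σ₂.ker) = 1 := by
      rw [← Nat.gcd_eq_gcd_ab, h1]; rfl
    have h3 : ((Int.emod (Nat.gcdA t (Nat.card σ₂.ker)) (Nat.card σ₂.ker)).toNat : ℤ)
        = Int.emod (Nat.gcdA t (Nat.card σ₂.ker)) (Nat.card σ₂.ker) :=
      Int.toNat_of_nonneg (Int.emod_nonneg _ hN.ne')
    have h4 : y ^ (Nat.card σ₂.ker : ℤ) = 1 := by rw [zpow_natCast, pow_card_eq_one']
    rw [← pow_mul, ← zpow_natCast]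
    push_cast
    rw [h3]
    have h5 : (t : ℤ) * Int.emod (Nat.gcdA t (Nat.card σ₂.ker)) (Nat.card σ₂.ker)
        = 1 + (Nat.card σ₂.ker : ℤ) * (-(Nat.gcdB t (Nat.card σ₂.ker)) - t * (Nat.gcdA t (Nat.card σ₂.ker) / (Nat.card σ₂.ker : ℤ))) := by
      have h6 := Int.emod_add_mul_ediv (Nat.gcdA t (Nat.card σ₂.ker)) (Nat.card σ₂.ker : ℤ)
      have h7 : Int.emod (Nat.gcdA t (Nat.card σ₂.ker)) (Nat.card σ₂.ker : ℤ)
        = Nat.gcdA t (Nat.card σ₂.ker) - (Nat.card σ₂.ker : ℤ) * (Nat.gcdA t (Nat.card σ₂.ker) / (Nat.card σ₂.ker : ℤ)) := by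
        have : Int.emod (Nat.gcdA t (Nat.card σ₂.ker)) (Nat.card σ₂.ker : ℤ) = (Nat.gcdA t (Nat.card σ₂.ker)) % (Nat.card σ₂.ker : ℤ) := rfl
        rw [this]; linarith
      rw [h7]
      linear_combination h2
    rw [h5, zpow_add, zpow_one, zpow_mul, h4, one_zpow, mul_one]
  let h : FreeGroup Q ⧸ relComm φ →* σ₂.ker :=
    ((powMonoidHom t').comp ((invMonoidHom.comp g).comp (ei.symm.toMonoidHom.comp pw))).comp (toAb φ)
  have hh : ∀ c : C, h c.1 = (g c)⁻¹ := by
    intro c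
    show ((g (ei.symm (pw (i c))))⁻¹) ^ t' = _
    have h1 : pw (i c) = ei (c ^ t) := by
      apply Subtype.ext
      show (i c) ^ t = i (c ^ t)
      rw [map_pow]
    rw [h1, ei.symm_apply_apply, map_pow, inv_pow, ht']
  let θ : FreeGroup Q ⧸ relComm φ →* Γ₂ :=
    { toFun := fun x => η₂ x * (h x).1
      map_one' := by simp
      map_mul' := by
        intro a b
        have hc := Subgroup.mem_center_iff.mp (h₂.2.1 (h a).2) (η₂ b)
        rw [map_mul, map_mul, Subgroup.coe_mul]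
        calc η₂ a * η₂ b * ((h a).1 * (h b).1) = η₂ a * (η₂ b * (h a).1) * (h b).1 := by group
          _ = η₂ a * ((h a).1 * η₂ b) * (h b).1 := by rw [hc]
          _ = η₂ a * (h a).1 * (η₂ b * (h b).1) := by group }
  have hθ : σ₂.comp θ = toBase φ := by
    refine MonoidHom.ext fun x => ?_
    show σ₂ (η₂ x * (h x).1) = _
    rw [map_mul, MonoidHom.mem_ker.mp (h x).2, mul_one, ← ho₂]; rfl
  have hθk : η₁.ker ≤ θ.ker := by
    intro x hx
    show η₂ x * (h x).1 = 1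
    rw [hh ⟨x, hx⟩]
    show η₂ x * (η₂ x)⁻¹ = 1
    rw [mul_inv_cancel]
  let ε : Γ₁ →* Γ₂ := (η₁.liftOfSurjective hs₁) ⟨θ, hθk⟩
  have hε : ∀ x, ε (η₁ x) = θ x := fun x => MonoidHom.liftOfRightInverse_comp_apply _ _ _ _ _
  have hεo : σ₂.comp ε = σ₁ := by
    refine MonoidHom.ext fun y => ?_
    obtain ⟨x, rfl⟩ := hs₁ y
    show σ₂ (ε (η₁ x)) = σ₁ (η₁ x)
    rw [hε, ← MonoidHom.comp_apply, hθ, ← ho₁]; rfl
  have hεs : Function.Surjective ε := surjective_of_stem σ₂ h₂.2.1 h₂.2.2 ε (by rw [hεo]; exact h₁.1)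
  have hcards : Nat.card Γ₁ = Nat.card Γ₂ := by
    obtain ⟨e₁⟩ := hk₁
    rw [← σ₁.ker.card_mul_index, ← σ₂.ker.card_mul_index, Subgroup.index_ker, Subgroup.index_ker,
      MonoidHom.range_eq_top.mpr h₁.1, MonoidHom.range_eq_top.mpr h₂.1, hcardK, Nat.card_congr e₁.toEquiv]
  exact ⟨MulEquiv.ofBijective ε ((Nat.bijective_iff_surjective_and_card ε).mpr ⟨hεs, hcards⟩), hεo⟩

/-- Non-isomorphic covers in the non-coprime case. -/
theorem coprime_of_unique {Q : Type u} [Group Q] {A : Type v} [CommGroup A] (hA : Cfsg.HasSchurMultiplier Q A)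
    (h : ∀ (Γ₁ Γ₂ : Type u) [Group Γ₁] [Finite Γ₁] [Group Γ₂] [Finite Γ₂] (σ₁ : Γ₁ →* Q) (σ₂ : Γ₂ →* Q),
      Cfsg.IsStemExtension σ₁ → Cfsg.IsStemExtension σ₂ → Nonempty (σ₁.ker ≃* A) → Nonempty (σ₂.ker ≃* A) →
      ∃ e : Γ₁ ≃* Γ₂, σ₂.comp e.toMonoidHom = σ₁) : Nat.Coprime (Nat.card (Abelianization Q)) (Nat.card A) := by
  by_contra hnc
  obtain ⟨p, hp, hpt, hpA⟩ := Nat.Prime.not_coprime_iff_dvd.mp hnc
  have hpF : Fact p.Prime := ⟨hp⟩
  have hQ := hasSchurMultiplier_finite_base hA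
  let φ := FreeGroup.lift (id : Q → Q)
  have hφ : Function.Surjective φ := fun q => ⟨FreeGroup.of q, by simp [φ]⟩
  obtain ⟨eA⟩ := equiv_hopf hA φ hφ
  have hfin : Finite (hopf φ) := finite_hopf φ
  obtain ⟨C, hC, hC1, hC2⟩ := exists_complement_hopf (φ := φ) (toBase φ).ker le_rfl le_sup_left
  let hCc : CommGroup C :=
    { (inferInstance : Group C) with
      mul_comm := fun a b => Subtype.ext ((Subgroup.mem_center_iff.mp (ker_toBase_le_center φ (hC b.2))) a.1) }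
  have htf : IsMulTorsionFree (Abelianization (FreeGroup Q)) := isMulTorsionFree_abelianization
  let i : C →* Abelianization (FreeGroup Q) := (toAb φ).comp C.subtype
  have hi : Function.Injective i := by
    rw [injective_iff_map_eq_one]
    intro x hx
    have h1 : x.1 ∈ (toAb φ).ker := hx
    rw [toAb_ker] at h1
    have h2 : x.1 ∈ C ⊓ hopf φ := ⟨x.2, hC x.2, h1⟩
    rw [hC1] at h2
    exact Subtype.ext (Subgroup.mem_bot.mp h2)
  -- an element of `C` which is a `p`-th power in `Fᵃᵇ` only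
  obtain ⟨y, hy⟩ := exists_prime_orderOf_dvd_card' (G := Abelianization Q) p hpt
  obtain ⟨x, hx⟩ : ∃ x : Abelianization (FreeGroup Q), Abelianization.map φ x = y := by
    obtain ⟨q, rfl⟩ := QuotientGroup.mk_surjective y
    obtain ⟨f, rfl⟩ := hφ q
    exact ⟨Abelianization.of f, rfl⟩
  have hxp : Abelianization.map φ (x ^ p) = 1 := by rw [map_pow, hx, ← hy, pow_orderOf_eq_one]
  obtain ⟨c₀, hc₀, hcx⟩ := (ker_map_eq φ hφ C hC hC2 _).mp hxp
  let c : C := ⟨c₀, hc₀⟩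
  have hcx' : i c = x ^ p := hcx
  have hcp : ∀ d : C, d ^ p ≠ c := by
    intro d hd
    have h1 : (i d) ^ p = x ^ p := by rw [← map_pow, hd, hcx']
    have h2 : i d = x := IsMulTorsionFree.pow_left_injective hp.ne_zero h1
    have h3 : Abelianization.map φ x = 1 := (ker_map_eq φ hφ C hC hC2 _).mpr ⟨d.1, d.2, h2⟩
    rw [hx] at h3
    rw [h3, orderOf_one] at hy
    exact hp.one_lt.ne hy
  -- a coordinate
  have hFGab : Module.Finite ℤ (Additive (Abelianization (FreeGroup Q))) := by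
    rw [Module.Finite.iff_addGroup_fg]
    have : Group.FG (Abelianization (FreeGroup Q)) :=
      Group.fg_of_surjective (f := Abelianization.of) (QuotientGroup.mk'_surjective _)
    infer_instance
  let iL : Additive C →ₗ[ℤ] Additive (Abelianization (FreeGroup Q)) := (MonoidHom.toAdditive i).toIntLinearMap
  have hFC : Module.Finite ℤ (Additive C) := Module.Finite.of_injective iL hi
  have htC : IsMulTorsionFree C := hi.isMulTorsionFree i
  have htC' : IsAddTorsionFree (Additive C) := inferInstance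
  have hfree : Module.Free ℤ (Additive C) := Module.free_of_finite_type_torsion_free'
  let b := Module.finBasis ℤ (Additive C)
  obtain ⟨j, hj⟩ : ∃ j, ¬ (p : ℤ) ∣ b.repr (Additive.ofMul c) j := by
    by_contra hall
    push Not at hall
    choose k hk using hall
    apply hcp (Additive.toMul (∑ j, k j • b j))
    have h1 : Additive.ofMul c = (p : ℤ) • ∑ j, k j • b j := by
      conv_lhs => rw [← b.sum_repr (Additive.ofMul c)]
      rw [Finset.smul_sum]
      refine Finset.sum_congr rfl fun j _ => ?_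
      rw [hk j, mul_smul]
    rw [natCast_zsmul] at h1
    exact (congrArg Additive.toMul h1).symm
  let lam : Additive C →+ ℤ := (b.coord j).toAddMonoidHom
  have hlam : ¬ (p : ℤ) ∣ lam (Additive.ofMul c) := hj
  -- a non `p`-th power
  obtain ⟨z, hz⟩ : ∃ z : hopf φ, ∀ w : hopf φ, w ^ p ≠ z := by
    by_contra hall
    push Not at hall
    have hsurj : Function.Surjective (powMonoidHom p : hopf φ →* hopf φ) := fun z => hall z
    have hinj := Finite.injective_iff_surjective.mpr hsurj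
    have hpc : p ∣ Nat.card (hopf φ) := by rw [← Nat.card_congr eA.toEquiv]; exact hpA
    obtain ⟨w, hw⟩ := exists_prime_orderOf_dvd_card' (G := hopf φ) p hpc
    have h1 : w = 1 := hinj (by
      show w ^ p = 1 ^ p
      rw [one_pow, ← hw, pow_orderOf_eq_one])
    rw [h1, orderOf_one] at hw
    exact hp.one_lt.ne hw
  let θ : C →* hopf φ :=
    { toFun := fun d => z ^ (lam (Additive.ofMul d))
      map_one' := by simp
      map_mul' := by intro a b; rw [ofMul_mul, map_add, zpow_add] }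
  -- the second complement
  have hcen : ∀ d : C, ∀ g, g * d.1 = d.1 * g := fun d g =>
    Subgroup.mem_center_iff.mp (ker_toBase_le_center φ (hC d.2)) g
  have hcenh : ∀ d : hopf φ, ∀ g, g * d.1 = d.1 * g := fun d g =>
    Subgroup.mem_center_iff.mp (hopf_le_center φ d.2) g
  let κ : C →* FreeGroup Q ⧸ relComm φ :=
    { toFun := fun d => d.1 * (θ d).1
      map_one' := by simp
      map_mul' := by
        intro a b
        rw [map_mul, Subgroup.coe_mul, Subgroup.coe_mul]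
        calc a.1 * b.1 * ((θ a).1 * (θ b).1) = a.1 * (b.1 * (θ a).1) * (θ b).1 := by group
          _ = a.1 * ((θ a).1 * b.1) * (θ b).1 := by rw [hcenh (θ a) b.1]
          _ = a.1 * (θ a).1 * (b.1 * (θ b).1) := by group }
  let C' := κ.range
  have hC' : C' ≤ (toBase φ).ker := by
    rintro _ ⟨d, rfl⟩
    exact mul_mem (hC d.2) (hopf_le_ker φ (θ d).2)
  have hC1' : C' ⊓ hopf φ = ⊥ := by
    rw [eq_bot_iff]
    rintro _ ⟨⟨d, rfl⟩, hd⟩
    have h1 : d.1 ∈ C ⊓ hopf φ := by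
      refine ⟨d.2, ?_⟩
      have h2 : d.1 * (θ d).1 ∈ hopf φ := hd
      have h3 := mul_mem h2 (inv_mem (θ d).2)
      simpa using h3
    rw [hC1] at h1
    have h2 : d = 1 := Subtype.ext (Subgroup.mem_bot.mp h1)
    rw [h2, map_one]
    exact Subgroup.mem_bot.mpr rfl
  have hC2' : (toBase φ).ker ≤ C' ⊔ hopf φ := by
    intro w hw
    obtain ⟨d, hd, m, hm, hdm⟩ := Subgroup.mem_sup_of_normal_right.mp (hC2 hw)
    have h1 : w = κ ⟨d, hd⟩ * ((θ ⟨d, hd⟩)⁻¹.1 * m) := by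
      rw [← hdm]
      show d * m = d * (θ ⟨d, hd⟩).1 * ((θ ⟨d, hd⟩).1⁻¹ * m)
      group
    rw [h1]
    exact Subgroup.mul_mem_sup ⟨_, rfl⟩ (mul_mem (θ ⟨d, hd⟩)⁻¹.2 hm)
  have hn : C.Normal := normal_of_le_ker φ C hC
  have hn' : C'.Normal := normal_of_le_ker φ C' hC'
  have hst := isStemExtension_coverMap hφ C hC hC2
  have hst' := isStemExtension_coverMap hφ C' hC' hC2'
  obtain ⟨e₁⟩ := ker_coverMap C hC hC1 hC2
  obtain ⟨e₂⟩ := ker_coverMap C' hC' hC1' hC2'
  have hfk : Finite (coverMap φ C hC).ker := Finite.of_equiv _ e₁.symm.toEquiv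
  have hf : Finite ((FreeGroup Q ⧸ relComm φ) ⧸ C) := finite_of_finite_ker (coverMap φ C hC)
  have hfk' : Finite (coverMap φ C' hC').ker := Finite.of_equiv _ e₂.symm.toEquiv
  have hf' : Finite ((FreeGroup Q ⧸ relComm φ) ⧸ C') := finite_of_finite_ker (coverMap φ C' hC')
  obtain ⟨e, he⟩ := h _ _ (coverMap φ C hC) (coverMap φ C' hC') hst hst' ⟨e₁.trans eA.symm⟩ ⟨e₂.trans eA.symm⟩
  let q₁ := QuotientGroup.mk' C
  let q₂ := QuotientGroup.mk' C'
  have hdiff : ∀ w, (e (q₁ w))⁻¹ * q₂ w ∈ (coverMap φ C' hC').ker := by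
    intro w
    rw [MonoidHom.mem_ker, map_mul, map_inv]
    have h1 : coverMap φ C' hC' (e (q₁ w)) = coverMap φ C hC (q₁ w) := DFunLike.congr_fun he (q₁ w)
    rw [h1]
    show (toBase φ w)⁻¹ * toBase φ w = 1
    rw [inv_mul_cancel]
  let η : FreeGroup Q ⧸ relComm φ →* (FreeGroup Q ⧸ relComm φ) ⧸ C' :=
    { toFun := fun w => (e (q₁ w))⁻¹ * q₂ w
      map_one' := by simp
      map_mul' := by
        intro a b
        have hc := Subgroup.mem_center_iff.mp (hst'.2.1 (hdiff a)) (e (q₁ b))⁻¹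
        rw [map_mul, map_mul, map_mul, mul_inv_rev]
        calc (e (q₁ b))⁻¹ * (e (q₁ a))⁻¹ * (q₂ a * q₂ b) = (e (q₁ b))⁻¹ * ((e (q₁ a))⁻¹ * q₂ a) * q₂ b := by group
          _ = (e (q₁ a))⁻¹ * q₂ a * (e (q₁ b))⁻¹ * q₂ b := by rw [hc]
          _ = (e (q₁ a))⁻¹ * q₂ a * ((e (q₁ b))⁻¹ * q₂ b) := by group }
  have hηc : _root_.commutator (FreeGroup Q ⧸ relComm φ) ≤ η.ker := by
    rw [_root_.commutator_def, Subgroup.commutator_le]
    intro a _ b _
    rw [MonoidHom.mem_ker, map_commutatorElement, commutatorElement_eq_one_iff_mul_comm]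
    exact Subgroup.mem_center_iff.mp (hst'.2.1 (hdiff b)) (η a)
  have hηC : η c.1 = (q₂ (θ c).1)⁻¹ := by
    show (e (q₁ c.1))⁻¹ * q₂ c.1 = _
    have h1 : q₁ c.1 = 1 := (QuotientGroup.eq_one_iff _).mpr c.2
    have h2 : q₂ (c.1 * (θ c).1) = 1 := (QuotientGroup.eq_one_iff _).mpr ⟨c, rfl⟩
    rw [map_mul] at h2
    rw [h1, map_one, inv_one, one_mul]
    exact eq_inv_of_mul_eq_one_left h2
  -- a preimage of `x`
  obtain ⟨f, hf0⟩ := QuotientGroup.mk_surjective (s := _root_.commutator (FreeGroup Q)) x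
  let f₀ : FreeGroup Q ⧸ relComm φ := QuotientGroup.mk f
  have hf₀ : toAb φ f₀ = x := hf0
  have h3 : f₀ ^ p * c.1⁻¹ ∈ η.ker := by
    apply hηc
    rw [← toAb_ker, MonoidHom.mem_ker, map_mul, map_pow, map_inv, hf₀]
    show x ^ p * (i c)⁻¹ = 1
    rw [hcx', mul_inv_cancel]
  have h4 : (η f₀) ^ p = (q₂ (θ c).1)⁻¹ := by
    rw [← hηC]
    rw [MonoidHom.mem_ker, map_mul, map_inv, map_pow] at h3
    exact mul_inv_eq_one.mp h3
  obtain ⟨w, hw⟩ : ∃ w : hopf φ, q₂ w.1 = η f₀ := by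
    obtain ⟨v, hv⟩ := QuotientGroup.mk_surjective (η f₀)
    have hv' : v ∈ (toBase φ).ker := by
      have h5 : coverMap φ C' hC' (QuotientGroup.mk v) = 1 := by rw [hv]; exact hdiff f₀
      exact h5
    obtain ⟨d, hd, m, hm, hdm⟩ := Subgroup.mem_sup_of_normal_right.mp (hC2' hv')
    refine ⟨⟨m, hm⟩, ?_⟩
    rw [← hv, ← hdm]
    have h6 : q₂ d = 1 := (QuotientGroup.eq_one_iff _).mpr hd
    show q₂ m = q₂ (d * m)
    rw [map_mul, h6, one_mul]
  have h5 : w ^ p * θ c = 1 := by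
    have h6 : q₂ (w ^ p * θ c).1 = 1 := by
      show q₂ (w.1 ^ p * (θ c).1) = 1
      rw [map_mul, map_pow, hw, h4, inv_mul_cancel]
    have h7 : (w ^ p * θ c).1 ∈ C' ⊓ hopf φ := ⟨(QuotientGroup.eq_one_iff _).mp h6, (w ^ p * θ c).2⟩
    rw [hC1'] at h7
    exact Subtype.ext (Subgroup.mem_bot.mp h7)
  have h6 : z ^ (lam (Additive.ofMul c)) = (w⁻¹) ^ p := by
    rw [inv_pow]
    exact eq_inv_of_mul_eq_one_right h5
  have h7 : IsCoprime (lam (Additive.ofMul c)) (p : ℤ) := by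
    rw [isCoprime_comm]
    exact (Int.prime_iff_natAbs_prime.mpr (by simpa using hp)).coprime_iff_not_dvd.mpr hlam
  obtain ⟨α, β, hαβ⟩ := h7
  apply hz ((w⁻¹) ^ α * z ^ β)
  rw [mul_pow, ← zpow_natCast, ← zpow_mul, mul_comm α, zpow_mul, zpow_natCast, ← h6, ← zpow_mul,
    ← zpow_natCast, ← zpow_mul, ← zpow_add]
  rw [mul_comm (lam _), hαβ, zpow_one]

/-- Let `Q` be a finite group with Schur multiplier `A`. Any two Schur covering groups of `Q` (finite stem extensions `σ₁ : Γ₁ →* Q`, `σ₂ : Γ₂ →* Q` with kernels isomorphic to `A`, `Γ₁, Γ₂` in the universe of `Q`) are isomorphic over `Q` — there is a group isomorphism `e : Γ₁ ≃* Γ₂` with `σ₂ ∘ e = σ₁` — if and only if the order of the commutator quotient of `Q` is coprime to the order of `A`. In particular a finite perfect group has a unique Schur covering group up to isomorphism over it. -/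
theorem result {Q : Type u} [Group Q] [Finite Q] {A : Type v} [CommGroup A] (hA : Cfsg.HasSchurMultiplier Q A) : (∀ (Γ₁ Γ₂ : Type u) [Group Γ₁] [Finite Γ₁] [Group Γ₂] [Finite Γ₂] (σ₁ : Γ₁ →* Q) (σ₂ : Γ₂ →* Q), Cfsg.IsStemExtension σ₁ → Cfsg.IsStemExtension σ₂ → Nonempty (σ₁.ker ≃* A) → Nonempty (σ₂.ker ≃* A) → ∃ e : Γ₁ ≃* Γ₂, σ₂.comp e.toMonoidHom = σ₁) ↔ Nat.Coprime (Nat.card (Abelianization Q)) (Nat.card A) := by
  constructor
  · intro h
    exact coprime_of_unique hA h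
  · intro h Γ₁ Γ₂ _ _ _ _ σ₁ σ₂ h₁ h₂ hk₁ hk₂
    exact unique_of_coprime hA h σ₁ σ₂ h₁ h₂ hk₁ hk₂

end Cfsg.Agent.S3974
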