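import Cfsg.Statements.S3976
import Cfsg.Agent.FrobThm.Wielandt

set_option autoImplicit false
open Cfsg

namespace Cfsg.Agent.S3976

section
open scoped Pointwise

/-- the subgroups of order `k` -/
@[ext]
structure SubOf (G : Type*) [Group G] (k : ℕ) where
  /-- the subgroup -/
  val : Subgroup G
  prop : Nat.card val = k

instance subOfAction (G : Type*) [Group G] (k : ℕ) : MulAction G (SubOf G k) where
  smul g X := ⟨MulAut.conj g • X.1, by
    have h : Nat.card ((MulAut.conj g • X.1 : Subgroup G)) = Nat.card X.1 :=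
      Nat.card_congr (Subgroup.equivSMul (MulAut.conj g) X.1).symm.toEquiv
    rw [h]; exact X.2⟩
  one_smul X := SubOf.ext (by
    show MulAut.conj (1 : G) • X.1 = X.1
    rw [map_one, one_smul])
  mul_smul g h X := SubOf.ext (by
    show MulAut.conj (g * h) • X.1 = MulAut.conj g • (MulAut.conj h • X.1)
    rw [map_mul, mul_smul])

theorem mem_fixed (G : Type*) [Group G] (k : ℕ) (X : SubOf G k) :
    X ∈ MulAction.fixedPoints G (SubOf G k) ↔ X.1.Normal := by
  rw [MulAction.mem_fixedPoints]
  constructor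
  · intro h
    refine ⟨fun n hn g => ?_⟩
    have h1 : MulAut.conj g • X.1 = X.1 := congrArg SubOf.val (h g)
    rw [← h1]
    exact Subgroup.smul_mem_pointwise_smul n (MulAut.conj g) X.1 hn
  · intro h g
    apply SubOf.ext
    show MulAut.conj g • X.1 = X.1
    exact Subgroup.Normal.conj_smul_eq_self g X.1

end

/-- Let `p` be a prime and `G` a group of order `p ^ m`. For every `s ≤ m` the number of normal subgroups of `G` of order `p ^ s` is congruent to `1` modulo `p`. -/
theorem result {G : Type*} [Group G] [Finite G] (p m s : ℕ) (hp : p.Prime) (hG : Nat.card G = p ^ m) (hs : s ≤ m) : Nat.card {H : Subgroup G // H.Normal ∧ Nat.card H = p ^ s} ≡ 1 [MOD p] := by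
  classical
  have hpf : Fact p.Prime := ⟨hp⟩
  have hP : IsPGroup p G := IsPGroup.of_card hG
  have h1 := Cfsg.Agent.FrobThm.card_subgroups_modEq_one (G := G) p s hp (by rw [hG]; exact pow_dvd_pow p hs)
  have hfin : Finite (SubOf G (p ^ s)) :=
    Finite.of_injective (fun X : SubOf G (p ^ s) => X.val) (fun _ _ h => SubOf.ext h)
  have h2 := hP.card_modEq_card_fixedPoints (SubOf G (p ^ s))
  have e1 : Nat.card (SubOf G (p ^ s)) = Nat.card {H : Subgroup G // Nat.card H = p ^ s} :=
    Nat.card_congr ⟨fun X => ⟨X.1, X.2⟩, fun X => ⟨X.1, X.2⟩, fun _ => rfl, fun _ => rfl⟩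
  have e2 : Nat.card (MulAction.fixedPoints G (SubOf G (p ^ s))) =
      Nat.card {H : Subgroup G // H.Normal ∧ Nat.card H = p ^ s} :=
    Nat.card_congr ⟨fun X => ⟨X.1.1, (mem_fixed G _ X.1).1 X.2, X.1.2⟩,
      fun X => ⟨⟨X.1, X.2.2⟩, (mem_fixed G _ ⟨X.1, X.2.2⟩).2 X.2.1⟩, fun _ => rfl, fun _ => rfl⟩
  rw [e1, e2] at h2
  exact h2.symm.trans h1

end Cfsg.Agent.S3976
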