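import Cfsg.Statements.S3977
import Cfsg.Agent.FrobThm.Wielandt
import Cfsg.Agent.MaxClass.UniqueOrderP

set_option autoImplicit false
open Cfsg

namespace Cfsg.Agent.S3977

/-- Let `p` be a prime and `G` a group of order `p ^ m` which has exactly one subgroup of order `p ^ s`, where `1 ≤ s < m`, and where `s ≥ 2` if `p = 2`. Then `G` is cyclic. (For `p = 2` and `s = 1` the generalized quaternion groups also occur; that case is the classical criterion for a unique involution.) -/
theorem result {G : Type*} [Group G] [Finite G] (p m s : ℕ) (hp : p.Prime) (hG : Nat.card G = p ^ m) (hs : 1 ≤ s) (hsm : s < m) (h2 : p ≠ 2 ∨ 2 ≤ s) (huniq : ∀ H K : Subgroup G, Nat.card H = p ^ s → Nat.card K = p ^ s → H = K) : IsCyclic G := by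
  classical
  have hpf : Fact p.Prime := ⟨hp⟩
  have hP : IsPGroup p G := IsPGroup.of_card hG
  -- the unique subgroup
  obtain ⟨H, hH⟩ := Sylow.exists_subgroup_card_pow_prime (G := G) p (n := s) (by rw [hG]; exact pow_dvd_pow p hsm.le)
  -- small subgroups are contained in H
  have hsmall : ∀ K : Subgroup G, ∀ j ≤ s, Nat.card K = p ^ j → K ≤ H := by
    intro K j hj hK
    obtain ⟨L, hL, hKL⟩ := Sylow.exists_subgroup_card_pow_prime_le (G := G) p (n := j) (m := s)
      (by rw [hG]; exact pow_dvd_pow p hsm.le) K hK hj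
    rw [huniq H L hH hL]
    exact hKL
  -- an element outside H
  have hHne : H ≠ ⊤ := by
    intro h
    rw [h, Subgroup.card_top, hG] at hH
    exact hsm.ne (Nat.pow_right_injective hp.two_le hH).symm
  obtain ⟨x, hx⟩ : ∃ x, x ∉ H := by
    by_contra hcon
    push Not at hcon
    exact hHne (eq_top_iff.2 (fun x _ => hcon x))
  obtain ⟨k, hk⟩ := (IsPGroup.iff_orderOf.1 hP) x
  have hks : s < k := by
    by_contra hle
    push Not at hle
    exact hx (hsmall (Subgroup.zpowers x) k hle (by rw [Nat.card_zpowers, hk]) (Subgroup.mem_zpowers x))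
  have hcyc : IsCyclic H := by
    have h1 : orderOf (x ^ (p ^ (k - s))) = p ^ s := by
      rw [orderOf_pow_of_dvd (pow_ne_zero _ hp.ne_zero) (by rw [hk]; exact pow_dvd_pow p (by omega)), hk,
        Nat.pow_div (by omega) hp.pos]
      congr 1
      omega
    have h2 : H = Subgroup.zpowers (x ^ (p ^ (k - s))) :=
      huniq _ _ hH (by rw [Nat.card_zpowers, h1])
    rw [h2]
    infer_instance
  -- unique subgroup of order p
  have hu : ∀ A B : Subgroup G, Nat.card A = p → Nat.card B = p → A = B := by
    have key : ∀ A : Subgroup G, Nat.card A = p → ∀ h ∈ A, h ∈ H ∧ h ^ p = 1 := by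
      intro A hA h hh
      refine ⟨hsmall A 1 hs (by rw [pow_one]; exact hA) hh, ?_⟩
      have := pow_card_eq_one' (x := (⟨h, hh⟩ : A))
      rw [hA] at this
      exact congrArg Subtype.val this
    have hset : ∀ A : Subgroup G, Nat.card A = p → (A : Set G) = {h | h ∈ H ∧ h ^ p = 1} := by
      intro A hA
      refine Set.eq_of_subset_of_ncard_le (s := (A : Set G)) (t := {h | h ∈ H ∧ h ^ p = 1})
        (fun h hh => key A hA h hh) ?_ (Set.toFinite _)
      rw [← Nat.card_coe_set_eq, ← Nat.card_coe_set_eq]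
      have h3 : Nat.card (A : Set G) = p := hA
      rw [h3]
      cases nonempty_fintype H
      have h4 := IsCyclic.card_pow_eq_one_le (α := H) (n := p) hp.pos
      have h5 : Nat.card {h : G | h ∈ H ∧ h ^ p = 1} = (Finset.univ.filter (fun a : H => a ^ p = 1)).card := by
        rw [← Fintype.card_subtype, ← Nat.card_eq_fintype_card]
        exact Nat.card_congr
          ⟨fun a => ⟨⟨a.1, a.2.1⟩, Subtype.ext a.2.2⟩, fun a => ⟨a.1.1, a.1.2, by simpa using congrArg Subtype.val a.2⟩,
            fun _ => rfl, fun _ => rfl⟩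
      rw [h5]; exact h4
    intro A B hA hB
    exact SetLike.coe_injective ((hset A hA).trans (hset B hB).symm)
  rcases Cfsg.Agent.MaxClass.cyclic_or_quaternion hP hu with hc | ⟨hp2, n, ⟨e⟩⟩
  · exact hc
  · exfalso
    subst hp2
    have hs2 : 2 ≤ s := by
      rcases h2 with h | h
      · exact absurd rfl h
      · exact h
    have hNZ : NeZero (2 ^ n) := ⟨pow_ne_zero _ two_ne_zero⟩
    -- every element xa i lies in H
    have h3 : ∀ i : ZMod (2 * 2 ^ n), e.symm (QuaternionGroup.xa i) ∈ H := by
      intro i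
      have h4 : orderOf (e.symm (QuaternionGroup.xa i)) = 2 ^ 2 := by
        rw [MulEquiv.orderOf_eq, QuaternionGroup.orderOf_xa]
        norm_num
      exact hsmall (Subgroup.zpowers _) 2 hs2 (by rw [Nat.card_zpowers, h4]) (Subgroup.mem_zpowers _)
    apply hHne
    rw [eq_top_iff]
    intro g _
    obtain ⟨g', rfl⟩ := e.symm.surjective g
    rcases g' with i | i
    · have h5 : (QuaternionGroup.a i : QuaternionGroup (2 ^ n)) =
          (QuaternionGroup.xa 0)⁻¹ * QuaternionGroup.xa i := by
        rw [eq_inv_mul_iff_mul_eq, QuaternionGroup.xa_mul_a, zero_add]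
      rw [h5, map_mul, map_inv]
      exact H.mul_mem (H.inv_mem (h3 0)) (h3 i)
    · exact h3 i

end Cfsg.Agent.S3977
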