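import Cfsg.Statements.S3978
import Mathlib
import Cfsg.Agent.S3955
import Cfsg.Agent.S3956

set_option autoImplicit false
open Cfsg

namespace Cfsg.Agent.S3978

open Cfsg.Agent.SchurMult

/-- A finite group `Q` has trivial Schur multiplier if and only if, for every `n`, every homomorphism from `Q` to the projective general linear group (the quotient of `GL n ℂ` by its centre) lifts to a homomorphism into `GL n ℂ`. -/
theorem result {Q : Type*} [Group Q] [Finite Q] : Cfsg.HasCyclicSchurMultiplier Q 1 ↔ ∀ (n : ℕ) (γ : Q →* (GL (Fin n) ℂ ⧸ Subgroup.center (GL (Fin n) ℂ))), ∃ ρ : Q →* GL (Fin n) ℂ, (QuotientGroup.mk' (Subgroup.center (GL (Fin n) ℂ))).comp ρ = γ := by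
  have hid : Cfsg.IsStemExtension (MonoidHom.id Q) := by
    refine ⟨Function.surjective_id, ?_, ?_⟩
    · rw [MonoidHom.ker_id]; exact bot_le
    · rw [MonoidHom.ker_id]; exact bot_le
  have hsub : Subsingleton (MonoidHom.id Q).ker := by
    rw [MonoidHom.ker_id]; infer_instance
  constructor
  · intro h n γ
    have h1 : Subsingleton (Multiplicative (ZMod 1)) := inferInstanceAs (Subsingleton (ZMod 1))
    have h2 : Unique (Multiplicative (ZMod 1)) := Unique.mk' _
    have h3 : Unique (MonoidHom.id Q).ker := @Unique.mk' _ ⟨1⟩ hsub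
    obtain ⟨ρ, hρ⟩ := Cfsg.Agent.S3955.result h (MonoidHom.id Q) hid ⟨MulEquiv.ofUnique⟩ n γ
    exact ⟨ρ, by rw [hρ, MonoidHom.comp_id]⟩
  · intro h
    rw [hasCyclicSchurMultiplier_one_iff]
    intro Δ _ _ τ hτ
    obtain ⟨π, hπ⟩ := Cfsg.Agent.S3956.result (MonoidHom.id Q) hid (by
      intro n γ
      obtain ⟨ρ, hρ⟩ := h n γ
      exact ⟨ρ, by rw [hρ, MonoidHom.comp_id]⟩) Δ τ hτ
    have : Subsingleton τ.ker := hπ.subsingleton
    exact Subgroup.eq_bot_of_subsingleton _

end Cfsg.Agent.S3978
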