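import Cfsg.Statements.S3980
import Mathlib
import Cfsg.Agent.SchurMult.Product

set_option autoImplicit false
universe u v w
open Cfsg

namespace Cfsg.Agent.S3980

open Cfsg.Agent.SchurMult

/-- Let `Q₁` and `Q₂` be finite groups whose commutator quotients have coprime orders, with Schur multipliers `A` and `B`. Then the Schur multiplier of `Q₁ × Q₂` is isomorphic to `A × B`. -/
theorem result {Q₁ : Type u} {Q₂ : Type v} [Group Q₁] [Group Q₂] [Finite Q₁] [Finite Q₂] {A B : Type w} [CommGroup A] [CommGroup B] (hA : Cfsg.HasSchurMultiplier Q₁ A) (hB : Cfsg.HasSchurMultiplier Q₂ B) (hcop : Nat.Coprime (Nat.card (Abelianization Q₁)) (Nat.card (Abelianization Q₂))) : Cfsg.HasSchurMultiplier (Q₁ × Q₂) (A × B) := by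
  have h := hasSchurMultiplier_prod hA hB
  have hF1 := hasSchurMultiplier_finite_base hA
  have hF2 := hasSchurMultiplier_finite_base hB
  have ht : ∀ (a : Q₁) (b : Q₂), abTmul a b = 1 := by
    intro a b
    have h1 : (abTmul a b) ^ Nat.card (Abelianization Q₁) = 1 := by
      unfold abTmul
      rw [← ofAdd_nsmul, TensorProduct.smul_tmul', ← ofMul_pow, pow_card_eq_one', ofMul_one,
        TensorProduct.zero_tmul, ofAdd_zero]
    have h2 : (abTmul a b) ^ Nat.card (Abelianization Q₂) = 1 := by
      unfold abTmul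
      rw [← ofAdd_nsmul, ← TensorProduct.tmul_smul, ← ofMul_pow, pow_card_eq_one', ofMul_one,
        TensorProduct.tmul_zero, ofAdd_zero]
    have h3 : orderOf (abTmul a b) ∣ 1 := by
      rw [← hcop]
      exact Nat.dvd_gcd (orderOf_dvd_of_pow_eq_one h1) (orderOf_dvd_of_pow_eq_one h2)
    exact orderOf_eq_one_iff.mp (Nat.dvd_one.mp h3)
  have hsub : Subsingleton (AbTensor Q₁ Q₂) := by
    constructor
    have h4 : ∀ t : AbTensor Q₁ Q₂, t = 1 := by
      intro t
      have h5 : t ∈ Subgroup.closure {t : AbTensor Q₁ Q₂ | ∃ a b, t = abTmul a b} := by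
        rw [closure_abTmul]; exact Subgroup.mem_top t
      have h6 : Subgroup.closure {t : AbTensor Q₁ Q₂ | ∃ a b, t = abTmul a b} ≤ ⊥ := by
        rw [Subgroup.closure_le]
        rintro _ ⟨a, b, rfl⟩
        exact Subgroup.mem_bot.mpr (ht a b)
      exact Subgroup.mem_bot.mp (h6 h5)
    intro s t
    rw [h4 s, h4 t]
  have e : (A × B × AbTensor Q₁ Q₂) ≃* (A × B) :=
    { toFun := fun x => (x.1, x.2.1)
      invFun := fun x => (x.1, x.2, 1)
      left_inv := fun ⟨a, b, t⟩ => by
        show (a, b, (1 : AbTensor Q₁ Q₂)) = (a, b, t)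
        rw [Subsingleton.elim 1 t]
      right_inv := fun x => rfl
      map_mul' := fun x y => rfl }
  exact hasSchurMultiplier_congr e h

end Cfsg.Agent.S3980
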