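import Cfsg.Statements.S3992
import Cfsg.Agent.H66.Eppo

set_option autoImplicit false
open Cfsg

namespace Cfsg.Agent.S3992

open Cfsg.Agent.H66

/-- Let G be a finite non-solvable group in which every element has prime-power order, and let R be its largest solvable normal subgroup. Then R is a p-group for some prime p; G/R has a non-abelian simple normal subgroup contained in every nontrivial normal subgroup of G/R (its unique minimal normal subgroup); and the order of every solvable subgroup of G has at most two prime divisors. -/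
theorem result {G : Type*} [Group G] [Finite G] (hns : ¬ Group.IsSolvable G) (hpp : ∀ g : G, g ≠ 1 → IsPrimePow (orderOf g))
    (R : Subgroup G) [R.Normal] (hRs : Group.IsSolvable ↥R) (hRmax : ∀ N : Subgroup G, N.Normal → Group.IsSolvable ↥N → N ≤ R) :
    (∃ p : ℕ, p.Prime ∧ IsPGroup p ↥R) ∧
      (∃ M : Subgroup (G ⧸ R), M.Normal ∧ IsSimpleGroup ↥M ∧ ¬ IsMulCommutative ↥M ∧
        ∀ N : Subgroup (G ⧸ R), N.Normal → N ≠ ⊥ → M ≤ N) ∧
      ∀ H : Subgroup G, Group.IsSolvable ↥H → (Nat.card ↥H).primeFactors.card ≤ 2 := by
  have hE : Eppo G := hpp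
  refine ⟨hE.radical_isPGroup hns R hRs, ?_, ?_⟩
  · have hnt : Nontrivial (G ⧸ R) := by
      rw [QuotientGroup.nontrivial_iff]
      intro htop
      apply hns
      rw [htop] at hRs
      exact Group.isSolvable_of_surjective (f := (Subgroup.topEquiv : (⊤ : Subgroup G) ≃* G).toMonoidHom)
        (Subgroup.topEquiv : (⊤ : Subgroup G) ≃* G).surjective
    apply (hE.quotient R).socle
    intro N hN hNs
    have h1 : (N.comap (QuotientGroup.mk' R)).Normal := inferInstance
    have h2 : Group.IsSolvable (N.comap (QuotientGroup.mk' R)) := by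
      let f : N.comap (QuotientGroup.mk' R) →* N :=
        ((QuotientGroup.mk' R).comp (N.comap (QuotientGroup.mk' R)).subtype).codRestrict N (fun x => x.2)
      have hle : R ≤ N.comap (QuotientGroup.mk' R) := by
        intro x hx
        rw [Subgroup.mem_comap]
        have : QuotientGroup.mk' R x = 1 := (QuotientGroup.eq_one_iff x).mpr hx
        rw [this]; exact N.one_mem
      apply Group.isSolvable_of_ker_le_range (Subgroup.inclusion hle) f
      intro x hx
      have h3 : (QuotientGroup.mk' R) (x : G) = 1 := congrArg Subtype.val hx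
      exact ⟨⟨x, (QuotientGroup.eq_one_iff _).1 h3⟩, rfl⟩
    have h3 := hRmax _ h1 h2
    rw [eq_bot_iff]
    intro y hy
    obtain ⟨x, rfl⟩ := QuotientGroup.mk'_surjective R y
    rw [Subgroup.mem_bot]
    exact (QuotientGroup.eq_one_iff x).2 (h3 hy)
  · intro H hH
    exact Cfsg.Agent.S1475.result (hE.subgroup H).or

end Cfsg.Agent.S3992
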