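import Cfsg.Statements.S3994
import Cfsg.Agent.FrobThm.Basic

set_option autoImplicit false
open Cfsg

namespace Cfsg.Agent.S3994

/-- Let G be a finite group and n a positive integer. The number of elements of G whose order is divisible by n is either 0 or divisible by the largest divisor of the order of G that is coprime to n. -/
theorem result {G : Type*} [Group G] [Finite G] (n : ℕ) (hn : 0 < n) :
    Nat.card {g : G // n ∣ orderOf g} = 0 ∨
      (Nat.card G / Nat.gcd (Nat.card G) (n ^ Nat.card G)) ∣ Nat.card {g : G // n ∣ orderOf g} := by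
  classical
  cases nonempty_fintype G
  by_cases hex : ∃ g : G, n ∣ orderOf g
  swap
  · left
    have : IsEmpty {g : G // n ∣ orderOf g} := ⟨fun g => hex ⟨g.1, g.2⟩⟩
    exact Nat.card_of_isEmpty
  right
  obtain ⟨g₀, hg₀⟩ := hex
  have hnG : n ∣ Nat.card G := hg₀.trans (orderOf_dvd_natCard g₀)
  have hGpos : 0 < Nat.card G := Nat.card_pos
  set a := Nat.gcd (Nat.card G) (n ^ Nat.card G) with ha
  set s := Nat.card G / a with hs
  have has : a * s = Nat.card G := Nat.mul_div_cancel' (Nat.gcd_dvd_left _ _)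
  have hapos : 0 < a := Nat.gcd_pos_of_pos_left _ hGpos
  have hspos : 0 < s := by
    rcases Nat.eq_zero_or_pos s with h | h
    · rw [h, mul_zero] at has; omega
    · exact h
  have hna : n ∣ a := Nat.dvd_gcd hnG (dvd_pow_self n hGpos.ne')
  have hns : n.Coprime s := by
    rw [Nat.coprime_iff_gcd_eq_one]
    by_contra hne
    obtain ⟨p, hp, hpd⟩ := Nat.exists_prime_and_dvd hne
    have hpn : p ∣ n := hpd.trans (Nat.gcd_dvd_left _ _)
    have hps : p ∣ s := hpd.trans (Nat.gcd_dvd_right _ _)
    have h1 : ∀ k, p ^ k ∣ a := by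
      intro k
      induction k with
      | zero => simp
      | succ k ih =>
        have h2 : p ^ (k + 1) ∣ Nat.card G := by
          rw [← has, pow_succ]
          exact Nat.mul_dvd_mul ih hps
        have h3 : k + 1 ≤ Nat.card G := by
          have h4 : p ^ (k + 1) ≤ Nat.card G := Nat.le_of_dvd hGpos h2
          exact (Nat.lt_pow_self hp.one_lt).le.trans h4
        exact Nat.dvd_gcd h2 ((pow_dvd_pow p h3).trans (pow_dvd_pow_of_dvd hpn _))
    have h2 := Nat.le_of_dvd hapos (h1 a)
    exact absurd (Nat.lt_pow_self hp.one_lt) (not_lt.2 h2)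
  have hcop : a.Coprime s := by
    have : (n ^ Nat.card G).Coprime s := Nat.Coprime.pow_left _ hns
    exact Nat.Coprime.coprime_dvd_left (Nat.gcd_dvd_right _ _) this
  obtain ⟨e, he1, he0⟩ := Nat.chineseRemainder hcop 1 0
  have hE : ∀ g : G, n ∣ orderOf g ↔ (g ^ (a * s) = 1 ∧ n ∣ orderOf (g ^ e)) := by
    intro g
    constructor
    · intro h
      refine ⟨by rw [has]; exact pow_card_eq_one', ?_⟩
      have h1 : orderOf g ∣ e * orderOf (g ^ e) := by
        apply orderOf_dvd_of_pow_eq_one
        rw [pow_mul, pow_orderOf_eq_one]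
      have h2 : n.Coprime e := by
        have h3 := (he1.of_dvd hna).gcd_eq
        rw [Nat.coprime_comm]
        unfold Nat.Coprime
        rw [h3]; simp
      exact h2.dvd_of_dvd_mul_left (h.trans h1)
    · rintro ⟨_, h⟩
      exact h.trans (orderOf_pow_dvd e)
  rw [Nat.card_congr (Equiv.subtypeEquivRight hE),
    Cfsg.Agent.FrobThm.card_decomp a s hcop (fun x : G => n ∣ orderOf x) e he1 he0]
  apply Cfsg.Agent.FrobThm.dvd_sum_cnt s ⟨a, by rw [← has]; ring⟩
  intro g x
  have h3 : (g * x * g⁻¹) ^ a = 1 ↔ x ^ a = 1 := by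
    rw [conj_pow]; exact conj_eq_one_iff
  have h4 : orderOf (g * x * g⁻¹) = orderOf x := by
    have := orderOf_injective (MulAut.conj g).toMonoidHom (MulAut.conj g).injective x
    simpa using this
  rw [h3, h4]

end Cfsg.Agent.S3994
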