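import Cfsg.Statements.S3995
import Cfsg.Agent.FrobThm.Orders
import Cfsg.Agent.MaxClass.UniqueOrderP

set_option autoImplicit false
open Cfsg

namespace Cfsg.Agent.S3995

open Cfsg.Agent.FrobThm

theorem castz {p n : ℕ} (m : ℕ) (h : p * m ∣ n) : (n : ZMod p) = 0 :=
  (ZMod.natCast_eq_zero_iff n p).2 ((Dvd.intro _ rfl).trans h)

theorem castz1 {p n : ℕ} (h : p ∣ n) : (n : ZMod p) = 0 :=
  (ZMod.natCast_eq_zero_iff n p).2 h

theorem two_ne {p : ℕ} (hp : p.Prime) (hp2 : p ≠ 2) : (2 : ZMod p) ≠ 0 := by
  intro h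
  have : ((2 : ℕ) : ZMod p) = 0 := by exact_mod_cast h
  rw [ZMod.natCast_eq_zero_iff] at this
  exact hp2 ((Nat.prime_dvd_prime_iff_eq hp Nat.prime_two).1 this)

/-- all elements of a `p`-group have order dividing `p` if there are none of order `p ^ 2` -/
theorem exponent_prime {P : Type*} [Group P] [Finite P] {p : ℕ} (hp : p.Prime) (hP : IsPGroup p P) (hnt : Nontrivial P)
    (h : ∀ g : P, orderOf g ≠ p ^ 2) : Monoid.exponent P = p := by
  have : Fact p.Prime := ⟨hp⟩
  rw [Monoid.exponent_eq_prime_iff hp]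
  intro g hg
  obtain ⟨k, hk⟩ := (IsPGroup.iff_orderOf.1 hP) g
  rcases Nat.lt_or_ge k 2 with h1 | h1
  · interval_cases k
    · rw [pow_zero] at hk
      exact absurd (orderOf_eq_one_iff.1 hk) hg
    · rw [hk, pow_one]
  · exfalso
    apply h (g ^ (p ^ (k - 2)))
    rw [orderOf_pow_of_dvd (pow_ne_zero _ hp.ne_zero) (by rw [hk]; exact pow_dvd_pow p (by omega)), hk]
    rw [Nat.pow_div (by omega) hp.pos]
    congr 1
    omega

theorem isPGroup_of_primes {P : Type*} [Group P] [Finite P] {p : ℕ}
    (h : ∀ r : ℕ, r.Prime → r ∣ Nat.card P → r = p) : IsPGroup p P := by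
  have h1 : Nat.card P = p ^ (Nat.card P).primeFactorsList.length := by
    apply Nat.eq_prime_pow_of_unique_prime_dvd Nat.card_pos.ne'
    intro r hr hrd
    exact h r hr hrd
  exact IsPGroup.of_card h1

/-- Let G be a finite group such that the numbers of elements of each order that occurs in G (the numbers #{g : o(g) = m}, m ranging over the element orders of G) take exactly two values, 1 and some n ≠ 1. Then either G is a p-group of exponent p and order at least 3 for some prime p, or G is the quaternion group of order 8, or G is cyclic of order 4, or G ≅ Z₂ × P for a p-group P of exponent p with p an odd prime. -/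
theorem result {G : Type*} [Group G] [Finite G] (n : ℕ) (hn : n ≠ 1) (h : ((fun m : ℕ => Nat.card {g : G // orderOf g = m}) '' Set.range (orderOf : G → ℕ)) = {1, n}) :
    (∃ p : ℕ, p.Prime ∧ IsPGroup p G ∧ 3 ≤ Nat.card G ∧ Monoid.exponent G = p) ∨
      Nonempty (G ≃* QuaternionGroup 2) ∨ (IsCyclic G ∧ Nat.card G = 4) ∨
      (∃ (p : ℕ) (P : Type) (_ : Group P) (_ : Finite P), p.Prime ∧ p ≠ 2 ∧ IsPGroup p P ∧ Monoid.exponent P = p ∧
        Nonempty (G ≃* Multiplicative (ZMod 2) × P)) := by
  classical
  set S := (fun m : ℕ => Nat.card {g : G // orderOf g = m}) '' Set.range (orderOf : G → ℕ) with hS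
  have hpos : ∀ x ∈ S, x ≠ 0 := by
    rintro x ⟨m, ⟨g, hg⟩, rfl⟩
    exact (so_ne_zero_iff (G := G) m).2 ⟨g, hg⟩
  have hnS : n ∈ S := by rw [h]; simp
  have hn0 : n ≠ 0 := hpos n hnS
  have hV : ∀ k, so G k = 0 ∨ so G k = 1 ∨ so G k = n := by
    intro k
    by_cases hk : so G k = 0
    · exact Or.inl hk
    · right
      obtain ⟨g, hg⟩ := (so_ne_zero_iff (G := G) k).1 hk
      have hkS : so G k ∈ S := ⟨k, ⟨g, hg⟩, rfl⟩
      rw [h] at hkS
      simpa using hkS
  have hval : ∀ k, 2 < k → so G k = 0 ∨ so G k = n := by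
    intro k hk
    rcases hV k with h1 | h1 | h1
    · exact Or.inl h1
    · have := even_so (G := G) k hk
      rw [h1] at this
      exact absurd this (by decide)
    · exact Or.inr h1
  by_cases hA : ∀ k, 2 < k → so G k = 0
  · -- exponent two
    left
    have hle : ∀ g : G, g ≠ 1 → orderOf g = 2 := by
      intro g hg
      have h0 : 0 < orderOf g := orderOf_pos g
      have h1 : orderOf g ≠ 1 := fun h => hg (orderOf_eq_one_iff.1 h)
      by_contra h2
      exact (so_ne_zero_iff (G := G) (orderOf g)).2 ⟨g, rfl⟩ (hA _ (by omega))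
    have hs2 : so G 2 = n := by
      obtain ⟨m, ⟨g, hg⟩, hm⟩ := hnS
      have hm' : so G m = n := hm
      have hm0 : 0 < m := by rw [← hg]; exact orderOf_pos g
      rcases Nat.lt_or_ge 2 m with h3 | h3
      · exact absurd (hA m h3) (by rw [hm']; exact hn0)
      · interval_cases m
        · rw [so_one] at hm'; exact absurd hm'.symm hn
        · exact hm'
    have hcard : 1 + n ≤ Nat.card G := by
      have := sum_so_le (G := G) {1, 2}
      rw [Finset.sum_insert (by simp), Finset.sum_singleton, so_one, hs2] at this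
      exact this
    have hnt : Nontrivial G := Finite.one_lt_card_iff_nontrivial.1 (by omega)
    refine ⟨2, Nat.prime_two, ?_, by omega, ?_⟩
    · rw [IsPGroup.iff_orderOf]
      intro g
      by_cases hg : g = 1
      · exact ⟨0, by rw [hg, orderOf_one, pow_zero]⟩
      · exact ⟨1, by rw [hle g hg, pow_one]⟩
    · rw [Monoid.exponent_eq_prime_iff Nat.prime_two]
      exact hle
  push Not at hA
  obtain ⟨k₀, hk₀, hk₀'⟩ := hA
  have hk₀n : so G k₀ = n := (hval k₀ hk₀).resolve_left hk₀'
  have hneven : Even n := hk₀n ▸ even_so (G := G) k₀ hk₀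
  have hcard3 : 3 ≤ Nat.card G := by
    obtain ⟨g, hg⟩ := (so_ne_zero_iff (G := G) k₀).1 hk₀'
    have := Nat.le_of_dvd Nat.card_pos (orderOf_dvd_natCard g)
    omega
  have hprime : ∀ p : ℕ, p.Prime → p ≠ 2 → p ∣ Nat.card G → so G p = n ∧ (n : ZMod p) = -1 := by
    intro p hp hp2 hpd
    have h1 : so G p = n := (hval p (lt_of_le_of_ne hp.two_le hp2.symm)).resolve_left (so_prime_ne_zero p hp hpd)
    have e1 := castz1 (dvd_so_prime (G := G) p hp hpd)
    rw [h1] at e1
    push_cast at e1
    exact ⟨h1, by linear_combination e1⟩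
  have huniq : ∀ p q : ℕ, p.Prime → q.Prime → p ≠ 2 → q ≠ 2 → p ∣ Nat.card G → q ∣ Nat.card G → p = q := by
    intro p q hp hq hp2 hq2 hpd hqd
    by_contra hpq
    have : Fact p.Prime := ⟨hp⟩
    obtain ⟨h1, h2⟩ := hprime p hp hp2 hpd
    obtain ⟨h3, _⟩ := hprime q hq hq2 hqd
    have e2 := castz q (dvd_so_two_primes (G := G) p q hp hq hpq hpd hqd)
    rw [h1, h3] at e2
    push_cast at e2
    have hx : ((so G (p * q) : ℕ) : ZMod p) = 1 := by linear_combination e2 - 2 * h2
    have hgt : 2 < p * q := by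
      have := hp.two_le
      have := hq.two_le
      nlinarith
    rcases hval _ hgt with h5 | h5
    · rw [h5] at hx
      exact absurd hx.symm (by simp)
    · rw [h5, h2] at hx
      exact absurd (by linear_combination -hx : (2 : ZMod p) = 0) (two_ne hp hp2)
  have hsq : ∀ p : ℕ, p.Prime → p ≠ 2 → p ∣ Nat.card G → so G (p ^ 2) = 0 := by
    intro p hp hp2 hpd
    by_contra hne
    have : Fact p.Prime := ⟨hp⟩
    obtain ⟨h1, h2⟩ := hprime p hp hp2 hpd
    obtain ⟨g, hg⟩ := (so_ne_zero_iff (G := G) _).1 hne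
    have hpd2 : p ^ 2 ∣ Nat.card G := hg ▸ orderOf_dvd_natCard g
    have e := dvd_sum_so (G := G) (p ^ 2) hpd2
    rw [Nat.sum_divisors_prime_pow hp, Finset.sum_range_succ, Finset.sum_range_succ, Finset.sum_range_one,
      pow_zero, pow_one, so_one, h1] at e
    have e' := castz1 ((dvd_pow_self p two_ne_zero).trans e)
    push_cast at e'
    have hgt2 : 2 < p ^ 2 := by
      have := hp.two_le
      nlinarith
    have h5 := (hval _ hgt2).resolve_left hne
    rw [h5, h2] at e'
    exact absurd (by linear_combination -e' : (1 : ZMod p) = 0) (by simp)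
  by_cases h2d : 2 ∣ Nat.card G
  swap
  · left
    obtain ⟨p, hp, hpd⟩ := Nat.exists_prime_and_dvd (n := Nat.card G) (by omega)
    have hp2 : p ≠ 2 := by rintro rfl; exact h2d hpd
    have hPG : IsPGroup p G := isPGroup_of_primes (fun r hr hrd =>
      huniq r p hr hp (by rintro rfl; exact h2d hrd) hp2 hrd hpd)
    refine ⟨p, hp, hPG, hcard3, ?_⟩
    apply exponent_prime hp hPG (Finite.one_lt_card_iff_nontrivial.1 (by omega))
    intro g hg
    exact (so_ne_zero_iff (G := G) _).2 ⟨g, hg⟩ (hsq p hp hp2 hpd)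
  have hs2 : so G 2 = 1 := by
    have e := dvd_so_prime (G := G) 2 Nat.prime_two h2d
    obtain ⟨c, hc⟩ := hneven
    rcases hV 2 with h5 | h5 | h5
    · rw [h5] at e; omega
    · exact h5
    · rw [h5] at e; omega
  obtain ⟨z, hz, hzc, hzu⟩ := exists_central_involution hs2
  right
  by_cases hodd : ∃ p : ℕ, p.Prime ∧ p ≠ 2 ∧ p ∣ Nat.card G
  · obtain ⟨p, hp, hp2, hpd⟩ := hodd
    have : Fact p.Prime := ⟨hp⟩
    obtain ⟨h1, h2⟩ := hprime p hp hp2 hpd
    have h4d : ¬ 4 ∣ Nat.card G := by
      intro h4d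
      have h44 := dvd_so_four h4d
      rw [hs2] at h44
      have hs4 : so G 4 = n := by
        rcases hval 4 (by norm_num) with h5 | h5
        · rw [h5] at h44; omega
        · exact h5
      have e3 := castz 4 (dvd_so_four_mul (G := G) h4d p hp hp2 hpd)
      rw [so_mul_two hs2 p (hp.odd_of_ne_two hp2), h1, hs2, hs4] at e3
      push_cast at e3
      have e4 : ((so G (p * 4) : ℕ) : ZMod p) = 1 := by linear_combination e3 - 3 * h2
      have hgt : 2 < p * 4 := by have := hp.two_le; omega
      rcases hval _ hgt with h5 | h5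
      · rw [h5] at e4
        exact absurd e4.symm (by simp)
      · rw [h5, h2] at e4
        exact absurd (by linear_combination -e4 : (2 : ZMod p) = 0) (two_ne hp hp2)
    right; right
    obtain ⟨P⟩ : Nonempty (Sylow p G) := inferInstance
    -- index of P is 2
    have hPi : (P : Subgroup G).index = 2 := by
      have hz0 : z ∉ (P : Subgroup G) := by
        intro hzP
        obtain ⟨k, hk⟩ := (IsPGroup.iff_orderOf.1 P.isPGroup') ⟨z, hzP⟩
        rw [Subgroup.orderOf_mk, hz] at hk
        rcases Nat.eq_zero_or_pos k with h5 | h5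
        · rw [h5, pow_zero] at hk; omega
        · have : p ∣ 2 := by rw [hk]; exact dvd_pow_self p (by omega)
          exact hp2 ((Nat.prime_dvd_prime_iff_eq hp Nat.prime_two).1 this)
      have hi0 : (P : Subgroup G).index ≠ 0 := Subgroup.index_ne_zero_of_finite
      have hi1 : ∀ r : ℕ, r.Prime → r ∣ (P : Subgroup G).index → r = 2 := by
        intro r hr hrd
        by_contra hr2
        have h6 : r = p := huniq r p hr hp hr2 hp2 (hrd.trans (Subgroup.index_dvd_card _)) hpd
        subst h6
        exact P.not_dvd_index hrd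
      have hi2 := Nat.eq_prime_pow_of_unique_prime_dvd hi0 (fun {r} hr hrd => hi1 r hr hrd)
      have hi3 : (P : Subgroup G).index.primeFactorsList.length < 2 := by
        by_contra hlt
        apply h4d
        refine Dvd.dvd.trans ?_ (Subgroup.index_dvd_card (P : Subgroup G))
        rw [hi2]
        exact pow_dvd_pow 2 (show 2 ≤ _ by omega)
      have hi4 : (P : Subgroup G).index ≠ 1 := by
        intro h7
        rw [Subgroup.index_eq_one] at h7
        exact hz0 (h7 ▸ Subgroup.mem_top z)
      rw [hi2] at hi4 ⊢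
      interval_cases hl : (P : Subgroup G).index.primeFactorsList.length
      · simp at hi4
      · simp
    let Z := Subgroup.zpowers z
    have hZc : Nat.card Z = 2 := by rw [Nat.card_zpowers, hz]
    have hZcen : Z ≤ Subgroup.center G := by
      show Subgroup.zpowers z ≤ _
      rwa [Subgroup.zpowers_le]
    have hcomm : ∀ (x : Z) (y : (P : Subgroup G)), Commute (Z.subtype x) ((P : Subgroup G).subtype y) := by
      intro x y
      exact ((Subgroup.mem_center_iff.1 (hZcen x.2)) y.1).symm
    let f := MonoidHom.noncommCoprod Z.subtype (P : Subgroup G).subtype hcomm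
    have hcop : (Nat.card Z).Coprime (Nat.card (P : Subgroup G)) := by
      rw [hZc]
      obtain ⟨k, hk⟩ := IsPGroup.iff_card.1 P.isPGroup'
      rw [hk]
      exact Nat.Coprime.pow_right _ ((Nat.coprime_primes Nat.prime_two hp).2 hp2.symm)
    have hinj : Function.Injective f := by
      rw [injective_iff_map_eq_one]
      rintro ⟨x, y⟩ hxy
      have hxy' : (x : G) * (y : G) = 1 := hxy
      have h7 : (x : G) = ((y : G))⁻¹ := eq_inv_of_mul_eq_one_left hxy'
      have h8 : (x : G) ∈ Z ⊓ (P : Subgroup G) := ⟨x.2, by rw [h7]; exact (P : Subgroup G).inv_mem y.2⟩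
      rw [(Subgroup.disjoint_of_coprime_natCard hcop).eq_bot] at h8
      have h9 : (x : G) = 1 := Subgroup.mem_bot.1 h8
      have h10 : (y : G) = 1 := by rw [h9, one_mul] at hxy'; exact hxy'
      exact Prod.ext (Subtype.ext h9) (Subtype.ext h10)
    have hbij : Function.Bijective f := by
      rw [Nat.bijective_iff_injective_and_card]
      refine ⟨hinj, ?_⟩
      rw [Nat.card_prod, hZc, ← hPi, mul_comm, Subgroup.card_mul_index]
    have hequiv : Nonempty (Z ≃* Multiplicative (ZMod 2)) := by
      have : Fact (Nat.Prime 2) := ⟨Nat.prime_two⟩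
      refine ⟨mulEquivOfPrimeCardEq (p := 2) hZc (by simp)⟩
    obtain ⟨e⟩ := hequiv
    refine ⟨p, Shrink.{0} (P : Subgroup G), inferInstance, inferInstance, hp, hp2, ?_, ?_, ?_⟩
    · exact P.isPGroup'.of_equiv (Shrink.mulEquiv.{0} (α := (P : Subgroup G))).symm
    · rw [Monoid.exponent_eq_of_mulEquiv (Shrink.mulEquiv.{0} (α := (P : Subgroup G)))]
      apply exponent_prime hp P.isPGroup'
      · have h11 : p ∣ Nat.card (P : Subgroup G) := by
          exact P.dvd_card_of_dvd_card hpd
        exact Finite.one_lt_card_iff_nontrivial.1 (lt_of_lt_of_le hp.one_lt (Nat.le_of_dvd Nat.card_pos h11))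
      · intro g hg
        apply (so_ne_zero_iff (G := G) _).2 ⟨g.1, _⟩ (hsq p hp hp2 hpd)
        rw [Subgroup.orderOf_coe, hg]
    · exact ⟨((MulEquiv.ofBijective f hbij).symm).trans
        (MulEquiv.prodCongr e (Shrink.mulEquiv.{0} (α := (P : Subgroup G))).symm)⟩
  · push Not at hodd
    have : Fact (Nat.Prime 2) := ⟨Nat.prime_two⟩
    have hPG : IsPGroup 2 G := isPGroup_of_primes (fun r hr hrd => by
      by_contra hne
      exact hodd r hr hne hrd)
    -- element of order 4
    have hs4 : so G 4 ≠ 0 := by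
      obtain ⟨g, hg⟩ := (so_ne_zero_iff (G := G) k₀).1 hk₀'
      obtain ⟨j, hj⟩ := (IsPGroup.iff_orderOf.1 hPG) g
      rw [hg] at hj
      have hj2 : 2 ≤ j := by
        by_contra hlt
        interval_cases j <;> omega
      apply (so_ne_zero_iff (G := G) 4).2 ⟨g ^ (2 ^ (j - 2)), _⟩
      rw [orderOf_pow_of_dvd (pow_ne_zero _ two_ne_zero) (by rw [hg, hj]; exact pow_dvd_pow 2 (by omega)), hg, hj]
      rw [Nat.pow_div (by omega) two_pos, show j - (j - 2) = 2 by omega]
      norm_num
    have hs4n : so G 4 = n := (hval 4 (by norm_num)).resolve_left hs4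
    obtain ⟨g4, hg4⟩ := (so_ne_zero_iff (G := G) 4).1 hs4
    have h4d : 4 ∣ Nat.card G := hg4 ▸ orderOf_dvd_natCard g4
    have h44 := dvd_so_four h4d
    rw [hs2, hs4n] at h44
    have hs8 : so G 8 = 0 := by
      by_contra hne
      obtain ⟨g8, hg8⟩ := (so_ne_zero_iff (G := G) 8).1 hne
      have h8d : 8 ∣ Nat.card G := hg8 ▸ orderOf_dvd_natCard g8
      have e := dvd_sum_so (G := G) 8 h8d
      rw [show (8 : ℕ).divisors = {1, 2, 4, 8} by decide] at e
      rw [Finset.sum_insert (by decide), Finset.sum_insert (by decide), Finset.sum_insert (by decide),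
        Finset.sum_singleton, so_one, hs2, hs4n, (hval 8 (by norm_num)).resolve_left hne] at e
      omega
    have hu : ∀ H K : Subgroup G, Nat.card H = 2 → Nat.card K = 2 → H = K := by
      have key : ∀ H : Subgroup G, Nat.card H = 2 → H = Subgroup.zpowers z := by
        intro H hH
        symm
        apply Subgroup.eq_of_le_of_card_ge
        · rw [Subgroup.zpowers_le]
          obtain ⟨x, hx⟩ := exists_prime_orderOf_dvd_card' (G := H) 2 (by rw [hH])
          rw [← hzu x.1 (by rw [Subgroup.orderOf_coe]; exact hx)]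
          exact x.2
        · rw [hH, Nat.card_zpowers, hz]
      intro H K hH hK
      rw [key H hH, key K hK]
    rcases Cfsg.Agent.MaxClass.cyclic_or_quaternion hPG hu with hc | ⟨_, m, ⟨e⟩⟩
    · right; left
      refine ⟨hc, ?_⟩
      obtain ⟨g, hg⟩ := hc.exists_generator
      have hog : orderOf g = Nat.card G := orderOf_eq_card_of_forall_mem_zpowers hg
      obtain ⟨j, hj⟩ := (IsPGroup.iff_orderOf.1 hPG) g
      have hj3 : j < 3 := by
        by_contra hlt
        apply (so_ne_zero_iff (G := G) 8).2 ⟨g ^ (2 ^ (j - 3)), _⟩ hs8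
        rw [orderOf_pow_of_dvd (pow_ne_zero _ two_ne_zero) (by rw [hj]; exact pow_dvd_pow 2 (by omega)), hj]
        rw [Nat.pow_div (by omega) two_pos, show j - (j - 3) = 3 by omega]
        norm_num
      rw [hog] at hj
      interval_cases j
      · omega
      · omega
      · rw [hj]; norm_num
    · have hNZ : NeZero (2 ^ m) := ⟨pow_ne_zero _ two_ne_zero⟩
      have hao : orderOf (QuaternionGroup.a 1 : QuaternionGroup (2 ^ m)) = 2 * 2 ^ m := QuaternionGroup.orderOf_a_one
      have hg' : orderOf (e.symm (QuaternionGroup.a 1)) = 2 * 2 ^ m := by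
        rw [MulEquiv.orderOf_eq]; exact hao
      rcases Nat.lt_or_ge m 2 with hm | hm
      · interval_cases m
        · right; left
          have hcard : Nat.card G = 4 := by
            rw [Nat.card_congr e.toEquiv, Nat.card_eq_fintype_card, QuaternionGroup.card]
            norm_num
          refine ⟨isCyclic_of_orderOf_eq_card g4 (by rw [hg4, hcard]), hcard⟩
        · left
          exact ⟨by simpa using e⟩
      · exfalso
        apply (so_ne_zero_iff (G := G) 8).2 ⟨(e.symm (QuaternionGroup.a 1)) ^ (2 ^ (m - 2)), _⟩ hs8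
        rw [orderOf_pow_of_dvd (pow_ne_zero _ two_ne_zero), hg']
        · rw [← pow_succ', Nat.pow_div (by omega) two_pos, show m + 1 - (m - 2) = 3 by omega]
          norm_num
        · rw [hg', ← pow_succ']
          exact pow_dvd_pow 2 (by omega)

end Cfsg.Agent.S3995
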