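import Cfsg.Statements.S3997


set_option autoImplicit false
open Cfsg

namespace Cfsg.Agent.S3997

theorem mem_iff_of_normal {G : Type*} [Group G] [Finite G] (p : ℕ) [Fact p.Prime] (P : Sylow p G)
    (hP : (P : Subgroup G).Normal) (g : G) : g ∈ P ↔ ∃ k, g ^ p ^ k = 1 := by
  constructor
  · intro hg
    obtain ⟨k, hk⟩ := P.isPGroup' ⟨g, hg⟩
    exact ⟨k, by simpa using congrArg Subtype.val hk⟩
  · rintro ⟨k, hk⟩
    have h1 : IsPGroup p (Subgroup.zpowers g) := by
      rw [IsPGroup.iff_card, Nat.card_zpowers]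
      obtain ⟨j, _, hj⟩ := (Nat.dvd_prime_pow Fact.out).1 (orderOf_dvd_of_pow_eq_one hk)
      exact ⟨j, hj⟩
    obtain ⟨Q, hQ⟩ := h1.exists_le_sylow
    have h2 : Subsingleton (Sylow p G) := by
      exact (Sylow.unique_of_normal P hP).instSubsingleton
    rw [Subsingleton.elim P Q]
    exact hQ (Subgroup.mem_zpowers g)

/-- Let G and H be finite groups with the same order type: for every m they have the same number of elements of order m. If G is nilpotent then so is H. -/
theorem result {G H : Type*} [Group G] [Finite G] [Group H] [Finite H] (hT : (∀ m : ℕ, Nat.card {g : G // orderOf g = m} = Nat.card {h : H // orderOf h = m})) (hG : Group.IsNilpotent G) :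
    Group.IsNilpotent H := by
  classical
  -- an order-preserving bijection
  have key : ∃ e : G ≃ H, ∀ g, orderOf (e g) = orderOf g := by
    have h1 : ∀ m, Nonempty ({g : G // orderOf g = m} ≃ {h : H // orderOf h = m}) := fun m =>
      (Finite.card_eq.1 (hT m))
    have E : ∀ m, ({g : G // orderOf g = m} ≃ {h : H // orderOf h = m}) := fun m => Classical.choice (h1 m)
    refine ⟨(Equiv.sigmaFiberEquiv (fun g : G => orderOf g)).symm.trans
      ((Equiv.sigmaCongrRight (fun m => (E m))).trans (Equiv.sigmaFiberEquiv (fun h : H => orderOf h))), ?_⟩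
    intro g
    exact ((E (orderOf g)) ⟨g, rfl⟩).2
  obtain ⟨e, he⟩ := key
  have hcard : Nat.card G = Nat.card H := Nat.card_congr e
  refine (Group.isNilpotent_of_finite_tfae (G := H)).out 3 0 |>.1 ?_
  intro p hp Q
  have hnorm : ∀ P : Sylow p G, (P : Subgroup G).Normal := by
    have h4 : ∀ (p : ℕ) (_hp : Fact p.Prime) (P : Sylow p G), (↑P : Subgroup G).Normal :=
      ((Group.isNilpotent_of_finite_tfae (G := G)).out 0 3).1 hG
    exact h4 p hp
  obtain ⟨P⟩ : Nonempty (Sylow p G) := inferInstance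
  have hP := mem_iff_of_normal p P (hnorm P)
  -- count
  have hPQ : Nat.card P = Nat.card Q := by
    rw [Sylow.card_eq_multiplicity, Sylow.card_eq_multiplicity, hcard]
  have hset : Nat.card {h : H // ∃ k, h ^ p ^ k = 1} = Nat.card Q := by
    rw [← hPQ]
    symm
    apply Nat.card_congr
    refine Equiv.subtypeEquiv e ?_
    intro g
    rw [show g ∈ (P : Subgroup G) ↔ g ∈ P from Iff.rfl] 
    rw [hP]
    apply exists_congr
    intro k
    rw [← orderOf_dvd_iff_pow_eq_one, ← orderOf_dvd_iff_pow_eq_one, he]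
  have hQsub : (Q : Set H) ⊆ {h : H | ∃ k, h ^ p ^ k = 1} := by
    intro h hh
    obtain ⟨k, hk⟩ := Q.isPGroup' ⟨h, hh⟩
    exact ⟨k, by simpa using congrArg Subtype.val hk⟩
  have hQeq : (Q : Set H) = {h : H | ∃ k, h ^ p ^ k = 1} := by
    apply Set.eq_of_subset_of_ncard_le hQsub
    rw [← Nat.card_coe_set_eq, ← Nat.card_coe_set_eq]
    exact hset.le
  refine ⟨fun n hn g => ?_⟩
  have h1 : n ∈ (Q : Set H) := hn
  rw [hQeq] at h1
  obtain ⟨k, hk⟩ := h1
  have h2 : g * n * g⁻¹ ∈ (Q : Set H) := by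
    rw [hQeq]
    exact ⟨k, by rw [conj_pow, hk]; group⟩
  exact h2

end Cfsg.Agent.S3997
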