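import Cfsg.Statements.S3998
import Cfsg.Agent.S0529

set_option autoImplicit false
open Cfsg

namespace Cfsg.Agent.S3998

open Subgroup

/-- all prime divisors of `m` are at least `r` -/
def Rough (r m : ℕ) : Prop := ∀ p : ℕ, p.Prime → p ∣ m → r ≤ p

/-- all prime divisors of `m` are less than `r` -/
def Smooth (r m : ℕ) : Prop := ∀ p : ℕ, p.Prime → p ∣ m → p < r

theorem rough_dvd_of {r a b c d : ℕ} (h : a * b = c * d) (ha : Rough r a) (hd : Smooth r d) : a ∣ c := by
  have hco : Nat.Coprime a d := by
    rw [Nat.coprime_iff_gcd_eq_one]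
    by_contra hg
    obtain ⟨p, hp, hpd⟩ := Nat.exists_prime_and_dvd hg
    have h1 := ha p hp (hpd.trans (Nat.gcd_dvd_left _ _))
    have h2 := hd p hp (hpd.trans (Nat.gcd_dvd_right _ _))
    omega
  exact hco.dvd_of_dvd_mul_right (by rw [← h]; exact Dvd.intro _ rfl)

theorem rough_part_unique {r a b c d : ℕ} (h : a * b = c * d) (ha : Rough r a) (hb : Smooth r b)
    (hc : Rough r c) (hd : Smooth r d) : a = c :=
  Nat.dvd_antisymm (rough_dvd_of h ha hd) (rough_dvd_of h.symm hc hb)

/-- an order preserving bijection -/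
theorem exists_equiv {G H : Type*} [Group G] [Finite G] [Group H] [Finite H]
    (hT : ∀ m : ℕ, Nat.card {g : G // orderOf g = m} = Nat.card {h : H // orderOf h = m}) :
    ∃ σ : G ≃ H, ∀ g, orderOf (σ g) = orderOf g := by
  have e : ∀ m : ℕ, Nonempty ({g : G // orderOf g = m} ≃ {h : H // orderOf h = m}) := fun m =>
    Finite.card_eq.mp (hT m)
  exact ⟨Equiv.ofFiberEquiv fun m => (e m).some, fun g => Equiv.ofFiberEquiv_map _ g⟩

/-- In a finite group with a normal subgroup `N` of rough order and smooth index, the elements of rough order are those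
of `N`. -/
theorem rough_iff_mem {G : Type*} [Group G] [Finite G] {r : ℕ} (N : Subgroup G) [N.Normal]
    (h1 : Rough r (Nat.card N)) (h2 : Smooth r N.index) (g : G) : Rough r (orderOf g) ↔ g ∈ N := by
  constructor
  · intro h
    rw [← QuotientGroup.eq_one_iff, ← orderOf_eq_one_iff]
    by_contra hne
    obtain ⟨p, hp, hpd⟩ := Nat.exists_prime_and_dvd hne
    have h3 := h2 p hp (hpd.trans (orderOf_dvd_natCard _))
    have h4 := h p hp (hpd.trans (orderOf_map_dvd (QuotientGroup.mk' N) g))
    omega
  · intro h p hp hpd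
    refine h1 p hp (hpd.trans ?_)
    have := orderOf_dvd_natCard (⟨g, h⟩ : N)
    rwa [Subgroup.orderOf_mk] at this

/-- The subgroups of a Sylow tower of a supersolvable group. -/
theorem exists_rough_normal {G : Type*} [Group G] [Finite G] (hG : Cfsg.IsSupersolvable G) (r : ℕ) :
    ∃ N : Subgroup G, N.Normal ∧ Rough r (Nat.card N) ∧ Smooth r N.index := by
  obtain ⟨n, H, h0, hl, hn, hp, hm⟩ := S0529.result hG
  -- the largest `k` with `H k` rough
  have hex : ∃ k : Fin (n + 1), Rough r (Nat.card (H k)) ∧
      ∀ i : Fin n, k ≤ i.castSucc → (H i.castSucc).relIndex (H i.succ) < r := by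
    by_contra hcon
    push Not at hcon
    have : ∀ k : Fin (n + 1), Rough r (Nat.card (H k)) := by
      intro k
      induction k using Fin.induction with
      | zero =>
        rw [h0, Subgroup.card_bot]
        intro p hp1 hpd
        exact absurd (Nat.dvd_one.mp hpd) hp1.ne_one
      | succ i ih =>
        obtain ⟨j, hj, hjr⟩ := hcon i.castSucc ih
        have h3 : r ≤ (H i.castSucc).relIndex (H i.succ) := hjr.trans (hm i j (by simpa using hj))
        intro p hp1 hpd
        have h4 : Nat.card (H i.castSucc) * (H i.castSucc).relIndex (H i.succ) = Nat.card (H i.succ) := by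
          have h5 := ((H i.castSucc).subgroupOf (H i.succ)).card_mul_index
          rw [Nat.card_congr (Subgroup.subgroupOfEquivOfLe (hp i).1).toEquiv] at h5
          exact h5
        rw [← h4, hp1.dvd_mul] at hpd
        rcases hpd with hpd | hpd
        · exact ih p hp1 hpd
        · rw [(Nat.prime_dvd_prime_iff_eq hp1 (hp i).2).mp hpd]; exact h3
    obtain ⟨j, hj, -⟩ := hcon (Fin.last n) (this _)
    exact absurd hj (by simp)
  obtain ⟨k, hk1, hk2⟩ := hex
  refine ⟨H k, hn k, hk1, ?_⟩
  -- the index
  have key : ∀ j : Fin (n + 1), k ≤ j → Smooth r (H j).index := by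
    intro j
    induction j using Fin.reverseInduction with
    | last =>
      intro _ p hp1 hpd
      rw [hl, Subgroup.index_top] at hpd
      exact absurd (Nat.dvd_one.mp hpd) hp1.ne_one
    | cast i ih =>
      intro hki p hp1 hpd
      rw [← Subgroup.relIndex_mul_index (hp i).1, hp1.dvd_mul] at hpd
      rcases hpd with hpd | hpd
      · rw [(Nat.prime_dvd_prime_iff_eq hp1 (hp i).2).mp hpd]
        exact hk2 i hki
      · exact ih (hki.trans (by simpa using (Fin.castSucc_lt_succ (i := i)).le)) p hp1 hpd
  exact key k le_rfl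

theorem step {G H : Type*} [Group G] [Finite G] [Group H] [Finite H]
    (hT : ∀ m : ℕ, Nat.card {g : G // orderOf g = m} = Nat.card {h : H // orderOf h = m})
    (hG : Cfsg.IsSupersolvable G) (r : ℕ)
    (ih : ∃ M : Subgroup H, M.Normal ∧ Rough (r + 1) (Nat.card M) ∧ Smooth (r + 1) M.index ∧ Group.IsSolvable M) :
    ∃ M : Subgroup H, M.Normal ∧ Rough r (Nat.card M) ∧ Smooth r M.index ∧ Group.IsSolvable M := by
  obtain ⟨M, hMn, hM1, hM2, hMs⟩ := ih
  by_cases hr : r.Prime
  swap
  · refine ⟨M, hMn, fun p hp hpd => (Nat.le_succ r).trans (hM1 p hp hpd), fun p hp hpd => ?_, hMs⟩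
    have h1 := hM2 p hp hpd
    rcases Nat.lt_succ_iff_lt_or_eq.mp h1 with h | h
    · exact h
    · rw [h] at hp; exact absurd hp hr
  have hF : Fact r.Prime := ⟨hr⟩
  obtain ⟨σ, hσ⟩ := exists_equiv hT
  obtain ⟨N, hNn, hN1, hN2⟩ := exists_rough_normal hG r
  have hcard : Nat.card G = Nat.card H := Nat.card_congr σ
  -- a Sylow subgroup of the quotient
  obtain ⟨P⟩ : Nonempty (Sylow r (H ⧸ M)) := inferInstance
  set D := (P : Subgroup (H ⧸ M)).comap (QuotientGroup.mk' M) with hD
  have hindD : D.index = (P : Subgroup (H ⧸ M)).index :=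
    Subgroup.index_comap_of_surjective _ (QuotientGroup.mk'_surjective M)
  have hcD : Nat.card D = Nat.card M * Nat.card P := by
    have h1 := D.card_mul_index
    have h2 := M.card_mul_index
    have h3 : Nat.card P * (P : Subgroup (H ⧸ M)).index = M.index := (P : Subgroup (H ⧸ M)).card_mul_index
    have h4 : 0 < (P : Subgroup (H ⧸ M)).index := Nat.pos_of_ne_zero Subgroup.index_ne_zero_of_finite
    apply Nat.eq_of_mul_eq_mul_right h4
    rw [mul_assoc, h3, h2, ← hindD, h1]
  have hrough : Rough r (Nat.card D) := by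
    intro p hp hpd
    rw [hcD, hp.dvd_mul] at hpd
    rcases hpd with h | h
    · exact (Nat.le_succ r).trans (hM1 p hp h)
    · obtain ⟨k, hk⟩ := P.isPGroup'.exists_card_eq
      rw [hk] at h
      exact le_of_eq ((Nat.prime_dvd_prime_iff_eq hp hr).mp (hp.dvd_of_dvd_pow h)).symm
  have hsmooth : Smooth r D.index := by
    intro p hp hpd
    rw [hindD] at hpd
    have h1 : p < r + 1 := hM2 p hp (hpd.trans (Subgroup.index_dvd_card _))
    rcases Nat.lt_succ_iff_lt_or_eq.mp h1 with h | h
    · exact h
    · rw [h] at hpd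
      exact absurd hpd P.not_dvd_index
  have hND : Nat.card N = Nat.card D :=
    rough_part_unique (by rw [N.card_mul_index, D.card_mul_index, hcard]) hN1 hN2 hrough hsmooth
  -- the rough elements of `H`
  have hX : Nat.card {h : H // Rough r (orderOf h)} = Nat.card D := by
    rw [← hND]
    refine Nat.card_congr ?_
    refine (Equiv.subtypeEquiv σ fun g => ?_).symm
    rw [hσ, rough_iff_mem N hN1 hN2]
  have hDX : ∀ h ∈ D, Rough r (orderOf h) := by
    intro h hh p hp hpd
    refine hrough p hp (hpd.trans ?_)
    have := orderOf_dvd_natCard (⟨h, hh⟩ : D)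
    rwa [Subgroup.orderOf_mk] at this
  have hXD : ∀ h : H, Rough r (orderOf h) → h ∈ D := by
    intro h hh
    let f : D → {h : H // Rough r (orderOf h)} := fun d => ⟨d, hDX d d.2⟩
    have hf : Function.Injective f := by
      intro a b hab
      have h1 : ((f a : {h : H // Rough r (orderOf h)}) : H) = (f b : {h : H // Rough r (orderOf h)}) := by rw [hab]
      exact Subtype.ext h1
    have hb : Function.Bijective f := (Nat.bijective_iff_injective_and_card f).mpr ⟨hf, hX.symm⟩
    obtain ⟨d, hd⟩ := hb.2 ⟨h, hh⟩
    have : (d : H) = h := congrArg Subtype.val hd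
    rw [← this]; exact d.2
  have hDn : D.Normal := by
    constructor
    intro h hh g
    apply hXD
    have h1 : orderOf (g * h * g⁻¹) = orderOf h :=
      orderOf_injective (MulAut.conj g).toMonoidHom (MulAut.conj g).injective h
    rw [h1]
    exact hDX h hh
  refine ⟨D, hDn, hrough, hsmooth, ?_⟩
  -- solvability
  have hPs : Group.IsSolvable (P : Subgroup (H ⧸ M)) := by
    have := P.isPGroup'.isNilpotent
    infer_instance
  let φ : D →* (P : Subgroup (H ⧸ M)) := (QuotientGroup.mk' M).subgroupComap (P : Subgroup (H ⧸ M))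
  refine @Group.isSolvable_of_ker_le_range _ _ _ _ _ _ (M.subgroupOf D).subtype φ ?_ ?_ hPs
  · intro x hx
    rw [Subgroup.range_subtype]
    have h1 : (QuotientGroup.mk' M) (x : H) = 1 := congrArg Subtype.val hx
    rw [QuotientGroup.mk'_apply, QuotientGroup.eq_one_iff] at h1
    exact h1
  · have hle : M ≤ D := by
      intro m hm
      show (QuotientGroup.mk' M) m ∈ (P : Subgroup (H ⧸ M))
      rw [QuotientGroup.mk'_apply, (QuotientGroup.eq_one_iff m).mpr hm]
      exact one_mem _
    exact Group.isSolvable_of_isSolvable_injective (f := (Subgroup.subgroupOfEquivOfLe hle).toMonoidHom)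
      (Subgroup.subgroupOfEquivOfLe hle).injective

theorem main {G H : Type*} [Group G] [Finite G] [Group H] [Finite H]
    (hT : ∀ m : ℕ, Nat.card {g : G // orderOf g = m} = Nat.card {h : H // orderOf h = m})
    (hG : Cfsg.IsSupersolvable G) : Group.IsSolvable H := by
  have key : ∀ k r : ℕ, r + k = Nat.card H + 1 →
      ∃ M : Subgroup H, M.Normal ∧ Rough r (Nat.card M) ∧ Smooth r M.index ∧ Group.IsSolvable M := by
    intro k
    induction k with
    | zero =>
      intro r hr
      refine ⟨⊥, inferInstance, ?_, ?_, ?_⟩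
      · intro p hp hpd
        rw [Subgroup.card_bot] at hpd
        exact absurd (Nat.dvd_one.mp hpd) hp.ne_one
      · intro p hp hpd
        rw [Subgroup.index_bot] at hpd
        have := Nat.le_of_dvd Nat.card_pos hpd
        omega
      · infer_instance
    | succ k ih =>
      intro r hr
      exact step hT hG r (ih (r + 1) (by omega))
  obtain ⟨M, hMn, h1, h2, h3⟩ := key (Nat.card H + 1) 0 (by omega)
  have hind : M.index = 1 := by
    by_contra hne
    obtain ⟨p, hp, hpd⟩ := Nat.exists_prime_and_dvd hne
    exact absurd (h2 p hp hpd) (by omega)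
  rw [Subgroup.index_eq_one] at hind
  rw [hind] at h3
  exact Group.isSolvable_of_isSolvable_injective (f := (Subgroup.topEquiv (G := H)).symm.toMonoidHom)
    (Subgroup.topEquiv (G := H)).symm.injective

/-- Let G and H be finite groups with the same order type (for every m the same number of elements of order m). If G is supersolvable then H is solvable. -/
theorem result {G H : Type*} [Group G] [Finite G] [Group H] [Finite H] (hT : (∀ m : ℕ, Nat.card {g : G // orderOf g = m} = Nat.card {h : H // orderOf h = m})) (hG : Cfsg.IsSupersolvable G) :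
    Group.IsSolvable H := by
  exact main hT hG

end Cfsg.Agent.S3998
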