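import Cfsg.Statements.S4002
import Cfsg.Agent.S1475
import Cfsg.Agent.Hall.Hall

set_option autoImplicit false
open Cfsg

namespace Cfsg.Agent.S4002

theorem three_primes (n : ℕ) (hn : 7 ≤ n) : ∃ p q r : ℕ, p.Prime ∧ q.Prime ∧ r.Prime ∧ p < q ∧ q < r ∧ r ≤ n ∧ n < p * q := by
  rcases Nat.lt_or_ge n 15 with h1 | h1
  · exact ⟨3, 5, 7, by norm_num, by norm_num, by norm_num, by norm_num, by norm_num, hn, by omega⟩
  rcases Nat.lt_or_ge n 35 with h2 | h2
  · exact ⟨5, 7, 11, by norm_num, by norm_num, by norm_num, by norm_num, by norm_num, by omega, by omega⟩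
  set k := n / 8 with hk
  have hk4 : 4 ≤ k := by omega
  have hk1 : 8 * k ≤ n := by omega
  have hk2 : n < 8 * k + 8 := by omega
  obtain ⟨p, hp, hp1, hp2⟩ := Nat.exists_prime_lt_and_le_two_mul k (by omega)
  obtain ⟨q, hq, hq1, hq2⟩ := Nat.exists_prime_lt_and_le_two_mul (2 * k) (by omega)
  obtain ⟨r, hr, hr1, hr2⟩ := Nat.exists_prime_lt_and_le_two_mul (4 * k) (by omega)
  refine ⟨p, q, r, hp, hq, hr, by omega, by omega, by omega, ?_⟩
  have h3 : (k + 1) * (2 * k + 1) ≤ p * q := Nat.mul_le_mul (by omega) (by omega)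
  nlinarith

/-- If the set of element orders of a finite group G is {1, 2, …, n} with n ≥ 7, then G is not solvable. -/
theorem result {G : Type*} [Group G] [Finite G] (n : ℕ) (hn : 7 ≤ n) (h : Set.range (orderOf : G → ℕ) = {k : ℕ | 1 ≤ k ∧ k ≤ n}) : ¬ Group.IsSolvable G := by
  intro hs
  obtain ⟨p, q, r, hp, hq, hr, hpq, hqr, hrn, hnpq⟩ := three_primes n hn
  have hdvd : ∀ s : ℕ, s.Prime → s ≤ n → s ∣ Nat.card G := by
    intro s hs hsn
    have : s ∈ Set.range (orderOf : G → ℕ) := by rw [h]; exact ⟨hs.one_lt.le, hsn⟩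
    obtain ⟨g, rfl⟩ := this
    exact orderOf_dvd_natCard g
  have hle : ∀ g : G, orderOf g ≤ n := by
    intro g
    have : orderOf g ∈ Set.range (orderOf : G → ℕ) := ⟨g, rfl⟩
    rw [h] at this
    exact this.2
  obtain ⟨a, m1, hm1, h1⟩ := Nat.exists_eq_pow_mul_and_not_dvd (n := Nat.card G) Nat.card_pos.ne' p hp.ne_one
  have hm10 : m1 ≠ 0 := by rintro rfl; exact hm1 (dvd_zero p)
  obtain ⟨b, m2, hm2, h2⟩ := Nat.exists_eq_pow_mul_and_not_dvd (n := m1) hm10 q hq.ne_one
  have hm20 : m2 ≠ 0 := by rintro rfl; exact hm2 (dvd_zero q)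
  obtain ⟨c, m3, hm3, h3⟩ := Nat.exists_eq_pow_mul_and_not_dvd (n := m2) hm20 r hr.ne_one
  have hcard : Nat.card G = (p ^ a * q ^ b * r ^ c) * m3 := by rw [h1, h2, h3]; ring
  have hpm3 : p.Coprime m3 := (Nat.Prime.coprime_iff_not_dvd hp).2 (fun hd => hm1 (by
    rw [h2, h3]; exact (hd.mul_left _).mul_left _))
  have hqm3 : q.Coprime m3 := (Nat.Prime.coprime_iff_not_dvd hq).2 (fun hd => hm2 (by
    rw [h3]; exact hd.mul_left _))
  have hrm3 : r.Coprime m3 := (Nat.Prime.coprime_iff_not_dvd hr).2 hm3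
  have hcop : (p ^ a * q ^ b * r ^ c).Coprime m3 :=
    Nat.Coprime.mul_left (Nat.Coprime.mul_left (hpm3.pow_left a) (hqm3.pow_left b)) (hrm3.pow_left c)
  obtain ⟨H, hH⟩ := Cfsg.Agent.Hall.hall_exists (G := G) _ _ hcard hcop
  have hdH : ∀ s : ℕ, s.Prime → (s = p ∨ s = q ∨ s = r) → s ∣ Nat.card H := by
    intro s hs hs'
    have hsn : s ≤ n := by rcases hs' with rfl | rfl | rfl <;> omega
    have hd := hdvd s hs hsn
    rw [hcard] at hd
    rw [hH]
    have hsm : s.Coprime m3 := by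
      rcases hs' with rfl | rfl | rfl
      · exact hpm3
      · exact hqm3
      · exact hrm3
    exact hsm.dvd_of_dvd_mul_right hd
  have hprimes : ∀ s : ℕ, s.Prime → s ∣ Nat.card H → s = p ∨ s = q ∨ s = r := by
    intro s hs hd
    rw [hH] at hd
    rcases (Nat.Prime.dvd_mul hs).1 hd with h4 | h4
    · rcases (Nat.Prime.dvd_mul hs).1 h4 with h5 | h5
      · exact Or.inl ((Nat.prime_dvd_prime_iff_eq hs hp).1 (hs.dvd_of_dvd_pow h5))
      · exact Or.inr (Or.inl ((Nat.prime_dvd_prime_iff_eq hs hq).1 (hs.dvd_of_dvd_pow h5)))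
    · exact Or.inr (Or.inr ((Nat.prime_dvd_prime_iff_eq hs hr).1 (hs.dvd_of_dvd_pow h4)))
  have hprod : ∀ s t : ℕ, (s = p ∨ s = q ∨ s = r) → (t = p ∨ t = q ∨ t = r) → s ≠ t → n < s * t := by
    intro s t hs ht hst
    have e1 : p * q ≤ p * r := Nat.mul_le_mul_left _ hqr.le
    have e2 : p * q ≤ q * r := by
      calc p * q = q * p := mul_comm _ _
        _ ≤ q * r := Nat.mul_le_mul_left _ (by omega)
    rcases hs with rfl | rfl | rfl <;> rcases ht with rfl | rfl | rfl
    · exact absurd rfl hst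
    · exact hnpq
    · omega
    · rw [mul_comm]; exact hnpq
    · exact absurd rfl hst
    · omega
    · rw [mul_comm]; omega
    · rw [mul_comm]; omega
    · exact absurd rfl hst
  have hE : ∀ g : H, IsPrimePow (orderOf g) ∨ g = 1 := by
    intro g
    by_cases hg : g = 1
    · exact Or.inr hg
    left
    have hne : orderOf g ≠ 1 := fun h0 => hg (orderOf_eq_one_iff.1 h0)
    obtain ⟨s, hs, hsd⟩ := Nat.exists_prime_and_dvd hne
    have hs' := hprimes s hs (hsd.trans (orderOf_dvd_natCard g))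
    have huniq : ∀ {t : ℕ}, t.Prime → t ∣ orderOf g → t = s := by
      intro t ht htd
      by_contra hts
      have ht' := hprimes t ht (htd.trans (orderOf_dvd_natCard g))
      have h4 : t * s ∣ orderOf g :=
        Nat.Coprime.mul_dvd_of_dvd_of_dvd ((Nat.coprime_primes ht hs).2 hts) htd hsd
      have h5 := Nat.le_of_dvd (orderOf_pos g) h4
      have h6 := hle (g : G)
      rw [Subgroup.orderOf_coe] at h6
      have h7 := hprod t s ht' hs' hts
      omega
    have h8 := Nat.eq_prime_pow_of_unique_prime_dvd (orderOf_pos g).ne' huniq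
    refine ⟨s, (orderOf g).primeFactorsList.length, hs.prime, ?_, h8.symm⟩
    rcases Nat.eq_zero_or_pos (orderOf g).primeFactorsList.length with h9 | h9
    · rw [h9, pow_zero] at h8
      exact absurd h8 hne
    · exact h9
  have h4 := Cfsg.Agent.S1475.result hE
  have h5 : ({p, q, r} : Finset ℕ) ⊆ (Nat.card H).primeFactors := by
    intro s hs
    have hs' : s = p ∨ s = q ∨ s = r := by simpa using hs
    have hsp : s.Prime := by
      rcases hs' with rfl | rfl | rfl
      · exact hp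
      · exact hq
      · exact hr
    rw [Nat.mem_primeFactors]
    exact ⟨hsp, hdH s hsp hs', Nat.card_pos.ne'⟩
  have h6 := Finset.card_le_card h5
  have h7 : ({p, q, r} : Finset ℕ).card = 3 := by
    rw [Finset.card_insert_of_notMem, Finset.card_insert_of_notMem, Finset.card_singleton]
    · simp; omega
    · simp; omega
  omega

end Cfsg.Agent.S4002
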