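import Cfsg.Statements.S4004
import Cfsg.Agent.H11.ThreeOrd

set_option autoImplicit false
open Cfsg

namespace Cfsg.Agent.S4004

/-- Let G be a finite group of odd order in which the numbers of elements of each order that occurs (the numbers #{g : o(g) = m}, m ranging over the element orders of G) take exactly three different values. Then the order of G has at most two prime divisors; and if it has exactly two, then every Sylow subgroup of G for a prime dividing its order has prime exponent, G is a Frobenius group, and some Frobenius complement of G has prime order. -/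
theorem result {G : Type*} [Group G] [Finite G] (hodd : Odd (Nat.card G)) (h : (((fun m : ℕ => Nat.card {g : G // orderOf g = m}) '' Set.range (orderOf : G → ℕ))).ncard = 3) :
    (Nat.card G).primeFactors.card ≤ 2 ∧
      ((Nat.card G).primeFactors.card = 2 →
        (∀ (p : ℕ) [Fact p.Prime] (P : Sylow p G), p ∣ Nat.card G → Monoid.exponent ↥(P : Subgroup G) = p) ∧
        ∃ C : Subgroup G, Cfsg.IsFrobeniusComplement C ∧ (Nat.card ↥C).Prime) := by
  obtain ⟨a, b, h3⟩ := Cfsg.Agent.H11.ThreeOrd.three_of_ncard h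
  have hne : ∀ r ∈ (Nat.card G).primeFactors, ∀ s ∈ (Nat.card G).primeFactors,
      Cfsg.Agent.FrobThm.so G r = Cfsg.Agent.FrobThm.so G s → r = s := by
    intro r hr s hs hrs
    by_contra hcon
    have hr1 := Nat.prime_of_mem_primeFactors hr
    have hr2 := Nat.dvd_of_mem_primeFactors hr
    have hs1 := Nat.prime_of_mem_primeFactors hs
    have hs2 := Nat.dvd_of_mem_primeFactors hs
    rcases Cfsg.Agent.H11.ThreeOrd.typ h3 hodd hr1 hr2 with h4 | h4
    · exact Cfsg.Agent.H11.ThreeOrd.so_ne h3 hodd hr1 hs1 hcon hr2 hs2 h4 (hrs ▸ h4)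
    · exact Cfsg.Agent.H11.ThreeOrd.so_ne h3.symm hodd hr1 hs1 hcon hr2 hs2 h4 (hrs ▸ h4)
  refine ⟨?_, ?_⟩
  · have h4 : ((Nat.card G).primeFactors.image (Cfsg.Agent.FrobThm.so G)).card = (Nat.card G).primeFactors.card :=
      Finset.card_image_of_injOn (fun r hr s hs h => hne r hr s hs h)
    rw [← h4]
    refine le_trans (Finset.card_le_card (t := {a, b}) ?_) (Finset.card_le_two)
    intro x hx
    obtain ⟨r, hr, rfl⟩ := Finset.mem_image.1 hx
    rcases Cfsg.Agent.H11.ThreeOrd.typ h3 hodd (Nat.prime_of_mem_primeFactors hr) (Nat.dvd_of_mem_primeFactors hr) with h5 | h5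
    · rw [h5]; simp
    · rw [h5]; simp
  · intro h2
    obtain ⟨p, q, hpq, hpf⟩ := Finset.card_eq_two.1 h2
    have hp : p ∈ (Nat.card G).primeFactors := by rw [hpf]; simp
    have hq : q ∈ (Nat.card G).primeFactors := by rw [hpf]; simp
    have hp1 := Nat.prime_of_mem_primeFactors hp
    have hp2 := Nat.dvd_of_mem_primeFactors hp
    have hq1 := Nat.prime_of_mem_primeFactors hq
    have hq2 := Nat.dvd_of_mem_primeFactors hq
    have hall : ∀ r : ℕ, r.Prime → r ∣ Nat.card G → r = p ∨ r = q := by
      intro r hr hrd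
      have h5 : r ∈ (Nat.card G).primeFactors := Nat.mem_primeFactors.2 ⟨hr, hrd, Nat.card_pos.ne'⟩
      rw [hpf] at h5
      simpa using h5
    rcases Cfsg.Agent.H11.ThreeOrd.typ h3 hodd hp1 hp2 with h4 | h4 <;>
      rcases Cfsg.Agent.H11.ThreeOrd.typ h3 hodd hq1 hq2 with h5 | h5
    · exact absurd (hne p hp q hq (h4.trans h5.symm)) hpq
    · exact Cfsg.Agent.H11.ThreeOrd.main h3 hodd hp1 hq1 hpq hp2 hq2 h4 h5 hall
    · exact Cfsg.Agent.H11.ThreeOrd.main h3.symm hodd hp1 hq1 hpq hp2 hq2 h4 h5 hall
    · exact absurd (hne p hp q hq (h4.trans h5.symm)) hpq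

end Cfsg.Agent.S4004
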