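import Cfsg.Statements.S4005

set_option autoImplicit false
open Cfsg

namespace Cfsg.Agent.S4005

section aux

theorem key_additive {A : Type*} [AddCommGroup A] (h2 : ∀ a : A, a + a = 0) (u v : A → A)
    (uadd : ∀ a b, u (a + b) = u a + u b) (vadd : ∀ a b, v (a + b) = v a + v b)
    (hu : ∀ a, u (u a) = a + u a) (hv : ∀ a, v (v a) = a + v a)
    (huv : ∀ a, u (v (u (v a))) = a + u (v a))
    (huuv : ∀ a, u (u (v (u (u (v a))))) = a + u (u (v a))) (a : A) : a = 0 := by
  have c2 : ∀ x y z : A, x + y = x + z → y = z := fun x y z h => add_left_cancel h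
  set t := v a with ht
  have e1 : v t = a + t := by rw [ht, hv]
  have e2 : u (v (u t)) = a + u t := huv a
  -- second relation
  have e3 := huuv a
  rw [← ht] at e3
  rw [hu t, vadd, e1] at e3
  -- u (u (a + t + v (u t))) = a + (t + u t)
  rw [hu] at e3
  rw [uadd, uadd, e2] at e3
  -- a + t + v (u t) + (u a + u t + (a + u t)) = a + (t + u t)
  have e4 : v (u t) + u a = a + u t := by
    have h3 : (a + t + v (u t)) + (u a + u t + (a + u t)) = (a + a) + (u t + u t) + (t + (v (u t) + u a)) := by abel
    rw [h3, h2, h2, zero_add, zero_add] at e3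
    have h4 : a + (t + u t) = t + (a + u t) := by abel
    rw [h4] at e3
    exact c2 _ _ _ e3
  have e5 := congrArg u e4
  rw [uadd, uadd, e2, hu, hu] at e5
  -- a + u t + (a + u a) = u a + (t + u t)
  have h5 : a + u t + (a + u a) = (a + a) + (u a + u t) := by abel
  rw [h5, h2, zero_add] at e5
  have h6 : u a + (t + u t) = (u a + u t) + t := by abel
  rw [h6] at e5
  have e6 : t = 0 := by
    have : (u a + u t) + 0 = (u a + u t) + t := by rw [add_zero]; exact e5
    exact (c2 _ _ _ this).symm
  have v0 : v 0 = 0 := by
    have := vadd 0 0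
    rw [add_zero] at this
    have h7 : v 0 + 0 = v 0 + v 0 := by rw [add_zero]; exact this
    exact (c2 _ _ _ h7).symm
  have e7 : v t = 0 := by rw [e6, v0]
  rw [e1, e6, add_zero] at e7
  exact e7

variable {G : Type*} [Group G] [Finite G]

theorem no_six (hord : ∀ g : G, orderOf g = 1 ∨ orderOf g = 2 ∨ orderOf g = 3) {t x : G}
    (ht : orderOf t = 2) (hx : orderOf x = 3) : t * x ≠ x * t := by
  intro hc
  have h1 : orderOf (t * x) = 2 * 3 := by
    rw [Commute.orderOf_mul_eq_mul_orderOf_of_coprime hc (by rw [ht, hx]; norm_num), ht, hx]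
  rcases hord (t * x) with h | h | h <;> omega

theorem comm_of_centralize (hord : ∀ g : G, orderOf g = 1 ∨ orderOf g = 2 ∨ orderOf g = 3) {t : G}
    (ht : orderOf t = 2) {x : G} (hx : t * x = x * t) : x ^ 2 = 1 := by
  rcases hord x with h | h | h
  · rw [orderOf_eq_one_iff] at h; rw [h, one_pow]
  · rw [← h]; exact pow_orderOf_eq_one x
  · exact absurd hx (no_six hord ht h)

theorem comm_trans (hord : ∀ g : G, orderOf g = 1 ∨ orderOf g = 2 ∨ orderOf g = 3) {t : G}
    (ht : orderOf t = 2) {x y : G} (hx : t * x = x * t) (hy : t * y = y * t) : x * y = y * x := by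
  have h1 := comm_of_centralize hord ht hx
  have h2 := comm_of_centralize hord ht hy
  have h3 : (x * y) ^ 2 = 1 := comm_of_centralize hord ht (by rw [← mul_assoc, hx, mul_assoc, hy, mul_assoc])
  have ex : x⁻¹ = x := by rw [inv_eq_iff_mul_eq_one, ← pow_two]; exact h1
  have ey : y⁻¹ = y := by rw [inv_eq_iff_mul_eq_one, ← pow_two]; exact h2
  have exy : (x * y)⁻¹ = x * y := by rw [inv_eq_iff_mul_eq_one, ← pow_two]; exact h3
  rw [mul_inv_rev, ex, ey] at exy
  exact exy.symm

theorem coxeter_pow_four {a b c : G} (hab : a * b * a = b * a * b) (hbc : b * c * b = c * b * c)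
    (hac : a * c = c * a) (ha : a * a = 1) (hb : b * b = 1) (hc : c * c = 1) :
    (a * c * b) ^ 4 = 1 := by
  have h1 : a * c * b * (a * c * b) = b * (a * c) * (b * (a * c)) := by
    calc a * c * b * (a * c * b) = c * a * b * (a * c * b) := by rw [hac]
      _ = c * (a * b * a) * c * b := by simp only [mul_assoc]
      _ = c * (b * a * b) * c * b := by rw [hab]
      _ = c * b * a * (b * c * b) := by simp only [mul_assoc]
      _ = c * b * a * (c * b * c) := by rw [hbc]
      _ = c * b * (a * c) * b * c := by simp only [mul_assoc]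
      _ = c * b * (c * a) * b * c := by rw [hac]
      _ = (c * b * c) * a * b * c := by simp only [mul_assoc]
      _ = (b * c * b) * a * b * c := by rw [hbc]
      _ = b * c * (b * a * b) * c := by simp only [mul_assoc]
      _ = b * c * (a * b * a) * c := by rw [hab]
      _ = b * (c * a) * (b * (a * c)) := by simp only [mul_assoc]
      _ = b * (a * c) * (b * (a * c)) := by rw [hac]
  have h2 : (a * c * b) * (b * (a * c)) = 1 := by
    calc (a * c * b) * (b * (a * c)) = a * c * (b * b) * (a * c) := by simp only [mul_assoc]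
      _ = a * (c * a) * c := by rw [hb, mul_one]; simp only [mul_assoc]
      _ = a * (a * c) * c := by rw [hac]
      _ = (a * a) * (c * c) := by simp only [mul_assoc]
      _ = 1 := by rw [ha, hc, mul_one]
  calc (a * c * b) ^ 4 = (a * c * b) * (a * c * b) * (a * c * b * (a * c * b)) := by
        rw [show (4 : ℕ) = 1 + 1 + 1 + 1 from rfl, pow_add, pow_add, pow_add, pow_one]
        simp only [mul_assoc]
    _ = (a * c * b) * (a * c * b) * (b * (a * c) * (b * (a * c))) :=
        congrArg (fun z => (a * c * b) * (a * c * b) * z) h1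
    _ = (a * c * b) * ((a * c * b) * (b * (a * c))) * (b * (a * c)) := by simp only [mul_assoc]
    _ = 1 := by rw [h2, mul_one, h2]

theorem braid_of_cube {a b : G} (ha : a * a = 1) (hb : b * b = 1) (h : (a * b) ^ 3 = 1) :
    a * b * a = b * a * b := by
  have h1 : a * b * (a * b) * (a * b) = 1 := by
    rw [← h, show (3 : ℕ) = 1 + 1 + 1 from rfl, pow_add, pow_add, pow_one]
  have h2 : (a * b * a) * (b * a * b) = 1 := by rw [← h1]; simp only [mul_assoc]
  have h3 : (b * a * b) * (b * a * b) = 1 := by
    calc (b * a * b) * (b * a * b) = b * a * (b * b) * a * b := by simp only [mul_assoc]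
      _ = b * (a * a) * b := by rw [hb, mul_one]; simp only [mul_assoc]
      _ = 1 := by rw [ha, mul_one, hb]
  exact mul_right_cancel (h2.trans h3.symm)

end aux

/-- A finite group whose set of element orders is exactly {1, 2, 3} has either a normal elementary abelian 3-subgroup of index 2 or a normal elementary abelian 2-subgroup of index 3. -/
theorem result {G : Type*} [Group G] [Finite G] (h : Set.range (orderOf : G → ℕ) = {k : ℕ | 1 ≤ k ∧ k ≤ 3}) :
    (∃ N : Subgroup G, N.Normal ∧ Cfsg.IsElementaryAbelian 3 N ∧ N.index = 2) ∨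
      (∃ N : Subgroup G, N.Normal ∧ Cfsg.IsElementaryAbelian 2 N ∧ N.index = 3) := by
  classical
  have hord : ∀ g : G, orderOf g = 1 ∨ orderOf g = 2 ∨ orderOf g = 3 := by
    intro g
    have : orderOf g ∈ Set.range (orderOf : G → ℕ) := ⟨g, rfl⟩
    rw [h] at this
    obtain ⟨h1, h2⟩ := this
    omega
  obtain ⟨t, ht⟩ : ∃ t : G, orderOf t = 2 := by
    have : (2 : ℕ) ∈ Set.range (orderOf : G → ℕ) := by rw [h]; exact ⟨by norm_num, by norm_num⟩
    exact this
  obtain ⟨x₀, hx₀⟩ : ∃ t : G, orderOf t = 3 := by
    have : (3 : ℕ) ∈ Set.range (orderOf : G → ℕ) := by rw [h]; exact ⟨by norm_num, by norm_num⟩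
    exact this
  have hinv : ∀ s : G, orderOf s = 2 → s * s = 1 ∧ s ≠ 1 := by
    intro s hs
    refine ⟨by rw [← pow_two, ← hs]; exact pow_orderOf_eq_one s, ?_⟩
    rintro rfl
    simp at hs
  have hinv' : ∀ s : G, s * s = 1 → s ≠ 1 → orderOf s = 2 := by
    intro s hs hs1
    exact orderOf_eq_prime (by rw [pow_two]; exact hs) hs1
  have hthree : ∀ x : G, orderOf x = 3 → x * x * x = 1 ∧ x ≠ 1 := by
    intro x hx
    refine ⟨by rw [← pow_orderOf_eq_one x, hx]; rw [pow_succ, pow_two], ?_⟩
    rintro rfl
    simp at hx
  have hthree' : ∀ x : G, x * x * x = 1 → x ≠ 1 → orderOf x = 3 := by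
    intro x hx hx1
    have : Fact (Nat.Prime 3) := ⟨Nat.prime_three⟩
    exact orderOf_eq_prime (by rw [pow_succ, pow_two]; exact hx) hx1
  -- every element is an involution, 1, or of order 3
  have htri : ∀ g : G, g * g = 1 ∨ g * g * g = 1 := by
    intro g
    rcases hord g with h | h | h
    · left; rw [orderOf_eq_one_iff] at h; rw [h, one_mul]
    · left; exact (hinv g h).1
    · right; exact (hthree g h).1
  by_cases hB : ∀ s r : G, orderOf s = 2 → orderOf r = 2 → s * r = r * s → s = r
  · -- Case B
    left
    -- each involution inverts every element with x^3 = 1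
    have hinvert : ∀ s x : G, orderOf s = 2 → x * x * x = 1 → s * x * s = x⁻¹ := by
      intro s x hs hx
      by_cases hx1 : x = 1
      · rw [hx1, mul_one, (hinv s hs).1, inv_one]
      rcases htri (s * x) with h1 | h1
      · rw [eq_inv_iff_mul_eq_one]
        rw [← h1]; simp only [mul_assoc]
      · exfalso
        -- s and x s x⁻¹ commute
        have hxi : x⁻¹ = x * x := by rw [inv_eq_iff_mul_eq_one, ← mul_assoc]; exact hx
        have hss := (hinv s hs).1
        have e1 : s * (x * s * x⁻¹) * (x * x * s * (x * x)⁻¹) = 1 := by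
          calc s * (x * s * x⁻¹) * (x * x * s * (x * x)⁻¹)
              = (s * x * (s * x) * (s * x)) * (x⁻¹ * x⁻¹ * x⁻¹) := by group
            _ = 1 := by rw [h1, one_mul, ← inv_one, ← hx]; group
        have e2 : (x * x * s * (x * x)⁻¹) * (x * x * s * (x * x)⁻¹) = 1 := by
          calc (x * x * s * (x * x)⁻¹) * (x * x * s * (x * x)⁻¹) = x * x * (s * s) * (x * x)⁻¹ := by group
            _ = 1 := by rw [hss]; group
        have e3 : s * (x * s * x⁻¹) = x * x * s * (x * x)⁻¹ := by
          exact mul_right_cancel (e1.trans e2.symm)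
        have e4 : (x * s * x⁻¹) * (x * s * x⁻¹) = 1 := by
          calc (x * s * x⁻¹) * (x * s * x⁻¹) = x * (s * s) * x⁻¹ := by group
            _ = 1 := by rw [hss]; group
        have e5 : s * (x * s * x⁻¹) = (x * s * x⁻¹) * s := by
          have h5 : (s * (x * s * x⁻¹)) * (s * (x * s * x⁻¹)) = 1 := by rw [e3]; exact e2
          have h6 : (s * (x * s * x⁻¹)) * ((x * s * x⁻¹) * s) = 1 := by
            calc (s * (x * s * x⁻¹)) * ((x * s * x⁻¹) * s) = s * ((x * s * x⁻¹) * (x * s * x⁻¹)) * s := by
                  simp only [mul_assoc]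
              _ = 1 := by rw [e4, mul_one, hss]
          exact mul_left_cancel (h5.trans h6.symm)
        have h7 : orderOf (x * s * x⁻¹) = 2 := by
          apply hinv' _ e4
          intro h8
          apply (hinv s hs).2
          have : s = x⁻¹ * (x * s * x⁻¹) * x := by group
          rw [this, h8]; group
        have h8 := hB s (x * s * x⁻¹) hs h7 e5
        have h9 : s * x = x * s := by
          nth_rewrite 1 [h8]; group
        exact no_six hord hs (hthree' x hx hx1) h9
    have hmulmem : ∀ x y : G, x * x * x = 1 → y * y * y = 1 → (x * y) * (x * y) * (x * y) = 1 := by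
      intro x y hx hy
      rcases htri (x * y) with h1 | h1
      · by_cases hxy : x * y = 1
        · rw [hxy]; simp
        exfalso
        have h2 := hinvert (x * y) x (hinv' _ h1 hxy) hx
        have hxyi : (x * y)⁻¹ = x * y := by rw [inv_eq_iff_mul_eq_one]; exact h1
        -- y x y⁻¹ = x⁻¹
        have h3 : y * x * y⁻¹ = x⁻¹ := by
          have e : x * y * x * (x * y)⁻¹ = x⁻¹ := by rw [hxyi]; exact h2
          calc y * x * y⁻¹ = x⁻¹ * (x * y * x * (x * y)⁻¹) * x := by group
            _ = x⁻¹ := by rw [e]; group
        have h4 : ∀ z : G, y * x⁻¹ * y⁻¹ = x := by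
          intro _
          have : y * x⁻¹ * y⁻¹ = (y * x * y⁻¹)⁻¹ := by group
          rw [this, h3, inv_inv]
        have h5 : (y * y * y) * x * (y * y * y)⁻¹ = x⁻¹ := by
          calc (y * y * y) * x * (y * y * y)⁻¹ = y * (y * (y * x * y⁻¹) * y⁻¹) * y⁻¹ := by group
            _ = x⁻¹ := by rw [h3, h4 1, h3]
        rw [hy] at h5
        have h6 : x = x⁻¹ := by simpa using h5
        have h7 : x * x = 1 := by nth_rewrite 1 [h6]; exact inv_mul_cancel x
        have h8 : x = 1 := by rw [h7, one_mul] at hx; exact hx
        rw [h8, one_mul] at h1 hxy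
        rw [h1, one_mul] at hy
        exact hxy hy
      · exact h1
    have hcomm : ∀ x y : G, x * x * x = 1 → y * y * y = 1 → x * y = y * x := by
      intro x y hx hy
      have h1 := hinvert t x ht hx
      have h2 := hinvert t y ht hy
      have h3 := hinvert t (x * y) ht (hmulmem x y hx hy)
      have h4 : t * (x * y) * t = (t * x * t) * (t * y * t) := by
        calc t * (x * y) * t = t * x * 1 * y * t := by simp only [mul_assoc, one_mul]
          _ = t * x * (t * t) * y * t := by rw [(hinv t ht).1]
          _ = (t * x * t) * (t * y * t) := by simp only [mul_assoc]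
      rw [h4, h1, h2, ← mul_inv_rev] at h3
      exact (inv_injective h3).symm
    let N : Subgroup G :=
      { carrier := {x | x * x * x = 1}
        one_mem' := by simp
        mul_mem' := by intro a b ha hb; exact hmulmem a b ha hb
        inv_mem' := by
          intro a ha
          show a⁻¹ * a⁻¹ * a⁻¹ = 1
          have : a⁻¹ * a⁻¹ * a⁻¹ = (a * a * a)⁻¹ := by group
          rw [this, show a * a * a = 1 from ha, inv_one] }
    have hNmem : ∀ x, x ∈ N ↔ x * x * x = 1 := fun x => Iff.rfl
    refine ⟨N, ⟨?_⟩, ⟨⟨⟨?_⟩⟩, ?_⟩, ?_⟩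
    · intro n hn g
      rw [hNmem] at hn ⊢
      calc g * n * g⁻¹ * (g * n * g⁻¹) * (g * n * g⁻¹) = g * (n * n * n) * g⁻¹ := by group
        _ = 1 := by rw [hn]; group
    · rintro ⟨a, ha⟩ ⟨b, hb⟩
      exact Subtype.ext (hcomm a b ha hb)
    · intro a ha
      rw [pow_succ, pow_two]; exact ha
    · rw [Subgroup.index_eq_two_iff]
      refine ⟨t, fun b => ?_⟩
      have htN : t ∉ N := by
        rw [hNmem, (hinv t ht).1, one_mul]
        exact (hinv t ht).2
      by_cases hb : b ∈ N
      · right
        refine ⟨hb, fun h1 => htN ?_⟩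
        exact (N.mul_mem_cancel_left hb).mp h1
      · left
        refine ⟨?_, hb⟩
        have hb2 : b * b = 1 := by
          rcases htri b with h1 | h1
          · exact h1
          · exact absurd h1 hb
        have hb1 : b ≠ 1 := by rintro rfl; exact hb N.one_mem
        rcases htri (b * t) with h1 | h1
        · -- b, t commute
          have h2 : b * t = t * b := by
            have h3 : (b * t) * (t * b) = 1 := by
              calc (b * t) * (t * b) = b * (t * t) * b := by simp only [mul_assoc]
                _ = 1 := by rw [(hinv t ht).1, mul_one, hb2]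
            exact mul_left_cancel (h1.trans h3.symm)
          have h3 := hB b t (hinv' b hb2 hb1) ht h2
          rw [h3, (hinv t ht).1]; exact N.one_mem
        · exact h1
  · -- Case A
    right
    push Not at hB
    obtain ⟨s, r, hs, hr, hsr, hne⟩ := hB
    have hss := (hinv s hs).1
    have hrr := (hinv r hr).1
    have hsrinv : orderOf (s * r) = 2 := by
      apply hinv'
      · calc s * r * (s * r) = s * (r * s) * r := by simp only [mul_assoc]
          _ = s * (s * r) * r := by rw [hsr]
          _ = (s * s) * (r * r) := by simp only [mul_assoc]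
          _ = 1 := by rw [hss, hrr, mul_one]
      · intro h1
        apply hne
        have : s⁻¹ = r := by rw [inv_eq_iff_mul_eq_one]; exact h1
        rw [← this, eq_comm, inv_eq_iff_mul_eq_one]; exact hss
    -- every involution commutes with s
    have hall : ∀ u : G, orderOf u = 2 → s * u = u * s := by
      intro u hu
      by_contra hcon
      have huu := (hinv u hu).1
      have hcube : ∀ w : G, orderOf w = 2 → s * w = w * s → (w * u) ^ 3 = 1 := by
        intro w hw hsw
        have hww := (hinv w hw).1
        rcases htri (w * u) with h1 | h1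
        · exfalso
          apply hcon
          have h2 : w * u = u * w := by
            have h3 : (w * u) * (u * w) = 1 := by
              calc (w * u) * (u * w) = w * (u * u) * w := by simp only [mul_assoc]
                _ = 1 := by rw [huu, mul_one, hww]
            exact mul_left_cancel (h1.trans h3.symm)
          exact comm_trans hord hw hsw.symm h2
        · rw [pow_succ, pow_two]; exact h1
      have c1 := hcube s hs rfl
      have c2 := hcube r hr hsr
      have c3 := hcube (s * r) hsrinv (by rw [mul_assoc, ← hsr])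
      have b1 := braid_of_cube hss huu c1
      have b2 := braid_of_cube hrr huu c2
      have h4 := coxeter_pow_four b1 b2.symm hsr hss huu hrr
      have h5 : s * r * u = 1 := by
        have : (s * r * u) ^ 4 = (s * r * u) ^ 3 * (s * r * u) := pow_succ _ 3
        rw [h4, c3, one_mul] at this
        exact this.symm
      have h6 : u = s * r := by
        have h7 : (s * r)⁻¹ = u := by rw [inv_eq_iff_mul_eq_one]; exact h5
        rw [← h7, inv_eq_iff_mul_eq_one]
        exact (hinv _ hsrinv).1
      apply hcon
      rw [h6, ← mul_assoc, hss, one_mul, hsr, mul_assoc, hss, mul_one]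
    have hcomm2 : ∀ a b : G, a * a = 1 → b * b = 1 → a * b = b * a := by
      intro a b ha hb
      by_cases ha1 : a = 1
      · rw [ha1, one_mul, mul_one]
      by_cases hb1 : b = 1
      · rw [hb1, one_mul, mul_one]
      exact comm_trans hord hs (hall a (hinv' a ha ha1)) (hall b (hinv' b hb hb1))
    let N : Subgroup G :=
      { carrier := {x | x * x = 1}
        one_mem' := by simp
        mul_mem' := by
          intro a b ha hb
          show a * b * (a * b) = 1
          calc a * b * (a * b) = a * (b * a) * b := by simp only [mul_assoc]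
            _ = a * (a * b) * b := by rw [hcomm2 a b ha hb]
            _ = (a * a) * (b * b) := by simp only [mul_assoc]
            _ = 1 := by rw [show a * a = 1 from ha, show b * b = 1 from hb, mul_one]
        inv_mem' := by
          intro a ha
          show a⁻¹ * a⁻¹ = 1
          have : a⁻¹ * a⁻¹ = (a * a)⁻¹ := by group
          rw [this, show a * a = 1 from ha, inv_one] }
    have hNmem : ∀ x, x ∈ N ↔ x * x = 1 := fun x => Iff.rfl
    have hNn : N.Normal := by
      constructor
      intro n hn g
      rw [hNmem] at hn ⊢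
      calc g * n * g⁻¹ * (g * n * g⁻¹) = g * (n * n) * g⁻¹ := by group
        _ = 1 := by rw [hn]; group
    have hNcomm : ∀ a b : N, a * b = b * a := fun a b => Subtype.ext (hcomm2 a b a.2 b.2)
    refine ⟨N, hNn, ⟨⟨⟨hNcomm⟩⟩, ?_⟩, ?_⟩
    · intro a ha
      rw [pow_two]; exact ha
    -- index three
    have hnot : ∀ y : G, y ∉ N → y * y * y = 1 := by
      intro y hy
      rcases htri y with h1 | h1
      · exact absurd h1 hy
      · exact h1
    -- relation for elements outside N
    have hrel : ∀ y : G, y ∉ N → ∀ a : G, a ∈ N →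
        y * (y * a * y⁻¹) * y⁻¹ = a * (y * a * y⁻¹) := by
      intro y hy a ha
      have hy3 := hnot y hy
      have hay : a * y ∉ N := fun h1 => hy ((N.mul_mem_cancel_left ha).mp h1)
      have h1 := hnot (a * y) hay
      have haa : a * a = 1 := ha
      have h2 : a * (y * a * y⁻¹) * (y * (y * a * y⁻¹) * y⁻¹) = 1 := by
        calc a * (y * a * y⁻¹) * (y * (y * a * y⁻¹) * y⁻¹)
            = (a * y * (a * y) * (a * y)) * (y⁻¹ * y⁻¹ * y⁻¹) := by group
          _ = 1 := by rw [h1, one_mul, ← inv_one, ← hy3]; group
      have hb : y * a * y⁻¹ ∈ N := hNn.conj_mem a ha y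
      have h3 : (a * (y * a * y⁻¹)) * (a * (y * a * y⁻¹)) = 1 := N.mul_mem ha hb
      exact mul_left_cancel (h2.trans h3.symm)
    have hx₀N : x₀ ∉ N := by
      rw [hNmem]
      intro h1
      have h2 := hthree x₀ hx₀
      rw [h1, one_mul] at h2
      exact h2.2 h2.1
    have hcosets : ∀ g : G, g ∈ N ∨ x₀ * g ∈ N ∨ x₀ * x₀ * g ∈ N := by
      intro g
      by_contra hcon
      push Not at hcon
      obtain ⟨hg, hxg, hxxg⟩ := hcon
      let _ : CommGroup N := { (inferInstance : Group N) with mul_comm := hNcomm }
      let A := Additive N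
      let f : G → N → N := fun y a => ⟨y * a * y⁻¹, hNn.conj_mem a a.2 y⟩
      have hf : ∀ y a, ((f y a : N) : G) = y * a * y⁻¹ := fun _ _ => rfl
      have hfm : ∀ y a b, f y (a * b) = f y a * f y b := by
        intro y a b
        apply Subtype.ext
        rw [hf, Subgroup.coe_mul, Subgroup.coe_mul, hf, hf]; group
      have hfr : ∀ y, y ∉ N → ∀ a, f y (f y a) = a * f y a := by
        intro y hy a
        apply Subtype.ext
        rw [hf, hf, Subgroup.coe_mul, hf]
        exact hrel y hy a a.2
      have hfc : ∀ y z a, f (y * z) a = f y (f z a) := by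
        intro y z a
        apply Subtype.ext
        rw [hf, hf, hf]; group
      have key := key_additive (A := A) (fun a => by
          show (a.toMul * a.toMul : N) = 1
          exact Subtype.ext a.toMul.2)
        (fun a => Additive.ofMul (f x₀ a.toMul)) (fun a => Additive.ofMul (f g a.toMul))
        (fun a b => congrArg Additive.ofMul (hfm x₀ a.toMul b.toMul))
        (fun a b => congrArg Additive.ofMul (hfm g a.toMul b.toMul))
        (fun a => congrArg Additive.ofMul (hfr x₀ hx₀N a.toMul))
        (fun a => congrArg Additive.ofMul (hfr g hg a.toMul))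
        (fun a => congrArg Additive.ofMul (by
          show f x₀ (f g (f x₀ (f g a.toMul))) = a.toMul * f x₀ (f g a.toMul)
          rw [← hfc x₀ g, ← hfc x₀ g]
          exact hfr _ hxg _))
        (fun a => congrArg Additive.ofMul (by
          show f x₀ (f x₀ (f g (f x₀ (f x₀ (f g a.toMul))))) = a.toMul * f x₀ (f x₀ (f g a.toMul))
          rw [← hfc x₀ x₀, ← hfc _ g, ← hfc x₀ x₀, ← hfc _ g]
          exact hfr _ hxxg _))
        (Additive.ofMul ⟨t, (hinv t ht).1⟩)
      have h1 : (⟨t, (hinv t ht).1⟩ : N) = 1 := key
      exact (hinv t ht).2 (congrArg Subtype.val h1)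
    -- conclude
    have hx3 := (hthree x₀ hx₀).1
    have hcard : Nat.card (G ⧸ N) = 3 := by
      have hord3 : orderOf (x₀ : G ⧸ N) = 3 := by
        have : Fact (Nat.Prime 3) := ⟨Nat.prime_three⟩
        apply orderOf_eq_prime
        · rw [← QuotientGroup.mk_pow, ← hx₀, pow_orderOf_eq_one]; rfl
        · rw [Ne, QuotientGroup.eq_one_iff]; exact hx₀N
      have htop : Subgroup.zpowers (x₀ : G ⧸ N) = ⊤ := by
        rw [eq_top_iff]
        intro q _
        obtain ⟨g, rfl⟩ := QuotientGroup.mk_surjective q
        rcases hcosets g with h1 | h1 | h1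
        · rw [(QuotientGroup.eq_one_iff g).mpr h1]; exact Subgroup.one_mem _
        · have h2 : (x₀ : G ⧸ N) * (g : G ⧸ N) = 1 := by
            rw [← QuotientGroup.mk_mul]; exact (QuotientGroup.eq_one_iff _).mpr h1
          rw [← inv_eq_iff_mul_eq_one] at h2
          rw [← h2]; exact Subgroup.inv_mem _ (Subgroup.mem_zpowers _)
        · have h2 : (x₀ : G ⧸ N) * (x₀ : G ⧸ N) * (g : G ⧸ N) = 1 := by
            rw [← QuotientGroup.mk_mul, ← QuotientGroup.mk_mul]; exact (QuotientGroup.eq_one_iff _).mpr h1
          rw [← inv_eq_iff_mul_eq_one] at h2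
          rw [← h2]
          exact Subgroup.inv_mem _ (Subgroup.mul_mem _ (Subgroup.mem_zpowers _) (Subgroup.mem_zpowers _))
      rw [← hord3, ← Nat.card_zpowers, htop, Subgroup.card_top]
    rw [Subgroup.index_eq_card]
    exact hcard

end Cfsg.Agent.S4005
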