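import Cfsg.Statements.S4198
import Mathlib.GroupTheory.SpecificGroups.Alternating.Centralizer
import Mathlib.Combinatorics.Enumerative.Partition.Basic

set_option autoImplicit false
open Cfsg

namespace Cfsg.Agent.S4198

open Equiv.Perm

theorem exists_min_part {n : ℕ} (hn : 0 < n) (p : Nat.Partition n) :
    ∃ m ∈ p.parts, ∀ i ∈ p.parts, m ≤ i := by
  have h0 : ∃ m, m ∈ p.parts := by
    apply Multiset.exists_mem_of_ne_zero
    intro h
    have := p.parts_sum
    rw [h, Multiset.sum_zero] at this
    omega
  classical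
  refine ⟨Nat.find h0, Nat.find_spec h0, fun i hi => Nat.find_min' h0 hi⟩

theorem exists_max_part {n : ℕ} (hn : 0 < n) (p : Nat.Partition n) :
    ∃ m ∈ p.parts, ∀ i ∈ p.parts, i ≤ m := by
  have h0 : ∃ m, m ∈ p.parts := by
    apply Multiset.exists_mem_of_ne_zero
    intro h
    have := p.parts_sum
    rw [h, Multiset.sum_zero] at this
    omega
  classical
  obtain ⟨m, hm, hmax⟩ := Finset.exists_max_image p.parts.toFinset id
    (by obtain ⟨m, hm⟩ := h0; exact ⟨m, Multiset.mem_toFinset.mpr hm⟩)
  exact ⟨m, Multiset.mem_toFinset.mp hm, fun i hi => hmax i (Multiset.mem_toFinset.mpr hi)⟩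

theorem step (n : ℕ) : Nat.card (Nat.Partition (n + 1)) ≤ 2 * Nat.card (Nat.Partition n) := by
  classical
  have key : ∀ p : Nat.Partition (n + 1), ∃ q : Nat.Partition n ⊕ Nat.Partition n,
      (1 ∈ p.parts ∧ ∃ q' : Nat.Partition n, q = Sum.inl q' ∧ p.parts = 1 ::ₘ q'.parts) ∨
      (1 ∉ p.parts ∧ ∃ (q' : Nat.Partition n) (m : ℕ), q = Sum.inr q' ∧ m ∈ p.parts ∧
        (∀ i ∈ p.parts, m ≤ i) ∧ q'.parts = (m - 1) ::ₘ p.parts.erase m) := by
    intro p
    by_cases h1 : 1 ∈ p.parts
    · obtain ⟨t, ht⟩ := Multiset.exists_cons_of_mem h1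
      refine ⟨Sum.inl ⟨t, ?_, ?_⟩, Or.inl ⟨h1, _, rfl, ht⟩⟩
      · intro i hi
        apply p.parts_pos
        rw [ht]
        exact Multiset.mem_cons_of_mem hi
      · have := p.parts_sum
        rw [ht, Multiset.sum_cons] at this
        omega
    · obtain ⟨m, hm, hmin⟩ := exists_min_part (Nat.succ_pos n) p
      have hm0 := p.parts_pos hm
      have hm1 : m ≠ 1 := by rintro rfl; exact h1 hm
      have hs : m + (p.parts.erase m).sum = n + 1 := by
        rw [← Multiset.sum_cons, Multiset.cons_erase hm, p.parts_sum]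
      refine ⟨Sum.inr ⟨(m - 1) ::ₘ p.parts.erase m, ?_, ?_⟩, Or.inr ⟨h1, _, m, rfl, hm, hmin, rfl⟩⟩
      · intro i hi
        rcases Multiset.mem_cons.mp hi with rfl | hi
        · omega
        · exact p.parts_pos (Multiset.mem_of_mem_erase hi)
      · rw [Multiset.sum_cons]
        omega
  choose f hf using key
  have hinj : Function.Injective f := by
    intro p q hpq
    rcases hf p with ⟨h1, p', hp1, hp2⟩ | ⟨h1, p', m, hp1, hm, hmin, hp2⟩
    · rcases hf q with ⟨h2, q', hq1, hq2⟩ | ⟨h2, q', m', hq1, hm', hmin', hq2⟩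
      · rw [hp1, hq1, Sum.inl.injEq] at hpq
        rw [Nat.Partition.ext_iff, hp2, hq2, hpq]
      · rw [hp1, hq1] at hpq
        exact absurd hpq (by simp)
    · rcases hf q with ⟨h2, q', hq1, hq2⟩ | ⟨h2, q', m', hq1, hm', hmin', hq2⟩
      · rw [hp1, hq1] at hpq
        exact absurd hpq (by simp)
      · rw [hp1, hq1, Sum.inr.injEq] at hpq
        rw [hpq, hq2] at hp2
        have hm0 := p.parts_pos hm
        have hm0' := q.parts_pos hm'
        have e1 : m - 1 ∈ (m' - 1) ::ₘ q.parts.erase m' := by rw [hp2]; exact Multiset.mem_cons_self _ _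
        have e2 : m' - 1 ∈ (m - 1) ::ₘ p.parts.erase m := by rw [← hp2]; exact Multiset.mem_cons_self _ _
        have hmm : m = m' := by
          rcases Multiset.mem_cons.mp e1 with e1 | e1
          · omega
          · rcases Multiset.mem_cons.mp e2 with e2 | e2
            · omega
            · have := hmin' _ (Multiset.mem_of_mem_erase e1)
              have := hmin _ (Multiset.mem_of_mem_erase e2)
              omega
        subst hmm
        rw [Multiset.cons_inj_right] at hp2
        rw [Nat.Partition.ext_iff, ← Multiset.cons_erase hm, ← Multiset.cons_erase hm', hp2]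
  have := Nat.card_le_card_of_injective f hinj
  rw [Nat.card_sum] at this
  omega

def T5 : Type := {x : Fin 6 × Fin 3 × Fin 2 × Fin 2 × Fin 2 //
    (x.1 : ℕ) + 2 * (x.2.1 : ℕ) + 3 * (x.2.2.1 : ℕ) + 4 * (x.2.2.2.1 : ℕ) + 5 * (x.2.2.2.2 : ℕ) = 5}

theorem card_T5 : Nat.card T5 = 7 := by
  have : Fintype T5 := by unfold T5; infer_instance
  have h : Fintype.card {x : Fin 6 × Fin 3 × Fin 2 × Fin 2 × Fin 2 //
    (x.1 : ℕ) + 2 * (x.2.1 : ℕ) + 3 * (x.2.2.1 : ℕ) + 4 * (x.2.2.2.1 : ℕ) + 5 * (x.2.2.2.2 : ℕ) = 5}
      = 7 := by decide +kernel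
  rw [← h, ← Nat.card_eq_fintype_card]
  rfl

theorem five : Nat.card (Nat.Partition 5) ≤ 7 := by
  classical
  have hc : ∀ p : Nat.Partition 5, p.parts.count 1 + 2 * p.parts.count 2 + 3 * p.parts.count 3 +
      4 * p.parts.count 4 + 5 * p.parts.count 5 = 5 := by
    intro p
    have h1 := Finset.sum_multiset_count_of_subset p.parts (Finset.range 6) (by
      intro i hi
      rw [Multiset.mem_toFinset] at hi
      rw [Finset.mem_range]
      have := Nat.Partition.le_of_mem_parts hi
      omega)
    rw [p.parts_sum] at h1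
    simp only [Finset.sum_range_succ, Finset.sum_range_zero, smul_eq_mul] at h1
    omega
  let f : Nat.Partition 5 → T5 := fun p =>
    ⟨(⟨p.parts.count 1, by have := hc p; omega⟩, ⟨p.parts.count 2, by have := hc p; omega⟩,
      ⟨p.parts.count 3, by have := hc p; omega⟩, ⟨p.parts.count 4, by have := hc p; omega⟩,
      ⟨p.parts.count 5, by have := hc p; omega⟩), hc p⟩
  have hf : Function.Injective f := by
    intro p q hpq
    have h1 := congrArg (fun x : T5 => ((x.1.1 : ℕ), (x.1.2.1 : ℕ), (x.1.2.2.1 : ℕ),
      (x.1.2.2.2.1 : ℕ), (x.1.2.2.2.2 : ℕ))) hpq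
    simp only [f, Prod.mk.injEq] at h1
    obtain ⟨e1, e2, e3, e4, e5⟩ := h1
    rw [Nat.Partition.ext_iff]
    ext i
    by_cases hi : i ≤ 5
    · interval_cases i
      · rw [Multiset.count_eq_zero_of_notMem, Multiset.count_eq_zero_of_notMem]
        · intro h; exact absurd (q.parts_pos h) (lt_irrefl 0)
        · intro h; exact absurd (p.parts_pos h) (lt_irrefl 0)
      all_goals assumption
    · rw [Multiset.count_eq_zero_of_notMem, Multiset.count_eq_zero_of_notMem]
      · intro h; exact hi (Nat.Partition.le_of_mem_parts h)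
      · intro h; exact hi (Nat.Partition.le_of_mem_parts h)
  have := @Nat.card_le_card_of_injective _ _ (Nat.finite_of_card_ne_zero (by rw [card_T5]; norm_num)) f hf
  rwa [card_T5] at this

theorem partition_le (n : ℕ) (hn : 5 ≤ n) : Nat.card (Nat.Partition n) ≤ 2 ^ (n - 2) := by
  induction n, hn using Nat.le_induction with
  | base => exact five.trans (by norm_num)
  | succ n hn ih =>
    calc Nat.card (Nat.Partition (n + 1)) ≤ 2 * Nat.card (Nat.Partition n) := step n
      _ ≤ 2 * 2 ^ (n - 2) := Nat.mul_le_mul_left _ ih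
      _ = 2 ^ (n - 2 + 1) := by ring
      _ = 2 ^ (n + 1 - 2) := by congr 1; omega

section perm

variable {α : Type*} [Fintype α] [DecidableEq α]

theorem partition_surjective (p : Nat.Partition (Fintype.card α)) :
    ∃ σ : Equiv.Perm α, σ.partition = p := by
  have hsum : (p.parts.filter (fun i => 2 ≤ i)).sum + (p.parts.filter (fun i => ¬ 2 ≤ i)).sum
      = Fintype.card α := by
    rw [← Multiset.sum_add, Multiset.filter_add_not, p.parts_sum]
  obtain ⟨σ, hσ⟩ := (exists_with_cycleType_iff α (m := p.parts.filter (fun i => 2 ≤ i))).mpr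
    ⟨by omega, fun a ha => (Multiset.mem_filter.mp ha).2⟩
  refine ⟨σ, ?_⟩
  rw [Nat.Partition.ext_iff, parts_partition, hσ, ← sum_cycleType, hσ]
  have h1 : p.parts.filter (fun i => ¬ 2 ≤ i) =
      Multiset.replicate (Multiset.card (p.parts.filter (fun i => ¬ 2 ≤ i))) 1 := by
    rw [Multiset.eq_replicate]
    refine ⟨rfl, fun b hb => ?_⟩
    obtain ⟨hb1, hb2⟩ := Multiset.mem_filter.mp hb
    have := p.parts_pos hb1
    omega
  have h2 : (p.parts.filter (fun i => ¬ 2 ≤ i)).sum =
      Multiset.card (p.parts.filter (fun i => ¬ 2 ≤ i)) := by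
    conv_lhs => rw [h1]
    rw [Multiset.sum_replicate, smul_eq_mul, mul_one]
  have h3 : Fintype.card α - (p.parts.filter (fun i => 2 ≤ i)).sum =
      Multiset.card (p.parts.filter (fun i => ¬ 2 ≤ i)) := by omega
  rw [h3, ← h1, Multiset.filter_add_not]

theorem card_conjClasses_perm :
    Nat.card (ConjClasses (Equiv.Perm α)) = Nat.card (Nat.Partition (Fintype.card α)) := by
  let F : ConjClasses (Equiv.Perm α) → Nat.Partition (Fintype.card α) :=
    Quotient.lift (fun σ : Equiv.Perm α => σ.partition)
      (fun a b h => partition_eq_of_isConj.mp h)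
  apply Nat.card_eq_of_bijective F
  constructor
  · intro a b
    refine Quotient.inductionOn₂ a b (fun a b h => ?_)
    exact Quotient.sound (partition_eq_of_isConj.mpr h)
  · intro p
    obtain ⟨σ, hσ⟩ := partition_surjective p
    exact ⟨ConjClasses.mk σ, hσ⟩

theorem sign_partition (σ : Equiv.Perm α) :
    Equiv.Perm.sign σ = (-1) ^ (Fintype.card α + Multiset.card σ.partition.parts) := by
  rw [sign_of_cycleType, parts_partition, Multiset.card_add, Multiset.card_replicate,
    ← sum_cycleType]
  have h1 : σ.cycleType.sum ≤ Fintype.card α := by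
    rw [sum_cycleType]
    exact Finset.card_le_univ _
  have h2 : Fintype.card α + (Multiset.card σ.cycleType + (Fintype.card α - σ.cycleType.sum)) =
      (σ.cycleType.sum + Multiset.card σ.cycleType) + 2 * (Fintype.card α - σ.cycleType.sum) := by
    omega
  rw [h2, pow_add _ _ (2 * _), pow_mul]
  simp

/-- the map from partitions into distinct odd parts -/
theorem exists_f {n : ℕ} (hn : 2 ≤ n) (p : Nat.Partition n) (hp1 : p.parts.Nodup)
    (hp2 : ∀ i ∈ p.parts, Odd i) :
    ∃ (q : Nat.Partition n) (m : ℕ), 3 ≤ m ∧ m ∈ p.parts ∧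
      q.parts = (m - 1) ::ₘ 1 ::ₘ p.parts.erase m := by
  classical
  obtain ⟨m, hm, hmax⟩ := exists_max_part (by omega) p
  have hm3 : 3 ≤ m := by
    by_contra hlt
    have hmo := hp2 m hm
    have hm1 : m = 1 := by
      obtain ⟨k, hk⟩ := hmo
      omega
    have hall : ∀ b ∈ p.parts, b = 1 := by
      intro b hb
      have h1 := hmax b hb
      have h2 := p.parts_pos hb
      omega
    have hrep : p.parts = Multiset.replicate (Multiset.card p.parts) 1 :=
      Multiset.eq_replicate.mpr ⟨rfl, hall⟩
    have hsum := p.parts_sum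
    rw [hrep, Multiset.sum_replicate, smul_eq_mul, mul_one] at hsum
    have hc := Multiset.nodup_iff_count_le_one.mp hp1 1
    rw [hrep, Multiset.count_replicate_self] at hc
    omega
  have hs : m + (p.parts.erase m).sum = n := by
    rw [← Multiset.sum_cons, Multiset.cons_erase hm, p.parts_sum]
  refine ⟨⟨(m - 1) ::ₘ 1 ::ₘ p.parts.erase m, ?_, ?_⟩, m, hm3, hm, rfl⟩
  · intro i hi
    rcases Multiset.mem_cons.mp hi with rfl | hi
    · omega
    · rcases Multiset.mem_cons.mp hi with rfl | hi
      · omega
      · exact p.parts_pos (Multiset.mem_of_mem_erase hi)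
  · rw [Multiset.sum_cons, Multiset.sum_cons]
    omega

/-- the partition `2,1,…,1` -/
def q0 (n : ℕ) (hn : 2 ≤ n) : Nat.Partition n where
  parts := 2 ::ₘ Multiset.replicate (n - 2) 1
  parts_pos := by
    intro i hi
    rcases Multiset.mem_cons.mp hi with rfl | hi
    · omega
    · rw [Multiset.eq_of_mem_replicate hi]; omega
  parts_sum := by
    rw [Multiset.sum_cons, Multiset.sum_replicate, smul_eq_mul]
    omega

theorem conj_of_odd (x : alternatingGroup α) (t : Equiv.Perm α)
    (ht : t ∈ Subgroup.centralizer {(x : Equiv.Perm α)}) (ht2 : t ∉ alternatingGroup α)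
    (y : alternatingGroup α) (hxy : IsConj (x : Equiv.Perm α) (y : Equiv.Perm α)) : IsConj x y := by
  obtain ⟨c, hc⟩ := isConj_iff.mp hxy
  by_cases hc2 : c ∈ alternatingGroup α
  · exact isConj_iff.mpr ⟨⟨c, hc2⟩, Subtype.ext hc⟩
  · have h1 : c * t ∈ alternatingGroup α := by
      rw [mem_alternatingGroup] at *
      rw [Equiv.Perm.sign_mul, (Int.units_eq_one_or (Equiv.Perm.sign c)).resolve_left hc2,
        (Int.units_eq_one_or (Equiv.Perm.sign t)).resolve_left ht2]
      norm_num
    refine isConj_iff.mpr ⟨⟨c * t, h1⟩, Subtype.ext ?_⟩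
    change c * t * x * (c * t)⁻¹ = y
    rw [Subgroup.mem_centralizer_singleton_iff] at ht
    rw [← hc, mul_assoc c t, ht, mul_inv_rev]
    group

theorem conj_of_not (x y w : alternatingGroup α)
    (hxy : IsConj (x : Equiv.Perm α) (y : Equiv.Perm α))
    (hxw : IsConj (x : Equiv.Perm α) (w : Equiv.Perm α))
    (h1 : ¬ IsConj x y) (h2 : ¬ IsConj x w) : IsConj y w := by
  obtain ⟨c, hc⟩ := isConj_iff.mp hxy
  obtain ⟨d, hd⟩ := isConj_iff.mp hxw
  have hc2 : c ∉ alternatingGroup α := fun h => h1 (isConj_iff.mpr ⟨⟨c, h⟩, Subtype.ext hc⟩)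
  have hd2 : d ∉ alternatingGroup α := fun h => h2 (isConj_iff.mpr ⟨⟨d, h⟩, Subtype.ext hd⟩)
  have h3 : d * c⁻¹ ∈ alternatingGroup α := by
    rw [mem_alternatingGroup] at *
    rw [Equiv.Perm.sign_mul, Equiv.Perm.sign_inv,
      (Int.units_eq_one_or (Equiv.Perm.sign c)).resolve_left hc2,
      (Int.units_eq_one_or (Equiv.Perm.sign d)).resolve_left hd2]
    norm_num
  refine isConj_iff.mpr ⟨⟨d * c⁻¹, h3⟩, Subtype.ext ?_⟩
  change d * c⁻¹ * y * (d * c⁻¹)⁻¹ = w
  rw [← hc, ← hd]
  group

/-- if the centralizer lies in the alternating group then the partition has distinct odd parts -/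
theorem partition_of_centralizer (σ : Equiv.Perm α)
    (h : Subgroup.centralizer {σ} ≤ alternatingGroup α) :
    σ.partition.parts.Nodup ∧ ∀ i ∈ σ.partition.parts, Odd i := by
  obtain ⟨h1, h2, h3⟩ := centralizer_le_alternating_iff.mp h
  have hle : Fintype.card α - σ.support.card ≤ 1 := by
    rw [← sum_cycleType]; omega
  constructor
  · rw [parts_partition, Multiset.nodup_add]
    refine ⟨Multiset.nodup_iff_count_le_one.mpr h3, ?_, ?_⟩
    · rw [Multiset.nodup_iff_count_le_one]
      intro a
      exact (Multiset.count_le_card _ _).trans (by rw [Multiset.card_replicate]; exact hle)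
    · rw [Multiset.disjoint_left]
      intro a ha hb
      have := Multiset.eq_of_mem_replicate hb
      have := two_le_of_mem_cycleType ha
      omega
  · intro i hi
    rw [parts_partition, Multiset.mem_add] at hi
    rcases hi with hi | hi
    · exact h1 i hi
    · rw [Multiset.eq_of_mem_replicate hi]; exact odd_one

theorem card_lt (h5 : 5 ≤ Fintype.card α) :
    Nat.card (ConjClasses (alternatingGroup α)) < Nat.card (Nat.Partition (Fintype.card α)) := by
  classical
  have h2n : 2 ≤ Fintype.card α := by omega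
  set n := Fintype.card α with hn
  -- representative of a partition in the alternating group
  let r : Nat.Partition n → alternatingGroup α := fun p =>
    if h : ∃ x : alternatingGroup α, (x : Equiv.Perm α).partition = p then h.choose else 1
  have hr : ∀ x : alternatingGroup α, ((r (x : Equiv.Perm α).partition : alternatingGroup α) :
      Equiv.Perm α).partition = (x : Equiv.Perm α).partition := by
    intro x
    have h : ∃ y : alternatingGroup α, (y : Equiv.Perm α).partition =
      (x : Equiv.Perm α).partition := ⟨x, rfl⟩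
    have h1 : r (x : Equiv.Perm α).partition = h.choose := dif_pos h
    rw [h1]
    exact h.choose_spec
  -- the relation
  have key : ∀ C : ConjClasses (alternatingGroup α), ∃ q : Nat.Partition n,
      ∃ x : alternatingGroup α, ConjClasses.mk x = C ∧
      ((q = (x : Equiv.Perm α).partition ∧
          (Subgroup.centralizer {(x : Equiv.Perm α)} ≤ alternatingGroup α →
            IsConj (r (x : Equiv.Perm α).partition) x)) ∨
        (¬ IsConj (r (x : Equiv.Perm α).partition) x ∧ 
          (x : Equiv.Perm α).partition.parts.Nodup ∧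
          (∀ i ∈ (x : Equiv.Perm α).partition.parts, Odd i) ∧
          ∃ m : ℕ, 3 ≤ m ∧ m ∈ (x : Equiv.Perm α).partition.parts ∧
          q.parts = (m - 1) ::ₘ 1 ::ₘ (x : Equiv.Perm α).partition.parts.erase m)) := by
    intro C
    obtain ⟨x, rfl⟩ := ConjClasses.exists_rep C
    by_cases hx : IsConj (r (x : Equiv.Perm α).partition) x
    · exact ⟨_, x, rfl, Or.inl ⟨rfl, fun _ => hx⟩⟩
    · by_cases hc : Subgroup.centralizer {(x : Equiv.Perm α)} ≤ alternatingGroup α
      · obtain ⟨e1, e2⟩ := partition_of_centralizer _ hc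
        obtain ⟨q, m, hm3, hm, hq⟩ := exists_f h2n _ e1 e2
        exact ⟨q, x, rfl, Or.inr ⟨hx, e1, e2, m, hm3, hm, hq⟩⟩
      · exact ⟨_, x, rfl, Or.inl ⟨rfl, fun h => absurd h hc⟩⟩
  choose f hf using key
  have hsign : ∀ x : alternatingGroup α,
      (-1 : ℤˣ) ^ (n + Multiset.card (x : Equiv.Perm α).partition.parts) = 1 := by
    intro x
    rw [← sign_partition]
    exact mem_alternatingGroup.mp x.2
  have hcardq : ∀ (p q : Nat.Partition n) (m : ℕ), m ∈ p.parts →
      q.parts = (m - 1) ::ₘ 1 ::ₘ p.parts.erase m → Multiset.card q.parts = 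
        Multiset.card p.parts + 1 := by
    intro p q m hm hq
    rw [hq, Multiset.card_cons, Multiset.card_cons, Multiset.card_erase_add_one hm]
  have hmixed : ∀ (x y : alternatingGroup α) (m : ℕ), m ∈ (y : Equiv.Perm α).partition.parts →
      (x : Equiv.Perm α).partition.parts =
        (m - 1) ::ₘ 1 ::ₘ (y : Equiv.Perm α).partition.parts.erase m → False := by
    intro x y m hm hq
    have h1 := hcardq _ _ m hm hq
    have h2 := hsign x
    have h3 := hsign y
    rw [h1, ← add_assoc, pow_succ, h3] at h2
    exact absurd h2 (by decide)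
  have hinj : Function.Injective f := by
    intro C D hCD
    obtain ⟨x, rfl, hx⟩ := hf C
    obtain ⟨y, rfl, hy⟩ := hf D
    rw [ConjClasses.mk_eq_mk_iff_isConj]
    rcases hx with ⟨hx1, hx2⟩ | ⟨hx1, hx2, hx3, m, hm3, hm, hx4⟩
    · rcases hy with ⟨hy1, hy2⟩ | ⟨hy1, hy2, hy3, m', hm3', hm', hy4⟩
      · rw [hx1, hy1] at hCD
        by_cases hc : Subgroup.centralizer {(x : Equiv.Perm α)} ≤ alternatingGroup α
        · by_cases hc' : Subgroup.centralizer {(y : Equiv.Perm α)} ≤ alternatingGroup α
          · have h1 := hx2 hc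
            have h2 := hy2 hc'
            rw [← hCD] at h2
            exact h1.symm.trans h2
          · obtain ⟨t, ht1, ht2⟩ := SetLike.not_le_iff_exists.mp hc'
            exact (conj_of_odd y t ht1 ht2 x (partition_eq_of_isConj.mpr hCD.symm)).symm
        · obtain ⟨t, ht1, ht2⟩ := SetLike.not_le_iff_exists.mp hc
          exact conj_of_odd x t ht1 ht2 y (partition_eq_of_isConj.mpr hCD)
      · exfalso
        rw [← hCD, hx1] at hy4
        exact hmixed x y m' hm' hy4
    · rcases hy with ⟨hy1, hy2⟩ | ⟨hy1, hy2, hy3, m', hm3', hm', hy4⟩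
      · exfalso
        rw [hCD, hy1] at hx4
        exact hmixed y x m hm hx4
      · rw [hCD, hy4] at hx4
        have hmm : m = m' := by
          have e1 : m' - 1 ∈ (m - 1) ::ₘ 1 ::ₘ (x : Equiv.Perm α).partition.parts.erase m := by
            rw [← hx4]; exact Multiset.mem_cons_self _ _
          rcases Multiset.mem_cons.mp e1 with e1 | e1
          · omega
          · exfalso
            have ho' := hy3 m' hm'
            have ho : Odd (m' - 1) := by
              rcases Multiset.mem_cons.mp e1 with e1 | e1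
              · rw [e1]; exact odd_one
              · exact hx3 _ (Multiset.mem_of_mem_erase e1)
            obtain ⟨k, hk⟩ := ho'
            obtain ⟨l, hl⟩ := ho
            omega
        subst hmm
        rw [Multiset.cons_inj_right, Multiset.cons_inj_right] at hx4
        have hpp : (x : Equiv.Perm α).partition = (y : Equiv.Perm α).partition := by
          rw [Nat.Partition.ext_iff, ← Multiset.cons_erase hm, ← Multiset.cons_erase hm', hx4]
        have hrx := hr x
        rw [← hpp] at hy1
        exact conj_of_not _ x y (partition_eq_of_isConj.mpr hrx)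
          (partition_eq_of_isConj.mpr (hrx.trans hpp)) hx1 hy1
  have hnsurj : ¬ Function.Surjective f := by
    intro hs
    obtain ⟨C, hC⟩ := hs (q0 n h2n)
    obtain ⟨x, rfl, hx⟩ := hf C
    rw [hC] at hx
    rcases hx with ⟨hx1, hx2⟩ | ⟨hx1, hx2, hx3, m, hm3, hm, hx4⟩
    · have h1 := hsign x
      rw [← hx1] at h1
      have h2 : Multiset.card (q0 n h2n).parts = n - 1 := by
        change Multiset.card (2 ::ₘ Multiset.replicate (n - 2) 1) = n - 1
        rw [Multiset.card_cons, Multiset.card_replicate]
        omega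
      have h3 : n + (n - 1) = 2 * (n - 1) + 1 := by omega
      rw [h2, h3, pow_succ, pow_mul] at h1
      exact absurd h1 (by simp)
    · have h1 : (2 : ℕ) ::ₘ Multiset.replicate (n - 2) 1 =
        (m - 1) ::ₘ 1 ::ₘ (x : Equiv.Perm α).partition.parts.erase m := hx4
      have hmo := hx3 m hm
      have h2 : m = 3 := by
        have e1 : m - 1 ∈ (2 : ℕ) ::ₘ Multiset.replicate (n - 2) 1 := by
          rw [h1]; exact Multiset.mem_cons_self _ _
        rcases Multiset.mem_cons.mp e1 with e1 | e1
        · omega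
        · have := Multiset.eq_of_mem_replicate e1
          obtain ⟨k, hk⟩ := hmo
          omega
      subst h2
      rw [show (3 - 1 : ℕ) = 2 from rfl, Multiset.cons_inj_right] at h1
      have h3 := congrArg (Multiset.count 1) h1
      rw [Multiset.count_replicate_self, Multiset.count_cons_self] at h3
      have h4 : Multiset.count 1 ((x : Equiv.Perm α).partition.parts.erase 3) ≤ 1 :=
        Multiset.nodup_iff_count_le_one.mp (hx2.erase 3) 1
      omega
  have h1 := Nat.card_le_card_of_injective f hinj
  refine lt_of_le_of_ne h1 ?_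
  intro heq
  exact hnsurj ((Nat.bijective_iff_injective_and_card f).mpr ⟨hinj, heq⟩).2

end perm

/-- For n ≥ 5 the alternating group of degree n has strictly fewer conjugacy classes than the symmetric group of degree n, and the symmetric group of degree n (whose classes correspond to the partitions of n) has at most 2^(n−2) conjugacy classes. -/
theorem result (n : ℕ) (hn : 5 ≤ n) : Nat.card (ConjClasses (alternatingGroup (Fin n))) < Nat.card (ConjClasses (Equiv.Perm (Fin n))) ∧ Nat.card (ConjClasses (Equiv.Perm (Fin n))) ≤ 2 ^ (n - 2) := by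
  have h1 : Fintype.card (Fin n) = n := Fintype.card_fin n
  constructor
  · rw [card_conjClasses_perm]
    exact card_lt (by rw [h1]; exact hn)
  · rw [card_conjClasses_perm, h1]
    exact partition_le n hn

end Cfsg.Agent.S4198
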