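import Cfsg.Statements.S4200
import Cfsg.Agent.H70.ClassNumber
import Mathlib

set_option autoImplicit false
open Cfsg

namespace Cfsg.Agent.S4200

/-- Let Y be a subgroup of the finite group X, of index m. Then the numbers of conjugacy classes satisfy k(Y) ≤ m·k(X) and k(X) ≤ m·k(Y), and the second inequality is strict unless Y is normal in X. -/
theorem result {X : Type*} [Group X] [Finite X] (Y : Subgroup X) : Nat.card (ConjClasses Y) ≤ Y.index * Nat.card (ConjClasses X) ∧ Nat.card (ConjClasses X) ≤ Y.index * Nat.card (ConjClasses Y) ∧ (¬ Y.Normal → Nat.card (ConjClasses X) < Y.index * Nat.card (ConjClasses Y)) := by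
  classical
  have : Fintype X := Fintype.ofFinite X
  have hYpos : 0 < Nat.card Y := Nat.card_pos
  have hXY : Nat.card X = Y.index * Nat.card Y := (Subgroup.index_mul_card Y).symm
  have hX := Cfsg.Agent.H70.card_commuting_eq_sum (X := X)
  have hY := Cfsg.Agent.H70.card_commuting_eq_sum (X := Y)
  -- centralizer sizes
  have hle : ∀ x : X, Nat.card {y : X // Commute x y} ≤ Y.index * Nat.card {y : Y // Commute x (y : X)} := by
    intro x
    have e1 : Nat.card {y : X // Commute x y} = Nat.card (Subgroup.centralizer ({x} : Set X)) := by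
      apply Nat.card_congr
      exact Equiv.subtypeEquivRight (fun y => by
        rw [Subgroup.mem_centralizer_singleton_iff]; exact ⟨fun h => h.symm, fun h => (show Commute y x from h).symm⟩)
    have e2 : Nat.card {y : Y // Commute x (y : X)} = Nat.card (Y.subgroupOf (Subgroup.centralizer ({x} : Set X))) := by
      apply Nat.card_congr
      refine ⟨fun y => ⟨⟨y.1.1, ?_⟩, ?_⟩, fun y => ⟨⟨y.1.1, ?_⟩, ?_⟩, ?_, ?_⟩
      · rw [Subgroup.mem_centralizer_singleton_iff]; exact y.2.symm
      · exact y.1.2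
      · exact y.2
      · exact (Subgroup.mem_centralizer_singleton_iff.mp y.1.2).symm
      · intro y; rfl
      · intro y; rfl
    rw [e1, e2, ← Subgroup.card_mul_index (Y.subgroupOf (Subgroup.centralizer ({x} : Set X))), mul_comm]
    exact Nat.mul_le_mul_right _ (Cfsg.Agent.H70.relIndex_le_index' Y _)
  have hlt : ¬ Y.Normal → ∃ y : Y, Nat.card {z : X // Commute (y : X) z} < Y.index * Nat.card {z : Y // Commute (y : X) (z : X)} := by
    intro hn
    by_contra hcon
    push Not at hcon
    apply hn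
    constructor
    intro n hnY g
    have h1 := hcon ⟨n, hnY⟩
    have e1 : Nat.card {y : X // Commute n y} = Nat.card (Subgroup.centralizer ({n} : Set X)) := by
      apply Nat.card_congr
      exact Equiv.subtypeEquivRight (fun y => by
        rw [Subgroup.mem_centralizer_singleton_iff]; exact ⟨fun h => h.symm, fun h => (show Commute y n from h).symm⟩)
    have e2 : Nat.card {y : Y // Commute n (y : X)} = Nat.card (Y.subgroupOf (Subgroup.centralizer ({n} : Set X))) := by
      apply Nat.card_congr
      refine ⟨fun y => ⟨⟨y.1.1, ?_⟩, ?_⟩, fun y => ⟨⟨y.1.1, ?_⟩, ?_⟩, ?_, ?_⟩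
      · rw [Subgroup.mem_centralizer_singleton_iff]; exact y.2.symm
      · exact y.1.2
      · exact y.2
      · exact (Subgroup.mem_centralizer_singleton_iff.mp y.1.2).symm
      · intro y; rfl
      · intro y; rfl
    simp only at h1
    rw [e1, e2, ← Subgroup.card_mul_index (Y.subgroupOf (Subgroup.centralizer ({n} : Set X))), mul_comm] at h1
    have hpos : 0 < Nat.card (Y.subgroupOf (Subgroup.centralizer ({n} : Set X))) := Nat.card_pos
    have h2 := Nat.le_of_mul_le_mul_left h1 hpos
    have h3 := le_antisymm (Cfsg.Agent.H70.relIndex_le_index' Y (Subgroup.centralizer ({n} : Set X))) h2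
    obtain ⟨c, hc, y, hy, hg⟩ := Cfsg.Agent.H70.exists_of_relIndex_eq_index Y _ h3 g⁻¹
    have hg' : g = y⁻¹ * c⁻¹ := by rw [← mul_inv_rev, ← hg, inv_inv]
    have hc' := Subgroup.mem_centralizer_singleton_iff.mp hc
    have : g * n * g⁻¹ = y⁻¹ * n * y := by
      rw [hg']
      calc y⁻¹ * c⁻¹ * n * (y⁻¹ * c⁻¹)⁻¹ = y⁻¹ * c⁻¹ * (n * c) * y := by group
        _ = y⁻¹ * c⁻¹ * (c * n) * y := by rw [hc']
        _ = y⁻¹ * n * y := by group
    rw [this]
    exact mul_mem (mul_mem (inv_mem hy) hnY) hy
  have hswap : ∑ x : X, Nat.card {y : Y // Commute x (y : X)} = ∑ y : Y, Nat.card {x : X // Commute (y : X) x} := by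
    rw [← Nat.card_sigma, ← Nat.card_sigma]
    apply Nat.card_congr
    exact ⟨fun p => ⟨p.2.1, ⟨p.1, p.2.2.symm⟩⟩, fun p => ⟨p.2.1, ⟨p.1, p.2.2.symm⟩⟩, fun p => rfl, fun p => rfl⟩
  have hY' : Nat.card (ConjClasses Y) * Nat.card Y = ∑ y : Y, Nat.card {z : Y // Commute (y : X) (z : X)} := by
    rw [hY]
    refine Finset.sum_congr rfl fun y _ => ?_
    apply Nat.card_congr
    exact Equiv.subtypeEquivRight (fun z => ⟨fun h => by
      have := congrArg Subtype.val h.eq; exact this, fun h => Subtype.ext h⟩)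
  have step1 : Nat.card (ConjClasses X) * Nat.card X ≤ Y.index * ∑ y : Y, Nat.card {x : X // Commute (y : X) x} := by
    rw [hX, ← hswap, Finset.mul_sum]
    exact Finset.sum_le_sum fun x _ => hle x
  have step2 : ∑ y : Y, Nat.card {x : X // Commute (y : X) x} ≤ Y.index * (Nat.card (ConjClasses Y) * Nat.card Y) := by
    rw [hY', Finset.mul_sum]
    exact Finset.sum_le_sum fun x _ => hle x
  have step3 : ¬ Y.Normal → ∑ y : Y, Nat.card {x : X // Commute (y : X) x} < Y.index * (Nat.card (ConjClasses Y) * Nat.card Y) := by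
    intro hn
    obtain ⟨y, hy⟩ := hlt hn
    rw [hY', Finset.mul_sum]
    exact Finset.sum_lt_sum (fun x _ => hle x) ⟨y, Finset.mem_univ _, hy⟩
  have hipos : 0 < Y.index := Nat.pos_of_ne_zero Y.index_ne_zero_of_finite
  refine ⟨?_, ?_, ?_⟩
  · -- k(Y) ≤ m k(X)
    have h1 : Nat.card (ConjClasses Y) * Nat.card Y ≤ Nat.card (ConjClasses X) * Nat.card X := by
      rw [← card_comm_eq_card_conjClasses_mul_card, ← card_comm_eq_card_conjClasses_mul_card]
      refine Nat.card_le_card_of_injective
        (fun p : {p : Y × Y // Commute p.1 p.2} =>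
          (⟨((p.1.1 : X), (p.1.2 : X)), congrArg Subtype.val p.2.eq⟩ : {p : X × X // Commute p.1 p.2})) ?_
      rintro ⟨⟨a, b⟩, h⟩ ⟨⟨a', b'⟩, h'⟩ he
      have h1 : a = a' := Subtype.ext (congrArg (fun q : {p : X × X // Commute p.1 p.2} => q.1.1) he)
      have h2 : b = b' := Subtype.ext (congrArg (fun q : {p : X × X // Commute p.1 p.2} => q.1.2) he)
      subst h1; subst h2; rfl
    rw [hXY] at h1
    apply Nat.le_of_mul_le_mul_right _ hYpos
    calc Nat.card (ConjClasses Y) * Nat.card Y ≤ Nat.card (ConjClasses X) * (Y.index * Nat.card Y) := h1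
      _ = _ := by ring
  · have h1 := le_trans step1 (Nat.mul_le_mul_left _ step2)
    rw [hXY] at h1
    apply Nat.le_of_mul_le_mul_right _ (Nat.mul_pos hipos hYpos)
    calc Nat.card (ConjClasses X) * (Y.index * Nat.card Y) ≤ _ := h1
      _ = _ := by ring
  · intro hn
    have h1 := lt_of_le_of_lt step1 (Nat.mul_lt_mul_of_pos_left (step3 hn) hipos)
    rw [hXY] at h1
    apply Nat.lt_of_mul_lt_mul_right (a := Y.index * Nat.card Y)
    calc Nat.card (ConjClasses X) * (Y.index * Nat.card Y) < _ := h1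
      _ = _ := by ring

end Cfsg.Agent.S4200
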