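import Cfsg.Statements.S4203
import Mathlib
import Cfsg.Agent.S0144

set_option autoImplicit false
open Cfsg

namespace Cfsg.Agent.S4203

theorem index_modEq_one {G : Type*} [Group G] [Finite G] {p : ℕ} [Fact p.Prime] (P : Sylow p G)
    (M : Subgroup G) (hM : Subgroup.normalizer ((P : Subgroup G) : Set G) ≤ M) :
    M.index ≡ 1 [MOD p] := by
  have hPM : (P : Subgroup G) ≤ M := le_trans Subgroup.le_normalizer hM
  have h1 : Nat.card (Sylow p G) ≡ 1 [MOD p] := card_sylow_modEq_one p G
  have h2 : Nat.card (Sylow p M) ≡ 1 [MOD p] := card_sylow_modEq_one p M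
  rw [P.card_eq_index_normalizer] at h1
  rw [(P.subtype hPM).card_eq_index_normalizer] at h2
  replace h2 : (Subgroup.normalizer (((P : Subgroup G).subgroupOf M : Subgroup M) : Set M)).index ≡ 1 [MOD p] := h2
  replace h1 : (Subgroup.normalizer ((P : Subgroup G) : Set G)).index ≡ 1 [MOD p] := h1
  have h3 : (Subgroup.normalizer (((P : Subgroup G).subgroupOf M : Subgroup M) : Set M)) =
      (Subgroup.normalizer ((P : Subgroup G) : Set G)).subgroupOf M :=
    (Subgroup.subgroupOf_normalizer_eq hPM).symm
  rw [h3] at h2
  have h4 := Subgroup.relIndex_mul_index hM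
  rw [← h4] at h1
  have h5 : (Subgroup.normalizer ((P : Subgroup G) : Set G)).relIndex M * M.index ≡ 1 * M.index [MOD p] :=
    Nat.ModEq.mul_right _ h2
  rw [one_mul] at h5
  exact h5.symm.trans h1

theorem aux (n : ℕ) : ∀ (G : Type*) [Group G] [Finite G], Nat.card G = n →
    (∀ M : Subgroup G, IsCoatom M → ∃ p : ℕ, p.Prime ∧ (M.index = p ∨ M.index = p ^ 2)) →
    Group.IsSolvable G := by
  induction n using Nat.strong_induction_on with
  | _ n ih =>
  intro G _ _ hGn h
  by_cases hsub : Subsingleton G
  · infer_instance
  have hnt : Nontrivial G := not_subsingleton_iff_nontrivial.mp hsub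
  have hne : (Nat.card G).primeFactors.Nonempty := by
    rw [Nat.nonempty_primeFactors]
    exact Finite.one_lt_card
  obtain ⟨p, hpG, hpmax⟩ := Finset.exists_max_image _ id hne
  simp only [id] at hpmax
  have hp : p.Prime := Nat.prime_of_mem_primeFactors hpG
  have hpdvd : p ∣ Nat.card G := Nat.dvd_of_mem_primeFactors hpG
  have hpf : Fact p.Prime := ⟨hp⟩
  let P : Sylow p G := default
  by_cases hN : (P : Subgroup G).Normal
  · -- quotient
    have hPne : (P : Subgroup G) ≠ ⊥ := P.ne_bot_of_dvd_card hpdvd
    have hlt : Nat.card (G ⧸ (P : Subgroup G)) < n := by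
      rw [← hGn, ← Subgroup.index_eq_card]
      have h1 := (P : Subgroup G).card_mul_index
      have h2 : 1 < Nat.card (P : Subgroup G) := by
        rw [Subgroup.one_lt_card_iff_ne_bot]; exact hPne
      have h3 : 0 < (P : Subgroup G).index := Nat.pos_of_ne_zero Subgroup.index_ne_zero_of_finite
      nlinarith
    have hq : Group.IsSolvable (G ⧸ (P : Subgroup G)) := by
      refine ih _ hlt (G ⧸ (P : Subgroup G)) rfl ?_
      intro M hM
      have hsurj := QuotientGroup.mk'_surjective (P : Subgroup G)
      have hM' : IsCoatom (M.comap (QuotientGroup.mk' (P : Subgroup G))) := by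
        exact Subgroup.isCoatom_comap_of_surjective hsurj hM
      obtain ⟨r, hr, hr2⟩ := h _ hM'
      rw [Subgroup.index_comap_of_surjective _ hsurj] at hr2
      exact ⟨r, hr, hr2⟩
    have hPs : Group.IsSolvable (P : Subgroup G) := by
      have := P.isPGroup'.isNilpotent
      infer_instance
    exact Group.isSolvable_of_ker_le_range (P : Subgroup G).subtype (QuotientGroup.mk' (P : Subgroup G)) (by simp)
  · -- maximal subgroup containing the normalizer
    have hNt : Subgroup.normalizer ((P : Subgroup G) : Set G) ≠ ⊤ := by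
      intro h1
      exact hN (Subgroup.normalizer_eq_top_iff.mp h1)
    obtain ⟨M, hM, hNM⟩ := (eq_top_or_exists_le_coatom (Subgroup.normalizer ((P : Subgroup G) : Set G))).resolve_left hNt
    have hmod := index_modEq_one P M hNM
    obtain ⟨q, hq, hq2⟩ := h M hM
    have hqdvd : q ∣ M.index := by
      rcases hq2 with h1 | h1 <;> rw [h1]
      exact dvd_pow_self q (by norm_num)
    have hqG : q ∈ (Nat.card G).primeFactors := by
      rw [Nat.mem_primeFactors]
      exact ⟨hq, dvd_trans hqdvd M.index_dvd_card, Nat.card_pos.ne'⟩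
    have hqp : q ≤ p := hpmax q hqG
    have hqne : q ≠ p := by
      rintro rfl
      have h1 : M.index ≡ 0 [MOD q] := (Nat.modEq_zero_iff_dvd.mpr hqdvd)
      have h2 := h1.symm.trans hmod
      have h3 : q ∣ 1 := (Nat.modEq_zero_iff_dvd.mp h2.symm)
      exact hq.one_lt.ne' (Nat.dvd_one.mp h3)
    have hqlt : q < p := lt_of_le_of_ne hqp hqne
    have hq1 := hq.one_lt
    rcases hq2 with h1 | h1
    · exfalso
      rw [h1] at hmod
      have h3 := (Nat.modEq_iff_dvd' hq.one_lt.le).mp hmod.symm
      have h4 := Nat.le_of_dvd (by omega) h3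
      omega
    · rw [h1] at hmod
      have h3 := (Nat.modEq_iff_dvd' (Nat.one_le_pow _ _ hq.pos)).mp hmod.symm
      have h4 : q ^ 2 - 1 = (q + 1) * (q - 1) := by
        have := Nat.sq_sub_sq q 1
        simpa using this
      rw [h4] at h3
      have h5 : p ∣ q + 1 := by
        rcases (Nat.Prime.dvd_mul hp).mp h3 with h6 | h6
        · exact h6
        · exfalso
          have := Nat.le_of_dvd (by omega) h6
          omega
      have h6 : p = q + 1 := le_antisymm (Nat.le_of_dvd (by omega) h5) (by omega)
      have h7 : q = 2 := by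
        by_contra hq2
        have hodd : Odd q := hq.odd_of_ne_two hq2
        have hodd' : Odd p := hp.odd_of_ne_two (by omega)
        rw [h6] at hodd'
        rcases hodd with ⟨a, ha⟩
        rcases hodd' with ⟨b, hb⟩
        omega
      have h8 : p = 3 := by omega
      -- |G| = 2^a 3^b
      have hfac : Nat.card G = 2 ^ ((Nat.card G).factorization 2) * 3 ^ ((Nat.card G).factorization 3) := by
        have hsup : (Nat.card G).primeFactors ⊆ {2, 3} := by
          intro r hr
          have h9 := hpmax r hr
          have h10 := Nat.prime_of_mem_primeFactors hr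
          have h11 := h10.two_le
          simp only [Finset.mem_insert, Finset.mem_singleton]
          omega
        have h9 := Nat.prod_factorization_pow_eq_self (Nat.card_pos (α := G)).ne'
        rw [Finsupp.prod_of_support_subset _ (s := {2, 3}) hsup _ (by simp)] at h9
        rw [Finset.prod_insert (by simp), Finset.prod_singleton] at h9
        exact h9.symm
      exact Cfsg.Agent.S0144.result 2 3 _ _ Nat.prime_two Nat.prime_three hfac

/-- A finite group in which every maximal subgroup has index a prime or the square of a prime is solvable. -/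
theorem result {G : Type*} [Group G] [Finite G] (h : ∀ M : Subgroup G, IsCoatom M → ∃ p : ℕ, p.Prime ∧ (M.index = p ∨ M.index = p ^ 2)) : Group.IsSolvable G := by
  exact aux _ G rfl h

end Cfsg.Agent.S4203
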