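import Cfsg.Statements.S4204
import Cfsg.Agent.H70.Basic

set_option autoImplicit false
open Cfsg

namespace Cfsg.Agent.S4204

/-- If `H` and `K` are normal subgroups of a finite group with `H` nilpotent of class at most `c` and `K` nilpotent of class at most `d` (the terms with index `c`, respectively `d`, of their lower central series are trivial, indices starting at `0`), then `HK` is nilpotent of class at most `c + d`. -/
theorem result {G : Type*} [Group G] [Finite G] (H K : Subgroup G) [H.Normal] [K.Normal] (c d : ℕ) (hH : H.lowerCentralSeries c = ⊥) (hK : K.lowerCentralSeries d = ⊥) : (H ⊔ K).lowerCentralSeries (c + d) = ⊥ := by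
  classical
  obtain ⟨A, hA0, hA1⟩ : ∃ A : ℕ → Subgroup G, A 0 = ⊤ ∧ ∀ k, A (k + 1) = H.lowerCentralSeries k :=
    ⟨fun i => Nat.casesOn i ⊤ (fun k => H.lowerCentralSeries k), rfl, fun k => rfl⟩
  obtain ⟨B, hB0, hB1⟩ : ∃ B : ℕ → Subgroup G, B 0 = ⊤ ∧ ∀ k, B (k + 1) = K.lowerCentralSeries k :=
    ⟨fun i => Nat.casesOn i ⊤ (fun k => K.lowerCentralSeries k), rfl, fun k => rfl⟩
  have hAn : ∀ i, (A i).Normal := by
    intro i; cases i with
    | zero => rw [hA0]; infer_instance
    | succ k => rw [hA1]; infer_instance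
  have hBn : ∀ i, (B i).Normal := by
    intro i; cases i with
    | zero => rw [hB0]; infer_instance
    | succ k => rw [hB1]; infer_instance
  have hAc : ∀ i, ⁅A i, H⁆ ≤ A (i + 1) := by
    intro i; cases i with
    | zero => rw [hA1, Subgroup.lowerCentralSeries_zero]; exact Subgroup.commutator_le_right _ _
    | succ k => rw [hA1, hA1, Subgroup.lowerCentralSeries_succ]
  have hBc : ∀ i, ⁅B i, K⁆ ≤ B (i + 1) := by
    intro i; cases i with
    | zero => rw [hB1, Subgroup.lowerCentralSeries_zero]; exact Subgroup.commutator_le_right _ _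
    | succ k => rw [hB1, hB1, Subgroup.lowerCentralSeries_succ]
  let S : ℕ → Subgroup G := fun n => ⨆ p : {p : ℕ × ℕ // p.1 + p.2 = n + 1}, A p.1.1 ⊓ B p.1.2
  have hSn : ∀ n, (S n).Normal := by
    intro n
    have : ∀ p : {p : ℕ × ℕ // p.1 + p.2 = n + 1}, (A p.1.1 ⊓ B p.1.2).Normal := by
      intro p
      have h1 : (A p.1.1).Normal := hAn p.1.1
      have h2 : (B p.1.2).Normal := hBn p.1.2
      exact @Subgroup.normal_inf_normal G _ (A p.1.1) (B p.1.2) h1 h2
    exact @Subgroup.iSup_normal G _ _ (fun p : {p : ℕ × ℕ // p.1 + p.2 = n + 1} => A p.1.1 ⊓ B p.1.2) this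
  have hS : ∀ n, (H ⊔ K).lowerCentralSeries n ≤ S n := by
    intro n
    induction n with
    | zero =>
      rw [Subgroup.lowerCentralSeries_zero]
      refine sup_le ?_ ?_
      · refine le_trans ?_ (le_iSup _ (⟨(1, 0), rfl⟩ : {p : ℕ × ℕ // p.1 + p.2 = 0 + 1}))
        exact le_inf (by rw [hA1]; exact le_rfl) (by rw [hB0]; exact le_top)
      · refine le_trans ?_ (le_iSup _ (⟨(0, 1), rfl⟩ : {p : ℕ × ℕ // p.1 + p.2 = 0 + 1}))
        exact le_inf (by rw [hA0]; exact le_top) (by rw [hB1]; exact le_rfl)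
    | succ n ih =>
      rw [Subgroup.lowerCentralSeries_succ]
      refine le_trans (Subgroup.commutator_mono ih le_rfl) ?_
      have := hSn (n + 1)
      apply Cfsg.Agent.H70.commutator_iSup_le
      rintro ⟨⟨i, j⟩, hij⟩
      have hAi : (A i).Normal := hAn i
      have hBj : (B j).Normal := hBn j
      simp only at hij ⊢
      apply Cfsg.Agent.H70.commutator_sup_right_le
      · refine le_trans ?_ (le_iSup _ (⟨(i + 1, j), by simp; omega⟩ : {p : ℕ × ℕ // p.1 + p.2 = n + 1 + 1}))
        refine le_inf ?_ ?_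
        · exact le_trans (Subgroup.commutator_mono inf_le_left le_rfl) (hAc i)
        · exact le_trans (Subgroup.commutator_mono inf_le_right le_rfl)
            (Subgroup.commutator_le_left (B j) H)
      · refine le_trans ?_ (le_iSup _ (⟨(i, j + 1), by simp; omega⟩ : {p : ℕ × ℕ // p.1 + p.2 = n + 1 + 1}))
        refine le_inf ?_ ?_
        · exact le_trans (Subgroup.commutator_mono inf_le_left le_rfl)
            (Subgroup.commutator_le_left (A i) K)
        · exact le_trans (Subgroup.commutator_mono inf_le_right le_rfl) (hBc j)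
  rw [eq_bot_iff]
  refine le_trans (hS (c + d)) ?_
  refine iSup_le ?_
  rintro ⟨⟨i, j⟩, hij⟩
  simp only at hij ⊢
  by_cases hi : c + 1 ≤ i
  · obtain ⟨k, rfl⟩ : ∃ k, i = k + 1 := ⟨i - 1, by omega⟩
    refine le_trans inf_le_left ?_
    rw [hA1, ← hH]
    exact H.lowerCentralSeries_antitone (by omega)
  · obtain ⟨k, rfl⟩ : ∃ k, j = k + 1 := ⟨j - 1, by omega⟩
    refine le_trans inf_le_right ?_
    rw [hB1, ← hK]
    exact K.lowerCentralSeries_antitone (by omega)

end Cfsg.Agent.S4204
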