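import Cfsg.Statements.S4205
-- import your own Cfsg.Agent.* helpers here

set_option autoImplicit false
open Cfsg

namespace Cfsg.Agent.S4205

/-- In a finite group whose upper central series reaches the whole group at step `c` (nilpotent of class at most `c`), starting from any subgroup and taking normalizers `c` times reaches the whole group. -/
theorem result {G : Type*} [Group G] [Finite G] (c : ℕ) (hG : Subgroup.upperCentralSeries G c = ⊤) (H : Subgroup G) : (fun K : Subgroup G => Subgroup.normalizer (K : Set G))^[c] H = ⊤ := by
  have key : ∀ k : ℕ, Subgroup.upperCentralSeries G k ≤ (fun K : Subgroup G => Subgroup.normalizer (K : Set G))^[k] H := by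
    intro k
    induction k with
    | zero => simp
    | succ k ih =>
      rw [Function.iterate_succ_apply']
      intro g hg
      rw [Subgroup.mem_normalizer_iff]
      have h1 : ∀ y : G, g * y * g⁻¹ * y⁻¹ ∈ (fun K : Subgroup G => Subgroup.normalizer (K : Set G))^[k] H := by
        intro y
        exact ih (Subgroup.mem_upperCentralSeries_succ_iff.mp hg y)
      intro y
      constructor
      · intro hy
        have := mul_mem (h1 y) hy
        simpa using this
      · intro hy
        have := mul_mem (inv_mem (h1 y)) hy
        simpa [mul_assoc] using this
  exact top_le_iff.mp (hG ▸ key c)

end Cfsg.Agent.S4205
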