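import Cfsg.Statements.S4212
import Mathlib
import Cfsg.Agent.H70.Roots

set_option autoImplicit false
open Cfsg

namespace Cfsg.Agent.S4212

open Subgroup

/-- Let `G` be a finite group of order `g`, `c` an element whose conjugacy class has `h` elements, and `n` a natural number. Then the number of elements `x` of `G` with `x^n` conjugate to `c` is a multiple of `gcd(hn, g)`. -/
theorem result {G : Type*} [Group G] [Finite G] (c : G) (n : ℕ) : Nat.gcd (Nat.card {y : G // IsConj c y} * n) (Nat.card G) ∣ Nat.card {x : G // IsConj c (x ^ n)} := by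
  classical
  haveI : Fintype G := Fintype.ofFinite G
  rw [← H70.index_centralizer_eq]
  set C := centralizer ({c} : Set G) with hC
  -- the number of roots of `c`
  have h1 : Nat.card {x : G // IsConj c (x ^ n)} = C.index * Nat.card {x : G // x ^ n = c} := by
    have h2 : Nat.card {x : G // IsConj c (x ^ n)} =
        ∑ y : {y : G // IsConj c y}, Nat.card {x : G // x ^ n = y.1} := by
      rw [← Nat.card_sigma]
      apply Nat.card_congr
      exact
        { toFun := fun x => ⟨⟨x.1 ^ n, x.2⟩, ⟨x.1, rfl⟩⟩
          invFun := fun s => ⟨s.2.1, by rw [s.2.2]; exact s.1.2⟩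
          left_inv := fun x => rfl
          right_inv := by
            rintro ⟨⟨y, hy⟩, ⟨x, hx⟩⟩
            replace hx : x ^ n = y := hx
            subst hx
            rfl }
    have h3 : ∀ y : {y : G // IsConj c y}, Nat.card {x : G // x ^ n = y.1} =
        Nat.card {x : G // x ^ n = c} := by
      rintro ⟨y, hy⟩
      obtain ⟨g, rfl⟩ := isConj_iff.mp hy
      apply Nat.card_congr
      refine (Equiv.subtypeEquiv (MulAut.conj g).toEquiv ?_).symm
      intro x
      change _ ↔ (g * x * g⁻¹) ^ n = g * c * g⁻¹
      rw [conj_pow]
      simp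
    rw [h2, Finset.sum_congr rfl (fun y _ => h3 y), Finset.sum_const, smul_eq_mul,
      H70.index_centralizer_eq, Nat.card_eq_fintype_card (α := {y : G // IsConj c y}),
      Finset.card_univ]
  have h2 : Nat.card {x : G // x ^ n = c} = Nat.card {x : C // x ^ n = ⟨c, by
      rw [hC, mem_centralizer_singleton_iff]⟩} := by
    apply Nat.card_congr
    exact
      { toFun := fun x => ⟨⟨x.1, by
          rw [hC, mem_centralizer_singleton_iff]
          have hx : x.1 ^ n = c := x.2
          exact (congrArg (fun t => x.1 * t = t * x.1) hx).mp ((Commute.refl x.1).pow_right n)⟩,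
            Subtype.ext x.2⟩
        invFun := fun x => ⟨x.1.1, congrArg Subtype.val x.2⟩
        left_inv := fun x => rfl
        right_inv := fun x => rfl }
  have h3 := H70.frobenius_dvd (G := C) n ⟨c, by rw [hC, mem_centralizer_singleton_iff]⟩ (by
    rw [mem_center_iff]
    intro g
    apply Subtype.ext
    exact mem_centralizer_singleton_iff.mp g.2)
  rw [← h2] at h3
  rw [h1, ← C.index_mul_card, Nat.gcd_mul_left]
  exact Nat.mul_dvd_mul_left _ h3

end Cfsg.Agent.S4212
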