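import Cfsg.Statements.S4213
import Mathlib
import Cfsg.Agent.H70.Roots
import Cfsg.Agent.Solv.MinNormal

set_option autoImplicit false
open Cfsg

namespace Cfsg.Agent.S4213

open Subgroup

theorem card_quot_preimage {G : Type*} [Group G] (K : Subgroup G) [K.Normal] (Q : G ⧸ K → Prop) :
    Nat.card {x : G // Q (QuotientGroup.mk x)} = Nat.card K * Nat.card {y : G ⧸ K // Q y} := by
  have e := QuotientGroup.preimageMkEquivSubgroupProdSet K {y : G ⧸ K | Q y}
  have h1 := Nat.card_congr e
  rw [Nat.card_prod] at h1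
  exact h1

theorem frob_le {G : Type*} [Group G] [Finite G] (n : ℕ) (hn : n ∣ Nat.card G) :
    n ≤ Nat.card {x : G // x ^ n = 1} := by
  have h1 := H70.frobenius_dvd (G := G) n 1 (one_mem _)
  rw [Nat.gcd_eq_left hn] at h1
  haveI : Nonempty {x : G // x ^ n = 1} := ⟨⟨1, one_pow n⟩⟩
  exact Nat.le_of_dvd Nat.card_pos h1

theorem main (N : ℕ) : ∀ {G : Type*} [Group G] [Finite G] [Group.IsSolvable G], Nat.card G = N →
    ∀ n, n ∣ N → Nat.card {x : G // x ^ n = 1} = n → ∃ H : Subgroup G, (H : Set G) = {x | x ^ n = 1} := by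
  induction N using Nat.strong_induction_on with
  | _ N ih =>
  intro G _ _ _ hN n hnN hcount
  rcases subsingleton_or_nontrivial G with hsub | hnt
  · refine ⟨⊤, ?_⟩
    ext x
    simp [Subsingleton.elim x 1]
  have hn0 : 0 < n := by
    rw [← hcount]
    haveI : Nonempty {x : G // x ^ n = 1} := ⟨⟨1, one_pow n⟩⟩
    exact Nat.card_pos
  obtain ⟨K, hKn, hKle, hK1, hKmin⟩ := Solv.exists_minimal_normal (⊤ : Subgroup G) inferInstance top_ne_bot
  have hKmin' : ∀ M : Subgroup G, M.Normal → M ≤ K → M = ⊥ ∨ M = K := hKmin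
  obtain ⟨hKab, p, hp, hKp⟩ := Solv.minimal_normal_of_solvable K inferInstance hK1 hKmin'
  haveI := Fact.mk hp
  have hKpg : IsPGroup p K := by
    intro x
    exact ⟨1, Subtype.ext (by rw [pow_one]; exact hKp x x.2)⟩
  obtain ⟨i, hi⟩ := IsPGroup.iff_card.mp hKpg
  have hi0 : i ≠ 0 := by
    rintro rfl
    rw [pow_zero] at hi
    exact hK1 (Subgroup.card_eq_one.mp hi)
  have hcardQ : Nat.card K * Nat.card (G ⧸ K) = N := by
    rw [← hN, ← Subgroup.index_eq_card, Subgroup.card_mul_index]
  have hQlt : Nat.card (G ⧸ K) < N := by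
    rw [← hcardQ, hi]
    exact lt_mul_of_one_lt_left Nat.card_pos (Nat.one_lt_pow hi0 hp.one_lt)
  haveI : Group.IsSolvable (G ⧸ K) := inferInstance
  -- facts on preimages
  have hpre : ∀ m : ℕ, m * p ∣ n → m ∣ Nat.card (G ⧸ K) →
      Nat.card K * Nat.card {y : G ⧸ K // y ^ m = 1} ≤ n ∧ m ≤ Nat.card {y : G ⧸ K // y ^ m = 1} ∧
      ∀ x : G, (QuotientGroup.mk x : G ⧸ K) ^ m = 1 → x ^ n = 1 := by
    intro m hm hmQ
    have h3 : ∀ x : G, (QuotientGroup.mk x : G ⧸ K) ^ m = 1 → x ^ n = 1 := by
      intro x hx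
      have h1 : x ^ m ∈ K := by
        rw [← QuotientGroup.eq_one_iff]
        exact hx
      obtain ⟨t, rfl⟩ := hm
      rw [pow_mul, pow_mul, hKp _ h1, one_pow]
    refine ⟨?_, frob_le m hmQ, h3⟩
    rw [← card_quot_preimage K (fun y => y ^ m = 1), ← hcount]
    exact Nat.card_le_card_of_injective (fun x => (⟨x.1, h3 _ x.2⟩ : {x : G // x ^ n = 1}))
      (fun a b h => by
        apply Subtype.ext
        exact congrArg (fun t => t.1) h)
  by_cases hA : Nat.card K ∣ n
  · -- Case A
    obtain ⟨m, hm⟩ := hA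
    have hmQ : m ∣ Nat.card (G ⧸ K) := by
      rw [← hcardQ, hm] at hnN
      exact Nat.dvd_of_mul_dvd_mul_left Nat.card_pos hnN
    have hmp : m * p ∣ n := by
      rw [hm, mul_comm]
      exact Nat.mul_dvd_mul_right (hi ▸ dvd_pow_self p hi0) m
    obtain ⟨h1, h2, h3⟩ := hpre m hmp hmQ
    have h4 : Nat.card {y : G ⧸ K // y ^ m = 1} = m := by
      apply le_antisymm _ h2
      rw [hm] at h1
      exact Nat.le_of_mul_le_mul_left h1 Nat.card_pos
    obtain ⟨H, hH⟩ := ih _ hQlt (G := G ⧸ K) rfl m hmQ h4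
    refine ⟨H.comap (QuotientGroup.mk' K), ?_⟩
    have h5 : ((H.comap (QuotientGroup.mk' K) : Subgroup G) : Set G) =
        {x : G | (QuotientGroup.mk x : G ⧸ K) ^ m = 1} := by
      ext x
      have : (QuotientGroup.mk x : G ⧸ K) ∈ (H : Set (G ⧸ K)) ↔
          (QuotientGroup.mk x : G ⧸ K) ^ m = 1 := by rw [hH]; rfl
      exact this
    rw [h5]
    refine Set.eq_of_subset_of_ncard_le (fun x hx => h3 x hx) ?_ (Set.toFinite _)
    have h6 := card_quot_preimage K (fun y => y ^ m = 1)
    rw [h4, ← hm] at h6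
    change Nat.card {x : G // x ^ n = 1} ≤ Nat.card {x : G // (QuotientGroup.mk x : G ⧸ K) ^ m = 1}
    rw [hcount, h6]
  · by_cases hB : p ∣ n
    · -- Case B : contradiction
      exfalso
      obtain ⟨j, n₁, hn₁, hj⟩ := Nat.exists_eq_pow_mul_and_not_dvd hn0.ne' p hp.ne_one
      have hj0 : j ≠ 0 := by
        rintro rfl
        rw [pow_zero, one_mul] at hj
        exact hn₁ (hj ▸ hB)
      have hji : j < i := by
        by_contra h
        push Not at h
        apply hA
        rw [hi, hj]
        exact (pow_dvd_pow p h).mul_right n₁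
      have hcop : Nat.Coprime n₁ (Nat.card K) := by
        rw [hi]
        exact (Nat.Coprime.pow_left i ((Nat.Prime.coprime_iff_not_dvd hp).mpr hn₁)).symm
      have hn₁Q : n₁ ∣ Nat.card (G ⧸ K) := by
        apply Nat.Coprime.dvd_of_dvd_mul_left hcop
        rw [hcardQ]
        exact (Dvd.intro_left _ hj.symm).trans hnN
      have hn₁p : n₁ * p ∣ n := by
        rw [hj, mul_comm]
        exact Nat.mul_dvd_mul_right (dvd_pow_self p hj0) n₁
      obtain ⟨h1, h2, -⟩ := hpre n₁ hn₁p hn₁Q
      have h3 : Nat.card K * n₁ ≤ n := (Nat.mul_le_mul_left _ h2).trans h1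
      rw [hi, hj] at h3
      have hn₁0 : 0 < n₁ := Nat.pos_of_ne_zero (by rintro rfl; exact hn₁ (dvd_zero p))
      have h4 : p ^ i ≤ p ^ j := Nat.le_of_mul_le_mul_right h3 hn₁0
      exact absurd ((Nat.pow_le_pow_iff_right hp.one_lt).mp h4) (by omega)
    · -- Case C
      have hcop : Nat.Coprime n (Nat.card K) := by
        rw [hi]
        exact (Nat.Coprime.pow_left i ((Nat.Prime.coprime_iff_not_dvd hp).mpr hB)).symm
      have hnQ : n ∣ Nat.card (G ⧸ K) := by
        apply Nat.Coprime.dvd_of_dvd_mul_left hcop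
        rw [hcardQ]
        exact hnN
      have hle := frob_le (G := G ⧸ K) n hnQ
      have hsurj : Function.Surjective (fun x : {x : G // x ^ n = 1} =>
          (⟨QuotientGroup.mk x.1, by
            rw [← QuotientGroup.mk_pow, x.2]; rfl⟩ : {y : G ⧸ K // y ^ n = 1})) := by
        rintro ⟨y, hy⟩
        obtain ⟨x, rfl⟩ := QuotientGroup.mk'_surjective K y
        have h1 : x ^ n ∈ K := by
          rw [← QuotientGroup.eq_one_iff]
          exact hy
        obtain ⟨e, he1, he2⟩ := Nat.chineseRemainder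
          ((Nat.Prime.coprime_iff_not_dvd hp).mpr hB).symm 1 0
        refine ⟨⟨x ^ e, ?_⟩, ?_⟩
        · obtain ⟨t, rfl⟩ := (Nat.modEq_zero_iff_dvd).mp he2
          rw [← pow_mul, show p * t * n = (n * p) * t by ring, pow_mul, pow_mul, hKp _ h1, one_pow]
        · apply Subtype.ext
          change (QuotientGroup.mk (x ^ e) : G ⧸ K) = QuotientGroup.mk x
          rw [QuotientGroup.mk_pow]
          conv_rhs => rw [← pow_one (QuotientGroup.mk x : G ⧸ K)]
          rw [pow_eq_pow_iff_modEq]
          exact he1.of_dvd (orderOf_dvd_of_pow_eq_one hy)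
      have hle2 := Nat.card_le_card_of_surjective _ hsurj
      rw [hcount] at hle2
      have h4 : Nat.card {y : G ⧸ K // y ^ n = 1} = n := le_antisymm hle2 hle
      obtain ⟨H, hH⟩ := ih _ hQlt (G := G ⧸ K) rfl n hnQ h4
      set M := H.comap (QuotientGroup.mk' K) with hM
      have hKM : K ≤ M := by
        intro x hx
        rw [hM, mem_comap]
        have : QuotientGroup.mk' K x = 1 := (QuotientGroup.eq_one_iff x).mpr hx
        rw [this]; exact one_mem _
      have hHcard : Nat.card H = n := by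
        rw [← h4]
        change Nat.card (H : Set (G ⧸ K)) = _
        rw [hH]
        rfl
      have hrel : K.relIndex M = n := by
        have h5 : M.map (QuotientGroup.mk' K) = H := by
          rw [hM, map_comap_eq_self_of_surjective (QuotientGroup.mk'_surjective K)]
        rw [← hHcard, ← h5, ← relIndex_ker, QuotientGroup.ker_mk']
      haveI : (K.subgroupOf M).Normal := normal_subgroupOf
      have hKcard : Nat.card (K.subgroupOf M) = Nat.card K :=
        Nat.card_congr (subgroupOfEquivOfLe hKM).toEquiv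
      obtain ⟨L, hL⟩ := exists_right_complement'_of_coprime (N := K.subgroupOf M) (by
        change Nat.Coprime _ (K.relIndex M)
        rw [hrel, hKcard]; exact hcop.symm)
      have hLcard : Nat.card L = n := by
        have h5 := hL.card_mul
        have h6 := (K.subgroupOf M).card_mul_index
        have h7 : (K.subgroupOf M).index = n := hrel
        rw [h7] at h6
        rw [← h6] at h5
        exact Nat.eq_of_mul_eq_mul_left Nat.card_pos h5
      refine ⟨L.map M.subtype, ?_⟩
      have hLc : Nat.card (L.map M.subtype) = n := by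
        rw [← hLcard]
        exact (Nat.card_congr (L.equivMapOfInjective _ M.subtype_injective).toEquiv).symm
      refine Set.eq_of_subset_of_ncard_le ?_ ?_ (Set.toFinite _)
      · intro x hx
        have h5 : (⟨x, hx⟩ : L.map M.subtype) ^ Nat.card (L.map M.subtype) = 1 := pow_card_eq_one'
        rw [hLc] at h5
        exact congrArg Subtype.val h5
      · change Nat.card {x : G // x ^ n = 1} ≤ Nat.card (L.map M.subtype)
        rw [hcount, hLc]

/-- If `G` is a finite solvable group and `n` divides the order of `G` and exactly `n` elements `x` of `G` satisfy `x^n = 1`, then these elements form a normal subgroup. -/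
theorem result {G : Type*} [Group G] [Finite G] [Group.IsSolvable G] (n : ℕ) (hn : n ∣ Nat.card G) (hcount : Nat.card {x : G // x ^ n = 1} = n) : ∃ H : Subgroup G, H.Normal ∧ (H : Set G) = {x : G | x ^ n = 1} := by
  obtain ⟨H, hH⟩ := main _ (G := G) rfl n hn hcount
  refine ⟨H, ⟨?_⟩, hH⟩
  intro x hx g
  have h1 : x ∈ (H : Set G) := hx
  rw [hH] at h1
  have h2 : g * x * g⁻¹ ∈ (H : Set G) := by
    rw [hH]
    change (g * x * g⁻¹) ^ n = 1
    rw [conj_pow, h1]
    simp
  exact h2

end Cfsg.Agent.S4213
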