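import Cfsg.Statements.S4214
import Mathlib
import Cfsg.Agent.Hall.Hall
import Cfsg.Agent.Solv.MinNormal

set_option autoImplicit false
open Cfsg

namespace Cfsg.Agent.S4214

open Subgroup
open scoped Pointwise

section Act

variable {H K : Type*} [Group H] [Group K] [MulDistribMulAction H K]

/-- fixed subgroup -/
def Fix (N : Subgroup H) : Subgroup K where
  carrier := {k | ∀ h ∈ N, h • k = k}
  one_mem' := fun h _ => smul_one h
  mul_mem' := fun {a b} ha hb h hh => by rw [smul_mul', ha h hh, hb h hh]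
  inv_mem' := fun {a} ha h hh => by rw [smul_inv', ha h hh]

theorem mem_Fix (N : Subgroup H) (k : K) : k ∈ (Fix N : Subgroup K) ↔ ∀ h ∈ N, h • k = k := Iff.rfl

theorem Fix_anti {N M : Subgroup H} (h : N ≤ M) : (Fix M : Subgroup K) ≤ Fix N :=
  fun _ hk x hx => hk x (h hx)

theorem Fix_bot : (Fix (⊥ : Subgroup H) : Subgroup K) = ⊤ := by
  rw [eq_top_iff]
  intro k _ h hh
  rw [Subgroup.mem_bot] at hh
  rw [hh, one_smul]

theorem card_Fix_modEq [Finite K] {r : ℕ} [Fact r.Prime] (N M : Subgroup H) (hNn : N.Normal)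
    (hNM : N ≤ M) (hr : ∀ x ∈ M, ∃ k : ℕ, x ^ (r ^ k) ∈ N) :
    Nat.card (Fix N : Subgroup K) ≡ Nat.card (Fix M : Subgroup K) [MOD r] := by
  classical
  haveI : (N.subgroupOf M).Normal := normal_subgroupOf
  letI actM : MulAction M (Fix N : Subgroup K) :=
    { smul := fun m s => ⟨(m : H) • (s : K), by
        intro h hh
        have h1 : (m : H)⁻¹ * h * (m : H)⁻¹⁻¹ ∈ N := hNn.conj_mem h hh (m : H)⁻¹
        have h2 := s.2 _ h1
        rw [inv_inv] at h2
        calc h • (m : H) • (s : K) = (m : H) • ((m : H)⁻¹ * h * m) • (s : K) := by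
              rw [smul_smul, smul_smul]; congr 1; group
          _ = (m : H) • (s : K) := by rw [h2]⟩
      one_smul := fun s => Subtype.ext (one_smul H (s : K))
      mul_smul := fun a b s => Subtype.ext (mul_smul (a : H) (b : H) (s : K)) }
  have hker : ∀ x ∈ N.subgroupOf M, MulAction.toPermHom M (Fix N : Subgroup K) x = 1 := by
    intro x hx
    ext s
    exact s.2 _ hx
  letI actQ : MulAction (M ⧸ N.subgroupOf M) (Fix N : Subgroup K) :=
    MulAction.compHom (Fix N : Subgroup K) (QuotientGroup.lift (N.subgroupOf M)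
      (MulAction.toPermHom M (Fix N : Subgroup K)) hker)
  have hact : ∀ (m : M) (s : (Fix N : Subgroup K)),
      (((QuotientGroup.mk m : M ⧸ N.subgroupOf M) • s : (Fix N : Subgroup K)) : K) = (m : H) • (s : K) :=
    fun m s => rfl
  have hp : IsPGroup r (M ⧸ N.subgroupOf M) := by
    intro y
    obtain ⟨m, rfl⟩ := QuotientGroup.mk_surjective y
    obtain ⟨k, hk⟩ := hr m m.2
    refine ⟨k, ?_⟩
    rw [← QuotientGroup.mk_pow, QuotientGroup.eq_one_iff, mem_subgroupOf, Subgroup.coe_pow]
    exact hk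
  have h1 := hp.card_modEq_card_fixedPoints (α := (Fix N : Subgroup K))
  have h2 : Nat.card (MulAction.fixedPoints (M ⧸ N.subgroupOf M) (Fix N : Subgroup K)) =
      Nat.card (Fix M : Subgroup K) := by
    apply Nat.card_congr
    exact
      { toFun := fun s => ⟨s.1.1, fun h hh => by
          have := s.2 (QuotientGroup.mk ⟨h, hh⟩)
          have := congrArg Subtype.val this
          rwa [hact] at this⟩
        invFun := fun s => ⟨⟨s.1, Fix_anti hNM s.2⟩, fun y => by
          obtain ⟨m, rfl⟩ := QuotientGroup.mk_surjective y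
          apply Subtype.ext
          rw [hact]
          exact s.2 m m.2⟩
        left_inv := fun s => rfl
        right_inv := fun s => rfl }
  rwa [h2] at h1

end Act

/-- in a solvable group there is a normal subgroup just above `N`. -/
theorem exists_step {H : Type*} [Group H] [Finite H] [Group.IsSolvable H] (N : Subgroup H) [hN : N.Normal]
    (hNt : N ≠ ⊤) : ∃ (M : Subgroup H) (r : ℕ), M.Normal ∧ N < M ∧ r.Prime ∧ r ∣ Nat.card H ∧
      ∀ x ∈ M, ∃ k : ℕ, x ^ (r ^ k) ∈ N := by
  have h1 : (⊤ : Subgroup (H ⧸ N)) ≠ ⊥ := by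
    intro h
    apply hNt
    have h2 : (⊥ : Subgroup (H ⧸ N)).comap (QuotientGroup.mk' N) = ⊤ := by rw [← h, comap_top]
    rwa [MonoidHom.comap_bot, QuotientGroup.ker_mk'] at h2
  obtain ⟨M, hMn, -, hM1, hMmin⟩ := Solv.exists_minimal_normal (⊤ : Subgroup (H ⧸ N)) inferInstance h1
  obtain ⟨r, hr, hMr⟩ := Solv.minimal_normal_isPGroup M inferInstance hM1 hMmin
  haveI := Fact.mk hr
  refine ⟨M.comap (QuotientGroup.mk' N), r, inferInstance, ?_, hr, ?_, ?_⟩
  · refine lt_of_le_of_ne ?_ ?_
    · conv_lhs => rw [← QuotientGroup.ker_mk' N]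
      exact ker_le_comap _ _
    · intro h
      apply hM1
      have h2 := map_comap_eq_self_of_surjective (QuotientGroup.mk'_surjective N) M
      rw [← h2, ← h]
      rw [Subgroup.map_eq_bot_iff, QuotientGroup.ker_mk']
  · obtain ⟨k, hk⟩ := IsPGroup.iff_card.mp hMr
    have hk0 : k ≠ 0 := by
      rintro rfl
      rw [pow_zero] at hk
      exact hM1 (Subgroup.card_eq_one.mp hk)
    have h2 : r ∣ Nat.card M := hk ▸ dvd_pow_self r hk0
    exact h2.trans ((Subgroup.card_subgroup_dvd_card M).trans (Subgroup.card_quotient_dvd_card N))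
  · intro x hx
    obtain ⟨k, hk⟩ := hMr ⟨_, hx⟩
    refine ⟨k, ?_⟩
    rw [← QuotientGroup.eq_one_iff]
    exact congrArg Subtype.val hk

theorem Fix_index_mem {H K : Type*} [Group H] [Group K] [MulDistribMulAction H K] [Finite H] [Finite K]
    [Group.IsSolvable H] {p : ℕ} [Fact p.Prime] (hK : IsPGroup p K) (hpH : ¬ p ∣ Nat.card H) (d : ℕ) :
    ∀ N : Subgroup H, N.Normal → N.index = d →
    (Fix (⊤ : Subgroup H) : Subgroup K).relIndex (Fix N) ∈ Submonoid.closure
      {x : ℕ | (∃ e, x = p ^ e) ∧ x ∣ Nat.card K ∧ ∃ r : ℕ, r.Prime ∧ r ∣ Nat.card H ∧ x ≡ 1 [MOD r]} := by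
  have hp := (Fact.out : p.Prime)
  induction d using Nat.strong_induction_on with
  | _ d ih =>
  intro N hN hd
  by_cases hNt : N = ⊤
  · rw [hNt, relIndex_self]; exact one_mem _
  obtain ⟨M, r, hMn, hNM, hr, hrH, hpow⟩ := exists_step N hNt
  haveI := Fact.mk hr
  have hMd : M.index < d := by
    rw [← hd]
    have h1 := relIndex_mul_index hNM.le
    rw [← h1]
    have h2 : 1 < N.relIndex M := by
      have h3 : N.relIndex M ≠ 1 := by
        rw [Ne, relIndex_eq_one]
        exact not_le_of_gt hNM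
      have h4 : N.relIndex M ≠ 0 := by
        intro h5
        rw [h5, zero_mul] at h1
        exact index_ne_zero_of_finite h1.symm
      omega
    exact lt_mul_of_one_lt_left (Nat.pos_of_ne_zero index_ne_zero_of_finite) h2
  have h1 := ih _ hMd M hMn rfl
  have hle1 : (Fix (⊤ : Subgroup H) : Subgroup K) ≤ Fix M := Fix_anti le_top
  have hle2 : (Fix M : Subgroup K) ≤ Fix N := Fix_anti hNM.le
  rw [← relIndex_mul_relIndex _ _ _ hle1 hle2]
  refine mul_mem h1 (Submonoid.subset_closure ?_)
  set t := (Fix M : Subgroup K).relIndex (Fix N) with ht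
  have hcard : Nat.card (Fix M : Subgroup K) * t = Nat.card (Fix N : Subgroup K) := by
    have h2 := relIndex_mul_relIndex ⊥ (Fix M : Subgroup K) (Fix N) bot_le hle2
    rwa [relIndex_bot_left, relIndex_bot_left] at h2
  have htK : t ∣ Nat.card K := (Dvd.intro_left _ hcard).trans (Subgroup.card_subgroup_dvd_card _)
  obtain ⟨k, hk⟩ := IsPGroup.iff_card.mp hK
  have htK' := htK
  rw [hk] at htK'
  obtain ⟨e, _, he⟩ := (Nat.dvd_prime_pow hp).mp htK'
  refine ⟨⟨e, he⟩, htK, r, hr, hrH, ?_⟩
  have h3 := card_Fix_modEq (K := K) N M hN hNM.le hpow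
  rw [← hcard] at h3
  obtain ⟨l, hl⟩ := IsPGroup.iff_card.mp (hK.to_subgroup (Fix M : Subgroup K))
  have hrp : Nat.Coprime r (p ^ l) := by
    apply Nat.Coprime.pow_right
    rw [Nat.coprime_primes hr hp]
    rintro rfl
    exact hpH hrH
  rw [hl] at h3
  have h4 : p ^ l * t ≡ p ^ l * 1 [MOD r] := by rw [mul_one]; exact h3
  exact Nat.ModEq.cancel_left_of_coprime hrp h4

theorem relIndex_normalizer_mem {G : Type*} [Group G] [Finite G] (K H : Subgroup G) [K.Normal]
    [Group.IsSolvable H] {p : ℕ} [Fact p.Prime] (hK : IsPGroup p K) (hpH : ¬ p ∣ Nat.card H) :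
    (normalizer (H : Set G)).relIndex K ∈ Submonoid.closure
      {x : ℕ | (∃ e, x = p ^ e) ∧ x ∣ Nat.card K ∧ ∃ r : ℕ, r.Prime ∧ r ∣ Nat.card H ∧ x ≡ 1 [MOD r]} := by
  letI : MulDistribMulAction H K :=
    MulDistribMulAction.compHom K ((MulAut.conjNormal (H := K)).comp H.subtype)
  have hact : ∀ (h : H) (k : K), ((h • k : K) : G) = h * k * (h : G)⁻¹ := fun h k => rfl
  have h1 := Fix_index_mem (H := H) (K := K) hK hpH _ ⊥ inferInstance rfl
  have h2 : (Fix (⊤ : Subgroup H) : Subgroup K) = (normalizer (H : Set G)).subgroupOf K := by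
    ext k
    rw [mem_Fix, mem_subgroupOf, mem_normalizer_iff]
    constructor
    · intro h x
      have h3 : ∀ y : H, (y : G) * k = k * y := by
        intro y
        have h4 := congrArg Subtype.val (h y (mem_top y))
        rw [hact] at h4
        exact mul_inv_eq_iff_eq_mul.mp h4
      constructor
      · intro hx
        have h5 := h3 ⟨x, hx⟩
        change x * k = k * x at h5
        rw [← h5, mul_inv_cancel_right]
        exact hx
      · intro hx
        have h5 := h3 ⟨_, hx⟩
        change k * x * (k : G)⁻¹ * k = k * (k * x * (k : G)⁻¹) at h5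
        have h6 : x = k * x * (k : G)⁻¹ := by
          have h7 : (k : G)⁻¹ * (k * x * (k : G)⁻¹ * k) = (k : G)⁻¹ * (k * (k * x * (k : G)⁻¹)) := by
            rw [h5]
          simpa [mul_assoc] using h7
        rw [h6]; exact hx
    · intro h y _
      apply Subtype.ext
      rw [hact]
      -- the commutator lies in both
      have h3 : (k : G) * y * (k : G)⁻¹ * (y : G)⁻¹ ∈ H := H.mul_mem ((h y).mp y.2) (H.inv_mem y.2)
      have h4 : (k : G) * y * (k : G)⁻¹ * (y : G)⁻¹ ∈ K := by
        have h5 := (inferInstance : K.Normal).conj_mem _ (K.inv_mem k.2) (y : G)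
        have h6 := K.mul_mem k.2 h5
        convert h6 using 1
        group
      have h5 : (k : G) * y * (k : G)⁻¹ * (y : G)⁻¹ = 1 := by
        obtain ⟨j, hj⟩ := IsPGroup.iff_card.mp hK
        have h7 : Nat.Coprime (Nat.card H) (Nat.card K) := by
          rw [hj]
          exact Nat.Coprime.pow_right j
            ((Nat.Prime.coprime_iff_not_dvd (Fact.out : p.Prime)).mpr hpH).symm
        have h8 : (k : G) * y * (k : G)⁻¹ * (y : G)⁻¹ ∈ H ⊓ K := ⟨h3, h4⟩
        rw [Subgroup.inf_eq_bot_of_coprime h7] at h8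
        exact h8
      have h6 : (k : G) * y = y * k := by
        rw [mul_inv_eq_one, mul_inv_eq_iff_eq_mul] at h5
        exact h5
      rw [← h6]; group
  rw [Fix_bot, relIndex_top_right, h2] at h1
  exact h1

theorem mem_normalizer_iff_smul {G : Type*} [Group G] (H : Subgroup G) (g : G) :
    g ∈ normalizer (H : Set G) ↔ MulAut.conj g • H = H := by
  rw [mem_normalizer_iff]
  constructor
  · intro h
    ext x
    rw [Hall.mem_conj_smul, h]
    simp [mul_assoc]
  · intro h x
    constructor
    · intro hx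
      rw [← h, Hall.mem_conj_smul]
      simpa [mul_assoc] using hx
    · intro hx
      rw [← h, Hall.mem_conj_smul] at hx
      simpa [mul_assoc] using hx

/-- the number of Hall subgroups -/
theorem card_hall {G : Type*} [Group G] [Finite G] [Group.IsSolvable G] (m n : ℕ)
    (hG : Nat.card G = m * n) (hmn : m.Coprime n) (H : Subgroup G) (hH : Nat.card H = m) :
    Nat.card {K : Subgroup G // Nat.card K = m} = (normalizer (H : Set G)).index := by
  letI act : MulAction G (Subgroup G) := MulAction.compHom _ (MulAut.conj : G →* MulAut G)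
  have hact : ∀ (g : G) (K : Subgroup G), g • K = MulAut.conj g • K := fun g K => rfl
  have h1 : MulAction.stabilizer G H = normalizer (H : Set G) := by
    ext g
    rw [MulAction.mem_stabilizer_iff, hact, mem_normalizer_iff_smul]
  rw [← h1, MulAction.index_stabilizer, ← Nat.card_coe_set_eq]
  apply Nat.card_congr
  apply Equiv.subtypeEquivRight
  intro K
  constructor
  · intro hK
    obtain ⟨g, hg⟩ := Hall.hall_conj m n hG hmn H K hH hK
    exact ⟨g, hg⟩
  · rintro ⟨g, rfl⟩
    change Nat.card (MulAut.conj g • H : Subgroup G) = m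
    rw [Hall.card_conj_smul, hH]

/-- the set of admissible factors. -/
def Adm (G : Type*) [Group G] (m : ℕ) : Set ℕ :=
  {x | (∃ q e : ℕ, q.Prime ∧ x = q ^ e) ∧ (∃ K L : Subgroup G, K.Normal ∧ L.Normal ∧ K < L ∧
    (∀ M : Subgroup G, M.Normal → K ≤ M → M ≤ L → M = K ∨ M = L) ∧ x ∣ K.relIndex L) ∧
    (∃ q : ℕ, q.Prime ∧ q ∣ m ∧ x ≡ 1 [MOD q])}

theorem Adm_quotient {G : Type*} [Group G] [Finite G] (N : Subgroup G) [N.Normal] {m m' : ℕ} (h : m' ∣ m) :
    Adm (G ⧸ N) m' ⊆ Adm G m := by
  rintro x ⟨h1, ⟨K, L, hK, hL, hKL, hmin, hx⟩, ⟨q, hq, hqm, hx2⟩⟩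
  have hsurj := QuotientGroup.mk'_surjective N
  refine ⟨h1, ⟨K.comap (QuotientGroup.mk' N), L.comap (QuotientGroup.mk' N), inferInstance,
    inferInstance, ?_, ?_, ?_⟩, ⟨q, hq, hqm.trans h, hx2⟩⟩
  · exact (comap_lt_comap_of_surjective hsurj).mpr hKL
  · intro M hM hKM hML
    have hNM : N ≤ M := by
      refine le_trans ?_ hKM
      conv_lhs => rw [← QuotientGroup.ker_mk' N]
      exact ker_le_comap _ _
    have hM' : (M.map (QuotientGroup.mk' N)).comap (QuotientGroup.mk' N) = M := by
      rw [comap_map_eq, QuotientGroup.ker_mk', sup_eq_left.mpr hNM]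
    have h2 := hmin (M.map (QuotientGroup.mk' N)) (hM.map _ hsurj) (by
      rw [← map_comap_eq_self_of_surjective hsurj K]; exact map_mono hKM) (map_le_iff_le_comap.mpr hML)
    rcases h2 with h2 | h2
    · left; rw [← hM', h2]
    · right; rw [← hM', h2]
  · rw [relIndex_comap, map_comap_eq_self_of_surjective hsurj]
    exact hx

theorem main (N : ℕ) : ∀ {G : Type*} [Group G] [Finite G] [Group.IsSolvable G], Nat.card G = N →
    ∀ m n : ℕ, Nat.card G = m * n → m.Coprime n →
    Nat.card {H : Subgroup G // Nat.card H = m} ∈ Submonoid.closure (Adm G m) := by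
  induction N using Nat.strong_induction_on with
  | _ N ih =>
  intro G _ _ _ hN m n hG hmn
  rcases subsingleton_or_nontrivial G with hsub | hnt
  · obtain ⟨H, hH⟩ := Hall.hall_exists (G := G) m n hG hmn
    rw [card_hall m n hG hmn H hH]
    have h1 : normalizer (H : Set G) = ⊤ := by
      rw [eq_top_iff]
      intro x _
      rw [Subsingleton.elim x 1]
      exact one_mem _
    rw [h1, index_top]
    exact one_mem _
  obtain ⟨K, hKn, -, hK1, hKmin⟩ := Solv.exists_minimal_normal (⊤ : Subgroup G) inferInstance top_ne_bot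
  obtain ⟨p, hp, hKp⟩ := Solv.minimal_normal_isPGroup K inferInstance hK1 hKmin
  haveI := Fact.mk hp
  obtain ⟨H, hH⟩ := Hall.hall_exists (G := G) m n hG hmn
  rw [card_hall m n hG hmn H hH]
  have hsurj := QuotientGroup.mk'_surjective K
  have hHi : H.index = n := by
    have h1 := H.card_mul_index
    rw [hH, hG] at h1
    have hm0 : 0 < m := hH ▸ Nat.card_pos
    exact Nat.eq_of_mul_eq_mul_left hm0 h1
  -- the normalizer of `HK`
  have hfr : normalizer ((H ⊔ K : Subgroup G) : Set G) = normalizer (H : Set G) ⊔ K := by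
    apply le_antisymm
    · intro g hg
      rw [mem_normalizer_iff_smul] at hg
      have hHL : H ≤ H ⊔ K := le_sup_left
      have hAL : MulAut.conj g • H ≤ H ⊔ K := by
        conv_rhs => rw [← hg]
        exact Hall.conj_smul_mono hHL
      have hc1 : Nat.card (H.subgroupOf (H ⊔ K)) = m := by
        rw [← hH]; exact Nat.card_congr (subgroupOfEquivOfLe hHL).toEquiv
      have hc2 : Nat.card ((MulAut.conj g • H).subgroupOf (H ⊔ K)) = m := by
        rw [← hH, ← Hall.card_conj_smul g H]; exact Nat.card_congr (subgroupOfEquivOfLe hAL).toEquiv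
      have hc3 := (H.subgroupOf (H ⊔ K)).card_mul_index
      rw [hc1] at hc3
      have hc4 : (H.subgroupOf (H ⊔ K)).index ∣ n := by
        rw [← hHi]
        exact relIndex_dvd_index_of_le hHL
      obtain ⟨l, hl⟩ := Hall.hall_conj (G := (H ⊔ K : Subgroup G)) m _ hc3.symm
        (Nat.Coprime.coprime_dvd_right hc4 hmn) _ _ hc1 hc2
      have h1 := Hall.conj_of_subgroupOf hHL hAL l hl
      have h2 : (l : G)⁻¹ * g ∈ normalizer (H : Set G) := by
        rw [mem_normalizer_iff_smul, ← Hall.conj_smul_conj_smul, ← h1, Hall.conj_smul_conj_smul]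
        simp
      have h3 : (l : G) ∈ normalizer (H : Set G) ⊔ K := sup_le_sup_right le_normalizer K l.2
      have h4 := mul_mem h3 ((le_sup_left : normalizer (H : Set G) ≤ normalizer (H : Set G) ⊔ K) h2)
      rwa [mul_inv_cancel_left] at h4
    · refine sup_le ?_ (le_sup_right.trans le_normalizer)
      intro g hg
      rw [mem_normalizer_iff_smul] at hg ⊢
      rw [Hall.conj_smul_sup, hg, Hall.conj_smul_normal]
  have hidx : (normalizer (H : Set G)).index = (normalizer ((H ⊔ K : Subgroup G) : Set G)).index *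
      (normalizer (H : Set G)).relIndex K := by
    rw [hfr]
    set M := normalizer (H : Set G) with hM
    have h1 := relIndex_mul_index (le_sup_left : M ≤ M ⊔ K)
    have h2 : M.relIndex (M ⊔ K) = M.relIndex K := by
      have h3 := Solv.mul_card_sup_of_normal M K
      have h4 := relIndex_mul_relIndex ⊥ M (M ⊔ K) bot_le le_sup_left
      rw [relIndex_bot_left, relIndex_bot_left] at h4
      have h5 := relIndex_mul_relIndex ⊥ (M ⊓ K) K bot_le inf_le_right
      rw [relIndex_bot_left, relIndex_bot_left, inf_relIndex_right] at h5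
      rw [← h4, ← h5] at h3
      have h6 : (Nat.card M * Nat.card (M ⊓ K : Subgroup G)) * M.relIndex (M ⊔ K) =
          (Nat.card M * Nat.card (M ⊓ K : Subgroup G)) * M.relIndex K := by
        rw [← mul_assoc] at h3
        rw [← h3]; ring
      exact Nat.eq_of_mul_eq_mul_left (Nat.mul_pos Nat.card_pos Nat.card_pos) h6
    rw [← h1, h2, mul_comm]
  rw [hidx]
  refine mul_mem ?_ ?_
  · -- the quotient
    have hm' : Nat.card (H.map (QuotientGroup.mk' K)) ∣ m := hH ▸ card_map_dvd H (QuotientGroup.mk' K)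
    have hn' : (H.map (QuotientGroup.mk' K)).index ∣ n := hHi ▸ index_map_dvd _ hsurj
    have hcop' := (hmn.coprime_dvd_left hm').coprime_dvd_right hn'
    have hQ := (H.map (QuotientGroup.mk' K)).card_mul_index
    have hQlt : Nat.card (G ⧸ K) < N := by
      rw [← hN]
      have h1 := K.card_mul_index
      rw [index_eq_card] at h1
      have h2 : 1 < Nat.card K := by
        rw [one_lt_card_iff_ne_bot]; exact hK1
      rw [← h1]
      exact lt_mul_of_one_lt_left Nat.card_pos h2
    have h1 := ih _ hQlt (G := G ⧸ K) rfl _ _ hQ.symm hcop'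
    rw [card_hall _ _ hQ.symm hcop' (H.map (QuotientGroup.mk' K)) rfl,
      ← index_comap_of_surjective _ hsurj, comap_normalizer_eq_of_surjective _ hsurj] at h1
    have h2 : (((H.map (QuotientGroup.mk' K)).comap (QuotientGroup.mk' K) : Subgroup G) : Set G) =
        ((H ⊔ K : Subgroup G) : Set G) := by
      rw [comap_map_eq, QuotientGroup.ker_mk']
    rw [h2] at h1
    exact Submonoid.closure_mono (Adm_quotient K hm') h1
  · obtain ⟨k, hk⟩ := IsPGroup.iff_card.mp hKp
    by_cases hpm : p ∣ m
    · have hpn : ¬ p ∣ n := by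
        intro h
        have := Nat.dvd_gcd hpm h
        rw [hmn] at this
        exact hp.one_lt.ne' (Nat.dvd_one.mp this)
      obtain ⟨g, hg⟩ := Hall.hall_le_conj m n hG hmn H K hH (by
        rw [hk]; exact Nat.Coprime.pow_left k ((Nat.Prime.coprime_iff_not_dvd hp).mpr hpn))
      have hKH : K ≤ H := by
        have h1 : MulAut.conj g • K ≤ MulAut.conj g • H := by
          rw [Hall.conj_smul_normal]; exact hg
        exact pointwise_smul_le_pointwise_smul_iff.mp h1
      rw [relIndex_eq_one.mpr (hKH.trans le_normalizer)]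
      exact one_mem _
    · have h1 := relIndex_normalizer_mem K H hKp (by rw [hH]; exact hpm)
      refine Submonoid.closure_mono ?_ h1
      rintro x ⟨⟨e, he⟩, hx, r, hr, hrm, hxr⟩
      refine ⟨⟨p, e, hp, he⟩, ⟨⊥, K, inferInstance, hKn, bot_lt_iff_ne_bot.mpr hK1, ?_, ?_⟩,
        r, hr, hH ▸ hrm, hxr⟩
      · intro M hM _ hMK
        exact hKmin M hM hMK
      · rw [relIndex_bot_left]; exact hx

/-- Let `G` be a finite solvable group of order `mn` with `gcd(m, n) = 1`. Then the number of subgroups of order `m` is a product of natural numbers each of which is a power of a prime, divides the order of some chief factor of `G` (a quotient `L/K` of normal subgroups `K < L` of `G` with no normal subgroup of `G` strictly between them), and is congruent to `1` modulo some prime divisor of `m`. -/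
theorem result {G : Type*} [Group G] [Finite G] [Group.IsSolvable G] (m n : ℕ) (hG : Nat.card G = m * n) (hmn : Nat.Coprime m n) : ∃ (k : ℕ) (f : Fin k → ℕ), Nat.card {H : Subgroup G // Nat.card H = m} = ∏ i, f i ∧ ∀ i, (∃ q e : ℕ, q.Prime ∧ f i = q ^ e) ∧ (∃ K L : Subgroup G, K.Normal ∧ L.Normal ∧ K < L ∧ (∀ M : Subgroup G, M.Normal → K ≤ M → M ≤ L → M = K ∨ M = L) ∧ f i ∣ K.relIndex L) ∧ (∃ q : ℕ, q.Prime ∧ q ∣ m ∧ f i ≡ 1 [MOD q]) := by
  have h := main _ (G := G) rfl m n hG hmn
  obtain ⟨l, hl, hprod⟩ := Submonoid.exists_list_of_mem_closure h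
  refine ⟨l.length, l.get, ?_, ?_⟩
  · rw [← hprod, ← List.prod_ofFn, List.ofFn_get]
  · intro i
    obtain ⟨h1, h2, h3⟩ := hl (l.get i) (List.get_mem l i)
    exact ⟨h1, h2, h3⟩

end Cfsg.Agent.S4214
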