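import Cfsg.Statements.S4215
import Cfsg.Agent.H70.TateGen
import Cfsg.Agent.H70.HallW
import Cfsg.Agent.Transfer.Residual

set_option autoImplicit false
open Cfsg

namespace Cfsg.Agent.S4215

open Subgroup MulAction Cfsg.Agent.H70 Cfsg.Agent.Transfer

/-- the main computation -/
theorem main_mem {G : Type*} [Group G] [Finite G] {p : ℕ} [Fact p.Prime] (P : Sylow p G)
    (Q H : Subgroup G) (hQP : Q ≤ (P : Subgroup G))
    (hPH : (P : Subgroup G) ≤ H)
    (hQH : ∀ g : G, (∀ x ∈ Q, g⁻¹ * x * g ∈ H) → g ∈ H)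
    (h : ∀ u ∈ (P : Subgroup G), ∀ z ∈ Q, (fun y : G => y⁻¹ * z⁻¹ * y * z)^[p - 1] u = 1)
    {A : Type*} [CommGroup A] (hA : ∀ a : A, a ^ p = 1) [Finite A]
    (lam : H →* A) (n : ℕ) :
    ∀ u : G, orderOf u = n → (∃ k, orderOf u = p ^ k) → u ∈ Cfsg.pResidual p G →
      hext H lam u = 1 := by
  classical
  have hp : p.Prime := Fact.out
  induction n using Nat.strong_induction_on with
  | _ n ih =>
  intro u hun hup huK
  by_cases huH : u ∈ H
  swap
  · exact hext_of_notMem lam huH
  -- conjugate into `P`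
  obtain ⟨v, hvP, hvn, hvK, hvu⟩ : ∃ v ∈ (P : Subgroup G), orderOf v = n ∧
      v ∈ Cfsg.pResidual p G ∧
      hext H lam u = hext H lam v := by
    let P' : Sylow p H := P.subtype hPH
    have hz : IsPGroup p (zpowers (⟨u, huH⟩ : H)) := by
      obtain ⟨k, hk⟩ := hup
      apply IsPGroup.of_card (n := k)
      rw [Nat.card_zpowers, ← hk]
      exact (orderOf_injective H.subtype H.subtype_injective _).symm
    obtain ⟨P'', hP''⟩ := hz.exists_le_sylow
    obtain ⟨g, hg⟩ := MulAction.exists_smul_eq H P'' P'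
    have h1 : g * ⟨u, huH⟩ * g⁻¹ ∈ (P' : Subgroup H) := by
      rw [← hg, Sylow.coe_subgroup_smul]
      exact ⟨⟨u, huH⟩, hP'' (mem_zpowers _), rfl⟩
    refine ⟨g * u * (g : G)⁻¹, h1, ?_, ?_, ?_⟩
    · rw [← hun]
      exact orderOf_injective (MulAut.conj (g : G)).toMonoidHom (MulAut.conj (g : G)).injective u
    · have : (Cfsg.pResidual p G).Normal := inferInstance
      exact this.conj_mem u huK g
    · have := hext_conj lam u (inv_mem g.2)
      rw [inv_inv] at this
      exact this.symm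
  rw [hvu]
  clear hvu huH huK hup hun u
  rename' v => u, hvn => hun, hvK => huK, hvP => huP
  let _ : Fintype (G ⧸ H) := Fintype.ofFinite _
  -- `A` is a `p`-group
  have hAp : IsPGroup p A := fun a => ⟨1, by rw [pow_one]; exact hA a⟩
  have hKn : (Cfsg.pResidual p G).Normal := inferInstance
  obtain ⟨ku, hku⟩ : ∃ k, orderOf u = p ^ k := by
    obtain ⟨k, hk⟩ := P.2 ⟨u, huP⟩
    have h1 : u ^ p ^ k = 1 := congrArg Subtype.val hk
    obtain ⟨j, -, hj⟩ := (Nat.dvd_prime_pow hp).1 (orderOf_dvd_of_pow_eq_one h1)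
    exact ⟨j, hj⟩
  have hpow : ∀ x : G, ∀ m : ℕ, 1 < m → m ∣ orderOf u → hext H lam (x⁻¹ * u ^ m * x) = 1 := by
    intro x m hm hmd
    have e1 : orderOf (x⁻¹ * u ^ m * x) = orderOf u / m := by
      have := orderOf_injective (MulAut.conj x⁻¹).toMonoidHom (MulAut.conj x⁻¹).injective (u ^ m)
      rw [← orderOf_pow_of_dvd (by omega) hmd, ← this]
      simp [MulAut.conj_apply]
    have hpos := orderOf_pos u
    refine ih (orderOf (x⁻¹ * u ^ m * x)) ?_ _ rfl ?_ ?_
    · rw [e1, ← hun]
      exact Nat.div_lt_self hpos hm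
    · rw [e1]
      have h2 : orderOf u / m ∣ p ^ ku := hku ▸ Nat.div_dvd_of_dvd hmd
      obtain ⟨j, -, hj⟩ := (Nat.dvd_prime_pow hp).1 h2
      exact ⟨j, hj⟩
    · have := hKn.conj_mem _ (pow_mem huK m) x⁻¹
      simpa using this
  have hV : MonoidHom.transfer lam u = 1 :=
    pResidual_le_ker (p := p) (MonoidHom.transfer lam) hAp huK
  rw [transfer_eq_prod H lam u (fun x m hm hmd _ => hpow x m hm hmd)] at hV
  -- the group `T`
  set T : Subgroup G := Q ⊔ zpowers u with hT
  have hTP : T ≤ (P : Subgroup G) := sup_le hQP (by rwa [zpowers_le])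
  have hQT : Q ≤ T := le_sup_left
  have huT : u ∈ T := (le_sup_right : zpowers u ≤ Q ⊔ zpowers u) (mem_zpowers u)
  let _ : Fintype (Quotient (orbitRel T (G ⧸ H))) := Fintype.ofFinite _
  let _ : ∀ ω : Quotient (orbitRel T (G ⧸ H)), Fintype (orbit T ω.out) := fun ω => Fintype.ofFinite _
  have hdec : ∏ y : G ⧸ H, hext H lam (y.out⁻¹ * u * y.out) =
      ∏ ω : Quotient (orbitRel T (G ⧸ H)), ∏ y : orbit T ω.out,
        hext H lam ((y : G ⧸ H).out⁻¹ * u * (y : G ⧸ H).out) := by
    rw [Fintype.prod_equiv (selfEquivSigmaOrbits T (G ⧸ H)).symm.symm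
      (fun y : G ⧸ H => hext H lam (y.out⁻¹ * u * y.out))
      (fun s => hext H lam (((s.2 : G ⧸ H)).out⁻¹ * u * (s.2 : G ⧸ H).out)) (fun y => rfl)]
    rw [Fintype.prod_sigma]
  rw [hdec] at hV
  -- the base point
  have hbase : ∀ y : G ⧸ H, (∀ q : T, (q : G) ∈ Q → q • y = y) → y = ((1 : G) : G ⧸ H) := by
    intro y hy
    have h1 : y.out ∈ H := by
      apply hQH
      intro x hx
      have h2 := hy ⟨x, hQT hx⟩ hx
      change x • y = y at h2
      conv_lhs at h2 => rw [← QuotientGroup.out_eq' y]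
      conv_rhs at h2 => rw [← QuotientGroup.out_eq' y]
      rw [MulAction.Quotient.smul_mk, QuotientGroup.eq, smul_eq_mul, ← inv_mem_iff] at h2
      have e : ((x * y.out)⁻¹ * y.out)⁻¹ = y.out⁻¹ * x * y.out := by group
      rwa [e] at h2
    rw [← QuotientGroup.out_eq' y, QuotientGroup.eq, mul_one]
    exact inv_mem h1
  have hbfix : ∀ t : T, t • ((1 : G) : G ⧸ H) = ((1 : G) : G ⧸ H) := by
    intro t
    change ((t : G) * 1 : G) = ((1 : G) : G ⧸ H)
    rw [QuotientGroup.eq, mul_one, mul_one]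
    exact inv_mem (hPH (hTP t.2))
  rw [Fintype.prod_eq_single (Quotient.mk'' ((1 : G) : G ⧸ H))] at hV
  · -- the base orbit
    set ω₀ : Quotient (orbitRel T (G ⧸ H)) := Quotient.mk'' ((1 : G) : G ⧸ H) with hω₀
    have hout : ω₀.out = ((1 : G) : G ⧸ H) := by
      have h1 : (Quotient.mk'' ω₀.out : Quotient (orbitRel T (G ⧸ H))) = Quotient.mk'' ((1 : G) : G ⧸ H) :=
        Quotient.out_eq' _
      rw [Quotient.eq''] at h1
      obtain ⟨t, ht⟩ := h1
      rw [← ht]
      exact hbfix t
    have hall : ∀ y : orbit T ω₀.out, (y : G ⧸ H) = ((1 : G) : G ⧸ H) := by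
      rintro ⟨_, ⟨t, rfl⟩⟩
      change t • ω₀.out = _
      rw [hout]; exact hbfix t
    have hs : ∀ y : orbit T ω₀.out, y = ⟨ω₀.out, mem_orbit_self _⟩ := fun y =>
      Subtype.ext ((hall y).trans hout.symm)
    rw [Fintype.prod_eq_single (⟨ω₀.out, mem_orbit_self _⟩ : orbit T ω₀.out)
      (fun y hy => absurd (hs y) hy)] at hV
    rw [← hV]
    have := hext_conj_eq lam u (x := (1 : G)) (y := ω₀.out.out) (by
      rw [QuotientGroup.out_eq']
      exact hout.symm)
    simpa using this
  · -- the other orbits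
    intro ω hω
    set y₀ : G ⧸ H := ω.out with hy₀
    have hy1 : y₀ ≠ ((1 : G) : G ⧸ H) := by
      intro hc
      apply hω
      rw [← hc, hy₀]
      exact (Quotient.out_eq' ω).symm
    set R := stabilizer T y₀ with hR
    let _ : Fintype (T ⧸ R) := Fintype.ofFinite _
    have hRmem : ∀ t : T, t ∈ R ↔ y₀.out⁻¹ * (t : G) * y₀.out ∈ H := by
      intro t
      rw [hR, mem_stabilizer_iff]
      change (t : G) • y₀ = y₀ ↔ _
      conv_lhs => rw [← QuotientGroup.out_eq' y₀]
      rw [MulAction.Quotient.smul_mk, QuotientGroup.eq, smul_eq_mul, ← inv_mem_iff]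
      have e : (((t : G) * y₀.out)⁻¹ * y₀.out)⁻¹ = y₀.out⁻¹ * t * y₀.out := by group
      rw [e]
    let φ : R →* A :=
      { toFun := fun r => lam ⟨y₀.out⁻¹ * ((r : T) : G) * y₀.out, (hRmem r).1 r.2⟩
        map_one' := by
          rw [← map_one lam]
          congr 1
          apply Subtype.ext
          change y₀.out⁻¹ * 1 * y₀.out = 1
          group
        map_mul' := by
          intro a b
          rw [← map_mul]
          congr 1
          apply Subtype.ext
          change y₀.out⁻¹ * (((a : T) : G) * ((b : T) : G)) * y₀.out =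
            (y₀.out⁻¹ * ((a : T) : G) * y₀.out) * (y₀.out⁻¹ * ((b : T) : G) * y₀.out)
          group }
    have hφ : ∀ t : T, hext R φ t = hext H lam (y₀.out⁻¹ * (t : G) * y₀.out) := by
      intro t
      by_cases ht : t ∈ R
      · rw [hext_of_mem φ ht, hext_of_mem lam ((hRmem t).1 ht)]
        rfl
      · rw [hext_of_notMem φ ht, hext_of_notMem lam (fun hc => ht ((hRmem t).2 hc))]
    have hTp : IsPGroup p T := P.2.to_le hTP
    have key := prod_quot_eq_one (p := p) hTp hA R φ ⟨u, huT⟩ (Q.subgroupOf T) (by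
        rw [eq_top_iff]
        rintro ⟨t, ht⟩ -
        have h1 : ((Q.subgroupOf T) ⊔ zpowers (⟨u, huT⟩ : T)).map T.subtype = T := by
          rw [Subgroup.map_sup, Subgroup.map_subgroupOf_eq_of_le hQT, MonoidHom.map_zpowers]
          rfl
        have h2 : t ∈ ((Q.subgroupOf T) ⊔ zpowers (⟨u, huT⟩ : T)).map T.subtype := by
          rw [h1]; exact ht
        obtain ⟨s, hs, hst⟩ := h2
        have e : s = ⟨t, ht⟩ := Subtype.ext hst
        rwa [← e])
      (by
        intro hc
        apply hy1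
        apply hbase
        intro q hq
        exact hc hq)
      (by
        intro z hz
        have h1 := h u huP z hz
        have h2 : ∀ k : ℕ, ∀ w : T,
            (((fun y : T => y⁻¹ * z⁻¹ * y * z)^[k] w : T) : G) =
            (fun y : G => y⁻¹ * (z : G)⁻¹ * y * z)^[k] (w : G) := by
          intro k
          induction k with
          | zero => intro w; rfl
          | succ k ihk =>
            intro w
            rw [Function.iterate_succ_apply, Function.iterate_succ_apply, ihk]
            rfl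
        apply Subtype.ext
        rw [h2]
        exact h1)
      (by
        intro x m hm hmd
        rw [hφ]
        have e : y₀.out⁻¹ * ((x⁻¹ * (⟨u, huT⟩ : T) ^ m * x : T) : G) * y₀.out =
            ((x : G) * y₀.out)⁻¹ * u ^ m * ((x : G) * y₀.out) := by
          change y₀.out⁻¹ * ((x : G)⁻¹ * u ^ m * (x : G)) * y₀.out = _
          group
        rw [e]
        apply hpow _ m hm
        have e3 : orderOf (⟨u, huT⟩ : T) = orderOf u :=
          (orderOf_injective T.subtype T.subtype_injective _).symm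
        rwa [e3] at hmd)
    rw [← key]
    apply Fintype.prod_equiv (orbitEquivQuotientStabilizer T y₀)
    intro y
    obtain ⟨t, rfl⟩ := (orbitEquivQuotientStabilizer T y₀).symm.surjective y
    rw [Equiv.apply_symm_apply]
    rw [hφ]
    have e : y₀.out⁻¹ * ((t.out⁻¹ * (⟨u, huT⟩ : T) * t.out : T) : G) * y₀.out =
        (((t.out : T) : G) * y₀.out)⁻¹ * u * (((t.out : T) : G) * y₀.out) := by
      change y₀.out⁻¹ * (((t.out : T) : G)⁻¹ * u * ((t.out : T) : G)) * y₀.out = _
      group
    rw [e]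
    apply hext_conj_eq
    rw [QuotientGroup.out_eq']
    have h1 : (((orbitEquivQuotientStabilizer T y₀).symm t : orbit T y₀) : G ⧸ H) =
        (t.out : T) • y₀ := by
      have h2 := orbitEquivQuotientStabilizer_symm_apply (G := T) y₀ t.out
      have h3 : (((t.out : T) : T ⧸ stabilizer T y₀)) = t := QuotientGroup.out_eq' t
      rw [h3] at h2
      exact h2
    rw [h1]
    have h4 : ∀ g : G, g • y₀ = ((g * y₀.out : G) : G ⧸ H) := by
      intro g
      conv_lhs => rw [← QuotientGroup.out_eq' y₀]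
      rfl
    exact h4 _

/-- Let `P` be a Sylow `p`-subgroup of the finite group `G`, `Q` a subgroup of `P` weakly closed in `P` with respect to `G`, and `H` the normalizer of `Q`. Suppose that for all `u ∈ P` and `z ∈ Q` the iterated commutator `[u, z, …, z]` with `p - 1` entries `z` is trivial, where `[x, z] = x⁻¹z⁻¹xz` and `[x, z, z] = [[x, z], z]`. Then `O^p(H) = O^p(G) ∩ H`, where `O^p` denotes the subgroup generated by the elements of order prime to `p`; so the largest `p`-factor groups of `G` and of `H` are isomorphic. -/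
theorem result {G : Type*} [Group G] [Finite G] {p : ℕ} [Fact p.Prime] (P : Sylow p G) (Q : Subgroup G) (hQ : Cfsg.IsWeaklyClosed Q (P : Subgroup G)) (h : ∀ u ∈ (P : Subgroup G), ∀ z ∈ Q, (fun y : G => y⁻¹ * z⁻¹ * y * z)^[p - 1] u = 1) : Cfsg.pResidualOf p (Subgroup.normalizer (Q : Set G)) = Cfsg.pResidual p G ⊓ Subgroup.normalizer (Q : Set G) := by
  classical
  have hp : p.Prime := Fact.out
  obtain ⟨hQP, hQw⟩ := hQ
  have hmem : ∀ g : G, Q.map (MulAut.conj g).toMonoidHom = Q → g ∈ normalizer (Q : Set G) := by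
    intro g hg
    rw [mem_normalizer_iff]
    intro x
    constructor
    · intro hx
      have : (MulAut.conj g).toMonoidHom x ∈ Q.map (MulAut.conj g).toMonoidHom := ⟨x, hx, rfl⟩
      rw [hg] at this
      exact this
    · intro hx
      have h1 : g * x * g⁻¹ ∈ Q.map (MulAut.conj g).toMonoidHom := by rw [hg]; exact hx
      obtain ⟨y, hy, hyx⟩ := h1
      have h2 : g * y * g⁻¹ = g * x * g⁻¹ := hyx
      have h3 : y = x := by
        have := mul_right_cancel h2
        exact mul_left_cancel this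
      rwa [← h3]
  have hPH : (P : Subgroup G) ≤ normalizer (Q : Set G) := by
    intro x hx
    apply hmem
    apply hQw
    rintro _ ⟨y, hy, rfl⟩
    exact mul_mem (mul_mem hx (hQP hy)) (inv_mem hx)
  set H := normalizer (Q : Set G) with hH
  have hQH : ∀ g : G, (∀ x ∈ Q, g⁻¹ * x * g ∈ H) → g ∈ H := by
    intro g hg
    let P' : Sylow p H := P.subtype hPH
    have h1 : Q.map (MulAut.conj g⁻¹).toMonoidHom ≤ H := by
      rintro _ ⟨x, hx, rfl⟩
      have := hg x hx
      simpa [MulAut.conj_apply] using this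
    have h2 : IsPGroup p ((Q.map (MulAut.conj g⁻¹).toMonoidHom).subgroupOf H) := by
      have h3 : IsPGroup p (Q.map (MulAut.conj g⁻¹).toMonoidHom) := (P.2.to_le hQP).map _
      exact h3.comap_of_injective H.subtype H.subtype_injective
    obtain ⟨P'', hP''⟩ := h2.exists_le_sylow
    obtain ⟨k, hk⟩ := MulAction.exists_smul_eq H P'' P'
    have h4 : ((k : G) * g⁻¹) ∈ H := by
      apply hmem
      apply hQw
      rintro _ ⟨x, hx, rfl⟩
      have h5 : (⟨g⁻¹ * x * g, hg x hx⟩ : H) ∈ (P'' : Subgroup H) := by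
        apply hP''
        change _ ∈ Q.map (MulAut.conj g⁻¹).toMonoidHom
        exact ⟨x, hx, by simp [MulAut.conj_apply]⟩
      have h6 : k * ⟨g⁻¹ * x * g, hg x hx⟩ * k⁻¹ ∈ (P' : Subgroup H) := by
        rw [← hk, Sylow.coe_subgroup_smul]
        exact ⟨_, h5, rfl⟩
      have h7 : (k : G) * (g⁻¹ * x * g) * (k : G)⁻¹ ∈ (P : Subgroup G) := h6
      have e : (MulAut.conj ((k : G) * g⁻¹)).toMonoidHom x = (k : G) * (g⁻¹ * x * g) * (k : G)⁻¹ := by
        change ((k : G) * g⁻¹) * x * ((k : G) * g⁻¹)⁻¹ = _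
        group
      rw [e]; exact h7
    have h8 := mul_mem (inv_mem h4) k.2
    have e : ((k : G) * g⁻¹)⁻¹ * (k : G) = g := by group
    rwa [e] at h8
  have hHi : H.index.Coprime p := by
    have h1 : (P : Subgroup G).index.Coprime p := by
      have := P.not_dvd_index
      exact ((Nat.Prime.coprime_iff_not_dvd hp).2 this).symm
    exact Nat.Coprime.coprime_dvd_left (index_dvd_of_le hPH) h1
  apply pResidualOf_eq_of_forall_hom H hHi
  intro x hxK M hMn hMi
  have hcardq : Nat.card (H ⧸ M) = p := hMi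
  have hcyc : IsCyclic (H ⧸ M) := isCyclic_of_prime_card hcardq
  let inst : CommGroup (H ⧸ M) := { (inferInstance : Group (H ⧸ M)) with
    mul_comm := fun a b => by
      obtain ⟨g, hg⟩ := hcyc.exists_generator
      obtain ⟨i, rfl⟩ := mem_zpowers_iff.1 (hg a)
      obtain ⟨j, rfl⟩ := mem_zpowers_iff.1 (hg b)
      exact (Commute.refl g).zpow_zpow i j }
  have hA : ∀ a : H ⧸ M, a ^ p = 1 := by
    intro a
    rw [← hcardq]
    exact pow_card_eq_one'
  obtain ⟨a, b, hab, ⟨k, hk⟩, hb⟩ := exists_pow_decomp p x (orderOf_pos _).ne'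
  rw [hab]
  apply mul_mem
  · have h1 := main_mem P Q H hQP hPH hQH h (A := H ⧸ M) hA (QuotientGroup.mk' M)
      (orderOf ((x ^ a : H) : G)) ((x ^ a : H) : G) rfl
      ⟨k, by rw [← hk]; exact orderOf_injective H.subtype H.subtype_injective (x ^ a)⟩
      (by
        have := pow_mem hxK a
        exact this)
    rw [hext_of_mem _ (x ^ a).2] at h1
    exact (QuotientGroup.eq_one_iff _).1 h1
  · have h1 : orderOf (QuotientGroup.mk' M (x ^ b)) ∣ p := by
      rw [← hcardq]; exact orderOf_dvd_natCard _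
    have h2 : orderOf (QuotientGroup.mk' M (x ^ b)) ∣ orderOf (x ^ b) := orderOf_map_dvd _ _
    have h3 : orderOf (QuotientGroup.mk' M (x ^ b)) = 1 :=
      Nat.eq_one_of_dvd_coprimes hb h2 h1
    rw [orderOf_eq_one_iff] at h3
    exact (QuotientGroup.eq_one_iff _).1 h3

end Cfsg.Agent.S4215
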