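import Cfsg.Statements.S4216
import Mathlib

set_option autoImplicit false
open Cfsg

namespace Cfsg.Agent.S4216

open Subgroup MulAction
open scoped commutatorElement

section

variable {G : Type*} [Group G] [Finite G] {p : ℕ} [Fact p.Prime]

/-- extend a homomorphism on `P` by `1`. -/
noncomputable def ext1 {A : Type*} [CommGroup A] (P : Subgroup G) (φ : P →* A) (y : G) : A :=
  haveI := Classical.dec (y ∈ P)
  if h : y ∈ P then φ ⟨y, h⟩ else 1

theorem ext1_of_mem {A : Type*} [CommGroup A] (P : Subgroup G) (φ : P →* A) {y : G} (h : y ∈ P) :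
    ext1 P φ y = φ ⟨y, h⟩ := by
  simp [ext1, h]

theorem ext1_mul {A : Type*} [CommGroup A] (P : Subgroup G) (φ : P →* A) {y z : G} (h : y ∈ P)
    (hz : z ∈ P) : ext1 P φ (y * z) = ext1 P φ y * ext1 P φ z := by
  rw [ext1_of_mem P φ h, ext1_of_mem P φ hz, ext1_of_mem P φ (P.mul_mem h hz), ← map_mul]
  rfl

theorem ext1_pow {A : Type*} [CommGroup A] (P : Subgroup G) (φ : P →* A) {y : G} (h : y ∈ P) (n : ℕ) :
    ext1 P φ (y ^ n) = ext1 P φ y ^ n := by
  rw [ext1_of_mem P φ h, ext1_of_mem P φ (P.pow_mem h n), ← map_pow]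
  rfl

theorem ext1_conj {A : Type*} [CommGroup A] (P : Subgroup G) (φ : P →* A) {y b : G} (h : y ∈ P)
    (hb : b ∈ P) : ext1 P φ (b⁻¹ * y * b) = ext1 P φ y := by
  rw [ext1_mul P φ (P.mul_mem (P.inv_mem hb) h) hb, ext1_mul P φ (P.inv_mem hb) h,
    mul_comm (ext1 P φ b⁻¹), mul_assoc, ← ext1_mul P φ (P.inv_mem hb) hb, inv_mul_cancel,
    ext1_of_mem P φ P.one_mem]
  have : φ ⟨1, P.one_mem⟩ = 1 := map_one φ
  rw [this, mul_one]

theorem smul_eq_iff_mem (P : Subgroup G) (q : G ⧸ P) (u : G) :
    u • q = q ↔ q.out⁻¹ * u * q.out ∈ P := by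
  conv_lhs => rw [← QuotientGroup.out_eq' q]
  rw [MulAction.Quotient.smul_mk, smul_eq_mul, eq_comm, QuotientGroup.eq, mul_assoc]

/-- the key computation. -/
theorem transfer_eq_pow {A : Type*} [CommGroup A] (P : Sylow p G) (D : Subgroup G)
    (φ : (P : Subgroup G) →* A) (hker : ∀ y : (P : Subgroup G), (y : G) ∈ D → φ y = 1)
    (hN : (P : Subgroup G) ⊓ ⁅normalizer ((P : Subgroup G) : Set G),
      normalizer ((P : Subgroup G) : Set G)⁆ ≤ D)
    (hP' : ∀ z x : G, z ∈ (P : Subgroup G) → x * z * x⁻¹ ∈ ⁅(P : Subgroup G), (P : Subgroup G)⁆ → z ∈ D)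
    (u : G) (hu : u ∈ (P : Subgroup G)) (hu1 : u ≠ 1)
    (hmin : ∀ x : G, ∀ k : ℕ, p ∣ k → x⁻¹ * u ^ k * x ∈ (P : Subgroup G) →
      x⁻¹ * u ^ k * x ∈ D) :
    MonoidHom.transfer φ u = φ ⟨u, hu⟩ ^ Nat.card (fixedPoints (P : Subgroup G) (G ⧸ (P : Subgroup G))) := by
  classical
  haveI : Fintype (G ⧸ (P : Subgroup G)) := Fintype.ofFinite _
  haveI : Fintype (Quotient (orbitRel (zpowers u) (G ⧸ (P : Subgroup G)))) := Fintype.ofFinite _
  haveI : Fintype (Quotient (orbitRel (P : Subgroup G) (G ⧸ (P : Subgroup G)))) := Fintype.ofFinite _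
  rw [MonoidHom.transfer_eq_prod_quotient_orbitRel_zpowers_quot]
  set F : Finset (G ⧸ (P : Subgroup G)) := Finset.univ.filter (fun q => u • q = q) with hF
  set t : G ⧸ (P : Subgroup G) → A := fun q => ext1 (P : Subgroup G) φ (q.out⁻¹ * u * q.out) with ht
  -- the order of u
  obtain ⟨e, he⟩ := (IsPGroup.iff_orderOf.mp P.isPGroup') ⟨u, hu⟩
  rw [Subgroup.orderOf_mk] at he
  have hzfix : ∀ q : G ⧸ (P : Subgroup G), u • q = q → ∀ g ∈ zpowers u, g • q = q := by
    intro q hq g hg
    have : zpowers u ≤ stabilizer G q := by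
      rw [zpowers_le]; exact hq
    exact this hg
  -- reduction to fixed points
  have step1 : (∏ q : Quotient (orbitRel (zpowers u) (G ⧸ (P : Subgroup G))),
        φ ⟨q.out.out⁻¹ * u ^ Function.minimalPeriod (u • ·) q.out * q.out.out,
            QuotientGroup.out_conj_pow_minimalPeriod_mem (P : Subgroup G) u q.out⟩) =
      ∏ q ∈ F, t q := by
    have hout : ∀ q : G ⧸ (P : Subgroup G), u • q = q →
        (Quotient.mk'' q : Quotient (orbitRel (zpowers u) (G ⧸ (P : Subgroup G)))).out = q := by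
      intro q hq
      have h1 : (Quotient.mk'' q : Quotient (orbitRel (zpowers u) (G ⧸ (P : Subgroup G)))).out ∈
          orbit (zpowers u) q := Quotient.mk_out (s := orbitRel (zpowers u) (G ⧸ (P : Subgroup G))) q
      obtain ⟨g, hg⟩ := h1
      rw [← hg]
      exact hzfix q hq g g.2
    have hterm : ∀ q : Quotient (orbitRel (zpowers u) (G ⧸ (P : Subgroup G))),
        φ ⟨q.out.out⁻¹ * u ^ Function.minimalPeriod (u • ·) q.out * q.out.out,
            QuotientGroup.out_conj_pow_minimalPeriod_mem (P : Subgroup G) u q.out⟩ =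
        ext1 (P : Subgroup G) φ
          (q.out.out⁻¹ * u ^ Function.minimalPeriod (u • ·) q.out * q.out.out) := by
      intro q
      rw [ext1_of_mem]
    rw [Finset.prod_congr rfl (fun q _ => hterm q)]
    have hone : ∀ q : Quotient (orbitRel (zpowers u) (G ⧸ (P : Subgroup G))),
        u • q.out ≠ q.out → ext1 (P : Subgroup G) φ
          (q.out.out⁻¹ * u ^ Function.minimalPeriod (u • ·) q.out * q.out.out) = 1 := by
      intro q hq
      have hmem := QuotientGroup.out_conj_pow_minimalPeriod_mem (P : Subgroup G) u q.out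
      have h1 : Function.minimalPeriod (u • ·) q.out ∣ p ^ e := by
        rw [← he]
        apply Function.IsPeriodicPt.minimalPeriod_dvd
        change (u • ·)^[orderOf u] q.out = q.out
        rw [smul_iterate, pow_orderOf_eq_one]
        exact one_smul G _
      have h2 : Function.minimalPeriod (u • ·) q.out ≠ 1 := by
        rw [Ne, Function.minimalPeriod_eq_one_iff_isFixedPt]
        exact hq
      obtain ⟨j, _, hj⟩ := (Nat.dvd_prime_pow Fact.out).mp h1
      have h3 : p ∣ Function.minimalPeriod (u • ·) q.out := by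
        rw [hj]
        apply dvd_pow_self
        rintro rfl
        rw [pow_zero] at hj
        exact h2 hj
      have h4 := hmin q.out.out _ h3 hmem
      rw [ext1_of_mem _ _ hmem]
      exact hker _ h4
    rw [← Finset.prod_filter_of_ne (p := fun q : Quotient (orbitRel (zpowers u) (G ⧸ (P : Subgroup G))) =>
      u • q.out = q.out) (fun q _ hq => by
        by_contra hne
        exact hq (hone q hne))]
    refine Finset.prod_nbij' (fun q => q.out) (fun q => Quotient.mk'' q) ?_ ?_ ?_ ?_ ?_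
    · intro q hq
      rw [Finset.mem_filter] at hq
      rw [hF, Finset.mem_filter]
      exact ⟨Finset.mem_univ _, hq.2⟩
    · intro q hq
      rw [hF, Finset.mem_filter] at hq
      rw [Finset.mem_filter]
      refine ⟨Finset.mem_univ _, ?_⟩
      rw [hout q hq.2]
      exact hq.2
    · intro q hq
      exact Quotient.out_eq' q
    · intro q hq
      rw [hF, Finset.mem_filter] at hq
      exact hout q hq.2
    · intro q hq
      rw [Finset.mem_filter] at hq
      have h1 : Function.minimalPeriod (u • ·) q.out = 1 := by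
        rw [Function.minimalPeriod_eq_one_iff_isFixedPt]
        exact hq.2
      simp only [h1, pow_one, ht]
  rw [step1]
  set Fx : Finset (G ⧸ (P : Subgroup G)) :=
    Finset.univ.filter (fun q => q ∈ fixedPoints (P : Subgroup G) (G ⧸ (P : Subgroup G))) with hFx
  have hFxF : Fx ⊆ F := by
    intro q hq
    rw [hFx, Finset.mem_filter] at hq
    rw [hF, Finset.mem_filter]
    exact ⟨Finset.mem_univ _, hq.2 ⟨u, hu⟩⟩
  have step2 : ∏ q ∈ F \ Fx, t q = 1 := by
    rw [← Finset.prod_fiberwise (F \ Fx)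
      (fun q => (Quotient.mk'' q : Quotient (orbitRel (P : Subgroup G) (G ⧸ (P : Subgroup G)))))]
    apply Finset.prod_eq_one
    intro O _
    by_cases hempty : ((F \ Fx).filter (fun q =>
      (Quotient.mk'' q : Quotient (orbitRel (P : Subgroup G) (G ⧸ (P : Subgroup G)))) = O)) = ∅
    · rw [hempty, Finset.prod_empty]
    obtain ⟨q₁, hq₁⟩ := Finset.nonempty_iff_ne_empty.mpr hempty
    have hq₁' := hq₁
    rw [Finset.mem_filter, Finset.mem_sdiff] at hq₁'
    obtain ⟨⟨hq₁F, hq₁Fx⟩, hq₁O⟩ := hq₁'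
    have hq₁u : u • q₁ = q₁ := by rw [hF, Finset.mem_filter] at hq₁F; exact hq₁F.2
    have hq₁P : q₁ ∉ fixedPoints (P : Subgroup G) (G ⧸ (P : Subgroup G)) := by
      intro h; apply hq₁Fx; rw [hFx, Finset.mem_filter]; exact ⟨Finset.mem_univ _, h⟩
    have hmemfib : ∀ q, q ∈ (F \ Fx).filter (fun q =>
        (Quotient.mk'' q : Quotient (orbitRel (P : Subgroup G) (G ⧸ (P : Subgroup G)))) = O) ↔
        u • q = q ∧ q ∈ orbit (P : Subgroup G) q₁ := by
      intro q
      rw [Finset.mem_filter, Finset.mem_sdiff, hF, hFx, Finset.mem_filter, Finset.mem_filter, ← hq₁O,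
        Quotient.eq'', orbitRel_apply]
      constructor
      · rintro ⟨⟨h1, _⟩, h3⟩
        exact ⟨h1.2, h3⟩
      · rintro ⟨h1, h2⟩
        refine ⟨⟨⟨Finset.mem_univ _, h1⟩, ?_⟩, h2⟩
        rintro ⟨_, h3⟩
        apply hq₁P
        have h4 : q₁ ∈ orbit (P : Subgroup G) q := (orbit_eq_iff.mpr h2) ▸ mem_orbit_self q₁
        obtain ⟨a, rfl⟩ := h4
        have h5 : a • q = q := h3 a
        change a • q ∈ _
        rw [h5]; exact h3
    have hconst : ∀ q ∈ (F \ Fx).filter (fun q =>
        (Quotient.mk'' q : Quotient (orbitRel (P : Subgroup G) (G ⧸ (P : Subgroup G)))) = O),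
        t q = t q₁ := by
      intro q hq
      rw [hmemfib] at hq
      obtain ⟨hqu, a, ha⟩ := hq
      have ha' : (a : G) • q₁ = q := ha
      -- q.out = a * q₁.out * b
      set x := q₁.out with hx
      have h1 : (QuotientGroup.mk ((a : G) * x) : G ⧸ (P : Subgroup G)) = QuotientGroup.mk q.out := by
        rw [QuotientGroup.out_eq' q, ← ha']
        conv_rhs => rw [← QuotientGroup.out_eq' q₁]
        rfl
      rw [QuotientGroup.eq] at h1
      obtain ⟨b, hb, hqb⟩ : ∃ b, b ∈ (P : Subgroup G) ∧ q.out = a * x * b :=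
        ⟨_, h1, by group⟩
      have hxu : x⁻¹ * u * x ∈ (P : Subgroup G) := (smul_eq_iff_mem _ _ _).mp hq₁u
      have hqu' : q.out⁻¹ * u * q.out ∈ (P : Subgroup G) := (smul_eq_iff_mem _ _ _).mp hqu
      have hy : x⁻¹ * (a : G)⁻¹ * u * a * x ∈ (P : Subgroup G) := by
        have h2 := (P : Subgroup G).mul_mem ((P : Subgroup G).mul_mem hb hqu')
          ((P : Subgroup G).inv_mem hb)
        rw [hqb] at h2
        convert h2 using 1
        group
      have h3 : t q = ext1 (P : Subgroup G) φ (x⁻¹ * (a : G)⁻¹ * u * a * x) := by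
        rw [← ext1_conj (P : Subgroup G) φ hy hb]
        simp only [ht]
        congr 1
        rw [hqb]; group
      have h4 : x⁻¹ * (u⁻¹ * (a : G)⁻¹ * u * a) * x ∈ (P : Subgroup G) := by
        have := (P : Subgroup G).mul_mem ((P : Subgroup G).inv_mem hxu) hy
        convert this using 1
        group
      have h5 : x⁻¹ * (u⁻¹ * (a : G)⁻¹ * u * a) * x ∈ D := by
        apply hP' _ x h4
        have h6 : x * (x⁻¹ * (u⁻¹ * (a : G)⁻¹ * u * a) * x) * x⁻¹ = ⁅u⁻¹, (a : G)⁻¹⁆ := by
          rw [commutatorElement_def]; group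
        rw [h6]
        exact Subgroup.commutator_mem_commutator ((P : Subgroup G).inv_mem hu)
          ((P : Subgroup G).inv_mem a.2)
      have h7 : x⁻¹ * (a : G)⁻¹ * u * a * x = (x⁻¹ * u * x) * (x⁻¹ * (u⁻¹ * (a : G)⁻¹ * u * a) * x) := by
        group
      rw [h3, h7, ext1_mul _ _ hxu h4, ext1_of_mem _ _ h4]
      have h8 : φ ⟨_, h4⟩ = 1 := hker _ h5
      rw [h8, mul_one]
    rw [Finset.prod_congr rfl hconst, Finset.prod_const]
    have hcp : t q₁ ^ p = 1 := by
      have hxu : q₁.out⁻¹ * u * q₁.out ∈ (P : Subgroup G) := (smul_eq_iff_mem _ _ _).mp hq₁u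
      have h1 : (q₁.out⁻¹ * u * q₁.out) ^ p = q₁.out⁻¹ * u ^ p * q₁.out := by
        have := conj_pow (i := p) (a := q₁.out⁻¹) (b := u)
        rw [inv_inv] at this
        exact this
      simp only [ht]
      rw [← ext1_pow _ _ hxu, h1]
      have h2 : q₁.out⁻¹ * u ^ p * q₁.out ∈ (P : Subgroup G) := by
        rw [← h1]; exact (P : Subgroup G).pow_mem hxu p
      rw [ext1_of_mem _ _ h2]
      exact hker _ (hmin _ p dvd_rfl h2)
    have hdvd : p ∣ ((F \ Fx).filter (fun q =>
        (Quotient.mk'' q : Quotient (orbitRel (P : Subgroup G) (G ⧸ (P : Subgroup G)))) = O)).card := by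
      set O₁ := orbit (P : Subgroup G) q₁ with hO₁
      set u' : (P : Subgroup G) := ⟨u, hu⟩ with hu'
      have hpU : IsPGroup p (zpowers u') := P.isPGroup'.to_subgroup _
      have h1 := hpU.card_modEq_card_fixedPoints (α := O₁)
      have h2 : Nat.card (fixedPoints (zpowers u') O₁) = ((F \ Fx).filter (fun q =>
        (Quotient.mk'' q : Quotient (orbitRel (P : Subgroup G) (G ⧸ (P : Subgroup G)))) = O)).card := by
        rw [← Fintype.card_coe, ← Nat.card_eq_fintype_card]
        refine Nat.card_congr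
          { toFun := fun x => ⟨x.1.1, (hmemfib _).mpr ⟨?_, x.1.2⟩⟩
            invFun := fun y => ⟨⟨y.1, ((hmemfib _).mp y.2).2⟩, ?_⟩
            left_inv := fun x => rfl
            right_inv := fun y => rfl }
        · have := x.2 ⟨u', mem_zpowers u'⟩
          exact congrArg Subtype.val this
        · rintro ⟨g, hg⟩
          apply Subtype.ext
          have h5 : (g : G) ∈ zpowers u := by
            obtain ⟨k, rfl⟩ := hg
            exact ⟨k, rfl⟩
          exact hzfix _ ((hmemfib _).mp y.2).1 _ h5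
      rw [h2] at h1
      have h3 : p ∣ Nat.card O₁ := by
        obtain ⟨n, hn⟩ := P.isPGroup'.card_orbit q₁
        rw [hO₁, hn]
        apply dvd_pow_self
        rintro rfl
        rw [pow_zero] at hn
        apply hq₁P
        rw [← subsingleton_orbit_iff_mem_fixedPoints, ← Set.subsingleton_coe]
        exact (Nat.card_eq_one_iff_unique.mp hn).1
      exact (Nat.modEq_zero_iff_dvd).mp (h1.symm.trans ((Nat.modEq_zero_iff_dvd).mpr h3))
    obtain ⟨m, hm⟩ := hdvd
    rw [hm, pow_mul, hcp, one_pow]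
  have step3 : ∀ q ∈ Fx, t q = φ ⟨u, hu⟩ := by
    intro q hq
    rw [hFx, Finset.mem_filter] at hq
    set x := q.out with hx
    have h1 : ∀ a ∈ (P : Subgroup G), x⁻¹ * a * x ∈ (P : Subgroup G) := by
      intro a ha
      exact (smul_eq_iff_mem _ _ _).mp (hq.2 ⟨a, ha⟩)
    have h2 : x⁻¹ ∈ normalizer ((P : Subgroup G) : Set G) := by
      apply mem_normalizer_fintype
      intro n hn
      rw [inv_inv]
      exact h1 n hn
    have h3 : u⁻¹ * (x⁻¹ * u * x) ∈ (P : Subgroup G) :=
      (P : Subgroup G).mul_mem ((P : Subgroup G).inv_mem hu) (h1 u hu)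
    have h4 : u⁻¹ * (x⁻¹ * u * x) ∈ D := by
      apply hN
      refine ⟨h3, ?_⟩
      have h6 : u⁻¹ * (x⁻¹ * u * x) = ⁅u⁻¹, x⁻¹⁆ := by
        rw [commutatorElement_def]; group
      rw [h6]
      exact Subgroup.commutator_mem_commutator (Subgroup.le_normalizer ((P : Subgroup G).inv_mem hu)) h2
    have h5 : x⁻¹ * u * x = u * (u⁻¹ * (x⁻¹ * u * x)) := by group
    simp only [ht]
    rw [← hx, h5, ext1_mul _ _ hu h3, ext1_of_mem _ _ h3, ext1_of_mem _ _ hu]
    have h8 : φ ⟨_, h3⟩ = 1 := hker _ h4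
    rw [h8, mul_one]
  rw [← Finset.sdiff_union_of_subset hFxF, Finset.prod_union Finset.sdiff_disjoint, step2, one_mul,
    Finset.prod_congr rfl step3, Finset.prod_const]
  congr 1
  rw [Nat.card_eq_fintype_card, Fintype.card_subtype]

end

/-- Grün's first Theorem: if `P` is a Sylow `p`-subgroup of the finite group `G`, then `P ∩ G'` is the subgroup generated by `P ∩ N_G(P)'` together with the subgroups `P ∩ z P' z⁻¹` for all `z ∈ G`, where `'` denotes the derived subgroup and `N_G(P)` the normalizer of `P`. -/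
theorem result {G : Type*} [Group G] [Finite G] {p : ℕ} [Fact p.Prime] (P : Sylow p G) : (P : Subgroup G) ⊓ commutator G = ((P : Subgroup G) ⊓ ⁅Subgroup.normalizer ((P : Subgroup G) : Set G), Subgroup.normalizer ((P : Subgroup G) : Set G)⁆) ⊔ ⨆ z : G, (P : Subgroup G) ⊓ (⁅(P : Subgroup G), (P : Subgroup G)⁆).map (MulAut.conj z).toMonoidHom := by
  set D := ((P : Subgroup G) ⊓ ⁅normalizer ((P : Subgroup G) : Set G),
      normalizer ((P : Subgroup G) : Set G)⁆) ⊔ ⨆ z : G, (P : Subgroup G) ⊓
      (⁅(P : Subgroup G), (P : Subgroup G)⁆).map (MulAut.conj z).toMonoidHom with hD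
  have hN : (P : Subgroup G) ⊓ ⁅normalizer ((P : Subgroup G) : Set G),
      normalizer ((P : Subgroup G) : Set G)⁆ ≤ D := le_sup_left
  have hP' : ∀ z x : G, z ∈ (P : Subgroup G) → x * z * x⁻¹ ∈ ⁅(P : Subgroup G), (P : Subgroup G)⁆ →
      z ∈ D := by
    intro z x hz hx
    have h1 : (P : Subgroup G) ⊓ (⁅(P : Subgroup G), (P : Subgroup G)⁆).map
        (MulAut.conj x⁻¹).toMonoidHom ≤ D := by
      refine le_trans ?_ le_sup_right
      exact le_iSup (fun z : G => (P : Subgroup G) ⊓ (⁅(P : Subgroup G), (P : Subgroup G)⁆).map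
        (MulAut.conj z).toMonoidHom) x⁻¹
    apply h1
    refine ⟨hz, _, hx, ?_⟩
    simp [mul_assoc]
  have hDle : D ≤ (P : Subgroup G) ⊓ commutator G := by
    refine sup_le (inf_le_inf_left _ ?_) (iSup_le fun z => inf_le_inf_left _ ?_)
    · exact Subgroup.commutator_mono le_top le_top
    · rw [map_le_iff_le_comap]
      have h1 : (commutator G).comap (MulAut.conj z).toMonoidHom = commutator G := by
        ext y
        rw [mem_comap]
        constructor
        · intro h
          have := (inferInstance : (commutator G).Normal).conj_mem _ h z⁻¹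
          simpa [mul_assoc] using this
        · intro h
          exact (inferInstance : (commutator G).Normal).conj_mem _ h z
      rw [h1]
      exact Subgroup.commutator_mono le_top le_top
  apply le_antisymm _ hDle
  -- the quotient P / D
  have hcomm : ∀ a ∈ (P : Subgroup G), ∀ b ∈ (P : Subgroup G), ⁅a, b⁆ ∈ D := by
    intro a ha b hb
    have h1 := Subgroup.commutator_mem_commutator ha hb
    have h2 : ⁅(P : Subgroup G), (P : Subgroup G)⁆ ≤ (P : Subgroup G) := Subgroup.commutator_le_self _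
    exact hP' _ 1 (h2 h1) (by simpa using h1)
  have hDn : (D.subgroupOf (P : Subgroup G)).Normal := by
    refine ⟨fun y hy x => ?_⟩
    rw [mem_subgroupOf] at hy ⊢
    have h1 : ((x * y * x⁻¹ : (P : Subgroup G)) : G) = ⁅(x : G), (y : G)⁆ * y := by
      rw [commutatorElement_def]; simp
    rw [h1]
    exact D.mul_mem (hcomm _ x.2 _ y.2) hy
  let instA : CommGroup ((P : Subgroup G) ⧸ D.subgroupOf (P : Subgroup G)) :=
    { (inferInstance : Group ((P : Subgroup G) ⧸ D.subgroupOf (P : Subgroup G))) with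
      mul_comm := by
        intro a b
        obtain ⟨a, rfl⟩ := QuotientGroup.mk'_surjective _ a
        obtain ⟨b, rfl⟩ := QuotientGroup.mk'_surjective _ b
        change (QuotientGroup.mk (a * b) : (P : Subgroup G) ⧸ D.subgroupOf (P : Subgroup G)) =
          QuotientGroup.mk (b * a)
        rw [QuotientGroup.eq, mem_subgroupOf]
        have h1 : (((a * b)⁻¹ * (b * a) : (P : Subgroup G)) : G) = ⁅(b : G)⁻¹, (a : G)⁻¹⁆ := by
          rw [commutatorElement_def]; simp [mul_assoc]
        rw [h1]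
        exact hcomm _ ((P : Subgroup G).inv_mem b.2) _ ((P : Subgroup G).inv_mem a.2) }
  let φ : (P : Subgroup G) →* ((P : Subgroup G) ⧸ D.subgroupOf (P : Subgroup G)) :=
    { toFun := fun y => QuotientGroup.mk y
      map_one' := rfl
      map_mul' := fun a b => rfl }
  have hφ : ∀ y : (P : Subgroup G), φ y = 1 ↔ (y : G) ∈ D := by
    intro y
    exact QuotientGroup.eq_one_iff y
  have key : ∀ n : ℕ, ∀ u ∈ (P : Subgroup G) ⊓ commutator G, orderOf u = n → u ∈ D := by
    intro n
    induction n using Nat.strong_induction_on with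
    | _ n ih =>
    intro u hu hn
    by_contra huD
    have hu1 : u ≠ 1 := by rintro rfl; exact huD D.one_mem
    have hmin : ∀ x : G, ∀ k : ℕ, p ∣ k → x⁻¹ * u ^ k * x ∈ (P : Subgroup G) →
        x⁻¹ * u ^ k * x ∈ D := by
      intro x k hk hx
      have h1 : orderOf (x⁻¹ * u ^ k * x) = orderOf (u ^ k) := by
        have := orderOf_injective (MulAut.conj x⁻¹).toMonoidHom (MulAut.conj x⁻¹).injective (u ^ k)
        rw [← this]; simp
      obtain ⟨e, he⟩ := (IsPGroup.iff_orderOf.mp P.isPGroup') ⟨u, hu.1⟩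
      rw [Subgroup.orderOf_mk] at he
      have he0 : e ≠ 0 := by
        rintro rfl
        rw [pow_zero, orderOf_eq_one_iff] at he
        exact hu1 he
      have h2 : orderOf (u ^ k) < n := by
        rw [orderOf_pow, ← hn]
        apply Nat.div_lt_self (orderOf_pos u)
        have h3 : p ∣ Nat.gcd (orderOf u) k := Nat.dvd_gcd (he ▸ dvd_pow_self p he0) hk
        exact lt_of_lt_of_le (Fact.out : p.Prime).one_lt
          (Nat.le_of_dvd (Nat.gcd_pos_of_pos_left _ (orderOf_pos u)) h3)
      refine ih _ h2 _ ⟨hx, ?_⟩ h1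
      have h4 := (inferInstance : (commutator G).Normal).conj_mem _ ((commutator G).pow_mem hu.2 k) x⁻¹
      rwa [inv_inv] at h4
    have h1 := transfer_eq_pow P D φ (fun y hy => (hφ y).mpr hy) hN hP' u hu.1 hu1 hmin
    have h2 : MonoidHom.transfer φ u = 1 := by
      have := Abelianization.commutator_subset_ker (MonoidHom.transfer φ) hu.2
      exact this
    rw [h2] at h1
    have h3 := P.isPGroup'.card_modEq_card_fixedPoints (α := G ⧸ (P : Subgroup G))
    have h4 : (Nat.card (fixedPoints (P : Subgroup G) (G ⧸ (P : Subgroup G)))).Coprime p := by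
      rw [Nat.coprime_comm, Nat.Prime.coprime_iff_not_dvd Fact.out]
      intro h5
      have h6 := h3.trans ((Nat.modEq_zero_iff_dvd).mpr h5)
      exact P.not_dvd_index ((Nat.modEq_zero_iff_dvd).mp h6)
    obtain ⟨e, he⟩ := (IsPGroup.iff_orderOf.mp P.isPGroup') ⟨u, hu.1⟩
    have h5 : orderOf (φ ⟨u, hu.1⟩) ∣ p ^ e := by
      rw [← he]; exact orderOf_map_dvd φ _
    have h6 : orderOf (φ ⟨u, hu.1⟩) ∣ Nat.card (fixedPoints (P : Subgroup G) (G ⧸ (P : Subgroup G))) :=
      orderOf_dvd_of_pow_eq_one h1.symm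
    have h7 : orderOf (φ ⟨u, hu.1⟩) = 1 := Nat.eq_one_of_dvd_coprimes (Nat.Coprime.pow_right e h4) h6 h5
    exact huD ((hφ _).mp (orderOf_eq_one_iff.mp h7))
  intro u hu
  exact key _ u hu rfl

end Cfsg.Agent.S4216
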