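import Cfsg.Statements.S4217
import Mathlib
import Cfsg.Agent.Hall.Gaschutz
import Cfsg.Agent.Solv.Core

set_option autoImplicit false
open Cfsg

namespace Cfsg.Agent.S4217

open Subgroup

/-- the elements of `A` with `a ^ n = 1`, for commutative `A`. -/
def torsPow {G : Type*} [Group G] (A : Subgroup G) (hA : IsMulCommutative A) (n : ℕ) : Subgroup G where
  carrier := {x | x ∈ A ∧ x ^ n = 1}
  one_mem' := ⟨A.one_mem, one_pow n⟩
  mul_mem' := by
    rintro a b ⟨ha, ha'⟩ ⟨hb, hb'⟩
    refine ⟨A.mul_mem ha hb, ?_⟩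
    have hc : Commute a b := by
      have := hA.is_comm.comm (⟨a, ha⟩ : A) ⟨b, hb⟩
      exact congrArg Subtype.val this
    rw [hc.mul_pow, ha', hb', one_mul]
  inv_mem' := by
    rintro a ⟨ha, ha'⟩
    exact ⟨A.inv_mem ha, by rw [inv_pow, ha', inv_one]⟩

theorem mem_torsPow {G : Type*} [Group G] (A : Subgroup G) (hA : IsMulCommutative A) (n : ℕ) (x : G) :
    x ∈ torsPow A hA n ↔ x ∈ A ∧ x ^ n = 1 := Iff.rfl

theorem torsPow_normal {G : Type*} [Group G] (A : Subgroup G) (hAn : A.Normal)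
    (hA : IsMulCommutative A) (n : ℕ) : (torsPow A hA n).Normal := by
  refine ⟨fun x hx g => ⟨hAn.conj_mem x hx.1 g, ?_⟩⟩
  rw [conj_pow, hx.2]
  simp

theorem index_inf_of_coprime {G : Type*} [Group G] [Finite G] (H K : Subgroup G)
    (h : H.index.Coprime K.index) : (H ⊓ K).index = H.index * K.index := by
  apply le_antisymm (index_inf_le)
  apply Nat.le_of_dvd (Nat.pos_of_ne_zero index_ne_zero_of_finite)
  exact h.mul_dvd_of_dvd_of_dvd (index_dvd_of_le inf_le_left) (index_dvd_of_le inf_le_right)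

/-- Local hypothesis. -/
def Loc {G : Type*} [Group G] (A : Subgroup G) : Prop :=
  ∀ p : ℕ, p.Prime → ∃ U K : Subgroup G, ¬ p ∣ U.index ∧ K ⊓ A = ⊥ ∧ K ⊔ A = U

theorem Loc.map {G : Type*} [Group G] [Finite G] {A : Subgroup G} (h : Loc A) (B : Subgroup G)
    [B.Normal] (hBA : B ≤ A) : Loc (A.map (QuotientGroup.mk' B)) := by
  intro p hp
  obtain ⟨U, K, h1, h2, h3⟩ := h p hp
  refine ⟨U.map (QuotientGroup.mk' B), K.map (QuotientGroup.mk' B), ?_, ?_, ?_⟩
  · intro h4
    exact h1 (h4.trans (index_map_dvd U (QuotientGroup.mk'_surjective B)))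
  · rw [eq_bot_iff]
    rintro _ ⟨⟨k, hk, rfl⟩, ⟨a, ha, ha'⟩⟩
    have h4 : a⁻¹ * k ∈ B := by
      rw [← QuotientGroup.eq]; exact ha'
    have h5 : k ∈ A := by
      have := A.mul_mem ha (hBA h4)
      simpa using this
    have h6 : k = 1 := by
      have : k ∈ K ⊓ A := ⟨hk, h5⟩
      rw [h2] at this
      exact this
    rw [h6]; simp
  · rw [← Subgroup.map_sup, h3]

theorem lift_compl {G : Type*} [Group G] (A B : Subgroup G) [B.Normal] (hBA : B ≤ A)
    (h : ∃ K : Subgroup (G ⧸ B), K ⊓ A.map (QuotientGroup.mk' B) = ⊥ ∧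
      K ⊔ A.map (QuotientGroup.mk' B) = ⊤) : ∃ H : Subgroup G, H ⊓ A = B ∧ H ⊔ A = ⊤ := by
  obtain ⟨K, h1, h2⟩ := h
  have hA : (A.map (QuotientGroup.mk' B)).comap (QuotientGroup.mk' B) = A := by
    rw [comap_map_eq, QuotientGroup.ker_mk', sup_eq_left.mpr hBA]
  refine ⟨K.comap (QuotientGroup.mk' B), ?_, ?_⟩
  · conv_lhs => rw [← hA, ← comap_inf, h1]
    rw [MonoidHom.comap_bot, QuotientGroup.ker_mk']
  · conv_lhs => rw [← hA]
    rw [comap_sup_eq _ _ _ (QuotientGroup.mk'_surjective B), h2, comap_top]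

theorem index_of_sup {G : Type*} [Group G] [Finite G] (A B H : Subgroup G) [A.Normal]
    (hBA : B ≤ A) (h1 : H ⊓ A = B) (h2 : H ⊔ A = ⊤) : H.index = B.relIndex A := by
  have h3 := Solv.mul_card_sup_of_normal H A
  rw [h1, h2, Subgroup.card_top] at h3
  have h4 := Subgroup.relIndex_mul_relIndex ⊥ B A bot_le hBA
  rw [Subgroup.relIndex_bot_left, Subgroup.relIndex_bot_left] at h4
  have h5 := H.card_mul_index
  have hB0 : 0 < Nat.card B := Nat.card_pos
  have hH0 : 0 < Nat.card H := Nat.card_pos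
  have h6 : (Nat.card H * Nat.card B) * H.index = (Nat.card H * Nat.card B) * B.relIndex A := by
    calc (Nat.card H * Nat.card B) * H.index = (Nat.card H * H.index) * Nat.card B := by ring
      _ = Nat.card H * Nat.card A := by rw [h5, h3]
      _ = (Nat.card H * Nat.card B) * B.relIndex A := by rw [← h4]; ring
  exact Nat.eq_of_mul_eq_mul_left (Nat.mul_pos hH0 hB0) h6

theorem main (n : ℕ) : ∀ {G : Type*} [Group G] [Finite G] (A : Subgroup G) (_ : A.Normal)
    (_ : IsMulCommutative A) (_ : Nat.card A = n) (_ : Loc A), ∃ K : Subgroup G, K ⊓ A = ⊥ ∧ K ⊔ A = ⊤ := by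
  induction n using Nat.strong_induction_on with
  | _ n ih =>
  intro G _ _ A hAn hA hcard hloc
  by_cases hA1 : A = ⊥
  · exact ⟨⊤, by simp [hA1], by simp⟩
  have hn1 : n ≠ 1 := by
    rw [← hcard]
    intro h; exact hA1 (Subgroup.card_eq_one.mp h)
  obtain ⟨q, hq, hqn⟩ := Nat.exists_prime_and_dvd hn1
  have hn0 : n ≠ 0 := by rw [← hcard]; exact Nat.card_pos.ne'
  obtain ⟨k, m, hm, hkm⟩ := Nat.exists_eq_pow_mul_and_not_dvd hn0 q hq.ne_one
  have hk0 : k ≠ 0 := by
    rintro rfl
    rw [pow_zero, one_mul] at hkm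
    exact hm (hkm ▸ hqn)
  have hcop : (q ^ k).Coprime m := Nat.Coprime.pow_left _ ((Nat.Prime.coprime_iff_not_dvd hq).mpr hm)
  obtain ⟨U, K, h1, h2, h3⟩ := hloc q hq
  by_cases hm1 : m = 1
  · -- `A` is a `q`-group
    rw [hm1, mul_one] at hkm
    have hc : (Nat.card A).Coprime U.index := by
      rw [hcard, hkm]
      exact Nat.Coprime.pow_left _ ((Nat.Prime.coprime_iff_not_dvd hq).mpr h1)
    obtain ⟨H, hH⟩ := Hall.gaschutz_exists A U (h3 ▸ le_sup_right) hc K (h3 ▸ le_sup_left) h2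
      (by rw [sup_comm]; exact h3)
    exact ⟨H, by rw [inf_comm]; exact hH.disjoint.eq_bot, by rw [sup_comm]; exact hH.sup_eq_top⟩
  · -- two coprime parts
    set B := torsPow A hA (q ^ k) with hB
    set C := torsPow A hA m with hC
    have hBn : B.Normal := torsPow_normal A hAn hA _
    have hCn : C.Normal := torsPow_normal A hAn hA _
    have hBA : B ≤ A := fun x hx => hx.1
    have hCA : C ≤ A := fun x hx => hx.1
    have hBC : B ⊓ C = ⊥ := by
      rw [eq_bot_iff]
      rintro x ⟨hx1, hx2⟩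
      have h4 : orderOf x ∣ q ^ k := orderOf_dvd_of_pow_eq_one hx1.2
      have h5 : orderOf x ∣ m := orderOf_dvd_of_pow_eq_one hx2.2
      have := Nat.eq_one_of_dvd_coprimes hcop h4 h5
      exact orderOf_eq_one_iff.mp this
    have hxn : ∀ x ∈ A, x ^ (q ^ k * m) = 1 := by
      intro x hx
      rw [← hkm, ← hcard]
      have h4 : (⟨x, hx⟩ : A) ^ Nat.card A = 1 := pow_card_eq_one'
      exact congrArg Subtype.val h4
    have hsup : A ≤ B ⊔ C := by
      intro x hx
      have h4 := Nat.gcd_eq_gcd_ab (q ^ k) m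
      rw [hcop] at h4
      have h5 : x = (x ^ m) ^ (Nat.gcdB (q ^ k) m) * (x ^ (q ^ k)) ^ (Nat.gcdA (q ^ k) m) := by
        rw [← zpow_natCast, ← zpow_natCast, ← zpow_mul, ← zpow_mul, ← zpow_add, add_comm, ← h4]
        simp
      rw [h5]
      refine Subgroup.mul_mem_sup ?_ ?_
      · refine zpow_mem ?_ _
        exact ⟨A.pow_mem hx _, by rw [← pow_mul, mul_comm, hxn x hx]⟩
      · refine zpow_mem ?_ _
        exact ⟨A.pow_mem hx _, by rw [← pow_mul, hxn x hx]⟩
    have hcardle : n ≤ Nat.card B * Nat.card C := by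
      rw [← hcard]
      have h4 : Nat.card (B ⊔ C : Subgroup G) ∣ Nat.card B * Nat.card C :=
        Solv.card_sup_dvd_of_normal B C
      have h5 : Nat.card A ≤ Nat.card (B ⊔ C : Subgroup G) := Subgroup.card_le_of_le hsup
      exact h5.trans (Nat.le_of_dvd (Nat.mul_pos Nat.card_pos Nat.card_pos) h4)
    have hBdvd : Nat.card B ∣ q ^ k := by
      have h4 : IsPGroup q B := by
        intro x
        refine ⟨k, Subtype.ext ?_⟩
        rw [Subgroup.coe_pow]
        exact x.2.2
      haveI := Fact.mk hq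
      obtain ⟨l, hl⟩ := IsPGroup.iff_card.mp h4
      have h5 : Nat.card B ∣ q ^ k * m := by
        rw [← hkm, ← hcard]; exact Subgroup.card_dvd_of_le hBA
      refine Nat.Coprime.dvd_of_dvd_mul_right ?_ h5
      rw [hl]
      exact Nat.Coprime.pow_left _ ((Nat.Prime.coprime_iff_not_dvd hq).mpr hm)
    have hCdvd : Nat.card C ∣ m := by
      have h5 : Nat.card C ∣ q ^ k * m := by
        rw [← hkm, ← hcard]; exact Subgroup.card_dvd_of_le hCA
      refine Nat.Coprime.dvd_of_dvd_mul_left ?_ h5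
      rw [Nat.coprime_comm]
      refine Nat.Coprime.pow_left _ ((Nat.Prime.coprime_iff_not_dvd hq).mpr ?_)
      intro h6
      haveI := Fact.mk hq
      obtain ⟨x, hx⟩ := exists_prime_orderOf_dvd_card' (G := C) q h6
      apply hm
      rw [← hx, ← Subgroup.orderOf_coe]
      exact orderOf_dvd_of_pow_eq_one x.2.2
    have hmpos : 0 < m := Nat.pos_of_ne_zero (by rintro rfl; exact hm (dvd_zero q))
    have hqpos : 0 < q ^ k := pow_pos hq.pos _
    have hBle := Nat.le_of_dvd hqpos hBdvd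
    have hCle := Nat.le_of_dvd hmpos hCdvd
    have hBeq : Nat.card B = q ^ k := by
      by_contra hne
      have h4 : Nat.card B < q ^ k := lt_of_le_of_ne hBle hne
      have h5 : Nat.card B * Nat.card C < q ^ k * m := by
        calc Nat.card B * Nat.card C ≤ Nat.card B * m := Nat.mul_le_mul_left _ hCle
          _ < q ^ k * m := Nat.mul_lt_mul_of_pos_right h4 hmpos
      omega
    have hCeq : Nat.card C = m := by
      by_contra hne
      have h4 : Nat.card C < m := lt_of_le_of_ne hCle hne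
      have h5 : Nat.card B * Nat.card C < q ^ k * m := by
        calc Nat.card B * Nat.card C ≤ q ^ k * Nat.card C := Nat.mul_le_mul_right _ hBle
          _ < q ^ k * m := Nat.mul_lt_mul_of_pos_left h4 hqpos
      omega
    have hrelB : B.relIndex A = m := by
      have h4 := Subgroup.relIndex_mul_relIndex ⊥ B A bot_le hBA
      rw [Subgroup.relIndex_bot_left, Subgroup.relIndex_bot_left, hBeq, hcard, hkm] at h4
      exact Nat.eq_of_mul_eq_mul_left hqpos h4
    have hrelC : C.relIndex A = q ^ k := by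
      have h4 := Subgroup.relIndex_mul_relIndex ⊥ C A bot_le hCA
      rw [Subgroup.relIndex_bot_left, Subgroup.relIndex_bot_left, hCeq, hcard, hkm, mul_comm] at h4
      exact Nat.eq_of_mul_eq_mul_right hmpos h4
    have hstep : ∀ D : Subgroup G, ∀ _ : D.Normal, D ≤ A → D.relIndex A < n →
        ∃ H : Subgroup G, H ⊓ A = D ∧ H ⊔ A = ⊤ := by
      intro D _ hDA hD1
      have h4 : Nat.card (A.map (QuotientGroup.mk' D)) = D.relIndex A := by
        rw [← relIndex_ker, QuotientGroup.ker_mk']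
      apply lift_compl A D hDA
      refine ih _ hD1 _ (hAn.map _ (QuotientGroup.mk'_surjective D)) ?_ h4 (hloc.map D hDA)
      infer_instance
    have hqk1 : 1 < q ^ k := Nat.one_lt_pow hk0 hq.one_lt
    obtain ⟨H₁, h11, h12⟩ := hstep B hBn hBA (by
      rw [hrelB, hkm]; exact lt_mul_of_one_lt_left hmpos hqk1)
    obtain ⟨H₂, h21, h22⟩ := hstep C hCn hCA (by
      rw [hrelC, hkm]; exact lt_mul_of_one_lt_right hqpos (by omega))
    have hi1 : H₁.index = m := by rw [index_of_sup A B H₁ hBA h11 h12, hrelB]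
    have hi2 : H₂.index = q ^ k := by rw [index_of_sup A C H₂ hCA h21 h22, hrelC]
    have hidx : (H₁ ⊓ H₂).index = Nat.card A := by
      rw [index_inf_of_coprime H₁ H₂ (by rw [hi1, hi2]; exact hcop.symm), hi1, hi2, hcard, hkm,
        mul_comm]
    have hinf : (H₁ ⊓ H₂) ⊓ A = ⊥ := by
      rw [← hBC, ← h11, ← h21, inf_inf_distrib_right]
    refine ⟨H₁ ⊓ H₂, hinf, ?_⟩
    have h3 := Solv.mul_card_sup_of_normal (H₁ ⊓ H₂) A
    rw [hinf, Subgroup.card_bot, mul_one, ← hidx, Subgroup.card_mul_index] at h3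
    exact Subgroup.eq_top_of_card_eq _ h3

/-- Let `A` be an abelian normal subgroup of the finite group `G`. Then `A` has a complement in `G` if and only if, for every prime `p` dividing the index of `A`, there are a Sylow `p`-subgroup `S` of `G/A` and a subgroup `K` of `G` with `K ∩ A = 1` and `KA` equal to the preimage of `S` (that is, `A` has a complement in the preimage of a Sylow `p`-subgroup of `G/A`). -/
theorem result {G : Type*} [Group G] [Finite G] (A : Subgroup G) [A.Normal] (hA : IsMulCommutative A) : (∃ K : Subgroup G, K.IsComplement' A) ↔ ∀ p : ℕ, p.Prime → p ∣ A.index → ∃ (S : Sylow p (G ⧸ A)) (K : Subgroup G), K ⊓ A = ⊥ ∧ K ⊔ A = (S : Subgroup (G ⧸ A)).comap (QuotientGroup.mk' A) := by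
  constructor
  · rintro ⟨K, hK⟩ p hp _
    haveI := Fact.mk hp
    have S : Sylow p (G ⧸ A) := default
    refine ⟨S, K ⊓ (S : Subgroup (G ⧸ A)).comap (QuotientGroup.mk' A), ?_, ?_⟩
    · rw [eq_bot_iff, ← hK.disjoint.eq_bot]
      exact inf_le_inf_right _ inf_le_left
    · have h1 : A ≤ (S : Subgroup (G ⧸ A)).comap (QuotientGroup.mk' A) := by
        conv_lhs => rw [← QuotientGroup.ker_mk' A]
        exact ker_le_comap _ _
      apply le_antisymm (sup_le inf_le_right h1)
      intro x hx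
      have hx' : x ∈ K ⊔ A := by rw [hK.sup_eq_top]; exact mem_top x
      obtain ⟨k, hk, a, ha, rfl⟩ := Subgroup.mem_sup_of_normal_right.mp hx'
      refine Subgroup.mul_mem_sup ⟨hk, ?_⟩ ha
      have := Subgroup.mul_mem _ hx (Subgroup.inv_mem _ (h1 ha))
      rwa [mul_inv_cancel_right] at this
  · intro h
    have hloc : Loc A := by
      intro p hp
      haveI := Fact.mk hp
      by_cases hpi : p ∣ A.index
      · obtain ⟨S, K, h1, h2⟩ := h p hp hpi
        refine ⟨_, K, ?_, h1, h2⟩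
        rw [index_comap_of_surjective _ (QuotientGroup.mk'_surjective A)]
        exact S.not_dvd_index
      · exact ⟨A, ⊥, hpi, by simp, by simp⟩
    obtain ⟨K, h1, h2⟩ := main _ A inferInstance hA rfl hloc
    refine ⟨K, isComplement'_of_disjoint_and_mul_eq_univ (disjoint_iff.mpr h1) ?_⟩
    have := Subgroup.mul_normal K A
    rw [← this, h2]; rfl

end Cfsg.Agent.S4217
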