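import Cfsg.Statements.S4218
import Mathlib
import Cfsg.Agent.H76.PSolvable
import Cfsg.Agent.Cop.Basic
import Cfsg.Agent.Solv.Frattini
import Cfsg.Agent.Solv.Core

set_option autoImplicit false
open Cfsg

namespace Cfsg.Agent.S4218

open Subgroup

theorem comap_frattini_eq {K L : Type*} [Group K] [Group L] (f : K →* L)
    (hf : Function.Surjective f) (M : Subgroup K) [M.Normal] (hM : M = f.ker) :
    (frattini (K ⧸ M)).comap (QuotientGroup.mk' M) = (frattini L).comap f := by
  subst hM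
  set e := QuotientGroup.quotientKerEquivOfSurjective f hf with he
  have he' : ∀ x, e (QuotientGroup.mk' f.ker x) = f x := fun x => rfl
  apply le_antisymm
  · intro x hx
    rw [mem_comap] at hx ⊢
    have := frattini_le_comap_frattini_of_surjective (φ := e.toMonoidHom) e.surjective hx
    exact this
  · intro x hx
    rw [mem_comap] at hx ⊢
    have := frattini_le_comap_frattini_of_surjective (φ := e.symm.toMonoidHom) e.symm.surjective hx
    rw [mem_comap] at this
    have h2 : e.symm.toMonoidHom (f x) = QuotientGroup.mk' f.ker x := by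
      change e.symm (f x) = _
      rw [← he' x, MulEquiv.symm_apply_apply]
    rwa [h2] at this

/-- the subgroup of elements acting trivially on `U / D`. -/
def actTriv {G : Type*} [Group G] (U D : Subgroup G) (hU : U.Normal) (hD : D.Normal) : Subgroup G where
  carrier := {h | ∀ u ∈ U, h * u * h⁻¹ * u⁻¹ ∈ D}
  one_mem' := by intro u _; simp
  mul_mem' := by
    intro a b ha hb u hu
    have hv : b * u * b⁻¹ ∈ U := hU.conj_mem u hu b
    have h1 := ha _ hv
    have h2 := hb u hu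
    have : a * b * u * (a * b)⁻¹ * u⁻¹ = (a * (b * u * b⁻¹) * a⁻¹ * (b * u * b⁻¹)⁻¹) *
      (b * u * b⁻¹ * u⁻¹) := by group
    rw [this]
    exact D.mul_mem h1 h2
  inv_mem' := by
    intro a ha u hu
    have hv : a⁻¹ * u * a⁻¹⁻¹ ∈ U := hU.conj_mem u hu a⁻¹
    have h1 := D.inv_mem (ha _ hv)
    have : a⁻¹ * u * a⁻¹⁻¹ * u⁻¹ = (a * (a⁻¹ * u * a⁻¹⁻¹) * a⁻¹ * (a⁻¹ * u * a⁻¹⁻¹)⁻¹)⁻¹ := by group
    rw [this]
    exact h1

theorem mem_actTriv {G : Type*} [Group G] (U D : Subgroup G) (hU : U.Normal) (hD : D.Normal) (h : G) :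
    h ∈ actTriv U D hU hD ↔ ∀ u ∈ U, h * u * h⁻¹ * u⁻¹ ∈ D := Iff.rfl

theorem actTriv_normal {G : Type*} [Group G] (U D : Subgroup G) (hU : U.Normal) (hD : D.Normal) :
    (actTriv U D hU hD).Normal := by
  refine ⟨fun h hh x u hu => ?_⟩
  have hv : x⁻¹ * u * x⁻¹⁻¹ ∈ U := hU.conj_mem u hu x⁻¹
  have h1 := hD.conj_mem _ (hh _ hv) x
  have : x * h * x⁻¹ * u * (x * h * x⁻¹)⁻¹ * u⁻¹ =
    x * (h * (x⁻¹ * u * x⁻¹⁻¹) * h⁻¹ * (x⁻¹ * u * x⁻¹⁻¹)⁻¹) * x⁻¹ := by group
  rw [this]
  exact h1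

theorem isPGroup_of_coprime_imp {G : Type*} [Group G] [Finite G] {p : ℕ} [Fact p.Prime]
    (C : Subgroup G) (h : ∀ x ∈ C, (orderOf x).Coprime p → x = 1) : IsPGroup p C := by
  intro x
  obtain ⟨k, m, hm, hkm⟩ := Nat.exists_eq_pow_mul_and_not_dvd (orderOf_pos x).ne' p (Fact.out : p.Prime).ne_one
  refine ⟨k, ?_⟩
  apply Subtype.ext
  rw [Subgroup.coe_pow, Subgroup.coe_one]
  apply h _ (C.pow_mem x.2 _)
  have hox : orderOf (x : G) = orderOf x := Subgroup.orderOf_coe x
  have h2 : orderOf ((x : G) ^ (p ^ k)) = m := by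
    rw [orderOf_pow, hox, hkm]
    rw [Nat.gcd_eq_right (Dvd.intro _ rfl)]
    exact Nat.mul_div_cancel_left _ (pow_pos (Fact.out : p.Prime).pos _)
  rw [h2, Nat.coprime_comm]
  exact (Nat.Prime.coprime_iff_not_dvd Fact.out).mpr hm

theorem main {G : Type*} [Group G] [Finite G] {p : ℕ} [Fact p.Prime] (hG : Cfsg.IsPSolvable p G)
    (hcore : pPrimeCore p G = ⊥) (g : G) :
    (∀ x ∈ pCore p G, g * x * g⁻¹ * x⁻¹ ∈ (frattini (pCore p G)).map (pCore p G).subtype) ↔
      g ∈ pCore p G := by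
  set U := pCore p G with hUdef
  have hUn : U.Normal := inferInstance
  have hUp : IsPGroup p U := Solv.pCore_isPGroup p
  set D := (frattini U).map U.subtype with hDdef
  have hDn : D.Normal := by
    haveI := frattini_characteristic (G := U)
    exact ConjAct.normal_of_characteristic_of_normal
  constructor
  · intro hg
    have hg' : g ∈ actTriv U D hUn hDn := hg
    have hCp : IsPGroup p (actTriv U D hUn hDn) := by
      apply isPGroup_of_coprime_imp
      intro x hx hxp
      have hcop : (Nat.card (zpowers x)).Coprime (Nat.card (frattini U)) := by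
        rw [Nat.card_zpowers]
        obtain ⟨k, hk⟩ := IsPGroup.iff_card.mp (hUp.to_subgroup (frattini U))
        rw [hk]
        exact Nat.Coprime.pow_right _ hxp
      have h1 : zpowers x ≤ centralizer (U : Set G) := by
        refine Cop.le_centralizer_of_frattini (K := U) ?_ hcop ?_
        · rw [Subgroup.normalizer_eq_top_iff.mpr hUn]; exact le_top
        · intro a ha k hk
          have ha' : a ∈ actTriv U D hUn hDn := (zpowers_le.mpr hx) ha
          exact ha' k hk
      have h2 : x ∈ U := H76.centralizer_pCore_le hG hcore (h1 (mem_zpowers x))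
      obtain ⟨k, hk⟩ := hUp ⟨x, h2⟩
      have h3 : x ^ p ^ k = 1 := by
        have := congrArg Subtype.val hk
        simpa using this
      have h4 : orderOf x ∣ p ^ k := orderOf_dvd_of_pow_eq_one h3
      have h5 : orderOf x = 1 := Nat.eq_one_of_dvd_coprimes (Nat.Coprime.pow_right k hxp) dvd_rfl h4
      exact orderOf_eq_one_iff.mp h5
    exact Solv.le_pCore (actTriv_normal U D hUn hDn) hCp hg'
  · intro hg x hx
    have h1 := Solv.commutator_le_frattini_of_pGroup (G := U) hUp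
    have h2 : (⟨g, hg⟩ : U) * ⟨x, hx⟩ * (⟨g, hg⟩ : U)⁻¹ * (⟨x, hx⟩ : U)⁻¹ ∈ frattini U :=
      h1 (Subgroup.commutator_mem_commutator (mem_top _) (mem_top _))
    exact ⟨_, h2, rfl⟩

/-- Let `G` be a finite `p`-solvable group, `N₀ = O_{p'}(G)`, `P₁ = O_{p',p}(G)`, and let `F ≤ P₁` be the preimage of the Frattini subgroup of `P₁/N₀`. Then an element `g` of `G` induces the identity on `P₁/F` by conjugation (that is, `g x g⁻¹ x⁻¹ ∈ F` for all `x ∈ P₁`) if and only if `g ∈ P₁`: the group `G/P₁` acts faithfully on `P₁/F`. -/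
theorem result {G : Type*} [Group G] [Finite G] {p : ℕ} [Fact p.Prime] (hG : Cfsg.IsPSolvable p G) (g : G) : (∀ x ∈ Cfsg.pPrimePCore p G, g * x * g⁻¹ * x⁻¹ ∈ ((frattini (↥(Cfsg.pPrimePCore p G) ⧸ (Cfsg.pPrimeCore p G).subgroupOf (Cfsg.pPrimePCore p G))).comap (QuotientGroup.mk' ((Cfsg.pPrimeCore p G).subgroupOf (Cfsg.pPrimePCore p G)))).map (Cfsg.pPrimePCore p G).subtype) ↔ g ∈ Cfsg.pPrimePCore p G := by
  set N := pPrimeCore p G with hN
  set P1 := pPrimePCore p G with hP1
  set U := pCore p (G ⧸ N) with hU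
  have hP1' : P1 = U.comap (QuotientGroup.mk' N) := rfl
  let f : P1 →* U := (QuotientGroup.mk' N).subgroupComap U
  have hf : Function.Surjective f := by
    rintro ⟨u, hu⟩
    obtain ⟨x, rfl⟩ := QuotientGroup.mk'_surjective N u
    exact ⟨⟨x, hu⟩, rfl⟩
  have hfval : ∀ x : P1, ((f x : U) : G ⧸ N) = QuotientGroup.mk' N (x : G) := fun x => rfl
  have hker : N.subgroupOf P1 = f.ker := by
    ext x
    rw [mem_subgroupOf, MonoidHom.mem_ker, ← Subtype.val_inj, hfval]
    exact (QuotientGroup.eq_one_iff _).symm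
  rw [comap_frattini_eq f hf (N.subgroupOf P1) hker]
  have hm := main (p := p) (G := G ⧸ N) (H76.isPSolvable_quotient N hG)
    (Solv.pPrimeCore_quotient_pPrimeCore p) (QuotientGroup.mk' N g)
  have h1 : g ∈ P1 ↔ QuotientGroup.mk' N g ∈ pCore p (G ⧸ N) := Iff.rfl
  rw [h1, ← hm]
  constructor
  · intro h x hx
    obtain ⟨y, rfl⟩ := QuotientGroup.mk'_surjective N x
    obtain ⟨z, hz, hz'⟩ := h y hx
    refine ⟨f z, hz, ?_⟩
    have hz'' : (z : G) = g * y * g⁻¹ * y⁻¹ := hz'
    change QuotientGroup.mk' N (z : G) = _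
    rw [hz'']
    simp
  · intro h x hx
    obtain ⟨z, hz, hz'⟩ := h (QuotientGroup.mk' N x) hx
    have hmem : g * x * g⁻¹ * x⁻¹ ∈ P1 := by
      have : QuotientGroup.mk' N (g * x * g⁻¹ * x⁻¹) ∈ U := by
        have h3 : QuotientGroup.mk' N (g * x * g⁻¹ * x⁻¹) = (z : G ⧸ N) := by
          rw [← Subgroup.coe_subtype, hz']; simp
        rw [h3]; exact z.2
      exact this
    refine ⟨⟨_, hmem⟩, ?_, rfl⟩
    change f ⟨_, hmem⟩ ∈ frattini U
    have h3 : f ⟨_, hmem⟩ = z := by
      apply Subtype.ext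
      rw [hfval]
      refine Eq.trans ?_ hz'.symm
      simp
    rw [h3]; exact hz

end Cfsg.Agent.S4218
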