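import Cfsg.Statements.S4219
import Mathlib

set_option autoImplicit false
open Cfsg

namespace Cfsg.Agent.S4219

open scoped Pointwise in
theorem sylow_smul_mem_iff {G : Type*} [Group G] {p : ℕ} (P : Sylow p G) (g y : G) :
    y ∈ ((g • P : Sylow p G) : Subgroup G) ↔ g⁻¹ * y * g ∈ (P : Subgroup G) := by
  have h : y ∈ ((g • P : Sylow p G) : Subgroup G) ↔ y ∈ MulAut.conj g • (P : Subgroup G) := Iff.rfl
  rw [h, Subgroup.mem_pointwise_smul_iff_inv_smul_mem]
  simp [mul_assoc]

/-- Let a finite group `G` act `t`-fold transitively on a finite set, let `H` be the stabilizer of `t` distinct points and `P` a Sylow `p`-subgroup of `H`. Then the normalizer of `P` in `G` is `t`-fold transitive on the fixed points of `P`: any `t` distinct fixed points of `P` can be carried to any other `t` distinct fixed points of `P` by an element normalizing `P`. -/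
theorem result {G : Type*} [Group G] [Finite G] {α : Type*} [Fintype α] [MulAction G α] {t : ℕ} (hG : MulAction.IsMultiplyPretransitive G α t) (x : Fin t ↪ α) {p : ℕ} [Fact p.Prime] (P : Sylow p (MulAction.stabilizer G x)) (a b : Fin t ↪ α) (ha : ∀ i, a i ∈ MulAction.fixedPoints ((P : Subgroup (MulAction.stabilizer G x)).map (MulAction.stabilizer G x).subtype) α) (hb : ∀ i, b i ∈ MulAction.fixedPoints ((P : Subgroup (MulAction.stabilizer G x)).map (MulAction.stabilizer G x).subtype) α) : ∃ g ∈ Subgroup.normalizer ((((P : Subgroup (MulAction.stabilizer G x)).map (MulAction.stabilizer G x).subtype) : Subgroup G) : Set G), g • a = b := by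
  classical
  obtain ⟨k, hk⟩ := hG.exists_smul_eq a b
  obtain ⟨h, hh⟩ := hG.exists_smul_eq a x
  set P' : Subgroup G := (P : Subgroup (MulAction.stabilizer G x)).map (MulAction.stabilizer G x).subtype with hP'
  have hcardP' : Nat.card P' = Nat.card (P : Subgroup (MulAction.stabilizer G x)) :=
    Nat.card_congr ((P : Subgroup (MulAction.stabilizer G x)).equivMapOfInjective _
      (Subgroup.subtype_injective _)).symm.toEquiv
  -- order of the stabilizers
  have hcard : Nat.card (MulAction.stabilizer G a) = Nat.card (MulAction.stabilizer G x) := by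
    rw [← hh]
    exact Nat.card_congr (MulAction.stabilizerEquivStabilizer (hh.symm ▸ rfl : h • a = h • a)).toEquiv
  have hfixa : ∀ u ∈ P', u • a = a := by
    intro u hu
    ext i
    exact (ha i) ⟨u, hu⟩
  have hfixb : ∀ u ∈ P', u • b = b := by
    intro u hu
    ext i
    exact (hb i) ⟨u, hu⟩
  let S := MulAction.stabilizer G a
  let P2' : Subgroup G := P'.map (MulAut.conj k⁻¹).toMonoidHom
  have hP2' : ∀ u, u ∈ P2' ↔ k * u * k⁻¹ ∈ P' := by
    intro u
    constructor
    · rintro ⟨v, hv, rfl⟩
      simpa [mul_assoc] using hv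
    · intro hu
      exact ⟨_, hu, by simp [mul_assoc]⟩
  have hle1 : P' ≤ S := fun u hu => hfixa u hu
  have hle2 : P2' ≤ S := by
    intro u hu
    have h1 := hfixb _ ((hP2' u).mp hu)
    rw [← hk, ← mul_smul] at h1
    have h2 : k * u * k⁻¹ * k = k * u := by group
    rw [h2, mul_smul] at h1
    exact MulAction.injective k h1
  have hc1 : Nat.card (P'.subgroupOf S) = p ^ (Nat.card S).factorization p := by
    rw [Nat.card_congr (Subgroup.subgroupOfEquivOfLe hle1).toEquiv, hcardP', hcard]
    exact P.card_eq_multiplicity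
  have hcP2 : Nat.card P2' = Nat.card P' :=
    Nat.card_congr (P'.equivMapOfInjective _ (MulAut.conj k⁻¹).injective).symm.toEquiv
  have hc2 : Nat.card (P2'.subgroupOf S) = p ^ (Nat.card S).factorization p := by
    rw [Nat.card_congr (Subgroup.subgroupOfEquivOfLe hle2).toEquiv, hcP2, hcardP', hcard]
    exact P.card_eq_multiplicity
  obtain ⟨s, hs⟩ := MulAction.exists_smul_eq S (Sylow.ofCard _ hc1) (Sylow.ofCard _ hc2)
  have hs1 : ∀ u : S, (u : G) ∈ P2' ↔ (s⁻¹ * u * s : G) ∈ P' := by
    intro u
    have h1 := sylow_smul_mem_iff (Sylow.ofCard _ hc1) s u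
    rw [hs] at h1
    exact h1
  refine ⟨k * s, ?_, ?_⟩
  · rw [Subgroup.mem_normalizer_iff]
    intro u
    have e : k * (s : G) * u * (k * (s : G))⁻¹ = k * ((s : G) * u * (s : G)⁻¹) * k⁻¹ := by group
    constructor
    · intro hu
      have hu1 : (s : G) * u * (s : G)⁻¹ ∈ S := mul_mem (mul_mem s.2 (hle1 hu)) (inv_mem s.2)
      have h2 := (hs1 ⟨_, hu1⟩).mpr (by simpa [mul_assoc] using hu)
      rw [e]
      exact (hP2' _).mp h2
    · intro hu
      rw [e] at hu
      have h2 := (hP2' _).mpr hu
      have hu1 : (s : G) * u * (s : G)⁻¹ ∈ S := hle2 h2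
      have h3 := (hs1 ⟨_, hu1⟩).mp h2
      simpa [mul_assoc] using h3
  · rw [mul_smul]
    have : (s : G) • a = a := s.2
    rw [this, hk]

end Cfsg.Agent.S4219
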