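import Cfsg.Statements.S4220

import Cfsg.Agent.H74.AltKpr

set_option autoImplicit false
open Cfsg

namespace Cfsg.Agent.S4220

open Cfsg

/-- Let `n = kp + r` with `p` prime, `1 ≤ k < p` and `r > k`, excluding the case `k = 1, r = 2`. Then a permutation group of degree `n` that is `(r + 1)`-fold transitive contains the alternating group. -/
theorem result {α : Type*} [Fintype α] [DecidableEq α] (G : Subgroup (Equiv.Perm α)) {k p r : ℕ} (hp : p.Prime) (hn : Fintype.card α = k * p + r) (hk : 1 ≤ k) (hpk : k < p) (hrk : k < r) (hex : ¬ (k = 1 ∧ r = 2)) (hG : MulAction.IsMultiplyPretransitive G α (r + 1)) : alternatingGroup α ≤ G := by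
  classical
  haveI : Fact p.Prime := ⟨hp⟩
  have hG' : MulAction.IsMultiplyPretransitive G α (r + 1) := hG
  have h1 := H74.AG.kpr (G := G) (Ω := α) (p := p) hG' (by rw [Nat.card_eq_fintype_card]; exact hn)
    hk hpk hrk hex
  intro g hg
  obtain ⟨x, hx⟩ := h1 hg
  have h2 : (x : Equiv.Perm α) = g := by
    rw [← hx]; rfl
  rw [← h2]
  exact x.2

end Cfsg.Agent.S4220
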