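import Cfsg.Statements.S4221
import Cfsg.Agent.H59.FourT4

set_option autoImplicit false
set_option linter.style.haveILetI false
open Cfsg

namespace Cfsg.Agent.S4221


open MulAction Cfsg.Agent.H59.FourT

theorem eq_top_of_card_ge {α : Type*} [Fintype α] [DecidableEq α] (G : Subgroup (Equiv.Perm α))
    (h : (Fintype.card α).factorial ≤ Nat.card G) : G = ⊤ := by
  apply Subgroup.eq_top_of_le_card
  rw [Nat.card_eq_fintype_card (α := Equiv.Perm α), Fintype.card_perm]
  exact h

/-- Let `G` be a `4`-fold transitive permutation group on a finite set of `n` points in which the pointwise stabilizer of some four distinct points has odd order. Then `n = 4` or `n = 5` with `G` the full symmetric group, or `n = 6` or `n = 7` with `G` the alternating group, or `n = 11` and `G` has order `7920`. -/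
theorem result {α : Type*} [Fintype α] [DecidableEq α] (G : Subgroup (Equiv.Perm α)) (hG : MulAction.IsMultiplyPretransitive G α 4) (x : Fin 4 ↪ α) (hodd : Odd (Nat.card (MulAction.stabilizer G x))) : ((Fintype.card α = 4 ∨ Fintype.card α = 5) ∧ G = ⊤) ∨ ((Fintype.card α = 6 ∨ Fintype.card α = 7) ∧ G = alternatingGroup α) ∨ (Fintype.card α = 11 ∧ Nat.card G = 7920) := by
  classical
  have hQ : Q4 G α := by
    apply Q4.of (x := x)
    · exact fun y z => hG.exists_smul_eq y z
    · exact hodd
  have hGdvd : Nat.card G ∣ (Fintype.card α).factorial := by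
    rw [← Fintype.card_perm, ← Nat.card_eq_fintype_card]
    exact Subgroup.card_subgroup_dvd_card G
  have hidx : 2 * Nat.card G = (Fintype.card α).factorial → G = alternatingGroup α := by
    intro h
    apply Equiv.Perm.eq_alternatingGroup_of_index_eq_two
    have h2 := G.card_mul_index
    rw [Nat.card_eq_fintype_card (α := Equiv.Perm α), Fintype.card_perm, ← h, mul_comm 2] at h2
    exact Nat.eq_of_mul_eq_mul_left Nat.card_pos h2
  rcases main' hQ x hGdvd with ⟨h1, h2⟩ | ⟨h1, h2⟩ | h1
  · exact Or.inl ⟨h1, eq_top_of_card_ge G h2⟩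
  · exact Or.inr (Or.inl ⟨h1, hidx h2⟩)
  · exact Or.inr (Or.inr h1)


end Cfsg.Agent.S4221
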