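import Cfsg.Statements.S4222
-- import your own Cfsg.Agent.* helpers here

set_option autoImplicit false
open Cfsg

namespace Cfsg.Agent.S4222

/-- If a normal subgroup `N` of a finite group is complete (its centre is trivial and every automorphism of `N` is inner), then the group is the internal direct product of `N` and the centralizer of `N`: the centralizer is a complement to `N`. -/
theorem result {T : Type*} [Group T] [Finite T] (N : Subgroup T) [N.Normal] (hz : Subgroup.center ↥N = ⊥) (ha : Function.Surjective (MulAut.conj : ↥N →* MulAut ↥N)) : (Subgroup.centralizer (N : Set T)).IsComplement' N := by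
  have hdisj : Subgroup.centralizer (N : Set T) ⊓ N = ⊥ := by
    rw [eq_bot_iff]
    rintro x ⟨hx1, hx2⟩
    have : (⟨x, hx2⟩ : N) ∈ Subgroup.center ↥N := by
      rw [Subgroup.mem_center_iff]
      rintro ⟨y, hy⟩
      apply Subtype.ext
      exact (Subgroup.mem_centralizer_iff.mp hx1) y hy
    rw [hz] at this
    have := congrArg Subtype.val (Subgroup.mem_bot.mp this)
    simpa using this
  have hsup : Subgroup.centralizer (N : Set T) ⊔ N = ⊤ := by
    rw [eq_top_iff]
    intro t _
    obtain ⟨n, hn⟩ := ha (MulAut.conjNormal t)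
    have h1 : ∀ y ∈ N, (n : T) * y * (n : T)⁻¹ = t * y * t⁻¹ := by
      intro y hy
      have := congrArg (fun f : MulAut N => ((f ⟨y, hy⟩ : N) : T)) hn
      simpa [MulAut.conjNormal_apply] using this
    have h2 : t = (t * (n : T)⁻¹) * (n : T) := by group
    rw [h2]
    refine Subgroup.mul_mem_sup ?_ n.2
    rw [Subgroup.mem_centralizer_iff]
    intro y hy
    have h3 : (n : T)⁻¹ * y * (n : T) ∈ N := by
      have := N.mul_mem (N.mul_mem (N.inv_mem n.2) hy) n.2
      exact this
    have h4 := h1 _ h3
    have h5 : y = t * ((n : T)⁻¹ * y * (n : T)) * t⁻¹ := by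
      rw [← h4]; group
    calc y * (t * (n : T)⁻¹) = (t * ((n : T)⁻¹ * y * (n : T)) * t⁻¹) * (t * (n : T)⁻¹) := by rw [← h5]
      _ = t * (n : T)⁻¹ * y := by group
  exact Subgroup.isComplement'_of_disjoint_and_mul_eq_univ (disjoint_iff.mpr hdisj) (by
    rw [← Subgroup.normal_mul, hsup]; simp)

end Cfsg.Agent.S4222
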