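import Cfsg.Statements.S4223
import Mathlib

set_option autoImplicit false
open Cfsg

namespace Cfsg.Agent.S4223

open Subgroup

/-- normal endomorphisms -/
def NEnd {A : Type*} [Group A] (f : A → A) : Prop := ∀ x y : A, f (x * y * x⁻¹) = x * f y * x⁻¹

/-- directly indecomposable -/
def Indec (A : Type*) [Group A] : Prop :=
  ∀ H K : Subgroup A, H.Normal → K.Normal → H ⊓ K = ⊥ → H ⊔ K = ⊤ → H = ⊥ ∨ K = ⊥

theorem NEnd.comp {A : Type*} [Group A] {f g : A → A} (hf : NEnd f) (hg : NEnd g) :
    NEnd (f ∘ g) := by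
  intro x y
  change f (g (x * y * x⁻¹)) = x * f (g y) * x⁻¹
  rw [hg x y, hf x (g y)]

theorem NEnd.pow {A : Type*} [Group A] {f : Monoid.End A} (hf : NEnd f) (n : ℕ) :
    NEnd (f ^ n : Monoid.End A) := by
  induction n with
  | zero => rw [pow_zero]; intro x y; rfl
  | succ n ih =>
    rw [pow_succ]
    exact (NEnd.comp ih hf : NEnd (⇑(f ^ n : Monoid.End A) ∘ ⇑f))

theorem exists_idem_pow {M : Type*} [Monoid M] [Finite M] (f : M) : ∃ n : ℕ, 0 < n ∧ f ^ n * f ^ n = f ^ n := by
  obtain ⟨i, j, hij, hf⟩ : ∃ i j : ℕ, i < j ∧ f ^ i = f ^ j := by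
    obtain ⟨i, j, hij, h⟩ := Finite.exists_ne_map_eq_of_infinite (fun n : ℕ => f ^ n)
    rcases lt_or_gt_of_ne hij with h1 | h1
    · exact ⟨i, j, h1, h⟩
    · exact ⟨j, i, h1, h.symm⟩
  obtain ⟨d, hd0, rfl⟩ : ∃ d, 0 < d ∧ j = i + d := ⟨j - i, by omega, by omega⟩
  have h1 : ∀ k n : ℕ, i ≤ n → f ^ (n + k * d) = f ^ n := by
    intro k
    induction k with
    | zero => intro n _; simp
    | succ k ih =>
      intro n hn
      obtain ⟨t, rfl⟩ := Nat.exists_eq_add_of_le hn
      have h2 : i + t + (k + 1) * d = (i + d) + (t + k * d) := by ring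
      rw [h2, pow_add, ← hf, ← pow_add, ← add_assoc]
      exact ih _ hn
  refine ⟨(i + 1) * d, Nat.mul_pos (by omega) hd0, ?_⟩
  rw [← pow_add]
  apply h1
  calc i ≤ i + 1 := by omega
    _ ≤ (i + 1) * d := Nat.le_mul_of_pos_right _ hd0

/-- Fitting's lemma. -/
theorem fitting {A : Type*} [Group A] [Finite A] (hA : Indec A) (f : Monoid.End A) (hf : NEnd f) :
    Function.Bijective f ∨ ∃ n : ℕ, ∀ x, (f ^ n : Monoid.End A) x = 1 := by
  haveI : Finite (Monoid.End A) := Finite.of_injective (fun g : Monoid.End A => (g : A → A))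
    (fun g h hgh => MonoidHom.ext (fun x => congrFun hgh x))
  obtain ⟨n, hn0, hn⟩ := exists_idem_pow f
  set P : A →* A := f ^ n with hP
  have hPP : ∀ x, P (P x) = P x := fun x => DFunLike.congr_fun hn x
  have hPn : NEnd P := hf.pow n
  have h1 : P.range.Normal := by
    refine ⟨?_⟩
    rintro _ ⟨y, rfl⟩ x
    exact ⟨x * y * x⁻¹, hPn x y⟩
  have h2 : P.ker ⊓ P.range = ⊥ := by
    rw [eq_bot_iff]
    rintro _ ⟨hx, ⟨y, rfl⟩⟩
    have h3 : P (P y) = 1 := hx
    rw [hPP] at h3
    rw [h3]; exact one_mem _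
  have h3 : P.ker ⊔ P.range = ⊤ := by
    rw [eq_top_iff]
    intro x _
    have h4 : x = (x * (P x)⁻¹) * P x := by group
    rw [h4]
    apply Subgroup.mul_mem_sup
    · rw [MonoidHom.mem_ker, map_mul, map_inv, hPP, mul_inv_cancel]
    · exact ⟨x, rfl⟩
  rcases hA P.ker P.range inferInstance h1 h2 h3 with h | h
  · left
    have hinj : Function.Injective P := (MonoidHom.ker_eq_bot_iff P).mp h
    have hfinj : Function.Injective f := by
      obtain ⟨k, rfl⟩ := Nat.exists_eq_succ_of_ne_zero hn0.ne'
      intro x y hxy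
      apply hinj
      rw [hP, Nat.succ_eq_add_one, pow_succ]
      change (f ^ k : Monoid.End A) (f x) = (f ^ k : Monoid.End A) (f y)
      rw [hxy]
    exact ⟨hfinj, Finite.surjective_of_injective hfinj⟩
  · right
    refine ⟨n, fun x => ?_⟩
    have : P x ∈ P.range := ⟨x, rfl⟩
    rw [h] at this
    exact this

theorem not_add {A : Type*} [Group A] [Finite A] [Nontrivial A] (f g : Monoid.End A)
    (h : ∀ x, f x * g x = x) (hf : ∃ n : ℕ, ∀ x, (f ^ n : Monoid.End A) x = 1)
    (hg : ∃ n : ℕ, ∀ x, (g ^ n : Monoid.End A) x = 1) : False := by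
  classical
  set k := Nat.find hf with hk
  have hk1 := Nat.find_spec hf
  rw [← hk] at hk1
  have hk0 : k ≠ 0 := by
    intro h0
    rw [h0] at hk1
    obtain ⟨x, hx⟩ := exists_ne (1 : A)
    exact hx (by simpa using hk1 x)
  obtain ⟨l, hl⟩ := hg
  have h2 : ∀ x, (f ^ (k - 1) : Monoid.End A) x = (f ^ (k - 1) : Monoid.End A) (g x) := by
    intro x
    conv_lhs => rw [← h x, map_mul]
    have h3 : (f ^ (k - 1) : Monoid.End A) (f x) = (f ^ k : Monoid.End A) x := by
      conv_rhs => rw [← Nat.succ_pred_eq_of_ne_zero hk0, Nat.succ_eq_add_one, pow_succ]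
      rfl
    rw [h3, hk1, one_mul]
  have h3 : ∀ (i : ℕ) (x : A), (f ^ (k - 1) : Monoid.End A) x =
      (f ^ (k - 1) : Monoid.End A) ((g ^ i : Monoid.End A) x) := by
    intro i
    induction i with
    | zero => intro x; simp
    | succ i ih =>
      intro x
      rw [ih x, h2, pow_succ']
      rfl
  have h4 : ∀ x, (f ^ (k - 1) : Monoid.End A) x = 1 := by
    intro x
    rw [h3 l x, hl, map_one]
  exact Nat.find_min hf (m := k - 1) (by omega) h4

/-- sums of nilpotent normal endomorphisms. -/
theorem nil_add {A : Type*} [Group A] [Finite A] (hA : Indec A) (f g h : Monoid.End A) (hf : NEnd f)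
    (hg : NEnd g) (hh : NEnd h) (hadd : ∀ x, f x * g x = h x) (hf' : ¬ Function.Bijective f)
    (hg' : ¬ Function.Bijective g) : ¬ Function.Bijective h := by
  intro hbij
  haveI : Nontrivial A := by
    by_contra hnt
    rw [not_nontrivial_iff_subsingleton] at hnt
    exact hf' ⟨fun x y _ => Subsingleton.elim x y, fun x => ⟨x, Subsingleton.elim _ _⟩⟩
  set e := MulEquiv.ofBijective h hbij with he
  have he' : ∀ x, h (e.symm x) = x := fun x => e.apply_symm_apply x
  have hes : NEnd (e.symm : A ≃* A).toMonoidHom := by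
    intro x y
    apply hbij.1
    change h (e.symm _) = h (x * e.symm y * x⁻¹)
    rw [he', hh x (e.symm y), he']
  set f' : Monoid.End A := MonoidHom.comp f (e.symm : A ≃* A).toMonoidHom with hf'd
  set g' : Monoid.End A := MonoidHom.comp g (e.symm : A ≃* A).toMonoidHom with hg'd
  have h1 : ∀ x, f' x * g' x = x := by
    intro x
    change f (e.symm x) * g (e.symm x) = x
    rw [hadd, he']
  have hf'' : ∃ n : ℕ, ∀ x, (f' ^ n : Monoid.End A) x = 1 := by
    rcases fitting hA f' (NEnd.comp hf hes : NEnd (⇑f ∘ ⇑(e.symm : A ≃* A).toMonoidHom)) with h2 | h2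
    · exfalso
      apply hf'
      have h3 : (f : A → A) = f' ∘ e := by
        funext x
        change f x = f (e.symm (e x))
        rw [e.symm_apply_apply]
      rw [h3]
      exact h2.comp e.bijective
    · exact h2
  have hg'' : ∃ n : ℕ, ∀ x, (g' ^ n : Monoid.End A) x = 1 := by
    rcases fitting hA g' (NEnd.comp hg hes : NEnd (⇑g ∘ ⇑(e.symm : A ≃* A).toMonoidHom)) with h2 | h2
    · exfalso
      apply hg'
      have h3 : (g : A → A) = g' ∘ e := by
        funext x
        change g x = g (e.symm (e x))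
        rw [e.symm_apply_apply]
      rw [h3]
      exact h2.comp e.bijective
    · exact h2
  exact not_add f' g' h1 hf'' hg''

section KS

variable {n : ℕ} {B : Fin n → Type*} [∀ j, Group (B j)]

/-- projection to a set of coordinates -/
noncomputable def proj (J : Finset (Fin n)) : (∀ j, B j) →* (∀ j, B j) where
  toFun x := fun j => if j ∈ J then x j else 1
  map_one' := by funext j; simp
  map_mul' x y := by funext j; by_cases h : j ∈ J <;> simp [h]

theorem proj_apply (J : Finset (Fin n)) (x : ∀ j, B j) (j : Fin n) :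
    proj J x j = if j ∈ J then x j else 1 := rfl

theorem proj_conj (J : Finset (Fin n)) (x y : ∀ j, B j) :
    proj J (x * y * x⁻¹) = x * proj J y * x⁻¹ := by
  funext j
  by_cases h : j ∈ J <;> simp [proj_apply, h]

theorem proj_single (j : Fin n) (x : ∀ j, B j) : proj {j} x = Pi.mulSingle j (x j) := by
  funext i
  rw [proj_apply]
  by_cases h : i = j
  · subst h; simp
  · simp [h]

theorem proj_insert (J : Finset (Fin n)) (j : Fin n) (hj : j ∉ J) (x : ∀ j, B j) :
    proj J x * proj {j} x = proj (insert j J) x := by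
  funext i
  rw [Pi.mul_apply, proj_apply, proj_apply, proj_apply]
  by_cases h : i = j
  · subst h; simp [hj]
  · simp [h]

end KS

theorem exchange {m n : ℕ} {A : Fin (m + 1) → Type*} {B : Fin n → Type*} [∀ i, Group (A i)]
    [∀ j, Group (B j)] [∀ i, Finite (A i)] [∀ j, Finite (B j)]
    (hA0 : Nontrivial (A 0)) (hA : Indec (A 0)) (hB : ∀ j, Indec (B j))
    (e : ((i : Fin (m + 1)) → A i) ≃* ((j : Fin n) → B j)) :
    ∃ j : Fin n, ∃ v : B j ≃* A 0, ∀ b, v b = e.symm (Pi.mulSingle j b) 0 := by
  classical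
  -- the endomorphisms `F J`
  let F : Finset (Fin n) → Monoid.End (A 0) := fun J =>
    ((Pi.evalMonoidHom A 0).comp (e.symm.toMonoidHom)).comp
      ((proj J).comp (e.toMonoidHom.comp (MonoidHom.mulSingle A 0)))
  have hF : ∀ J a, F J a = e.symm (proj J (e (Pi.mulSingle 0 a))) 0 := fun J a => rfl
  have hFn : ∀ J, NEnd (F J) := by
    intro J x y
    have h1 : (Pi.mulSingle 0 (x * y * x⁻¹) : ∀ i, A i) =
        Pi.mulSingle 0 x * Pi.mulSingle 0 y * (Pi.mulSingle 0 x)⁻¹ := by
      rw [Pi.mulSingle_mul, Pi.mulSingle_mul, Pi.mulSingle_inv]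
    rw [hF, hF, h1, map_mul e, map_mul e, map_inv e, proj_conj, map_mul e.symm, map_mul e.symm,
      map_inv e.symm]
    simp
  have hadd : ∀ (J : Finset (Fin n)) (j : Fin n), j ∉ J → ∀ a, F J a * F {j} a = F (insert j J) a := by
    intro J j hj a
    rw [hF, hF, hF, ← proj_insert J j hj, map_mul]
    rfl
  have hex : ∃ j, Function.Bijective (F {j}) := by
    by_contra hne
    push Not at hne
    have hall : ∀ J : Finset (Fin n), ¬ Function.Bijective (F J) := by
      intro J
      induction J using Finset.induction_on with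
      | empty =>
        intro hbij
        obtain ⟨x, hx⟩ := exists_ne (1 : A 0)
        apply hx
        apply hbij.1
        rw [hF, map_one]
        have h1 : ∀ y : ∀ j, B j, proj (∅ : Finset (Fin n)) y = 1 := by
          intro y; funext j; simp [proj_apply]
        rw [h1, map_one]
        rfl
      | insert j J hj ih =>
        exact nil_add hA (F J) (F {j}) (F (insert j J)) (hFn _) (hFn _) (hFn _) (hadd J j hj) ih (hne j)
    apply hall Finset.univ
    have h1 : ∀ y : ∀ j, B j, proj (Finset.univ : Finset (Fin n)) y = y := by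
      intro y; funext j; simp [proj_apply]
    have h2 : ∀ a, F Finset.univ a = a := by
      intro a
      rw [hF, h1, MulEquiv.symm_apply_apply]
      simp
    have h3 : (F Finset.univ : A 0 → A 0) = id := funext h2
    rw [h3]
    exact Function.bijective_id
  obtain ⟨j, hj⟩ := hex
  let u : A 0 →* B j := (Pi.evalMonoidHom B j).comp (e.toMonoidHom.comp (MonoidHom.mulSingle A 0))
  let v : B j →* A 0 := (Pi.evalMonoidHom A 0).comp (e.symm.toMonoidHom.comp (MonoidHom.mulSingle B j))
  have hvu : ∀ a, v (u a) = F {j} a := by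
    intro a
    rw [hF, proj_single]
    rfl
  have huv_inj : Function.Injective u := by
    intro a b hab
    apply hj.1
    rw [← hvu, ← hvu, hab]
  have hur : u.range.Normal := by
    refine ⟨?_⟩
    rintro _ ⟨a, rfl⟩ b
    -- conjugating by `mulSingle j b`
    refine ⟨e.symm (Pi.mulSingle j b) 0 * a * (e.symm (Pi.mulSingle j b) 0)⁻¹, ?_⟩
    have h1 : (Pi.mulSingle 0 (e.symm (Pi.mulSingle j b) 0 * a * (e.symm (Pi.mulSingle j b) 0)⁻¹) :
        ∀ i, A i) = e.symm (Pi.mulSingle j b) * Pi.mulSingle 0 a * (e.symm (Pi.mulSingle j b))⁻¹ := by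
      funext i
      by_cases hi : i = 0
      · subst hi; simp
      · simp [hi]
    change e (Pi.mulSingle 0 _) j = _
    rw [h1, map_mul, map_mul, map_inv, MulEquiv.apply_symm_apply]
    simp
    rfl
  have hinf : u.range ⊓ v.ker = ⊥ := by
    rw [eq_bot_iff]
    rintro _ ⟨⟨a, rfl⟩, ha⟩
    have h1 : v (u a) = 1 := ha
    rw [hvu] at h1
    have h2 : a = 1 := hj.1 (by rw [h1, map_one])
    rw [h2, map_one]; exact one_mem _
  have hsup : u.range ⊔ v.ker = ⊤ := by
    rw [eq_top_iff]
    intro b _
    obtain ⟨a, ha⟩ := hj.2 (v b)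
    have h1 : b = u a * ((u a)⁻¹ * b) := by group
    rw [h1]
    refine Subgroup.mul_mem_sup (MonoidHom.mem_range.mpr ⟨a, rfl⟩) ?_
    rw [MonoidHom.mem_ker, map_mul, map_inv, hvu, ha, inv_mul_cancel]
  rcases hB j u.range v.ker hur inferInstance hinf hsup with h | h
  · exfalso
    obtain ⟨x, hx⟩ := exists_ne (1 : A 0)
    apply hx
    apply huv_inj
    rw [map_one]
    have : u x ∈ u.range := ⟨x, rfl⟩
    rw [h] at this
    exact this
  · have hvinj : Function.Injective v := (MonoidHom.ker_eq_bot_iff v).mp h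
    have hvsurj : Function.Surjective v := by
      intro a
      obtain ⟨a', ha'⟩ := hj.2 a
      exact ⟨u a', by rw [hvu, ha']⟩
    exact ⟨j, MulEquiv.ofBijective v ⟨hvinj, hvsurj⟩, fun b => rfl⟩

theorem main (m : ℕ) : ∀ {n : ℕ} {A : Fin m → Type*} {B : Fin n → Type*} [∀ i, Group (A i)]
    [∀ j, Group (B j)] [∀ i, Finite (A i)] [∀ j, Finite (B j)]
    (_ : ∀ i, Nontrivial (A i) ∧ Indec (A i)) (_ : ∀ j, Nontrivial (B j) ∧ Indec (B j))
    (_ : ((i : Fin m) → A i) ≃* ((j : Fin n) → B j)),
    ∃ σ : Fin m ≃ Fin n, ∀ i, Nonempty (A i ≃* B (σ i)) := by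
  classical
  induction m with
  | zero =>
    intro n A B _ _ _ _ hA hB e
    have hn : n = 0 := by
      by_contra hn
      obtain ⟨k, rfl⟩ := Nat.exists_eq_succ_of_ne_zero hn
      haveI := (hB 0).1
      obtain ⟨x, hx⟩ := exists_ne (1 : B 0)
      apply hx
      have h1 : (Pi.mulSingle 0 x : ∀ j, B j) = 1 := by
        apply e.symm.injective
        funext i
        exact i.elim0
      have h2 := congrFun h1 0
      simpa using h2
    subst hn
    exact ⟨Equiv.refl _, fun i => i.elim0⟩
  | succ m ih =>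
    intro n A B _ _ _ _ hA hB e
    obtain ⟨j₀, v, hv⟩ := exchange (hA 0).1 (hA 0).2 (fun j => (hB j).2) e
    obtain ⟨n, rfl⟩ : ∃ k, n = k + 1 := Nat.exists_eq_succ_of_ne_zero (by
      rintro rfl; exact j₀.elim0)
    -- the map on the remaining factors
    let ins : (∀ i : Fin m, A i.succ) →* (∀ i, A i) :=
      { toFun := fun x => Fin.cons 1 x
        map_one' := by
          funext i
          refine Fin.cases ?_ (fun i => ?_) i <;> simp
        map_mul' := fun x y => by
          funext i
          refine Fin.cases ?_ (fun i => ?_) i <;> simp }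
    let res : (∀ j, B j) →* (∀ j : Fin n, B (j₀.succAbove j)) :=
      { toFun := fun x j => x (j₀.succAbove j)
        map_one' := rfl
        map_mul' := fun x y => rfl }
    let Φ : (∀ i : Fin m, A i.succ) →* (∀ j : Fin n, B (j₀.succAbove j)) :=
      res.comp (e.toMonoidHom.comp ins)
    have hΦinj : Function.Injective Φ := by
      rw [injective_iff_map_eq_one]
      intro x hx
      have h1 : e (ins x) = Pi.mulSingle j₀ (e (ins x) j₀) := by
        funext j
        by_cases hj : j = j₀
        · subst hj; simp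
        · obtain ⟨k, rfl⟩ := Fin.exists_succAbove_eq hj
          rw [Pi.mulSingle_eq_of_ne hj]
          exact congrFun hx k
      have h2 : v (e (ins x) j₀) = 1 := by
        rw [hv, ← h1, MulEquiv.symm_apply_apply]
        rfl
      have h3 : e (ins x) j₀ = 1 := v.injective (by rw [h2, map_one])
      rw [h3, Pi.mulSingle_one] at h1
      have h4 : ins x = 1 := e.injective (by rw [h1, map_one])
      funext i
      exact congrFun h4 i.succ
    have hcard : Nat.card (∀ i : Fin m, A i.succ) = Nat.card (∀ j : Fin n, B (j₀.succAbove j)) := by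
      have h1 : Nat.card (∀ i, A i) = Nat.card (∀ j, B j) := Nat.card_congr e.toEquiv
      rw [Nat.card_pi, Nat.card_pi, Fin.prod_univ_succ, Fin.prod_univ_succAbove _ j₀,
        Nat.card_congr v.toEquiv] at h1
      rw [Nat.card_pi, Nat.card_pi]
      exact Nat.eq_of_mul_eq_mul_left Nat.card_pos h1
    have hΦ : Function.Bijective Φ := by
      haveI : Fintype (∀ i : Fin m, A i.succ) := Fintype.ofFinite _
      haveI : Fintype (∀ j : Fin n, B (j₀.succAbove j)) := Fintype.ofFinite _
      rw [Fintype.bijective_iff_injective_and_card]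
      exact ⟨hΦinj, by rw [← Nat.card_eq_fintype_card, ← Nat.card_eq_fintype_card, hcard]⟩
    obtain ⟨σ, hσ⟩ := ih (fun i => hA i.succ) (fun j => hB (j₀.succAbove j)) (MulEquiv.ofBijective Φ hΦ)
    refine ⟨(finSuccEquiv' 0).trans ((Equiv.optionCongr σ).trans (finSuccEquiv' j₀).symm), ?_⟩
    intro i
    refine Fin.cases ?_ (fun i => ?_) i
    · simp only [Equiv.trans_apply, finSuccEquiv'_at, Equiv.optionCongr_apply, Option.map_none,
        finSuccEquiv'_symm_none]
      exact ⟨v.symm⟩
    · have h1 : (finSuccEquiv' (0 : Fin (m + 1))) i.succ = some i := by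
        rw [← Fin.succAbove_zero, finSuccEquiv'_succAbove]
      simp only [Equiv.trans_apply, h1, Equiv.optionCongr_apply, Option.map_some,
        finSuccEquiv'_symm_some]
      exact hσ i

/-- If a finite group is isomorphic both to a direct product of `m` directly indecomposable nontrivial groups and to a direct product of `n` such groups (a group is directly indecomposable when it is not the internal direct product of two nontrivial normal subgroups), then `m = n` and the factors are isomorphic in pairs after a suitable matching. -/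
theorem result {m n : ℕ} {A : Fin m → Type*} {B : Fin n → Type*} [∀ i, Group (A i)] [∀ j, Group (B j)] [∀ i, Finite (A i)] [∀ j, Finite (B j)] (hA : ∀ i, Nontrivial (A i) ∧ ∀ H K : Subgroup (A i), H.Normal → K.Normal → H ⊓ K = ⊥ → H ⊔ K = ⊤ → H = ⊥ ∨ K = ⊥) (hB : ∀ j, Nontrivial (B j) ∧ ∀ H K : Subgroup (B j), H.Normal → K.Normal → H ⊓ K = ⊥ → H ⊔ K = ⊤ → H = ⊥ ∨ K = ⊥) (e : ((i : Fin m) → A i) ≃* ((j : Fin n) → B j)) : ∃ σ : Fin m ≃ Fin n, ∀ i, Nonempty (A i ≃* B (σ i)) := by
  exact main m hA hB e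

end Cfsg.Agent.S4223
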