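import Cfsg.Statements.S4224
import Cfsg.Agent.H11.Regular3
-- import your own Cfsg.Agent.* helpers here

set_option autoImplicit false
open Cfsg

namespace Cfsg.Agent.S4224

/-- In a regular `p`-group, for all elements `a`, `b` and every power `q = p^k`: `a^q` commutes with `b` if and only if the commutator `a⁻¹b⁻¹ab` has `q`-th power equal to `1`. -/
theorem result {G : Type*} [Group G] [Finite G] {p : ℕ} [Fact p.Prime] (hG : Cfsg.IsRegularPGroup p G) (a b : G) (k : ℕ) : a ^ p ^ k * b = b * a ^ p ^ k ↔ (a⁻¹ * b⁻¹ * a * b) ^ p ^ k = 1 := by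
  have h1 : a ^ p ^ k * b = b * a ^ p ^ k ↔ a ^ p ^ k = (b⁻¹ * a * b) ^ p ^ k := by
    have e : (b⁻¹ * a * b) ^ p ^ k = b⁻¹ * a ^ p ^ k * b := by
      have := conj_pow (i := p ^ k) (a := b⁻¹) (b := a)
      rw [inv_inv] at this
      exact this
    rw [e]
    constructor
    · intro h
      rw [mul_assoc, h, inv_mul_cancel_left]
    · intro h
      conv_rhs => rw [h]
      group
  rw [h1, H11.IsRegularPGroup_pow_eq_iff hG]
  have e : a⁻¹ * (b⁻¹ * a * b) = a⁻¹ * b⁻¹ * a * b := by group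
  rw [e]

end Cfsg.Agent.S4224
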