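import Cfsg.Statements.S4226
import Cfsg.Agent.S4215

set_option autoImplicit false
open Cfsg

namespace Cfsg.Agent.S4226

open Subgroup

open scoped commutatorElement

theorem iter_mem {G : Type*} [Group G] (P : Subgroup G) (z : G) (hz : z ∈ P) (k : ℕ) :
    ∀ (n : ℕ) (w : G), w ∈ P.lowerCentralSeries n →
    (fun y : G => y⁻¹ * z⁻¹ * y * z)^[k] w ∈ P.lowerCentralSeries (n + k) := by
  induction k with
  | zero => intro n w hw; exact hw
  | succ k ih =>
    intro n w hw
    rw [Function.iterate_succ_apply]
    have e : n + (k + 1) = (n + 1) + k := by ring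
    rw [e]
    apply ih
    have h1 : ⁅w⁻¹, z⁻¹⁆ ∈ ⁅P.lowerCentralSeries n, P⁆ :=
      commutator_mem_commutator (inv_mem hw) (inv_mem hz)
    rw [commutatorElement_def, inv_inv, inv_inv] at h1
    exact h1

/-- Let `P` be a Sylow `p`-subgroup of the finite group `G` with nilpotency class less than `p` (the term of index `p - 1` of the lower central series of `P`, indexed from `0`, is trivial), and let `N` be its normalizer. Then `O^p(N) = O^p(G) ∩ N`, where `O^p` denotes the subgroup generated by the elements of order prime to `p`; so the largest `p`-factor groups of `G` and of `N` are isomorphic. -/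
theorem result {G : Type*} [Group G] [Finite G] {p : ℕ} [Fact p.Prime] (P : Sylow p G) (hcl : (P : Subgroup G).lowerCentralSeries (p - 1) = ⊥) : Cfsg.pResidualOf p (Subgroup.normalizer ((P : Subgroup G) : Set G)) = Cfsg.pResidual p G ⊓ Subgroup.normalizer ((P : Subgroup G) : Set G) := by
  refine Cfsg.Agent.S4215.result P (P : Subgroup G) ⟨le_rfl, ?_⟩ ?_
  · intro g hg
    apply Subgroup.eq_of_le_of_card_ge hg
    rw [Subgroup.card_map_of_injective (MulAut.conj g).injective]
  · intro u hu z hz
    have h1 := iter_mem (P : Subgroup G) z hz (p - 1) 0 u hu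
    rw [zero_add, hcl] at h1
    exact h1

end Cfsg.Agent.S4226
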