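import Cfsg.Statements.S4227
import Cfsg.Agent.S0144
import Cfsg.Agent.S0018
import Cfsg.Agent.H63.PLen
import Cfsg.Agent.ZJ.SolvFact
import Cfsg.Agent.H76.PSolvable
import Cfsg.Agent.Cop.Basic
import Cfsg.Agent.Solv.Core
import Cfsg.Agent.Solv.Frattini

set_option autoImplicit false
open Cfsg

namespace Cfsg.Agent.S4227

open Cfsg.Agent

/-- the action on the Frattini quotient of a normal subgroup -/
def cq {G : Type*} [Group G] (V : Subgroup G) [V.Normal] : G →* MulAut (V ⧸ frattini V) where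
  toFun g := QuotientGroup.congr (frattini V) (frattini V) (MulAut.conjNormal g)
    ((Subgroup.characteristic_iff_map_eq.mp inferInstance) _)
  map_one' := by
    ext x
    induction x using QuotientGroup.induction_on with
    | H v =>
      refine congrArg (QuotientGroup.mk) ?_
      exact congrArg (fun e : MulAut V => e v) (map_one (MulAut.conjNormal : G →* MulAut V))
  map_mul' := fun a b => by
    ext x
    induction x using QuotientGroup.induction_on with
    | H v =>
      refine congrArg (QuotientGroup.mk) ?_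
      exact congrArg (fun e : MulAut V => e v) (map_mul (MulAut.conjNormal : G →* MulAut V) a b)

theorem cq_mk {G : Type*} [Group G] (V : Subgroup G) [V.Normal] (g : G) (v : V) :
    cq V g (v : V ⧸ frattini V) = ((MulAut.conjNormal g v : V) : V ⧸ frattini V) := rfl

theorem p3 {H : Type*} [Group H] (a : H) : a ^ 3 = a * a * a := by
  simp only [pow_succ, pow_zero, one_mul]

theorem K {W H : Type*} [CommGroup W] [Group H] (φ : H →* MulAut W) (h3 : ∀ x : W, x ^ 3 = 1)
    (hN : ∀ h : H, h ^ 3 = 1 → ∀ x : W, x * φ h x * φ h (φ h x) = 1)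
    (g u0 u1 u2 : H) (hg : g ^ 3 = 1) (h01 : g * u0 = u1 * g) (h12 : g * u1 = u2 * g)
    (h20 : g * u2 = u0 * g) (m01 : u0 * u1 = u2) (m12 : u1 * u2 = u0) (m20 : u2 * u0 = u1)
    (s0 : u0 * u0 = 1) (x : W) : φ u0 x = x := by
  have am : ∀ (a b : H) (w : W), φ (a * b) w = φ a (φ b w) := fun a b w => by
    rw [map_mul]; rfl
  have m10 : u1 * u0 = u2 := by
    rw [← m20, ← m01]
    rw [mul_assoc, mul_assoc, s0, mul_one]
  have hg3 : g * g * g = 1 := by rw [← hg, p3]
  have c0 : (g * u0) ^ 3 = 1 := by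
    rw [p3, h01]
    calc u1 * g * (u1 * g) * (u1 * g) = u1 * (g * u1) * (g * u1) * g := by group
      _ = u1 * u2 * (g * u2) * (g * g) := by rw [h12]; group
      _ = u1 * u2 * u0 * (g * g * g) := by rw [h20]; group
      _ = 1 := by rw [hg3, m12, s0, mul_one]
  have s1 : u1 * u1 = 1 := by
    nth_rewrite 1 [← m20]
    rw [mul_assoc, m01]
    nth_rewrite 1 [← m10]
    rw [← m01, mul_assoc, ← mul_assoc u0 u0, s0, one_mul]
    have : u1 * u1 * (u0 * u0) = u1 * (u1 * u0) * u0 := by group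
    rw [s0, mul_one, m10] at this
    have h5 : u1 * u1 = u1 * u2 * u0 := this
    rw [m12, s0] at h5
    exact h5
  have m21 : u2 * u1 = u0 := by
    rw [← m01, mul_assoc, s1, mul_one]
  have m02 : u0 * u2 = u1 := by
    rw [← m01, ← mul_assoc, s0, one_mul]
  have c1 : (g * u1) ^ 3 = 1 := by
    rw [p3, h12]
    calc u2 * g * (u2 * g) * (u2 * g) = u2 * (g * u2) * (g * u2) * g := by group
      _ = u2 * u0 * (g * u0) * (g * g) := by rw [h20]; group
      _ = u2 * u0 * u1 * (g * g * g) := by rw [h01]; group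
      _ = 1 := by rw [hg3, m20, s1, mul_one]
  have s2 : u2 * u2 = 1 := by
    nth_rewrite 1 [← m01]
    rw [mul_assoc, m12, s0]
  have c2 : (g * u2) ^ 3 = 1 := by
    rw [p3, h20]
    calc u0 * g * (u0 * g) * (u0 * g) = u0 * (g * u0) * (g * u0) * g := by group
      _ = u0 * u1 * (g * u1) * (g * g) := by rw [h01]; group
      _ = u0 * u1 * u2 * (g * g * g) := by rw [h12]; group
      _ = 1 := by rw [hg3, m01, s2, mul_one]
  set y := x * (φ u0 x)⁻¹ with hy
  have y0 : φ u0 y = φ u0 x * x⁻¹ := by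
    rw [hy, map_mul, map_inv, ← am, s0, map_one]; rfl
  have y1 : φ u1 y = φ u1 x * (φ u2 x)⁻¹ := by
    rw [hy, map_mul, map_inv, ← am, m10]
  have y2 : φ u2 y = φ u2 x * (φ u1 x)⁻¹ := by
    rw [hy, map_mul, map_inv, ← am, m20]
  have hσ : y * φ u0 y * φ u1 y * φ u2 y = 1 := by
    rw [y0, y1, y2, hy]
    have : x * (φ u0 x)⁻¹ * (φ u0 x * x⁻¹) * (φ u1 x * (φ u2 x)⁻¹) * (φ u2 x * (φ u1 x)⁻¹) =
      (x * x⁻¹) * (φ u0 x * (φ u0 x)⁻¹) * (φ u1 x * (φ u1 x)⁻¹) * (φ u2 x * (φ u2 x)⁻¹) := by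
      simp only [mul_comm, mul_left_comm, mul_assoc]
    rw [this]
    simp
  have e := hN g hg y
  have e0 := hN (g * u0) c0 y
  have e1 := hN (g * u1) c1 y
  have e2 := hN (g * u2) c2 y
  have r0 : φ (g * u0) (φ (g * u0) y) = φ g (φ g (φ u1 y)) := by
    rw [← am, ← am, ← am]
    congr 2
    calc g * u0 * (g * u0) = g * (u0 * g) * u0 := by group
      _ = g * (g * (u2 * u0)) := by rw [← h20]; group
      _ = g * g * u1 := by rw [m20, mul_assoc]
  have r1 : φ (g * u1) (φ (g * u1) y) = φ g (φ g (φ u2 y)) := by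
    rw [← am, ← am, ← am]
    congr 2
    calc g * u1 * (g * u1) = g * (u1 * g) * u1 := by group
      _ = g * (g * (u0 * u1)) := by rw [← h01]; group
      _ = g * g * u2 := by rw [m01, mul_assoc]
  have r2 : φ (g * u2) (φ (g * u2) y) = φ g (φ g (φ u0 y)) := by
    rw [← am, ← am, ← am]
    congr 2
    calc g * u2 * (g * u2) = g * (u2 * g) * u2 := by group
      _ = g * (g * (u1 * u2)) := by rw [← h12]; group
      _ = g * g * u0 := by rw [m12, mul_assoc]
  rw [r0, am] at e0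
  rw [r1, am] at e1
  rw [r2, am] at e2
  have hprod : y ^ 4 * φ g (y * φ u0 y * φ u1 y * φ u2 y) *
      φ g (φ g (y * φ u0 y * φ u1 y * φ u2 y)) =
      (y * φ g y * φ g (φ g y)) * (y * φ g (φ u0 y) * φ g (φ g (φ u1 y))) *
      (y * φ g (φ u1 y) * φ g (φ g (φ u2 y))) * (y * φ g (φ u2 y) * φ g (φ g (φ u0 y))) := by
    simp only [map_mul]
    have h4 : y ^ 4 = y * y * y * y := by simp only [pow_succ, pow_zero, one_mul]
    rw [h4]
    generalize φ g (φ g y) = B
    generalize φ g (φ g (φ u0 y)) = B0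
    generalize φ g (φ g (φ u1 y)) = B1
    generalize φ g (φ g (φ u2 y)) = B2
    generalize φ g y = A
    generalize φ g (φ u0 y) = A0
    generalize φ g (φ u1 y) = A1
    generalize φ g (φ u2 y) = A2
    generalize y = z
    ac_rfl
  rw [hσ, e, e0, e1, e2, map_one, map_one] at hprod
  simp only [mul_one] at hprod
  have hy1 : y = 1 := by
    have h5 : y ^ 4 = y ^ 3 * y := by rw [pow_succ]
    rw [h5, h3, one_mul] at hprod
    exact hprod
  rw [hy, mul_inv_eq_one] at hy1
  exact hy1.symm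

theorem pow3_of {G : Type*} [Group G] (x : G) (h6 : x ^ 6 = 1) (k : ℕ) (hk : x ^ 3 ^ k = 1) :
    x ^ 3 = 1 := by
  have h1 := orderOf_dvd_of_pow_eq_one h6
  have h2 := orderOf_dvd_of_pow_eq_one hk
  have h3 : orderOf x ∣ Nat.gcd 6 (3 ^ k) := Nat.dvd_gcd h1 h2
  have h4 : Nat.gcd 6 (3 ^ k) ∣ 3 := by
    have h5 : Nat.gcd (2 * 3) (3 ^ k) = Nat.gcd 3 (3 ^ k) := by
      apply Nat.Coprime.gcd_mul_left_cancel
      apply Nat.Coprime.pow_right
      norm_num
    rw [show (6 : ℕ) = 2 * 3 by norm_num, h5]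
    exact Nat.gcd_dvd_left _ _
  exact orderOf_dvd_iff_pow_eq_one.mp (h3.trans h4)

theorem pow2_of {G : Type*} [Group G] (x : G) (h6 : x ^ 6 = 1) (k : ℕ) (hk : x ^ 2 ^ k = 1) :
    x ^ 2 = 1 := by
  have h1 := orderOf_dvd_of_pow_eq_one h6
  have h2 := orderOf_dvd_of_pow_eq_one hk
  have h3 : orderOf x ∣ Nat.gcd 6 (2 ^ k) := Nat.dvd_gcd h1 h2
  have h4 : Nat.gcd 6 (2 ^ k) ∣ 2 := by
    have h5 : Nat.gcd (3 * 2) (2 ^ k) = Nat.gcd 2 (2 ^ k) := by
      apply Nat.Coprime.gcd_mul_left_cancel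
      apply Nat.Coprime.pow_right
      norm_num
    rw [show (6 : ℕ) = 3 * 2 by norm_num, h5]
    exact Nat.gcd_dvd_left _ _
  exact orderOf_dvd_iff_pow_eq_one.mp (h3.trans h4)

theorem comm_of_sq {G : Type*} [Group G] (a b : G) (ha : a ^ 2 = 1) (hb : b ^ 2 = 1)
    (hab : (a * b) ^ 2 = 1) : a * b = b * a := by
  have h1 : a⁻¹ = a := by rw [inv_eq_iff_mul_eq_one, ← pow_two, ha]
  have h2 : b⁻¹ = b := by rw [inv_eq_iff_mul_eq_one, ← pow_two, hb]
  have h3 : (a * b)⁻¹ = a * b := by rw [inv_eq_iff_mul_eq_one, ← pow_two, hab]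
  rw [← h3, mul_inv_rev, h1, h2]

theorem card_two_three {G : Type*} [Group G] [Finite G] (h : ∀ x : G, x ^ 6 = 1) :
    ∃ a b : ℕ, Nat.card G = 2 ^ a * 3 ^ b := by
  have hprime : ∀ p : ℕ, p.Prime → p ∣ Nat.card G → p = 2 ∨ p = 3 := by
    intro p hp hpd
    have : Fact p.Prime := ⟨hp⟩
    obtain ⟨x, hx⟩ := exists_prime_orderOf_dvd_card' p hpd
    have h1 : p ∣ 2 * 3 := by
      rw [← hx]; exact orderOf_dvd_of_pow_eq_one (h x)
    rcases (Nat.Prime.dvd_mul hp).mp h1 with h2 | h2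
    · exact Or.inl ((Nat.prime_dvd_prime_iff_eq hp Nat.prime_two).mp h2)
    · exact Or.inr ((Nat.prime_dvd_prime_iff_eq hp Nat.prime_three).mp h2)
  obtain ⟨a, m, hm, ham⟩ := Nat.exists_eq_pow_mul_and_not_dvd (Nat.card_pos (α := G)).ne' 2 (by norm_num)
  have hm0 : m ≠ 0 := by rintro rfl; exact hm (dvd_zero _)
  obtain ⟨b, k, hk, hbk⟩ := Nat.exists_eq_pow_mul_and_not_dvd hm0 3 (by norm_num)
  refine ⟨a, b, ?_⟩
  have hk1 : k = 1 := by
    by_contra hk1
    obtain ⟨q, hq, hqk⟩ := Nat.exists_prime_and_dvd hk1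
    have h1 : q ∣ Nat.card G := by
      rw [ham, hbk]
      exact (hqk.mul_left _).mul_left _
    rcases hprime q hq h1 with rfl | rfl
    · apply hm
      rw [hbk]; exact hqk.mul_left _
    · exact hk hqk
  rw [ham, hbk, hk1, mul_one]

theorem three_aux {G : Type*} [Group G] [Finite G] (h : ∀ x : G, x ^ 6 = 1)
    (hs : Group.IsSolvable G) (hO : pPrimeCore 3 G = ⊥) : ¬ 3 ∣ (pCore 3 G).index := by
  have f3 : Fact (Nat.Prime 3) := ⟨Nat.prime_three⟩
  have f2 : Fact (Nat.Prime 2) := ⟨Nat.prime_two⟩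
  set V := pCore 3 G with hV
  have hVn : V.Normal := inferInstance
  have hVp : IsPGroup 3 V := Solv.pCore_isPGroup 3
  have hCV : Subgroup.centralizer (V : Set G) ≤ V :=
    H76.centralizer_pCore_le (ZJ.isPSolvable_of_isSolvable 3 hs) hO
  have hV3 : ∀ v ∈ V, v ^ 3 = 1 := by
    intro v hv
    obtain ⟨k, hk⟩ := hVp ⟨v, hv⟩
    exact pow3_of v (h v) k (congrArg Subtype.val hk)
  intro hdvd
  have h6' : ∀ x : G ⧸ V, x ^ 6 = 1 := by
    intro x
    obtain ⟨a, rfl⟩ := QuotientGroup.mk'_surjective V x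
    rw [← map_pow, h, map_one]
  have hQs : Group.IsSolvable (G ⧸ V) := inferInstance
  have hO3 : pCore 3 (G ⧸ V) = ⊥ := Solv.pCore_quotient_pCore 3
  obtain ⟨a, b, hab⟩ := card_two_three h6'
  have hO2 : pPrimeCore 2 (G ⧸ V) = ⊥ := by
    rw [eq_bot_iff, ← hO3]
    apply Solv.le_pCore inferInstance
    have hc := Solv.pPrimeCore_card_coprime (G := G ⧸ V) 2
    have hd : Nat.card (pPrimeCore 2 (G ⧸ V)) ∣ 2 ^ a * 3 ^ b := by
      rw [← hab]; exact Subgroup.card_subgroup_dvd_card _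
    have hd2 : Nat.card (pPrimeCore 2 (G ⧸ V)) ∣ 3 ^ b := by
      apply Nat.Coprime.dvd_of_dvd_mul_left _ hd
      exact Nat.Coprime.pow_right _ hc
    rw [Nat.dvd_prime_pow Nat.prime_three] at hd2
    obtain ⟨j, -, hj⟩ := hd2
    exact IsPGroup.of_card hj
  set Q := pCore 2 (G ⧸ V) with hQ
  have hQn : Q.Normal := inferInstance
  have hCQ : Subgroup.centralizer (Q : Set (G ⧸ V)) ≤ Q :=
    H76.centralizer_pCore_le (ZJ.isPSolvable_of_isSolvable 2 hQs) hO2
  have hQp : IsPGroup 2 Q := Solv.pCore_isPGroup 2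
  have hQ2 : ∀ v ∈ Q, v ^ 2 = 1 := by
    intro v hv
    obtain ⟨k, hk⟩ := hQp ⟨v, hv⟩
    exact pow2_of v (h6' v) k (congrArg Subtype.val hk)
  have hQc : ∀ u ∈ Q, ∀ v ∈ Q, u * v = v * u := fun u hu v hv =>
    comm_of_sq u v (hQ2 u hu) (hQ2 v hv) (hQ2 _ (Q.mul_mem hu hv))
  rw [Subgroup.index_eq_card] at hdvd
  obtain ⟨g, hg⟩ := exists_prime_orderOf_dvd_card' 3 hdvd
  have hg3 : g ^ 3 = 1 := by rw [← hg, pow_orderOf_eq_one]
  have hgQ : g ∉ Q := by
    intro hgQ
    have h1 := hQ2 g hgQ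
    have h2 := orderOf_dvd_of_pow_eq_one h1
    rw [hg] at h2
    omega
  obtain ⟨w, hwQ, hw⟩ : ∃ w ∈ Q, g * w ≠ w * g := by
    by_contra hcon
    push Not at hcon
    apply hgQ
    apply hCQ
    rw [Subgroup.mem_centralizer_iff]
    intro w hw
    exact (hcon w hw).symm
  -- the four-group
  set w1 := g * w * g⁻¹ with hw1
  set w2 := g * w1 * g⁻¹ with hw2
  have hw1Q : w1 ∈ Q := hQn.conj_mem w hwQ g
  have hw2Q : w2 ∈ Q := hQn.conj_mem w1 hw1Q g
  have hw3 : g * w2 * g⁻¹ = w := by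
    have h1 : g * w2 * g⁻¹ = g ^ 3 * w * (g ^ 3)⁻¹ := by rw [hw2, hw1, p3]; group
    rw [h1, hg3]; group
  have q1 : w * w = 1 := by rw [← pow_two]; exact hQ2 w hwQ
  have q2 : w1 * w1 = 1 := by rw [← pow_two]; exact hQ2 w1 hw1Q
  have q3 : w2 * w2 = 1 := by rw [← pow_two]; exact hQ2 w2 hw2Q
  have c1 := hQc w hwQ w1 hw1Q
  have c2 := hQc w hwQ w2 hw2Q
  have c3 := hQc w1 hw1Q w2 hw2Q
  set u0 := w * w1 with hu0
  set u1 := w1 * w2 with hu1
  set u2 := w2 * w with hu2
  have hu0Q : u0 ∈ Q := Q.mul_mem hwQ hw1Q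
  have h01 : g * u0 = u1 * g := by
    rw [← mul_inv_eq_iff_eq_mul, hu0, hu1, hw2]
    nth_rewrite 3 [hw1]
    rw [hw1]; group
  have h12 : g * u1 = u2 * g := by
    rw [← mul_inv_eq_iff_eq_mul]
    have : g * u1 * g⁻¹ = (g * w1 * g⁻¹) * (g * w2 * g⁻¹) := by rw [hu1]; group
    rw [this, hw3]
  have h20 : g * u2 = u0 * g := by
    rw [← mul_inv_eq_iff_eq_mul]
    have : g * u2 * g⁻¹ = (g * w2 * g⁻¹) * (g * w * g⁻¹) := by rw [hu2]; group
    rw [this, hw3]
  have m01 : u0 * u1 = u2 := by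
    calc w * w1 * (w1 * w2) = w * (w1 * w1) * w2 := by group
      _ = w * w2 := by rw [q2, mul_one]
      _ = w2 * w := c2
  have m12 : u1 * u2 = u0 := by
    calc w1 * w2 * (w2 * w) = w1 * (w2 * w2) * w := by group
      _ = w1 * w := by rw [q3, mul_one]
      _ = w * w1 := c1.symm
  have m20 : u2 * u0 = u1 := by
    calc w2 * w * (w * w1) = w2 * (w * w) * w1 := by group
      _ = w2 * w1 := by rw [q1, mul_one]
      _ = w1 * w2 := c3.symm
  have s0 : u0 * u0 = 1 := by rw [← pow_two]; exact hQ2 u0 hu0Q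
  have hu0ne : u0 ≠ 1 := by
    intro h1
    apply hw
    have h2 : w1 = w := by
      have h3 : w * w1 = w * w := by rw [q1]; exact h1
      exact mul_left_cancel h3
    rw [hw1, mul_inv_eq_iff_eq_mul] at h2
    exact h2
  -- the module
  let W := V ⧸ frattini V
  let inst : CommGroup W := { (inferInstance : Group (V ⧸ frattini V)) with
    mul_comm := ((Subgroup.Normal.quotient_commutative_iff_commutator_le).mpr
      (Solv.commutator_le_frattini_of_pGroup hVp)).is_comm.comm }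
  have htr : ∀ v ∈ V, cq V v = 1 := by
    intro v hv
    ext x
    induction x using QuotientGroup.induction_on with
    | H x =>
      rw [cq_mk]
      have h1 : (MulAut.conjNormal v x : V) = ⟨v, hv⟩ * x * ⟨v, hv⟩⁻¹ := Subtype.ext rfl
      rw [h1]
      have h2 : (((⟨v, hv⟩ : V) : W) * (x : W) * ((⟨v, hv⟩ : V) : W)⁻¹) = (x : W) := by
        rw [mul_comm (((⟨v, hv⟩ : V) : W)), mul_inv_cancel_right]
      exact h2
  let φ : G ⧸ V →* MulAut W := QuotientGroup.lift V (cq V) htr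
  have hφ : ∀ (a : G) (x : V), φ (a : G ⧸ V) (x : W) = ((MulAut.conjNormal a x : V) : W) :=
    fun a x => rfl
  have hW3 : ∀ x : W, x ^ 3 = 1 := by
    intro x
    obtain ⟨v, rfl⟩ := QuotientGroup.mk'_surjective _ x
    rw [← map_pow]
    have : v ^ 3 = 1 := Subtype.ext (hV3 v v.2)
    rw [this, map_one]
  have hN : ∀ y : G ⧸ V, y ^ 3 = 1 → ∀ x : W, x * φ y x * φ y (φ y x) = 1 := by
    intro y hy x
    obtain ⟨a, rfl⟩ := QuotientGroup.mk'_surjective V y
    obtain ⟨v, rfl⟩ := QuotientGroup.mk'_surjective _ x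
    set t := a ^ 4 with ht
    have ht3 : t ^ 3 = 1 := by
      rw [ht, ← pow_mul, show 4 * 3 = 6 * 2 by norm_num, pow_mul, h, one_pow]
    have hat : QuotientGroup.mk' V a = QuotientGroup.mk' V t := by
      rw [ht, map_pow, show (4 : ℕ) = 3 + 1 by norm_num, pow_add, hy, one_mul, pow_one]
    rw [hat]
    have h1 : ((v : G) * t) ^ 3 = 1 := by
      have h2 : ((v : G) * t) ^ 3 ∈ V := by
        rw [← QuotientGroup.eq_one_iff]
        change QuotientGroup.mk' V (((v : G) * t) ^ 3) = 1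
        have hv1 : QuotientGroup.mk' V (v : G) = 1 := (QuotientGroup.eq_one_iff (v : G)).mpr v.2
        rw [map_pow, map_mul, ← hat, hv1, one_mul, hy]
      have h3 := hV3 _ h2
      have h4 : ((v : G) * t) ^ 3 = (((v : G) * t) ^ 3) ^ 3 * ((((v : G) * t) ^ 6))⁻¹ := by
        rw [eq_mul_inv_iff_mul_eq, ← pow_add, ← pow_mul]
      rw [h4, h3, h, one_mul, inv_one]
    have h5 : v * MulAut.conjNormal t v * MulAut.conjNormal t (MulAut.conjNormal t v) = 1 := by
      apply Subtype.ext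
      change (v : G) * (t * v * t⁻¹) * (t * (t * v * t⁻¹) * t⁻¹) = 1
      rw [← h1]
      have : ((v : G) * t) ^ 3 = (v : G) * (t * v * t⁻¹) * (t * (t * v * t⁻¹) * t⁻¹) * t ^ 3 := by
        rw [p3, p3]; group
      rw [this, ht3, mul_one]
    exact congrArg (QuotientGroup.mk : V → W) h5
  have hfin := K φ hW3 hN g u0 u1 u2 hg3 h01 h12 h20 m01 m12 m20 s0
  -- lift
  obtain ⟨a, ha⟩ := QuotientGroup.mk'_surjective V u0
  have hs2 : (a ^ 3) ^ 2 = 1 := by rw [← pow_mul]; exact h a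
  have hsu : QuotientGroup.mk' V (a ^ 3) = u0 := by
    rw [map_pow, ha, pow_succ, pow_two, s0, one_mul]
  have hle : Subgroup.zpowers (a ^ 3) ≤ Subgroup.centralizer (V : Set G) := by
    apply Cop.le_centralizer_of_frattini
    · rw [Subgroup.normalizer_eq_top V]
      exact le_top
    · have h1 : Nat.card (Subgroup.zpowers (a ^ 3)) ∣ 2 := by
        rw [Nat.card_zpowers]
        exact orderOf_dvd_of_pow_eq_one hs2
      obtain ⟨k, hk⟩ := IsPGroup.iff_card.mp (hVp.to_subgroup (frattini V))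
      rw [hk]
      apply Nat.Coprime.coprime_dvd_left h1
      apply Nat.Coprime.pow_right
      norm_num
    · intro s hs k hk
      have hinv : ∀ x : W, cq V (a ^ 3) x = x := by
        intro x
        have := hfin x
        rw [← hsu] at this
        exact this
      have hpow : ∀ x : W, cq V s x = x := by
        have h1 : Subgroup.zpowers (a ^ 3) ≤ (cq V).ker := by
          rw [Subgroup.zpowers_le, MonoidHom.mem_ker]
          ext x
          exact hinv x
        have h2 := MonoidHom.mem_ker.mp (h1 hs)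
        intro x
        rw [h2]; rfl
      have h1 := hpow ((⟨k, hk⟩ : V) : W)
      rw [cq_mk] at h1
      have h2 := QuotientGroup.eq.mp h1.symm
      have h3 : (MulAut.conjNormal s (⟨k, hk⟩ : V) : V) * (⟨k, hk⟩ : V)⁻¹ ∈ frattini V := by
        have hn : (frattini V).Normal := inferInstance
        exact hn.mem_comm h2
      exact ⟨_, h3, rfl⟩
  apply hu0ne
  rw [← hsu]
  exact (QuotientGroup.eq_one_iff _).mpr (hCV (hle (Subgroup.mem_zpowers _)))

theorem pLengthLE_one_of {G : Type*} [Group G] [Finite G] {p : ℕ} [Fact p.Prime]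
    (M N : Subgroup G) [M.Normal] [N.Normal] (hMN : M ≤ N) (h1 : (Nat.card M).Coprime p)
    (m : ℕ) (h2 : M.relIndex N ∣ p ^ m) (h3 : N.index.Coprime p) : PLengthLE p 1 G := by
  rw [H63.pLengthLE_iff]
  let H : ℕ → Subgroup G := fun n => match n with
    | 0 => ⊥
    | 1 => M
    | 2 => N
    | _ + 3 => ⊤
  refine ⟨H, ⟨?_, ?_, ?_, ?_⟩, rfl, rfl⟩
  · intro n
    match n with
    | 0 => exact (inferInstance : (⊥ : Subgroup G).Normal)
    | 1 => exact (inferInstance : M.Normal)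
    | 2 => exact (inferInstance : N.Normal)
    | _ + 3 => exact (inferInstance : (⊤ : Subgroup G).Normal)
  · apply monotone_nat_of_le_succ
    intro n
    match n with
    | 0 => exact bot_le
    | 1 => exact hMN
    | 2 => exact le_top
    | _ + 3 => exact le_rfl
  · intro n hn
    match n, hn with
    | 0, _ =>
      change ((⊥ : Subgroup G).relIndex M).Coprime p
      rw [Subgroup.relIndex_bot_left]
      exact h1
    | 1, hn => exact absurd hn (by decide)
    | 2, _ =>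
      change (N.relIndex ⊤).Coprime p
      rw [Subgroup.relIndex_top_right]
      exact h3
    | k + 3, _ =>
      change ((⊤ : Subgroup G).relIndex ⊤).Coprime p
      rw [Subgroup.relIndex_self]
      exact Nat.coprime_one_left p
  · intro n hn
    match n, hn with
    | 0, hn => exact absurd (by decide) hn
    | 1, _ => exact ⟨m, h2⟩
    | 2, hn => exact absurd (by decide) hn
    | k + 3, _ =>
      refine ⟨0, ?_⟩
      change ((⊤ : Subgroup G).relIndex ⊤) ∣ p ^ 0
      rw [Subgroup.relIndex_self]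
      exact one_dvd _

/-- A finite group in which every element has order dividing `6` has `2`-length at most `1` and `3`-length at most `1`. -/
theorem result {G : Type*} [Group G] [Finite G] (h : ∀ x : G, x ^ 6 = 1) : Cfsg.PLengthLE 2 1 G ∧ Cfsg.PLengthLE 3 1 G := by
  have f3 : Fact (Nat.Prime 3) := ⟨Nat.prime_three⟩
  have f2 : Fact (Nat.Prime 2) := ⟨Nat.prime_two⟩
  obtain ⟨a, b, hab⟩ := card_two_three h
  have hs : Group.IsSolvable G := S0144.result 2 3 a b Nat.prime_two Nat.prime_three hab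
  constructor
  · obtain ⟨P⟩ : Nonempty (Sylow 2 G) := inferInstance
    have hPc : IsMulCommutative P := by
      refine ⟨⟨fun x y => ?_⟩⟩
      have hx2 : ∀ x : P, x ^ 2 = 1 := by
        intro x
        obtain ⟨k, hk⟩ := P.isPGroup' x
        exact Subtype.ext (pow2_of (x : G) (h x) k (congrArg Subtype.val hk))
      exact comm_of_sq x y (hx2 x) (hx2 y) (hx2 _)
    have hn := S0018.result 2 P hPc
    obtain ⟨m, hm⟩ := IsPGroup.iff_card.mp P.isPGroup'
    refine pLengthLE_one_of (pPrimeCore 2 G) ((P : Subgroup G) ⊔ pPrimeCore 2 G) le_sup_right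
      (Solv.pPrimeCore_card_coprime 2) m ?_ ?_
    · rw [sup_comm, Subgroup.relIndex_sup_left, ← hm]
      exact Subgroup.relIndex_dvd_card _ _
    · have h1 : ¬ 2 ∣ ((P : Subgroup G)).index := Sylow.not_dvd_index P
      have h2 : ((P : Subgroup G) ⊔ pPrimeCore 2 G).index ∣ (P : Subgroup G).index :=
        Subgroup.index_dvd_of_le le_sup_left
      rw [Nat.coprime_comm, Nat.Prime.coprime_iff_not_dvd Nat.prime_two]
      exact fun h3 => h1 (h3.trans h2)
  · set M := pPrimeCore 3 G with hM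
    have hMn : M.Normal := inferInstance
    have hq6 : ∀ x : G ⧸ M, x ^ 6 = 1 := by
      intro x
      obtain ⟨a, rfl⟩ := QuotientGroup.mk'_surjective M x
      rw [← map_pow, h, map_one]
    have hqs : Group.IsSolvable (G ⧸ M) := inferInstance
    have hq := three_aux hq6 hqs (Solv.pPrimeCore_quotient_pPrimeCore 3)
    have hCp : IsPGroup 3 (pCore 3 (G ⧸ M)) := Solv.pCore_isPGroup 3
    obtain ⟨m, hm⟩ := IsPGroup.iff_card.mp hCp
    refine pLengthLE_one_of M ((pCore 3 (G ⧸ M)).comap (QuotientGroup.mk' M)) (H63.le_comap_mk' _ _)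
      (Solv.pPrimeCore_card_coprime 3) m ?_ ?_
    · rw [H63.relIndex_comap_mk', hm]
    · rw [Subgroup.index_comap_of_surjective _ (QuotientGroup.mk'_surjective _),
        Nat.coprime_comm, Nat.Prime.coprime_iff_not_dvd Nat.prime_three]
      exact hq

end Cfsg.Agent.S4227
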