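import Cfsg.Statements.S4273
import Cfsg.Agent.OrdJ.Main

set_option autoImplicit false
open Cfsg

namespace Cfsg.Agent.S4273

/-- Uniqueness of the simple group of order 175560: any two finite simple groups of order 175560 are isomorphic. -/
theorem result {G : Type*} {H : Type*} [Group G] [Finite G] [IsSimpleGroup G] [Group H] [Finite H] [IsSimpleGroup H] (hG : Nat.card G = 175560) (hH : Nat.card H = 175560) : Nonempty (G ≃* H) := by
  obtain ⟨E⟩ := Cfsg.Agent.OrdJ.exists_emb hG
  obtain ⟨F⟩ := Cfsg.Agent.OrdJ.exists_emb hH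
  exact Cfsg.Agent.JC.iso_of_emb E F (by rw [hG]; norm_num) (by rw [hH]; norm_num)

end Cfsg.Agent.S4273
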