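import Cfsg.Statements.S4274
import Cfsg.Agent.OrdJ.Nine3
-- import your own Cfsg.Agent.* helpers here

set_option autoImplicit false
open Cfsg

namespace Cfsg.Agent.S4274

/-- A finite group of order 175560 = 2³·3·5·7·11·19 is either simple or has a normal Sylow 19-subgroup. -/
theorem result {G : Type*} [Group G] [Finite G] (hG : Nat.card G = 175560) : IsSimpleGroup G ∨ ∀ P : Sylow 19 G, (P : Subgroup G).Normal := by
  by_cases hs : IsSimpleGroup G
  · exact Or.inl hs
  · exact Or.inr fun P => Cfsg.Agent.OrdJ.nineteen_normal hG hs P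

end Cfsg.Agent.S4274
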