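import Cfsg.Statements.S4276
import Cfsg.Agent.H71.TwistPerm

set_option autoImplicit false
open Cfsg

namespace Cfsg.Agent.S4276

/-- Let G be a doubly transitive group of permutations of a finite set Ω of size n, let o ∈ Ω, and let α be an automorphism of G of odd order. Suppose that the image under α of the stabilizer of o has an orbit on Ω whose length k is coprime to n. Then α is induced by conjugation by a permutation of Ω normalizing G, and k = 1 or k = n − 1. -/
theorem result {Ω : Type*} [Fintype Ω] (G : Subgroup (Equiv.Perm Ω)) (h2 : MulAction.IsMultiplyPretransitive G Ω 2) (o : Ω) (α : MulAut G) (hα : Odd (orderOf α)) (ω : Ω) (hk : (Nat.card (MulAction.orbit ((MulAction.stabilizer G o).map α.toMonoidHom) ω)).Coprime (Fintype.card Ω)) : (∃ σ : Equiv.Perm Ω, σ ∈ Subgroup.normalizer (G : Set (Equiv.Perm Ω)) ∧ ∀ g : G, ((α g : G) : Equiv.Perm Ω) = σ * (g : Equiv.Perm Ω) * σ⁻¹) ∧ (Nat.card (MulAction.orbit ((MulAction.stabilizer G o).map α.toMonoidHom) ω) = 1 ∨ Nat.card (MulAction.orbit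 ((MulAction.stabilizer G o).map α.toMonoidHom) ω) = Fintype.card Ω - 1) := by
  classical
  have htr : MulAction.IsPretransitive G Ω := by
    haveI := h2
    exact MulAction.isPretransitive_of_is_two_pretransitive
  set K := (MulAction.stabilizer G o).map α.toMonoidHom with hK
  have key : Nat.card (MulAction.orbit K ω) = 1 ∨ Nat.card (MulAction.orbit K ω) = Fintype.card Ω - 1 := by
    by_cases hn : 2 ≤ Fintype.card Ω
    · exact Cfsg.Agent.H71.TwistPerm.main α o ω h2 hα hk hn
    · left
      haveI : Subsingleton Ω := Fintype.card_le_one_iff_subsingleton.mp (by omega)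
      rw [Nat.card_eq_one_iff_unique]
      exact ⟨⟨fun a b => Subtype.ext (Subsingleton.elim _ _)⟩, ⟨⟨ω, MulAction.mem_orbit_self ω⟩⟩⟩
  refine ⟨?_, key⟩
  have hex : ∃ ω' : Ω, ∀ g ∈ K, g • ω' = ω' := by
    by_cases h1 : Nat.card (MulAction.orbit K ω) = 1
    · refine ⟨ω, fun g hg => ?_⟩
      have h3 := (Nat.card_eq_one_iff_unique.mp h1).1
      have h4 := h3.elim (⟨(⟨g, hg⟩ : K) • ω, MulAction.mem_orbit _ _⟩ : MulAction.orbit K ω)
        ⟨ω, MulAction.mem_orbit_self ω⟩
      exact congrArg Subtype.val h4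
    · have h5 := key.resolve_left h1
      have hΩ : 1 ≤ Fintype.card Ω := Fintype.card_pos_iff.mpr ⟨ω⟩
      have h6 : (MulAction.orbit K ω)ᶜ.ncard = 1 := by
        rw [Set.ncard_compl]
        have : (MulAction.orbit K ω).ncard = Fintype.card Ω - 1 := h5
        rw [this, Nat.card_eq_fintype_card]
        omega
      rw [Set.ncard_eq_one] at h6
      obtain ⟨ω', hω'⟩ := h6
      refine ⟨ω', fun g hg => ?_⟩
      have h7 : ω' ∈ (MulAction.orbit K ω)ᶜ := by rw [hω']; rfl
      have h8 : g • ω' ∈ (MulAction.orbit K ω)ᶜ := by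
        intro h9
        apply h7
        obtain ⟨k, hk'⟩ := h9
        have hk2 : k • ω = g • ω' := hk'
        refine ⟨(⟨g, hg⟩ : K)⁻¹ * k, ?_⟩
        change ((⟨g, hg⟩ : K)⁻¹ * k) • ω = ω'
        rw [mul_smul, hk2]
        exact inv_smul_smul (⟨g, hg⟩ : K) ω'
      rw [hω'] at h8
      exact h8
  exact (Cfsg.Agent.S4275.result G htr o α).mpr hex

end Cfsg.Agent.S4276
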