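import Cfsg.Statements.S4277
import Cfsg.Agent.S0675
import Cfsg.Agent.H37.PDeg

set_option autoImplicit false
open Cfsg

namespace Cfsg.Agent.S4277

open MulAction Cfsg.Agent.H37.PDeg

/-- solvability from a subgroup `N` with `N'' = 1` covering the quotient -/
lemma solv_of {A : Type*} [Group A] (I : Subgroup A) [I.Normal] (N C : Subgroup A) (hNI : N ⊔ I = ⊤)
    (hNC : ⁅N, N⁆ ≤ C) (hC : ⁅C, C⁆ = ⊥) : Group.IsSolvable (A ⧸ I) := by
  have hmap : N.map (QuotientGroup.mk' I) = ⊤ := by
    have h1 : (N ⊔ I).map (QuotientGroup.mk' I) = ⊤ := by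
      rw [hNI, ← MonoidHom.range_eq_map, MonoidHom.range_eq_top]
      exact QuotientGroup.mk'_surjective I
    rw [Subgroup.map_sup, QuotientGroup.map_mk'_self, sup_bot_eq] at h1
    exact h1
  have h1 : derivedSeries (A ⧸ I) 1 ≤ C.map (QuotientGroup.mk' I) := by
    rw [derivedSeries_succ, derivedSeries_zero, ← hmap, ← Subgroup.map_commutator]
    exact Subgroup.map_mono hNC
  have h2 : derivedSeries (A ⧸ I) 2 = ⊥ := by
    rw [eq_bot_iff, derivedSeries_succ]
    refine (Subgroup.commutator_mono h1 h1).trans ?_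
    rw [← Subgroup.map_commutator, hC, Subgroup.map_bot]
  exact (Group.isSolvable_def _).mpr ⟨2, h2⟩

lemma pdvd {G : Type*} [Group G] [Finite G] {X : Type*} [Fintype X] [MulAction G X] [FaithfulSMul G X]
    {p : ℕ} (hp : p.Prime) (hX : Fintype.card X = p) : ¬ p ^ 2 ∣ Nat.card G := by
  intro h
  have h1 : Nat.card G ∣ Nat.card (Equiv.Perm X) := by
    have hinj : Function.Injective (toPermHom G X) := toPerm_injective
    have := Subgroup.card_range_dvd (toPermHom G X)
    rw [Nat.card_congr (MonoidHom.ofInjective hinj).toEquiv]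
    exact Subgroup.card_subgroup_dvd_card _
  rw [Nat.card_perm, Nat.card_eq_fintype_card (α := X), hX] at h1
  have h2 : p ^ 2 ∣ p.factorial := h.trans h1
  obtain ⟨q, rfl⟩ : ∃ q, p = q + 1 := ⟨p - 1, by have := hp.pos; omega⟩
  rw [Nat.factorial_succ, pow_two] at h2
  have h3 := Nat.dvd_of_mul_dvd_mul_left hp.pos h2
  rw [hp.dvd_factorial] at h3
  omega

/-- Main case: noncommutative group with a faithful 2-transitive action of prime degree. -/
lemma main {G : Type*} [Group G] [Finite G] {X : Type*} [Fintype X] [MulAction G X] [FaithfulSMul G X]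
    {p : ℕ} (hp : p.Prime) (hX : Fintype.card X = p)
    (h2 : ∀ a b c d : X, a ≠ b → c ≠ d → ∃ g : G, g • a = c ∧ g • b = d)
    (h1 : ∀ a b : X, ∃ g : G, g • a = b) : Group.IsSolvable (Cfsg.Out G) := by
  classical
  haveI : Fact p.Prime := ⟨hp⟩
  have hpd := pdvd (G := G) hp hX
  haveI : Nonempty X := Fintype.card_pos_iff.mp (hX ▸ hp.pos)
  obtain ⟨a⟩ := ‹Nonempty X›
  haveI : IsPretransitive G X := ⟨h1⟩
  have hcard : p * Nat.card (stabilizer G a) = Nat.card G := by
    have e := MulAction.index_stabilizer_of_transitive G a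
    rw [Nat.card_eq_fintype_card, hX] at e
    rw [← e, mul_comm]
    exact Subgroup.card_mul_index _
  have hdvd : p ∣ Nat.card G := ⟨_, hcard.symm⟩
  obtain ⟨x, hx⟩ := exists_prime_orderOf_dvd_card' p hdvd
  have hZcard : Nat.card (Subgroup.zpowers x) = p := by rw [Nat.card_zpowers, hx]
  -- transitivity of zpowers x
  have hZt : ∀ w v : X, ∃ z ∈ Subgroup.zpowers x, z • w = v := by
    have hx1 : x ≠ 1 := by
      intro h; rw [h, orderOf_one] at hx; exact hp.one_lt.ne hx
    obtain ⟨b, hb⟩ : ∃ b : X, x • b ≠ b := by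
      by_contra hcon
      push Not at hcon
      apply hx1
      apply FaithfulSMul.eq_of_smul_eq_smul (α := X)
      intro w; rw [hcon, one_smul]
    have horb : orbit (Subgroup.zpowers x) b = Set.univ := by
      have h3 : (orbit (Subgroup.zpowers x) b).ncard ∣ p := by
        rw [← hZcard, ← MulAction.index_stabilizer]
        exact Subgroup.index_dvd_card _
      rcases (Nat.dvd_prime hp).mp h3 with h4 | h4
      · exfalso
        have h5 : Subsingleton (orbit (Subgroup.zpowers x) b) := (Nat.card_eq_one_iff_unique.mp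
          (show Nat.card (orbit (Subgroup.zpowers x) b) = 1 from h4)).1
        have h6 : (⟨x • b, ⟨⟨x, Subgroup.mem_zpowers x⟩, rfl⟩⟩ : orbit (Subgroup.zpowers x) b) =
            ⟨b, mem_orbit_self b⟩ := Subsingleton.elim _ _
        exact hb (Subtype.ext_iff.mp h6)
      · apply (Set.eq_univ_iff_ncard _).mpr
        rw [h4, Nat.card_eq_fintype_card, hX]
    intro w v
    have hw : w ∈ orbit (Subgroup.zpowers x) b := by rw [horb]; trivial
    have hv : v ∈ orbit (Subgroup.zpowers x) b := by rw [horb]; trivial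
    obtain ⟨z1, rfl⟩ := hw
    obtain ⟨z2, rfl⟩ := hv
    refine ⟨(z2 : G) * (z1 : G)⁻¹, (Subgroup.zpowers x).mul_mem z2.2 ((Subgroup.zpowers x).inv_mem z1.2), ?_⟩
    change ((z2 : G) * (z1 : G)⁻¹) • ((z1 : G) • b) = (z2 : G) • b
    rw [mul_smul, inv_smul_smul]
  have hns : ∀ α : MulAut G, ¬ ∀ w : X, ∃ g : G, g • a = a ∧ w = α g • a := by
    intro α hcon
    let K : Subgroup G := (stabilizer G a).map α.toMonoidHom
    have hK : Nat.card K = Nat.card (stabilizer G a) :=
      Nat.card_congr ((stabilizer G a).equivMapOfInjective α.toMonoidHom α.injective).symm.toEquiv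
    have horb : orbit K a = Set.univ := by
      rw [Set.eq_univ_iff_forall]
      intro w
      obtain ⟨g, hg, rfl⟩ := hcon w
      exact ⟨⟨α g, ⟨g, hg, rfl⟩⟩, rfl⟩
    have h3 : p ∣ Nat.card K := by
      have := MulAction.index_stabilizer K a
      rw [horb, Set.ncard_univ, Nat.card_eq_fintype_card, hX] at this
      rw [← this]
      exact Subgroup.index_dvd_card _
    rw [hK] at h3
    apply hpd
    rw [← hcard, pow_two]
    exact Nat.mul_dvd_mul_left p h3
  have hZc : ∀ y ∈ Subgroup.zpowers x, ∀ z ∈ Subgroup.zpowers x, y * z = z * y := by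
    rintro y ⟨m, rfl⟩ z ⟨n, rfl⟩
    exact (Commute.refl x).zpow_zpow m n
  -- subgroups
  let C : Subgroup (MulAut G) :=
    { carrier := {α | α x = x}
      mul_mem' := fun {α β} hα hβ => by
        change α (β x) = x
        rw [show β x = x from hβ, show α x = x from hα]
      one_mem' := rfl
      inv_mem' := fun {α} hα => by
        change α.symm x = x
        rw [MulEquiv.symm_apply_eq]
        exact (show α x = x from hα).symm }
  let N : Subgroup (MulAut G) :=
    { carrier := {α | (Subgroup.zpowers x).map α.toMonoidHom = Subgroup.zpowers x}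
      mul_mem' := fun {α β} hα hβ => by
        change (Subgroup.zpowers x).map (α.toMonoidHom.comp β.toMonoidHom) = Subgroup.zpowers x
        rw [← Subgroup.map_map, show (Subgroup.zpowers x).map β.toMonoidHom = Subgroup.zpowers x from hβ]
        exact hα
      one_mem' := Subgroup.map_id _
      inv_mem' := fun {α} hα => by
        change (Subgroup.zpowers x).map α.symm.toMonoidHom = Subgroup.zpowers x
        conv_lhs => rw [← (show (Subgroup.zpowers x).map α.toMonoidHom = Subgroup.zpowers x from hα)]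
        rw [Subgroup.map_map]
        convert Subgroup.map_id _ using 2
        ext y
        exact α.symm_apply_apply y }
  refine solv_of (Cfsg.Inn G) N C ?_ ?_ ?_
  · rw [eq_top_iff]
    intro α _
    -- Sylow conjugacy
    have hsyl : ∀ K : Subgroup G, Nat.card K = p → ∃ P : Sylow p G, (P : Subgroup G) = K := by
      intro K hK
      have hKp : IsPGroup p K := IsPGroup.of_card (n := 1) (by rw [hK, pow_one])
      obtain ⟨P, hP⟩ := hKp.exists_le_sylow
      refine ⟨P, ?_⟩
      obtain ⟨n, hn⟩ := IsPGroup.iff_card.mp P.isPGroup'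
      have h3 : p ^ n ∣ Nat.card G := hn ▸ Subgroup.card_subgroup_dvd_card _
      have h4 : n ≤ 1 := by
        by_contra hcon
        exact hpd ((pow_dvd_pow p (by omega)).trans h3)
      have h5 : Nat.card K ≤ Nat.card P := Subgroup.card_le_of_le hP
      symm
      apply Subgroup.eq_of_le_of_card_ge hP
      change Nat.card P ≤ _
      rw [hn, hK]
      calc p ^ n ≤ p ^ 1 := Nat.pow_le_pow_right hp.pos h4
        _ = p := pow_one p
    obtain ⟨P1, hP1⟩ := hsyl _ hZcard
    obtain ⟨P2, hP2⟩ := hsyl ((Subgroup.zpowers x).map α.toMonoidHom) (by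
      rw [← hZcard]
      exact Nat.card_congr ((Subgroup.zpowers x).equivMapOfInjective α.toMonoidHom α.injective).symm.toEquiv)
    obtain ⟨g, hg⟩ := MulAction.exists_smul_eq G P2 P1
    have hmem : MulAut.conj g * α ∈ N := by
      change (Subgroup.zpowers x).map ((MulAut.conj g).toMonoidHom.comp α.toMonoidHom) = Subgroup.zpowers x
      rw [← Subgroup.map_map, ← hP2]
      have : ((g • P2 : Sylow p G) : Subgroup G) = (P2 : Subgroup G).map (MulAut.conj g).toMonoidHom := rfl
      rw [← this, hg, hP1]
    have e : α = (MulAut.conj g)⁻¹ * (MulAut.conj g * α) := by group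
    rw [e]
    refine Subgroup.mul_mem _ (Subgroup.mem_sup_right (Subgroup.inv_mem _ ⟨g, rfl⟩)) (Subgroup.mem_sup_left hmem)
  · rw [Subgroup.commutator_le]
    intro α hα β hβ
    have key : ∀ γ ∈ N, ∃ m : ℤ, γ x = x ^ m := by
      intro γ hγ
      have : γ x ∈ Subgroup.zpowers x := by
        rw [← (show (Subgroup.zpowers x).map γ.toMonoidHom = Subgroup.zpowers x from hγ)]
        exact ⟨x, Subgroup.mem_zpowers x, rfl⟩
      obtain ⟨m, hm⟩ := this
      exact ⟨m, hm.symm⟩
    obtain ⟨m, hm⟩ := key α hα
    obtain ⟨n, hn⟩ := key β hβ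
    have hcomm : α (β x) = β (α x) := by
      rw [hn, hm, map_zpow, map_zpow, hm, hn, ← zpow_mul, ← zpow_mul, mul_comm]
    have this : α * β * α⁻¹ * β⁻¹ = (α * β) * (β * α)⁻¹ := by group
    rw [commutatorElement_def, this]
    change ((α * β) * (β * α)⁻¹ : MulAut G) x = x
    rw [MulAut.mul_apply]
    set y := ((β * α)⁻¹ : MulAut G) x with hy
    -- (βα) y = x ; need (αβ) y = x. use y in zpowers x
    have hyx : (β * α) y = x := by rw [hy]; exact (β * α).apply_symm_apply x
    have hyZ : y ∈ Subgroup.zpowers x := by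
      have h3 : (β * α)⁻¹ ∈ N := N.inv_mem (N.mul_mem hβ hα)
      obtain ⟨k, hk⟩ := key _ h3
      rw [hy, hk]
      exact ⟨k, rfl⟩
    obtain ⟨k, hk⟩ := hyZ
    have hk' : y = x ^ k := hk.symm
    rw [hk', MulAut.mul_apply, map_zpow, map_zpow, hcomm, ← map_zpow, ← map_zpow, ← hk', ← MulAut.mul_apply, hyx]
  · rw [eq_bot_iff, Subgroup.commutator_le]
    intro α hα β hβ
    have hfix : ∀ γ ∈ C, ∀ z ∈ Subgroup.zpowers x, γ z = z := by
      rintro γ hγ z ⟨m, rfl⟩
      change γ (x ^ m) = x ^ m
      rw [map_zpow, show γ x = x from hγ]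
    have := comm_of_fix h2 h1 a hns (Subgroup.zpowers x) hZc hZt α β (hfix α hα) (hfix β hβ)
    rw [Subgroup.mem_bot, commutatorElement_eq_one_iff_mul_comm]
    exact this

/-- A case of the Schreier conjecture: if a finite simple group G has a subgroup of prime index, then the outer automorphism group of G is solvable. -/
theorem result {G : Type*} [Group G] [Finite G] [IsSimpleGroup G] (H : Subgroup G) (hH : H.index.Prime) : Group.IsSolvable (Cfsg.Out G) := by
  classical
  by_cases hc : ∀ a b : G, a * b = b * a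
  · have hcyc : ∀ α β : MulAut G, α * β = β * α := by
      letI : CommGroup G := { ‹Group G› with mul_comm := hc }
      haveI : IsCyclic G := IsSimpleGroup.isCyclic
      obtain ⟨g, hg⟩ := IsCyclic.exists_generator (α := G)
      intro α β
      ext y
      obtain ⟨k, rfl⟩ := hg y
      obtain ⟨m, hm⟩ := hg (α g)
      obtain ⟨n, hn⟩ := hg (β g)
      change α (β (g ^ k)) = β (α (g ^ k))
      have hm' : α g = g ^ m := hm.symm
      have hn' : β g = g ^ n := hn.symm
      have e1 : α (β g) = β (α g) := by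
        rw [hn', hm', map_zpow, map_zpow, hm', hn', ← zpow_mul, ← zpow_mul, mul_comm m n]
      rw [map_zpow, map_zpow, map_zpow, map_zpow, e1]
    haveI : Group.IsSolvable (MulAut G) := Group.isSolvable_of_comm hcyc
    infer_instance
  · haveI : Fintype (G ⧸ H) := Fintype.ofFinite _
    have hX : Fintype.card (G ⧸ H) = H.index := by
      rw [← Nat.card_eq_fintype_card]; rfl
    have hcore : H.normalCore = ⊥ := by
      rcases IsSimpleGroup.eq_bot_or_eq_top_of_normal H.normalCore inferInstance with h | h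
      · exact h
      · exfalso
        have : H = ⊤ := top_unique (h ▸ H.normalCore_le)
        rw [this, Subgroup.index_top] at hH
        exact Nat.not_prime_one hH
    have hinj : Function.Injective (toPermHom G (G ⧸ H)) := by
      rw [← MonoidHom.ker_eq_bot_iff, ← Subgroup.normalCore_eq_ker, hcore]
    haveI : FaithfulSMul G (G ⧸ H) := ⟨fun {m n} h => hinj (Equiv.ext h)⟩
    let R : Subgroup (Equiv.Perm (G ⧸ H)) := (toPermHom G (G ⧸ H)).range
    haveI : IsPretransitive R (G ⧸ H) := ⟨fun u v => by
      obtain ⟨g, hg⟩ := MulAction.exists_smul_eq G u v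
      exact ⟨⟨toPermHom G (G ⧸ H) g, ⟨g, rfl⟩⟩, hg⟩⟩
    rcases S0675.result (α := G ⧸ H) (hX ▸ hH) R with hs | hs
    · exfalso
      apply hc
      have : Group.IsSolvable G := solvable_of_solvable_injective (f := (toPermHom G (G ⧸ H)).rangeRestrict) (by
        intro u v huv
        exact hinj (Subtype.ext_iff.mp huv))
      exact fun a b => (IsSimpleGroup.comm_iff_isSolvable (G := G)).mpr this a b
    · refine main hH hX ?_ (fun u v => MulAction.exists_smul_eq G u v)
      intro u v w z huv hwz
      rw [MulAction.is_two_pretransitive_iff] at hs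
      obtain ⟨⟨_, g, rfl⟩, h3, h4⟩ := hs huv hwz
      exact ⟨g, h3, h4⟩

end Cfsg.Agent.S4277
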