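import Cfsg.Statements.S4278
import Cfsg.Agent.ChevU.OddCls

set_option autoImplicit false
open Cfsg

namespace Cfsg.Agent.S4278

/-- In the Chevalley group of type G₂ over a finite field of odd order, any two involutions are conjugate. -/
theorem result {F : Type*} [Field F] [Fintype F] (hF : Odd (Fintype.card F)) (s t : ↥(Cfsg.Lie.chevG2.group F)) (hs : orderOf s = 2) (ht : orderOf t = 2) : IsConj s t := by
  have hD : Cfsg.Lie.chevG2 ∈ [Cfsg.Lie.chevG2, Cfsg.Lie.chevB2, Cfsg.Lie.chevD4, Cfsg.Lie.chevF4, Cfsg.Lie.chevE6, Cfsg.Lie.chevE7, Cfsg.Lie.chevE8] := by simp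
  obtain ⟨E⟩ := Cfsg.Agent.ChevGrp.DData.nonempty_of_mem hD
  have H := Cfsg.Agent.Chev.good_of_mem hD
  have R := Cfsg.Agent.ChevU.rootFacts hD
  obtain ⟨h1, h2⟩ := Cfsg.Agent.ChevU.orderOf_two hs
  obtain ⟨h3, h4⟩ := Cfsg.Agent.ChevU.orderOf_two ht
  obtain ⟨x, hx, e1⟩ := (Cfsg.Agent.ChevU.oddG2 H).cls R H E hF s.2 h1 h2
  obtain ⟨y, hy, e2⟩ := (Cfsg.Agent.ChevU.oddG2 H).cls R H E hF t.2 h3 h4
  have hx' : x = (1, Cfsg.Agent.ChevU.OddDat.foG2_0) := List.mem_singleton.1 hx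
  have hy' : y = (1, Cfsg.Agent.ChevU.OddDat.foG2_0) := List.mem_singleton.1 hy
  subst hx' hy'
  exact Cfsg.Agent.ChevU.isConj_of_eqv (e1.trans' e2.symm')

end Cfsg.Agent.S4278
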