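import Cfsg.Statements.S4280
import Cfsg.Agent.ChevU.OddJ
import Cfsg.Agent.ChevU.OddK

set_option autoImplicit false
open Cfsg

namespace Cfsg.Agent.S4280

/-- In the Chevalley group of type F₄ over a finite field of odd order q there are exactly two conjugacy classes of involutions; the centralizer of an involution in one class has order q¹⁶(q² − 1)(q⁴ − 1)(q⁶ − 1)(q⁸ − 1), and in the other class q¹⁰(q² − 1)²(q⁴ − 1)(q⁶ − 1). -/
theorem result {F : Type*} [Field F] [Fintype F] (hF : Odd (Fintype.card F)) : ∃ s t : ↥(Cfsg.Lie.chevF4.group F), orderOf s = 2 ∧ orderOf t = 2 ∧ ¬ IsConj s t ∧ (∀ u : ↥(Cfsg.Lie.chevF4.group F), orderOf u = 2 → IsConj u s ∨ IsConj u t) ∧ Nat.card (Subgroup.centralizer ({s} : Set ↥(Cfsg.Lie.chevF4.group F))) = Fintype.card F ^ 16 * (Fintype.card F ^ 2 - 1) * (Fintype.card F ^ 4 - 1) * (Fintype.card F ^ 6 - 1) * (Fintype.card F ^ 8 - 1) ∧ Nat.card (Subgroup.centralizer ({t} : Set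 ↥(Cfsg.Lie.chevF4.group F))) = Fintype.card F ^ 10 * (Fintype.card F ^ 2 - 1) ^ 2 * (Fintype.card F ^ 4 - 1) * (Fintype.card F ^ 6 - 1) := by
  have hD : Cfsg.Lie.chevF4 ∈ [Cfsg.Lie.chevG2, Cfsg.Lie.chevB2, Cfsg.Lie.chevD4, Cfsg.Lie.chevF4, Cfsg.Lie.chevE6, Cfsg.Lie.chevE7, Cfsg.Lie.chevE8] := by simp
  obtain ⟨E⟩ := Cfsg.Agent.ChevGrp.DData.nonempty_of_mem hD
  have H := Cfsg.Agent.Chev.good_of_mem hD
  have R := Cfsg.Agent.ChevU.rootFacts hD
  have h2 := Cfsg.Agent.ChevU.two_ne hF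
  have hq : 1 < Fintype.card F := Fintype.one_lt_card
  have c1 := (Cfsg.Agent.ChevU.card_cent_iv (F := F) R H E 1).trans (Cfsg.Agent.ChevU.centF4a' hF R H)
  have c2 := (Cfsg.Agent.ChevU.card_cent_iv (F := F) R H E 4).trans (Cfsg.Agent.ChevU.centF4b' hF R H)
  let O := Cfsg.Agent.ChevU.oddF4 H
  refine ⟨Cfsg.Agent.ChevU.iv R H E 1, Cfsg.Agent.ChevU.iv R H E 4, Cfsg.Agent.ChevU.orderOf_iv R H E O.S O.hS O.hC O.hd h2 (by decide) (by decide),
    Cfsg.Agent.ChevU.orderOf_iv R H E O.S O.hS O.hC O.hd h2 (by decide) (by decide), ?_, ?_, ?_, ?_⟩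
  · intro hc
    have h := Cfsg.Agent.ChevU.card_cent_conj hc
    rw [c1, c2] at h
    refine Cfsg.Agent.ChevU.ne_of_pow hq (by norm_num) ?_ h.symm
    have k1 := Cfsg.Agent.ChevU.cop (q := Fintype.card F) 2 (by norm_num) hq.le
    have k2 := Cfsg.Agent.ChevU.cop (q := Fintype.card F) 4 (by norm_num) hq.le
    have k3 := Cfsg.Agent.ChevU.cop (q := Fintype.card F) 6 (by norm_num) hq.le
    exact ((k1.pow_right 2).mul_right k2).mul_right k3
  · intro u hu
    obtain ⟨x, hx, e⟩ := Cfsg.Agent.ChevU.OddData.cls' R H E O hF hu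
    have hx' : x = (1, Cfsg.Agent.ChevU.OddDat.foF4_0) ∨ x = (4, Cfsg.Agent.ChevU.OddDat.foF4_1) := by
      have h3 : x ∈ Cfsg.Agent.ChevU.OddDat.foF4 := hx
      simpa only [Cfsg.Agent.ChevU.OddDat.foF4, List.mem_cons, List.not_mem_nil, or_false] using h3
    rcases hx' with rfl | rfl
    · exact Or.inl e
    · exact Or.inr e
  · rw [c1]; ring
  · rw [c2]; ring

end Cfsg.Agent.S4280
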