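import Cfsg.Statements.S4281
import Cfsg.Agent.ChevU.OddJ
import Cfsg.Agent.ChevU.OddK

set_option autoImplicit false
open scoped BigOperators
open Cfsg

namespace Cfsg.Agent.S4281

/-- In the Chevalley group of type E₈ over a finite field of odd order q there are exactly two conjugacy classes of involutions; the centralizer of an involution in one class has order q⁵⁶(q⁸ − 1)·∏_{i=1}^{7}(q^{2i} − 1), and in the other class q⁶⁴(q² − 1)²(q⁶ − 1)(q⁸ − 1)(q¹⁰ − 1)(q¹² − 1)(q¹⁴ − 1)(q¹⁸ − 1). -/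
theorem result {F : Type*} [Field F] [Fintype F] (hF : Odd (Fintype.card F)) : ∃ s t : ↥(Cfsg.Lie.chevE8.group F), orderOf s = 2 ∧ orderOf t = 2 ∧ ¬ IsConj s t ∧ (∀ u : ↥(Cfsg.Lie.chevE8.group F), orderOf u = 2 → IsConj u s ∨ IsConj u t) ∧ Nat.card (Subgroup.centralizer ({s} : Set ↥(Cfsg.Lie.chevE8.group F))) = Fintype.card F ^ 56 * (Fintype.card F ^ 8 - 1) * ∏ i ∈ Finset.Icc 1 7, (Fintype.card F ^ (2 * i) - 1) ∧ Nat.card (Subgroup.centralizer ({t} : Set ↥(Cfsg.Lie.chevE8.group F))) = Fintype.card F ^ 64 * (Fintype.card F ^ 2 - 1) ^ 2 * (Fintype.card F ^ 6 - 1) * (Fintype.card F ^ 8 - 1) * (Fintype.card F ^ 10 - 1) * (Fintype.card F ^ 12 - 1) * (Fintype.card F ^ 14 - 1) * (Fintype.card F ^ 18 - 1) := by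
  have hD : Cfsg.Lie.chevE8 ∈ [Cfsg.Lie.chevG2, Cfsg.Lie.chevB2, Cfsg.Lie.chevD4, Cfsg.Lie.chevF4, Cfsg.Lie.chevE6, Cfsg.Lie.chevE7, Cfsg.Lie.chevE8] := by simp
  obtain ⟨E⟩ := Cfsg.Agent.ChevGrp.DData.nonempty_of_mem hD
  have H := Cfsg.Agent.Chev.good_of_mem hD
  have R := Cfsg.Agent.ChevU.rootFacts hD
  have h2 := Cfsg.Agent.ChevU.two_ne hF
  have hq : 1 < Fintype.card F := Fintype.one_lt_card
  have c1 := (Cfsg.Agent.ChevU.card_cent_iv (F := F) R H E 3).trans (Cfsg.Agent.ChevU.centE8b' hF R H)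
  have c2 := (Cfsg.Agent.ChevU.card_cent_iv (F := F) R H E 1).trans (Cfsg.Agent.ChevU.centE8a' hF R H)
  let O := Cfsg.Agent.ChevU.oddE8 H
  refine ⟨Cfsg.Agent.ChevU.iv R H E 3, Cfsg.Agent.ChevU.iv R H E 1, Cfsg.Agent.ChevU.orderOf_iv R H E O.S O.hS O.hC O.hd h2 (by decide) (by decide),
    Cfsg.Agent.ChevU.orderOf_iv R H E O.S O.hS O.hC O.hd h2 (by decide) (by decide), ?_, ?_, ?_, ?_⟩
  · intro hc
    have h := Cfsg.Agent.ChevU.card_cent_conj hc
    rw [c1, c2] at h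
    refine Cfsg.Agent.ChevU.ne_of_pow hq (by norm_num) ?_ h
    have k : ∀ n : ℕ, n ≠ 0 → Nat.Coprime (Fintype.card F) (Fintype.card F ^ n - 1) := fun n hn => Cfsg.Agent.ChevU.cop n hn hq.le
    refine Nat.Coprime.mul_right (k 8 (by norm_num)) ?_
    refine Nat.Coprime.mul_right ?_ (k 14 (by norm_num))
    refine Nat.Coprime.mul_right ?_ (k 12 (by norm_num))
    refine Nat.Coprime.mul_right ?_ (k 10 (by norm_num))
    refine Nat.Coprime.mul_right ?_ (k 8 (by norm_num))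
    refine Nat.Coprime.mul_right ?_ (k 6 (by norm_num))
    exact Nat.Coprime.mul_right (k 2 (by norm_num)) (k 4 (by norm_num))
  · intro u hu
    obtain ⟨x, hx, e⟩ := Cfsg.Agent.ChevU.OddData.cls' R H E O hF hu
    have hx' : x = (1, Cfsg.Agent.ChevU.OddDat.foE8_0) ∨ x = (3, Cfsg.Agent.ChevU.OddDat.foE8_1) := by
      have h3 : x ∈ Cfsg.Agent.ChevU.OddDat.foE8 := hx
      simpa only [Cfsg.Agent.ChevU.OddDat.foE8, List.mem_cons, List.not_mem_nil, or_false] using h3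
    rcases hx' with rfl | rfl
    · exact Or.inr e
    · exact Or.inl e
  · rw [c1]
    have h7 : ∀ f : ℕ → ℕ, ∏ i ∈ Finset.Icc 1 7, f i = f 1 * f 2 * f 3 * f 4 * f 5 * f 6 * f 7 := by
      intro f
      have e : Finset.Icc 1 7 = Finset.Ico 1 8 := by decide
      rw [e, Finset.prod_Ico_eq_prod_range]
      simp only [Finset.prod_range_succ, Finset.prod_range_zero, one_mul]
    rw [h7]
    ring
  · rw [c2]; ring

end Cfsg.Agent.S4281
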