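import Cfsg.Statements.S4282
import Cfsg.Agent.HH.CritP
import Cfsg.Agent.HH.Deg

set_option autoImplicit false
open Cfsg

namespace Cfsg.Agent.S4282


open Cfsg.Agent.HH


/-- A critical case behind the Hall–Higman theorem. Let p ≠ q be primes and G a finite group generated by a normal q-subgroup Q and a cyclic p-subgroup generated by x, such that the centralizer of every non-identity element of that cyclic subgroup is its product with the centre of G. Let K be an algebraically closed field of characteristic p and ρ a faithful representation of G on a nonzero finite-dimensional K-space whose restriction to Q is irreducible. If s is the least exponent with (ρ(x) − 1)^s = 0, then |⟨x⟩| − 1 ≤ s ≤ |⟨x⟩|; and if s = |⟨x⟩| − 1 then |⟨x⟩| − 1 is a power of q and Q is non-abelian. -/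
theorem result {G : Type*} [Group G] [Finite G] (p q : ℕ) [Fact p.Prime] [Fact q.Prime] (hpq : p ≠ q) (Q : Subgroup G) [Q.Normal] (hQ : IsPGroup q Q) (x : G) (hx : IsPGroup p (Subgroup.zpowers x)) (hgen : Q ⊔ Subgroup.zpowers x = ⊤) (hC : ∀ y ∈ Subgroup.zpowers x, y ≠ 1 → Subgroup.centralizer ({y} : Set G) = Subgroup.zpowers x ⊔ Subgroup.center G) {K : Type*} [Field K] [IsAlgClosed K] [CharP K p] {V : Type*} [AddCommGroup V] [Module K V] [FiniteDimensional K V] [Nontrivial V] (ρ : Representation K G V) (hfaith : Function.Injective ρ) (hirr : ∀ W : Submodule K V, (∀ g ∈ Q, Submodule.map (ρ g) W ≤ W) → W = ⊥ ∨ W = ⊤) (s : ℕ) (hs : (ρ x - 1) ^ s = 0) (hmin : ∀ k < s, (ρ x - 1) ^ k ≠ 0) : Nat.card (Subgroup.zpowers x) - 1 ≤ s ∧ s ≤ Nat.card (Subgroup.zpowers x) ∧ (s = Nat.card (Subgroup.zpowers x) - 1 → (∃ b : ℕ, Nat.card (Subgroup.zpowers x) - 1 = q ^ b) ∧ ¬ IsMulCommutative Q) := by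
  classical
  have hp : p.Prime := Fact.out
  have hq : q.Prime := Fact.out
  have h : Irr ρ Q := ⟨inferInstance, fun W hW => hirr W (by
    rintro g hg _ ⟨w, hw, rfl⟩
    exact hW g hg w hw)⟩
  obtain ⟨r, hr⟩ := IsPGroup.iff_card.1 hx
  rw [Nat.card_zpowers] at hr ⊢
  have hxfin : IsOfFinOrder x := isOfFinOrder_of_finite x
  have hQK : (Nat.card Q : K) ≠ 0 := by
    obtain ⟨k, hk⟩ := IsPGroup.iff_card.1 hQ
    rw [hk, Nat.cast_pow]
    apply pow_ne_zero
    intro h0
    rw [CharP.cast_eq_zero_iff K p] at h0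
    exact hpq ((Nat.prime_dvd_prime_iff_eq hp hq).1 h0)
  haveI : CharP (Module.End K V) p :=
    charP_of_injective_algebraMap (FaithfulSMul.algebraMap_injective K (Module.End K V)) p
  have hpow : (ρ x - 1) ^ (p ^ r) = 0 := by
    rw [sub_pow_char_pow_of_commute _ _ (Commute.one_right _), one_pow, ← map_pow, ← hr,
      pow_orderOf_eq_one, map_one, sub_self]
  have hle : s ≤ orderOf x := by
    rw [hr]
    by_contra hcon
    push Not at hcon
    exact hmin _ hcon hpow
  have hscal : ∀ g ∈ Subgroup.center G, ∃ c : K, ρ g = c • (1 : Module.End K V) := by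
    intro g hg
    apply h.schur
    intro k _
    rw [← map_mul, ← map_mul, Subgroup.mem_center_iff.1 hg k]
  have hnorm : ∀ c ∈ Subgroup.zpowers x, ∀ g ∈ Q, c * g * c⁻¹ ∈ Q := fun c _ g hg =>
    (inferInstance : Q.Normal).conj_mem g hg c
  have hfree : ∀ c ∈ Subgroup.zpowers x, c ≠ 1 → ∀ g ∈ Q, c * g * c⁻¹ = g → g ∈ scal ρ Q := by
    intro c hc hc1 g hg hcg
    refine ⟨hg, ?_⟩
    apply hscal
    have h1 : g ∈ Subgroup.centralizer ({c} : Set G) := by
      rw [Subgroup.mem_centralizer_singleton_iff]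
      rw [mul_inv_eq_iff_eq_mul] at hcg
      exact hcg.symm
    rw [hC c hc hc1] at h1
    obtain ⟨a, ha, z, hz, rfl⟩ := Subgroup.mem_sup_of_normal_right.1 h1
    have hcomm : Commute a z := (Subgroup.mem_center_iff.1 hz a)
    have h2 : (a * z) ^ (p ^ r) ∈ Subgroup.center G := by
      rw [hcomm.mul_pow]
      have h3 : a ^ (p ^ r) = 1 := by
        obtain ⟨k, rfl⟩ := Subgroup.mem_zpowers_iff.1 ha
        rw [← zpow_natCast, ← zpow_mul, mul_comm, zpow_mul, zpow_natCast, ← hr, pow_orderOf_eq_one, one_zpow]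
      rw [h3, one_mul]
      exact Subgroup.pow_mem _ hz _
    obtain ⟨k, hk⟩ := hQ ⟨a * z, hg⟩
    have hk' : (a * z) ^ (q ^ k) = 1 := by
      have := congrArg Subtype.val hk
      simpa using this
    have hcop : Nat.Coprime (p ^ r) (q ^ k) := Nat.Coprime.pow _ _ ((Nat.coprime_primes hp hq).2 hpq)
    have hcop' : IsCoprime ((p ^ r : ℕ) : ℤ) ((q ^ k : ℕ) : ℤ) := Nat.isCoprime_iff_coprime.2 hcop
    obtain ⟨u, v, huv⟩ := hcop'
    have h4 : a * z = ((a * z) ^ (p ^ r)) ^ u * ((a * z) ^ (q ^ k)) ^ v := by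
      rw [← zpow_natCast, ← zpow_natCast, ← zpow_mul, ← zpow_mul, ← zpow_add, mul_comm _ u, mul_comm _ v, huv,
        zpow_one]
    rw [h4, hk', one_zpow, mul_one]
    exact Subgroup.zpow_mem _ h2 _
  by_cases hr0 : r = 0
  · subst hr0
    rw [pow_zero] at hr
    rw [hr] at hle ⊢
    refine ⟨by omega, hle, ?_⟩
    intro hs1
    rw [hs1, Nat.sub_self, pow_zero] at hs
    exact absurd hs one_ne_zero
  have hr1 : 1 ≤ r := by omega
  have hfaith' : ρ (x ^ p ^ (r - 1)) ≠ 1 := by
    intro h0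
    have h1 : x ^ p ^ (r - 1) = 1 := hfaith (by rw [h0, map_one])
    have h2 := orderOf_dvd_of_pow_eq_one h1
    rw [hr, Nat.pow_dvd_pow_iff_le_right hp.one_lt] at h2
    omega
  have hcrit := fun hs' => crit_charP h hQK hr1 hr hfaith' hnorm hfree hs'
  have hN2 : 2 ≤ p ^ r := by
    calc 2 ≤ p := hp.two_le
      _ = p ^ 1 := (pow_one p).symm
      _ ≤ p ^ r := Nat.pow_le_pow_right hp.pos hr1
  have hmono : ∀ k, s ≤ k → (ρ x - 1) ^ k = 0 := by
    intro k hk
    rw [← Nat.add_sub_of_le hk, pow_add, hs, zero_mul]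
  refine ⟨?_, hle, ?_⟩
  · rw [hr]
    by_contra hcon
    push Not at hcon
    obtain ⟨-, h2⟩ := hcrit (hmono _ (by omega))
    exact h2 (hmono _ (by omega))
  · intro hs1
    rw [hr] at hs1 ⊢
    obtain ⟨hdim, -⟩ := hcrit (hmono _ (by omega))
    -- the restriction to Q
    have hirr' : Irr (ρ.comp Q.subtype) ⊤ := ⟨inferInstance, fun W hW => h.irr W (fun g hg w hw =>
      hW ⟨g, hg⟩ (Subgroup.mem_top _) w hw)⟩
    obtain ⟨b, hb⟩ := degree_of_qgroup (q := q) (Nat.card Q) Q rfl hQ V (ρ.comp Q.subtype) hirr'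
    refine ⟨⟨b, by rw [← hb, hdim]⟩, ?_⟩
    intro hcomm
    have h1 : Module.finrank K V = 1 := finrank_eq_one_of_scal hirr' (by
      intro g
      apply h.schur
      intro k hk
      change ρ g * ρ k = ρ k * ρ g
      rw [← map_mul, ← map_mul]
      have := congrArg Subtype.val (hcomm.is_comm.comm g ⟨k, hk⟩)
      have h3 : (g : G) * k = k * g := this
      rw [h3])
    -- then ρ x is a scalar
    have h2 : ∃ c : K, ρ x = c • (1 : Module.End K V) := by
      obtain ⟨v, hv, hv2⟩ := finrank_eq_one_iff'.1 h1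
      obtain ⟨c, hc⟩ := hv2 (ρ x v)
      refine ⟨c, ?_⟩
      apply LinearMap.ext
      intro w
      obtain ⟨d, rfl⟩ := hv2 w
      rw [map_smul, ← hc, LinearMap.smul_apply, Module.End.one_apply, smul_comm]
    obtain ⟨c, hc⟩ := h2
    have h4 : (ρ x - 1) = (c - 1) • (1 : Module.End K V) := by rw [hc, sub_smul, one_smul]
    rw [h4, smul_pow, one_pow] at hpow
    rcases smul_eq_zero.1 hpow with h5 | h5
    · have h6 : c = 1 := sub_eq_zero.1 (pow_eq_zero_iff (by omega) |>.1 h5)
      rw [h6, one_smul] at hc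
      apply hfaith'
      rw [map_pow, hc, one_pow]
    · exact one_ne_zero h5

end Cfsg.Agent.S4282
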