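import Cfsg.Statements.S4283
import Cfsg.Agent.Frob.Basic
import Cfsg.Agent.H71.Basic

set_option autoImplicit false
open Cfsg

namespace Cfsg.Agent.S4283

/-- Let G be a finite group with centre Z and let K, H be abelian subgroups of G containing Z such that G/Z is a Frobenius group with complement H/Z and kernel K/Z. Then the conjugacy class sizes of G are exactly 1, [G : K] and [G : H], and these two indices are coprime. (This is the converse half of the characterization of finite groups whose conjugacy class sizes are exactly 1, m and n with m and n coprime.) -/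
theorem result {G : Type*} [Group G] [Finite G] (K H : Subgroup G) (hZK : Subgroup.center G ≤ K) (hZH : Subgroup.center G ≤ H) (hK : IsMulCommutative K) (hH : IsMulCommutative H) (hFrob : Cfsg.IsFrobeniusComplement (H.map (QuotientGroup.mk' (Subgroup.center G)))) (hker : Cfsg.frobeniusKernel (H.map (QuotientGroup.mk' (Subgroup.center G))) = (K.map (QuotientGroup.mk' (Subgroup.center G)) : Set (G ⧸ Subgroup.center G))) : Set.range (fun x : G => (Subgroup.centralizer ({x} : Set G)).index) = ({1, K.index, H.index} : Set ℕ) ∧ K.index.Coprime H.index := by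
  classical
  set π := QuotientGroup.mk' (Subgroup.center G) with hπ
  have hπs : Function.Surjective π := QuotientGroup.mk'_surjective _
  have hkerK : π.ker ≤ K := by rw [hπ, QuotientGroup.ker_mk']; exact hZK
  have hkerH : π.ker ≤ H := by rw [hπ, QuotientGroup.ker_mk']; exact hZH
  have hKc : ∀ a ∈ K, ∀ b ∈ K, a * b = b * a := fun a ha b hb =>
    congrArg Subtype.val (hK.is_comm.comm ⟨a, ha⟩ ⟨b, hb⟩)
  have hHc : ∀ a ∈ H, ∀ b ∈ H, a * b = b * a := fun a ha b hb =>
    congrArg Subtype.val (hH.is_comm.comm ⟨a, ha⟩ ⟨b, hb⟩)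
  have hmemK : ∀ x, π x ∈ K.map π ↔ x ∈ K := by
    intro x
    rw [← Subgroup.mem_comap, Subgroup.comap_map_eq, sup_eq_left.mpr hkerK]
  have hmemH : ∀ x, π x ∈ H.map π ↔ x ∈ H := by
    intro x
    rw [← Subgroup.mem_comap, Subgroup.comap_map_eq, sup_eq_left.mpr hkerH]
  have hπ1 : ∀ x, π x = 1 ↔ x ∈ Subgroup.center G := by
    intro x; rw [hπ, QuotientGroup.mk'_apply, QuotientGroup.eq_one_iff]
  -- elements of conjugates of H
  have hcH : ∀ x g : G, x ∉ Subgroup.center G → g⁻¹ * x * g ∈ H →
      (Subgroup.centralizer ({x} : Set G)).index = H.index := by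
    intro x g hx hxg
    have h1 : Subgroup.centralizer ({x} : Set G) = H.map (MulAut.conj g).toMonoidHom := by
      ext y
      rw [Subgroup.mem_centralizer_singleton_iff]
      constructor
      · intro hyx
        refine ⟨g⁻¹ * y * g, ?_, by simp [mul_assoc]⟩
        rw [SetLike.mem_coe, ← hmemH]
        refine Cfsg.Agent.Frob.mem_of_conj_mem hFrob (h := π (g⁻¹ * x * g)) ((hmemH _).mpr hxg) ?_ ?_
        · rw [Ne, hπ1]
          intro hc
          apply hx
          have e : x = g * (g⁻¹ * x * g) * g⁻¹ := by group
          rw [e]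
          exact Subgroup.Normal.conj_mem inferInstance _ hc g
        · rw [← map_mul, ← map_inv, ← map_mul, hmemH]
          have e : g⁻¹ * y * g * (g⁻¹ * x * g) * (g⁻¹ * y * g)⁻¹ = g⁻¹ * (y * x) * y⁻¹ * g := by group
          have e2 : g⁻¹ * (x * y) * y⁻¹ * g = g⁻¹ * x * g := by group
          rw [e, hyx, e2]
          exact hxg
      · rintro ⟨h, hh, rfl⟩
        have h2 := hHc h hh _ hxg
        change g * h * g⁻¹ * x = x * (g * h * g⁻¹)
        calc g * h * g⁻¹ * x = g * (h * (g⁻¹ * x * g)) * g⁻¹ := by group
          _ = g * ((g⁻¹ * x * g) * h) * g⁻¹ := by rw [h2]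
          _ = x * (g * h * g⁻¹) := by group
    rw [h1]
    exact Subgroup.index_map_of_bijective (f := (MulAut.conj g).toMonoidHom) (MulAut.conj g).bijective H
  have hcK : ∀ x : G, x ∉ Subgroup.center G → x ∈ K →
      (Subgroup.centralizer ({x} : Set G)).index = K.index := by
    intro x hx hxK
    have h1 : Subgroup.centralizer ({x} : Set G) = K := by
      ext y
      rw [Subgroup.mem_centralizer_singleton_iff]
      constructor
      · intro hyx
        by_contra hyK
        have h2 : π y ∉ Cfsg.frobeniusKernel (H.map π) := by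
          rw [hker]
          exact fun h => hyK ((hmemK y).mp h)
        obtain ⟨hy1, g, hg⟩ := Cfsg.Agent.Frob.not_mem_frobeniusKernel_iff.mp h2
        have h3 : g⁻¹ * π x * g ∈ H.map π := by
          refine Cfsg.Agent.Frob.mem_of_conj_mem hFrob hg ?_ ?_
          · intro h4
            apply hy1
            have e : π y = g * (g⁻¹ * π y * g) * g⁻¹ := by group
            rw [e, h4]; simp
          · have hyx' : π x * π y = π y * π x := by rw [← map_mul, ← map_mul, hyx]
            have e : g⁻¹ * π x * g * (g⁻¹ * π y * g) * (g⁻¹ * π x * g)⁻¹ =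
                g⁻¹ * (π x * π y) * (π x)⁻¹ * g := by group
            have e2 : g⁻¹ * (π y * π x) * (π x)⁻¹ * g = g⁻¹ * π y * g := by group
            rw [e, hyx', e2]
            exact hg
        have h4 : π x ∈ Cfsg.frobeniusKernel (H.map π) := by
          rw [hker]; exact (hmemK x).mpr hxK
        rcases h4 with h5 | h5
        · exact hx ((hπ1 x).mp h5)
        · exact h5 g (Cfsg.Agent.Frob.mem_conj_smul.mpr h3)
      · intro hy
        exact hKc y hy x hxK
    rw [h1]
  have hcardker := Cfsg.Agent.Frob.card_frobeniusKernel hFrob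
  have hidxH : (H.map π).index = H.index := Subgroup.index_map_eq H hπs hkerH
  have hidxK : (K.map π).index = K.index := Subgroup.index_map_eq K hπs hkerK
  have hKcard : Nat.card (K.map π) = H.index := by
    rw [← hidxH, ← hcardker, hker]; rfl
  have hKidx : K.index = Nat.card (H.map π) := by
    rw [← hidxK]
    have h1 := (K.map π).card_mul_index
    have h2 := (H.map π).card_mul_index
    rw [hKcard] at h1
    rw [hidxH] at h2
    have h3 : 0 < H.index := Nat.pos_of_ne_zero Subgroup.index_ne_zero_of_finite
    apply Nat.eq_of_mul_eq_mul_left h3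
    rw [h1, ← h2, mul_comm]
  refine ⟨?_, ?_⟩
  · ext n
    simp only [Set.mem_range, Set.mem_insert_iff, Set.mem_singleton_iff]
    constructor
    · rintro ⟨x, rfl⟩
      by_cases hx : x ∈ Subgroup.center G
      · left
        rw [Cfsg.Agent.H71.centralizer_singleton_eq_top_iff.mpr hx, Subgroup.index_top]
      · right
        by_cases hxK : x ∈ K
        · left; exact hcK x hx hxK
        · right
          have h2 : π x ∉ Cfsg.frobeniusKernel (H.map π) := by
            rw [hker]
            exact fun h => hxK ((hmemK x).mp h)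
          obtain ⟨hy1, g, hg⟩ := Cfsg.Agent.Frob.not_mem_frobeniusKernel_iff.mp h2
          obtain ⟨g, rfl⟩ := hπs g
          rw [← map_inv, ← map_mul, ← map_mul, hmemH] at hg
          exact hcH x g hx hg
    · rintro (rfl | rfl | rfl)
      · exact ⟨1, by rw [Cfsg.Agent.H71.centralizer_singleton_eq_top_iff.mpr (one_mem _), Subgroup.index_top]⟩
      · have h1 : K.map π ≠ ⊥ := by
          intro hb
          rw [hb, Subgroup.card_bot] at hKcard
          apply hFrob.2.1
          rw [← Subgroup.index_eq_one, hidxH]; exact hKcard.symm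
        obtain ⟨⟨y, hy⟩, hy0⟩ := Subgroup.ne_bot_iff_exists_ne_one.mp h1
        have hy1 : y ≠ 1 := fun h => hy0 (Subtype.ext h)
        obtain ⟨x, hx, rfl⟩ := hy
        exact ⟨x, hcK x (fun h => hy1 ((hπ1 x).mpr h)) hx⟩
      · obtain ⟨⟨y, hy⟩, hy0⟩ := Subgroup.ne_bot_iff_exists_ne_one.mp hFrob.1
        have hy1 : y ≠ 1 := fun h => hy0 (Subtype.ext h)
        obtain ⟨x, hx, rfl⟩ := hy
        exact ⟨x, hcH x 1 (fun h => hy1 ((hπ1 x).mpr h)) (by simpa using hx)⟩
  · rw [hKidx, ← hidxH]
    exact Cfsg.Agent.Frob.coprime_card_index hFrob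

end Cfsg.Agent.S4283
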