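import Cfsg.Statements.S4284
import Cfsg.Agent.H15Cls.Final

set_option autoImplicit false
open Cfsg

namespace Cfsg.Agent.S4284

/-- Let G be a finite group with no nontrivial abelian direct factor whose conjugacy class sizes are exactly 1, m and m·n with m, n > 1 coprime. Then m is a prime p dividing n − 1; the elements whose class has size 1 or p form an abelian normal subgroup of index p; G has a normal p-complement; and the commutator subgroup of a Sylow p-subgroup of G has order p. -/
theorem result {G : Type*} [Group G] [Finite G] (hnodf : ∀ A B : Subgroup G, A.Normal → B.Normal → A ⊓ B = ⊥ → A ⊔ B = ⊤ → IsMulCommutative A → A = ⊥) (m n : ℕ) (hm : 1 < m) (hn : 1 < n) (hcop : m.Coprime n) (h : Set.range (fun x : G => (Subgroup.centralizer ({x} : Set G)).index) = ({1, m, m * n} : Set ℕ)) : m.Prime ∧ m ∣ n - 1 ∧ (∃ M : Subgroup G, M.Normal ∧ (M : Set G) = {x : G | (Subgroup.centralizer ({x} : Set G)).index = 1 ∨ (Subgroup.centralizer ({x} : Set G)).index = m} ∧ M.index = m ∧ IsMulCommutative M) ∧ (∃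 N : Subgroup G, N.Normal ∧ (Nat.card N).Coprime m ∧ ∃ a : ℕ, N.index = m ^ a) ∧ ∀ P : Sylow m G, Nat.card (commutator (P : Subgroup G)) = m := by
  obtain ⟨p, a, k, hpp, hmp, N, hNn, hNc, hNk, hD⟩ := Cfsg.Agent.H15Cls.main hm hn hcop h
  haveI : Fact p.Prime := ⟨hpp⟩
  obtain ⟨P0⟩ : Nonempty (Sylow p G) := inferInstance
  have ha : a = 1 := (hD P0).a_eq_one
  subst ha
  rw [pow_one] at hmp
  subst hmp
  refine ⟨hpp, (hD P0).dvd_n_sub_one, ⟨Subgroup.centralizer (N : Set G), ?_, ?_, ?_, (hD P0).M_comm⟩,
    ⟨N, hNn, hNc, k, hNk⟩, fun P => (hD P).card_commutator⟩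
  · haveI := hNn
    exact Subgroup.normal_centralizer
  · ext x
    have := (hD P0).M_eq x
    rw [pow_one] at this
    exact this
  · have := (hD P0).M_index
    rwa [pow_one] at this

end Cfsg.Agent.S4284
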