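import Cfsg.Statements.S4292
import Cfsg.Agent.FC.Red2

set_option autoImplicit false
open Cfsg

namespace Cfsg.Agent.S4292

/-- Let A and B be nontrivial finite groups. Then the direct product A × B occurs as a Frobenius complement if and only if A and B both occur as Frobenius complements and the orders of A and B are coprime. -/
theorem result {A B : Type*} [Group A] [Finite A] [Nontrivial A] [Group B] [Finite B] [Nontrivial B] :
    (∃ (L : Type) (_ : Group L) (_ : Finite L) (H : Subgroup L), Cfsg.IsFrobeniusComplement H ∧ Nonempty ((A × B) ≃* H)) ↔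
    ((∃ (L : Type) (_ : Group L) (_ : Finite L) (H : Subgroup L), Cfsg.IsFrobeniusComplement H ∧ Nonempty (A ≃* H)) ∧
     (∃ (L : Type) (_ : Group L) (_ : Finite L) (H : Subgroup L), Cfsg.IsFrobeniusComplement H ∧ Nonempty (B ≃* H)) ∧
     (Nat.card A).Coprime (Nat.card B)) := by
  constructor
  · intro h
    have hm : FC.HasMat ℚ (A × B) := FC.FC.hasMat h
    refine ⟨FC.fc_of_hasMat (hm.of_injective (MonoidHom.inl A B) (fun x y h => congrArg Prod.fst h)),
      FC.fc_of_hasMat (hm.of_injective (MonoidHom.inr A B) (fun x y h => congrArg Prod.snd h)), ?_⟩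
    apply Nat.Coprime.symm
    by_contra hc
    obtain ⟨p, hp, hpB, hpA⟩ := Nat.Prime.not_coprime_iff_dvd.mp hc
    haveI : Fact p.Prime := ⟨hp⟩
    obtain ⟨a, ha⟩ := exists_prime_orderOf_dvd_card' p hpA
    obtain ⟨b, hb⟩ := exists_prime_orderOf_dvd_card' p hpB
    have ha1 : a ≠ 1 := fun h => by rw [h, orderOf_one] at ha; exact hp.one_lt.ne ha
    have hb1 : b ≠ 1 := fun h => by rw [h, orderOf_one] at hb; exact hp.one_lt.ne hb
    have hx : ((1 : A), b) ∈ Subgroup.zpowers (a, (1 : B)) := by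
      apply FC.mem_zpowers_of_comm (FC.hasFPFModule_of_FC h) (p := p)
      · rw [Prod.pow_mk, one_pow, ← ha, pow_orderOf_eq_one]; rfl
      · intro h1; exact ha1 (congrArg Prod.fst h1)
      · rw [Prod.pow_mk, one_pow, ← hb, pow_orderOf_eq_one]; rfl
      · rw [Prod.mk_mul_mk, Prod.mk_mul_mk, one_mul, mul_one, one_mul, mul_one]
    obtain ⟨k, hk⟩ := hx
    have h2 := congrArg Prod.snd hk
    apply hb1
    rw [← show (((a, (1 : B)) ^ k : A × B)).2 = b from h2]
    show (((a, (1 : B)) ^ k : A × B)).2 = 1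
    rw [Prod.pow_snd]
    exact one_zpow k
  · rintro ⟨hA, hB, hc⟩
    exact FC.fc_of_hasMat (FC.hasMat_prod (FC.FC.hasMat hA) (FC.FC.hasMat hB) hc)

end Cfsg.Agent.S4292
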