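import Cfsg.Statements.S4294
import Cfsg.Agent.S3359
import Cfsg.Agent.S4293
import Cfsg.Agent.H79.DvC

set_option autoImplicit false
open Cfsg

namespace Cfsg.Agent.S4294

/-- A finite non-solvable subgroup of the multiplicative group of a division ring is isomorphic to the binary icosahedral group SL(2,5). -/
theorem result {D : Type*} [DivisionRing D] (H : Subgroup Dˣ) [Finite H] (hH : ¬ Group.IsSolvable H) :
    Nonempty (H ≃* Matrix.SpecialLinearGroup (Fin 2) (ZMod 5)) := by
  classical
  obtain ⟨p, hp⟩ := CharP.exists D
  rcases CharP.char_is_prime_or_zero D p with hpp | hp0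
  · exfalso
    haveI : Fact p.Prime := ⟨hpp⟩
    letI : Algebra (ZMod p) D := ZMod.algebra D p
    let g : H →* D := (Units.coeHom D).comp H.subtype
    let S : Submonoid D := MonoidHom.mrange g
    let R : Subalgebra (ZMod p) D := Algebra.adjoin (ZMod p) (S : Set D)
    have hgR : ∀ h : H, g h ∈ R := fun h => Algebra.subset_adjoin ⟨h, rfl⟩
    have hfin : Module.Finite (ZMod p) R := by
      have h1 : Subalgebra.toSubmodule R = Submodule.span (ZMod p) (S : Set D) := by
        rw [Algebra.adjoin_eq_span, Submonoid.closure_eq]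
      have h2 : (Subalgebra.toSubmodule R).FG := by
        rw [h1]
        have h3 : (S : Set D).Finite := by
          have : (S : Set D) = Set.range g := MonoidHom.coe_mrange g
          rw [this]
          exact Set.finite_range g
        exact ⟨h3.toFinset, by rw [Set.Finite.coe_toFinset]⟩
      exact Module.Finite.iff_fg.mpr h2
    haveI : Finite R := Module.finite_of_finite (ZMod p)
    haveI : IsDomain R := inferInstance
    have hcomm : ∀ a b : R, a * b = b * a := by
      intro a b
      exact (Finite.isDomain_to_isField R).mul_comm a b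
    apply hH
    have hc : ∀ a b : H, a * b = b * a := by
      intro a b
      have h1 := congrArg Subtype.val (hcomm ⟨g a, hgR a⟩ ⟨g b, hgR b⟩)
      apply Subtype.ext
      apply Units.ext
      exact h1
    exact isSolvable_of_comm hc
  · subst hp0
    haveI : CharZero D := CharP.charP_to_charZero D
    have hb : H ≠ ⊥ := by
      rintro rfl
      apply hH
      infer_instance
    obtain ⟨G₀, hn, hidx, S, M, hSM, hinf, hcomm, ⟨e⟩, -, hM30⟩ :=
      S3359.result hH (S4293.result H hb)
    let φ : H79.Dv.L5 →* Dˣ := H.subtype.comp (S.subtype.comp e.symm.toMonoidHom)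
    have hφ : Function.Injective φ := by
      intro a b hab
      exact e.symm.injective (Subtype.ext (Subtype.ext hab))
    have hφS : ∀ s : H, s ∈ S → ∃ g, (s : Dˣ) = φ g := by
      intro s hs
      refine ⟨e ⟨s, hs⟩, ?_⟩
      change (s : Dˣ) = ((e.symm (e ⟨s, hs⟩) : S) : H)
      rw [MulEquiv.symm_apply_apply]
    have hφS' : ∀ g, ∃ s : H, s ∈ S ∧ (s : Dˣ) = φ g := fun g =>
      ⟨(e.symm g : S), (e.symm g).2, rfl⟩
    -- `M` is trivial
    have hM : M = ⊥ := by
      by_contra hM
      have h1 : Nat.card M ≠ 1 := fun h => hM (Subgroup.card_eq_one.mp h)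
      obtain ⟨r, hr, hrd⟩ := Nat.exists_prime_and_dvd h1
      haveI : Fact r.Prime := ⟨hr⟩
      obtain ⟨m, hm⟩ := exists_prime_orderOf_dvd_card' r hrd
      have hr30 : r.Coprime 30 := Nat.Coprime.coprime_dvd_left hrd hM30
      have hr20 : r.Coprime 20 := by
        have a1 : r.Coprime 10 := Nat.Coprime.coprime_dvd_right (by norm_num) hr30
        have a2 : r.Coprime 2 := Nat.Coprime.coprime_dvd_right (by norm_num) hr30
        exact a1.mul_right a2
      refine H79.Dv.no_zeta' hφ (ζ := (((m : M) : H) : Dˣ)) ?_ hr20 hr.one_lt ?_ ?_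
      · intro g
        obtain ⟨s, hs, hsg⟩ := hφS' g
        have h2 := hcomm s hs m m.2
        have h3 := congrArg (fun x : H => ((x : Dˣ) : D)) h2
        simp only [Subgroup.coe_mul, Units.val_mul] at h3
        rw [hsg] at h3
        exact h3
      · have h2 : m ^ r = 1 := by rw [← hm]; exact pow_orderOf_eq_one m
        have h3 := congrArg (fun x : M => (((x : H) : Dˣ) : D)) h2
        simpa using h3
      · intro h2
        have h3 : m = 1 := by
          apply Subtype.ext
          apply Subtype.ext
          apply Units.ext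
          exact h2
        rw [h3, orderOf_one] at hm
        exact hr.one_lt.ne hm
    rw [hM, sup_bot_eq] at hSM
    rcases hidx with h1 | h1
    · rw [Subgroup.index_eq_one] at h1
      have hS : S = ⊤ := by rw [hSM, h1]
      exact ⟨(Subgroup.topEquiv.symm.trans (MulEquiv.subgroupCongr hS.symm)).trans e⟩
    · exfalso
      obtain ⟨h, hh⟩ : ∃ h : H, h ∉ S := by
        by_contra hcon
        push Not at hcon
        have : G₀ = ⊤ := by rw [← hSM, eq_top_iff]; exact fun x _ => hcon x
        rw [this, Subgroup.index_top] at h1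
        norm_num at h1
      refine H79.Dv.no_ext hφ (h : Dˣ) ?_ ?_ ?_
      · intro g
        obtain ⟨s, hs, hsg⟩ := hφS' g
        have h2 : h * s * h⁻¹ ∈ S := by rw [hSM] at hs ⊢; exact hn.conj_mem s hs h
        obtain ⟨g', hg'⟩ := hφS _ h2
        refine ⟨g', ?_⟩
        rw [← hg', ← hsg]
        simp
      · have h2 : h * h ∈ S := by rw [hSM]; exact Subgroup.mul_self_mem_of_index_two h1 h
        obtain ⟨g', hg'⟩ := hφS _ h2
        exact ⟨g', by rw [← hg']; rfl⟩
      · intro g hg
        obtain ⟨s, hs, hsg⟩ := hφS' g
        apply hh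
        have : h = s := Subtype.ext (hg.trans hsg.symm)
        rw [this]; exact hs

end Cfsg.Agent.S4294
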