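import Cfsg.Statements.S4295
import Cfsg.Agent.FC.Square2

set_option autoImplicit false
open Cfsg

namespace Cfsg.Agent.S4295

open FC in
/-- the Frobenius group `(Z/n)^2 : Q8` -/
theorem exists_frob (n : ℕ) (hn : Odd n) (hn1 : 1 < n) :
    ∃ (L : Type) (_ : Group L) (_ : Finite L) (H : Subgroup L), Cfsg.IsFrobeniusComplement H ∧
        Nonempty (H ≃* QuaternionGroup 2) ∧ Nat.card (Cfsg.frobeniusKernel H) = n * n := by
  obtain ⟨a, b, hab⟩ := exists_sq_add_sq hn
  haveI : NeZero n := ⟨by omega⟩
  haveI : Fact (1 < n) := ⟨hn1⟩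
  have hab' : (a : ZMod n) * a + b * b = -1 := by
    rw [← ZMod.natCast_eq_zero_iff] at hab
    push_cast at hab
    linear_combination hab
  let V := ZMod n × ZMod n
  let W := Multiplicative V
  -- the two automorphisms
  let fI : V → V := fun v => (a * v.1 + b * v.2, b * v.1 - a * v.2)
  let fJ : V → V := fun v => (-v.2, v.1)
  have hII : ∀ v, fI (fI v) = -v := by
    intro v
    apply Prod.ext
    · show (a : ZMod n) * (a * v.1 + b * v.2) + b * (b * v.1 - a * v.2) = -v.1
      linear_combination v.1 * hab'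
    · show (b : ZMod n) * (a * v.1 + b * v.2) - a * (b * v.1 - a * v.2) = -v.2
      linear_combination v.2 * hab'
  have hJJ : ∀ v, fJ (fJ v) = -v := fun v => rfl
  have hIadd : ∀ v w, fI (v + w) = fI v + fI w := by
    intro v w
    apply Prod.ext
    · show (a : ZMod n) * (v.1 + w.1) + b * (v.2 + w.2) = (a * v.1 + b * v.2) + (a * w.1 + b * w.2); ring
    · show (b : ZMod n) * (v.1 + w.1) - a * (v.2 + w.2) = (b * v.1 - a * v.2) + (b * w.1 - a * w.2); ring
  have hJadd : ∀ v w, fJ (v + w) = fJ v + fJ w := by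
    intro v w
    apply Prod.ext
    · show -(v.2 + w.2) = -v.2 + -w.2; ring
    · rfl
  have hJI : ∀ v, fJ (fI v) = -(fI (fJ v)) := by
    intro v
    apply Prod.ext
    · show -((b : ZMod n) * v.1 - a * v.2) = -(a * (-v.2) + b * v.1); ring
    · show (a : ZMod n) * v.1 + b * v.2 = -(b * (-v.2) - a * v.1); ring
  have hIneg : ∀ v, fI (-v) = -(fI v) := by
    intro v
    apply Prod.ext
    · show (a : ZMod n) * (-v.1) + b * (-v.2) = -(a * v.1 + b * v.2); ring
    · show (b : ZMod n) * (-v.1) - a * (-v.2) = -(b * v.1 - a * v.2); ring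
  have hJneg : ∀ v, fJ (-v) = -(fJ v) := by
    intro v
    apply Prod.ext
    · show - -v.2 = - -v.2; rfl
    · rfl
  let I : MulAut W :=
    { toFun := fun w => Multiplicative.ofAdd (fI w.toAdd)
      invFun := fun w => Multiplicative.ofAdd (-(fI w.toAdd))
      left_inv := fun w => by
        show Multiplicative.ofAdd (-(fI (fI w.toAdd))) = w
        rw [hII, neg_neg]; rfl
      right_inv := fun w => by
        show Multiplicative.ofAdd (fI (-(fI w.toAdd))) = w
        rw [hIneg, hII, neg_neg]; rfl
      map_mul' := fun v w => congrArg Multiplicative.ofAdd (hIadd v.toAdd w.toAdd) }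
  let J : MulAut W :=
    { toFun := fun w => Multiplicative.ofAdd (fJ w.toAdd)
      invFun := fun w => Multiplicative.ofAdd (-(fJ w.toAdd))
      left_inv := fun w => by
        show Multiplicative.ofAdd (-(fJ (fJ w.toAdd))) = w
        rw [hJJ, neg_neg]; rfl
      right_inv := fun w => by
        show Multiplicative.ofAdd (fJ (-(fJ w.toAdd))) = w
        rw [hJneg, hJJ, neg_neg]; rfl
      map_mul' := fun v w => congrArg Multiplicative.ofAdd (hJadd v.toAdd w.toAdd) }
  have hI : ∀ w : W, I w = Multiplicative.ofAdd (fI w.toAdd) := fun w => rfl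
  have hJ : ∀ w : W, J w = Multiplicative.ofAdd (fJ w.toAdd) := fun w => rfl
  have hI2 : ∀ w : W, (I * I) w = w⁻¹ := by
    intro w
    rw [MulAut.mul_apply, hI, hI]
    exact congrArg Multiplicative.ofAdd (hII w.toAdd)
  have hJ2 : ∀ w : W, (J * J) w = w⁻¹ := by
    intro w
    rw [MulAut.mul_apply, hJ, hJ]
    exact congrArg Multiplicative.ofAdd (hJJ w.toAdd)
  have hI4 : I ^ (2 * 2) = 1 := by
    apply MulEquiv.ext
    intro w
    have : I ^ (2 * 2) = (I * I) * (I * I) := by simp only [pow_succ, pow_zero, one_mul, mul_assoc, Nat.reduceMul]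
    rw [this, MulAut.mul_apply, hI2, hI2, inv_inv]; rfl
  have hJI2 : J * J = I ^ 2 := by
    apply MulEquiv.ext
    intro w
    rw [pow_two, hI2, hJ2]
  have hconj : J * I * J⁻¹ = I⁻¹ := by
    rw [mul_inv_eq_iff_eq_mul]
    apply MulEquiv.ext
    intro w
    show Multiplicative.ofAdd (fJ (fI w.toAdd)) = Multiplicative.ofAdd (-(fI (fJ w.toAdd)))
    rw [hJI]
  let φ : QuaternionGroup 2 →* MulAut W := H81.quatHom 2 I J hI4 hJI2 hconj
  have hφa : φ (QuaternionGroup.a 1) = I := by
    show H81.zp (2 * 2) I hI4 1 = I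
    have := H81.zp_natCast (2 * 2) I hI4 1
    rw [Nat.cast_one, pow_one] at this
    exact this
  have htwo : ∀ w : W, w⁻¹ = w → w = 1 := by
    intro w hw
    have h1 : w * w = 1 := by nth_rewrite 1 [← hw]; exact inv_mul_cancel w
    have h2 : w ^ 2 = 1 := by rw [pow_two, h1]
    have h3 : w ^ n = 1 := by
      have : n • w.toAdd = 0 := by
        apply Prod.ext
        · show n • w.toAdd.1 = 0
          rw [nsmul_eq_mul, ZMod.natCast_self, zero_mul]
        · show n • w.toAdd.2 = 0
          rw [nsmul_eq_mul, ZMod.natCast_self, zero_mul]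
      exact congrArg Multiplicative.ofAdd this
    have h4 : orderOf w ∣ Nat.gcd 2 n := Nat.dvd_gcd (orderOf_dvd_of_pow_eq_one h2) (orderOf_dvd_of_pow_eq_one h3)
    have h5 : Nat.gcd 2 n = 1 := (Nat.coprime_two_left).mpr hn
    rw [h5, Nat.dvd_one, orderOf_eq_one_iff] at h4
    exact h4
  have hφ : Frob.IsFPF φ := by
    intro g hg w hw
    -- g² ∈ {1, a 2}; if g² = 1 then g = a 2
    have hz : φ (QuaternionGroup.a 2) = I * I := by
      have : (QuaternionGroup.a 2 : QuaternionGroup 2) = QuaternionGroup.a 1 * QuaternionGroup.a 1 := by decide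
      rw [this, map_mul, hφa]
    have h1 : g = QuaternionGroup.a 2 ∨ g * g = QuaternionGroup.a 2 := by
      clear hw
      revert g
      decide
    apply htwo
    rcases h1 with h1 | h1
    · rw [← hI2, ← hz, ← h1]; exact hw
    · rw [← hI2, ← hz, ← h1, map_mul, MulAut.mul_apply, hw]; exact hw
  haveI : Nontrivial V := inferInstance
  haveI : Nontrivial W := inferInstance
  haveI : Nontrivial (QuaternionGroup 2) := ⟨QuaternionGroup.a 0, QuaternionGroup.a 1, by decide⟩
  haveI : Finite V := inferInstance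
  haveI : Finite W := inferInstance
  haveI : Finite (W ⋊[φ] QuaternionGroup 2) := Finite.of_equiv _ SemidirectProduct.equivProd.symm
  refine ⟨W ⋊[φ] QuaternionGroup 2, inferInstance, inferInstance, (SemidirectProduct.inr : _ →* W ⋊[φ] QuaternionGroup 2).range,
    isFrobeniusComplement_inr φ hφ, ⟨(MonoidHom.ofInjective (SemidirectProduct.inr_injective (φ := φ))).symm⟩, ?_⟩
  rw [Frob.card_frobeniusKernel (isFrobeniusComplement_inr φ hφ), index_inr]
  show Nat.card (ZMod n × ZMod n) = n * n
  rw [Nat.card_prod, Nat.card_zmod]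

/-- For a natural number m the following are equivalent: (a) some finite group has a Frobenius complement isomorphic to the quaternion group of order 8 whose Frobenius kernel (the identity together with the elements lying in no conjugate of the complement) has exactly m elements; (b) m is an odd perfect square greater than 1. -/
theorem result (m : ℕ) :
    (∃ (L : Type) (_ : Group L) (_ : Finite L) (H : Subgroup L), Cfsg.IsFrobeniusComplement H ∧
        Nonempty (H ≃* QuaternionGroup 2) ∧ Nat.card (Cfsg.frobeniusKernel H) = m) ↔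
    (Odd m ∧ IsSquare m ∧ 1 < m) := by
  constructor
  · rintro ⟨L, _, _, H, hF, ⟨e⟩, rfl⟩
    obtain ⟨i, j, h1, h2, h3, h4⟩ := FC.quat_rels_in (n := 1) le_rfl (e : H ≃* QuaternionGroup (2 ^ 1))
    have hval : ∀ a b : H, a = b → (a : L) = (b : L) := fun a b h => by rw [h]
    have h := FC.odd_square_kernel hF (i := (i : L)) (j := (j : L)) i.2 (fun h5 => h1 (Subtype.ext h5)) (hval _ _ h2)
      (hval _ _ h3) (hval _ _ h4)
    refine ⟨h.1, h.2, ?_⟩
    rw [Frob.card_frobeniusKernel hF]
    have h5 : H.index ≠ 1 := fun h => hF.2.1 (Subgroup.index_eq_one.mp h)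
    have h6 : H.index ≠ 0 := Subgroup.index_ne_zero_of_finite
    omega
  · rintro ⟨hodd, ⟨n, rfl⟩, h1⟩
    have hn : Odd n := by
      rw [Nat.odd_mul] at hodd; exact hodd.1
    have hn1 : 1 < n := by
      rcases Nat.lt_or_ge 1 n with h | h
      · exact h
      · interval_cases n <;> omega
    exact exists_frob n hn hn1

end Cfsg.Agent.S4295
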