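import Cfsg.Statements.S4296
import Cfsg.Agent.FC.Square2

set_option autoImplicit false
open Cfsg

namespace Cfsg.Agent.S4296

/-- Let H be a Frobenius complement in a finite group, and suppose some Sylow subgroup of H is not cyclic. Then the number of elements of the Frobenius kernel (the identity together with the elements lying in no conjugate of H) is an odd perfect square. -/
theorem result {L : Type*} [Group L] [Finite L] (H : Subgroup L) (hF : Cfsg.IsFrobeniusComplement H)
    (hZ : ∃ (p : ℕ) (_ : Fact p.Prime) (P : Sylow p H), ¬ IsCyclic P) :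
    Odd (Nat.card (Cfsg.frobeniusKernel H)) ∧ IsSquare (Nat.card (Cfsg.frobeniusKernel H)) := by
  obtain ⟨p, hp, P, hP⟩ := hZ
  haveI := hp
  have h := Frob.IsFrobeniusComplement.hasFPFModule hF
  rcases FC.psub h P.2 with hc | ⟨rfl, n, ⟨e⟩⟩
  · exact (hP hc).elim
  rcases Nat.eq_zero_or_pos n with rfl | hn
  · exfalso
    apply hP
    rw [pow_zero] at e
    haveI := QuaternionGroup.quaternionGroup_one_isCyclic
    exact isCyclic_of_surjective e.symm.toMonoidHom e.symm.surjective
  obtain ⟨i, j, h1, h2, h3, h4⟩ := FC.quat_rels_in hn e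
  have hval : ∀ a b : (P : Subgroup H), a = b → ((a : H) : L) = ((b : H) : L) := fun a b h => by rw [h]
  apply FC.odd_square_kernel hF (i := ((i : H) : L)) (j := ((j : H) : L)) i.1.2
  · intro h5
    apply h1
    apply Subtype.ext
    apply Subtype.ext
    exact h5
  · exact hval _ _ h2
  · exact hval _ _ h3
  · exact hval _ _ h4

end Cfsg.Agent.S4296
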