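import Cfsg.Statements.S4297
import Cfsg.Agent.H71.DivRing

set_option autoImplicit false
open Cfsg

namespace Cfsg.Agent.S4297

open Quaternion in
/-- the quaternion `j` -/
noncomputable def qJ : ℍ[ℝ] := ⟨0, 0, 1, 0⟩

@[simp] theorem qJ_re : qJ.re = 0 := rfl
@[simp] theorem qJ_imI : qJ.imI = 0 := rfl
@[simp] theorem qJ_imJ : qJ.imJ = 1 := rfl
@[simp] theorem qJ_imK : qJ.imK = 0 := rfl

open Quaternion in
/-- unit complex numbers as quaternions -/
noncomputable def qc (z : Circle) : ℍ[ℝ] := Quaternion.ofComplex (z : ℂ)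

@[simp] theorem qc_re (z : Circle) : (qc z).re = (z : ℂ).re := rfl
@[simp] theorem qc_imI (z : Circle) : (qc z).imI = (z : ℂ).im := rfl
@[simp] theorem qc_imJ (z : Circle) : (qc z).imJ = 0 := rfl
@[simp] theorem qc_imK (z : Circle) : (qc z).imK = 0 := rfl

theorem qc_one : qc 1 = 1 := by
  unfold qc; rw [Circle.coe_one, map_one]

theorem qc_mul (z w : Circle) : qc (z * w) = qc z * qc w := by
  unfold qc; rw [Circle.coe_mul, map_mul]

theorem qc_qJ (z : Circle) : qc z * qJ = qJ * qc z⁻¹ := by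
  have h1 : ((z⁻¹ : Circle) : ℂ) = (starRingEnd ℂ) z := Circle.coe_inv_eq_conj z
  ext <;> simp [Quaternion.re_mul, Quaternion.imI_mul, Quaternion.imJ_mul, Quaternion.imK_mul,
    h1, Complex.conj_re, Complex.conj_im, -Circle.coe_inv]

theorem qJ_qJ : qJ * qJ = -1 := by
  ext <;> simp [Quaternion.re_mul, Quaternion.imI_mul, Quaternion.imJ_mul, Quaternion.imK_mul] <;> rfl

theorem qc_n (n : ℕ) [NeZero n] : qc (ZMod.toCircle (N := 2 * n) (n : ZMod (2 * n))) = -1 := by
  have h1 : (ZMod.toCircle (N := 2 * n) (n : ZMod (2 * n))) *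
      (ZMod.toCircle (N := 2 * n) (n : ZMod (2 * n))) = 1 := by
    rw [← AddChar.map_add_eq_mul]
    have : ((n : ZMod (2 * n)) + n) = 0 := by
      have : ((2 * n : ℕ) : ZMod (2 * n)) = 0 := ZMod.natCast_self _
      rw [← this]; push_cast; ring
    rw [this, AddChar.map_zero_eq_one]
  have h2 : (ZMod.toCircle (N := 2 * n) (n : ZMod (2 * n))) ≠ 1 := by
    intro h
    have h3 : (n : ZMod (2 * n)) = 0 := by
      apply ZMod.injective_toCircle
      rw [h, AddChar.map_zero_eq_one]
    rw [ZMod.natCast_eq_zero_iff] at h3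
    have h4 := Nat.le_of_dvd (Nat.pos_of_ne_zero (NeZero.ne n)) h3
    have := Nat.pos_of_ne_zero (NeZero.ne n)
    omega
  have h3 : ((ZMod.toCircle (N := 2 * n) (n : ZMod (2 * n)) : Circle) : ℂ) *
      ((ZMod.toCircle (N := 2 * n) (n : ZMod (2 * n)) : Circle) : ℂ) = 1 := by
    rw [← Circle.coe_mul, h1, Circle.coe_one]
  rcases mul_self_eq_one_iff.mp h3 with h4 | h4
  · exact absurd (Circle.ext h4) h2
  · unfold qc
    rw [h4, map_neg, map_one]

open Quaternion in
/-- embedding of the dicyclic group in the real quaternions -/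
noncomputable def emb (n : ℕ) [NeZero n] : QuaternionGroup n →* ℍ[ℝ] where
  toFun
    | QuaternionGroup.a i => qc (ZMod.toCircle (N := 2 * n) i)
    | QuaternionGroup.xa i => qJ * qc (ZMod.toCircle (N := 2 * n) i)
  map_one' := by
    change qc (ZMod.toCircle (N := 2 * n) 0) = 1
    rw [AddChar.map_zero_eq_one, qc_one]
  map_mul' := by
    rintro (i | i) (k | k)
    · change qc (ZMod.toCircle (N := 2 * n) (i + k)) = _
      rw [AddChar.map_add_eq_mul, qc_mul]
    · change qJ * qc (ZMod.toCircle (N := 2 * n) (k - i)) =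
        qc (ZMod.toCircle (N := 2 * n) i) * (qJ * qc (ZMod.toCircle (N := 2 * n) k))
      rw [← mul_assoc, qc_qJ, mul_assoc, ← qc_mul, ← AddChar.map_neg_eq_inv,
        ← AddChar.map_add_eq_mul, neg_add_eq_sub]
    · change qJ * qc (ZMod.toCircle (N := 2 * n) (i + k)) =
        (qJ * qc (ZMod.toCircle (N := 2 * n) i)) * qc (ZMod.toCircle (N := 2 * n) k)
      rw [AddChar.map_add_eq_mul, qc_mul, mul_assoc]
    · change qc (ZMod.toCircle (N := 2 * n) ((n : ZMod (2 * n)) + k - i)) =
        (qJ * qc (ZMod.toCircle (N := 2 * n) i)) * (qJ * qc (ZMod.toCircle (N := 2 * n) k))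
      have e1 : (qJ * qc (ZMod.toCircle (N := 2 * n) i)) * (qJ * qc (ZMod.toCircle (N := 2 * n) k)) =
          qJ * (qc (ZMod.toCircle (N := 2 * n) i) * qJ) * qc (ZMod.toCircle (N := 2 * n) k) := by
        simp only [mul_assoc]
      rw [e1, qc_qJ, ← mul_assoc, qJ_qJ, mul_assoc, ← qc_mul, ← AddChar.map_neg_eq_inv,
        ← AddChar.map_add_eq_mul, add_sub_assoc, AddChar.map_add_eq_mul, qc_mul, qc_n,
        neg_add_eq_sub]

theorem emb_injective (n : ℕ) [NeZero n] : Function.Injective (emb n) := by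
  intro x y hxy
  have hinj : ∀ z w : Circle, qc z = qc w → z = w := by
    intro z w h
    apply Circle.ext
    apply Complex.ext
    · rw [← qc_re, h, qc_re]
    · rw [← qc_imI, h, qc_imI]
  have hmix : ∀ z w : Circle, qc z ≠ qJ * qc w := by
    intro z w h
    have h1 : (z : ℂ).re = 0 := by
      rw [← qc_re, h]; simp [Quaternion.re_mul]
    have h2 : (z : ℂ).im = 0 := by
      rw [← qc_imI, h]; simp [Quaternion.imI_mul]
    have h3 : (z : ℂ) = 0 := Complex.ext h1 h2
    exact Circle.coe_ne_zero z h3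
  have hJ : qJ ≠ 0 := by
    intro h
    have h1 : qJ.imJ = 1 := rfl
    have h2 : qJ.imJ = 0 := by rw [h]; rfl
    rw [h1] at h2
    exact one_ne_zero h2
  rcases x with i | i <;> rcases y with k | k
  · exact congrArg QuaternionGroup.a (ZMod.injective_toCircle (hinj _ _ hxy))
  · exact absurd hxy (hmix _ _)
  · exact absurd hxy.symm (hmix _ _)
  · have h : qJ * qc (ZMod.toCircle (N := 2 * n) i) = qJ * qc (ZMod.toCircle (N := 2 * n) k) := hxy
    exact congrArg QuaternionGroup.xa (ZMod.injective_toCircle (hinj _ _ (mul_left_cancel₀ hJ h)))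


/-- For every n ≥ 2 the dicyclic group of order 4n (generated by an element a of order 2n and an element x with x² = aⁿ and x a x⁻¹ = a⁻¹) occurs as a Frobenius complement of some finite Frobenius group. -/
theorem result (n : ℕ) (hn : 2 ≤ n) :
    ∃ (L : Type) (_ : Group L) (_ : Finite L) (H : Subgroup L), Cfsg.IsFrobeniusComplement H ∧ Nonempty (H ≃* QuaternionGroup n) := by
  haveI : NeZero n := ⟨by omega⟩
  haveI : Finite (QuaternionGroup n) := inferInstance
  haveI : Nontrivial (QuaternionGroup n) :=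
    ⟨⟨QuaternionGroup.a 0, QuaternionGroup.xa 0, fun h => QuaternionGroup.noConfusion rfl (heq_of_eq h)⟩⟩
  obtain ⟨L, i1, i2, C, h1, ⟨e⟩⟩ := Cfsg.Agent.H71.frobenius_of_injective (emb n).toHomUnits (by
    intro x y hxy
    apply emb_injective n
    exact congrArg Units.val hxy)
  exact ⟨L, i1, i2, C, h1, ⟨e.symm⟩⟩

end Cfsg.Agent.S4297
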