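import Cfsg.Statements.S4298
import Cfsg.Agent.H71.FrobConstruct

set_option autoImplicit false
open Cfsg

namespace Cfsg.Agent.S4298

/-- table of a homomorphism from `SL(2,3)` to `SL(2,5)`, entries in base 5 -/
def tab : List ℕ :=
  [0, 0, 0, 0, 0, 0, 0, 0, 0, 0, 0, 0, 0, 0, 0, 45, 537, 223, 0, 0, 0, 105, 557, 243, 0, 0, 0, 0,
   126, 0, 0, 163, 0, 0, 491, 0, 0, 183, 0, 0, 0, 253, 349, 0, 0, 0, 471, 0, 369, 0, 0, 0, 0, 90, 0,
   0, 504, 0, 0, 289, 0, 0, 617, 0, 0, 309, 0, 60, 0, 411, 0, 0, 0, 0, 597, 431, 0, 0, 0, 377, 0]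

def code (a b c d : Fin 3) : ℕ := tab.getD (a.val * 27 + b.val * 9 + c.val * 3 + d.val) 0

def E11 (m : ℕ) : Fin 5 := Fin.ofNat 5 (m / 125)
def E12 (m : ℕ) : Fin 5 := Fin.ofNat 5 (m / 25)
def E21 (m : ℕ) : Fin 5 := Fin.ofNat 5 (m / 5)
def E22 (m : ℕ) : Fin 5 := Fin.ofNat 5 m

set_option maxRecDepth 100000 in
theorem tab_mul : ∀ a b c d : Fin 3, a * d - b * c = 1 → ∀ a' b' c' d' : Fin 3,
    a' * d' - b' * c' = 1 →
    let m := code a b c d
    let m' := code a' b' c' d'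
    let n := code (a * a' + b * c') (a * b' + b * d') (c * a' + d * c') (c * b' + d * d')
    E11 n = E11 m * E11 m' + E12 m * E21 m' ∧ E12 n = E11 m * E12 m' + E12 m * E22 m' ∧
    E21 n = E21 m * E11 m' + E22 m * E21 m' ∧ E22 n = E21 m * E12 m' + E22 m * E22 m' := by
  decide +kernel

set_option maxRecDepth 100000 in
theorem tab_fpf : ∀ a b c d : Fin 3, a * d - b * c = 1 → ¬ (a = 1 ∧ b = 0 ∧ c = 0 ∧ d = 1) →
    ∀ x y : Fin 5,
    E11 (code a b c d) * x + E12 (code a b c d) * y = x →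
    E21 (code a b c d) * x + E22 (code a b c d) * y = y → x = 0 ∧ y = 0 := by
  decide +kernel

theorem tab_one : E11 (code 1 0 0 1) = 1 ∧ E12 (code 1 0 0 1) = 0 ∧
    E21 (code 1 0 0 1) = 0 ∧ E22 (code 1 0 0 1) = 1 := by
  decide +kernel

def F11 (m : ℕ) : ZMod 5 := E11 m
def F12 (m : ℕ) : ZMod 5 := E12 m
def F21 (m : ℕ) : ZMod 5 := E21 m
def F22 (m : ℕ) : ZMod 5 := E22 m

abbrev A := Matrix.SpecialLinearGroup (Fin 2) (ZMod 3)

def mcode (g : A) : ℕ := code (g.1 0 0) (g.1 0 1) (g.1 1 0) (g.1 1 1)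

theorem det_cond (g : A) : g.1 0 0 * g.1 1 1 - g.1 0 1 * g.1 1 0 = 1 := by
  have := g.2
  rw [Matrix.det_fin_two] at this
  exact this

/-- the action of `SL(2,3)` on `(ℤ/5)²` -/
@[implicit_reducible] def act : DistribMulAction A (ZMod 5 × ZMod 5) where
  smul g v := (F11 (mcode g) * v.1 + F12 (mcode g) * v.2,
    F21 (mcode g) * v.1 + F22 (mcode g) * v.2)
  one_smul v := by
    have h1 : F11 (code 1 0 0 1) = 1 := tab_one.1
    have h2 : F12 (code 1 0 0 1) = 0 := tab_one.2.1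
    have h3 : F21 (code 1 0 0 1) = 0 := tab_one.2.2.1
    have h4 : F22 (code 1 0 0 1) = 1 := tab_one.2.2.2
    change (F11 (code 1 0 0 1) * v.1 + F12 (code 1 0 0 1) * v.2,
      F21 (code 1 0 0 1) * v.1 + F22 (code 1 0 0 1) * v.2) = v
    rw [h1, h2, h3, h4]
    ext
    · change (1 : ZMod 5) * v.1 + (0 : ZMod 5) * v.2 = v.1
      ring
    · change (0 : ZMod 5) * v.1 + (1 : ZMod 5) * v.2 = v.2
      ring
  mul_smul g h v := by
    obtain ⟨h1, h2, h3, h4⟩ := tab_mul (g.1 0 0) (g.1 0 1) (g.1 1 0) (g.1 1 1) (det_cond g)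
      (h.1 0 0) (h.1 0 1) (h.1 1 0) (h.1 1 1) (det_cond h)
    have e : mcode (g * h) = code (g.1 0 0 * h.1 0 0 + g.1 0 1 * h.1 1 0)
        (g.1 0 0 * h.1 0 1 + g.1 0 1 * h.1 1 1)
        (g.1 1 0 * h.1 0 0 + g.1 1 1 * h.1 1 0)
        (g.1 1 0 * h.1 0 1 + g.1 1 1 * h.1 1 1) := by
      unfold mcode
      rw [Matrix.SpecialLinearGroup.coe_mul]
      simp only [Matrix.mul_apply, Fin.sum_univ_two]
    have h1' : F11 (mcode (g * h)) = F11 (mcode g) * F11 (mcode h) +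
      F12 (mcode g) * F21 (mcode h) := by rw [e]; exact h1
    have h2' : F12 (mcode (g * h)) = F11 (mcode g) * F12 (mcode h) +
      F12 (mcode g) * F22 (mcode h) := by rw [e]; exact h2
    have h3' : F21 (mcode (g * h)) = F21 (mcode g) * F11 (mcode h) +
      F22 (mcode g) * F21 (mcode h) := by rw [e]; exact h3
    have h4' : F22 (mcode (g * h)) = F21 (mcode g) * F12 (mcode h) +
      F22 (mcode g) * F22 (mcode h) := by rw [e]; exact h4
    change (F11 (mcode (g * h)) * v.1 + F12 (mcode (g * h)) * v.2,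
      F21 (mcode (g * h)) * v.1 + F22 (mcode (g * h)) * v.2) =
      (F11 (mcode g) * (F11 (mcode h) * v.1 + F12 (mcode h) * v.2) +
        F12 (mcode g) * (F21 (mcode h) * v.1 + F22 (mcode h) * v.2),
      F21 (mcode g) * (F11 (mcode h) * v.1 + F12 (mcode h) * v.2) +
        F22 (mcode g) * (F21 (mcode h) * v.1 + F22 (mcode h) * v.2))
    rw [h1', h2', h3', h4']
    ext
    · change _ * v.1 + _ * v.2 = _
      ring
    · change _ * v.1 + _ * v.2 = _
      ring
  smul_zero g := by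
    change (F11 (mcode g) * 0 + F12 (mcode g) * 0,
      F21 (mcode g) * 0 + F22 (mcode g) * 0) = (0, 0)
    simp
  smul_add g v w := by
    change (F11 (mcode g) * (v.1 + w.1) + F12 (mcode g) * (v.2 + w.2),
      F21 (mcode g) * (v.1 + w.1) + F22 (mcode g) * (v.2 + w.2)) =
      (F11 (mcode g) * v.1 + F12 (mcode g) * v.2 +
        (F11 (mcode g) * w.1 + F12 (mcode g) * w.2),
      F21 (mcode g) * v.1 + F22 (mcode g) * v.2 +
        (F21 (mcode g) * w.1 + F22 (mcode g) * w.2))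
    ext
    · change _ * (v.1 + w.1) + _ * (v.2 + w.2) = _
      ring
    · change _ * (v.1 + w.1) + _ * (v.2 + w.2) = _
      ring


/-- The group SL(2,3) of order 24 (the binary tetrahedral group) occurs as a Frobenius complement of some finite Frobenius group. -/
theorem result :
    ∃ (L : Type) (_ : Group L) (_ : Finite L) (H : Subgroup L), Cfsg.IsFrobeniusComplement H ∧ Nonempty (H ≃* Matrix.SpecialLinearGroup (Fin 2) (ZMod 3)) := by
  letI : DistribMulAction A (ZMod 5 × ZMod 5) := act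
  haveI : Nontrivial A := ⟨⟨1, -1, by decide⟩⟩
  haveI : Nontrivial (Multiplicative (ZMod 5 × ZMod 5)) :=
    ⟨⟨Multiplicative.ofAdd (0, 0), Multiplicative.ofAdd (1, 0), by
      intro h
      have h1 : ((0 : ZMod 5), (0 : ZMod 5)) = (1, 0) := h
      have h2 := congrArg Prod.fst h1
      revert h2
      decide⟩⟩
  have hφ : Cfsg.Agent.Frob.IsFPF ((MulAutMultiplicative (ZMod 5 × ZMod 5)).symm.toMonoidHom.comp
      (DistribMulAction.toAddAut A (ZMod 5 × ZMod 5))) := by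
    intro g hg w hw
    have hw' : g • (Multiplicative.toAdd w : ZMod 5 × ZMod 5) = Multiplicative.toAdd w := hw
    have h1 := congrArg Prod.fst hw'
    have h2 := congrArg Prod.snd hw'
    have h3 : ¬ (g.1 0 0 = 1 ∧ g.1 0 1 = 0 ∧ g.1 1 0 = 0 ∧ g.1 1 1 = 1) := by
      rintro ⟨a1, a2, a3, a4⟩
      apply hg
      ext i j
      fin_cases i <;> fin_cases j
      · exact a1
      · exact a2
      · exact a3
      · exact a4
    obtain ⟨h4, h5⟩ := tab_fpf (g.1 0 0) (g.1 0 1) (g.1 1 0) (g.1 1 1) (det_cond g) h3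
      (Multiplicative.toAdd w).1 (Multiplicative.toAdd w).2 h1 h2
    have : Multiplicative.toAdd w = 0 := Prod.ext h4 h5
    exact this
  obtain ⟨L, i1, i2, C, h1, ⟨e⟩, -⟩ := Cfsg.Agent.H71.exists_isFrobeniusComplement hφ
  exact ⟨L, i1, i2, C, h1, ⟨e.symm⟩⟩

end Cfsg.Agent.S4298
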