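import Cfsg.Statements.S4299
import Cfsg.Agent.H71.DivRing

set_option autoImplicit false
open Cfsg

namespace Cfsg.Agent.S4299

/-- Every nontrivial finite cyclic group occurs as a Frobenius complement of some finite Frobenius group. -/
theorem result {C : Type*} [Group C] [Finite C] [IsCyclic C] [Nontrivial C] :
    ∃ (L : Type) (_ : Group L) (_ : Finite L) (H : Subgroup L), Cfsg.IsFrobeniusComplement H ∧ Nonempty (C ≃* H) := by
  have hcard : (Nat.card C) ≠ 0 := Nat.card_pos.ne'
  haveI : NeZero (Nat.card C) := ⟨hcard⟩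
  have hcyc : IsCyclic (rootsOfUnity (Nat.card C) ℂ) := inferInstance
  have hc2 : Nat.card (rootsOfUnity (Nat.card C) ℂ) = Nat.card C := Complex.card_rootsOfUnity _
  let e : C ≃* rootsOfUnity (Nat.card C) ℂ := mulEquivOfCyclicCardEq hc2.symm
  let f : C →* ℂˣ := (rootsOfUnity (Nat.card C) ℂ).subtype.comp e.toMonoidHom
  exact Cfsg.Agent.H71.frobenius_of_injective f
    ((rootsOfUnity (Nat.card C) ℂ).subtype_injective.comp e.injective)

end Cfsg.Agent.S4299
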