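import Cfsg.Statements.S4300
-- import your own Cfsg.Agent.* helpers here

set_option autoImplicit false
open Cfsg

namespace Cfsg.Agent.S4300

/-- Let G act faithfully and primitively on a set X, and suppose the stabilizer of some point is a simple group. Then either G is simple, or G has a normal subgroup, neither trivial nor the whole group, that acts regularly on X (transitively with trivial point stabilizers). -/
theorem result {G : Type*} [Group G] {X : Type*} [MulAction G X] [FaithfulSMul G X]
    (hprim : MulAction.IsPreprimitive G X) (x : X) (hsimple : IsSimpleGroup (MulAction.stabilizer G x)) :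
    IsSimpleGroup G ∨ ∃ N : Subgroup G, N.Normal ∧ N ≠ ⊥ ∧ N ≠ ⊤ ∧
      MulAction.IsPretransitive N X ∧ ∀ y : X, MulAction.stabilizer N y = ⊥ := by
  classical
  by_cases hG : IsSimpleGroup G
  · exact Or.inl hG
  right
  have hnt : Nontrivial G := by
    obtain ⟨a, b, hab⟩ := hsimple.toNontrivial
    exact ⟨a, b, fun h => hab (Subtype.ext h)⟩
  have hex : ∃ N : Subgroup G, N.Normal ∧ N ≠ ⊥ ∧ N ≠ ⊤ := by
    by_contra hcon
    push Not at hcon
    apply hG
    refine ⟨fun H hH => ?_⟩
    by_cases h : H = ⊥
    · exact Or.inl h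
    · exact Or.inr (hcon H hH h)
  obtain ⟨N, hN, hNb, hNt⟩ := hex
  have htr : MulAction.IsPretransitive N X := by
    refine MulAction.IsQuasiPreprimitive.isPretransitive_of_normal ?_
    intro hfix
    apply hNb
    rw [eq_bot_iff]
    intro n hn
    rw [Subgroup.mem_bot]
    apply FaithfulSMul.eq_of_smul_eq_smul (α := X)
    intro y
    have : y ∈ MulAction.fixedPoints N X := hfix ▸ Set.mem_univ y
    rw [one_smul]
    exact this ⟨n, hn⟩
  have hKx : N.subgroupOf (MulAction.stabilizer G x) = ⊥ ∨ N.subgroupOf (MulAction.stabilizer G x) = ⊤ := 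
    hsimple.eq_bot_or_eq_top_of_normal _ inferInstance
  rcases hKx with h | h
  · refine ⟨N, hN, hNb, hNt, htr, fun y => ?_⟩
    obtain ⟨k, hk⟩ := htr.exists_smul_eq x y
    rw [eq_bot_iff]
    intro n hn
    rw [Subgroup.mem_bot]
    have hn' : n • y = y := hn
    have h1 : (k⁻¹ * n * k : N) • x = x := by
      rw [mul_smul, mul_smul, hk, hn', ← hk, inv_smul_smul]
    have h2 : (⟨((k⁻¹ * n * k : N) : G), h1⟩ : MulAction.stabilizer G x) ∈ N.subgroupOf (MulAction.stabilizer G x) := by
      rw [Subgroup.mem_subgroupOf]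
      exact (k⁻¹ * n * k : N).2
    rw [h, Subgroup.mem_bot] at h2
    have h3a : ((k⁻¹ * n * k : N) : G) = 1 := congrArg (fun z : MulAction.stabilizer G x => (z : G)) h2
    have h3 : (k⁻¹ * n * k : N) = 1 := Subtype.ext h3a
    have h4 : n = k * (k⁻¹ * n * k) * k⁻¹ := by group
    rw [h4, h3]; simp
  · exfalso
    apply hNt
    rw [eq_top_iff]
    intro g _
    obtain ⟨k, hk⟩ := htr.exists_smul_eq x (g • x)
    have hk' : (k : G) • x = g • x := hk
    have h1 : (k : G)⁻¹ * g ∈ MulAction.stabilizer G x := by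
      rw [MulAction.mem_stabilizer_iff, mul_smul, ← hk', inv_smul_smul]
    have h2 : (⟨(k : G)⁻¹ * g, h1⟩ : MulAction.stabilizer G x) ∈ N.subgroupOf (MulAction.stabilizer G x) := by
      rw [h]; exact Subgroup.mem_top _
    rw [Subgroup.mem_subgroupOf] at h2
    have : g = (k : G) * ((k : G)⁻¹ * g) := by group
    rw [this]
    exact N.mul_mem k.2 h2

end Cfsg.Agent.S4300
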