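import Cfsg.Statements.S4301


set_option autoImplicit false
open Cfsg

namespace Cfsg.Agent.S4301

/-- One-point extension of a multiply transitive group. Let X be a set and G a group of permutations of Option X (the set X with one extra point ∗ = none) all of whose elements fix ∗, such that G is k-transitive on the points of X for some k ≥ 2, X having at least k points. Suppose a permutation h of Option X and an element g of G satisfy: h interchanges ∗ with a point x of X and fixes a point y of X; g interchanges x and y; (g h)³ and h² lie in G; and for every f in G fixing x, the product h f h lies in G and fixes x. Then an element of the group generated by G and h fixes ∗ exactly when it lies in G, and that group acts (k+1)-transitively on Option X. -/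
theorem result {X : Type*} (G : Subgroup (Equiv.Perm (Option X))) (hfix : ∀ f ∈ G, f none = none)
    (k : ℕ) (hk : 2 ≤ k) (hkX : Nonempty (Fin k ↪ X))
    (htrans : ∀ a b : Fin k ↪ X, ∃ f ∈ G, ∀ i, f (some (a i)) = some (b i))
    (h g : Equiv.Perm (Option X)) (hg : g ∈ G) (x y : X)
    (h1 : h none = some x) (h2 : h (some x) = none) (h3 : h (some y) = some y)
    (h4 : g (some x) = some y) (h5 : g (some y) = some x)
    (h6 : (g * h) ^ 3 ∈ G) (h7 : h ^ 2 ∈ G)
    (h8 : ∀ f ∈ G, f (some x) = some x → h * f * h ∈ G ∧ (h * f * h) (some x) = some x) :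
    (∀ f ∈ Subgroup.closure ((G : Set (Equiv.Perm (Option X))) ∪ {h}), f none = none ↔ f ∈ G) ∧
      MulAction.IsMultiplyPretransitive (Subgroup.closure ((G : Set (Equiv.Perm (Option X))) ∪ {h})) (Option X) (k + 1) := by
  classical
  obtain ⟨e⟩ := hkX
  have h0k : 0 < k := by omega
  have h1k : 1 < k := by omega
  have hxy : x ≠ y := by
    rintro rfl
    rw [h2] at h3
    exact absurd h3 (by simp)
  -- embeddings with prescribed first two values
  have emb : ∀ p q : X, p ≠ q → ∃ a : Fin k ↪ X, a ⟨0, h0k⟩ = p ∧ a ⟨1, h1k⟩ = q := by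
    intro p q hpq
    have h2t : MulAction.IsMultiplyPretransitive (Equiv.Perm X) X 2 := Equiv.Perm.isMultiplyPretransitive X 2
    rw [MulAction.is_two_pretransitive_iff] at h2t
    have hne : e ⟨0, h0k⟩ ≠ e ⟨1, h1k⟩ := by
      intro h
      have := e.injective h
      simp at this
    obtain ⟨σ, hσ1, hσ2⟩ := h2t hne hpq
    exact ⟨e.trans σ.toEmbedding, hσ1, hσ2⟩
  -- G_x is transitive on X \ {x}
  have hGx : ∀ z : X, z ≠ x → ∃ a ∈ G, a (some x) = some x ∧ a (some y) = some z := by
    intro z hz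
    obtain ⟨a, ha1, ha2⟩ := emb x y hxy
    obtain ⟨b, hb1, hb2⟩ := emb x z (Ne.symm hz)
    obtain ⟨f, hf, hfa⟩ := htrans a b
    refine ⟨f, hf, ?_, ?_⟩
    · have := hfa ⟨0, h0k⟩
      rwa [ha1, hb1] at this
    · have := hfa ⟨1, h1k⟩
      rwa [ha2, hb2] at this
  -- G permutes X
  have hsome : ∀ f ∈ G, ∀ z : X, ∃ w : X, f (some z) = some w := by
    intro f hf z
    rcases hw : f (some z) with _ | w
    · exfalso
      have h9 := hfix f hf
      have := f.injective (hw.trans h9.symm)
      exact absurd this (by simp)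
    · exact ⟨w, rfl⟩
  have hinv : h⁻¹ = (h ^ 2)⁻¹ * h := by
    rw [pow_two]; group
  have hinv' : h⁻¹ = h * (h ^ 2)⁻¹ := by
    rw [pow_two]; group
  -- the set G ∪ G h G
  let M : Set (Equiv.Perm (Option X)) := {f | f ∈ G ∨ ∃ a ∈ G, ∃ b ∈ G, f = a * h * b}
  have hMl : ∀ a ∈ G, ∀ f ∈ M, a * f ∈ M := by
    rintro a ha f (hf | ⟨b, hb, c, hc, rfl⟩)
    · exact Or.inl (mul_mem ha hf)
    · exact Or.inr ⟨a * b, mul_mem ha hb, c, hc, by group⟩
  have hMr : ∀ a ∈ G, ∀ f ∈ M, f * a ∈ M := by
    rintro a ha f (hf | ⟨b, hb, c, hc, rfl⟩)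
    · exact Or.inl (mul_mem hf ha)
    · exact Or.inr ⟨b, hb, c * a, mul_mem hc ha, by group⟩
  have hhgh : h * g * h ∈ M := by
    have e1 : h * g * h = g⁻¹ * (g * h) ^ 3 * h⁻¹ * g⁻¹ := by
      simp only [pow_succ, pow_zero, one_mul]; group
    rw [e1, hinv']
    right
    refine ⟨g⁻¹ * (g * h) ^ 3, mul_mem (inv_mem hg) h6, (h ^ 2)⁻¹ * g⁻¹, mul_mem (inv_mem h7) (inv_mem hg), by group⟩
  have hhfh : ∀ f ∈ G, h * f * h ∈ M := by
    intro f hf
    by_cases hfx : f (some x) = some x
    · exact Or.inl (h8 f hf hfx).1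
    · obtain ⟨z, hz⟩ := hsome f hf x
      have hzx : z ≠ x := by rintro rfl; exact hfx hz
      obtain ⟨a, ha, ha1, ha2⟩ := hGx z hzx
      -- f = a g b
      set b := (a * g)⁻¹ * f with hb
      have hbG : b ∈ G := mul_mem (inv_mem (mul_mem ha hg)) hf
      have hbx : b (some x) = some x := by
        rw [hb, Equiv.Perm.mul_apply, hz, Equiv.Perm.inv_eq_iff_eq, Equiv.Perm.mul_apply, h4, ha2]
      have e1 : h * f * h = (h * a * h) * (((h ^ 2)⁻¹ * (h * g * h)) * (h ^ 2)⁻¹) * (h * b * h) := by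
        rw [hb, pow_two]; group
      rw [e1]
      apply hMr _ (h8 b hbG hbx).1
      apply hMl _ (h8 a ha ha1).1
      apply hMr _ (inv_mem h7)
      exact hMl _ (inv_mem h7) _ hhgh
  have hMh : ∀ f ∈ M, h * f ∈ M := by
    rintro f (hf | ⟨b, hb, c, hc, rfl⟩)
    · exact Or.inr ⟨1, one_mem _, f, hf, by group⟩
    · have e1 : h * (b * h * c) = (h * b * h) * c := by group
      rw [e1]
      exact hMr c hc _ (hhfh b hb)
  set Γ := Subgroup.closure ((G : Set (Equiv.Perm (Option X))) ∪ {h}) with hΓ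
  have hGΓ : G ≤ Γ := fun f hf => Subgroup.subset_closure (Or.inl hf)
  have hhΓ : h ∈ Γ := Subgroup.subset_closure (Or.inr rfl)
  have hΓM : ∀ f ∈ Γ, f ∈ M := by
    intro f hf
    refine Subgroup.closure_induction_left (p := fun f _ => f ∈ M) (Or.inl (one_mem _)) ?_ ?_ hf
    · rintro u (hu | hu) v _ hv
      · exact hMl u hu v hv
      · rw [Set.mem_singleton_iff] at hu
        rw [hu]; exact hMh v hv
    · rintro u (hu | hu) v _ hv
      · exact hMl _ (inv_mem hu) v hv
      · rw [Set.mem_singleton_iff] at hu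
        rw [hu, hinv, mul_assoc]
        exact hMl _ (inv_mem h7) _ (hMh v hv)
  have hstab : ∀ f ∈ Γ, (f none = none ↔ f ∈ G) := by
    intro f hf
    refine ⟨fun hf0 => ?_, fun hfG => hfix f hfG⟩
    rcases hΓM f hf with h10 | ⟨a, ha, b, hb, rfl⟩
    · exact h10
    · exfalso
      rw [Equiv.Perm.mul_apply, Equiv.Perm.mul_apply, hfix b hb, h1] at hf0
      obtain ⟨w, hw⟩ := hsome a ha x
      rw [hw] at hf0
      exact absurd hf0 (by simp)
  refine ⟨hstab, ?_⟩
  -- transitivity
  have hG1 : ∀ z : X, ∃ a ∈ G, a (some x) = some z := by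
    intro z
    by_cases hz : z = x
    · exact ⟨1, one_mem _, by rw [hz]; rfl⟩
    · obtain ⟨a, ha, -, ha2⟩ := hGx z hz
      exact ⟨a * g, mul_mem ha hg, by rw [Equiv.Perm.mul_apply, h4, ha2]⟩
  have hnone : ∀ o : Option X, ∃ f : Γ, f • (none : Option X) = o := by
    intro o
    rcases o with _ | z
    · exact ⟨1, rfl⟩
    · obtain ⟨a, ha, haz⟩ := hG1 z
      refine ⟨⟨a * h, mul_mem (hGΓ ha) hhΓ⟩, ?_⟩
      change (a * h) none = some z
      rw [Equiv.Perm.mul_apply, h1, haz]
  have htr : MulAction.IsPretransitive Γ (Option X) := by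
    refine ⟨fun o₁ o₂ => ?_⟩
    obtain ⟨f₁, hf₁⟩ := hnone o₁
    obtain ⟨f₂, hf₂⟩ := hnone o₂
    exact ⟨f₂ * f₁⁻¹, by rw [mul_smul, ← hf₁, inv_smul_smul, hf₂]⟩
  rw [← Nat.succ_eq_add_one, SubMulAction.ofStabilizer.isMultiplyPretransitive (a := (none : Option X))]
  refine ⟨fun u v => ?_⟩
  have conv : ∀ u : Fin k ↪ SubMulAction.ofStabilizer Γ (none : Option X), ∃ a : Fin k ↪ X,
      ∀ i, some (a i) = ((u i : SubMulAction.ofStabilizer Γ (none : Option X)) : Option X) := by
    intro u
    have hex : ∀ i, ∃ z : X, some z = ((u i : SubMulAction.ofStabilizer Γ (none : Option X)) : Option X) := by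
      intro i
      have h9 : ((u i : SubMulAction.ofStabilizer Γ (none : Option X)) : Option X) ≠ none :=
        SubMulAction.neq_of_mem_ofStabilizer Γ none
      rcases hw : ((u i : SubMulAction.ofStabilizer Γ (none : Option X)) : Option X) with _ | z
      · exact absurd hw h9
      · exact ⟨z, rfl⟩
    choose a ha using hex
    refine ⟨⟨a, fun i j hij => ?_⟩, ha⟩
    apply u.injective
    apply Subtype.ext
    rw [← ha i, ← ha j, hij]
  obtain ⟨a, ha⟩ := conv u
  obtain ⟨b, hb⟩ := conv v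
  obtain ⟨f, hf, hfa⟩ := htrans a b
  refine ⟨⟨⟨f, hGΓ hf⟩, hfix f hf⟩, ?_⟩
  apply DFunLike.ext
  intro i
  apply Subtype.ext
  change f ((u i : SubMulAction.ofStabilizer Γ (none : Option X)) : Option X) = _
  rw [← ha i, hfa i, hb i]

end Cfsg.Agent.S4301
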