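import Cfsg.Statements.S4305
import Cfsg.Agent.H71.SThree7

set_option autoImplicit false
open Cfsg

namespace Cfsg.Agent.S4305

open Subgroup in
theorem aux_perm : ∀ a : Equiv.Perm (Fin 3), ∃ i : Fin 3, ∃ j : Fin 2,
    a = (finRotate 3) ^ (i : ℕ) * (Equiv.swap (0 : Fin 3) 1) ^ (j : ℕ) := by
  decide

/-- Let the symmetric group of degree 3 act by automorphisms on a finite solvable group `G` of order prime to 6, so that only the identity of `G` is fixed by all of it. Then the derived subgroup of `G` is nilpotent. -/
theorem result {G : Type*} [Group G] [Finite G] [Group.IsSolvable G]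
    [MulDistribMulAction (Equiv.Perm (Fin 3)) G] (hcop : (Nat.card G).Coprime 6)
    (hfpf : ∀ g : G, (∀ a : Equiv.Perm (Fin 3), a • g = g) → g = 1) :
    Group.IsNilpotent ↥(commutator G) := by
  let φ : Equiv.Perm (Fin 3) →* MulAut G := MulDistribMulAction.toMulAut _ _
  have hφ : ∀ a g, φ a g = a • g := fun _ _ => rfl
  haveI : Finite (G ⋊[φ] Equiv.Perm (Fin 3)) := Finite.of_equiv _ SemidirectProduct.equivProd.symm
  set K : Subgroup (G ⋊[φ] Equiv.Perm (Fin 3)) := (SemidirectProduct.inl (φ := φ)).range with hK
  set c : Equiv.Perm (Fin 3) := finRotate 3 with hc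
  set d : Equiv.Perm (Fin 3) := Equiv.swap (0 : Fin 3) 1 with hd
  have hcard : Nat.card K = Nat.card G :=
    (Nat.card_congr (MonoidHom.ofInjective SemidirectProduct.inl_injective).toEquiv).symm
  have hker : K = (SemidirectProduct.rightHom (φ := φ)).ker :=
    SemidirectProduct.range_inl_eq_ker_rightHom
  have hcfg : H71.SThree.Cfg K (SemidirectProduct.inr c) (SemidirectProduct.inr d) := by
    refine ⟨?_, ?_, ?_, ?_, ?_, ?_, ?_⟩
    · rw [← map_pow, show c ^ 3 = 1 by rw [hc]; decide, map_one]
    · rw [← map_pow, show d ^ 2 = 1 by rw [hd]; decide, map_one]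
    · rw [← map_mul, ← map_inv, ← map_mul, ← map_inv]
      congr 1
      rw [hc, hd]; decide
    · rw [hker]; infer_instance
    · exact Group.isSolvable_of_surjective
        (f := (MonoidHom.ofInjective (SemidirectProduct.inl_injective (φ := φ))).toMonoidHom)
        (MonoidHom.ofInjective SemidirectProduct.inl_injective).surjective
    · rw [hcard]; exact hcop
    · rintro _ ⟨g, rfl⟩ h1 h2
      rw [← map_inv, ← SemidirectProduct.inl_aut] at h1 h2
      have h3 : c • g = g := SemidirectProduct.inl_injective h1
      have h4 : d • g = g := SemidirectProduct.inl_injective h2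
      have h5 : g = 1 := by
        apply hfpf
        intro a
        have h6 : ∀ x : Equiv.Perm (Fin 3), x • g = g → ∀ n : ℕ, x ^ n • g = g := by
          intro x hx n
          induction n with
          | zero => simp
          | succ n ih => rw [pow_succ, mul_smul, hx, ih]
        obtain ⟨i, j, rfl⟩ := aux_perm a
        rw [mul_smul, h6 _ h4, h6 _ h3]
      rw [h5, map_one]
  have hgen : H71.SThree.Acl (SemidirectProduct.inr (φ := φ) c) (SemidirectProduct.inr d) ⊔ K = ⊤ := by
    rw [eq_top_iff]
    rintro x -
    have h1 : x = SemidirectProduct.inl x.left * SemidirectProduct.inr x.right :=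
      (SemidirectProduct.inl_left_mul_inr_right x).symm
    rw [h1]
    refine mul_mem (Subgroup.mem_sup_right ⟨_, rfl⟩) (Subgroup.mem_sup_left ?_)
    obtain ⟨i, j, e⟩ := aux_perm x.right
    rw [e, map_mul, map_pow, map_pow]
    have h3 : SemidirectProduct.inr (φ := φ) c ∈
        H71.SThree.Acl (SemidirectProduct.inr (φ := φ) c) (SemidirectProduct.inr d) :=
      Subgroup.subset_closure (Set.mem_insert _ _)
    have h4 : SemidirectProduct.inr (φ := φ) d ∈
        H71.SThree.Acl (SemidirectProduct.inr (φ := φ) c) (SemidirectProduct.inr d) :=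
      Subgroup.subset_closure (Set.mem_insert_of_mem _ rfl)
    exact mul_mem (pow_mem h3 _) (pow_mem h4 _)
  have h1 := H71.SThree.isNilpotent_commutator _ K _ _ hcfg hgen rfl
  have h2 : ⁅K, K⁆ = (commutator G).map (SemidirectProduct.inl (φ := φ)) := by
    rw [commutator_def, Subgroup.map_commutator, ← MonoidHom.range_eq_map]
  rw [h2] at h1
  exact (Group.isNilpotent_congr
    ((commutator G).equivMapOfInjective _ SemidirectProduct.inl_injective)).mpr h1

end Cfsg.Agent.S4305
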