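import Cfsg.Statements.S4306
import Cfsg.Agent.H62.PQ11

set_option autoImplicit false
open Cfsg

namespace Cfsg.Agent.S4306

/-- Let `A` be a non-abelian group of order `pq` with `p, q` distinct primes, acting by automorphisms on a finite solvable group `G` of order prime to `pq`, so that only the identity of `G` is fixed by all of `A`. Then `G` has Fitting height at most 2: there is a normal nilpotent subgroup `F` of `G` with `G/F` nilpotent. -/
theorem result {G A : Type*} [Group G] [Finite G]
    [Group.IsSolvable G] [Group A] [Finite A] [MulDistribMulAction A G] (p q : ℕ) (hp : p.Prime) (hq : q.Prime) (hpq : p ≠ q)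
    (hA : Nat.card A = p * q) (hAna : ¬ IsMulCommutative A) (hcop : (Nat.card G).Coprime (p * q))
    (hfpf : ∀ g : G, (∀ a : A, a • g = g) → g = 1) :
    ∃ F : Subgroup G, ∃ hF : F.Normal, Group.IsNilpotent ↥F ∧ Group.IsNilpotent (G ⧸ F) := by
  have key : ∃ k, (⊤ : Subgroup G).lowerCentralSeries k ≤ fittingSubgroup G := by
    rcases Nat.lt_or_gt_of_ne hpq with h | h
    · exact Cfsg.Agent.H62.PQ.main_aux (MulDistribMulAction.toMulAut A G) q p hq hp h (by rw [hA, mul_comm]) hAna
        (by rw [mul_comm]; exact hcop) hfpf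
    · exact Cfsg.Agent.H62.PQ.main_aux (MulDistribMulAction.toMulAut A G) p q hp hq h hA hAna hcop hfpf
  obtain ⟨k, hk⟩ := key
  refine ⟨fittingSubgroup G, inferInstance, Cfsg.Agent.Solv.fitting_isNilpotent, ?_⟩
  rw [← Group.isNilpotent_top, Subgroup.isNilpotent_iff_lowerCentralSeries]
  refine ⟨k, ?_⟩
  have h1 : ((⊤ : Subgroup G).lowerCentralSeries k).map (QuotientGroup.mk' (fittingSubgroup G)) =
      (⊤ : Subgroup (G ⧸ fittingSubgroup G)).lowerCentralSeries k := by
    rw [Subgroup.map_lowerCentralSeries, ← MonoidHom.range_eq_map, QuotientGroup.range_mk']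
  rw [← h1, Subgroup.map_eq_bot_iff, QuotientGroup.ker_mk']
  exact hk

end Cfsg.Agent.S4306
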