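import Cfsg.Statements.S4314
import Cfsg.Agent.H72.ClassSize

set_option autoImplicit false
open Cfsg

namespace Cfsg.Agent.S4314

open Subgroup H72

theorem nat_prime_dvd_mul {a p q : ℕ} (ha : a.Prime) (hp : p.Prime) (hq : q.Prime) (h : a ∣ p * q) :
    a = p ∨ a = q := by
  rcases ha.dvd_mul.1 h with h | h
  · exact Or.inl ((Nat.prime_dvd_prime_iff_eq ha hp).1 h)
  · exact Or.inr ((Nat.prime_dvd_prime_iff_eq ha hq).1 h)

/-- Claim 1: elements with class sizes `p > q` (both prime) do not commute. -/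
theorem claim1 {G : Type*} [Group G] [Finite G]
    (h : ∀ x : G, (Cx x).index = 1 ∨ ((Cx x).index).Prime) (x y : G) {p q : ℕ} (hp : p.Prime) (hq : q.Prime)
    (hqp : q < p) (hx : (Cx x).index = p) (hy : (Cx y).index = q) : x * y ≠ y * x := by
  intro hxy
  have hcop : ((Cx x).index).Coprime (Cx y).index := by
    rw [hx, hy]; exact (Nat.coprime_primes hp hq).2 hqp.ne'
  -- simultaneous conjugacy
  have hsim : ∀ g k : G, ∃ c : G, c * x * c⁻¹ = g * x * g⁻¹ ∧ c * y * c⁻¹ = k * y * k⁻¹ := by
    intro g k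
    obtain ⟨a, ha, b, hb, hab⟩ := exists_mul_of_coprime_index hcop (g⁻¹ * k)
    rw [mem_Cx] at ha hb
    have hga : g * a = k * b⁻¹ := by
      have : k = g * (a * b) := by rw [← hab]; group
      rw [this]; group
    refine ⟨g * a, ?_, ?_⟩
    · calc g * a * x * (g * a)⁻¹ = g * (a * x) * a⁻¹ * g⁻¹ := by group
        _ = g * (x * a) * a⁻¹ * g⁻¹ := by rw [ha]
        _ = g * x * g⁻¹ := by group
    · rw [hga]
      calc k * b⁻¹ * y * (k * b⁻¹)⁻¹ = k * b⁻¹ * (y * b) * k⁻¹ := by group
        _ = k * b⁻¹ * (b * y) * k⁻¹ := by rw [hb]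
        _ = k * y * k⁻¹ := by group
  have hmulmem : ∀ g k : G, (g * x * g⁻¹) * (k * y * k⁻¹) ∈ Cl (x * y) := by
    intro g k
    obtain ⟨c, h1, h2⟩ := hsim g k
    refine ⟨c, ?_⟩
    show c * (x * y) * c⁻¹ = _
    rw [← h1, ← h2]; group
  have hcommall : ∀ g k : G, (g * x * g⁻¹) * (k * y * k⁻¹) = (k * y * k⁻¹) * (g * x * g⁻¹) := by
    intro g k
    obtain ⟨c, h1, h2⟩ := hsim g k
    rw [← h1, ← h2]
    calc c * x * c⁻¹ * (c * y * c⁻¹) = c * (x * y) * c⁻¹ := by group
      _ = c * (y * x) * c⁻¹ := by rw [hxy]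
      _ = c * y * c⁻¹ * (c * x * c⁻¹) := by group
  -- right multiplication by a conjugate of y embeds Cl x into Cl (x y)
  have hemb : ∀ k : G, (fun u => u * (k * y * k⁻¹)) '' Cl x ⊆ Cl (x * y) := by
    rintro k _ ⟨_, ⟨g, rfl⟩, rfl⟩
    exact hmulmem g k
  have hcardimg : ∀ k : G, Nat.card ((fun u => u * (k * y * k⁻¹)) '' Cl x) = p := by
    intro k
    rw [Nat.card_image_of_injective (mul_left_injective _), card_Cl, hx]
  have hfin : (Cl (x * y)).Finite := Set.toFinite _
  have hge : p ≤ Nat.card (Cl (x * y)) := by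
    rw [← hcardimg 1]
    exact Nat.card_mono hfin (hemb 1)
  have hcxy : Nat.card (Cl (x * y)) = p := by
    have hdvd : (Cx (x * y)).index ∣ p * q := by
      rw [← hx, ← hy, ← inf_index_of_coprime hcop]
      apply Subgroup.index_dvd_of_le
      rintro g ⟨h1, h2⟩
      have h1' := mem_Cx.1 h1
      have h2' := mem_Cx.1 h2
      rw [mem_Cx, ← mul_assoc, h1', mul_assoc, h2', mul_assoc]
    rw [card_Cl] at hge ⊢
    rcases h (x * y) with h1 | h1
    · rw [h1] at hge
      exact absurd hp.one_lt (not_lt.2 hge)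
    · rcases nat_prime_dvd_mul h1 hp hq hdvd with h2 | h2
      · exact h2
      · rw [h2] at hge; omega
  have himg : ∀ k : G, (fun u => u * (k * y * k⁻¹)) '' Cl x = Cl (x * y) := by
    intro k
    apply Set.eq_of_subset_of_ncard_le (hemb k) _ hfin
    rw [← Nat.card_coe_set_eq, ← Nat.card_coe_set_eq, hcardimg k, hcxy]
  -- the subgroup T
  let T : Subgroup G :=
    { carrier := {t | ∀ u, u ∈ Cl x ↔ u * t ∈ Cl x}
      mul_mem' := by
        intro s t hs ht u
        rw [hs u, ht (u * s), mul_assoc]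
      one_mem' := by intro u; rw [mul_one]
      inv_mem' := by
        intro t ht u
        have := ht (u * t⁻¹)
        rw [inv_mul_cancel_right] at this
        exact this.symm }
  have hTmem : ∀ t, t ∈ T ↔ ∀ u, u ∈ Cl x ↔ u * t ∈ Cl x := fun t => Iff.rfl
  have hyT : ∀ k : G, k * y * k⁻¹ * y⁻¹ ∈ T := by
    intro k
    have hsub : ∀ j l u, u ∈ Cl x → u * (j * y * j⁻¹) * (l * y * l⁻¹)⁻¹ ∈ Cl x := by
      intro j l u hu
      have h1 : u * (j * y * j⁻¹) ∈ Cl (x * y) := by rw [← himg j]; exact ⟨u, hu, rfl⟩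
      rw [← himg l] at h1
      obtain ⟨v, hv, hvu⟩ := h1
      have hvu' : v * (l * y * l⁻¹) = u * (j * y * j⁻¹) := hvu
      rw [← hvu', mul_inv_cancel_right]; exact hv
    rw [hTmem]
    intro u
    constructor
    · intro hu
      have := hsub k 1 u hu
      have e : u * (k * y * k⁻¹) * (1 * y * 1⁻¹)⁻¹ = u * (k * y * k⁻¹ * y⁻¹) := by group
      rwa [e] at this
    · intro hu
      have := hsub 1 k _ hu
      have e : u * (k * y * k⁻¹ * y⁻¹) * (1 * y * 1⁻¹) * (k * y * k⁻¹)⁻¹ = u := by group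
      rwa [e] at this
  have hTn : T.Normal := by
    refine ⟨?_⟩
    intro t ht g
    rw [hTmem] at ht ⊢
    intro u
    rw [mem_Cl_conj g⁻¹, mem_Cl_conj (u := u * (g * t * g⁻¹)) g⁻¹, ht]
    have e : g⁻¹ * u * g⁻¹⁻¹ * t = g⁻¹ * (u * (g * t * g⁻¹)) * g⁻¹⁻¹ := by group
    rw [e]
  -- the order of T
  have hTdvd : ∀ S : Set G, (∀ u ∈ S, ∀ t ∈ T, u * t ∈ S) → Nat.card T ∣ Nat.card S := by
    intro S hS
    have h1 : S = QuotientGroup.mk (s := T) ⁻¹' (QuotientGroup.mk (s := T) '' S) := by
      ext u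
      constructor
      · intro hu; exact ⟨u, hu, rfl⟩
      · rintro ⟨v, hv, hvu⟩
        have h2 := QuotientGroup.eq.1 hvu
        have h3 := hS v hv _ h2
        rwa [mul_inv_cancel_left] at h3
    have h2 := QuotientGroup.card_preimage_mk T (QuotientGroup.mk (s := T) '' S)
    rw [← h1] at h2
    rw [h2]; exact Dvd.intro _ rfl
  have hTp : Nat.card T = p := by
    have h1 : Nat.card T ∣ p := by
      rw [← hx, ← card_Cl]
      exact hTdvd _ (fun u hu t ht => (ht u).1 hu)
    rcases (Nat.dvd_prime hp).1 h1 with h2 | h2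
    · exfalso
      have h3 : T = ⊥ := Subgroup.card_eq_one.1 h2
      have h4 : (Cx y).index = 1 := by
        rw [Cx_index_eq_one_iff, Subgroup.mem_center_iff]
        intro k
        have := hyT k
        rw [h3, Subgroup.mem_bot, mul_inv_eq_one, mul_inv_eq_iff_eq_mul] at this
        exact this
      rw [hy] at h4
      exact hq.one_lt.ne' h4
    · exact h2
  have hfact : Fact p.Prime := ⟨hp⟩
  have hTgen : ∀ t ∈ T, t ≠ 1 → ∀ s ∈ T, ∃ i : ℤ, t ^ i = s := by
    intro t ht ht1 s hs
    have h1 : Subgroup.zpowers (⟨t, ht⟩ : T) = ⊤ := by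
      apply zpowers_eq_top_of_prime_card hTp
      intro h2; exact ht1 (congrArg Subtype.val h2)
    have h2 : (⟨s, hs⟩ : T) ∈ Subgroup.zpowers (⟨t, ht⟩ : T) := by rw [h1]; exact Subgroup.mem_top _
    obtain ⟨i, hi⟩ := h2
    exact ⟨i, congrArg Subtype.val hi⟩
  -- Cl x = x T
  have hClx : ∀ u ∈ Cl x, ∃ t ∈ T, u = x * t := by
    intro u hu
    have h1 : (fun t => x * t) '' (T : Set G) ⊆ Cl x := by
      rintro _ ⟨t, ht, rfl⟩
      exact (ht x).1 (mem_Cl_self x)
    have h2 : (fun t => x * t) '' (T : Set G) = Cl x := by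
      apply Set.eq_of_subset_of_ncard_le h1 _ (Set.toFinite _)
      rw [← Nat.card_coe_set_eq, ← Nat.card_coe_set_eq, card_Cl, hx,
        Nat.card_image_of_injective (mul_right_injective x)]
      exact hTp.ge
    rw [← h2] at hu
    obtain ⟨t, ht, rfl⟩ := hu
    exact ⟨t, ht, rfl⟩
  have hxTmem : ∀ t ∈ T, x * t ∈ Cl x := fun t ht => (ht x).1 (mem_Cl_self x)
  -- y commutes with T, x commutes with T
  have hyComm : ∀ t ∈ T, y * t = t * y := by
    intro t ht
    obtain ⟨g, hg⟩ := hxTmem t ht
    have hg' : g * x * g⁻¹ = x * t := hg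
    have h1 := hcommall g 1
    rw [hg'] at h1
    have h1' : x * t * y = y * (x * t) := by simpa using h1
    have h2 : x * (t * y) = x * (y * t) := by
      rw [← mul_assoc, h1', ← mul_assoc, ← mul_assoc, hxy]
    exact (mul_left_cancel h2).symm
  obtain ⟨k₀, hk₀⟩ : ∃ k : G, k * y * k⁻¹ * y⁻¹ ≠ 1 := by
    by_contra hcon
    push Not at hcon
    have h4 : (Cx y).index = 1 := by
      rw [Cx_index_eq_one_iff, Subgroup.mem_center_iff]
      intro k
      have := hcon k
      rw [mul_inv_eq_one, mul_inv_eq_iff_eq_mul] at this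
      exact this
    rw [hy] at h4
    exact hq.one_lt.ne' h4
  have hxComm : ∀ t ∈ T, x * t = t * x := by
    intro t ht
    obtain ⟨i, rfl⟩ := hTgen _ (hyT k₀) hk₀ t ht
    have h1 : Commute x (k₀ * y * k₀⁻¹ * y⁻¹) := by
      have h2 := hcommall 1 k₀
      have h2' : Commute x (k₀ * y * k₀⁻¹) := by
        have e : (1 : G) * x * 1⁻¹ = x := by group
        rw [e] at h2
        exact h2
      exact h2'.mul_right (show Commute x y from hxy).inv_right
    exact h1.zpow_right i
  -- M = C(T) is contained in C(y)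
  set M := Subgroup.centralizer (T : Set G) with hM
  have hMmem : ∀ m, m ∈ M ↔ ∀ t ∈ T, t * m = m * t := fun m => Subgroup.mem_centralizer_iff
  have hMy : M ≤ Cx y := by
    intro m hm
    by_contra hmy
    set t := m * y * m⁻¹ * y⁻¹ with ht
    have htT : t ∈ T := hyT m
    have ht1 : t ≠ 1 := by
      intro h1
      apply hmy
      rw [mem_Cx]
      rw [ht, mul_inv_eq_one, mul_inv_eq_iff_eq_mul] at h1
      exact h1
    have hmt : t * m = m * t := (hMmem m).1 hm t htT
    have hconj : ∀ i : ℕ, m ^ i * y * (m ^ i)⁻¹ = t ^ i * y := by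
      intro i
      induction i with
      | zero => simp
      | succ i ih =>
        have hc : Commute m (t ^ i) := (show Commute m t from hmt.symm).pow_right i
        calc m ^ (i + 1) * y * (m ^ (i + 1))⁻¹ = m * (m ^ i * y * (m ^ i)⁻¹) * m⁻¹ := by rw [pow_succ']; group
          _ = m * (t ^ i * y) * m⁻¹ := by rw [ih]
          _ = (m * t ^ i) * y * m⁻¹ := by group
          _ = t ^ i * (m * y * m⁻¹ * y⁻¹) * y := by rw [hc.eq]; group
          _ = t ^ (i + 1) * y := by rw [← ht, pow_succ]
    -- p distinct conjugates of y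
    have hto : orderOf t = p := by
      have h1 : orderOf (⟨t, htT⟩ : T) = p := by
        apply orderOf_eq_prime
        · have := pow_card_eq_one' (x := (⟨t, htT⟩ : T))
          rwa [hTp] at this
        · intro h2; exact ht1 (congrArg Subtype.val h2)
      rwa [Subgroup.orderOf_mk] at h1
    have hinj : Function.Injective (fun i : Fin p => (⟨t ^ (i : ℕ) * y, ⟨m ^ (i : ℕ), hconj i⟩⟩ : Cl y)) := by
      intro i j hij
      have h1 : t ^ (i : ℕ) * y = t ^ (j : ℕ) * y := congrArg Subtype.val hij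
      have h2 := mul_right_cancel h1
      have h3 := pow_injOn_Iio_orderOf (x := t) (by rw [hto]; exact i.2) (by rw [hto]; exact j.2) h2
      exact Fin.ext h3
    have hle := Nat.card_le_card_of_injective _ hinj
    rw [Nat.card_fin, card_Cl, hy] at hle
    omega
  -- M is not contained in C(x)
  obtain ⟨m, hmM, hmx⟩ : ∃ m ∈ M, m ∉ Cx x := by
    by_contra hcon
    push Not at hcon
    have hle : M ≤ Cx x := hcon
    have h1 : p ∣ M.index := by
      rw [← hx]; exact Subgroup.index_dvd_of_le hle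
    have hker : (MulAut.conjNormal : G →* MulAut T).ker = M := by
      ext g
      rw [MonoidHom.mem_ker, hMmem]
      constructor
      · intro hg t ht
        have h2 := congrArg (fun φ : MulAut T => ((φ ⟨t, ht⟩ : T) : G)) hg
        simp only [MulAut.conjNormal_apply] at h2
        have h3 : g * t * g⁻¹ = t := h2
        rw [mul_inv_eq_iff_eq_mul] at h3
        exact h3.symm
      · intro hg
        ext t
        rw [MulAut.conjNormal_apply, ← hg t t.2, mul_inv_cancel_right]
        rfl
    have h2 : M.index ∣ p - 1 := by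
      rw [← hker, Subgroup.index_ker]
      have hcyc : IsCyclic T := isCyclic_of_prime_card hTp
      have h3 := Subgroup.card_subgroup_dvd_card (MulAut.conjNormal : G →* MulAut T).range
      rwa [IsCyclic.card_mulAut, hTp, Nat.totient_prime hp] at h3
    have h3 := Nat.le_of_dvd (by have := hp.one_lt; omega) (h1.trans h2)
    have := hp.one_lt
    omega
  -- m x m⁻¹ = x s
  obtain ⟨s, hs, hms⟩ := hClx _ (conj_mem_Cl x m)
  have hs1 : s ≠ 1 := by
    rintro rfl
    apply hmx
    rw [mem_Cx]
    rw [mul_one, mul_inv_eq_iff_eq_mul] at hms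
    exact hms
  have hmT : ∀ t ∈ T, t * m = m * t := (hMmem m).1 hmM
  have hmClT : ∀ t ∈ T, m * t ∈ Cl m := by
    intro t ht
    obtain ⟨i, rfl⟩ := hTgen s hs hs1 t ht
    -- x ^ (-i) m x ^ i = s ^ i m
    have h1 : x⁻¹ * m * x = s * m := by
      have h2 : m * x = x * s * m := by rw [← hms]; group
      calc x⁻¹ * m * x = x⁻¹ * (m * x) := by group
        _ = x⁻¹ * (x * s * m) := by rw [h2]
        _ = s * m := by group
    have h3 : Commute (x⁻¹) (s) := (show Commute x s from hxComm s hs).inv_left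
    have hsm : Commute s m := hmT s hs
    -- conjugation by x⁻¹ is multiplication by s on m
    have h4 : ∀ n : ℕ, (x⁻¹) ^ n * m * ((x⁻¹) ^ n)⁻¹ = s ^ n * m := by
      intro n
      induction n with
      | zero => simp
      | succ n ih =>
        have hc : Commute (x⁻¹) (s ^ n) := h3.pow_right n
        calc (x⁻¹) ^ (n + 1) * m * ((x⁻¹) ^ (n + 1))⁻¹ = x⁻¹ * ((x⁻¹) ^ n * m * ((x⁻¹) ^ n)⁻¹) * x := by
              rw [pow_succ']; group
          _ = x⁻¹ * (s ^ n * m) * x := by rw [ih]
          _ = (x⁻¹ * s ^ n) * m * x := by group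
          _ = (s ^ n * x⁻¹) * m * x := by rw [hc.eq]
          _ = s ^ n * (x⁻¹ * m * x) := by group
          _ = s ^ n * (s * m) := by rw [h1]
          _ = s ^ (n + 1) * m := by rw [pow_succ]; group
    -- s ^ i = s ^ n for some natural n
    obtain ⟨n, hn⟩ : ∃ n : ℕ, s ^ n = s ^ i := by
      have : s ^ i ∈ Subgroup.zpowers s := ⟨i, rfl⟩
      have h5 : s ^ i ∈ Submonoid.powers s := mem_powers_iff_mem_zpowers.2 this
      obtain ⟨n, hn⟩ := h5
      exact ⟨n, hn⟩
    refine ⟨(x⁻¹) ^ n, ?_⟩
    show (x⁻¹) ^ n * m * ((x⁻¹) ^ n)⁻¹ = m * s ^ i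
    rw [h4, hn]
    exact (hsm.zpow_left i).eq
  have hClmT : ∀ u ∈ Cl m, ∀ t ∈ T, u * t ∈ Cl m := by
    rintro _ ⟨g, rfl⟩ t ht
    have h1 : g⁻¹ * t * g ∈ T := by
      have := hTn.conj_mem t ht g⁻¹
      rwa [inv_inv] at this
    have h2 := hmClT _ h1
    rw [mem_Cl_conj g] at h2
    have e : g * (m * (g⁻¹ * t * g)) * g⁻¹ = g * m * g⁻¹ * t := by group
    rw [e] at h2
    exact h2
  have hcardm : Nat.card (Cl m) = p := by
    have h1 := hTdvd _ hClmT
    rw [hTp] at h1
    rw [card_Cl] at h1 ⊢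
    rcases h m with h2 | h2
    · rw [h2] at h1; exact absurd (Nat.dvd_one.1 h1) hp.one_lt.ne'
    · exact ((Nat.prime_dvd_prime_iff_eq hp h2).1 h1).symm
  have hClm : ∀ u ∈ Cl m, ∃ t ∈ T, u = m * t := by
    intro u hu
    have h1 : (fun t => m * t) '' (T : Set G) ⊆ Cl m := by
      rintro _ ⟨t, ht, rfl⟩
      exact hmClT t ht
    have h2 : (fun t => m * t) '' (T : Set G) = Cl m := by
      apply Set.eq_of_subset_of_ncard_le h1 _ (Set.toFinite _)
      rw [← Nat.card_coe_set_eq, ← Nat.card_coe_set_eq, hcardm,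
        Nat.card_image_of_injective (mul_right_injective m)]
      exact hTp.ge
    rw [← h2] at hu
    obtain ⟨t, ht, rfl⟩ := hu
    exact ⟨t, ht, rfl⟩
  -- s is central
  have hsc : ∀ g : G, g * s * g⁻¹ = s := by
    intro g
    obtain ⟨t, ht, htg⟩ := hClm _ (conj_mem_Cl m g)
    obtain ⟨r, hr, hrg⟩ := hClx _ (conj_mem_Cl x g)
    -- conjugate m x m⁻¹ = x s by g
    have e1 : (g * m * g⁻¹) * (g * x * g⁻¹) * (g * m * g⁻¹)⁻¹ = (g * x * g⁻¹) * (g * s * g⁻¹) := by
      calc (g * m * g⁻¹) * (g * x * g⁻¹) * (g * m * g⁻¹)⁻¹ = g * (m * x * m⁻¹) * g⁻¹ := by group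
        _ = g * (x * s) * g⁻¹ := by rw [hms]
        _ = (g * x * g⁻¹) * (g * s * g⁻¹) := by group
    rw [htg, hrg] at e1
    have ctx : Commute t x := (hxComm t ht).symm
    have crx : Commute r x := (hxComm r hr).symm
    have ctr : Commute t r := by
      obtain ⟨i, rfl⟩ := hTgen s hs hs1 t ht
      obtain ⟨j, rfl⟩ := hTgen s hs hs1 r hr
      exact (Commute.refl s).zpow_zpow i j
    have csr : Commute s r := by
      obtain ⟨j, rfl⟩ := hTgen s hs hs1 r hr
      exact (Commute.refl s).zpow_right j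
    have cmr : Commute m r := (hmT r hr).symm
    have e2 : m * t * (x * r) * (m * t)⁻¹ = x * s * r := by
      calc m * t * (x * r) * (m * t)⁻¹ = m * (t * (x * r)) * t⁻¹ * m⁻¹ := by group
        _ = m * ((x * r) * t) * t⁻¹ * m⁻¹ := by rw [(ctx.mul_right ctr).eq]
        _ = m * x * r * m⁻¹ := by group
        _ = m * x * (m⁻¹ * r) := by rw [mul_assoc (m * x), (cmr.inv_left).eq]
        _ = (m * x * m⁻¹) * r := by group
        _ = x * s * r := by rw [hms]
    rw [e2] at e1
    have e3 : x * (s * r) = x * (r * (g * s * g⁻¹)) := by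
      rw [← mul_assoc, e1, mul_assoc]
    have e4 := mul_left_cancel e3
    rw [csr.eq] at e4
    exact (mul_left_cancel e4).symm
  -- so T is central and M = G
  have hMtop : ∀ g : G, g ∈ M := by
    intro g
    rw [hMmem]
    intro t ht
    obtain ⟨i, rfl⟩ := hTgen s hs hs1 t ht
    have h1 : Commute s g := by
      have := hsc g
      rw [mul_inv_eq_iff_eq_mul] at this
      exact this.symm
    exact h1.zpow_left i
  have h4 : (Cx y).index = 1 := by
    rw [Subgroup.index_eq_one, eq_top_iff]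
    intro g _
    exact hMy (hMtop g)
  rw [hy] at h4
  exact hq.one_lt.ne' h4


/-- If all class sizes are `1` or the prime `p` then centralizers are normal. -/
theorem normal_of_one_prime {G : Type*} [Group G] [Finite G] {p : ℕ} (hp : p.Prime)
    (h : ∀ x : G, (Cx x).index = 1 ∨ (Cx x).index = p) (x : G) : (Cx x).Normal := by
  classical
  rcases h x with hx | hx
  · rw [Subgroup.index_eq_one] at hx
    rw [hx]; infer_instance
  have hfact : Fact p.Prime := ⟨hp⟩
  set C := Cx x with hC
  set K := C.normalCore with hK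
  have hKC : K ≤ C := Subgroup.normalCore_le C
  have hKker : K = (MulAction.toPermHom G (G ⧸ C)).ker := Subgroup.normalCore_eq_ker C
  have hXcard : Nat.card (G ⧸ C) = p := hx
  have : Fintype (G ⧸ C) := Fintype.ofFinite _
  have hXcard' : Fintype.card (G ⧸ C) = p := by rw [← Nat.card_eq_fintype_card]; exact hXcard
  -- the index of K divides p!
  have hKfact : K.index ∣ p.factorial := by
    rw [hKker, Subgroup.index_ker]
    have := Subgroup.card_subgroup_dvd_card (MulAction.toPermHom G (G ⧸ C)).range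
    rwa [Nat.card_perm, hXcard] at this
  have hpK : p ∣ K.index := by
    rw [← hx]; exact Subgroup.index_dvd_of_le hKC
  -- an element acting as a p-cycle
  obtain ⟨gb, hgb⟩ := exists_prime_orderOf_dvd_card' (G := G ⧸ K) p hpK
  obtain ⟨g, rfl⟩ := QuotientGroup.mk'_surjective K gb
  have hgK : g ∉ K := by
    intro hg
    have h1 : QuotientGroup.mk' K g = 1 := (QuotientGroup.eq_one_iff _).2 hg
    rw [h1, orderOf_one] at hgb
    exact hp.one_lt.ne hgb
  have hgpK : g ^ p ∈ K := by
    rw [← QuotientGroup.eq_one_iff]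
    have := pow_orderOf_eq_one (QuotientGroup.mk' K g)
    rw [hgb, ← map_pow] at this
    exact this
  set σ : Equiv.Perm (G ⧸ C) := MulAction.toPermHom G (G ⧸ C) g with hσ
  have hσo : orderOf σ = p := by
    apply orderOf_eq_prime
    · rw [hσ, ← map_pow]
      rw [hKker] at hgpK
      exact hgpK
    · intro h1
      apply hgK
      rw [hKker]; exact h1
  have hcyc : σ.IsCycle := Equiv.Perm.isCycle_of_prime_order'' (by rw [hXcard']; exact hp) (by rw [hσo, hXcard'])
  have hsupp : σ.support = Finset.univ := by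
    rw [← Finset.card_eq_iff_eq_univ, ← hcyc.orderOf, hσo, hXcard']
  have htrans : ∀ a b : G ⧸ C, ∃ i : ℤ, g ^ i • a = b := by
    intro a b
    have ha : σ a ≠ a := by
      have : a ∈ σ.support := by rw [hsupp]; exact Finset.mem_univ a
      exact Equiv.Perm.mem_support.1 this
    have hb : σ b ≠ b := by
      have : b ∈ σ.support := by rw [hsupp]; exact Finset.mem_univ b
      exact Equiv.Perm.mem_support.1 this
    obtain ⟨i, hi⟩ := hcyc.sameCycle ha hb
    refine ⟨i, ?_⟩
    rw [← hi, hσ, ← map_zpow]; rfl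
  -- the centralizer of g is transitive
  have hgidx : (Cx g).index = p := by
    rcases h g with h1 | h1
    · exfalso
      apply hgK
      have h2 : g ∈ Subgroup.center G := Cx_index_eq_one_iff.1 h1
      exact (Subgroup.normal_le_normalCore.2 (center_le_Cx x)) h2
    · exact h1
  have htr : MulAction.IsPretransitive (Cx g) (G ⧸ C) := by
    refine ⟨fun a b => ?_⟩
    obtain ⟨i, hi⟩ := htrans a b
    exact ⟨⟨g ^ i, mem_Cx.2 ((Commute.refl g).zpow_left i)⟩, hi⟩
  have hrel : C.relIndex (Cx g) = p := by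
    have h1 := MulAction.index_stabilizer_of_transitive (Cx g) ((1 : G) : G ⧸ C)
    rw [hXcard] at h1
    rw [← h1]
    show (C.subgroupOf (Cx g)).index = _
    congr 1
    ext d
    rw [Subgroup.mem_subgroupOf, MulAction.mem_stabilizer_iff]
    have h2 : (d • ((1 : G) : G ⧸ C)) = ((d : G) : G ⧸ C) := by
      show (((d : G) * 1 : G) : G ⧸ C) = _
      rw [mul_one]
    rw [h2, eq_comm, QuotientGroup.eq]
    simp
  have hDidx : (C ⊓ Cx g).index = p * p := by
    have h1 : (C ⊓ Cx g).relIndex (Cx g) * (Cx g).index = (C ⊓ Cx g).index :=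
      Subgroup.relIndex_mul_index inf_le_right
    rw [Subgroup.inf_relIndex_right, hrel, hgidx] at h1
    exact h1.symm
  have hDK : C ⊓ Cx g ≤ K := by
    rintro d ⟨hd1, hd2⟩
    rw [hKker, MonoidHom.mem_ker]
    ext a
    obtain ⟨i, rfl⟩ := htrans ((1 : G) : G ⧸ C) a
    show d • (g ^ i • ((1 : G) : G ⧸ C)) = g ^ i • ((1 : G) : G ⧸ C)
    have h3 : d * g ^ i = g ^ i * d := ((show Commute d g from mem_Cx.1 hd2).zpow_right i).eq
    rw [smul_smul, h3, ← smul_smul]
    congr 1
    show ((d * 1 : G) : G ⧸ C) = ((1 : G) : G ⧸ C)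
    rw [eq_comm, QuotientGroup.eq]
    simpa using hd1
  have hKdvd : K.index ∣ p ^ 2 := by
    rw [pow_two, ← hDidx]; exact Subgroup.index_dvd_of_le hDK
  have hKidx : K.index = p := by
    obtain ⟨j, hj, hj'⟩ := (Nat.dvd_prime_pow hp).1 hKdvd
    interval_cases j
    · rw [pow_zero] at hj'
      rw [hj'] at hpK
      exact absurd (Nat.dvd_one.1 hpK) hp.one_lt.ne'
    · rw [hj', pow_one]
    · exfalso
      rw [hj'] at hKfact
      obtain ⟨n, rfl⟩ : ∃ n, p = n + 1 := ⟨p - 1, by have := hp.pos; omega⟩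
      rw [Nat.factorial_succ, pow_two] at hKfact
      have h1 := Nat.dvd_of_mul_dvd_mul_left hp.pos hKfact
      have h2 := (hp.dvd_factorial).1 h1
      omega
  have hKeq : K = C := by
    apply Subgroup.eq_of_le_of_card_ge hKC
    have h1 := K.card_mul_index
    have h2 := C.card_mul_index
    rw [hKidx] at h1
    rw [hx, ← h1] at h2
    exact le_of_eq (Nat.eq_of_mul_eq_mul_right hp.pos h2)
  rw [← hKeq]
  exact Subgroup.normalCore_normal C

/-- Let `G` be a finite group every conjugacy class of which has size 1 or a prime. Then either `G` is nilpotent of class at most 2, or `G/Z(G)` is a non-abelian group of order `pq` for distinct primes `p, q` (a Frobenius group of order `pq`). -/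
theorem result {G : Type*} [Group G] [Finite G]
    (h : ∀ x : G, (Subgroup.centralizer ({x} : Set G)).index = 1 ∨ ((Subgroup.centralizer ({x} : Set G)).index).Prime) :
    Subgroup.upperCentralSeries G 2 = ⊤ ∨
      ∃ p q : ℕ, p.Prime ∧ q.Prime ∧ p ≠ q ∧ Nat.card (G ⧸ Subgroup.center G) = p * q ∧ ¬ IsMulCommutative (G ⧸ Subgroup.center G) := by
  change ∀ x : G, (Cx x).index = 1 ∨ ((Cx x).index).Prime at h
  by_cases hcomm : IsMulCommutative (G ⧸ Subgroup.center G)
  · left
    rw [eq_top_iff]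
    intro x _
    rw [Subgroup.mem_upperCentralSeries_succ_iff]
    intro y
    rw [Subgroup.upperCentralSeries_one, ← QuotientGroup.eq_one_iff]
    have h1 := hcomm.is_comm.comm (x : G ⧸ Subgroup.center G) (y : G ⧸ Subgroup.center G)
    have h1' : (x : G ⧸ Subgroup.center G) * y = y * x := h1
    show (x : G ⧸ Subgroup.center G) * y * (x : G ⧸ Subgroup.center G)⁻¹ * (y : G ⧸ Subgroup.center G)⁻¹ = 1
    rw [h1']; group
  right
  by_cases hex : ∃ x y : G, ((Cx x).index).Prime ∧ ((Cx y).index).Prime ∧ (Cx y).index < (Cx x).index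
  · obtain ⟨x, y, hx, hy, hlt⟩ := hex
    refine ⟨(Cx x).index, (Cx y).index, hx, hy, hlt.ne', ?_, hcomm⟩
    have hcop : ((Cx x).index).Coprime (Cx y).index := (Nat.coprime_primes hx hy).2 hlt.ne'
    rw [← inf_index_of_coprime hcop]
    show (Subgroup.center G).index = _
    congr 1
    apply le_antisymm
    · exact le_inf (center_le_Cx x) (center_le_Cx y)
    · rintro k ⟨hk1, hk2⟩
      have hk1' : k * x = x * k := mem_Cx.1 hk1
      have hk2' : k * y = y * k := mem_Cx.1 hk2
      rw [← Cx_index_eq_one_iff]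
      rcases h k with h1 | h1
      · exact h1
      exfalso
      -- the class size of k is at least that of x and at most that of y
      have h2 : ¬ (Cx k).index < (Cx x).index := fun h3 => claim1 h x k hx h1 h3 rfl rfl hk1'.symm
      have h3 : ¬ (Cx y).index < (Cx k).index := fun h4 => claim1 h k y h1 hy h4 rfl rfl hk2'
      omega
  · exfalso
    push Not at hex
    apply hcomm
    -- all prime class sizes agree
    obtain ⟨x₀, hx₀⟩ : ∃ x : G, ((Cx x).index).Prime := by
      by_contra hcon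
      push Not at hcon
      apply hcomm
      refine ⟨⟨fun a b => ?_⟩⟩
      induction a using QuotientGroup.induction_on with
      | H a =>
        have ha : a ∈ Subgroup.center G := Cx_index_eq_one_iff.1 ((h a).resolve_right (hcon a))
        have h1 : (a : G ⧸ Subgroup.center G) = 1 := (QuotientGroup.eq_one_iff a).2 ha
        show (a : G ⧸ Subgroup.center G) * b = b * a
        rw [h1, one_mul, mul_one]
    have hall : ∀ x : G, (Cx x).index = 1 ∨ (Cx x).index = (Cx x₀).index := by
      intro x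
      rcases h x with h1 | h1
      · exact Or.inl h1
      · right
        exact le_antisymm (hex x x₀ h1 hx₀) (hex x₀ x hx₀ h1)
    have hnorm := normal_of_one_prime hx₀ hall
    have hcom : commutator G ≤ Subgroup.center G := by
      intro u hu
      rw [Subgroup.mem_center_iff]
      intro x
      have h1 := hnorm x
      have h2 : commutator G ≤ Cx x := by
        rcases hall x with h3 | h3
        · rw [Subgroup.index_eq_one.1 h3]; exact le_top
        · rw [← Subgroup.Normal.quotient_commutative_iff_commutator_le]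
          have hfact : Fact ((Cx x₀).index).Prime := ⟨hx₀⟩
          have h4 : IsCyclic (G ⧸ Cx x) := isCyclic_of_prime_card h3
          exact ⟨⟨fun a b => (h4.commGroup).mul_comm a b⟩⟩
      exact (mem_Cx.1 (h2 hu)).symm
    exact Subgroup.Normal.quotient_commutative_iff_commutator_le.2 hcom

end Cfsg.Agent.S4314
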