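import Cfsg.Statements.S4321
import Cfsg.Agent.H62.SG3

set_option autoImplicit false
open Cfsg

namespace Cfsg.Agent.H62.SG

open Subgroup
open Cfsg.Agent.H72 (Cx mem_Cx)

theorem exists_prime_order {G : Type*} [Group G] [Finite G] {p : ℕ} [Fact p.Prime] {x : G}
    (hx : p ∣ orderOf x) : ∃ a : G, orderOf a = p ∧ (Cx a).index ∣ (Cx x).index := by
  obtain ⟨m, hm⟩ := hx
  have hpos := orderOf_pos x
  have hm0 : m ≠ 0 := by
    rintro rfl
    rw [mul_zero] at hm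
    omega
  refine ⟨x ^ m, ?_, index_dvd_of_le (Cx_le_of_mem_zpowers (pow_mem (mem_zpowers x) m))⟩
  rw [orderOf_pow_of_dvd hm0 ⟨p, by rw [hm]; ring⟩, hm, Nat.mul_div_cancel _ (Nat.pos_of_ne_zero hm0)]

end Cfsg.Agent.H62.SG

namespace Cfsg.Agent.S4321

/-- Let `G` be a finite group and `p` a prime not dividing the order of the centre of `G`. Consider the primes dividing the size of some conjugacy class of a `p`-singular element (an element of order divisible by `p`), two of them adjacent when their product divides such a class size. Then any two distinct such primes are joined by a path with at most 3 edges (the graph is connected of diameter at most 3). -/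
theorem result {G : Type*} [Group G] [Finite G] (p : ℕ) [Fact p.Prime]
    (hZ : ¬ p ∣ Nat.card ↥(Subgroup.center G)) (r s : ℕ) (hr : (r.Prime ∧ ∃ x : G, p ∣ orderOf x ∧ r ∣ (Subgroup.centralizer ({x} : Set G)).index)) (hs : (s.Prime ∧ ∃ x : G, p ∣ orderOf x ∧ s ∣ (Subgroup.centralizer ({x} : Set G)).index)) (hrs : r ≠ s) :
    (∃ x : G, p ∣ orderOf x ∧ r * s ∣ (Subgroup.centralizer ({x} : Set G)).index) ∨ (∃ t : ℕ, (t.Prime ∧ ∃ x : G, p ∣ orderOf x ∧ t ∣ (Subgroup.centralizer ({x} : Set G)).index) ∧ t ≠ r ∧ t ≠ s ∧ (∃ x : G, p ∣ orderOf x ∧ r * t ∣ (Subgroup.centralizer ({x} : Set G)).index) ∧ (∃ x : G, p ∣ orderOf x ∧ t * s ∣ (Subgroup.centralizer ({x} : Set G)).index)) ∨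
      (∃ t u : ℕ, (t.Prime ∧ ∃ x : G, p ∣ orderOf x ∧ t ∣ (Subgroup.centralizer ({x} : Set G)).index) ∧ (u.Prime ∧ ∃ x : G, p ∣ orderOf x ∧ u ∣ (Subgroup.centralizer ({x} : Set G)).index) ∧ t ≠ r ∧ u ≠ s ∧ t ≠ u ∧ (∃ x : G, p ∣ orderOf x ∧ r * t ∣ (Subgroup.centralizer ({x} : Set G)).index) ∧ (∃ x : G, p ∣ orderOf x ∧ t * u ∣ (Subgroup.centralizer ({x} : Set G)).index) ∧ (∃ x : G, p ∣ orderOf x ∧ u * s ∣ (Subgroup.centralizer ({x} : Set G)).index)) := by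
  obtain ⟨hrp, x, hpx, hrx⟩ := hr
  obtain ⟨hsp, y, hpy, hsy⟩ := hs
  have hmul : ∀ {i j n : ℕ}, i.Prime → j.Prime → i ≠ j → i ∣ n → j ∣ n → i * j ∣ n :=
    fun hi hj hij h1 h2 => Nat.Coprime.mul_dvd_of_dvd_of_dvd ((Nat.coprime_primes hi hj).2 hij) h1 h2
  obtain ⟨a, ha, hax⟩ := Cfsg.Agent.H62.SG.exists_prime_order hpx
  obtain ⟨b, hb, hby⟩ := Cfsg.Agent.H62.SG.exists_prime_order hpy
  by_cases hc : ((Cfsg.Agent.H72.Cx a).index).Coprime (Cfsg.Agent.H72.Cx b).index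
  · obtain ⟨w, hw, h1, h2⟩ := Cfsg.Agent.H62.SG.exists_link hZ ha hb hc
    obtain ⟨t, ht, htw, hta⟩ := Nat.Prime.not_coprime_iff_dvd.1 h1
    obtain ⟨u, hu, huw, hub⟩ := Nat.Prime.not_coprime_iff_dvd.1 h2
    have htu : t ≠ u := by
      rintro rfl
      exact ht.one_lt.ne' (Nat.dvd_one.1 (hc.gcd_eq_one ▸ Nat.dvd_gcd hta hub))
    have htx := hta.trans hax
    have huy := hub.trans hby
    by_cases htr : t = r
    · subst htr
      by_cases hus : u = s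
      · subst hus
        exact Or.inl ⟨w, hw, hmul ht hu htu htw huw⟩
      · refine Or.inr (Or.inl ⟨u, ⟨hu, y, hpy, huy⟩, htu.symm, hus, ⟨w, hw, hmul ht hu htu htw huw⟩,
          ⟨y, hpy, hmul hu hsp hus huy hsy⟩⟩)
    · by_cases hus : u = s
      · subst hus
        refine Or.inr (Or.inl ⟨t, ⟨ht, x, hpx, htx⟩, htr, htu,
          ⟨x, hpx, hmul hrp ht (Ne.symm htr) hrx htx⟩, ⟨w, hw, hmul ht hu htu htw huw⟩⟩)
      · exact Or.inr (Or.inr ⟨t, u, ⟨ht, x, hpx, htx⟩, ⟨hu, y, hpy, huy⟩, htr, hus, htu,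
          ⟨x, hpx, hmul hrp ht (Ne.symm htr) hrx htx⟩, ⟨w, hw, hmul ht hu htu htw huw⟩,
          ⟨y, hpy, hmul hu hsp hus huy hsy⟩⟩)
  · obtain ⟨t, ht, hta, htb⟩ := Nat.Prime.not_coprime_iff_dvd.1 hc
    have htx := hta.trans hax
    have hty := htb.trans hby
    by_cases htr : t = r
    · subst htr
      exact Or.inl ⟨y, hpy, hmul ht hsp hrs hty hsy⟩
    · by_cases hts : t = s
      · subst hts
        exact Or.inl ⟨x, hpx, hmul hrp ht hrs hrx htx⟩
      · exact Or.inr (Or.inl ⟨t, ⟨ht, x, hpx, htx⟩, htr, hts,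
          ⟨x, hpx, hmul hrp ht (Ne.symm htr) hrx htx⟩, ⟨y, hpy, hmul ht hsp hts hty hsy⟩⟩)

end Cfsg.Agent.S4321
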