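import Cfsg.Statements.S4323
import Cfsg.Agent.H32.SqFin

set_option autoImplicit false
open Cfsg

namespace Cfsg.Agent.S4323

/-- Let `q` be a prime and `A` a non-cyclic group of order `q²` acting by automorphisms on a finite group `G` of order prime to `q`, such that the fixed-point subgroup `C_G(a)` is abelian for every non-identity `a ∈ A`. Then `G` is solvable. -/
theorem result {A G : Type*} [Group A] [Finite A]
    [Group G] [Finite G] [MulDistribMulAction A G] (q : ℕ) (hq : q.Prime) (hA : Nat.card A = q ^ 2) (hnc : ¬ IsCyclic A)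
    (hcop : ¬ q ∣ Nat.card G) (h : ∀ a : A, a ≠ 1 → IsMulCommutative ↥(FixedPoints.subgroup (Subgroup.zpowers a) G)) :
    Group.IsSolvable G := by
  classical
  let φ : A →* MulAut G := MulDistribMulAction.toMulAut A G
  let X := G ⋊[φ] A
  haveI : Finite X := Finite.of_equiv _ (SemidirectProduct.equivProd (φ := φ)).symm
  let il : G →* X := SemidirectProduct.inl
  let ir : A →* X := SemidirectProduct.inr
  have hil : Function.Injective il := SemidirectProduct.inl_injective
  have hir : Function.Injective ir := SemidirectProduct.inr_injective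
  have haut : ∀ (a : A) (g : G), il (a • g) = ir a * il g * (ir a)⁻¹ := by
    intro a g
    have := SemidirectProduct.inl_aut (φ := φ) a g
    rw [map_inv] at this
    exact this
  haveI hKn : il.range.Normal := by
    have : il.range = (SemidirectProduct.rightHom (φ := φ)).ker := SemidirectProduct.range_inl_eq_ker_rightHom
    rw [this]; infer_instance
  have hcardK : Nat.card il.range = Nat.card G := (Nat.card_congr (MonoidHom.ofInjective hil).toEquiv).symm
  have hcardA : Nat.card ir.range = Nat.card A := (Nat.card_congr (MonoidHom.ofInjective hir).toEquiv).symm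
  haveI : Fact q.Prime := ⟨hq⟩
  have hA1 : H32.SqAct.AHyp q ir.range := by
    refine ⟨hq, ⟨⟨?_⟩⟩, ?_, ?_⟩
    · rintro ⟨_, a, rfl⟩ ⟨_, b, rfl⟩
      apply Subtype.ext
      change ir a * ir b = ir b * ir a
      have hc : a * b = b * a := by
        have := IsPGroup.commutative_of_card_eq_prime_sq hA a b
        exact this
      rw [← map_mul, ← map_mul, hc]
    · rw [hcardA, hA]
    · intro hc
      exact hnc (isCyclic_of_surjective (MonoidHom.ofInjective hir).symm.toMonoidHom
        (MonoidHom.ofInjective hir).symm.surjective)
  have hmain := H32.SqAct.main (q := q) _ X il.range ir.range (by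
      rw [eq_top_iff]
      rintro ⟨g, a⟩ -
      have : (⟨g, a⟩ : X) = il g * ir a := SemidirectProduct.mk_eq_inl_mul_inr a g
      rw [this]
      exact mul_mem (Subgroup.mem_sup_left ⟨g, rfl⟩) (Subgroup.mem_sup_right ⟨a, rfl⟩)) rfl hKn hA1 (by
      rw [hcardA, hcardK, hA]
      exact Nat.Coprime.pow_left _ ((Nat.Prime.coprime_iff_not_dvd hq).2 hcop)) (by
      rintro _ ⟨a, rfl⟩ ha1 _ ⟨x, rfl⟩ _ ⟨y, rfl⟩ hx hy
      have ha1' : a ≠ 1 := fun h => ha1 (by rw [h, map_one])
      have key : ∀ z : G, il z ∈ Subgroup.centralizer ({ir a} : Set X) → z ∈ FixedPoints.subgroup (Subgroup.zpowers a) G := by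
        intro z hz
        have h1 : a • z = z := by
          apply hil
          rw [haut]
          have := Subgroup.mem_centralizer_singleton_iff.1 hz
          rw [← this, mul_inv_cancel_right]
        rintro ⟨_, j, rfl⟩
        change (a ^ j) • z = z
        have h2 : Subgroup.zpowers a ≤ MulAction.stabilizer A z := by
          rw [Subgroup.zpowers_le]; exact h1
        exact h2 ⟨j, rfl⟩
      have h3 := h a ha1'
      have h4 := h3.1.1 ⟨x, key x hx⟩ ⟨y, key y hy⟩
      rw [← map_mul, ← map_mul]
      congr 1
      exact congrArg Subtype.val h4)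
  haveI := hmain
  exact Group.isSolvable_of_surjective (f := (MonoidHom.ofInjective hil).symm.toMonoidHom)
    (MonoidHom.ofInjective hil).symm.surjective

end Cfsg.Agent.S4323
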