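import Cfsg.Statements.S4421

set_option autoImplicit false
open Cfsg

namespace Cfsg.Agent.S4421

/-- A factorization of a normalizer from two-step control of fusion. Let `G` be a finite group and `A ≤ S ≤ H` subgroups of `G` such that: (i) `S` controls the `G`-fusion of `A` in the sense that every `G`-conjugate of `A` lying in `S` is an `S`-conjugate of `A`; (ii) `H` controls the `G`-fusion of `S` in the same sense; (iii) every conjugate of `S` by an element of the normalizer of `A` lies in `H`. Then `N_G(A) = N_H(A) · (N_G(S) ∩ N_G(A))`: every element of the normalizer of `A` is a product of an element of `H` normalizing `A` and an element normalizing both `S` and `A`. -/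
theorem result {G : Type*} [Group G] [Finite G] (A S H : Subgroup G)
    (hAS : A ≤ S) (hSH : S ≤ H)
    (h1 : ∀ g : G, A.map (MulAut.conj g).toMonoidHom ≤ S → ∃ s ∈ S, A.map (MulAut.conj g).toMonoidHom = A.map (MulAut.conj s).toMonoidHom)
    (h2 : ∀ g : G, S.map (MulAut.conj g).toMonoidHom ≤ H → ∃ y ∈ H, S.map (MulAut.conj g).toMonoidHom = S.map (MulAut.conj y).toMonoidHom)
    (h3 : ∀ x ∈ Subgroup.normalizer (A : Set G), S.map (MulAut.conj x).toMonoidHom ≤ H) :
    ∀ x ∈ Subgroup.normalizer (A : Set G), ∃ y ∈ H ⊓ Subgroup.normalizer (A : Set G),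
      ∃ z ∈ Subgroup.normalizer (S : Set G) ⊓ Subgroup.normalizer (A : Set G), x = y * z := by
  have key : ∀ (B : Subgroup G) (u v : G),
      B.map (MulAut.conj u).toMonoidHom = B.map (MulAut.conj v).toMonoidHom →
        v⁻¹ * u ∈ Subgroup.normalizer (B : Set G) := by
    intro B u v huv
    rw [Subgroup.mem_normalizer_iff]
    intro g
    have e : ∀ w z : G, w * z * w⁻¹ ∈ B.map (MulAut.conj w).toMonoidHom ↔ z ∈ B := by
      intro w z
      constructor
      · rintro ⟨b, hb, hbe⟩
        simp only [MulEquiv.coe_toMonoidHom, MulAut.conj_apply] at hbe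
        have : z = b := by
          have := congrArg (fun t => w⁻¹ * t * w) hbe

          group at this
          exact this.symm
        rw [this]; exact hb
      · intro hz
        exact ⟨z, hz, by simp⟩
    have h4 := e u g
    have h5 := e v (v⁻¹ * u * g * (v⁻¹ * u)⁻¹)
    rw [← h4, huv, ← h5]
    have : v * (v⁻¹ * u * g * (v⁻¹ * u)⁻¹) * v⁻¹ = u * g * u⁻¹ := by group
    rw [this]
  intro x hx
  obtain ⟨y, hyH, hy⟩ := h2 x (h3 x hx)
  have hn := key S x y hy
  set n := y⁻¹ * x with hndef
  have hnA : A.map (MulAut.conj n).toMonoidHom ≤ S := by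
    rintro _ ⟨a, ha, rfl⟩
    simp only [MulEquiv.coe_toMonoidHom, MulAut.conj_apply]
    exact (Subgroup.mem_normalizer_iff.mp hn a).mp (hAS ha)
  obtain ⟨s, hsS, hs⟩ := h1 n hnA
  have hz := key A n s hs
  have hsN : s ∈ Subgroup.normalizer (S : Set G) := Subgroup.le_normalizer hsS
  refine ⟨y * s, ⟨mul_mem hyH (hSH hsS), ?_⟩, s⁻¹ * n, ⟨Subgroup.mul_mem _ (Subgroup.inv_mem _ hsN) hn, hz⟩, ?_⟩
  · have : y * s = x * (s⁻¹ * n)⁻¹ := by rw [hndef]; group
    rw [this]
    exact Subgroup.mul_mem _ hx (Subgroup.inv_mem _ hz)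
  · rw [hndef]; group

end Cfsg.Agent.S4421
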