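import Cfsg.Statements.S4422

set_option autoImplicit false
open Cfsg

namespace Cfsg.Agent.S4422

/-- Primitive divisors of `q^e - 1` are congruent to 1 modulo `e`. Let `q ≥ 2` and `e ≥ 1` be natural numbers and let `m` be a divisor of `q^e - 1` that is coprime to `q^i - 1` for every `1 ≤ i < e` (so `m` divides the primitive part of `q^e - 1`, the largest such divisor). Then `m ≡ 1 (mod e)`. -/
theorem result (q e m : ℕ) (hq : 2 ≤ q) (he : 1 ≤ e)
    (hm : m ∣ q ^ e - 1) (hcop : ∀ i : ℕ, 1 ≤ i → i < e → Nat.Coprime m (q ^ i - 1)) :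
    m % e = 1 % e := by
  have hpos : 0 < q ^ e - 1 := by
    have : 1 < q ^ e := Nat.one_lt_pow (by omega) (by omega)
    omega
  have hm0 : m ≠ 0 := by
    rintro rfl
    simp at hm
    omega
  have key : ∀ ℓ : ℕ, ℓ.Prime → ℓ ∣ m → ℓ ≡ 1 [MOD e] := by
    intro ℓ hℓ hℓm
    haveI := Fact.mk hℓ
    have hqe : ((q : ZMod ℓ)) ^ e = 1 := by
      have h1 : ((q ^ e - 1 : ℕ) : ZMod ℓ) = 0 := by
        rw [ZMod.natCast_eq_zero_iff]
        exact hℓm.trans hm
      rw [Nat.cast_sub (Nat.one_le_pow _ _ (by omega))] at h1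
      push_cast at h1
      exact sub_eq_zero.mp h1
    have hdvd : orderOf (q : ZMod ℓ) ∣ e := orderOf_dvd_of_pow_eq_one hqe
    have hopos : 0 < orderOf (q : ZMod ℓ) := Nat.pos_of_dvd_of_pos hdvd (by omega)
    have horder : orderOf (q : ZMod ℓ) = e := by
      by_contra hne
      have hlt : orderOf (q : ZMod ℓ) < e := lt_of_le_of_ne (Nat.le_of_dvd (by omega) hdvd) hne
      have hc := hcop _ hopos hlt
      have h2 : ℓ ∣ q ^ (orderOf (q : ZMod ℓ)) - 1 := by
        rw [← ZMod.natCast_eq_zero_iff, Nat.cast_sub (Nat.one_le_pow _ _ (by omega))]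
        push_cast
        rw [pow_orderOf_eq_one, sub_self]
      exact hℓ.one_lt.ne' (Nat.dvd_one.mp (hc ▸ Nat.dvd_gcd hℓm h2))
    have hq0 : (q : ZMod ℓ) ≠ 0 := by
      intro h0
      rw [h0, zero_pow (by omega)] at hqe
      exact zero_ne_one hqe
    have h3 : orderOf (q : ZMod ℓ) ∣ ℓ - 1 := ZMod.orderOf_dvd_card_sub_one hq0
    rw [horder] at h3
    have := (Nat.modEq_iff_dvd' hℓ.one_lt.le).mpr h3
    exact this.symm
  have h4 : ∀ n : ℕ, n ≠ 0 → (∀ ℓ : ℕ, ℓ.Prime → ℓ ∣ n → ℓ ≡ 1 [MOD e]) → n ≡ 1 [MOD e] := by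
    intro n
    induction n using Nat.recOnMul with
    | zero => intro h; exact absurd rfl h
    | one => intro _ _; rfl
    | prime p hp => intro _ h; exact h p hp dvd_rfl
    | mul a b iha ihb =>
      intro hab h
      have ha : a ≠ 0 := by rintro rfl; simp at hab
      have hb : b ≠ 0 := by rintro rfl; simp at hab
      have h5 := iha ha (fun ℓ hℓ hd => h ℓ hℓ (hd.mul_right b))
      have h6 := ihb hb (fun ℓ hℓ hd => h ℓ hℓ (hd.mul_left a))
      simpa using h5.mul h6
  exact h4 m hm0 key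

end Cfsg.Agent.S4422
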