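import Cfsg.Statements.S4424
import Cfsg.Agent.BlkC.PReg
import Cfsg.Agent.Blk.Orth2

set_option autoImplicit false
open Cfsg

namespace Cfsg.Agent.S4424

open Cfsg.Agent.CharBase
open scoped ComplexConjugate

/-- Let χ be an irreducible character of the finite group G lying in the p-block B (relative to a maximal ideal M of the algebraic integers containing p), and let p^a be the p-part of the order of G. Then the class function that equals p^a · χ on the p-regular elements and vanishes on the p-singular elements is an integer combination of the irreducible characters in B: there are integers a_ψ, zero for ψ outside B, with that function equal to Σ a_ψ ψ. -/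
theorem result {G : Type*} [Group G] [Finite G] (p : ℕ) [Fact p.Prime] (M : Ideal Cfsg.AlgInt) (hM : Cfsg.IsPModular p M) (B : Set (Cfsg.IrrCharacter G)) (hB : Cfsg.IsPBlock M B) (χ : Cfsg.IrrCharacter G) (hχ : χ ∈ B) : ∃ a : Cfsg.IrrCharacter G → ℤ, (∀ ψ, ψ ∉ B → a ψ = 0) ∧ (fun x : G => if p ∣ orderOf x then (0 : ℂ) else ((p ^ (Nat.card G).factorization p : ℕ) : ℂ) * (χ : G → ℂ) x) = fun x => ∑ᶠ ψ : Cfsg.IrrCharacter G, (a ψ : ℂ) * (ψ : G → ℂ) x := by
  classical
  have := Fintype.ofFinite G
  have := Fintype.ofFinite (IrrCharacter G)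
  have hgen := Cfsg.Agent.BlkC.pReg_isGeneralizedCharacter p χ
  set f : G → ℂ := fun x : G => if p ∣ orderOf x then 0 else ((p ^ (Nat.card G).factorization p : ℕ) : ℂ) * (χ : G → ℂ) x with hf
  obtain ⟨hcl, hint⟩ := isGeneralizedCharacter_iff.1 hgen
  choose a ha using hint
  refine ⟨a, ?_, ?_⟩
  · intro ψ hψ
    have h1 := Blk.sum_regular_eq_zero hM hB hχ hψ
    have h2 : classInner f (ψ : G → ℂ) = 0 := by
      rw [classInner]
      have h3 : ∀ x : G, f x * conj ((ψ : G → ℂ) x) = ((p ^ (Nat.card G).factorization p : ℕ) : ℂ) *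
          (if p ∣ orderOf x then 0 else (χ : G → ℂ) x * conj ((ψ : G → ℂ) x)) := by
        intro x
        simp only [hf]
        split_ifs
        · simp
        · ring
      rw [Finset.sum_congr rfl fun x _ => h3 x, ← Finset.mul_sum, h1]
      simp
    rw [ha ψ] at h2
    exact_mod_cast h2
  · have h1 := classFun_eq_sum hcl
    funext x
    rw [finsum_eq_sum_of_fintype]
    have h2 := congrFun h1 x
    rw [Finset.sum_apply] at h2
    rw [h2]
    refine Finset.sum_congr rfl fun ψ _ => ?_
    rw [Pi.smul_apply, smul_eq_mul, ha ψ]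

end Cfsg.Agent.S4424
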