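import Cfsg.Statements.S4425
import Cfsg.Agent.BlkC.PReg
import Cfsg.Agent.BlkC.Basic
import Cfsg.Agent.CharBase.Central
import Cfsg.Agent.Char.Linear

set_option autoImplicit false
open Cfsg

namespace Cfsg.Agent.S4425

open Cfsg.Agent.CharBase
open scoped ComplexConjugate

/-- Let χ be an irreducible character of the finite group G, p a prime, p^a the p-part of the order of G and p^b the p-part of the degree χ(1). Let χ̃ be the class function equal to p^a · χ on p-regular elements and zero on p-singular elements. Then p^(−b) · χ̃ is a generalized character of G, while p^(−(b+1)) · χ̃ is not. -/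
theorem result {G : Type*} [Group G] [Finite G] (p : ℕ) [Fact p.Prime] (χ : Cfsg.IrrCharacter G) : Cfsg.IsGeneralizedCharacter G (fun x : G => if p ∣ orderOf x then (0 : ℂ) else ((p ^ ((Nat.card G).factorization p - (Cfsg.charDegree (χ : G → ℂ)).factorization p) : ℕ) : ℂ) * (χ : G → ℂ) x) ∧ ¬ Cfsg.IsGeneralizedCharacter G (fun x : G => if p ∣ orderOf x then (0 : ℂ) else ((p ^ (Nat.card G).factorization p : ℕ) : ℂ) / ((p ^ ((Cfsg.charDegree (χ : G → ℂ)).factorization p + 1) : ℕ) : ℂ) * (χ : G → ℂ) x) := by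
  classical
  have := Fintype.ofFinite G
  have hp : p.Prime := Fact.out
  have hpC : (p : ℂ) ≠ 0 := by exact_mod_cast hp.ne_zero
  have hGC : (Nat.card G : ℂ) ≠ 0 := by exact_mod_cast Nat.card_pos.ne'
  set a := (Nat.card G).factorization p with ha
  set n := Cfsg.charDegree (χ : G → ℂ) with hn
  set b := n.factorization p with hb
  have hn1 : (χ : G → ℂ) 1 = n := Cfsg.Agent.BlkC.charDegree_spec χ
  have hnpos : 0 < n := Cfsg.Agent.BlkC.charDegree_pos χ
  have hndvd : n ∣ Nat.card G := Cfsg.Agent.BlkC.charDegree_dvd_card χ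
  have hba : b ≤ a := (Nat.factorization_le_iff_dvd hnpos.ne' Nat.card_pos.ne').2 hndvd p
  obtain ⟨m, hm⟩ : p ^ a ∣ Nat.card G := Nat.ordProj_dvd _ _
  obtain ⟨d, hd⟩ : p ^ b ∣ n := Nat.ordProj_dvd _ _
  have hpm : ¬ p ∣ m := by
    intro h
    have h1 : p ^ (a + 1) ∣ Nat.card G := by
      rw [hm, pow_succ]; exact Nat.mul_dvd_mul_left _ h
    have := (hp.pow_dvd_iff_le_factorization Nat.card_pos.ne').1 h1
    omega
  constructor
  · have hgen := Cfsg.Agent.BlkC.pReg_isGeneralizedCharacter p χ
    rw [isGeneralizedCharacter_iff] at hgen ⊢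
    obtain ⟨hcl, hint⟩ := hgen
    refine ⟨?_, fun ψ => ?_⟩
    · intro g x
      have h1 : orderOf (x * g * x⁻¹) = orderOf g := by
        have := orderOf_injective (MulAut.conj x).toMonoidHom (MulAut.conj x).injective g
        simpa using this
      simp only [h1, irr_isClassFunction χ g x]
    · obtain ⟨k, hk⟩ := hint ψ
      set S : ℂ := ∑ x : G, (if p ∣ orderOf x then 0 else (χ : G → ℂ) x * conj ((ψ : G → ℂ) x)) with hS
      -- integrality
      have hw : IsIntegral ℤ (omega (χ : G → ℂ) (fun x => if p ∣ orderOf x then 0 else conj ((ψ : G → ℂ) x))) := by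
        refine isIntegral_omega χ.2 ?_ ?_
        · intro g x
          have h1 : orderOf (x * g * x⁻¹) = orderOf g := by
            have := orderOf_injective (MulAut.conj x).toMonoidHom (MulAut.conj x).injective g
            simpa using this
          simp only [h1, irr_isClassFunction ψ g x]
        · intro g
          split_ifs
          · exact isIntegral_zero
          · rw [← irr_inv]; exact irr_isIntegral ψ _
      set w := omega (χ : G → ℂ) (fun x => if p ∣ orderOf x then 0 else conj ((ψ : G → ℂ) x)) with hwdef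
      have hSw : S = n * w := by
        rw [hwdef, omega, hn1, mul_div_cancel₀ _ (by exact_mod_cast hnpos.ne')]
        rw [hS]
        refine Finset.sum_congr rfl fun x _ => ?_
        split_ifs
        · simp
        · ring
      have key : ∀ c : ℕ, classInner (fun x : G => if p ∣ orderOf x then (0 : ℂ) else (c : ℂ) * (χ : G → ℂ) x) (ψ : G → ℂ) =
          c * S / Nat.card G := by
        intro c
        rw [classInner]
        have h3 : ∀ x : G, (if p ∣ orderOf x then (0 : ℂ) else (c : ℂ) * (χ : G → ℂ) x) * conj ((ψ : G → ℂ) x) = (c : ℂ) *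
            (if p ∣ orderOf x then 0 else (χ : G → ℂ) x * conj ((ψ : G → ℂ) x)) := by
          intro x
          split_ifs
          · simp
          · ring
        rw [Finset.sum_congr rfl fun x _ => h3 x, ← Finset.mul_sum]
        show (Nat.card G : ℂ)⁻¹ * ((c : ℂ) * S) = _
        field_simp
      rw [key] at hk
      rw [key]
      -- k * m = p ^ b * (d * w)
      have h1 : (k : ℂ) * m = (p ^ b : ℕ) * (d * w) := by
        rw [← hk, hSw]
        have h2 : (Nat.card G : ℂ) = (p ^ a : ℕ) * m := by exact_mod_cast hm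
        have h3 : (n : ℂ) = (p ^ b : ℕ) * d := by exact_mod_cast hd
        have hm0 : (m : ℂ) ≠ 0 := by
          have : m ≠ 0 := by rintro rfl; exact hpm (dvd_zero p)
          exact_mod_cast this
        have hpa : ((p ^ a : ℕ) : ℂ) ≠ 0 := by
          push_cast; exact pow_ne_zero _ hpC
        rw [h2, h3, ← ha]
        field_simp
      have hdw : IsIntegral ℤ ((d : ℂ) * w) := (isIntegral_natCast d).mul hw
      have hpb : ((p ^ b : ℕ) : ℂ) ≠ 0 := by
        push_cast; exact pow_ne_zero _ hpC
      have h2 : (d : ℂ) * w = algebraMap ℚ ℂ ((k * m : ℚ) / (p ^ b : ℕ)) := by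
        have : (d : ℂ) * w = (k : ℂ) * m / (p ^ b : ℕ) := by
          rw [h1]; field_simp
        rw [this]; simp
      rw [h2, isIntegral_algebraMap_iff (algebraMap ℚ ℂ).injective] at hdw
      obtain ⟨l, hl⟩ := IsIntegrallyClosed.isIntegral_iff.mp hdw
      have hpbQ : ((p ^ b : ℕ) : ℚ) ≠ 0 := by
        push_cast; exact pow_ne_zero _ (by exact_mod_cast hp.ne_zero)
      have h3 : (k : ℚ) * m = l * (p ^ b : ℕ) := by
        have : (l : ℚ) = (k * m : ℚ) / (p ^ b : ℕ) := by simpa using hl
        rw [this]; field_simp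
      have h4 : k * (m : ℤ) = l * (p ^ b : ℕ) := by exact_mod_cast h3
      have h5 : ((p ^ b : ℕ) : ℤ) ∣ k := by
        have h6 : ((p ^ b : ℕ) : ℤ) ∣ k * m := ⟨l, by rw [h4]; ring⟩
        have h7 : IsCoprime ((p ^ b : ℕ) : ℤ) (m : ℤ) := by
          rw [Nat.isCoprime_iff_coprime]
          exact Nat.Coprime.pow_left _ ((Nat.Prime.coprime_iff_not_dvd hp).2 hpm)
        exact h7.dvd_of_dvd_mul_right h6
      obtain ⟨t, ht⟩ := h5
      refine ⟨t, ?_⟩
      have h8 : ((p ^ a : ℕ) : ℂ) = (p ^ b : ℕ) * (p ^ (a - b) : ℕ) := by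
        rw [← Nat.cast_mul, ← pow_add, Nat.add_sub_cancel' hba]
      have h9 : (k : ℂ) = (p ^ b : ℕ) * t := by
        rw [ht]; push_cast; ring
      rw [h8, h9] at hk
      have h10 : ((p ^ b : ℕ) : ℂ) * ((p ^ (a - b) : ℕ) * S / Nat.card G) = (p ^ b : ℕ) * t := by
        rw [← hk]; ring
      exact mul_left_cancel₀ hpb h10
  · rintro hgen
    obtain ⟨P, hPp, hPa⟩ : ∃ P : Subgroup G, IsPGroup p P ∧ Nat.card P = p ^ a := by
      obtain ⟨P⟩ : Nonempty (Sylow p G) := inferInstance
      exact ⟨P, P.2, P.card_eq_multiplicity⟩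
    set g : G → ℂ := fun x : G => if p ∣ orderOf x then (0 : ℂ) else ((p ^ a : ℕ) : ℂ) / ((p ^ (b + 1) : ℕ) : ℂ) * (χ : G → ℂ) x with hg
    have hPg : IsGeneralizedCharacter P (fun x : P => g x) := by
      obtain ⟨α, β, hα, hβ, hαβ⟩ := hgen
      refine ⟨_, _, isCharacter_restrict hα P, isCharacter_restrict hβ P, ?_⟩
      funext x
      exact congrFun hαβ x
    have := Fintype.ofFinite P
    obtain ⟨-, hint⟩ := isGeneralizedCharacter_iff.1 hPg
    -- the trivial character of P
    obtain ⟨α, β, hα, hβ, hαβ⟩ := hPg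
    obtain ⟨u, hu⟩ := classInner_natCast hα Cfsg.Agent.Char.isCharacter_one
    obtain ⟨v, hv⟩ := classInner_natCast hβ Cfsg.Agent.Char.isCharacter_one
    have h1 : classInner (fun x : P => g x) (fun _ : P => (1 : ℂ)) = (u : ℂ) - v := by
      rw [hαβ, classInner_sub_left, hu, hv]
    have h2 : classInner (fun x : P => g x) (fun _ : P => (1 : ℂ)) = g 1 / Nat.card P := by
      rw [classInner, Finset.sum_eq_single (1 : P)]
      · simp; ring
      · intro x _ hx
        have hx1 : p ∣ orderOf (x : G) := by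
          rw [Subgroup.orderOf_coe]
          obtain ⟨k, hk⟩ := (IsPGroup.iff_orderOf.1 hPp) x
          have hk0 : k ≠ 0 := by
            rintro rfl
            rw [pow_zero, orderOf_eq_one_iff] at hk
            exact hx hk
          rw [hk]; exact dvd_pow_self p hk0
        show g x * _ = 0
        simp only [hg, if_pos hx1, zero_mul]
      · intro h; exact absurd (Finset.mem_univ _) h
    have hPc : (Nat.card P : ℂ) = (p ^ a : ℕ) := by
      rw [hPa]
    have hpaC : ((p ^ a : ℕ) : ℂ) ≠ 0 := by push_cast; exact pow_ne_zero _ hpC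
    have hpbC : ((p ^ (b + 1) : ℕ) : ℂ) ≠ 0 := by push_cast; exact pow_ne_zero _ hpC
    have h3 : g 1 / Nat.card P = n / (p ^ (b + 1) : ℕ) := by
      have : g 1 = ((p ^ a : ℕ) : ℂ) / ((p ^ (b + 1) : ℕ) : ℂ) * n := by
        simp only [hg, orderOf_one]
        rw [if_neg (fun h => hp.one_lt.ne' (Nat.dvd_one.1 h)), hn1]
      rw [this, hPc]
      field_simp
    rw [h2, h3] at h1
    have h4 : (n : ℂ) = ((u : ℂ) - v) * (p ^ (b + 1) : ℕ) := by
      rw [← h1]; field_simp
    have h5 : (n : ℤ) = ((u : ℤ) - v) * (p ^ (b + 1) : ℕ) := by exact_mod_cast h4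
    have h6 : p ^ (b + 1) ∣ n := by
      have : ((p ^ (b + 1) : ℕ) : ℤ) ∣ (n : ℤ) := ⟨(u : ℤ) - v, by rw [h5]; ring⟩
      exact_mod_cast this
    have := (hp.pow_dvd_iff_le_factorization hnpos.ne').1 h6
    omega

end Cfsg.Agent.S4425
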