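import Cfsg.Statements.S4427
import Cfsg.Agent.H2.NC.Main

set_option autoImplicit false
open Cfsg

namespace Cfsg.Agent.S4427

/-- Let G be a finite group of order p^a · q^b · r^c with p, q, r distinct primes, and suppose that G has exactly q^b · r^c elements of order not divisible by p. Then G has a normal p-complement: a normal subgroup of order q^b · r^c. -/
theorem result {G : Type*} [Group G] [Finite G] (p q r a b c : ℕ) (hp : p.Prime) (hq : q.Prime) (hr : r.Prime) (hpq : p ≠ q) (hpr : p ≠ r) (hqr : q ≠ r) (hG : Nat.card G = p ^ a * q ^ b * r ^ c) (hcount : Nat.card {g : G // ¬ p ∣ orderOf g} = q ^ b * r ^ c) : ∃ N : Subgroup G, N.Normal ∧ Nat.card N = q ^ b * r ^ c := by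
  classical
  haveI : Fintype G := Fintype.ofFinite G
  haveI := Fact.mk hp
  haveI := Fact.mk hq
  haveI := Fact.mk hr
  have hcqr : Nat.Coprime q r := (Nat.coprime_primes hq hr).2 hqr
  have hcpq : Nat.Coprime p q := (Nat.coprime_primes hp hq).2 hpq
  have hcpr : Nat.Coprime p r := (Nat.coprime_primes hp hr).2 hpr
  have hndq : ¬ p ∣ q ^ b := fun h => hp.one_lt.ne' (Nat.Coprime.eq_one_of_dvd (hcpq.pow_right b) h)
  have hndr : ¬ p ∣ r ^ c := fun h => hp.one_lt.ne' (Nat.Coprime.eq_one_of_dvd (hcpr.pow_right c) h)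
  obtain ⟨Q, hQ⟩ := Sylow.exists_subgroup_card_pow_prime (G := G) q (n := b) (by
    rw [hG]; exact Dvd.dvd.mul_right (Dvd.intro_left _ rfl) _)
  obtain ⟨R, hR⟩ := Sylow.exists_subgroup_card_pow_prime (G := G) r (n := c) (by
    rw [hG]; exact Dvd.intro_left _ rfl)
  obtain ⟨N, hN, hmem⟩ := H2.NC.main (p := p) Q R (p ^ a) (by rw [hQ]; exact hndq)
    (by rw [hR]; exact hndr) (by rw [hQ, hR]; exact Nat.Coprime.pow _ _ hcqr)
    (by rw [hG, hQ, hR, mul_assoc]) (by rw [hcount, hQ, hR])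
  refine ⟨N, hN, ?_⟩
  rw [← hcount]
  exact Nat.card_congr (Equiv.subtypeEquivRight hmem)

end Cfsg.Agent.S4427
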