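import Cfsg.Statements.S4429
import Cfsg.Agent.H67.M11.Tab

set_option autoImplicit false
open Cfsg

namespace Cfsg.Agent.S4429

theorem cnt : ∀ n < 56, ((Finset.univ : Finset (Fin 10)).filter
    (fun i => (![1, 16, 16, 10, 10, 10, 45, 11, 44, 55] : Fin 10 → ℕ) i = n)).card =
    (if n = 1 ∨ n = 11 ∨ n = 44 ∨ n = 45 ∨ n = 55 then 1 else if n = 10 then 3 else if n = 16 then 2 else 0) := by
  decide +kernel

theorem bd : ∀ i : Fin 10, (![1, 16, 16, 10, 10, 10, 45, 11, 44, 55] : Fin 10 → ℕ) i < 56 := by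
  decide +kernel

/-- Let G be a simple group of order 7920. Then G has exactly ten irreducible complex characters, and their degrees, listed with multiplicity, are 1, 10, 10, 10, 11, 16, 16, 44, 45, 55: for every natural number n, the number of irreducible characters of degree n is 1 if n ∈ {1, 11, 44, 45, 55}, 3 if n = 10, 2 if n = 16, and 0 otherwise. -/
theorem result {G : Type*} [Group G] [Finite G] [IsSimpleGroup G] (hG : Nat.card G = 7920) : Nat.card (Cfsg.IrrCharacter G) = 10 ∧ ∀ n : ℕ, Nat.card {χ : Cfsg.IrrCharacter G // Cfsg.charDegree (χ : G → ℂ) = n} = (if n = 1 ∨ n = 11 ∨ n = 44 ∨ n = 45 ∨ n = 55 then 1 else if n = 10 then 3 else if n = 16 then 2 else 0) := by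
  classical
  haveI := Fintype.ofFinite (Cfsg.IrrCharacter G)
  obtain ⟨L, T⟩ := H67.M11.exists_T10 (G := G) hG
  have e : Fin 10 ≃ Cfsg.IrrCharacter G := Equiv.ofBijective L T.bij
  refine ⟨by rw [← Nat.card_congr e, Nat.card_fin], fun n => ?_⟩
  have e2 : {χ : Cfsg.IrrCharacter G // Cfsg.charDegree (χ : G → ℂ) = n} ≃
      {i : Fin 10 // (![1, 16, 16, 10, 10, 10, 45, 11, 44, 55] : Fin 10 → ℕ) i = n} := by
    refine (Equiv.subtypeEquiv (Equiv.ofBijective L T.bij) ?_).symm
    intro i
    rw [Equiv.ofBijective_apply, H75.charDegree_eq_deg, T.deg]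
  rw [Nat.card_congr e2, Nat.card_eq_fintype_card, Fintype.card_subtype]
  by_cases hn : n < 56
  · exact cnt n hn
  · rw [if_neg (by omega), if_neg (by omega), if_neg (by omega), Finset.card_eq_zero, Finset.filter_eq_empty_iff]
    intro i _ h
    exact hn (h ▸ bd i)

end Cfsg.Agent.S4429
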