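import Cfsg.Statements.S4430
import Cfsg.Agent.H76.Induced

set_option autoImplicit false
open Cfsg

namespace Cfsg.Agent.S4430

open Cfsg.Agent.CharBase Cfsg.Agent.Blk Cfsg.Agent.Char Cfsg.Agent.H76

/-- Let H be a subgroup of the finite group G, b a block of H whose induced block B₀ in G is defined (relative to a maximal ideal M of the algebraic integers containing p), and ξ ∈ b. For a block B of G let n_B be the value at 1 of the B-part of the induced character ξ^G (a natural number: the sum over χ ∈ B of the multiplicity of χ in ξ^G times χ(1)). Then for B = B₀ the exact power of p dividing n_B equals the exact power of p dividing ξ^G(1), while for every other block B either n_B = 0 or n_B is divisible by a strictly higher power of p than ξ^G(1). -/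
theorem result {G : Type*} [Group G] [Fintype G] (p : ℕ) [Fact p.Prime] (M : Ideal Cfsg.AlgInt) (hM : Cfsg.IsPModular p M) (H : Subgroup G) [Fintype H] (b : Set (Cfsg.IrrCharacter H)) (B₀ : Set (Cfsg.IrrCharacter G)) (hind : Cfsg.IsInducedBlock M H b B₀) (ξ : Cfsg.IrrCharacter H) (hξ : ξ ∈ b) : (∃ n : ℕ, Cfsg.blockPart B₀ (Cfsg.indFun H (ξ : H → ℂ)) 1 = (n : ℂ) ∧ n ≠ 0 ∧ n.factorization p = (Cfsg.charDegree (Cfsg.indFun H (ξ : H → ℂ))).factorization p) ∧ ∀ B : Set (Cfsg.IrrCharacter G), Cfsg.IsPBlock M B → B ≠ B₀ → ∃ n : ℕ, Cfsg.blockPart B (Cfsg.indFun H (ξ : H → ℂ)) 1 = (n : ℂ) ∧ (n = 0 ∨ (Cfsg.charDegree (Cfsg.indFun H (ξ : H → ℂ))).factorization p < n.factorization p) := by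
  classical
  have hMp := isPrime_of_isPModular hM
  have hB₀ := hind.2.1
  obtain ⟨χ, hχ⟩ := isPBlock_nonempty hB₀
  have hN : indFun H (ξ : H → ℂ) 1 = ((H.index * H75.deg ξ : ℕ) : ℂ) := by
    rw [indFun_one_apply, H75.deg_spec]; push_cast; rfl
  rw [H75.charDegree_eq hN]
  have hN0 : H.index * H75.deg ξ ≠ 0 :=
    mul_ne_zero Subgroup.index_ne_zero_of_finite (H75.deg_pos ξ).ne'
  have hN0' : ((H.index * H75.deg ξ : ℕ) : ℂ) ≠ 0 := by exact_mod_cast hN0
  have key : ∀ B : Set (IrrCharacter G), IsPBlock M B → ∃ n : ℕ,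
      blockPart B (indFun H (ξ : H → ℂ)) 1 = (n : ℂ) ∧
      MemLocalIdeal M ((n : ℂ) / (H.index * H75.deg ξ : ℕ) - (if χ ∈ B then 1 else 0)) := by
    intro B hB
    obtain ⟨n, hn1, hn2⟩ := blockPart_indFun_one H B ξ
    refine ⟨n, hn1, ?_⟩
    have h1 := mli_omega_restrict_sub H hind hξ hχ (blockCoeff_isClassFunction B)
      (fun g => mlr_blockCoeff hB g)
    rw [omega_blockCoeff] at h1
    rw [hn2, hN, mul_div_assoc, mul_comm, div_mul_cancel₀ _ hN0']
    exact h1
  constructor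
  · obtain ⟨n, hn1, hn2⟩ := key B₀ hB₀
    rw [if_pos hχ] at hn2
    have h3 : MemLocalRing M ((n : ℂ) / (H.index * H75.deg ξ : ℕ)) := by
      have := mlr_add (mlr_of_mli hn2) mlr_one
      rwa [sub_add_cancel] at this
    have h4 : ¬ MemLocalIdeal M ((n : ℂ) / (H.index * H75.deg ξ : ℕ)) := by
      intro h5
      have := mli_sub h5 hn2
      rw [sub_sub_cancel] at this
      exact not_mli_one this
    obtain ⟨h5, h6⟩ := eq_of_mlr_not_mli hM hN0 h3 h4
    exact ⟨n, hn1, h5, h6⟩
  · intro B hB hne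
    obtain ⟨n, hn1, hn2⟩ := key B hB
    have hχB : χ ∉ B := fun h => hne (isPBlock_eq_of_mem hB hB₀ h hχ)
    rw [if_neg hχB, sub_zero] at hn2
    exact ⟨n, hn1, lt_of_mli_div hM hN0 hn2⟩

end Cfsg.Agent.S4430
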