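import Cfsg.Statements.S4433
import Cfsg.Agent.H76.QuotBlk2

set_option autoImplicit false
open Cfsg

namespace Cfsg.Agent.S4433

open Cfsg.Agent.CharBase Cfsg.Agent.Blk Cfsg.Agent.H76

/-- Let N be a normal subgroup of the finite group G and write Ḡ = G/N; fix a maximal ideal M of the algebraic integers containing p. Let B̄ be a block of Ḡ contained in the block B of G, in the sense that the inflation of every member of B̄ lies in B, and let D̄ be a defect group of B̄. Then B has a defect group P whose image in Ḡ contains D̄. -/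
theorem result {G : Type*} [Group G] [Finite G] (p : ℕ) [Fact p.Prime] (M : Ideal Cfsg.AlgInt) (hM : Cfsg.IsPModular p M) (N : Subgroup G) [N.Normal] (Bbar : Set (Cfsg.IrrCharacter (G ⧸ N))) (hBbar : Cfsg.IsPBlock M Bbar) (B : Set (Cfsg.IrrCharacter G)) (hB : Cfsg.IsPBlock M B) (hsub : ∀ χ ∈ Bbar, ∀ ψ : Cfsg.IrrCharacter G, (ψ : G → ℂ) = (χ : G ⧸ N → ℂ) ∘ QuotientGroup.mk → ψ ∈ B) (Dbar : Subgroup (G ⧸ N)) (hDbar : Cfsg.IsDefectGroup p M Bbar Dbar) : ∃ P : Subgroup G, Cfsg.IsDefectGroup p M B P ∧ Dbar ≤ P.map (QuotientGroup.mk' N) := by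
  classical
  have hMp := isPrime_of_isPModular hM
  have hchar := charP_kM hM
  have : Fintype G := Fintype.ofFinite G
  have : Fintype (G ⧸ N) := Fintype.ofFinite _
  obtain ⟨χ, hχ⟩ := isPBlock_nonempty hBbar
  have hi : infl N χ ∈ B := hsub χ hχ (infl N χ) rfl
  have h1 := pq_eB_mul_eB N hB hBbar hχ hi
  have hD := (isDefectGroup_iff hM hBbar Dbar).1 hDbar
  have hbr : br Dbar (pq N (eB M B)) ≠ 0 := by
    intro h0
    apply hD.br_ne
    rw [← h1, br_mul hD.isPGroup ((fixed_top_pq N (fixed_eB B)).mono le_top)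
      ((fixed_eB Bbar).mono le_top), h0, zero_mul]
  obtain ⟨P, hP⟩ := (isBlk_eB hB).exists_isDef p
  obtain ⟨u, hu⟩ := exists_le_map_of_br_ne N hP hD.isPGroup hbr
  exact ⟨_, (isDefectGroup_iff hM hB _).2 (hP.cj_of_mem (fixed_eB B) (Subgroup.mem_top u)), hu⟩

end Cfsg.Agent.S4433
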