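import Cfsg.Statements.S4437
import Cfsg.Agent.H76.ExtFirst
import Cfsg.Agent.H76.Induced
import Cfsg.Agent.Blk.Dict

set_option autoImplicit false
open Cfsg

namespace Cfsg.Agent.S4437

open Cfsg.Agent.CharBase Cfsg.Agent.Blk Cfsg.Agent.H76

theorem aux {G : Type*} [Group G] [Fintype G] (p : ℕ) [Fact p.Prime] (M : Ideal Cfsg.AlgInt)
    (hM : Cfsg.IsPModular p M) (P : Subgroup G) (hP : IsPGroup p P) (H : Subgroup G) [Fintype H]
    (hH : H = P ⊔ Subgroup.centralizer (P : Set G)) (b : Set (Cfsg.IrrCharacter H))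
    (hb : Cfsg.IsPBlock M b) (B : Set (Cfsg.IrrCharacter G))
    (hind : Cfsg.IsInducedBlock M H b B) [hMp : M.IsPrime] [CharP (kM M) p] :
    br P (eB M B) * EB M H b = EB M H b := by
  classical
  have hE := isBlk_EB (M := M) hb
  have hf := isBlk_eB (M := M) hind.2.1
  have hPH : P ≤ H := by rw [hH]; exact le_sup_left
  have hCH : Subgroup.centralizer (P : Set G) ≤ H := by rw [hH]; exact le_sup_right
  have hHN : H ≤ Subgroup.normalizer (P : Set G) := by
    rw [hH]
    exact sup_le Subgroup.le_normalizer (centralizer_le_normalizer P)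
  obtain ⟨ψ, hψ⟩ := isPBlock_nonempty hb
  obtain ⟨χ, hχ⟩ := isPBlock_nonempty hind.2.1
  set f := eB M B with hfdef
  -- the truncation
  let F : H → ℂ := fun h => blockCoeff B (h : G)
  have hFc : IsClassFunction H F := by
    intro g x
    exact blockCoeff_isClassFunction B (g : G) (x : G)
  have hFR : RV M F := fun h => mlr_blockCoeff hind.2.1 _
  set zT := redc M F with hzT
  have hinclT : incl H zT = trunc H f := by
    apply ga_ext; intro g
    by_cases hg : g ∈ H
    · rw [incl_coeff_of_mem _ hg, trunc_coeff_of_mem _ hg, hzT, redc_coeff, hfdef, eB, redc_coeff]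
    · rw [incl_coeff_of_notMem _ hg, trunc_coeff_of_notMem _ hg]
  have hlamT : lam ψ zT = 1 := by
    rw [hzT, lam_redc ψ hFc hFR]
    have h1 := mli_omega_restrict_sub H hind hψ hχ (blockCoeff_isClassFunction B)
      (fun g => mlr_blockCoeff hind.2.1 g)
    rw [omega_blockCoeff, if_pos hχ] at h1
    rw [← rd_one, rd_eq_iff (mlr_omega ψ hFc hFR) mlr_one]
    exact h1
  -- the Brauer image
  set fP := br P f with hfP
  have hfPZ : InZ H fP := ⟨(supp_br P f).mono hCH, (hf.fixed.mono le_top).br hHN⟩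
  set zP := res H fP with hzP
  have hinclP : incl H zP = fP := incl_res hfPZ.1
  have hzPF : Fixed ⊤ zP := by
    rw [← fixed_incl_iff, hinclP]; exact hfPZ.2
  have hzTF : Fixed ⊤ zT := fixed_redc hFc
  have hzPi : zP * zP = zP := by
    apply incl_injective (H := H)
    rw [incl_mul, hinclP]
    have h1 := br_mul hP (hf.fixed.mono le_top : Fixed P f) (hf.fixed.mono le_top)
    rw [hf.idem] at h1
    exact h1.symm
  -- the difference is nilpotent on `b`
  have hU : IsNilpotent ((zT - zP) * eB M b) := by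
    rw [← isNilpotent_incl_iff (H := H), incl_mul, incl_sub, hinclT, hinclP, ← EB_eq]
    have huZ : InZ H (trunc H f - fP) :=
      InZ.sub ⟨supp_trunc H f, (hf.fixed.mono le_top).trunc Subgroup.le_normalizer⟩ hfPZ
    rcases hE.nilpotent_or_unit huZ with h | ⟨w, hw, hw2⟩
    · exact h
    · exfalso
      have h1 : br P (trunc H f - fP) = 0 := by
        rw [br_sub, hfP, br_br_of_le le_rfl]
        have h2 : br P (trunc H f) = br P f := by
          unfold br
          exact trunc_trunc_of_le hCH f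
        rw [h2, sub_self]
      have h2 := br_mul hP (huZ.2.mono hPH) (hw.2.mono hPH)
      rw [hw2, h1, zero_mul, br_eq_self_of_normal hPH hHN hP hE.inZ hE.idem] at h2
      exact hE.ne_zero h2
  have hlamU : lam ψ (zT - zP) = 0 :=
    (isNilpotent_mul_eB_iff hb hψ (hzTF.sub hzPF)).1 hU
  have hlamP : lam ψ zP = 1 := by
    rw [lam_sub ψ hzTF hzPF, hlamT] at hlamU
    exact (sub_eq_zero.1 hlamU).symm
  have h3 := (mul_eB_eq_iff hb hψ hzPF hzPi).2 hlamP
  have h4 := congrArg (incl H) h3
  rw [incl_mul, hinclP, ← EB_eq] at h4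
  exact h4

/-- Let P be a p-subgroup of the finite group G, H = P·C_G(P), and b a block of H (relative to a maximal ideal M of the algebraic integers containing p) having P as a defect group; let B be the block of G induced by b. Let T be the stabilizer of b in N_G(P): the elements g of N_G(P) such that the g-conjugate of every member of b is again a member of b. Then B has defect group P if and only if p does not divide the index of H in T. -/
theorem result {G : Type*} [Group G] [Fintype G] (p : ℕ) [Fact p.Prime] (M : Ideal Cfsg.AlgInt) (hM : Cfsg.IsPModular p M) (P : Subgroup G) (hP : IsPGroup p P) (H : Subgroup G) [Fintype H] (hH : H = P ⊔ Subgroup.centralizer (P : Set G)) (b : Set (Cfsg.IrrCharacter H)) (hb : Cfsg.IsPBlock M b) (hbP : Cfsg.IsDefectGroup p M b (P.subgroupOf H)) (B : Set (Cfsg.IrrCharacter G)) (hind : Cfsg.IsInducedBlock M H b B) (T : Subgroup G) (hT : ∀ g : G, g ∈ T ↔ (g ∈ Subgroup.normalizer (P : Set G) ∧ ∀ θ ∈ b, ∀ θ' : Cfsg.IrrCharacter H, (∀ h h' : H, (h' : G) =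 g * h * g⁻¹ → (θ' : H → ℂ) h' = (θ : H → ℂ) h) → θ' ∈ b)) : Cfsg.IsDefectGroup p M B P ↔ ¬ p ∣ H.relIndex T := by
  classical
  have hMp := isPrime_of_isPModular hM
  have hchar := charP_kM hM
  have hPH : P ≤ H := by rw [hH]; exact le_sup_left
  have hE := isBlk_EB (M := M) hb
  have hfe := aux p M hM P hP H hH b hb B hind
  have hd := (isDefectGroup_iff' hM hb (P.subgroupOf H)).1 hbP
  rw [Subgroup.map_subgroupOf_eq_of_le hPH] at hd
  rw [isDefectGroup_iff hM hind.2.1]
  have hNH : Subgroup.normalizer (P : Set G) ≤ Subgroup.normalizer (H : Set G) := by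
    intro u hu'
    rw [Subgroup.mem_normalizer_iff]
    have h1 : H.map (MulAut.conj u).toMonoidHom = H := by
      rw [hH, Subgroup.map_sup, map_conj_of_mem_normalizer hu',
        map_conj_of_mem_normalizer (normalizer_le_normalizer_centralizer P hu')]
    intro g
    have h3 := mem_map_conj_iff H u (u * g * u⁻¹)
    rw [h1] at h3
    have h4 : u⁻¹ * (u * g * u⁻¹) * u = g := by group
    rw [h3, h4]
  have hTe : T = stab (Subgroup.normalizer (P : Set G)) (EB M H b) := by
    ext g
    rw [hT g, mem_stab]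
    refine and_congr_right fun hg => ?_
    have hg' := hNH hg
    have h1 := stabilizesBlock_iff hb g
    have h2 : StabilizesBlock H b g ↔ Blk.cj g (EB M H b) = EB M H b := by
      rw [h1]; exact ⟨fun h => h.2, fun h => ⟨hg', h⟩⟩
    rw [← h2]
    constructor
    · intro h
      refine ⟨hg', fun χ hχ => ⟨irrMap (normConj H hg') χ, ?_, (isConjCharOf_iff H hg' _ _).2 rfl⟩⟩
      exact h χ hχ _ ((isConjCharOf_iff H hg' _ _).2 rfl)
    · rintro ⟨-, h⟩ θ hθ θ' hθ'
      obtain ⟨χ', hχ', hc⟩ := h θ hθ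
      have e1 := (isConjCharOf_iff H hg' θ θ').1 hθ'
      have e2 := (isConjCharOf_iff H hg' θ χ').1 hc
      rw [e1, ← e2]
      exact hχ'
  rw [hTe]
  refine isDef_top_iff hH hE hd (isBlk_eB hind.2.1) hfe fun z hz => ?_
  obtain ⟨ψ, hψ⟩ := isPBlock_nonempty hb
  have hzF : Fixed ⊤ (res H z) := by
    rw [← fixed_incl_iff, incl_res hz.1]; exact hz.2
  refine ⟨lam ψ (res H z), ?_⟩
  have h1F : Fixed ⊤ ((lam ψ (res H z)) • (1 : MonoidAlgebra (kM M) H)) := Fixed.one.smul _
  have h2 : lam ψ (res H z - (lam ψ (res H z)) • (1 : MonoidAlgebra (kM M) H)) = 0 := by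
    rw [lam_sub ψ hzF h1F, lam_smul ψ _ Fixed.one, lam_one, mul_one, sub_self]
  have h3 := (isNilpotent_mul_eB_iff hb hψ (hzF.sub h1F)).2 h2
  have h4 : incl H ((lam ψ (res H z)) • (1 : MonoidAlgebra (kM M) H)) =
      (lam ψ (res H z)) • (1 : MonoidAlgebra (kM M) G) := by
    apply ga_ext; intro g
    by_cases hg : g ∈ H
    · rw [incl_coeff_of_mem _ hg, MonoidAlgebra.coeff_smul_apply, MonoidAlgebra.coeff_smul_apply, ← incl_coeff_of_mem _ hg,
        incl_one]
    · rw [incl_coeff_of_notMem _ hg, MonoidAlgebra.coeff_smul_apply, Supp.one g hg, smul_zero]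
  rw [← isNilpotent_incl_iff (H := H), incl_mul, incl_sub, incl_res hz.1, ← EB_eq, h4] at h3
  exact h3

end Cfsg.Agent.S4437
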