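import Cfsg.Statements.S4438
import Cfsg.Agent.H76.FRCover
import Cfsg.Agent.S4435
import Cfsg.Agent.S4436
import Cfsg.Agent.BlkInd.DefectApp2

set_option autoImplicit false
open Cfsg

namespace Cfsg.Agent.S4438

open Cfsg.Agent.CharBase Cfsg.Agent.Blk Cfsg.Agent.H76

/-- Let N be a normal subgroup of the finite group G, b a block of N with defect group Q, and B a block of G covering b (some member of B has a constituent in b on restriction to N), all relative to a maximal ideal M of the algebraic integers containing p. Then B has a defect group P with P ⊓ N = Q. -/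
theorem result {G : Type*} [Group G] [Fintype G] (p : ℕ) [Fact p.Prime] (M : Ideal Cfsg.AlgInt) (hM : Cfsg.IsPModular p M) (N : Subgroup G) [hN : N.Normal] [Fintype N] (b : Set (Cfsg.IrrCharacter N)) (hb : Cfsg.IsPBlock M b) (Q : Subgroup G) (hQN : Q ≤ N) (hQ : Cfsg.IsDefectGroup p M b (Q.subgroupOf N)) (B : Set (Cfsg.IrrCharacter G)) (hB : Cfsg.IsPBlock M B) (hcov : (∃ χ ∈ B, ∃ θ ∈ b, Cfsg.classInner (fun n : N => (χ : G → ℂ) n) (θ : N → ℂ) ≠ 0)) : ∃ P : Subgroup G, Cfsg.IsDefectGroup p M B P ∧ P ⊓ N = Q := by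
  classical
  have hMp := isPrime_of_isPModular hM
  have hchar := charP_kM hM
  set T := blockStab N b with hTdef
  have : Fintype T := Fintype.ofFinite T
  have hNT : N ≤ T := le_blockStab N b
  have hT := fun g : G => mem_blockStab (N := N) (b := b) (g := g)
  have hst : IsStab N T b := isStab_of hb hT
  obtain ⟨B', hB', hcov', hind⟩ :=
    (S4435.result p M hM N b hb T hT hNT).2.2 B hB hcov
  obtain ⟨D, hD⟩ := BlkInd.exists_defectGroup hM hB'
  have hDB := (S4436.result p M hM N b hb T hT hNT B' hB' hcov' B hind).1 D hD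
  have hD' := (isDefectGroup_iff' hM hB' D).1 hD
  have hQ' := (isDefectGroup_iff' hM hb (Q.subgroupOf N)).1 hQ
  rw [Subgroup.map_subgroupOf_eq_of_le hQN] at hQ'
  have hfe := hst.EB_mul_EB hNT hb hB' hcov'
  have hTN : T ≤ Subgroup.normalizer (N : Set G) := by
    rw [Subgroup.normalizer_eq_top N]; exact le_top
  obtain ⟨u, -, hu⟩ := knorr_mod hNT hTN (isBlk_EB hb) (isBlk_EB hB') hfe hQ' hD'
  exact ⟨_, BlkInd.isDefectGroup_conj hDB u, hu⟩

end Cfsg.Agent.S4438
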