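import Cfsg.Statements.S4441

import Cfsg.Agent.CycG.PrinData

set_option autoImplicit false
open Cfsg

namespace Cfsg.Agent.S4441

open Cfsg.Agent.CycG Cfsg.Agent.CharBase Cfsg.Agent.Blk

/-- Let p be an odd prime and G a finite group whose Sylow p-subgroup P has order p; let C = C_G(P), N = N_G(P), e the index of C in N and t = (p − 1)/e; fix a maximal ideal M of the algebraic integers containing p and let B₀ be the principal block. Then B₀ is the disjoint union of a set X of e characters and a set Y of t characters such that: each χ ∈ X has a sign ε_χ with χ(1) ≡ ε_χ (mod p) and χ(x y) = ε_χ for every non-identity x ∈ P and every p-regular y ∈ C; all members of Y agree on the p-regular elements of G; there is one sign ε with θ(1) ≡ ε e (mod p) for every θ ∈ Y; and for every θ ∈ Y and every p-regular g, ε θ(g) = Σ_{χ ∈ X} ε_χ χ(g). -/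
theorem result {G : Type*} [Group G] [Fintype G] (p : ℕ) [Fact p.Prime] (M : Ideal Cfsg.AlgInt) (hM : Cfsg.IsPModular p M) (hodd : p ≠ 2) (P : Sylow p G) (hP : Nat.card P = p) (e : ℕ) (he : (Subgroup.centralizer ((P : Subgroup G) : Set G)).relIndex (Subgroup.normalizer ((P : Subgroup G) : Set G)) = e) : ∃ X Y : Set (Cfsg.IrrCharacter G), Cfsg.principalBlock M G = X ∪ Y ∧ Disjoint X Y ∧ Nat.card X = e ∧ Nat.card Y = (p - 1) / e ∧ ∃ (εX : Cfsg.IrrCharacter G → ℤ) (ε : ℤ), (∀ χ ∈ X, (εX χ = 1 ∨ εX χ = -1) ∧ (Cfsg.charDegree (χ : G → ℂ) : ℤ) ≡ εX χ [ZMOD p] ∧ ∀ x : G, x ∈ (P : Subgroup G) → x ≠ 1 → ∀ y : G, y ∈ Subgroup.centralizer ((P : Subgroup G) : Set G) → ¬ p ∣ orderOf y → (χ : G → ℂ) (x * y) = (εX χ : ℂ)) ∧ (ε = 1 ∨ ε = -1) ∧ (∀ θ ∈ Y, (Cfsg.charDegree (θ : G → ℂ) : ℤ) ≡ ε * (e : ℤ) [ZMOD p]) ∧ (∀ θ ∈ Y, ∀ θ' ∈ Y, ∀ g : G, ¬ p ∣ orderOf g → (θ : G → ℂ) g = (θ' : G → ℂ) g) ∧ ∀ θ ∈ Y, ∀ g : G, ¬ p ∣ orderOf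 g → (ε : ℂ) * (θ : G → ℂ) g = ∑ᶠ χ ∈ X, (εX χ : ℂ) * (χ : G → ℂ) g := by
  classical
  have := hM.2.1.isPrime
  have hSp : BR.Sp p (P : Subgroup G) := BR.Sp.of_sylow P hP
  obtain ⟨C, hC⟩ : ∃ C : Subgroup G, C = Subgroup.centralizer ((P : Subgroup G) : Set G) := ⟨_, rfl⟩
  have : Fintype C := Fintype.ofFinite C
  obtain ⟨d, hcard, -⟩ := principal_cycDat hM hSp hC
  obtain ⟨θ, ε, δ, o, hnexc, hε⟩ := principal_main hM hSp hC
  rw [← hC] at he
  have hp := (Fact.out : p.Prime)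
  have hPC : (P : Subgroup G) ≤ C := by rw [hC]; exact le_centralizer_of_prime hP
  have hPp : IsPGroup p (P : Subgroup G) := P.2
  have hX := o.card_Xf
  have hY := o.card_Yf
  rw [he] at hX hY
  rw [hcard] at hY
  have h1mem : oneIrr G ∈ principalBlock M G := oneIrr_mem_principalBlock (M := M)
  have he0 : 0 < e := by
    rw [← he]
    exact Nat.pos_of_ne_zero Subgroup.FiniteIndex.index_ne_zero
  have hmod : ∀ a : ℤ, (Nat.card (P : Subgroup G) : ℤ) ∣ a → (p : ℤ) ∣ a := fun a h => hP ▸ h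
  have hdeg1 : (charDegree ((oneIrr G : IrrCharacter G) : G → ℂ) : ℤ) = 1 := by
    have h := Cfsg.Agent.BlkC.charDegree_spec (oneIrr G)
    rw [oneIrr_apply] at h
    exact_mod_cast h.symm
  refine ⟨↑(CycOut.Xf (principalBlock M G) (principalBlock M C) (oneIrr C) θ),
    ↑(CycOut.Yf (principalBlock M G) (principalBlock M C) (oneIrr C) θ), ?_, ?_, ?_, ?_,
    ε, -δ, ?_, ?_, ?_, ?_, ?_⟩
  · ext χ
    rw [Set.mem_union, Finset.mem_coe, Finset.mem_coe, CycOut.mem_Xf, CycOut.mem_Yf]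
    tauto
  · rw [Finset.disjoint_coe, Finset.disjoint_left]
    intro a ha hb
    exact (CycOut.mem_Xf.1 ha).2 (CycOut.mem_Yf.1 hb).2
  · rw [Nat.card_coe_set_eq, Set.ncard_coe_finset]; exact hX
  · rw [Nat.card_coe_set_eq, Set.ncard_coe_finset]
    symm
    apply Nat.div_eq_of_eq_mul_right he0
    omega
  · intro χ hχ
    obtain ⟨hχB, hχe⟩ := CycOut.mem_Xf.1 (Finset.mem_coe.1 hχ)
    refine ⟨o.eps χ, ?_, ?_⟩
    · have h2 := hmod _ (o.dvd_nonexc hχB hχe h1mem hnexc (P : Subgroup G) hPp)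
      rw [hε, hdeg1] at h2
      rw [Int.modEq_comm]
      apply Int.modEq_iff_dvd.2
      have h3 : (charDegree (χ : G → ℂ) : ℤ) - ε χ =
          ε χ * (ε χ * (charDegree (χ : G → ℂ) : ℤ) - 1 * 1) := by
        linear_combination (-(charDegree (χ : G → ℂ) : ℤ)) * (o.eps_sq χ)
      rw [h3]; exact Dvd.dvd.mul_left h2 _
    · intro x hx hx1 y hy hyp
      have hs := sup_of_mem hP hx hx1 hy hyp
      rw [← hC] at hy
      have hxv : x * y ∈ C := C.mul_mem (hPC hx) hy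
      have h3 := principal_eq_blockPart hM hPp hPC hC hχB (h := ⟨x * y, hxv⟩) hs
      have hord : p ∣ orderOf (⟨x * y, hxv⟩ : C) := by
        have := hs.dvd_orderOf hp d.D1_ne_bot
        rwa [← Subgroup.orderOf_coe]
      have h4 := d.blockPart_nonexc hM o hχB hχe (h := ⟨x * y, hxv⟩) hord
      rw [h4, oneIrr_apply, mul_one] at h3
      exact h3
  · rcases o.delta with h | h
    · right; rw [h]
    · left; rw [h]; rfl
  · intro ψ hψ
    obtain ⟨hψB, hψe⟩ := CycOut.mem_Yf.1 (Finset.mem_coe.1 hψ)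
    have h2 := hmod _ (o.dvd_exc h1mem hnexc hψe (P : Subgroup G) hPp)
    rw [hε, he, hdeg1] at h2
    rw [Int.modEq_comm]
    apply Int.modEq_iff_dvd.2
    have h3 : (charDegree (ψ : G → ℂ) : ℤ) - -δ * (e : ℤ) =
        δ * (δ * (charDegree (ψ : G → ℂ) : ℤ) + (e : ℤ) * 1 * 1) := by
      linear_combination (-(charDegree (ψ : G → ℂ) : ℤ)) * o.delta_sq
    rw [h3]; exact Dvd.dvd.mul_left h2 _
  · intro ψ hψ ψ' hψ' g hg
    exact o.exc_reg (CycOut.mem_Yf.1 (Finset.mem_coe.1 hψ)).2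
      (CycOut.mem_Yf.1 (Finset.mem_coe.1 hψ')).2 hg
  · intro ψ hψ g hg
    obtain ⟨hψB, χ0, hχ0, h01, rfl⟩ := CycOut.mem_Yf.1 (Finset.mem_coe.1 hψ)
    rw [finsum_mem_coe_finset]
    have h := o.reg_rel hχ0 h01 hg
    push_cast
    linear_combination -h

end Cfsg.Agent.S4441
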