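import Cfsg.Statements.S4442

import Cfsg.Agent.CycG.PrinData
import Cfsg.Agent.CycG.Full
set_option maxHeartbeats 1000000

set_option autoImplicit false
open Cfsg

namespace Cfsg.Agent.S4442

open Cfsg.Agent.CycG Cfsg.Agent.CharBase Cfsg.Agent.Blk Cfsg.Agent.BlkInd

/-- Blocks of defect one. Let p be an odd prime and G a finite group whose Sylow p-subgroup P has order p; let C = C_G(P) and N = N_G(P), and fix a maximal ideal M of the algebraic integers containing p. Let B be a block of G with defect group P, b a block of C inducing B, and θ the member of b having P in its kernel (there is exactly one). Let T be the stabilizer of θ in N (the elements g ∈ N with θ(g c g⁻¹) = θ(c) for all c ∈ C) and e the index of C in T. Then e divides p − 1 and B contains exactly e + (p − 1)/e irreducible characters. Moreover B is the disjoint union of a set X of e characters and a set Y of (p − 1)/e characters such that, with f the index of C in N: every χ ∈ X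 has χ(1) ≡ ±(f/e)·θ(1) (mod p), there is one sign ε with ψ(1) ≡ ε f θ(1) (mod p) for all ψ ∈ Y, and all members of Y agree on the p-regular elements of G. -/
theorem result {G : Type*} [Group G] [Finite G] (p : ℕ) [Fact p.Prime] (M : Ideal Cfsg.AlgInt) (hM : Cfsg.IsPModular p M) (hodd : p ≠ 2) (P : Sylow p G) (hP : Nat.card P = p) (B : Set (Cfsg.IrrCharacter G)) (hB : Cfsg.IsPBlock M B) (hBP : Cfsg.IsDefectGroup p M B P) (b : Set (Cfsg.IrrCharacter (Subgroup.centralizer ((P : Subgroup G) : Set G)))) (hind : Cfsg.IsInducedBlock M (Subgroup.centralizer ((P : Subgroup G) : Set G)) b B) (θ : Cfsg.IrrCharacter (Subgroup.centralizer ((P : Subgroup G) : Set G))) (hθ : θ ∈ b) (hθP : ∀ x : Subgroup.centralizer ((P : Subgroup G) : Set G), (x : G) ∈ (P : Subgroup G) → (θ : Subgroup.centralizer ((P : Subgroup G) : Set G) → ℂ) x = (θ : Subgroup.centralizer ((P : Subgroup G) : Set G) → ℂ) 1) (T : Subgroup G) (hT : ∀ g : G, g ∈ T ↔ (g ∈ Subgroup.normalizer ((P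 : Subgroup G) : Set G) ∧ ∀ c c' : Subgroup.centralizer ((P : Subgroup G) : Set G), (c' : G) = g * c * g⁻¹ → (θ : Subgroup.centralizer ((P : Subgroup G) : Set G) → ℂ) c' = (θ : Subgroup.centralizer ((P : Subgroup G) : Set G) → ℂ) c)) (e f : ℕ) (he : (Subgroup.centralizer ((P : Subgroup G) : Set G)).relIndex T = e) (hf : (Subgroup.centralizer ((P : Subgroup G) : Set G)).relIndex (Subgroup.normalizer ((P : Subgroup G) : Set G)) = f) : e ∣ p - 1 ∧ Nat.card B = e + (p - 1) / e ∧ ∃ X Y : Set (Cfsg.IrrCharacter G), B = X ∪ Y ∧ Disjoint X Y ∧ Nat.card X = e ∧ Nat.card Y = (p - 1) / e ∧ (∀ χ ∈ X, (Cfsg.charDegree (χ : G → ℂ) : ℤ) ≡ ((f / e * Cfsg.charDegree (θ : Subgroup.centralizer ((P : Subgroup G) : Set G) → ℂ) : ℕ) : ℤ) [ZMOD p] ∨ (Cfsg.charDegree (χ : G → ℂ) : ℤ) ≡ -((f / e * Cfsg.charDegree (θ : Subgroup.centralizer ((P : Subgroup G) : Set G) → ℂ) : ℕ) : ℤ) [ZMOD p]) ∧ (∃ ε : ℤ, (ε = 1 ∨ ε = -1) ∧ ∀ ψ ∈ Y, (Cfsg.charDegree (ψ : G → ℂ) : ℤ) ≡ ε *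 ((f * Cfsg.charDegree (θ : Subgroup.centralizer ((P : Subgroup G) : Set G) → ℂ) : ℕ) : ℤ) [ZMOD p]) ∧ ∀ ψ ∈ Y, ∀ ψ' ∈ Y, ∀ g : G, ¬ p ∣ orderOf g → (ψ : G → ℂ) g = (ψ' : G → ℂ) g := by
  classical
  have := hM.2.1.isPrime
  have : Fintype G := Fintype.ofFinite G
  have hp := (Fact.out : p.Prime)
  obtain ⟨C, hC⟩ : ∃ C : Subgroup G, C = Subgroup.centralizer ((P : Subgroup G) : Set G) := ⟨_, rfl⟩
  revert b θ
  rw [← hC] at he hf ⊢
  intro b hind θ hθ hθP hT
  have : Fintype C := Fintype.ofFinite C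
  have hPp : IsPGroup p (P : Subgroup G) := P.2
  have hPC : (P : Subgroup G) ≤ C := by rw [hC]; exact le_centralizer_of_prime hP
  have hZ := subgroupOf_le_center (D := (P : Subgroup G)) hC
  have hdef := defect_of_ind hM hPC hC hind hBP
  have hNC : Subgroup.normalizer ((P : Subgroup G) : Set G) ≤ Subgroup.normalizer (C : Set G) := by
    rw [hC]; exact normalizer_le_normalizer_centralizer (P : Subgroup G)
  have hord1 : ¬ p ∣ orderOf (1 : C) := by
    rw [orderOf_one]; exact fun h => hp.one_lt.ne' (Nat.dvd_one.1 h)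
  -- the stabilizers
  have hT' : ∀ g, g ∈ T ↔ g ∈ Subgroup.normalizer ((P : Subgroup G) : Set G) ∧
      StabilizesBlock C b g := by
    intro g
    rw [hT]
    refine and_congr_right fun hg => ?_
    have hgC := hNC hg
    have e1 : (∀ c c' : C, (c' : G) = g * c * g⁻¹ → (θ : C → ℂ) c' = (θ : C → ℂ) c) ↔
        cjI g θ = θ := by
      rw [eq_comm, ← isConjCharOf_cjI hgC]
      exact ⟨fun h k k' hk => h k k' hk, fun h k k' hk => h k k' hk⟩
    rw [e1]
    constructor
    · intro h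
      refine ⟨hgC, fun χ hχ => ⟨cjI g χ, ?_, (isConjCharOf_cjI hgC _ _).2 rfl⟩⟩
      exact cjI_mem_of_mem hgC hind.1 hind.1 hθ hχ (by rw [h]; exact hθ)
    · rintro ⟨-, h⟩
      obtain ⟨χ', hχ', h2⟩ := h θ hθ
      rw [isConjCharOf_cjI hgC] at h2
      rw [← h2]
      apply eq_of_eq_on_defect hM hind.1 hdef hZ hχ' hθ
      intro z hz
      have hzP := Subgroup.mem_subgroupOf.1 hz
      have hg' := Subgroup.inv_mem _ hg
      have hz' : g⁻¹ * z * g⁻¹⁻¹ ∈ (P : Subgroup G) :=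
        (Subgroup.mem_normalizer_iff.1 hg' z).1 hzP
      rw [h2, cjI_apply hgC θ ⟨_, hPC hz'⟩ z (by simp only; group), hθP _ hz', hθP _ hzP]
  obtain ⟨χ1, d, hχ1, hcard, hrk⟩ := s4696_prime hM hP hBP hC hind hT'
  have h1θ : χ1 = θ := by
    apply eq_of_eq_on_defect hM hind.1 hdef hZ d.one_mem hθ
    intro z hz
    have hzP := Subgroup.mem_subgroupOf.1 hz
    rw [hχ1 z hzP, hθP z hzP]
    exact eq_on_reg hM hind.1 hdef hZ d.one_mem hθ hord1
  subst h1θ
  have hex : ∃ χ ∈ b, χ ≠ χ1 := by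
    by_contra hcon
    push Not at hcon
    have h1 : b = {χ1} := by
      ext χ
      rw [Set.mem_singleton_iff]
      exact ⟨fun h => hcon χ h, fun h => h ▸ hθ⟩
    rw [h1] at hcard
    simp only [Nat.card_unique] at hcard
    exact hp.one_lt.ne hcard
  obtain ⟨Θ, ε, δ, o, -⟩ := d.main hM hrk hex (oneIrr G)
  have hX := o.card_Xf
  have hY := o.card_Yf
  rw [he] at hX hY
  rw [hcard] at hY
  have he0 : 0 < e := by
    rw [← he]
    exact Nat.pos_of_ne_zero Subgroup.FiniteIndex.index_ne_zero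
  have hYc : (CycOut.Yf B b χ1 Θ).card = (p - 1) / e := by
    symm
    apply Nat.div_eq_of_eq_mul_right he0
    omega
  have hedvd : e ∣ p - 1 := ⟨(CycOut.Yf B b χ1 Θ).card, by omega⟩
  have hef : e ∣ f := by
    rw [← he, ← hf]
    exact Dvd.intro _ (Subgroup.relIndex_mul_relIndex C T _ d.C_le_T d.T_le_N)
  obtain ⟨r, hr⟩ := hef
  have hfe : f / e = r := by rw [hr]; exact Nat.mul_div_cancel_left r he0
  have hmod : ∀ a : ℤ, (Nat.card (P : Subgroup G) : ℤ) ∣ a → (p : ℤ) ∣ a := fun a h => hP ▸ h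
  -- degrees of the nonexceptional characters
  have hdegX : ∀ χ ∈ B, ¬ Exc b χ1 Θ χ →
      (p : ℤ) ∣ (charDegree (χ : G → ℂ) : ℤ) - ε χ * ((r * charDegree (χ1 : C → ℂ) : ℕ) : ℤ) := by
    intro χ hχB hχe
    have hval : ∀ x ∈ (P : Subgroup G), x ≠ 1 → (χ : G → ℂ) x =
        ((ε χ * ((r * charDegree (χ1 : C → ℂ) : ℕ) : ℤ) : ℤ) : ℂ) := by
      intro x hx hx1
      have hs : Sup p (P : Subgroup G) x := by
        have := sup_of_mem hP hx hx1 (Subgroup.one_mem _)
          (by rw [orderOf_one]; exact fun h => hp.one_lt.ne' (Nat.dvd_one.1 h))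
        rwa [mul_one] at this
      have h1 := card_mul_value hM hPp hPC hC hBP hind hT' hχB ⟨x, hPC hx⟩ hs
      have h2 : ∀ u : G, (if hu : u ∈ Subgroup.normalizer (C : Set G) then
          (if u ∈ Subgroup.normalizer ((P : Subgroup G) : Set G) then
          blockPart b (fun c : C => (χ : G → ℂ) c) (normConj C hu ⟨x, hPC hx⟩) else 0) else 0) =
          if u ∈ Subgroup.normalizer ((P : Subgroup G) : Set G) then
            (ε χ : ℂ) * (charDegree (χ1 : C → ℂ) : ℂ) else 0 := by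
        intro u
        by_cases hu : u ∈ Subgroup.normalizer ((P : Subgroup G) : Set G)
        · rw [dif_pos (hNC hu), if_pos hu, if_pos hu]
          have hx' : u * x * u⁻¹ ∈ (P : Subgroup G) :=
            (Subgroup.mem_normalizer_iff.1 hu x).1 hx
          have hx1' : u * x * u⁻¹ ≠ 1 := by
            intro h
            apply hx1
            have : x = u⁻¹ * (u * x * u⁻¹) * u := by group
            rw [this, h]; group
          have e2 : normConj C (hNC hu) ⟨x, hPC hx⟩ = ⟨u * x * u⁻¹, hPC hx'⟩ :=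
            Subtype.ext (normConj_coe C (hNC hu) ⟨x, hPC hx⟩)
          rw [e2]
          have hs' : Sup p (P : Subgroup G) (u * x * u⁻¹) := by
            have := sup_of_mem hP hx' hx1' (Subgroup.one_mem _)
              (by rw [orderOf_one]; exact fun h => hp.one_lt.ne' (Nat.dvd_one.1 h))
            rwa [mul_one] at this
          have hord : p ∣ orderOf (⟨u * x * u⁻¹, hPC hx'⟩ : C) := by
            have := hs'.dvd_orderOf hp d.D1_ne_bot
            rwa [← Subgroup.orderOf_coe]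
          rw [d.blockPart_nonexc hM o hχB hχe hord, hθP _ hx', Cfsg.Agent.BlkC.charDegree_spec]
        · rw [if_neg hu]
          split_ifs <;> rfl
      rw [Finset.sum_congr rfl (fun u _ => h2 u), ← Finset.sum_filter, Finset.sum_const,
        CycDat.card_filter_mem, nsmul_eq_mul] at h1
      have h3 : (Nat.card T : ℂ) = Nat.card C * e := by
        rw [← CycDat.relIndex_mul_card d.C_le_T, he]; push_cast; ring
      have h4 : (Nat.card (Subgroup.normalizer ((P : Subgroup G) : Set G)) : ℂ) =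
          Nat.card C * (e * r) := by
        rw [← CycDat.relIndex_mul_card (d.C_le_T.trans d.T_le_N), hf, hr]; push_cast; ring
      rw [h3, h4] at h1
      have h5 : (Nat.card C : ℂ) * e ≠ 0 := by
        have : (Nat.card C : ℂ) ≠ 0 := Nat.cast_ne_zero.2 Nat.card_pos.ne'
        have h6 : (e : ℂ) ≠ 0 := Nat.cast_ne_zero.2 he0.ne'
        exact mul_ne_zero this h6
      apply mul_left_cancel₀ h5
      rw [h1]
      push_cast
      ring
    have hSp : BR.Sp p (P : Subgroup G) := BR.Sp.of_sylow P hP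
    have : Fintype (P : Subgroup G) := Fintype.ofFinite _
    obtain ⟨m, hm⟩ := hSp.exists_sum (irr_isCharacter χ)
    rw [BR.sum_P_split (fun x : (P : Subgroup G) => (χ : G → ℂ) x)] at hm
    rw [Finset.sum_congr rfl (g := fun _ =>
      (((ε χ * ((r * charDegree (χ1 : C → ℂ) : ℕ) : ℤ) : ℤ) : ℂ)))] at hm
    · rw [Finset.sum_const, Finset.card_erase_of_mem (Finset.mem_univ _), Finset.card_univ,
        ← Nat.card_eq_fintype_card, hP, nsmul_eq_mul] at hm
      have h7 : (χ : G → ℂ) ((1 : (P : Subgroup G)) : G) = (charDegree (χ : G → ℂ) : ℂ) :=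
        Cfsg.Agent.BlkC.charDegree_spec χ
      rw [h7] at hm
      have h8 : (charDegree (χ : G → ℂ) : ℤ) + ((p - 1 : ℕ) : ℤ) *
          (ε χ * ((r * charDegree (χ1 : C → ℂ) : ℕ) : ℤ)) = p * m := by
        have h9 : (((charDegree (χ : G → ℂ) : ℤ) + ((p - 1 : ℕ) : ℤ) *
          (ε χ * ((r * charDegree (χ1 : C → ℂ) : ℕ) : ℤ)) : ℤ) : ℂ) = ((p * m : ℤ) : ℂ) := by
          push_cast at hm ⊢
          exact hm
        exact_mod_cast h9
      have h9 : ((p - 1 : ℕ) : ℤ) = p - 1 := by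
        rw [Nat.cast_sub hp.one_lt.le]; simp
      rw [h9] at h8
      refine ⟨m - ε χ * ((r * charDegree (χ1 : C → ℂ) : ℕ) : ℤ), ?_⟩
      linear_combination h8
    · intro x hx
      exact hval x x.2 (fun h => (Finset.mem_erase.mp hx).1 (Subtype.ext h))
  have hXne : ∃ χ ∈ B, ¬ Exc b χ1 Θ χ := by
    have : (CycOut.Xf B b χ1 Θ).Nonempty := by rw [← Finset.card_pos, hX]; exact he0
    obtain ⟨χ, hχ⟩ := this
    exact ⟨χ, CycOut.mem_Xf.1 hχ⟩
  refine ⟨hedvd, ?_, ↑(CycOut.Xf B b χ1 Θ), ↑(CycOut.Yf B b χ1 Θ), ?_, ?_, ?_, ?_, ?_,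
    ⟨-δ, ?_, ?_⟩, ?_⟩
  · rw [← hYc, ← hX]
    have h1 := CycOut.sum_split (B := B) (f := b) (χ1 := χ1) (θ := Θ) (fun _ => (1 : ℂ))
    simp only [Finset.sum_const, nsmul_eq_mul, mul_one] at h1
    rw [BlkC.natCard_eq_Bfin]
    exact_mod_cast h1
  · ext χ
    rw [Set.mem_union, Finset.mem_coe, Finset.mem_coe, CycOut.mem_Xf, CycOut.mem_Yf]
    tauto
  · rw [Finset.disjoint_coe, Finset.disjoint_left]
    intro a ha hb
    exact (CycOut.mem_Xf.1 ha).2 (CycOut.mem_Yf.1 hb).2
  · rw [Nat.card_coe_set_eq, Set.ncard_coe_finset]; exact hX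
  · rw [Nat.card_coe_set_eq, Set.ncard_coe_finset]; exact hYc
  · intro χ hχ
    obtain ⟨hχB, hχe⟩ := CycOut.mem_Xf.1 (Finset.mem_coe.1 hχ)
    have h1 := hdegX χ hχB hχe
    rw [hfe]
    rcases o.eps χ with h | h
    · left
      rw [h, one_mul] at h1
      rw [Int.modEq_comm]
      exact Int.modEq_iff_dvd.2 h1
    · right
      rw [h, neg_one_mul] at h1
      rw [Int.modEq_comm]
      exact Int.modEq_iff_dvd.2 h1
  · rcases o.delta with h | h
    · right; rw [h]
    · left; rw [h]; rfl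
  · intro ψ hψ
    obtain ⟨hψB, hψe⟩ := CycOut.mem_Yf.1 (Finset.mem_coe.1 hψ)
    obtain ⟨χ, hχB, hχe⟩ := hXne
    have h2 := hmod _ (o.dvd_exc hχB hχe hψe (P : Subgroup G) hPp)
    rw [he] at h2
    have h1 := hdegX χ hχB hχe
    rw [Int.modEq_comm]
    apply Int.modEq_iff_dvd.2
    have h3 : (charDegree (ψ : G → ℂ) : ℤ) - -δ * ((f * charDegree (χ1 : C → ℂ) : ℕ) : ℤ) =
        δ * (δ * (charDegree (ψ : G → ℂ) : ℤ) + (e : ℤ) * ε χ * (charDegree (χ : G → ℂ) : ℤ)) -
        δ * e * ε χ * ((charDegree (χ : G → ℂ) : ℤ) -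
          ε χ * ((r * charDegree (χ1 : C → ℂ) : ℕ) : ℤ)) := by
      rw [hr]
      push_cast
      linear_combination (-(charDegree (ψ : G → ℂ) : ℤ)) * o.delta_sq -
        (δ * e * r * (charDegree (χ1 : C → ℂ) : ℤ)) * o.eps_sq χ
    rw [h3]
    exact dvd_sub (Dvd.dvd.mul_left h2 _) (Dvd.dvd.mul_left h1 _)
  · intro ψ hψ ψ' hψ' g hg
    exact o.exc_reg (CycOut.mem_Yf.1 (Finset.mem_coe.1 hψ)).2
      (CycOut.mem_Yf.1 (Finset.mem_coe.1 hψ')).2 hg

end Cfsg.Agent.S4442
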