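import Cfsg.Statements.S4443
import Cfsg.Agent.H76.Robinson

set_option autoImplicit false
open Cfsg

namespace Cfsg.Agent.S4443

open Cfsg.Agent.CharBase Cfsg.Agent.Blk Cfsg.Agent.H76

/-- Let D be a normal p-subgroup of the finite group G, of order p^d, let p^a be the p-part of the order of G, and fix a Sylow p-subgroup S and a maximal ideal M of the algebraic integers containing p. Index by a finite type ι (via an injective map K) exactly the conjugacy classes of p-regular elements x of G for which D is a Sylow p-subgroup of C_G(x). For classes K_i, K_j let ω(i, j) be the number of pairs (y, z) ∈ K_i × K_j with z y⁻¹ ∈ S; this number is divisible by p^(a−d). Then the number of p-blocks of G having D as a defect group equals the rank over ℤ/pℤ of the matrix with (i, j) entry ω(i, j)/p^(a−d) reduced modulo p. -/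
theorem result {G : Type*} [Group G] [Finite G] (p : ℕ) [Fact p.Prime] (M : Ideal Cfsg.AlgInt) (hM : Cfsg.IsPModular p M) (D : Subgroup G) [D.Normal] (hD : IsPGroup p D) (S : Sylow p G) {ι : Type*} [Fintype ι] [DecidableEq ι] (K : ι → ConjClasses G) (hKinj : Function.Injective K) (hK : ∀ C : ConjClasses G, (∃ i, K i = C) ↔ ∃ x ∈ C.carrier, ¬ p ∣ orderOf x ∧ ∃ Q : Sylow p (Subgroup.centralizer ({x} : Set G)), (Q : Subgroup (Subgroup.centralizer ({x} : Set G))).map (Subgroup.centralizer ({x} : Set G)).subtype = D) : Nat.card {B : Set (Cfsg.IrrCharacter G) // Cfsg.IsPBlock M B ∧ Cfsg.IsDefectGroup p M B D} = (Matrix.of fun i j : ι => ((Nat.card {yz : G × G // yz.1 ∈ (K i).carrier ∧ yz.2 ∈ (K j).carrier ∧ yz.2 * yz.1⁻¹ ∈ (S : Subgroup G)} / p ^ ((Nat.card G).factorization p - (Nat.card D).factorization p) : ℕ) : ZMod p)).rank := by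
  classical
  have hMp := isPrime_of_isPModular hM
  have hchar := charP_kM hM
  have : Fintype G := Fintype.ofFinite G
  have : Fintype (S : Subgroup G) := Fintype.ofFinite _
  have := Fintype.ofFinite (IrrCharacter G)
  -- representatives of the classes
  have hrep : ∀ i, ∃ x : G, ConjClasses.mk x = K i ∧ DC p D x := by
    intro i
    obtain ⟨x, hx, h1, h2⟩ := (hK (K i)).1 ⟨i, rfl⟩
    exact ⟨x, ConjClasses.mem_carrier_iff_mk_eq.1 hx, h1, (sylow_iff hD _).1 h2⟩
  choose y hyK hy using hrep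
  have hinj : ∀ i j, IsConj (y i) (y j) → i = j := by
    intro i j h
    apply hKinj
    rw [← hyK, ← hyK]
    exact ConjClasses.mk_eq_mk_iff_isConj.2 h
  have hsurj : ∀ x, DC p D x → ∃ i, IsConj (y i) x := by
    intro x hx
    obtain ⟨i, hi⟩ := (hK (ConjClasses.mk x)).2
      ⟨x, ConjClasses.mem_carrier_mk, hx.1, (sylow_iff hD _).2 hx.2⟩
    exact ⟨i, ConjClasses.mk_eq_mk_iff_isConj.1 (by rw [hyK, hi])⟩
  have hconjinv : ∀ a b : G, IsConj a⁻¹ b⁻¹ → IsConj a b := by
    intro a b h
    obtain ⟨u, hu⟩ := isConj_iff.1 h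
    refine isConj_iff.2 ⟨u, ?_⟩
    have := congrArg (·⁻¹) hu
    simp only [mul_inv_rev, inv_inv] at this
    rw [← this]; group
  have hinj' : ∀ i j, IsConj (y i)⁻¹ (y j)⁻¹ → i = j := fun i j h => hinj i j (hconjinv _ _ h)
  have hsurj' : ∀ x, DC p D x → ∃ i, IsConj (y i)⁻¹ x := by
    intro x hx
    obtain ⟨i, hi⟩ := hsurj _ hx.inv
    exact ⟨i, hconjinv _ _ (by rw [inv_inv]; exact hi)⟩
  -- the blocks
  have hfin : Fintype {B : Set (IrrCharacter G) // IsPBlock M B ∧ IsDefectGroup p M B D} :=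
    Fintype.ofFinite _
  set BB := {B : Set (IrrCharacter G) // IsPBlock M B ∧ IsDefectGroup p M B D} with hBB
  have hne : ∀ B : BB, ∃ χ : IrrCharacter G, χ ∈ B.1 := fun B => isPBlock_nonempty B.2.1
  choose rep hrep using hne
  have hDef : ∀ B : BB, IsDef p ⊤ (eB M B.1) D := fun B =>
    (isDefectGroup_iff hM B.2.1 D).1 B.2.2
  let L : Matrix BB ι (kM M) := Matrix.of fun B i =>
    rd M (centralChar ((rep B : IrrCharacter G) : G → ℂ) (y i)⁻¹)
  let L' : Matrix BB ι (kM M) := Matrix.of fun B i => (eB M B.1).coeff (y i)⁻¹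
  let R : Matrix BB ι (kM M) := Matrix.of fun B i =>
    rd M (centralChar ((rep B : IrrCharacter G) : G → ℂ) (y i))
  let R' : Matrix BB ι (kM M) := Matrix.of fun B i => (eB M B.1).coeff (y i)
  have hone : ∀ B B' : BB, (if B'.1 = B.1 then (1 : kM M) else 0) =
      (1 : Matrix BB BB (kM M)) B B' := by
    intro B B'
    rw [Matrix.one_apply]
    by_cases h : B = B'
    · rw [if_pos h, if_pos (congrArg Subtype.val h.symm)]
    · rw [if_neg h, if_neg (fun h' => h (Subtype.ext h'.symm))]
  have hR : R * R'.transpose = 1 := by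
    ext B B'
    rw [Matrix.mul_apply, ← hone, ← sum_iota hM y hinj hsurj B'.2.1 B.2.1 (hDef B') (hDef B)
      (hrep B)]
    refine Finset.sum_congr rfl fun i _ => ?_
    rw [mul_comm]; rfl
  have hL : L * L'.transpose = 1 := by
    ext B B'
    rw [Matrix.mul_apply, ← hone, ← sum_iota hM (fun i => (y i)⁻¹) hinj' hsurj' B'.2.1 B.2.1
      (hDef B') (hDef B) (hrep B)]
    refine Finset.sum_congr rfl fun i _ => ?_
    rw [mul_comm]; rfl
  let c : BB → kM M := fun B => cc M D (S : Subgroup G) B.1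
  have hc : ∀ B, c B ≠ 0 := fun B => cc_ne_zero hM B.2.1 B.2.2 S
  have hrank := rank_sandwich L L' R R' c hc hL hR
  rw [Nat.card_eq_fintype_card, ← hrank]
  let f : ZMod p →+* kM M := ZMod.castHom (dvd_refl p) (kM M)
  rw [← rank_map_of_field f]
  congr 1
  ext i j
  rw [Matrix.map_apply, Matrix.of_apply, map_natCast]
  have hW : Nat.card {yz : G × G // yz.1 ∈ (K i).carrier ∧ yz.2 ∈ (K j).carrier ∧
      yz.2 * yz.1⁻¹ ∈ (S : Subgroup G)} = WW (y i) (y j) (S : Subgroup G) := by
    unfold WW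
    refine Nat.card_congr (Equiv.subtypeEquivRight fun yz => ?_)
    rw [ConjClasses.mem_carrier_iff_mk_eq, ConjClasses.mem_carrier_iff_mk_eq, ← hyK, ← hyK,
      eq_comm, ConjClasses.mk_eq_mk_iff_isConj, eq_comm (a := ConjClasses.mk yz.2),
      ConjClasses.mk_eq_mk_iff_isConj]
  rw [hW, WW_entry hM hD S (hy i) (y j)]
  -- the matrix entry
  rw [Matrix.mul_apply]
  simp only [Matrix.mul_diagonal, Matrix.transpose_apply]
  have hterm : ∀ B : BB, L B i * c B * R B j = ∑ χ : IrrCharacter G,
      if χ ∈ B.1 then rd M (tt D (S : Subgroup G) (y i) (y j) (χ : G → ℂ)) else 0 := by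
    intro B
    rw [← Finset.sum_filter]
    have h1 : (Finset.univ.filter fun χ : IrrCharacter G => χ ∈ B.1) = BlkC.Bfin B.1 := by
      ext χ; simp
    rw [h1, Finset.sum_congr rfl fun χ hχ => rd_tt_of_mem hM (S : Subgroup G) (y i) (y j)
      B.2.1 B.2.2 (BlkC.mem_Bfin.1 hχ) (hrep B), ← Finset.sum_mul]
    change L B i * cc M D (S : Subgroup G) B.1 * R B j = cc M D (S : Subgroup G) B.1 *
      (R B j * L B i)
    ring
  rw [Finset.sum_congr rfl fun B _ => hterm B, Finset.sum_comm]
  refine Finset.sum_congr rfl fun χ _ => ?_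
  by_cases hχ : IsDefectGroup p M (blockOf M (χ : G → ℂ)) D
  · rw [Finset.sum_eq_single (⟨blockOf M (χ : G → ℂ), isPBlock_blockOf χ, hχ⟩ : BB)]
    · rw [if_pos (mem_blockOf_self χ)]
    · intro B _ hB
      rw [if_neg]
      intro h
      exact hB (Subtype.ext (isPBlock_eq_of_mem B.2.1 (isPBlock_blockOf χ) h
        (mem_blockOf_self χ)))
    · intro h; exact absurd (Finset.mem_univ _) h
  · rw [Finset.sum_eq_zero]
    · refine (rd_tt_eq_zero hM (S : Subgroup G) (hy i) (y j) χ ?_).symm
      by_contra h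
      exact hχ ((isDefectGroup_iff hM (isPBlock_blockOf χ) D).2
        (isDef_of_centralChar_ne hM hD (isPBlock_blockOf χ) (mem_blockOf_self χ) h (hy j)))
    · intro B _
      rw [if_neg]
      intro h
      apply hχ
      rw [← isPBlock_eq_of_mem B.2.1 (isPBlock_blockOf χ) h (mem_blockOf_self χ)]
      exact B.2.2

end Cfsg.Agent.S4443
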