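import Cfsg.Statements.S4444
import Cfsg.Agent.Glaub.PGroup

set_option autoImplicit false
open Cfsg

namespace Cfsg.Agent.S4444

open Cfsg.Agent.CharBase Cfsg.Agent.Glaub

set_option linter.style.haveILetI false

/-- The Glauberman correspondence for a p-group of operators. Inside a finite group Γ let S normalise G with the orders of G and S coprime, S a p-group, and let C = G ⊓ C(S) be the fixed points. Call an irreducible character χ of G S-invariant when χ(s g s⁻¹) = χ(g) for s ∈ S, g ∈ G. Then: (i) for every S-invariant χ there is exactly one irreducible character β of C whose multiplicity [χ_C, β] in the restriction of χ is not divisible by p; (ii) that multiplicity is ≡ 1 or ≡ −1 (mod p); (iii) distinct S-invariant χ give distinct β; (iv) every irreducible character of C arises in this way. So χ ↦ β is a bijection from the S-invariant irreducible characters of G onto the irreducible characters of C. -/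
theorem result {Γ : Type*} [Group Γ] [Fintype Γ] (G S : Subgroup Γ) [Fintype G] (hnorm : ∀ s ∈ S, ∀ g ∈ G, s * g * s⁻¹ ∈ G) (hcop : (Nat.card G).Coprime (Nat.card S)) (p : ℕ) (hp : p.Prime) (hS : IsPGroup p S) (C : Subgroup Γ) [Fintype C] (hC : C = G ⊓ Subgroup.centralizer (S : Set Γ)) (hCG : C ≤ G) : (∀ χ : Cfsg.IrrCharacter G, (∀ s ∈ S, ∀ g g' : G, (g' : Γ) = s * g * s⁻¹ → (χ : G → ℂ) g' = (χ : G → ℂ) g) → ∃! β : Cfsg.IrrCharacter C, ∃ m : ℕ, Cfsg.classInner (fun c : C => (χ : G → ℂ) ⟨c, hCG c.2⟩) (β : C → ℂ) = (m : ℂ) ∧ ¬ p ∣ m) ∧ (∀ χ : Cfsg.IrrCharacter G, (∀ s ∈ S, ∀ g g' : G, (g' : Γ) = s * g * s⁻¹ → (χ : G → ℂ) g' = (χ : G → ℂ) g) → ∀ β : Cfsg.IrrCharacter C, ∀ m : ℕ, Cfsg.classInner (fun c : C => (χ : G → ℂ) ⟨c, hCG c.2⟩) (β : C → ℂ) = (m : ℂ) → ¬ p ∣ m → ((m : ℤ) ≡ 1 [ZMOD p] ∨ (m : ℤ) ≡ -1 [ZMOD p])) ∧ (∀ χ χ' : Cfsg.IrrCharacter G, (∀ s ∈ S, ∀ g g' : G, (g' : Γ) = s * g * s⁻¹ → (χ : G → ℂ) g' = (χ : G → ℂ) g) → (∀ s ∈ S, ∀ g g' : G, (g'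 : Γ) = s * g * s⁻¹ → (χ' : G → ℂ) g' = (χ' : G → ℂ) g) → ∀ β : Cfsg.IrrCharacter C, ∀ m m' : ℕ, Cfsg.classInner (fun c : C => (χ : G → ℂ) ⟨c, hCG c.2⟩) (β : C → ℂ) = (m : ℂ) → ¬ p ∣ m → Cfsg.classInner (fun c : C => (χ' : G → ℂ) ⟨c, hCG c.2⟩) (β : C → ℂ) = (m' : ℂ) → ¬ p ∣ m' → χ = χ') ∧ (∀ β : Cfsg.IrrCharacter C, ∃ χ : Cfsg.IrrCharacter G, (∀ s ∈ S, ∀ g g' : G, (g' : Γ) = s * g * s⁻¹ → (χ : G → ℂ) g' = (χ : G → ℂ) g) ∧ ∃ m : ℕ, Cfsg.classInner (fun c : C => (χ : G → ℂ) ⟨c, hCG c.2⟩) (β : C → ℂ) = (m : ℂ) ∧ ¬ p ∣ m) := by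
  classical
  -- the inclusion
  let ι : C →* G := Subgroup.inclusion hCG
  have hι : Function.Injective ι := Subgroup.inclusion_injective hCG
  by_cases hpG : p ∣ Nat.card G
  · -- S is trivial
    have hS1 : ∀ s ∈ S, s = 1 := by
      intro s hs
      obtain ⟨k, hk⟩ := hS ⟨s, hs⟩
      by_contra hne
      have hp2 : p ∣ Nat.card S := by
        have h1 : orderOf (⟨s, hs⟩ : S) ∣ p ^ k := orderOf_dvd_of_pow_eq_one hk
        obtain ⟨j, hj, hj2⟩ := (Nat.dvd_prime_pow hp).mp h1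
        have hj0 : j ≠ 0 := by
          rintro rfl
          rw [pow_zero, orderOf_eq_one_iff] at hj2
          exact hne (congrArg Subtype.val hj2)
        exact (dvd_pow_self p hj0).trans (hj2 ▸ orderOf_dvd_natCard _)
      exact hp.one_lt.ne' (Nat.dvd_one.mp (hcop ▸ Nat.dvd_gcd hpG hp2))
    have hsurj : Function.Surjective ι := by
      intro g
      refine ⟨⟨(g : Γ), ?_⟩, ?_⟩
      · rw [hC]
        refine Subgroup.mem_inf.mpr ⟨g.2, Subgroup.mem_centralizer_iff.mpr ?_⟩
        intro s hs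
        rw [hS1 s hs]; simp
      · rfl
    have hirr : ∀ χ : IrrCharacter G, IsIrrCharacter C (fun c : C => (χ : G → ℂ) ⟨c, hCG c.2⟩) :=
      fun χ => isIrrCharacter_comp_surjective χ.2 ι hsurj
    have hinv : ∀ χ : IrrCharacter G, ∀ s ∈ S, ∀ g g' : G, (g' : Γ) = s * g * s⁻¹ →
        (χ : G → ℂ) g' = (χ : G → ℂ) g := by
      intro χ s hs g g' h
      rw [hS1 s hs] at h
      have : g' = g := by apply Subtype.ext; rw [h]; simp
      rw [this]
    have hmul : ∀ (χ : IrrCharacter G) (β : IrrCharacter C) (m : ℕ),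
        classInner (fun c : C => (χ : G → ℂ) ⟨c, hCG c.2⟩) (β : C → ℂ) = (m : ℂ) → ¬ p ∣ m →
        m = 1 ∧ (⟨_, hirr χ⟩ : IrrCharacter C) = β := by
      intro χ β m hm hpm
      have h1 := classInner_irr (⟨_, hirr χ⟩ : IrrCharacter C) β
      rw [show ((⟨_, hirr χ⟩ : IrrCharacter C) : C → ℂ) = (fun c : C => (χ : G → ℂ) ⟨c, hCG c.2⟩)
        from rfl, hm] at h1
      by_cases heq : (⟨_, hirr χ⟩ : IrrCharacter C) = β
      · rw [if_pos heq] at h1
        exact ⟨by exact_mod_cast h1, heq⟩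
      · rw [if_neg heq] at h1
        exfalso
        apply hpm
        have : m = 0 := by exact_mod_cast h1
        rw [this]; exact dvd_zero p
    refine ⟨?_, ?_, ?_, ?_⟩
    · intro χ _
      refine ⟨⟨_, hirr χ⟩, ⟨1, ?_, ?_⟩, ?_⟩
      · have := classInner_irr_self (⟨_, hirr χ⟩ : IrrCharacter C)
        rw [Nat.cast_one]; exact this
      · exact fun h => hp.one_lt.ne' (Nat.dvd_one.mp h)
      · rintro β ⟨m, hm, hpm⟩
        exact (hmul χ β m hm hpm).2.symm
    · intro χ _ β m hm hpm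
      left
      rw [(hmul χ β m hm hpm).1]; rfl
    · intro χ χ' _ _ β m m' hm hpm hm' hpm'
      have h1 := (hmul χ β m hm hpm).2.trans (hmul χ' β m' hm' hpm').2.symm
      apply Subtype.ext
      funext g
      obtain ⟨c, rfl⟩ := hsurj g
      exact congrFun (congrArg Subtype.val h1) c
    · intro β
      let e : C ≃* G := MulEquiv.ofBijective ι ⟨hι, hsurj⟩
      refine ⟨⟨_, isIrrCharacter_comp_surjective β.2 e.symm.toMonoidHom e.symm.surjective⟩,
        hinv _, 1, ?_, fun h => hp.one_lt.ne' (Nat.dvd_one.mp h)⟩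
      have : (fun c : C => ((β : C → ℂ) ∘ e.symm.toMonoidHom) ⟨c, hCG c.2⟩) = (β : C → ℂ) := by
        funext c
        change (β : C → ℂ) (e.symm (e c)) = _
        rw [e.symm_apply_apply]
      have h2 := classInner_irr_self β
      rw [Nat.cast_one, ← h2]
      exact congrArg (fun f => classInner f (β : C → ℂ)) this
  · -- the action
    let ψ : S →* MulAut G :=
      { toFun := fun s =>
          { toFun := fun g => ⟨s * g * (s : Γ)⁻¹, hnorm s s.2 g g.2⟩
            invFun := fun g => ⟨(s : Γ)⁻¹ * g * s, by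
              have := hnorm (s : Γ)⁻¹ (S.inv_mem s.2) g g.2
              rwa [inv_inv] at this⟩
            left_inv := fun g => by apply Subtype.ext; simp [mul_assoc]
            right_inv := fun g => by apply Subtype.ext; simp [mul_assoc]
            map_mul' := fun g g' => by apply Subtype.ext; simp [mul_assoc] }
        map_one' := by ext g; simp
        map_mul' := fun s s' => by ext g; simp [mul_assoc] }
    have hψ : ∀ (s : S) (g : G), ((ψ s g : G) : Γ) = s * g * (s : Γ)⁻¹ := fun s g => rfl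
    have hfix : IsFix ψ ι := by
      refine ⟨hι, ?_⟩
      intro g
      constructor
      · intro h
        refine ⟨⟨(g : Γ), ?_⟩, rfl⟩
        rw [hC]
        refine Subgroup.mem_inf.mpr ⟨g.2, Subgroup.mem_centralizer_iff.mpr ?_⟩
        intro s hs
        have := congrArg Subtype.val (h ⟨s, hs⟩)
        rw [hψ] at this
        exact mul_inv_eq_iff_eq_mul.mp this
      · rintro ⟨c, rfl⟩ s
        apply Subtype.ext
        rw [hψ]
        have hc : (c : Γ) ∈ G ⊓ Subgroup.centralizer (S : Set Γ) := hC ▸ c.2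
        have := (Subgroup.mem_centralizer_iff.mp hc.2) s s.2
        rw [mul_inv_eq_iff_eq_mul]
        exact this
    have hinv : ∀ χ : IrrCharacter G, (∀ s ∈ S, ∀ g g' : G, (g' : Γ) = s * g * s⁻¹ →
        (χ : G → ℂ) g' = (χ : G → ℂ) g) ↔ Inv ψ (χ : G → ℂ) := by
      intro χ
      constructor
      · intro h s g
        exact h s s.2 g (ψ s g) (hψ s g)
      · intro h s hs g g' hg
        have : g' = ψ ⟨s, hs⟩ g := Subtype.ext (by rw [hg, hψ])
        rw [this]; exact h _ _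
    refine ⟨?_, ?_, ?_, ?_⟩
    · intro χ hχ
      obtain ⟨β, m, hm, hpm, -, hother⟩ := existsUnique_below hfix hp hS hpG χ ((hinv χ).mp hχ)
      refine ⟨β, ⟨m, hm, hpm⟩, ?_⟩
      rintro γ ⟨n, hn, hpn⟩
      by_contra hne
      exact hpn (hother γ n hn hne)
    · intro χ hχ β m hm hpm
      obtain ⟨β', m', hm', hpm', hsq, hother⟩ := existsUnique_below hfix hp hS hpG χ ((hinv χ).mp hχ)
      have hββ : β = β' := by
        by_contra hne
        exact hpm (hother β m hm hne)
      subst hββ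
      have hmm : m = m' := by
        have h1 : (m : ℂ) = (m' : ℂ) := hm.symm.trans hm'
        exact_mod_cast h1
      subst hmm
      have e : (m : ℤ) ^ 2 - 1 = ((m : ℤ) - 1) * ((m : ℤ) + 1) := by ring
      rw [e] at hsq
      rcases (Nat.prime_iff_prime_int.mp hp).dvd_or_dvd hsq with h | h
      · left
        exact (Int.modEq_iff_dvd.mpr (by simpa using h)).symm
      · right
        apply Int.ModEq.symm
        rw [Int.modEq_iff_dvd]
        simpa using h
    · intro χ χ' hχ hχ' β m m' hm hpm hm' hpm'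
      exact eq_of_common hfix hp hS hpG χ χ' ((hinv χ).mp hχ) ((hinv χ').mp hχ') β m m' hm hpm hm' hpm'
    · intro β
      obtain ⟨χ, hχ, m, hm, hpm⟩ := exists_over_fixed hfix hp hS hpG β
      exact ⟨χ, (hinv χ).mpr hχ, m, hm, hpm⟩

end Cfsg.Agent.S4444
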