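import Cfsg.Statements.S4446
import Cfsg.Agent.Glaub.Cyclic
import Cfsg.Agent.Glaub.Count

set_option autoImplicit false
set_option linter.style.haveILetI false
open Cfsg

namespace Cfsg.Agent.S4446

open Cfsg.Agent Cfsg.Agent.Glaub Cfsg.Agent.Char Cfsg.Agent.CharBase

theorem normal_of {Γ : Type*} [Group Γ] (G S : Subgroup Γ)
    (hnorm : ∀ s ∈ S, ∀ g ∈ G, s * g * s⁻¹ ∈ G) (htop : G ⊔ S = ⊤) : G.Normal := by
  have h1 : G ⊔ S ≤ Subgroup.normalizer (G : Set Γ) := by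
    refine sup_le Subgroup.le_normalizer fun s hs => ?_
    rw [Subgroup.mem_normalizer_iff]
    intro g
    constructor
    · exact fun hg => hnorm s hs g hg
    · intro hg
      have := hnorm s⁻¹ (S.inv_mem hs) _ hg
      rw [inv_inv] at this
      have e : s⁻¹ * (s * g * s⁻¹) * s = g := by group
      rwa [e] at this
  rw [htop] at h1
  exact Subgroup.normalizer_eq_top_iff.mp (top_le_iff.mp h1)

/-- Let the finite group Γ be generated by a normal subgroup G and a cyclic subgroup S of coprime orders, C = G ⊓ C(S), and let χ be an S-invariant irreducible character of G with canonical extension χ̂ to Γ (the extension whose determinantal order is coprime to the order of S). Then there are exactly one irreducible character β of C and one sign ε such that χ̂(c s) = ε β(c) for every c ∈ C and every generator s of S; this β is a constituent of the restriction of χ to C; distinct S-invariant χ give distinct β; and every irreducible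 character of C arises in this way. -/
theorem result {Γ : Type*} [Group Γ] [Fintype Γ] (G S : Subgroup Γ) [Fintype G] (hnorm : ∀ s ∈ S, ∀ g ∈ G, s * g * s⁻¹ ∈ G) (hcop : (Nat.card G).Coprime (Nat.card S)) (htop : G ⊔ S = ⊤) (hcyc : IsCyclic S) (C : Subgroup Γ) [Fintype C] (hC : C = G ⊓ Subgroup.centralizer (S : Set Γ)) (hCG : C ≤ G) : (∀ (χ : Cfsg.IrrCharacter G) (χh : Cfsg.IrrCharacter Γ), (∀ s ∈ S, ∀ g g' : G, (g' : Γ) = s * g * s⁻¹ → (χ : G → ℂ) g' = (χ : G → ℂ) g) → (∀ g : G, (χh : Γ → ℂ) g = (χ : G → ℂ) g) → (Cfsg.detOrder (χh : Γ → ℂ)).Coprime (Nat.card S) → (∃! βε : Cfsg.IrrCharacter C × ℤ, (βε.2 = 1 ∨ βε.2 = -1) ∧ ∀ c : C, ∀ s : Γ, Subgroup.zpowers s = S → (χh : Γ → ℂ) ((c : Γ) * s) = (βε.2 : ℂ) * (βε.1 : C → ℂ) c) ∧ ∀ β : Cfsg.IrrCharacter C, ∀ ε : ℤ, (ε = 1 ∨ ε = -1) → (∀ c : C, ∀ s : Γ, Subgroup.zpowers s = S → (χh : Γ → ℂ) ((c : Γ) * s) = (ε : ℂ) * (β : C → ℂ) c) → Cfsg.classInner (fun c : C => (χ : G → ℂ)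 ⟨c, hCG c.2⟩) (β : C → ℂ) ≠ 0) ∧ (∀ (χ χ' : Cfsg.IrrCharacter G) (χh χh' : Cfsg.IrrCharacter Γ), (∀ s ∈ S, ∀ g g' : G, (g' : Γ) = s * g * s⁻¹ → (χ : G → ℂ) g' = (χ : G → ℂ) g) → (∀ s ∈ S, ∀ g g' : G, (g' : Γ) = s * g * s⁻¹ → (χ' : G → ℂ) g' = (χ' : G → ℂ) g) → (∀ g : G, (χh : Γ → ℂ) g = (χ : G → ℂ) g) → (∀ g : G, (χh' : Γ → ℂ) g = (χ' : G → ℂ) g) → (Cfsg.detOrder (χh : Γ → ℂ)).Coprime (Nat.card S) → (Cfsg.detOrder (χh' : Γ → ℂ)).Coprime (Nat.card S) → ∀ β : Cfsg.IrrCharacter C, ∀ ε ε' : ℤ, (ε = 1 ∨ ε = -1) → (ε' = 1 ∨ ε' = -1) → (∀ c : C, ∀ s : Γ, Subgroup.zpowers s = S → (χh : Γ → ℂ) ((c : Γ) * s) = (ε : ℂ) * (β : C → ℂ) c) → (∀ c : C, ∀ s : Γ, Subgroup.zpowers s = S → (χh' : Γ → ℂ) ((c : Γ) * s) = (ε' : ℂ) * (β : C → ℂ) c) → χ = χ') ∧ (∀ β : Cfsg.IrrCharacter C, ∃ (χ : Cfsg.IrrCharacter G) (χh : Cfsg.IrrCharacter Γ) (ε : ℤ), (∀ s ∈ S, ∀ g g' : G, (g' : Γ) = s * g * s⁻¹ → (χ : G → ℂ) g' = (χ : G → ℂ) g) ∧ (∀ g : G,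 (χh : Γ → ℂ) g = (χ : G → ℂ) g) ∧ (Cfsg.detOrder (χh : Γ → ℂ)).Coprime (Nat.card S) ∧ (ε = 1 ∨ ε = -1) ∧ ∀ c : C, ∀ s : Γ, Subgroup.zpowers s = S → (χh : Γ → ℂ) ((c : Γ) * s) = (ε : ℂ) * (β : C → ℂ) c) := by
  classical
  haveI hGn : G.Normal := normal_of G S hnorm htop
  haveI : Fintype S := Fintype.ofFinite _
  have hidx : G.index = Nat.card S := index_eq_of_complement G S htop hcop
  have hcop' : (Nat.card G).Coprime G.index := by rw [hidx]; exact hcop
  -- a generator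
  obtain ⟨s0, hs0⟩ := hcyc.exists_generator
  have hs0' : Subgroup.zpowers (s0 : Γ) = S := by
    apply le_antisymm
    · rw [Subgroup.zpowers_le]; exact s0.2
    · intro t ht
      obtain ⟨j, hj⟩ := Subgroup.mem_zpowers_iff.mp (hs0 ⟨t, ht⟩)
      exact Subgroup.mem_zpowers_iff.mpr ⟨j, congrArg Subtype.val hj⟩
  -- all generators are coprime powers of `s0`
  have hgen : ∀ s : Γ, Subgroup.zpowers s = S → ∃ j : ℕ, j.Coprime (Nat.card S) ∧
      s = (s0 : Γ) ^ j := by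
    intro s hs
    have h1 : s ∈ S := by rw [← hs]; exact Subgroup.mem_zpowers s
    have h2 : (⟨s, h1⟩ : S) ∈ Submonoid.powers s0 := by
      rw [mem_powers_iff_mem_zpowers]; exact hs0 _
    obtain ⟨j, hj⟩ := h2
    have hj' : s = (s0 : Γ) ^ j := (congrArg Subtype.val hj).symm
    refine ⟨j, ?_, hj'⟩
    have ho2 : orderOf (s0 : Γ) = Nat.card S := by rw [← Nat.card_zpowers, hs0']
    have ho : orderOf ((s0 : Γ) ^ j) = Nat.card S := by
      rw [← hj', ← Nat.card_zpowers, hs]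
    rw [orderOf_pow, ho2] at ho
    have hpos : 0 < Nat.card S := Nat.card_pos
    have hg : Nat.gcd (Nat.card S) j ∣ Nat.card S := Nat.gcd_dvd_left _ _
    have h3 : Nat.gcd (Nat.card S) j = 1 := by
      have h4 : Nat.gcd (Nat.card S) j * (Nat.card S / Nat.gcd (Nat.card S) j) = Nat.card S :=
        Nat.mul_div_cancel' hg
      rw [ho] at h4
      have : Nat.gcd (Nat.card S) j * Nat.card S = 1 * Nat.card S := by rw [one_mul]; exact h4
      exact Nat.eq_of_mul_eq_mul_right hpos this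
    exact (Nat.coprime_comm.mp h3)
  have hirrOf : ∀ (χ : IrrCharacter G) (χh : IrrCharacter Γ),
      (∀ g : G, (χh : Γ → ℂ) g = (χ : G → ℂ) g) → IsIrrCharacter G (fun g : G => (χh : Γ → ℂ) g) := by
    intro χ χh h
    have : (fun g : G => (χh : Γ → ℂ) g) = (χ : G → ℂ) := funext h
    rw [this]; exact χ.2
  -- the main construction
  have hmain : ∀ (χ : IrrCharacter G) (χh : IrrCharacter Γ),
      (∀ g : G, (χh : Γ → ℂ) g = (χ : G → ℂ) g) → (detOrder (χh : Γ → ℂ)).Coprime (Nat.card S) →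
      ∃ (β : IrrCharacter C) (ε : ℤ), (ε = 1 ∨ ε = -1) ∧
        ∀ c : C, ∀ s : Γ, Subgroup.zpowers s = S →
          (χh : Γ → ℂ) ((c : Γ) * s) = (ε : ℂ) * (β : C → ℂ) c := by
    intro χ χh hres hdet
    have hirr := hirrOf χ χh hres
    have hdet' : (detOrder (χh : Γ → ℂ)).Coprime G.index := by rw [hidx]; exact hdet
    obtain ⟨β, ε, hε, hβ⟩ := exists_beta G S C hcop' hidx hC hCG s0 hs0' χh hirr hdet'
    refine ⟨β, ε, hε, fun c s hs => ?_⟩
    obtain ⟨j, hj, rfl⟩ := hgen s hs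
    rw [pow_gen G S C hcop' hidx hC hCG χh hirr hdet' c s0 hj]
    exact hβ c
  have hinj : ∀ (χ χ' : IrrCharacter G) (χh χh' : IrrCharacter Γ),
      (∀ g : G, (χh : Γ → ℂ) g = (χ : G → ℂ) g) → (∀ g : G, (χh' : Γ → ℂ) g = (χ' : G → ℂ) g) →
      ∀ β : IrrCharacter C, ∀ ε ε' : ℤ, (ε = 1 ∨ ε = -1) → (ε' = 1 ∨ ε' = -1) →
      (∀ c : C, ∀ s : Γ, Subgroup.zpowers s = S →
        (χh : Γ → ℂ) ((c : Γ) * s) = (ε : ℂ) * (β : C → ℂ) c) →
      (∀ c : C, ∀ s : Γ, Subgroup.zpowers s = S →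
        (χh' : Γ → ℂ) ((c : Γ) * s) = (ε' : ℂ) * (β : C → ℂ) c) → χ = χ' := by
    intro χ χ' χh χh' hr hr' β ε ε' hε hε' h1 h2
    have h3 := beta_inj G S C hcop' hidx hC hCG s0 hs0' χh χh' (hirrOf χ χh hr) (hirrOf χ' χh' hr')
      β ε ε' (by rcases hε with h | h <;> rw [h] <;> norm_num)
      (by rcases hε' with h | h <;> rw [h] <;> norm_num)
      (fun c => h1 c s0 hs0') (fun c => h2 c s0 hs0')
    apply Subtype.ext
    funext g
    rw [← hr, ← hr']
    exact congrFun h3 g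
  refine ⟨fun χ χh hinv hres hdet => ⟨?_, ?_⟩, ?_, ?_⟩
  · obtain ⟨β, ε, hε, hβ⟩ := hmain χ χh hres hdet
    refine ⟨(β, ε), ⟨hε, hβ⟩, ?_⟩
    rintro ⟨β', ε'⟩ ⟨hε', hβ'⟩
    have h1 : ∀ c : C, (ε' : ℂ) * (β' : C → ℂ) c = (ε : ℂ) * (β : C → ℂ) c := fun c => by
      rw [← hβ c s0 hs0', ← hβ' c s0 hs0']
    obtain ⟨b, hb⟩ := exists_nat_degree (irr_isCharacter β)
    obtain ⟨b', hb'⟩ := exists_nat_degree (irr_isCharacter β')
    have hb0 : 0 < b := Nat.pos_of_ne_zero (by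
      rintro rfl; exact irr_one_ne_zero β.2 (by rw [hb]; norm_num))
    have hb'0 : 0 < b' := Nat.pos_of_ne_zero (by
      rintro rfl; exact irr_one_ne_zero β'.2 (by rw [hb']; norm_num))
    have h2 : ε' * (b' : ℤ) = ε * (b : ℤ) := by
      have := h1 1
      rw [hb, hb'] at this
      exact_mod_cast this
    have hεε : ε' = ε := by
      rcases hε with rfl | rfl <;> rcases hε' with rfl | rfl <;> first | rfl | (exfalso; omega)
    subst hεε
    have h3 : β' = β := by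
      apply Subtype.ext
      funext c
      have hne : (ε' : ℂ) ≠ 0 := by
        rcases hε with h | h <;> rw [h] <;> norm_num
      exact mul_left_cancel₀ hne (h1 c)
    rw [h3]
  · intro β ε hε hβ h0
    have hScomm : ∀ a b : S, a * b = b * a := by
      haveI := hcyc
      intro a b
      exact (IsCyclic.commGroup (α := S)).mul_comm a b
    have hγ := gam_isCharacter G S C hC hScomm χh β
    have h1 : gam S C (χh : Γ → ℂ) (β : C → ℂ) 1 = 0 := by
      rw [← h0]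
      unfold gam
      congr 1
      funext c
      rw [← hres]
      simp
    have h2 := eq_zero_of_degree_zero hγ h1
    have h3 := congrFun h2 s0
    have h4 : gam S C (χh : Γ → ℂ) (β : C → ℂ) s0 = ε := by
      unfold gam
      have : (fun c : C => (χh : Γ → ℂ) ((c : Γ) * s0)) = (ε : ℂ) • (β : C → ℂ) := by
        funext c
        exact hβ c s0 hs0'
      rw [this, classInner_smul_left, classInner_irr_self, mul_one]
    rw [h4] at h3
    have h3' : (ε : ℂ) = 0 := h3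
    have h5 : ε = 0 := by exact_mod_cast h3'
    rcases hε with h | h <;> omega
  · intro χ χ' χh χh' _ _ hr hr' _ _ β ε ε' hε hε' h1 h2
    exact hinj χ χ' χh χh' hr hr' β ε ε' hε hε' h1 h2
  · -- surjectivity by counting
    let I := {χ : IrrCharacter G // Inv (conjHom G S hnorm) (χ : G → ℂ)}
    have hex : ∀ χ : I, ∃ χh : IrrCharacter Γ, (∀ g : G, (χh : Γ → ℂ) g = (χ.1 : G → ℂ) g) ∧
        (detOrder (χh : Γ → ℂ)).Coprime (Nat.card S) := by
      intro χ
      have hinvS := (inv_conjHom_iff hnorm (χ.1 : G → ℂ)).mp χ.2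
      have hinv : ∀ (x : Γ) (n : G), (χ.1 : G → ℂ) ⟨x * n * x⁻¹, hGn.conj_mem (n : Γ) n.2 x⟩ =
          (χ.1 : G → ℂ) n := by
        have hall := (cj_invariant_iff G S htop (irr_isClassFunction χ.1)).mpr (fun s hs => by
          funext n
          exact hinvS s hs n _ rfl)
        intro x n
        exact congrFun (hall x) n
      obtain ⟨d, hd⟩ := exists_nat_degree (irr_isCharacter χ.1)
      have hdvd := H79.detOrder_dvd_card χ.1
      have hcop2 : Nat.Coprime G.index (detOrder (χ.1 : G → ℂ) * d) := by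
        apply Nat.Coprime.mul_right
        · exact (hcop'.coprime_dvd_left hdvd).symm
        · exact (hcop'.coprime_dvd_left (degree_dvd_card χ.1.2 hd)).symm
      obtain ⟨χ0, ⟨h1, h2, h3⟩, -⟩ := S0867.result G (χ.1 : G → ℂ) χ.1.2 hinv d hd hcop2
      refine ⟨⟨χ0, h1⟩, h2, ?_⟩
      rw [show detOrder ((⟨χ0, h1⟩ : IrrCharacter Γ) : Γ → ℂ) = detOrder (χ.1 : G → ℂ) from h3]
      exact hcop.coprime_dvd_left hdvd
    choose E hE1 hE2 using hex
    have hex2 := fun χ : I => hmain χ.1 (E χ) (hE1 χ) (hE2 χ)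
    choose Φ ε hε hΦ using hex2
    have hΦinj : Function.Injective Φ := by
      intro χ χ' h
      apply Subtype.ext
      refine hinj χ.1 χ'.1 (E χ) (E χ') (hE1 χ) (hE1 χ') (Φ χ) (ε χ) (ε χ') (hε χ) (hε χ') (hΦ χ) ?_
      rw [h]; exact hΦ χ'
    have hcard : Nat.card I = Nat.card (IrrCharacter C) := by
      haveI := hcyc
      have hsolv : Group.IsSolvable S := by
        letI : CommGroup S := IsCyclic.commGroup
        infer_instance
      have h1 := (coprime_action_counts (conjHom G S hnorm) hsolv hcop).2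
      have h2 : Nat.card (IrrCharacter (fixSub (conjHom G S hnorm))) = Nat.card (IrrCharacter C) :=
        Nat.card_congr (irrEquiv ((fixSubEquiv hnorm).trans (MulEquiv.subgroupCongr hC.symm)))
      exact h1.trans h2
    have hbij : Function.Bijective Φ :=
      (Nat.bijective_iff_injective_and_card Φ).mpr ⟨hΦinj, hcard⟩
    intro β
    obtain ⟨χ, rfl⟩ := hbij.2 β
    exact ⟨χ.1, E χ, ε χ, (inv_conjHom_iff hnorm (χ.1 : G → ℂ)).mp χ.2, hE1 χ, hE2 χ, hε χ, hΦ χ⟩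

end Cfsg.Agent.S4446
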