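import Cfsg.Statements.S4447
import Cfsg.Agent.Char.CliffordCorr
import Cfsg.Agent.Char.Clifford
import Cfsg.Agent.H91.Glauberman
import Cfsg.Agent.Cop.Basic

set_option autoImplicit false
open Cfsg

namespace Cfsg.Agent.S4447

set_option linter.style.haveILetI false
set_option linter.unusedSectionVars false

open Subgroup Cfsg.Agent.CharBase Cfsg.Agent.Char

/-- Transitivity of a product on cosets. -/
theorem pretransitive_cosets {Q : Type*} [Group Q] (K T : Subgroup Q) [hK : K.Normal] (h : K ⊔ T = ⊤) :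
    MulAction.IsPretransitive K (Q ⧸ T) := by
  refine ⟨fun x y => ?_⟩
  obtain ⟨a, rfl⟩ := QuotientGroup.mk_surjective x
  obtain ⟨b, rfl⟩ := QuotientGroup.mk_surjective y
  have h1 : a⁻¹ * b ∈ ((K ⊔ T : Subgroup Q) : Set Q) := by rw [h]; trivial
  rw [Subgroup.normal_mul K T] at h1
  obtain ⟨k, hk, t, ht, hkt⟩ := h1
  refine ⟨⟨a * k * a⁻¹, hK.conj_mem k hk a⟩, ?_⟩
  show ((a * k * a⁻¹ * a : Q) : Q ⧸ T) = (b : Q ⧸ T)
  rw [QuotientGroup.eq]
  have h2 : (a * k * a⁻¹ * a)⁻¹ * b = t := by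
    have h3 : b = a * (k * t) := by
      have : k * t = a⁻¹ * b := hkt
      rw [this]; group
    rw [h3]; group
  rw [h2]
  exact ht

/-- A relative form of Glauberman's lemma: `S` coprime to `|G : N|`, `T` with `G T ⊇ S`, `N ≤ T`. -/
theorem glaub_rel {Γ : Type*} [Group Γ] [Finite Γ] (G S N T : Subgroup Γ)
    (hSG : S ≤ normalizer (G : Set Γ)) (hNG : N ≤ G) [hNn : (N.subgroupOf G).Normal]
    (hSN : S ≤ normalizer (N : Set Γ)) (hcop : (N.relIndex G).Coprime (Nat.card S))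
    (hsolv : Group.IsSolvable S ∨ Group.IsSolvable (G ⧸ N.subgroupOf G))
    (hNT : N ≤ T) (hT : ∀ l ∈ G ⊔ S, ∃ g ∈ G, l * g⁻¹ ∈ T) :
    ∃ l ∈ G ⊔ S, ∀ s ∈ S, l⁻¹ * s * l ∈ T := by
  set L := G ⊔ S with hL
  have hGL : G ≤ L := le_sup_left
  have hSL : S ≤ L := le_sup_right
  have hNL : N ≤ L := hNG.trans hGL
  have hGN : G ≤ normalizer (N : Set Γ) := (Subgroup.normal_subgroupOf_iff_le_normalizer hNG).1 hNn
  have hLN : L ≤ normalizer (N : Set Γ) := sup_le hGN hSN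
  have hLG : L ≤ normalizer (G : Set Γ) := sup_le le_normalizer hSG
  haveI n1 : (N.subgroupOf L).Normal := Subgroup.normal_subgroupOf_of_le_normalizer hLN
  haveI n2 : (G.subgroupOf L).Normal := Subgroup.normal_subgroupOf_of_le_normalizer hLG
  let π : L →* L ⧸ N.subgroupOf L := QuotientGroup.mk' _
  have hπ : Function.Surjective π := QuotientGroup.mk'_surjective _
  have hker : π.ker = N.subgroupOf L := QuotientGroup.ker_mk' _
  set K := (G.subgroupOf L).map π with hK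
  set H := (S.subgroupOf L).map π with hH
  haveI n3 : K.Normal := n2.map π hπ
  have hcK : Nat.card K = N.relIndex G := by
    rw [hK, ← Subgroup.relIndex_ker, hker, Subgroup.relIndex_subgroupOf hGL]
  have hcH : Nat.card H ∣ Nat.card S := by
    rw [← Nat.card_congr (Subgroup.subgroupOfEquivOfLe hSL).toEquiv]
    exact Subgroup.card_map_dvd _ π
  have hcop' : (Nat.card K).Coprime (Nat.card H) := by
    rw [hcK]; exact hcop.coprime_dvd_right hcH
  have hsup : K ⊔ H = ⊤ := by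
    rw [hK, hH, ← Subgroup.map_sup, ← Subgroup.subgroupOf_sup hGL hSL, ← hL, Subgroup.subgroupOf_self,
      ← MonoidHom.range_eq_map, MonoidHom.range_eq_top.2 hπ]
  have hc : IsComplement' K H := by
    apply Subgroup.isComplement'_of_disjoint_and_mul_eq_univ
    · rw [disjoint_iff]
      exact Cop.inf_eq_bot_of_coprime hcop'
    · rw [← Subgroup.normal_mul K H, hsup]; rfl
  have hidx : K.index = Nat.card H := hc.symm.index_eq_card
  have hs : Group.IsSolvable K ∨ Group.IsSolvable ((L ⧸ N.subgroupOf L) ⧸ K) := by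
    rcases hsolv with h | h
    · right
      have e2 := (hc.symm).QuotientMulEquiv
      let f1 : S →* H :=
        { toFun := fun s => ⟨π ⟨s, hSL s.2⟩, ⟨⟨s, hSL s.2⟩, s.2, rfl⟩⟩
          map_one' := rfl
          map_mul' := fun _ _ => rfl }
      have hf1 : Function.Surjective f1 := by
        rintro ⟨_, ⟨x, hx⟩, hx', rfl⟩
        exact ⟨⟨x, hx'⟩, rfl⟩
      have h2 : Group.IsSolvable H := Group.isSolvable_of_surjective (f := f1) hf1
      exact Group.isSolvable_of_surjective (f := e2.symm.toMonoidHom) e2.symm.surjective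
    · left
      let f1 : G →* K :=
        { toFun := fun s => ⟨π ⟨s, hGL s.2⟩, ⟨⟨s, hGL s.2⟩, s.2, rfl⟩⟩
          map_one' := rfl
          map_mul' := fun _ _ => rfl }
      have hf1 : Function.Surjective f1 := by
        rintro ⟨_, ⟨x, hx⟩, hx', rfl⟩
        exact ⟨⟨x, hx'⟩, rfl⟩
      let f2 : G ⧸ N.subgroupOf G →* K := QuotientGroup.lift (N.subgroupOf G) f1 (by
        intro x hx
        apply Subtype.ext
        show π ⟨x, _⟩ = 1
        rw [← MonoidHom.mem_ker, hker]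
        exact hx)
      have hf2 : Function.Surjective f2 := by
        intro k
        obtain ⟨x, hx⟩ := hf1 k
        exact ⟨QuotientGroup.mk x, hx⟩
      exact Group.isSolvable_of_surjective (f := f2) hf2
  set T' := (T.subgroupOf L).map π with hT'
  have hKT : K ⊔ T' = ⊤ := by
    rw [eq_top_iff]
    intro x _
    obtain ⟨l, rfl⟩ := hπ x
    obtain ⟨g, hg, hg'⟩ := hT l l.2
    have h1 : l = (⟨(l : Γ) * g⁻¹, L.mul_mem l.2 (L.inv_mem (hGL hg))⟩ : L) * ⟨g, hGL hg⟩ := by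
      apply Subtype.ext
      simp
    rw [h1, map_mul]
    exact mul_mem (Subgroup.mem_sup_right (Subgroup.mem_map_of_mem _ hg'))
      (Subgroup.mem_sup_left (Subgroup.mem_map_of_mem _ hg))
  haveI htr := pretransitive_cosets K T' hKT
  obtain ⟨x, hx⟩ := H91.glauberman_exists (X := (L ⧸ N.subgroupOf L) ⧸ T') K H hc (by rw [hidx]; exact hcop') hs htr
  obtain ⟨a, rfl⟩ := QuotientGroup.mk_surjective x
  obtain ⟨l, rfl⟩ := hπ a
  refine ⟨l, l.2, fun s hs => ?_⟩
  have h1 := hx (π ⟨s⁻¹, L.inv_mem (hSL hs)⟩) ⟨_, S.inv_mem hs, rfl⟩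
  have h2 : ((π ⟨s⁻¹, L.inv_mem (hSL hs)⟩ * π l : L ⧸ N.subgroupOf L) : (L ⧸ N.subgroupOf L) ⧸ T') = (π l : (L ⧸ N.subgroupOf L) ⧸ T') := h1
  rw [QuotientGroup.eq, ← map_mul, ← map_inv, ← map_mul] at h2
  obtain ⟨t, ht, ht'⟩ := h2
  have h3 : t⁻¹ * ((⟨s⁻¹, L.inv_mem (hSL hs)⟩ * l)⁻¹ * l) ∈ N.subgroupOf L := by
    rw [← hker, MonoidHom.mem_ker, map_mul, map_inv, ht', inv_mul_cancel]
  have h4 := hNT h3
  have h4' : (t : Γ)⁻¹ * ((s⁻¹ * (l : Γ))⁻¹ * (l : Γ)) ∈ T := h4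
  have h5 : (l : Γ)⁻¹ * s * l = (t : Γ) * ((t : Γ)⁻¹ * ((s⁻¹ * (l : Γ))⁻¹ * l)) := by group
  rw [h5]
  exact T.mul_mem ht h4'

/-- Inside a finite group Γ let S normalise G and also normalise a normal subgroup N of G, with the order of S coprime to the index of N in G and S or G/N solvable. Then for every S-invariant irreducible character χ of G, the restriction of χ to N has an S-invariant irreducible constituent. -/
theorem result {Γ : Type*} [Group Γ] [Fintype Γ] (G S N : Subgroup Γ) [Fintype G] [Fintype N] (hnorm : ∀ s ∈ S, ∀ g ∈ G, s * g * s⁻¹ ∈ G) (hNG : N ≤ G) [hNn : (N.subgroupOf G).Normal] (hNS : ∀ s ∈ S, ∀ n ∈ N, s * n * s⁻¹ ∈ N) (hcop : (N.relIndex G).Coprime (Nat.card S)) (hsolv : Group.IsSolvable S ∨ Group.IsSolvable (G ⧸ N.subgroupOf G)) (χ : Cfsg.IrrCharacter G) (hinv : (∀ s ∈ S, ∀ g g' : G, (g' : Γ) = s * g * s⁻¹ → (χ : G → ℂ) g' = (χ : G → ℂ) g)) : ∃ θ : Cfsg.IrrCharacter N, Cfsg.classInner (fun n : N =>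 (χ : G → ℂ) ⟨n, hNG n.2⟩) (θ : N → ℂ) ≠ 0 ∧ (∀ s ∈ S, ∀ g g' : N, (g' : Γ) = s * g * s⁻¹ → (θ : N → ℂ) g' = (θ : N → ℂ) g) := by

  classical
  have hSG : S ≤ normalizer (G : Set Γ) := by
    intro s hs
    rw [mem_normalizer_iff]
    intro g
    refine ⟨hnorm s hs g, fun hg => ?_⟩
    have := hnorm s⁻¹ (S.inv_mem hs) _ hg
    convert this using 1
    group
  have hSN : S ≤ normalizer (N : Set Γ) := by
    intro s hs
    rw [mem_normalizer_iff]
    intro g
    refine ⟨hNS s hs g, fun hg => ?_⟩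
    have := hNS s⁻¹ (S.inv_mem hs) _ hg
    convert this using 1
    group
  have hGN : G ≤ normalizer (N : Set Γ) := (Subgroup.normal_subgroupOf_iff_le_normalizer hNG).1 hNn
  have hLN : G ⊔ S ≤ normalizer (N : Set Γ) := sup_le hGN hSN
  have hLG : G ⊔ S ≤ normalizer (G : Set Γ) := sup_le le_normalizer hSG
  -- `χ` is invariant under `L`
  have hχL : ∀ l ∈ G ⊔ S, ∀ g g' : G, (g' : Γ) = l * g * l⁻¹ → (χ : G → ℂ) g' = (χ : G → ℂ) g := by
    intro l hl g g' hg
    have hl' : l ∈ ((G ⊔ S : Subgroup Γ) : Set Γ) := hl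
    rw [Subgroup.coe_mul_of_right_le_normalizer_left _ _ hSG] at hl'
    obtain ⟨a, ha, s, hs, rfl⟩ := hl'
    have h1 := hinv s hs g ⟨s * g * s⁻¹, hnorm s hs g g.2⟩ rfl
    rw [← h1]
    have h2 := isClassFunction_of_isCharacter (isCharacter_of_isIrr χ.2) ⟨s * g * s⁻¹, hnorm s hs g g.2⟩ ⟨a, ha⟩
    rw [← h2]
    refine congrArg (χ : G → ℂ) (Subtype.ext ?_)
    rw [hg]
    show a * s * g * (a * s)⁻¹ = a * (s * g * s⁻¹) * a⁻¹
    group
  obtain ⟨θ, hθ, hθχ⟩ : ∃ θ : N → ℂ, IsIrrCharacter N θ ∧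
      classInner (fun n : N => (χ : G → ℂ) ⟨n, hNG n.2⟩) θ ≠ 0 := by
    have hres : IsCharacter N (fun n : N => (χ : G → ℂ) ⟨n, hNG n.2⟩) :=
      isCharacter_comp (isCharacter_of_isIrr χ.2) (Subgroup.inclusion hNG)
    apply exists_constituent hres
    intro h
    have h1 := congrFun h 1
    exact irr_one_ne_zero χ.2 h1
  -- twisting by elements of the normalizer
  let cN : ∀ l : Γ, l ∈ normalizer (N : Set Γ) → (N ≃* N) := fun l hl =>
    { toFun := fun n => ⟨l * n * l⁻¹, (mem_normalizer_iff.1 hl n).1 n.2⟩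
      invFun := fun n => ⟨l⁻¹ * n * l, by
        have := (mem_normalizer_iff.1 ((normalizer (N : Set Γ)).inv_mem hl) n).1 n.2
        simpa using this⟩
      left_inv := fun n => by apply Subtype.ext; simp [mul_assoc]
      right_inv := fun n => by apply Subtype.ext; simp [mul_assoc]
      map_mul' := fun a b => by apply Subtype.ext; simp [mul_assoc] }
  have hcirr : ∀ (l : Γ) (hl : l ∈ normalizer (N : Set Γ)), IsIrrCharacter N (fun n => θ (cN l hl n)) := by
    intro l hl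
    exact isIrrCharacter_comp_surjective hθ (cN l hl).toMonoidHom (cN l hl).surjective
  have hcin : ∀ (l : Γ) (hl : l ∈ G ⊔ S),
      classInner (fun n : N => (χ : G → ℂ) ⟨n, hNG n.2⟩) (fun n => θ (cN l (hLN hl) n)) ≠ 0 := by
    intro l hl
    have h1 : (fun n : N => (χ : G → ℂ) ⟨n, hNG n.2⟩) =
        fun n : N => (fun n : N => (χ : G → ℂ) ⟨n, hNG n.2⟩) (cN l (hLN hl) n) := by
      funext n
      exact (hχL l hl ⟨n, hNG n.2⟩ _ rfl).symm
    rw [h1]
    have h2 := Cfsg.Agent.Char.CC.classInner_comp_equiv (cN l (hLN hl)) (fun n : N => (χ : G → ℂ) ⟨n, hNG n.2⟩) θ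
    exact fun h3 => hθχ (h2.symm.trans h3)
  -- the inertia group
  let T : Subgroup Γ :=
    { carrier := {l | l ∈ normalizer (N : Set Γ) ∧ ∀ n n' : N, (n' : Γ) = l * n * l⁻¹ → θ n' = θ n}
      one_mem' := ⟨one_mem _, fun n n' h => by
        congr 1; apply Subtype.ext; rw [h]; simp⟩
      mul_mem' := by
        rintro a b ⟨ha, ha'⟩ ⟨hb, hb'⟩
        refine ⟨mul_mem ha hb, fun n n' h => ?_⟩
        rw [← hb' n (cN b hb n) rfl]
        refine ha' _ _ ?_
        rw [h]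
        show a * b * n * (a * b)⁻¹ = a * (b * n * b⁻¹) * a⁻¹
        group
      inv_mem' := by
        rintro a ⟨ha, ha'⟩
        refine ⟨inv_mem ha, fun n n' h => ?_⟩
        refine (ha' n' n ?_).symm
        rw [h]; group }
  have hNT : N ≤ T := by
    intro n hn
    refine ⟨le_normalizer hn, fun x y h => ?_⟩
    rw [← isClassFunction_of_isCharacter (isCharacter_of_isIrr hθ) x ⟨n, hn⟩]
    congr 1
    apply Subtype.ext
    rw [h]; rfl
  have hT : ∀ l ∈ G ⊔ S, ∃ g ∈ G, l * g⁻¹ ∈ T := by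
    intro l hl
    letI : Fintype (N.subgroupOf G) := Fintype.ofFinite _
    let e : N.subgroupOf G ≃* N := Subgroup.subgroupOfEquivOfLe hNG
    have i1 : IsIrrCharacter (N.subgroupOf G) (fun m => θ (e m)) :=
      isIrrCharacter_comp_surjective hθ e.toMonoidHom e.surjective
    have i2 : IsIrrCharacter (N.subgroupOf G) (fun m => θ (cN l (hLN hl) (e m))) :=
      isIrrCharacter_comp_surjective (hcirr l (hLN hl)) e.toMonoidHom e.surjective
    have j1 : classInner (fun m : N.subgroupOf G => (χ : G → ℂ) m) (fun m => θ (e m)) ≠ 0 := by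
      have := Cfsg.Agent.Char.CC.classInner_comp_equiv e (fun n : N => (χ : G → ℂ) ⟨n, hNG n.2⟩) θ
      rw [← this] at hθχ
      exact hθχ
    have j2 : classInner (fun m : N.subgroupOf G => (χ : G → ℂ) m) (fun m => θ (cN l (hLN hl) (e m))) ≠ 0 := by
      have h1 := hcin l hl
      have := Cfsg.Agent.Char.CC.classInner_comp_equiv e (fun n : N => (χ : G → ℂ) ⟨n, hNG n.2⟩) (fun n => θ (cN l (hLN hl) n))
      rw [← this] at h1
      exact h1
    obtain ⟨g, hg⟩ := exists_conj_of_constituents (N.subgroupOf G) χ.2 i1 i2 j1 j2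
    refine ⟨g, g.2, mul_mem (hLN hl) (inv_mem (hGN g.2)), fun n n' h => ?_⟩
    have hmem : (g : Γ)⁻¹ * n * g ∈ N := by
      have := (mem_normalizer_iff.1 ((normalizer (N : Set Γ)).inv_mem (hGN g.2)) n).1 n.2
      simpa using this
    have h2 := congrFun hg ⟨⟨(g : Γ)⁻¹ * n * g, hNG hmem⟩, hmem⟩
    rw [cj_apply] at h2
    have h3 : e ⟨g * ⟨(g : Γ)⁻¹ * n * g, hNG hmem⟩ * g⁻¹, hNn.conj_mem _ hmem g⟩ = n := by
      apply Subtype.ext
      show (g : Γ) * ((g : Γ)⁻¹ * n * g) * (g : Γ)⁻¹ = n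
      group
    have h4 : cN l (hLN hl) (e ⟨⟨(g : Γ)⁻¹ * n * g, hNG hmem⟩, hmem⟩) = n' := by
      apply Subtype.ext
      show l * ((g : Γ)⁻¹ * n * g) * l⁻¹ = n'
      rw [h]; group
    rw [h4] at h2
    rw [← h2]
    exact congrArg θ h3
  obtain ⟨l, hl, hlS⟩ := glaub_rel G S N T hSG hNG hSN hcop hsolv hNT hT
  have hl' : l⁻¹ ∈ G ⊔ S := inv_mem hl
  refine ⟨⟨fun n => θ (cN l⁻¹ (hLN hl') n), hcirr _ (hLN hl')⟩, hcin _ hl', ?_⟩
  intro s hs n n' h
  refine (hlS s hs).2 _ _ ?_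
  show l⁻¹ * n' * l⁻¹⁻¹ = l⁻¹ * s * l * (l⁻¹ * n * l⁻¹⁻¹) * (l⁻¹ * s * l)⁻¹
  rw [h]
  group

end Cfsg.Agent.S4447
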