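import Cfsg.Statements.S4448
import Cfsg.Agent.Glaub.Count
import Cfsg.Agent.H25.Clif

set_option autoImplicit false
open Cfsg

namespace Cfsg.Agent.S4448

universe u

universe v

open scoped ComplexConjugate BigOperators
open Cfsg.Agent.CharBase Cfsg.Agent.Char

/-- The abelian step. -/
theorem abel_step {G : Type u} [Group G] [Fintype G] {S : Type v} [Group S] [Finite S]
    (φ : S →* MulAut G) (N : Subgroup G) [N.Normal] [Fintype N]
    (hN : ∀ s, ∀ n ∈ N, φ s n ∈ N) (hab : ∀ x y : G, x * y * x⁻¹ * y⁻¹ ∈ N)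
    (hcop : N.index.Coprime (Nat.card S)) {θ : N → ℂ} (hθ : IsIrrCharacter N θ)
    (hinv : ∀ s (n m : N), (m : G) = φ s n → θ m = θ n) :
    ∃ χ : G → ℂ, IsIrrCharacter G χ ∧ classInner (fun n : N => χ n) θ ≠ 0 ∧
      ∀ s g, χ (φ s g) = χ g := by
  classical
  haveI := Fintype.ofFinite S
  obtain ⟨ω, hω, hne⟩ := exists_over N hθ
  have hωc := isCharacter_of_isIrr hω
  have hθc := isCharacter_of_isIrr hθ
  -- the translates
  have h1 : ∀ s : S, IsIrrCharacter G (fun g => ω (φ s g)) := fun s =>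
    isIrrCharacter_comp_surjective hω (φ s).toMonoidHom (φ s).surjective
  have hN' : ∀ s : S, ∀ n : G, φ s n ∈ N → n ∈ N := by
    intro s n hn
    have h2 := hN s⁻¹ _ hn
    rwa [map_inv, MulAut.inv_apply_self] at h2
  have h2 : ∀ s : S, classInner (fun n : N => ω (φ s n)) θ ≠ 0 := by
    intro s
    let e : N ≃* N :=
      { toFun := fun n => ⟨φ s n, hN s n n.2⟩
        invFun := fun n => ⟨φ s⁻¹ n, hN s⁻¹ n n.2⟩
        left_inv := fun n => Subtype.ext (by
          show φ s⁻¹ (φ s n) = n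
          rw [map_inv, MulAut.inv_apply_self])
        right_inv := fun n => Subtype.ext (by
          show φ s (φ s⁻¹ n) = n
          rw [map_inv, MulAut.apply_inv_self])
        map_mul' := fun n m => Subtype.ext (by
          show φ s ((n : G) * m) = φ s n * φ s m
          rw [map_mul]) }
    have h3 := CC.classInner_comp_equiv e (fun n : N => ω n) θ
    have h4 : (fun n : N => θ (e n)) = θ := funext fun n => hinv s n (e n) rfl
    rw [h4] at h3
    have h5 : (fun n : N => (fun n : N => ω n) (e n)) = fun n : N => ω (φ s n) := rfl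
    rw [h5] at h3
    rw [h3]; exact hne
  have h3 : ∀ s : S, ∃ lam : G → ℂ, IsCharacter G lam ∧ lam 1 = 1 ∧ (∀ n : N, lam n = 1) ∧
      (fun g => ω (φ s g)) = lam * ω := by
    intro s
    refine H25.exists_linear_mul N (h1 s) hω hab ?_
    exact classInner_ne_zero_of_common (isCharacter_restrict (isCharacter_of_isIrr (h1 s)) N)
      (isCharacter_restrict hωc N) hθ (h2 s) hne
  choose f hf1 hf2 hf3 hf4 using h3
  let F : S → (G →* ℂ) := fun s => linHom (hf1 s) (hf2 s)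
  have hF : ∀ s g, F s g = f s g := fun s g => rfl
  have hFN : ∀ s, ∀ n ∈ N, F s n = 1 := fun s n hn => hf3 s ⟨n, hn⟩
  have hFω : ∀ s g, ω (φ s g) = F s g * ω g := fun s g => congrFun (hf4 s) g
  -- cocycle identity
  have hcoc : ∀ s t g, ω g ≠ 0 → F (s * t) g = F s (φ t g) * F t g := by
    intro s t g hg
    have h5 := hFω (s * t) g
    rw [map_mul, MulAut.mul_apply, hFω s, hFω t, ← mul_assoc] at h5
    exact (mul_right_cancel₀ hg h5).symm
  let μ : G →* ℂ := ∏ s, F s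
  have hμ : ∀ g, μ g = ∏ s, F s g := fun g => MonoidHom.finsetProd_apply _ _ _
  have hμ1 : ∀ t g, ω g ≠ 0 → μ g = μ (φ t g) * F t g ^ Nat.card S := by
    intro t g hg
    calc μ g = ∏ s, F s g := hμ g
      _ = ∏ s, F (s * t) g := (Fintype.prod_equiv (Equiv.mulRight t) _ _ (fun s => rfl)).symm
      _ = ∏ s, (F s (φ t g) * F t g) := Finset.prod_congr rfl fun s _ => hcoc s t g hg
      _ = μ (φ t g) * F t g ^ Nat.card S := by
        rw [Finset.prod_mul_distrib, hμ, Finset.prod_const, Finset.card_univ, Nat.card_eq_fintype_card]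
  -- the exponent
  set d := N.index with hd
  have hd0 : 0 < d := Nat.pos_of_ne_zero Subgroup.index_ne_zero_of_finite
  have htot : 0 < d.totient := Nat.totient_pos.mpr hd0
  set m := Nat.card S ^ (d.totient - 1) with hm
  have hm1 : Nat.card S * m = Nat.card S ^ d.totient := by
    rw [hm, ← pow_succ', Nat.sub_add_cancel htot]
  have hmod : Nat.card S * m ≡ 1 [MOD d] := by
    rw [hm1]; exact Nat.ModEq.pow_totient hcop.symm
  have hpow : ∀ t g, F t g ^ (Nat.card S * m) = F t g := by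
    intro t g
    have h6 : F t g ^ d = 1 := by
      rw [← map_pow]
      exact hFN t _ (Subgroup.pow_index_mem N g)
    have h7 := pow_eq_pow_of_modEq (x := F t g) hmod h6
    rw [h7, pow_one]
  let ν : G →* ℂ := μ ^ m
  have hν : ∀ t g, ω g ≠ 0 → ν g = ν (φ t g) * F t g := by
    intro t g hg
    show μ g ^ m = μ (φ t g) ^ m * F t g
    rw [hμ1 t g hg, mul_pow, ← pow_mul, hpow]
  have hνN : ∀ n ∈ N, ν n = 1 := by
    intro n hn
    show μ n ^ m = 1
    rw [hμ, Finset.prod_eq_one (fun s _ => hFN s n hn), one_pow]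
  refine ⟨(ν : G → ℂ) * ω, Glaub.isIrr_mul_linear hω (isCharacter_of_hom ν) (map_one ν), ?_, ?_⟩
  · have h8 : (fun n : N => ((ν : G → ℂ) * ω) n) = fun n : N => ω n := by
      funext n
      rw [Pi.mul_apply, hνN n n.2, one_mul]
    rw [h8]; exact hne
  · intro t g
    rw [Pi.mul_apply, Pi.mul_apply, hFω]
    by_cases hg : ω g = 0
    · rw [hg, mul_zero, mul_zero, mul_zero]
    · rw [hν t g hg]; ring

/-- The abelian step inside an ambient group. -/
theorem abel_in {Γ : Type u} [Group Γ] [Fintype Γ] (K S L : Subgroup Γ) [Fintype K] [Fintype L]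
    (hLK : L ≤ K) (hK : ∀ s ∈ S, ∀ g ∈ K, s * g * s⁻¹ ∈ K)
    (hL : ∀ s ∈ S, ∀ g ∈ L, s * g * s⁻¹ ∈ L)
    [hn : (L.subgroupOf K).Normal] (hab : ∀ x ∈ K, ∀ y ∈ K, x * y * x⁻¹ * y⁻¹ ∈ L)
    (hcop : (L.relIndex K).Coprime (Nat.card S)) {θ : L → ℂ} (hθ : IsIrrCharacter L θ)
    (hinv : ∀ s ∈ S, ∀ g g' : L, (g' : Γ) = s * g * s⁻¹ → θ g' = θ g) :
    ∃ χ : K → ℂ, IsIrrCharacter K χ ∧ classInner (fun n : L => χ ⟨n, hLK n.2⟩) θ ≠ 0 ∧
      ∀ s ∈ S, ∀ g g' : K, (g' : Γ) = s * g * s⁻¹ → χ g' = χ g := by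
  classical
  let e : L.subgroupOf K ≃* L := Subgroup.subgroupOfEquivOfLe hLK
  haveI : Fintype (L.subgroupOf K) := Fintype.ofFinite _
  have hθ' : IsIrrCharacter (L.subgroupOf K) (fun n => θ (e n)) :=
    isIrrCharacter_comp_surjective hθ e.toMonoidHom e.surjective
  obtain ⟨χ, h1, h2, h3⟩ := abel_step (Glaub.conjHom K S hK) (L.subgroupOf K)
    (fun s n hn => by
      rw [Subgroup.mem_subgroupOf] at hn ⊢
      exact hL s s.2 _ hn)
    (fun x y => by
      rw [Subgroup.mem_subgroupOf]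
      exact hab x x.2 y y.2) hcop hθ' (fun s n m hnm => by
      refine hinv s s.2 (e n) (e m) ?_
      have := congrArg (fun k : K => (k : Γ)) hnm
      exact this)
  refine ⟨χ, h1, ?_, ?_⟩
  · have h4 := CC.classInner_comp_equiv e (fun n : L => χ ⟨n, hLK n.2⟩) θ
    rw [← h4]
    exact h2
  · intro s hs g g' hgg
    have : g' = Glaub.conjHom K S hK ⟨s, hs⟩ g := Subtype.ext hgg
    rw [this]; exact h3 _ _

/-- The property propagated along the chain. -/
def Good {Γ : Type u} [Group Γ] [Finite Γ] (S N : Subgroup Γ) [Fintype N] (θ : N → ℂ)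
    (K : Subgroup Γ) : Prop :=
  ∃ h : N ≤ K, ∃ χ : K → ℂ, IsIrrCharacter K χ ∧
    classInner (fun n : N => χ ⟨n, h n.2⟩) θ ≠ 0 ∧
      ∀ s ∈ S, ∀ g g' : K, (g' : Γ) = s * g * s⁻¹ → χ g' = χ g

theorem good_step {Γ : Type u} [Group Γ] [Fintype Γ] (S N : Subgroup Γ) [Fintype N] {θ : N → ℂ}
    (hθ : IsIrrCharacter N θ) (K L : Subgroup Γ) (hLK : L ≤ K)
    (hK : ∀ s ∈ S, ∀ g ∈ K, s * g * s⁻¹ ∈ K)
    (hL : ∀ s ∈ S, ∀ g ∈ L, s * g * s⁻¹ ∈ L)
    (hab : ∀ x ∈ K, ∀ y ∈ K, x * y * x⁻¹ * y⁻¹ ∈ L)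
    (hcop : (L.relIndex K).Coprime (Nat.card S)) (hg : Good S N θ L) : Good S N θ K := by
  classical
  haveI := Fintype.ofFinite K
  haveI := Fintype.ofFinite L
  obtain ⟨hNL, η, hη, hne, hinv⟩ := hg
  haveI hn : (L.subgroupOf K).Normal := ⟨fun n hn g => by
    rw [Subgroup.mem_subgroupOf] at hn ⊢
    have h1 := hab g g.2 n n.2
    have h2 := L.mul_mem h1 hn
    simpa using h2⟩
  obtain ⟨χ, h1, h2, h3⟩ := abel_in K S L hLK hK hL hab hcop hη hinv
  refine ⟨hNL.trans hLK, χ, h1, ?_, h3⟩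
  have hχL : IsCharacter L (fun n : L => χ ⟨n, hLK n.2⟩) :=
    isCharacter_comp (isCharacter_of_isIrr h1) (Subgroup.inclusion hLK)
  have hsub := CC.isCharacter_sub_of_constituent hχL hη h2
  have hsubN : IsCharacter N (fun n : N =>
      ((fun n : L => χ ⟨n, hLK n.2⟩) - η) ⟨n, hNL n.2⟩) :=
    isCharacter_comp hsub (Subgroup.inclusion hNL)
  have hηN : IsCharacter N (fun n : N => η ⟨n, hNL n.2⟩) :=
    isCharacter_comp (isCharacter_of_isIrr hη) (Subgroup.inclusion hNL)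
  obtain ⟨a, ha⟩ := classInner_natCast hsubN (isCharacter_of_isIrr hθ)
  obtain ⟨b, hb⟩ := classInner_natCast hηN (isCharacter_of_isIrr hθ)
  have h4 : (fun n : N => χ ⟨n, hLK (hNL n.2)⟩) = (fun n : N =>
      ((fun n : L => χ ⟨n, hLK n.2⟩) - η) ⟨n, hNL n.2⟩) + fun n : N => η ⟨n, hNL n.2⟩ := by
    funext n
    simp
  rw [h4, classInner_add_left, ha, hb]
  have hb0 : b ≠ 0 := by
    rintro rfl
    apply hne
    rw [hb]; simp
  have : a + b ≠ 0 := by omega
  exact_mod_cast this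

/-- Inside a finite group Γ let S normalise G and also normalise a normal subgroup N of G, with the order of S coprime to the index of N in G and G/N solvable. Then for every S-invariant irreducible character ϑ of N, the induced character ϑ^G has an S-invariant irreducible constituent. -/
theorem result {Γ : Type*} [Group Γ] [Fintype Γ] (G S N : Subgroup Γ) [Fintype G] [Fintype N] (hnorm : ∀ s ∈ S, ∀ g ∈ G, s * g * s⁻¹ ∈ G) (hNG : N ≤ G) [hNn : (N.subgroupOf G).Normal] (hNS : ∀ s ∈ S, ∀ n ∈ N, s * n * s⁻¹ ∈ N) (hcop : (N.relIndex G).Coprime (Nat.card S)) (hsolv : Group.IsSolvable (G ⧸ N.subgroupOf G)) (θ : Cfsg.IrrCharacter N) (hinv : (∀ s ∈ S, ∀ g g' : N, (g' : Γ) = s * g * s⁻¹ → (θ : N → ℂ) g' = (θ : N → ℂ) g)) : ∃ χ : Cfsg.IrrCharacter G, Cfsg.classInner (fun n : N => (χ : G → ℂ) ⟨n, hNG n.2⟩) (θ : N → ℂ) ≠ 0 ∧ (∀ s ∈ S, ∀ g g' : G, (g' : Γ) = s * g * s⁻¹ → (χ : G → ℂ) g' = (χ : G → ℂ) g) := by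
  classical
  set N' := N.subgroupOf G with hN'
  let D : ℕ → Subgroup (G ⧸ N') := fun i => derivedSeries (G ⧸ N') i
  let K : ℕ → Subgroup Γ := fun i => ((D i).comap (QuotientGroup.mk' N')).map G.subtype
  have hmem : ∀ i x, x ∈ K i ↔ ∃ hx : x ∈ G, (QuotientGroup.mk (⟨x, hx⟩ : G) : G ⧸ N') ∈ D i := by
    intro i x
    constructor
    · rintro ⟨g, hg, rfl⟩
      exact ⟨g.2, hg⟩
    · rintro ⟨hx, h⟩
      exact ⟨⟨x, hx⟩, h, rfl⟩
  have hKG : ∀ i, K i ≤ G := fun i x hx => ((hmem i x).mp hx).1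
  have hNK : ∀ i, N ≤ K i := by
    intro i x hx
    refine (hmem i x).mpr ⟨hNG hx, ?_⟩
    have : (QuotientGroup.mk (⟨x, hNG hx⟩ : G) : G ⧸ N') = 1 :=
      (QuotientGroup.eq_one_iff _).mpr (by rw [hN', Subgroup.mem_subgroupOf]; exact hx)
    rw [this]; exact (D i).one_mem
  have hanti : ∀ i, K (i + 1) ≤ K i := by
    intro i x hx
    obtain ⟨h1, h2⟩ := (hmem _ x).mp hx
    exact (hmem _ x).mpr ⟨h1, derivedSeries_antitone _ (Nat.le_succ i) h2⟩
  have hKS : ∀ i, ∀ s ∈ S, ∀ g ∈ K i, s * g * s⁻¹ ∈ K i := by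
    intro i s hs g hg
    obtain ⟨h1, h2⟩ := (hmem _ g).mp hg
    refine (hmem _ _).mpr ⟨hnorm s hs g h1, ?_⟩
    let σ : G ≃* G := Glaub.conjHom G S hnorm ⟨s, hs⟩
    have hσ : N'.map (σ : G →* G) = N' := by
      apply le_antisymm
      · rintro - ⟨n, hn, rfl⟩
        rw [hN', Subgroup.mem_subgroupOf]
        exact hNS s hs n (by simpa [hN', Subgroup.mem_subgroupOf] using hn)
      · intro n hn
        refine ⟨σ.symm n, ?_, σ.apply_symm_apply n⟩
        show σ.symm n ∈ N'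
        rw [hN', Subgroup.mem_subgroupOf] at hn ⊢
        have h3 := hNS s⁻¹ (S.inv_mem hs) n hn
        rw [inv_inv] at h3
        exact h3
    let τ := QuotientGroup.congr N' N' σ hσ
    have h3 : (D i).comap (τ : (G ⧸ N') →* G ⧸ N') = D i :=
      Subgroup.characteristic_iff_comap_eq.mp (inferInstance : (derivedSeries (G ⧸ N') i).Characteristic) τ
    rw [← h3] at h2
    exact h2
  have hab : ∀ i, ∀ x ∈ K i, ∀ y ∈ K i, x * y * x⁻¹ * y⁻¹ ∈ K (i + 1) := by
    intro i x hx y hy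
    obtain ⟨h1, h2⟩ := (hmem _ x).mp hx
    obtain ⟨h3, h4⟩ := (hmem _ y).mp hy
    refine (hmem _ _).mpr ⟨hKG i (mul_mem (mul_mem (mul_mem hx hy) (inv_mem hx)) (inv_mem hy)), ?_⟩
    have h5 := Subgroup.commutator_mem_commutator h2 h4
    rw [commutatorElement_def] at h5
    exact h5
  have hbase : Good S N (θ : N → ℂ) N := by
    refine ⟨le_rfl, (θ : N → ℂ), θ.2, ?_, fun s hs g g' h => hinv s hs g g' h⟩
    have : classInner (fun n : N => (θ : N → ℂ) ⟨n, (le_refl N) n.2⟩) (θ : N → ℂ) = 1 :=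
      classInner_self_of_irr θ.2
    rw [this]; exact one_ne_zero
  obtain ⟨n, hn⟩ := hsolv.solvable
  have hKn : K n = N := by
    apply le_antisymm
    · intro x hx
      obtain ⟨h1, h2⟩ := (hmem _ x).mp hx
      have h3 : (QuotientGroup.mk (⟨x, h1⟩ : G) : G ⧸ N') ∈ (⊥ : Subgroup (G ⧸ N')) := hn ▸ h2
      rw [Subgroup.mem_bot, QuotientGroup.eq_one_iff, hN', Subgroup.mem_subgroupOf] at h3
      exact h3
    · exact hNK n
  have hK0 : K 0 = G := by
    apply le_antisymm (hKG 0)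
    intro x hx
    exact (hmem _ x).mpr ⟨hx, by show _ ∈ derivedSeries _ 0; rw [derivedSeries_zero]; trivial⟩
  have hall : ∀ j, j ≤ n → Good S N (θ : N → ℂ) (K (n - j)) := by
    intro j
    induction j with
    | zero => intro _; rw [Nat.sub_zero, hKn]; exact hbase
    | succ j ih =>
      intro hj
      have h1 := ih (by omega)
      have h2 : n - j = (n - (j + 1)) + 1 := by omega
      rw [h2] at h1
      refine good_step S N θ.2 (K (n - (j + 1))) (K (n - (j + 1) + 1)) (hanti _) (hKS _) (hKS _)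
        (hab _) ?_ h1
      refine Nat.Coprime.coprime_dvd_left ?_ hcop
      refine (Subgroup.relIndex_dvd_of_le_left _ (hNK _)).trans ?_
      exact Dvd.intro _ (Subgroup.relIndex_mul_relIndex N (K (n - (j + 1))) G (hNK _) (hKG _))
  have hfin := hall n le_rfl
  rw [Nat.sub_self, hK0] at hfin
  obtain ⟨h, χ, h1, h2, h3⟩ := hfin
  exact ⟨⟨χ, h1⟩, h2, h3⟩

end Cfsg.Agent.S4448
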