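import Cfsg.Statements.S4451
import Cfsg.Agent.Glaub.CyclicFree
import Cfsg.Agent.S4446

set_option autoImplicit false
set_option linter.style.haveILetI false
open Cfsg

namespace Cfsg.Agent.S4451

open Cfsg.Agent Cfsg.Agent.Glaub Cfsg.Agent.Char Cfsg.Agent.CharBase

/-- Let the finite group Γ be generated by a normal subgroup G and a cyclic subgroup S of coprime orders such that every non-identity element of S has the same centraliser C = G ⊓ C(S) in G. Let χ be an S-invariant irreducible character of G, χ̂ its canonical extension to Γ (determinantal order coprime to the order of S), and β the irreducible character of C with χ̂(c s) = ε₀ β(c) for c ∈ C and generators s of S (ε₀ = ±1). Then there are a sign ε = ±1, which may differ from ε₀, and a linear character μ of S with μ² = 1, such that: (a) χ̂(c x) = ε β(c) μ(x) for all c ∈ C and all x ∈ S other than 1; (b) the restriction of χ to C equals |S|·ϑ + ε β for some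 character ϑ of C or ϑ = 0; (c) |S| divides χ(1) − ε β(1). -/
theorem result {Γ : Type*} [Group Γ] [Fintype Γ] (G S : Subgroup Γ) [Fintype G] (hnorm : ∀ s ∈ S, ∀ g ∈ G, s * g * s⁻¹ ∈ G) (hcop : (Nat.card G).Coprime (Nat.card S)) (htop : G ⊔ S = ⊤) (hcyc : IsCyclic S) (C : Subgroup Γ) [Fintype C] (hC : C = G ⊓ Subgroup.centralizer (S : Set Γ)) (hCG : C ≤ G) (hfpf : ∀ x ∈ S, x ≠ 1 → G ⊓ Subgroup.centralizer ({x} : Set Γ) = C) (χ : Cfsg.IrrCharacter G) (hinv : (∀ s ∈ S, ∀ g g' : G, (g' : Γ) = s * g * s⁻¹ → (χ : G → ℂ) g' = (χ : G → ℂ) g)) (χh : Cfsg.IrrCharacter Γ) (hext : (∀ g : G, (χh : Γ → ℂ) g = (χ : G → ℂ) g)) (hdet : (Cfsg.detOrder (χh : Γ → ℂ)).Coprime (Nat.card S)) (β : Cfsg.IrrCharacter C) (ε₀ : ℤ) (hε₀ : ε₀ = 1 ∨ ε₀ = -1) (hβ : ∀ c : C, ∀ s : Γ, Subgroup.zpowers s = S → (χh : Γ → ℂ) ((c : Γ) * s) = (ε₀ : ℂ) * (β : C → ℂ) c) : ∃ ε : ℤ, (ε = 1 ∨ ε = -1) ∧ (∃ μ : S → ℂ, Cfsg.IsCharacter S μ ∧ μ 1 = 1 ∧ (∀ x : S,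 μ x * μ x = 1) ∧ ∀ c : C, ∀ x : S, x ≠ 1 → (χh : Γ → ℂ) ((c : Γ) * x) = (ε : ℂ) * (β : C → ℂ) c * μ x) ∧ (∃ ϑ : C → ℂ, Cfsg.IsCharacter C ϑ ∧ (fun c : C => (χ : G → ℂ) ⟨c, hCG c.2⟩) = fun c => (Nat.card S : ℂ) * ϑ c + (ε : ℂ) * (β : C → ℂ) c) ∧ (Nat.card S : ℤ) ∣ (Cfsg.charDegree (χ : G → ℂ) : ℤ) - ε * (Cfsg.charDegree (β : C → ℂ) : ℤ) := by
  classical
  haveI hGn : G.Normal := S4446.normal_of G S hnorm htop
  haveI : Fintype S := Fintype.ofFinite _
  have hirr : IsIrrCharacter G (fun g : G => (χh : Γ → ℂ) g) := by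
    have : (fun g : G => (χh : Γ → ℂ) g) = (χ : G → ℂ) := funext hext
    rw [this]; exact χ.2
  have hScomm : ∀ a b : S, a * b = b * a := by
    haveI := hcyc
    intro a b
    exact (IsCyclic.commGroup (α := S)).mul_comm a b
  -- a generator
  obtain ⟨s0, hs0⟩ := hcyc.exists_generator
  have hs0' : Subgroup.zpowers (s0 : Γ) = S := by
    apply le_antisymm
    · rw [Subgroup.zpowers_le]; exact s0.2
    · intro t ht
      obtain ⟨j, hj⟩ := Subgroup.mem_zpowers_iff.mp (hs0 ⟨t, ht⟩)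
      exact Subgroup.mem_zpowers_iff.mpr ⟨j, congrArg Subtype.val hj⟩
  have hres : ∀ c : C, (χh : Γ → ℂ) c = (χ : G → ℂ) ⟨c, hCG c.2⟩ := fun c =>
    hext ⟨c, hCG c.2⟩
  obtain ⟨b, hb⟩ := exists_nat_degree (irr_isCharacter β)
  have hb0 : 0 < b := Nat.pos_of_ne_zero (by
      rintro rfl; exact irr_one_ne_zero β.2 (by rw [hb]; norm_num))
  obtain ⟨d, hd⟩ := exists_nat_degree (irr_isCharacter χ)
  have hdχ : charDegree (χ : G → ℂ) = d := H75.charDegree_eq hd
  have hdβ : charDegree (β : C → ℂ) = b := H75.charDegree_eq hb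
  rw [hdχ, hdβ]
  have hdχ1 : (χh : Γ → ℂ) ((1 : C) : Γ) = d := by
    rw [hres]; exact hd
  by_cases hs1 : s0 = 1
  · -- trivial `S`
    have hcard1 : Nat.card S = 1 := by
      have h1 : Subgroup.zpowers (s0 : Γ) = ⊥ := by rw [hs1]; simp
      rw [hs0'] at h1
      rw [h1]; simp
    have hval : ∀ c : C, (χh : Γ → ℂ) c = (ε₀ : ℂ) * (β : C → ℂ) c := by
      intro c
      have := hβ c s0 hs0'
      rw [hs1] at this
      simpa using this
    have hε1 : ε₀ = 1 := by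
      have h1 := hval 1
      rw [hdχ1, hb] at h1
      have h2 : (d : ℤ) = ε₀ * b := by exact_mod_cast h1
      rcases hε₀ with h | h
      · exact h
      · exfalso; rw [h] at h2; omega
    subst hε1
    refine ⟨1, Or.inl rfl, ⟨fun _ => 1, isCharacter_of_isIrr CharBase.isIrrCharacter_one, rfl,
      fun x => by norm_num, fun c x hx => ?_⟩, ⟨0, isCharacter_zero, ?_⟩, ?_⟩
    · exfalso
      apply hx
      have : Subsingleton S := (Nat.card_eq_one_iff_unique.mp hcard1).1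
      exact Subsingleton.elim _ _
    · funext c
      rw [← hres, hval c]
      simp
    · rw [hcard1]; simp
  · have hgam : gam S C (χh : Γ → ℂ) (β : C → ℂ) s0 = (ε₀ : ℂ) := by
      unfold gam
      have : (fun c : C => (χh : Γ → ℂ) ((c : Γ) * s0)) = (ε₀ : ℂ) • (β : C → ℂ) := by
        funext c
        exact hβ c s0 hs0'
      rw [this, classInner_smul_left, classInner_irr_self, mul_one]
    have hε0 : (ε₀ : ℂ) ≠ 0 := by rcases hε₀ with h | h <;> rw [h] <;> norm_num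
    obtain ⟨ε, μ, ϑ, hε, hϑ, h1, h2⟩ := free_structure G S C hScomm hcop hC hCG hfpf χh hirr β s0
      hs1 (by rw [hgam]; exact hε0)
    have hμ1 : (μ : S → ℂ) 1 = 1 := H74.TIData.irr_degree_one_of_comm hScomm μ
    have hμchar := irr_isCharacter μ
    have hβ1 : (β : C → ℂ) 1 ≠ 0 := irr_one_ne_zero β.2
    have hμs : (μ : S → ℂ) s0 * (μ : S → ℂ) s0 = 1 := by
      have h3 := h1 1 s0 hs1
      rw [hβ 1 s0 hs0'] at h3
      have h4 : (ε₀ : ℂ) = (ε : ℂ) * (μ : S → ℂ) s0 := by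
        have : ((ε₀ : ℂ)) * (β : C → ℂ) 1 = ((ε : ℂ) * (μ : S → ℂ) s0) * (β : C → ℂ) 1 := by
          rw [h3]; ring
        exact mul_right_cancel₀ hβ1 this
      have h5 : (ε₀ : ℂ) * ε₀ = 1 := by rcases hε₀ with h | h <;> rw [h] <;> norm_num
      have h6 : (ε : ℂ) * ε = 1 := by rcases hε with h | h <;> rw [h] <;> norm_num
      have h7 : ((ε : ℂ) * ε) * ((μ : S → ℂ) s0 * (μ : S → ℂ) s0) = 1 := by
        rw [← h5, h4]; ring
      rwa [h6, one_mul] at h7
    have hμ2 : ∀ x : S, (μ : S → ℂ) x * (μ : S → ℂ) x = 1 := by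
      intro x
      have hx : x ∈ Submonoid.powers s0 := by
        rw [mem_powers_iff_mem_zpowers]; exact hs0 _
      obtain ⟨j, hj⟩ := hx
      have hj' : s0 ^ j = x := hj
      rw [← hj', linChar_pow hμchar hμ1, ← mul_pow, hμs, one_pow]
    refine ⟨ε, hε, ⟨(μ : S → ℂ), hμchar, hμ1, hμ2, h1⟩, ⟨ϑ, hϑ, ?_⟩, ?_⟩
    · funext c
      rw [← hres]; exact h2 c
    · obtain ⟨t, ht⟩ := exists_nat_degree hϑ
      have h3 := h2 1
      rw [hdχ1, ht, hb] at h3
      have h4 : (d : ℤ) = Nat.card S * t + ε * b := by exact_mod_cast h3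
      exact ⟨t, by rw [h4]; ring⟩

end Cfsg.Agent.S4451
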