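import Cfsg.Statements.S4452
import Cfsg.Agent.Glaub.Count

set_option autoImplicit false
open Cfsg

namespace Cfsg.Agent.S4452

open Cfsg.Agent.Glaub Cfsg.Agent.Char Cfsg.Agent.CharBase

/-- Let the finite group G be the product of a normal subgroup K and a solvable subgroup H of coprime orders, and let N = N_G(H). Then the number of irreducible characters of G of degree coprime to the order of H equals the number of irreducible characters of N of degree coprime to the order of H. (The two sets are in fact in a canonical bijection; only the equality of their sizes is stated here.) -/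
theorem result {G : Type*} [Group G] [Finite G] (K H : Subgroup G) [K.Normal] (hKH : K ⊔ H = ⊤) (hcop : (Nat.card K).Coprime (Nat.card H)) (hsolv : Group.IsSolvable H) : Nat.card {χ : Cfsg.IrrCharacter G // (Cfsg.charDegree (χ : G → ℂ)).Coprime (Nat.card H)} = Nat.card {η : Cfsg.IrrCharacter (Subgroup.normalizer (H : Set G)) // (Cfsg.charDegree (η : Subgroup.normalizer (H : Set G) → ℂ)).Coprime (Nat.card H)} := by
  classical
  have hnorm : ∀ s ∈ H, ∀ g ∈ K, s * g * s⁻¹ ∈ K := fun s _ g hg =>
    ‹K.Normal›.conj_mem g hg s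
  rw [card_coprime_degree_complement K H hKH hcop]
  have h2 := (coprime_action_counts (conjHom K H hnorm) hsolv hcop).2
  -- the action of `N`
  set N : Subgroup G := Subgroup.normalizer (H : Set G) with hN
  have hHN : H ≤ N := Subgroup.le_normalizer
  set C : Subgroup G := K ⊓ Subgroup.centralizer (H : Set G) with hC
  have hCN : C ≤ N := fun x hx => by
    rw [hN, Subgroup.mem_normalizer_iff]
    have hx2 := Subgroup.mem_centralizer_iff.mp hx.2
    intro h
    constructor
    · intro hh
      have : x * h * x⁻¹ = h := by rw [← hx2 h hh, mul_inv_cancel_right]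
      rw [this]; exact hh
    · intro hh
      have h3 := hx2 _ hh
      have : x * h * x⁻¹ = h := by
        have h4 : x * h * x⁻¹ * x = x * (x * h * x⁻¹) := h3
        have h5 : x * h = x * (x * h * x⁻¹) := by rwa [inv_mul_cancel_right] at h4
        exact (mul_left_cancel h5).symm
      rw [this] at hh; exact hh
  set K' : Subgroup N := C.subgroupOf N with hK'
  set H' : Subgroup N := H.subgroupOf N with hH'
  haveI hK'n : K'.Normal := by
    constructor
    intro x hx g
    rw [hK', Subgroup.mem_subgroupOf] at hx ⊢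
    refine ⟨‹K.Normal›.conj_mem _ hx.1 _, ?_⟩
    have hx2 := Subgroup.mem_centralizer_iff.mp hx.2
    refine Subgroup.mem_centralizer_iff.mpr ?_
    intro h hh
    have h1 : (g : G)⁻¹ * h * g ∈ H := by
      have := (Subgroup.mem_normalizer_iff.mp (N.inv_mem g.2) h).mp hh
      simpa using this
    have h3 := hx2 _ h1
    have h4 : (g : G) * ((g : G)⁻¹ * h * g * x) * (g : G)⁻¹ =
        (g : G) * (x * ((g : G)⁻¹ * h * g)) * (g : G)⁻¹ := by rw [h3]
    show h * ((g : G) * x * (g : G)⁻¹) = (g : G) * x * (g : G)⁻¹ * h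
    calc h * ((g : G) * x * (g : G)⁻¹) = (g : G) * ((g : G)⁻¹ * h * g * x) * (g : G)⁻¹ := by group
      _ = (g : G) * (x * ((g : G)⁻¹ * h * g)) * (g : G)⁻¹ := h4
      _ = (g : G) * x * (g : G)⁻¹ * h := by group
  have hcardK' : Nat.card K' = Nat.card C := Nat.card_congr (Subgroup.subgroupOfEquivOfLe hCN).toEquiv
  have hcardH' : Nat.card H' = Nat.card H := Nat.card_congr (Subgroup.subgroupOfEquivOfLe hHN).toEquiv
  have hcop' : (Nat.card K').Coprime (Nat.card H') := by
    rw [hcardK', hcardH']
    exact Nat.Coprime.coprime_dvd_left (Subgroup.card_dvd_of_le inf_le_left) hcop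
  have hKH' : K' ⊔ H' = ⊤ := by
    rw [eq_top_iff]
    rintro ⟨n, hn⟩ -
    have hg : n ∈ K ⊔ H := by rw [hKH]; trivial
    obtain ⟨k, hk, h, hh, rfl⟩ := Subgroup.mem_sup_of_normal_left.mp hg
    have hkN : k ∈ N := by
      have := N.mul_mem hn (N.inv_mem (hHN hh))
      simpa using this
    have hkC : k ∈ C := by
      refine ⟨hk, Subgroup.mem_centralizer_iff.mpr fun x hx => ?_⟩
      have h1 : k * x * k⁻¹ * x⁻¹ ∈ H :=
        H.mul_mem ((Subgroup.mem_normalizer_iff.mp hkN x).mp hx) (H.inv_mem hx)
      have h2 : k * x * k⁻¹ * x⁻¹ ∈ K := by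
        have : k * x * k⁻¹ * x⁻¹ = k * (x * k⁻¹ * x⁻¹) := by group
        rw [this]
        exact K.mul_mem hk (‹K.Normal›.conj_mem _ (K.inv_mem hk) x)
      have h3 : k * x * k⁻¹ * x⁻¹ ∈ K ⊓ H := ⟨h2, h1⟩
      rw [inf_eq_bot_of_coprime K H hcop, Subgroup.mem_bot] at h3
      have h4 : k * x = x * k := by
        have h5 : k * x * k⁻¹ = x := by rwa [mul_inv_eq_one] at h3
        calc k * x = k * x * k⁻¹ * k := by group
          _ = x * k := by rw [h5]
      exact h4.symm
    have e : (⟨k * h, hn⟩ : N) = ⟨k, hkN⟩ * ⟨h, hHN hh⟩ := rfl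
    rw [e]
    exact Subgroup.mul_mem_sup (show (⟨k, hkN⟩ : N) ∈ K' from hkC) (show (⟨h, hHN hh⟩ : N) ∈ H' from hh)
  have h3 := card_coprime_degree_complement K' H' hKH' hcop'
  rw [hcardH'] at h3
  rw [h3]
  congr 1
  · have h4 : Nat.card {θ : IrrCharacter K' // ∀ h ∈ H', cj K' h (θ : K' → ℂ) = θ} =
        Nat.card (IrrCharacter K') := by
      refine Nat.card_congr (Equiv.subtypeUnivEquiv fun θ h hh => ?_)
      funext x
      rw [cj_apply]
      refine congrArg (θ : K' → ℂ) ?_
      apply Subtype.ext
      apply Subtype.ext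
      have hx := Subgroup.mem_centralizer_iff.mp (show (x : G) ∈ C from x.2).2 (h : G) hh
      show (h : G) * (x : G) * (h : G)⁻¹ = (x : G)
      rw [hx, mul_inv_cancel_right]
    rw [h4]
    have h5 : Nat.card (IrrCharacter K') = Nat.card (IrrCharacter (fixSub (conjHom K H hnorm))) :=
      Nat.card_congr (irrEquiv ((Subgroup.subgroupOfEquivOfLe hCN).trans
        (fixSubEquiv hnorm).symm))
    rw [h5, ← h2]
    refine Nat.card_congr (Equiv.subtypeEquivRight fun θ : IrrCharacter K => ?_)
    rw [inv_conjHom_iff]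
    constructor
    · intro h s hs g g' hgg'
      have := congrFun (h s hs) g
      rw [cj_apply] at this
      rw [← this]
      exact congrArg (θ : K → ℂ) (Subtype.ext hgg')
    · intro h s hs
      funext g
      rw [cj_apply]
      exact h s hs g _ rfl
  · exact Nat.card_congr (linCongr (Subgroup.subgroupOfEquivOfLe hHN).symm)

end Cfsg.Agent.S4452
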