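import Cfsg.Statements.S4453
import Cfsg.Agent.H76.OddSecF
import Cfsg.Agent.Glaub.Inside
import Cfsg.Agent.S4447

set_option autoImplicit false
open Cfsg

namespace Cfsg.Agent.S4453

open scoped commutatorElement
open Cfsg.Agent.CharBase Cfsg.Agent.Char Cfsg.Agent.Char.RG
open Cfsg.Agent.Glaub (Inv restrAct inv_conjHom_iff)


/-- Inside a finite group Γ let S normalise the solvable subgroup G of odd order with the orders of G and S coprime, let C = G ⊓ C(S), and let L ≤ K be S-invariant normal subgroups of G with K/L abelian, G = KC and H = LC (so C ≤ H ≤ G). Then for each S-invariant irreducible character χ of G there is exactly one S-invariant irreducible character ψ of H whose multiplicity in the restriction of χ to H is odd, and χ ↦ ψ is a bijection from the S-invariant irreducible characters of G onto those of H (distinct χ give distinct ψ, and every S-invariant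 ψ arises). -/
theorem result {Γ : Type*} [Group Γ] [Fintype Γ] (G S : Subgroup Γ) [Fintype G] (hnorm : ∀ s ∈ S, ∀ g ∈ G, s * g * s⁻¹ ∈ G) (hcop : (Nat.card G).Coprime (Nat.card S)) (hGsolv : Group.IsSolvable G) (hodd : Odd (Nat.card G)) (C : Subgroup Γ) [Fintype C] (hC : C = G ⊓ Subgroup.centralizer (S : Set Γ)) (hCG : C ≤ G) (K L H : Subgroup Γ) [Fintype H] (hLK : L ≤ K) (hKG : K ≤ G) (hKn : ∀ g ∈ G, ∀ k ∈ K, g * k * g⁻¹ ∈ K) (hLn : ∀ g ∈ G, ∀ l ∈ L, g * l * g⁻¹ ∈ L) (hKS : ∀ s ∈ S, ∀ k ∈ K, s * k * s⁻¹ ∈ K) (hLS : ∀ s ∈ S, ∀ l ∈ L, s * l * s⁻¹ ∈ L) (hab : ∀ a ∈ K, ∀ b ∈ K, a * b * a⁻¹ * b⁻¹ ∈ L) (hGKC : K ⊔ C = G) (hH : H = L ⊔ C) (hHG : H ≤ G) : (∀ χ : Cfsg.IrrCharacter G, (∀ s ∈ S, ∀ g g' : G, (g' : Γ) = s * g * s⁻¹ → (χ : G → ℂ) g' = (χ : G → ℂ) g) → ∃! ψ : Cfsg.IrrCharacter H, (∀ s ∈ S, ∀ g g' : H, (g' : Γ) = s * g * s⁻¹ → (ψ : H → ℂ) g' = (ψ : H → ℂ) g)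 ∧ ∃ m : ℕ, Cfsg.classInner (fun h : H => (χ : G → ℂ) ⟨h, hHG h.2⟩) (ψ : H → ℂ) = (m : ℂ) ∧ Odd m) ∧ (∀ χ χ' : Cfsg.IrrCharacter G, (∀ s ∈ S, ∀ g g' : G, (g' : Γ) = s * g * s⁻¹ → (χ : G → ℂ) g' = (χ : G → ℂ) g) → (∀ s ∈ S, ∀ g g' : G, (g' : Γ) = s * g * s⁻¹ → (χ' : G → ℂ) g' = (χ' : G → ℂ) g) → ∀ ψ : Cfsg.IrrCharacter H, (∀ s ∈ S, ∀ g g' : H, (g' : Γ) = s * g * s⁻¹ → (ψ : H → ℂ) g' = (ψ : H → ℂ) g) → ∀ m m' : ℕ, Cfsg.classInner (fun h : H => (χ : G → ℂ) ⟨h, hHG h.2⟩) (ψ : H → ℂ) = (m : ℂ) → Odd m → Cfsg.classInner (fun h : H => (χ' : G → ℂ) ⟨h, hHG h.2⟩) (ψ : H → ℂ) = (m' : ℂ) → Odd m' → χ = χ') ∧ (∀ ψ : Cfsg.IrrCharacter H, (∀ s ∈ S, ∀ g g' : H, (g' : Γ) = s * g * s⁻¹ → (ψ : H → ℂ) g' = (ψ : H → ℂ) g) → ∃ χ : Cfsg.IrrCharacter G, (∀ s ∈ S, ∀ g g' : G, (g' : Γ) = s * g * s⁻¹ → (χ : G → ℂ) g' = (χ : G → ℂ) g) ∧ ∃ m : ℕ, Cfsg.classInner (fun h : H => (χ : G → ℂ)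 ⟨h, hHG h.2⟩) (ψ : H → ℂ) = (m : ℂ) ∧ Odd m) := by
  classical
  have hodd' := hodd
  have hHG' : ∀ h ∈ H, h ∈ G := fun h hh => hHG hh
  let φ := Glaub.conjHom G S hnorm
  have hφa : ∀ (s : S) (g : G), ((φ s g : G) : Γ) = s * g * (s : Γ)⁻¹ := fun s g => rfl
  have hLG : L ≤ G := hLK.trans hKG
  have hQn : (L.subgroupOf G).Normal := ⟨fun l hl g => hLn _ g.2 _ hl⟩
  have hKn' : (K.subgroupOf G).Normal := ⟨fun l hl g => hKn _ g.2 _ hl⟩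
  -- fixed elements in cosets
  have cov : ∀ (R E : Subgroup G), (∀ s, ∀ x ∈ R, φ s x ∈ R) → (∀ s, ∀ x ∈ E, φ s x ∈ E) → E ≤ R →
      ∀ x ∈ R, (∀ s, x⁻¹ * φ s x ∈ E) → ∃ n ∈ E, ∀ s, φ s (x * n) = x * n := by
    intro R E hR hE hER x hx hxE
    have hnm : ∀ R : Subgroup G, (∀ s, ∀ x ∈ R, φ s x ∈ R) →
        S ≤ Subgroup.normalizer ((R.map G.subtype : Subgroup Γ) : Set Γ) := by
      intro R hR s hs
      have h1 : ∀ s ∈ S, ∀ y ∈ R.map G.subtype, s * y * s⁻¹ ∈ R.map G.subtype := by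
        rintro s hs _ ⟨y, hy, rfl⟩
        exact ⟨φ ⟨s, hs⟩ y, hR _ y hy, rfl⟩
      rw [Subgroup.mem_normalizer_iff]
      intro y
      refine ⟨h1 s hs y, fun hy => ?_⟩
      have h2 := h1 s⁻¹ (S.inv_mem hs) _ hy
      have h3 : s⁻¹ * (s * y * s⁻¹) * s⁻¹⁻¹ = y := by group
      rwa [h3] at h2
    have hcopR : (Nat.card S).Coprime (Nat.card (R.map G.subtype : Subgroup Γ)) := by
      rw [Subgroup.card_map_of_injective G.subtype_injective]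
      exact hcop.symm.coprime_dvd_right (Subgroup.card_subgroup_dvd_card R)
    have hsolvE : Group.IsSolvable (E.map G.subtype : Subgroup Γ) :=
      Cop.isSolvable_of_le (Subgroup.map_subtype_le E) hGsolv
    obtain ⟨_, ⟨n, hn, rfl⟩, hfx⟩ := Cop.exists_mul_mem_centralizer (hnm R hR) hcopR
      (Subgroup.map_mono hER) (hnm E hE) (Or.inr hsolvE) (x := (x : Γ)) ⟨x, hx, rfl⟩ (by
        intro a ha
        exact ⟨x⁻¹ * φ ⟨a, ha⟩ x, hxE _, by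
          change (x : Γ)⁻¹ * (a * x * a⁻¹) = _
          group⟩)
    refine ⟨n, hn, fun s => ?_⟩
    apply Subtype.ext
    rw [hφa]
    have h1 := Subgroup.mem_centralizer_iff.mp hfx s s.2
    change (s : Γ) * ((x : Γ) * n) * (s : Γ)⁻¹ = (x : Γ) * n
    rw [mul_inv_eq_iff_eq_mul]
    exact h1
  have hCmem : ∀ c : G, (∀ s, φ s c = c) ↔ (c : Γ) ∈ C := by
    intro c
    rw [hC, Subgroup.mem_inf, ← Glaub.mem_fixSub_conjHom hnorm]
    exact ⟨fun h => ⟨c.2, h⟩, fun h => h.2⟩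
  have hC'sup : ∀ A B : Subgroup Γ, A ≤ G → B ≤ G → (∀ g ∈ G, ∀ a ∈ A, g * a * g⁻¹ ∈ A) →
      ∀ g ∈ A ⊔ B, ∃ a ∈ A, ∃ b ∈ B, g = a * b := by
    intro A B hA hB hAn g hg
    have hn : (A.subgroupOf G).Normal := ⟨fun l hl g => hAn _ g.2 _ hl⟩
    have hgG : g ∈ G := (sup_le hA hB) hg
    have h1 : (⟨g, hgG⟩ : G) ∈ A.subgroupOf G ⊔ B.subgroupOf G := by
      rw [← Subgroup.subgroupOf_sup hA hB]
      exact hg
    obtain ⟨a, ha, b, hb, hab⟩ := Subgroup.mem_sup_of_normal_left.mp h1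
    exact ⟨a, ha, b, hb, (congrArg Subtype.val hab).symm⟩
  have hGK : ∀ g : G, ∃ k ∈ K.subgroupOf G, ∃ c, (∀ s, φ s c = c) ∧ g = k * c := by
    intro g
    have hg : (g : Γ) ∈ K ⊔ C := by rw [hGKC]; exact g.2
    obtain ⟨k, hk, c, hc, hkc⟩ := hC'sup K C hKG hCG hKn _ hg
    exact ⟨⟨k, hKG hk⟩, hk, ⟨c, hCG hc⟩, (hCmem _).mpr hc, Subtype.ext hkc⟩
  let ι : H →* G := Subgroup.inclusion hHG
  have hι : Function.Injective ι := Subgroup.inclusion_injective hHG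
  have hLH : L ≤ H := by rw [hH]; exact le_sup_left
  have hfix : ∀ k, (∀ a, φ a k * k⁻¹ ∈ L.subgroupOf G) ↔ k ∈ ι.range := by
    intro k
    constructor
    · intro h
      obtain ⟨n, hn, hfx⟩ := cov ⊤ (L.subgroupOf G) (fun _ _ _ => Subgroup.mem_top _)
        (fun s x hx => hLS _ s.2 _ hx) le_top k (Subgroup.mem_top _) (by
          intro s
          have h1 := hQn.conj_mem _ (h s) k⁻¹
          have h2 : k⁻¹ * (φ s k * k⁻¹) * k⁻¹⁻¹ = k⁻¹ * φ s k := by group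
          rwa [h2] at h1)
      have h1 : ((k * n : G) : Γ) ∈ C := (hCmem _).mp hfx
      have h2 : (k : Γ) ∈ H := by
        have h3 : (k : Γ) = ((k * n : G) : Γ) * ((n⁻¹ : G) : Γ) := by
          rw [← Subgroup.coe_mul, mul_inv_cancel_right]
        rw [h3, hH]
        exact Subgroup.mul_mem _ (Subgroup.mem_sup_right h1)
          (Subgroup.mem_sup_left ((L.subgroupOf G).inv_mem hn))
      exact ⟨⟨k, h2⟩, rfl⟩
    · rintro ⟨h, rfl⟩ s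
      have hh : (h : Γ) ∈ L ⊔ C := hH ▸ h.2
      obtain ⟨l, hl, c, hc, hlc⟩ := hC'sup L C hLG hCG hLn _ hh
      have hc' := (hCmem ⟨c, hCG hc⟩).mpr hc s
      have hc'' : (s : Γ) * c * (s : Γ)⁻¹ = c := congrArg Subtype.val hc'
      change (s : Γ) * h * (s : Γ)⁻¹ * (h : Γ)⁻¹ ∈ L
      rw [hlc]
      have h1 : (s : Γ) * (l * c) * (s : Γ)⁻¹ * (l * c)⁻¹ =
          (s * l * (s : Γ)⁻¹) * ((s : Γ) * c * (s : Γ)⁻¹) * c⁻¹ * l⁻¹ := by group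
      rw [h1, hc'', mul_inv_cancel_right]
      exact L.mul_mem (hLS _ s.2 _ hl) (L.inv_mem hl)
  have hnormH : ∀ s ∈ S, ∀ h ∈ H, s * h * s⁻¹ ∈ H := by
    intro s hs h hh
    have h1 := (hfix ⟨h, hHG hh⟩).mpr ⟨⟨h, hh⟩, rfl⟩ ⟨s, hs⟩
    have h2 : s * h * s⁻¹ * h⁻¹ ∈ L := h1
    have h3 : s * h * s⁻¹ = (s * h * s⁻¹ * h⁻¹) * h := by group
    rw [h3]
    exact H.mul_mem (hLH h2) hh
  let φD := Glaub.conjHom H S hnormH
  have hφ : ∀ a d, ι (φD a d) = φ a (ι d) := fun a d => rfl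
  have hQι : L.subgroupOf G ≤ ι.range := by
    intro l hl
    exact ⟨⟨l, hLH hl⟩, rfl⟩
  have hQS : ∀ a, ∀ q ∈ L.subgroupOf G, φ a q ∈ L.subgroupOf G := fun s x hx => hLS _ s.2 _ hx
  have hKS' : ∀ a, ∀ q ∈ K.subgroupOf G, φ a q ∈ K.subgroupOf G := fun s x hx => hKS _ s.2 _ hx
  have := Fintype.ofFinite L
  have hsolvQ : ∀ X : Subgroup Γ, X ≤ G → ∀ [(L.subgroupOf X).Normal],
      Group.IsSolvable (X ⧸ L.subgroupOf X) := by
    intro X hX _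
    have h1 : Group.IsSolvable X := Cop.isSolvable_of_le hX hGsolv
    exact Group.isSolvable_of_surjective (QuotientGroup.mk'_surjective (L.subgroupOf X))
  have hrel : ∀ X : Subgroup Γ, X ≤ G → (L.relIndex X).Coprime (Nat.card S) := by
    intro X hX
    refine hcop.coprime_dvd_left ?_
    exact (Subgroup.relIndex_dvd_card L X).trans (Subgroup.card_dvd_of_le hX)
  have e1 : ∀ [Fintype (L.subgroupOf G)] (χ : G → ℂ), IsIrrCharacter G χ → Inv φ χ →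
      ∃ θ : L.subgroupOf G → ℂ, IsIrrCharacter (L.subgroupOf G) θ ∧
        classInner (fun n : L.subgroupOf G => χ n) θ ≠ 0 ∧
        Inv (restrAct φ (L.subgroupOf G) hQS) θ := by
    intro _ χ hχ hinv
    obtain ⟨θ, hθ1, hθ2⟩ := S4447.result G S L hnorm hLG hLS (hrel G le_rfl)
      (Or.inr (hsolvQ G le_rfl)) ⟨χ, hχ⟩ ((inv_conjHom_iff hnorm χ).mp hinv)
    let e : L.subgroupOf G ≃* L := Subgroup.subgroupOfEquivOfLe hLG
    refine ⟨fun q => (θ : L → ℂ) (e q),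
      isIrrCharacter_comp_surjective θ.2 e.toMonoidHom e.surjective, ?_, ?_⟩
    · rw [← classInner_comp_equiv e] at hθ1
      exact hθ1
    · intro s q
      exact hθ2 s s.2 (e q) _ rfl
  have e2 : ∀ [Fintype ((L.subgroupOf G).comap ι)] (ξ : H → ℂ), IsIrrCharacter H ξ → Inv φD ξ →
      ∃ θ : L.subgroupOf G → ℂ, IsIrrCharacter (L.subgroupOf G) θ ∧
        Inv (restrAct φ (L.subgroupOf G) hQS) θ ∧
        classInner (fun n : (L.subgroupOf G).comap ι => ξ n)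
          (fun n => θ (qHom (L.subgroupOf G) ι n)) ≠ 0 := by
    intro _ ξ hξ hinv
    have hLHn : (L.subgroupOf H).Normal := ⟨fun l hl g => hLn _ (hHG g.2) _ hl⟩
    obtain ⟨θ, hθ1, hθ2⟩ := S4447.result H S L hnormH hLH hLS (hrel H hHG)
      (Or.inr (hsolvQ H hHG)) ⟨ξ, hξ⟩ ((inv_conjHom_iff hnormH ξ).mp hinv)
    let e : L.subgroupOf G ≃* L := Subgroup.subgroupOfEquivOfLe hLG
    refine ⟨fun q => (θ : L → ℂ) (e q),
      isIrrCharacter_comp_surjective θ.2 e.toMonoidHom e.surjective, ?_, ?_⟩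
    · intro s q
      exact hθ2 s s.2 (e q) _ rfl
    · rw [← classInner_comp_equiv ((qEquiv (L.subgroupOf G) ι hι hQι).trans e)] at hθ1
      exact hθ1
  have hab' : ∀ x ∈ K.subgroupOf G, ∀ y ∈ K.subgroupOf G, ⁅x, y⁆ ∈ L.subgroupOf G :=
    fun x hx y hy => hab _ hx _ hy
  have hLK' : L.subgroupOf G ≤ K.subgroupOf G := Subgroup.comap_mono hLK
  refine ⟨?_, ?_, ?_⟩
  · intro χ hinv
    obtain ⟨ξ, hξ, hξinv, m, hm, hmo, hu⟩ := H76.OS.main_below φ φD (L.subgroupOf G)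
      (K.subgroupOf G) hQS hKS' hLK' hab' ι hι hQι hfix hφ hodd' hcop hGK cov e1 e2 χ.2
      ((inv_conjHom_iff hnorm (χ : G → ℂ)).mpr hinv)
    refine ⟨⟨ξ, hξ⟩, ⟨(inv_conjHom_iff hnormH ξ).mp hξinv, m, hm, hmo⟩, ?_⟩
    rintro ψ ⟨hψinv, n, hn, hno⟩
    by_contra hne
    have h1 := hu ψ ψ.2 ((inv_conjHom_iff hnormH (ψ : H → ℂ)).mpr hψinv)
      (fun h => hne (Subtype.ext h)) n hn
    exact (Nat.not_odd_iff_even.mpr h1) hno
  · intro χ χ' hinv hinv' ψ hψinv m m' hm hmo hm' hmo'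
    apply Subtype.ext
    exact H76.OS.main_unique φ φD (L.subgroupOf G)
      (K.subgroupOf G) hQS hKS' hLK' hab' ι hι hQι hfix hφ hodd' hcop hGK cov e1 e2 χ.2
      ((inv_conjHom_iff hnorm (χ : G → ℂ)).mpr hinv) χ'.2
      ((inv_conjHom_iff hnorm (χ' : G → ℂ)).mpr hinv') ψ.2
      ((inv_conjHom_iff hnormH (ψ : H → ℂ)).mpr hψinv) hm hmo hm' hmo'
  · intro ψ hψinv
    obtain ⟨χ, hχ, hχinv, m, hm, hmo⟩ := H76.OS.main_above φ φD (L.subgroupOf G)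
      (K.subgroupOf G) hQS hKS' hLK' hab' ι hι hQι hfix hφ hodd' hcop hGK cov e1 e2 ψ.2
      ((inv_conjHom_iff hnormH (ψ : H → ℂ)).mpr hψinv)
    exact ⟨⟨χ, hχ⟩, (inv_conjHom_iff hnorm χ).mp hχinv, m, hm, hmo⟩

end Cfsg.Agent.S4453
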