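import Cfsg.Statements.S4454
import Cfsg.Agent.Glaub.CosetSum

set_option autoImplicit false
set_option linter.unusedSectionVars false
set_option linter.style.haveILetI false
open Cfsg

namespace Cfsg.Agent.S4454

open scoped ComplexConjugate BigOperators
open Cfsg.Agent.CharBase Cfsg.Agent.Char Cfsg.Agent.Glaub

universe u

theorem key {Γ : Type u} [Group Γ] [Fintype Γ] (G N : Subgroup Γ) [hG : G.Normal] [hN : N.Normal]
    [Fintype G] [Fintype N] (hNG : N ≤ G) (hGlt : G ≠ ⊤) (hcyc : IsCyclic (Γ ⧸ G))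
    (hfrob : ∀ x : Γ, x ∉ G → ∀ g : Γ, g ∈ G → x * g * x⁻¹ * g⁻¹ ∈ N → g ∈ N)
    (θ : Cfsg.IrrCharacter N)
    (hinv : ∀ (x : Γ) (n : N), (θ : N → ℂ) ⟨x * n * x⁻¹, hN.conj_mem n n.2 x⟩ = (θ : N → ℂ) n)
    (χ : Cfsg.IrrCharacter G) (e : ℕ)
    (hram : Cfsg.indFun (N.subgroupOf G) (fun n : N.subgroupOf G => (θ : N → ℂ) ⟨(n : G), n.2⟩) =
      fun g => (e : ℂ) * (χ : G → ℂ) g) :
    (G.index : ℤ) ∣ (e : ℤ) - 1 ∨ (G.index : ℤ) ∣ (e : ℤ) + 1 := by
  classical
  -- the character on `N.subgroupOf G`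
  set N' : Subgroup G := N.subgroupOf G with hN'
  haveI hN'n : N'.Normal := Subgroup.normal_subgroupOf
  set θ' : N' → ℂ := fun n => (θ : N → ℂ) ⟨(n : G), n.2⟩ with hθ'
  have hθ'irr : IsIrrCharacter N' θ' :=
    isIrrCharacter_comp_surjective θ.2 (Subgroup.subgroupOfEquivOfLe hNG).toMonoidHom
      (Subgroup.subgroupOfEquivOfLe hNG).surjective
  have hθ'inv : ∀ g : G, cj N' g θ' = θ' := by
    intro g; funext n
    exact hinv g ⟨(n : G), n.2⟩
  have hind1 : classInner (indFun N' θ') (χ : G → ℂ) = e := by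
    rw [hram]
    have : (fun g => (e : ℂ) * (χ : G → ℂ) g) = (e : ℂ) • (χ : G → ℂ) := rfl
    rw [this, classInner_smul_left, classInner_irr_self, mul_one]
  have he0 : (e : ℂ) ≠ 0 := by
    intro h0
    have h1 := congrFun hram 1
    rw [indFun_one_apply, h0, zero_mul] at h1
    rcases mul_eq_zero.mp h1 with h2 | h2
    · exact (Nat.cast_ne_zero.mpr (Subgroup.index_ne_zero_of_finite (H := N'))) h2
    · exact irr_one_ne_zero hθ'irr h2
  have hχN : ∀ n : N', (χ : G → ℂ) n = e * θ' n := by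
    have h1 : classInner (fun n : N' => (χ : G → ℂ) n) θ' = e := by
      rw [← CharBase.classInner_comm_of_isCharacter (isCharacter_of_isIrr hθ'irr)
        (isCharacter_restrict (irr_isCharacter χ) N'), ← frobenius_reciprocity N' _ _ (irr_isClassFunction χ)]
      exact hind1
    have h2 := restrict_eq_smul_of_invariant N' χ.2 hθ'irr (by rw [h1]; exact he0) hθ'inv
    intro n
    have h3 := congrFun h2 n
    rw [h1] at h3
    exact h3
  -- `χ` is invariant
  have hext : ∀ (x : Γ) (w : G), extendByZero N' θ' ⟨x * w * x⁻¹, hG.conj_mem w w.2 x⟩ =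
      extendByZero N' θ' w := by
    intro x w
    by_cases hw : w ∈ N'
    · have hw' : (⟨x * w * x⁻¹, hG.conj_mem w w.2 x⟩ : G) ∈ N' := by
        rw [Subgroup.mem_subgroupOf] at hw ⊢
        exact hN.conj_mem _ hw x
      rw [extendByZero_of_mem N' θ' hw, extendByZero_of_mem N' θ' hw']
      exact hinv x ⟨w, hw⟩
    · have hw' : (⟨x * w * x⁻¹, hG.conj_mem w w.2 x⟩ : G) ∉ N' := by
        intro h
        apply hw
        rw [Subgroup.mem_subgroupOf] at h ⊢
        have := hN.conj_mem _ h x⁻¹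
        simpa [mul_assoc] using this
      rw [extendByZero_of_notMem N' θ' hw, extendByZero_of_notMem N' θ' hw']
  have hχinv : ∀ x : Γ, cj G x (χ : G → ℂ) = χ := by
    intro x
    funext g
    have h1 : indFun N' θ' (cjEquiv G x g) = indFun N' θ' g := by
      unfold indFun
      congr 1
      refine (Fintype.sum_equiv (cjEquiv G x).toEquiv _ _ fun y => ?_).symm
      rw [← hext x]
      congr 1
      apply Subtype.ext
      simp [cjEquiv, mul_assoc]
    rw [hram] at h1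
    exact mul_left_cancel₀ he0 h1
  obtain ⟨χh, hχh, hχhG⟩ := exists_extension_of_cyclic G hcyc χ.2 hχinv
  -- the generator
  obtain ⟨x0, hx0⟩ := hcyc.exists_generator
  obtain ⟨x, rfl⟩ := QuotientGroup.mk_surjective x0
  have hgen : ∀ γ : Γ, ∃ j : ℤ, (x ^ j)⁻¹ * γ ∈ G := by
    intro γ
    obtain ⟨j, hj⟩ := Subgroup.mem_zpowers_iff.mp (hx0 (QuotientGroup.mk γ))
    refine ⟨j, ?_⟩
    rw [← QuotientGroup.eq]
    exact hj
  have hxG : x ∉ G := by
    intro hx
    apply hGlt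
    rw [Subgroup.eq_top_iff']
    intro γ
    obtain ⟨j, hj⟩ := hgen γ
    have := G.mul_mem (G.zpow_mem hx j) hj
    simpa using this
  set H : Subgroup Γ := (Subgroup.zpowers (QuotientGroup.mk' N x)).comap (QuotientGroup.mk' N) with hH
  have hmemH : ∀ h : Γ, h ∈ H ↔ ∃ j : ℤ, (x ^ j)⁻¹ * h ∈ N := by
    intro h
    rw [hH, Subgroup.mem_comap, Subgroup.mem_zpowers_iff]
    constructor
    · rintro ⟨j, hj⟩
      refine ⟨j, ?_⟩
      rw [← QuotientGroup.eq]; exact hj
    · rintro ⟨j, hj⟩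
      refine ⟨j, ?_⟩
      rw [← QuotientGroup.eq] at hj
      exact hj
  have hNH : N ≤ H := fun n hn => (hmemH n).mpr ⟨0, by simpa using hn⟩
  have hxH : x ∈ H := (hmemH x).mpr ⟨1, by simp⟩
  have hHG : ∀ h ∈ H, h ∈ G → h ∈ N := by
    intro h hh hg
    obtain ⟨j, hj⟩ := (hmemH h).mp hh
    have h1 : x ^ j ∈ G := by
      have := G.mul_mem hg (G.inv_mem (hNG hj))
      simpa using this
    have h2 : x ^ j ∈ N := by
      apply hfrob x hxG _ h1
      have : x * x ^ j * x⁻¹ * (x ^ j)⁻¹ = 1 := by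
        rw [← zpow_one_add, add_comm, zpow_add_one, mul_inv_cancel_right, mul_inv_cancel]
      rw [this]; exact N.one_mem
    have := N.mul_mem h2 hj
    simpa using this
  set M : Subgroup H := N.subgroupOf H with hM
  haveI hMn : M.Normal := Subgroup.normal_subgroupOf
  have hMG : M = G.subgroupOf H := by
    apply le_antisymm
    · intro h hh
      rw [Subgroup.mem_subgroupOf] at hh ⊢
      exact hNG hh
    · intro h hh
      rw [Subgroup.mem_subgroupOf] at hh ⊢
      exact hHG _ h.2 hh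
  have hHGtop : H ⊔ G = ⊤ := by
    rw [Subgroup.eq_top_iff']
    intro γ
    obtain ⟨j, hj⟩ := hgen γ
    have h1 : x ^ j ∈ H ⊔ G := Subgroup.mem_sup_left (H.zpow_mem hxH j)
    have := (H ⊔ G).mul_mem h1 (Subgroup.mem_sup_right hj)
    simpa using this
  have hidx : M.index = G.index := by
    have h1 : G.relIndex (H ⊔ G) = G.relIndex H := Subgroup.relIndex_sup_right H G
    rw [hHGtop, Subgroup.relIndex_top_right] at h1
    rw [h1, hMG]; rfl
  haveI : Fintype H := Fintype.ofFinite H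
  haveI : Fintype M := Fintype.ofFinite M
  haveI : Fintype (H ⧸ M) := Fintype.ofFinite _
  -- the quotient is cyclic
  have hcycM : IsCyclic (H ⧸ M) := by
    refine ⟨⟨QuotientGroup.mk ⟨x, hxH⟩, fun q => ?_⟩⟩
    obtain ⟨h, rfl⟩ := QuotientGroup.mk_surjective q
    obtain ⟨j, hj⟩ := (hmemH h).mp h.2
    refine ⟨j, ?_⟩
    show (QuotientGroup.mk ⟨x, hxH⟩ : H ⧸ M) ^ j = QuotientGroup.mk h
    rw [← QuotientGroup.mk_zpow, QuotientGroup.eq, Subgroup.mem_subgroupOf]
    simpa using hj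
  -- the extension of `θ`
  set θM : M → ℂ := fun m => (θ : N → ℂ) ⟨(m : H), m.2⟩ with hθM
  have hθMirr : IsIrrCharacter M θM :=
    isIrrCharacter_comp_surjective θ.2 (Subgroup.subgroupOfEquivOfLe hNH).toMonoidHom
      (Subgroup.subgroupOfEquivOfLe hNH).surjective
  have hθMinv : ∀ g : H, cj M g θM = θM := by
    intro g; funext n
    exact hinv g ⟨(n : H), n.2⟩
  obtain ⟨θh, hθh, hθhM⟩ := exists_extension_of_cyclic M hcycM hθMirr hθMinv
  have hχ1 : ∀ n : Γ, ∀ hn : n ∈ N, χh n = e * (θ : N → ℂ) ⟨n, hn⟩ := by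
    intro n hn
    have h1 := hχhG ⟨n, hNG hn⟩
    have h2 := hχN ⟨⟨n, hNG hn⟩, hn⟩
    rw [← h1] at h2
    exact h2
  have hθhN : (fun m : M => θh m) = θM := funext hθhM
  have hXchar : IsCharacter H (fun h : H => χh h) :=
    isCharacter_restrict (isCharacter_of_isIrr hχh) H
  obtain ⟨ψ, hψ, hψX⟩ := exists_factor M hθh (by rw [hθhN]; exact hθMirr) hXchar (e : ℂ) (by
    intro m
    rw [hθhM m]
    exact hχ1 _ m.2)
  -- `|ψ| = 1` off the identity
  have hψ1 : ∀ q : H ⧸ M, q ≠ 1 → ψ q * conj (ψ q) = 1 := by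
    intro q hq
    obtain ⟨h, rfl⟩ := QuotientGroup.mk_surjective q
    have hhM : h ∉ M := fun hh => hq ((QuotientGroup.eq_one_iff h).mpr hh)
    have hhG : (h : Γ) ∉ G := by
      rw [hMG] at hhM
      exact hhM
    have s1 := H79.sum_coset_mul_inv G ⟨χh, hχh⟩ (by
      have : (fun n : G => χh n) = (χ : G → ℂ) := funext hχhG
      show IsIrrCharacter G (fun n : G => χh n)
      rw [this]; exact χ.2) (h : Γ)
    have s2 := H79.sum_coset_mul_inv M ⟨θh, hθh⟩ (by
      show IsIrrCharacter M (fun n : M => θh n)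
      rw [hθhN]; exact hθMirr) h
    have s3 := coset_sum G N hNG (h : Γ) (by
      intro u hu n hn n' hn' he
      have h1 : (h : Γ) * u⁻¹ * (h : Γ)⁻¹ * u⁻¹⁻¹ = n⁻¹ * (u⁻¹ * n' * u) := by
        have h2 : n' = u * (n * h) * u⁻¹ * (h : Γ)⁻¹ := by
          rw [he]; group
        rw [h2]; group
      have h3 : u⁻¹ ∈ N := by
        apply hfrob h hhG _ (G.inv_mem hu)
        rw [h1]
        have h4 := hN.conj_mem _ hn' u⁻¹
        rw [inv_inv] at h4
        exact N.mul_mem (N.inv_mem hn) h4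
      simpa using N.inv_mem h3) (fun y => χh y * χh y⁻¹) (by
      intro y g
      have hcl := isClassFunction_of_isCharacter (isCharacter_of_isIrr hχh)
      have e1 : χh (g * y * g⁻¹) = χh y := hcl y g
      have e2 : χh (g * y * g⁻¹)⁻¹ = χh y⁻¹ := by
        have : (g * y * g⁻¹)⁻¹ = g * y⁻¹ * g⁻¹ := by group
        rw [this]; exact hcl _ g
      show χh (g * y * g⁻¹) * χh (g * y * g⁻¹)⁻¹ = _
      rw [e1, e2])
    have s1' : ∑ g : G, (χh (g * h) * χh ((g : Γ) * h)⁻¹) = (Nat.card G : ℂ) := s1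
    have s2' : ∑ n : M, (θh (n * h) * θh ((n : H) * h)⁻¹) = (Nat.card M : ℂ) := s2
    have hcardG : (Nat.card G : ℂ) ≠ 0 := card_ne_zero_complex G
    have hcardN : (Nat.card N : ℂ) ≠ 0 := card_ne_zero_complex N
    have s4 : ∑ n : N, (χh (n * h) * χh ((n : Γ) * h)⁻¹) = (Nat.card N : ℂ) := by
      have s3' : (Nat.card N : ℂ) * ∑ g : G, (χh (g * h) * χh ((g : Γ) * h)⁻¹) =
        (Nat.card G : ℂ) * ∑ n : N, (χh (n * h) * χh ((n : Γ) * h)⁻¹) := s3
      rw [s1'] at s3'
      exact (mul_left_cancel₀ hcardG ((mul_comm _ _).trans s3')).symm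
    have s5 : ∑ n : N, (χh (n * h) * χh ((n : Γ) * h)⁻¹) =
        (ψ (QuotientGroup.mk h) * conj (ψ (QuotientGroup.mk h))) * (Nat.card M : ℂ) := by
      rw [← s2', Finset.mul_sum]
      refine Fintype.sum_equiv (Subgroup.subgroupOfEquivOfLe hNH).symm.toEquiv _ _ fun n => ?_
      have e1 : χh (n * h) = ψ (QuotientGroup.mk h) * θh (⟨n, hNH n.2⟩ * h) := by
        have h1 := hψX (⟨n, hNH n.2⟩ * h)
        have h2 : (QuotientGroup.mk (⟨n, hNH n.2⟩ * h) : H ⧸ M) = QuotientGroup.mk h := by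
          rw [QuotientGroup.mk_mul, (QuotientGroup.eq_one_iff (⟨n, hNH n.2⟩ : H)).mpr n.2, one_mul]
        rw [h2] at h1
        exact h1
      have e2 : χh ((n : Γ) * h)⁻¹ = conj (χh (n * h)) := isCharacter_inv (isCharacter_of_isIrr hχh) _
      have e3 : θh ((⟨n, hNH n.2⟩ : H) * h)⁻¹ = conj (θh (⟨n, hNH n.2⟩ * h)) :=
        isCharacter_inv (isCharacter_of_isIrr hθh) _
      have e4 : (((Subgroup.subgroupOfEquivOfLe hNH).symm.toEquiv n : M) : H) = ⟨n, hNH n.2⟩ := rfl
      rw [e4, e3, e2, e1, map_mul]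
      ring
    have hcM : Nat.card M = Nat.card N := Nat.card_congr (Subgroup.subgroupOfEquivOfLe hNH).toEquiv
    rw [s4, hcM] at s5
    exact (mul_right_cancel₀ hcardN ((one_mul _).trans s5)).symm
  have hcommS : ∀ a b : H ⧸ M, a * b = b * a := by
    intro a b
    letI := hcycM.commGroup
    exact mul_comm a b
  obtain ⟨c, ε, l, hε, -, hψ2⟩ := H74.eq_rho_pm hcommS ψ hψ (QuotientGroup.mk ⟨x, hxH⟩) (by
    intro h
    rw [QuotientGroup.eq_one_iff] at h
    exact hxG (hNG h)) hψ1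
  have hψe : ψ 1 = e := by
    have h1 := hψX 1
    have h2 : χh ((1 : H) : Γ) = e * θh 1 := by
      have := hχ1 1 N.one_mem
      have h3 := hθhM 1
      rw [OneMemClass.coe_one] at h3
      rw [OneMemClass.coe_one, h3]
      exact this
    rw [h2, QuotientGroup.mk_one] at h1
    exact (mul_right_cancel₀ (irr_one_ne_zero hθh) h1).symm
  rw [hψe] at hψ2
  have hfin : (e : ℤ) = (G.index : ℤ) * c + ε := by
    have : Nat.card (H ⧸ M) = G.index := hidx
    rw [this] at hψ2
    exact_mod_cast hψ2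
  rcases hε with rfl | rfl
  · left; exact ⟨c, by rw [hfin]; ring⟩
  · right; exact ⟨c, by rw [hfin]; ring⟩

/-- Let N ≤ G be normal subgroups of the finite group Γ with Γ/G cyclic and Γ/N a Frobenius group with kernel G/N: G ≠ Γ, N ≠ G, and no element of Γ outside G fixes a non-identity coset of N in G under conjugation. Let ϑ be an irreducible character of N invariant under conjugation by Γ and suppose ϑ is fully ramified in G: the character of G induced from ϑ equals e·χ for an irreducible character χ of G and a natural number e. Then the index of G in Γ divides e − 1 or e + 1. -/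
theorem result {Γ : Type*} [Group Γ] [Fintype Γ] (G N : Subgroup Γ) [hG : G.Normal] [hN : N.Normal] [Fintype G] [Fintype N] (hNG : N ≤ G) (hGlt : G ≠ ⊤) (hNlt : N ≠ G) (hcyc : IsCyclic (Γ ⧸ G)) (hfrob : ∀ x : Γ, x ∉ G → ∀ g : Γ, g ∈ G → x * g * x⁻¹ * g⁻¹ ∈ N → g ∈ N) (θ : Cfsg.IrrCharacter N) (hinv : ∀ (x : Γ) (n : N), (θ : N → ℂ) ⟨x * n * x⁻¹, hN.conj_mem n n.2 x⟩ = (θ : N → ℂ) n) (χ : Cfsg.IrrCharacter G) (e : ℕ) (hram : Cfsg.indFun (N.subgroupOf G) (fun n : N.subgroupOf G => (θ : N → ℂ) ⟨(n : G), n.2⟩) = fun g => (e : ℂ) * (χ : G → ℂ) g) : (G.index : ℤ) ∣ (e : ℤ) - 1 ∨ (G.index : ℤ) ∣ (e : ℤ) + 1 := by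
  exact key G N hNG hGlt hcyc hfrob θ hinv χ e hram

end Cfsg.Agent.S4454
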