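import Cfsg.Statements.S4455
import Cfsg.Agent.Glaub.Over

set_option autoImplicit false
set_option linter.style.haveILetI false
open Cfsg

namespace Cfsg.Agent.S4455

open Cfsg.Agent.CharBase Cfsg.Agent.Char Cfsg.Agent.Glaub

/-- Fix a prime p and a finite group G. Let s be the sum of χ(1)² over the irreducible characters χ of G whose degree is not divisible by p and whose determinantal order o(χ) is not divisible by p. Then the order of O^p(G), the subgroup generated by the elements of order prime to p, is congruent to s modulo p. -/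
theorem result {G : Type*} [Group G] [Finite G] (p : ℕ) (hp : p.Prime) : (Nat.card (Cfsg.pResidual p G) : ℤ) ≡ (∑ᶠ χ ∈ {χ : Cfsg.IrrCharacter G | ¬ p ∣ Cfsg.charDegree (χ : G → ℂ) ∧ ¬ p ∣ Cfsg.detOrder (χ : G → ℂ)}, (Cfsg.charDegree (χ : G → ℂ) : ℤ) ^ 2) [ZMOD p] := by
  classical
  haveI : Fact p.Prime := ⟨hp⟩
  haveI : Fintype (IrrCharacter G) := Fintype.ofFinite _
  rw [← ZMod.intCast_eq_intCast_iff]
  have h1 := residual_congr (G := G) p
  have h2 : (∑ᶠ χ ∈ {χ : Cfsg.IrrCharacter G | ¬ p ∣ Cfsg.charDegree (χ : G → ℂ) ∧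
      ¬ p ∣ Cfsg.detOrder (χ : G → ℂ)}, (Cfsg.charDegree (χ : G → ℂ) : ℤ) ^ 2) =
      ∑ χ ∈ Finset.univ.filter (fun χ : IrrCharacter G => ¬ p ∣ charDegree (χ : G → ℂ) ∧
        ¬ p ∣ detOrder (χ : G → ℂ)), (Cfsg.charDegree (χ : G → ℂ) : ℤ) ^ 2 := by
    rw [finsum_mem_eq_finite_toFinset_sum _ (Set.toFinite _)]
    refine Finset.sum_congr ?_ fun _ _ => rfl
    ext χ
    simp
  rw [h2]
  push_cast
  rw [h1]

end Cfsg.Agent.S4455
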