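import Cfsg.Statements.S4457
import Cfsg.Agent.H75.TwoDeg3

set_option autoImplicit false
open Cfsg

namespace Cfsg.Agent.S4457

/-- Let G be a finite group whose irreducible character degrees are exactly 1 and m (m ≠ 1). Then either G has an abelian normal subgroup of index m, or m is a power of a prime p and G is the direct product of a p-group and an abelian group: there are normal subgroups P and A with P a p-group, A abelian, P ⊓ A = 1 and P ⊔ A = G. -/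
theorem result {G : Type*} [Group G] [Finite G] (m : ℕ) (hcd : ∀ χ : Cfsg.IrrCharacter G, Cfsg.charDegree (χ : G → ℂ) = 1 ∨ Cfsg.charDegree (χ : G → ℂ) = m) (hm : ∃ χ : Cfsg.IrrCharacter G, Cfsg.charDegree (χ : G → ℂ) = m) (hm1 : m ≠ 1) : (∃ A : Subgroup G, A.Normal ∧ (∀ a ∈ A, ∀ b ∈ A, a * b = b * a) ∧ A.index = m) ∨ ∃ p e : ℕ, p.Prime ∧ m = p ^ e ∧ ∃ P A : Subgroup G, P.Normal ∧ A.Normal ∧ IsPGroup p P ∧ (∀ a ∈ A, ∀ b ∈ A, a * b = b * a) ∧ P ⊓ A = ⊥ ∧ P ⊔ A = ⊤ := by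
  classical
  have hcd' : ∀ χ : IrrCharacter G, Cfsg.Agent.H75.deg χ = 1 ∨ Cfsg.Agent.H75.deg χ = m := fun χ => by
    rw [← Cfsg.Agent.H75.charDegree_eq_deg]; exact hcd χ
  have hm' : ∃ χ : IrrCharacter G, Cfsg.Agent.H75.deg χ = m := by
    obtain ⟨χ, hχ⟩ := hm
    exact ⟨χ, by rw [← Cfsg.Agent.H75.charDegree_eq_deg]; exact hχ⟩
  rcases Cfsg.Agent.H75.TwoDeg.two_deg m hcd' hm' with h | h
  · exact Or.inl h
  · exact Or.inr (Cfsg.Agent.H75.TwoDeg.two_deg_nilpotent m hcd' hm' hm1)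

end Cfsg.Agent.S4457
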