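import Cfsg.Statements.S4459
import Cfsg.Agent.H75.TwoDeg4

set_option autoImplicit false
open Cfsg

namespace Cfsg.Agent.S4459

/-- Let G be a non-abelian finite group and p a prime. Then the irreducible character degrees of G are exactly 1 and p if and only if either G has an abelian normal subgroup of index p or the centre of G has index p³. -/
theorem result {G : Type*} [Group G] [Finite G] (hG : ∃ a b : G, a * b ≠ b * a) (p : ℕ) (hp : p.Prime) : ((∀ χ : Cfsg.IrrCharacter G, Cfsg.charDegree (χ : G → ℂ) = 1 ∨ Cfsg.charDegree (χ : G → ℂ) = p) ∧ ∃ χ : Cfsg.IrrCharacter G, Cfsg.charDegree (χ : G → ℂ) = p) ↔ ((∃ A : Subgroup G, A.Normal ∧ (∀ a ∈ A, ∀ b ∈ A, a * b = b * a) ∧ A.index = p) ∨ (Subgroup.center G).index = p ^ 3) := by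
  classical
  haveI := Fintype.ofFinite G
  open Cfsg.Agent.H75 Cfsg.Agent.CharBase in
  simp only [charDegree_eq_deg]
  have hex : (∀ χ : IrrCharacter G, Cfsg.Agent.H75.deg χ = 1 ∨ Cfsg.Agent.H75.deg χ = p) →
      ∃ χ : IrrCharacter G, Cfsg.Agent.H75.deg χ = p := by
    intro h
    by_contra hcon
    push Not at hcon
    obtain ⟨a, b, hab⟩ := hG
    apply hab
    apply Cfsg.Agent.H75.comm_of_forall_linear
    intro χ
    rw [Cfsg.Agent.H75.deg_spec, (h χ).resolve_right (hcon χ), Nat.cast_one]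
  constructor
  · rintro ⟨hcd, hm⟩
    rcases Cfsg.Agent.H75.TwoDeg.two_deg p hcd hm with h | h
    · exact Or.inl h
    · exact Cfsg.Agent.H75.TwoDeg.structure_nilpotent p hp hcd hm
  · rintro (⟨A, hAn, hA, hAi⟩ | hZ)
    · have h1 : ∀ χ : IrrCharacter G, Cfsg.Agent.H75.deg χ = 1 ∨ Cfsg.Agent.H75.deg χ = p := by
        intro χ
        have h2 := Cfsg.Agent.H75.ito χ A hA
        rw [hAi] at h2
        exact (Nat.dvd_prime hp).mp h2
      exact ⟨h1, hex h1⟩
    · have h1 : ∀ χ : IrrCharacter G, Cfsg.Agent.H75.deg χ = 1 ∨ Cfsg.Agent.H75.deg χ = p := by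
        intro χ
        have h2 := Cfsg.Agent.H75.ito χ (Subgroup.center G)
          (fun a ha b _ => (Subgroup.mem_center_iff.mp ha b).symm)
        rw [hZ] at h2
        have h3 := Cfsg.Agent.Coh.degree_sq_le_index χ.2 (Subgroup.center G) (fun d hd =>
          Cfsg.Agent.Coh.norm_sq_of_central_mod χ.2 (fun x => by
            rw [Subgroup.mem_center_iff.mp hd x, mul_inv_cancel_right, inv_mul_cancel]))
            (Cfsg.Agent.H75.deg_spec χ)
        rw [hZ] at h3
        obtain ⟨j, -, hj⟩ := (Nat.dvd_prime_pow hp).mp h2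
        rw [hj, ← pow_mul] at h3
        have h4 : j * 2 ≤ 3 := (Nat.pow_le_pow_iff_right hp.one_lt).mp h3
        have h5 : j = 0 ∨ j = 1 := by omega
        rcases h5 with rfl | rfl
        · left; rw [hj, pow_zero]
        · right; rw [hj, pow_one]
      exact ⟨h1, hex h1⟩

end Cfsg.Agent.S4459
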