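import Cfsg.Statements.S4465
import Cfsg.Agent.H69.Blich4

set_option autoImplicit false
open Cfsg

namespace Cfsg.Agent.S4465

open Cfsg.Agent.H69 Cfsg.Agent.CharBase

/-- Let the finite group G have a faithful character χ of degree n (G is a linear group of degree n), and let π be the set of primes greater than n + 1. Then G has an abelian Hall π-subgroup: an abelian subgroup A whose order is divisible only by primes greater than n + 1 and whose index is divisible by no prime greater than n + 1. -/
theorem result {G : Type*} [Group G] [Finite G] (χ : G → ℂ) (hχ : Cfsg.IsCharacter G χ) (hfaith : ∀ g : G, χ g = χ 1 → g = 1) (n : ℕ) (hn : Cfsg.charDegree χ = n) : ∃ A : Subgroup G, (∀ x ∈ A, ∀ y ∈ A, x * y = y * x) ∧ (∀ q : ℕ, q.Prime → q ∣ Nat.card A → n + 1 < q) ∧ ∀ q : ℕ, q.Prime → q ∣ A.index → q ≤ n + 1 := by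
  have hn' : χ 1 = n := by
    obtain ⟨d, hd⟩ := exists_nat_degree hχ
    have : d = n := by
      rw [← hn, Cfsg.charDegree, hd]; simp
    rw [hd, this]
  obtain ⟨H, h1, h2⟩ := blichfeldt n (Nat.card G) G le_rfl χ hχ hfaith hn'
  refine ⟨H, ?_, h1, fun q hq hqd => not_lt.mp (h2 q hq hqd)⟩
  intro x hx y hy
  have h3 := abelian_of_char (G := H) (isCharacter_restrict hχ H)
    (fun g hg => Subtype.ext (hfaith g hg)) (n := n) hn'
    (fun p hp hpd => by have := h1 p hp hpd; omega) ⟨x, hx⟩ ⟨y, hy⟩
  exact congrArg Subtype.val h3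

end Cfsg.Agent.S4465
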