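import Cfsg.Statements.S4469
import Cfsg.Agent.H69.Blich4
import Cfsg.Agent.H69.MonoIndex
import Cfsg.Agent.S4470
import Mathlib.NumberTheory.PrimeCounting

set_option autoImplicit false
set_option linter.style.haveILetI false
open Cfsg

namespace Cfsg.Agent.S4469

open Cfsg.Agent.H69 Cfsg.Agent.CharBase Subgroup

/-- The classical bound for finite linear groups, in explicit form. Let the finite group G have a faithful character of degree n. Then G has an abelian normal subgroup whose index is at most n! · 12^(n·(π(n+1)+1)), π(k) denoting the number of primes not exceeding k. -/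
theorem result {G : Type*} [Group G] [Finite G] (χ : G → ℂ) (hχ : Cfsg.IsCharacter G χ) (hfaith : ∀ g : G, χ g = χ 1 → g = 1) (n : ℕ) (hn : Cfsg.charDegree χ = n) : ∃ A : Subgroup G, A.Normal ∧ (∀ x ∈ A, ∀ y ∈ A, x * y = y * x) ∧ A.index ≤ Nat.factorial n * 12 ^ (n * (Nat.primeCounting (n + 1) + 1)) := by
  classical
  have hn' : χ 1 = n := by
    obtain ⟨d, hd⟩ := exists_nat_degree hχ
    have : d = n := by
      rw [← hn, Cfsg.charDegree, hd]; simp
    rw [hd, this]
  obtain ⟨A, hAn, hAc, hA⟩ := Cfsg.Agent.S4470.result χ hχ hfaith n hn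
  refine ⟨A, hAn, hAc, ?_⟩
  set m := A.index with hm
  have hm0 : m ≠ 0 := index_ne_zero_of_finite
  -- small primes
  have hsmall : ∀ p : ℕ, p.Prime → p ^ m.factorization p ≤ p ^ (n.factorial).factorization p * 12 ^ n := by
    intro p hp
    haveI : Fact p.Prime := ⟨hp⟩
    obtain ⟨P⟩ : Nonempty (Sylow p G) := inferInstance
    -- p-part of the index
    have h1 : p ^ m.factorization p ∣ A.relIndex P := by
      have e1 : A.index = A.relIndex ((P : Subgroup G) ⊔ A) * ((P : Subgroup G) ⊔ A).index :=
        (relIndex_mul_index le_sup_right).symm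
      have e2 : A.relIndex ((P : Subgroup G) ⊔ A) = A.relIndex P :=
        Cop.relIndex_sup_eq (by rw [normalizer_eq_top]; exact le_top)
      rw [e2] at e1
      have e3 : (p ^ m.factorization p).Coprime ((P : Subgroup G) ⊔ A).index := by
        apply Nat.Coprime.pow_left
        rw [hp.coprime_iff_not_dvd]
        intro h
        exact P.not_dvd_index (h.trans (index_dvd_of_le le_sup_left))
      have e4 : p ^ m.factorization p ∣ A.relIndex P * ((P : Subgroup G) ⊔ A).index := by
        rw [← e1]; exact Nat.ordProj_dvd m p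
      exact e3.dvd_of_dvd_mul_right e4
    obtain ⟨B, hBc, hBi⟩ := exists_abelian_index_dvd (G := (P : Subgroup G))
      (P.2.isNilpotent) (isCharacter_restrict hχ (P : Subgroup G))
      (fun g hg => Subtype.ext (hfaith g hg)) (n := n) hn'
    set B' : Subgroup G := B.map (P : Subgroup G).subtype with hB'
    have hB'P : B' ≤ P := map_subtype_le _
    have hB'c : ∀ x ∈ B', ∀ y ∈ B', x * y = y * x := by
      rintro _ ⟨x, hx, rfl⟩ _ ⟨y, hy, rfl⟩
      exact congrArg Subtype.val (hBc x hx y hy)
    have h2 := hA B' hB'c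
    have h3 : B'.relIndex P = B.index := by
      rw [relIndex, hB', subgroupOf, comap_map_eq_self_of_injective (P : Subgroup G).subtype_injective]
    have h4 : B.index ≤ p ^ (n.factorial).factorization p := by
      obtain ⟨k, hk⟩ := (IsPGroup.iff_card (p := p)).mp P.2
      have h5 : B.index ∣ p ^ k := by rw [← hk]; exact index_dvd_card B
      obtain ⟨j, -, hj⟩ := (Nat.dvd_prime_pow hp).mp h5
      rw [hj] at hBi ⊢
      apply Nat.pow_le_pow_right hp.pos
      exact (hp.pow_dvd_iff_le_factorization (Nat.factorial_ne_zero n)).mp hBi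
    have h5 : A.relIndex P ≤ B.index * 12 ^ n := by
      have e1 : A.relIndex P ∣ (A ⊓ B').relIndex P := relIndex_dvd_of_le_left _ inf_le_left
      have e2 : (A ⊓ B').relIndex P = (A ⊓ B').relIndex B' * B'.relIndex P :=
        (relIndex_mul_relIndex _ _ _ inf_le_right hB'P).symm
      rw [inf_relIndex_right] at e2
      have e3 : (A ⊓ B').relIndex P ≠ 0 := index_ne_zero_of_finite
      refine (Nat.le_of_dvd (Nat.pos_of_ne_zero e3) e1).trans ?_
      rw [e2, h3, mul_comm]
      exact Nat.mul_le_mul_left _ h2
    have h6 : A.relIndex P ≠ 0 := index_ne_zero_of_finite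
    calc p ^ m.factorization p ≤ A.relIndex P := Nat.le_of_dvd (Nat.pos_of_ne_zero h6) h1
      _ ≤ B.index * 12 ^ n := h5
      _ ≤ _ := Nat.mul_le_mul_right _ h4
  -- large primes
  obtain ⟨H, hH1, hH2⟩ := blichfeldt n (Nat.card G) G le_rfl χ hχ hfaith hn'
  have hHc : ∀ x ∈ H, ∀ y ∈ H, x * y = y * x := by
    intro x hx y hy
    have h3 := abelian_of_char (G := H) (isCharacter_restrict hχ H)
      (fun g hg => Subtype.ext (hfaith g hg)) (n := n) hn'
      (fun p hp hpd => by have := hH1 p hp hpd; omega) ⟨x, hx⟩ ⟨y, hy⟩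
    exact congrArg Subtype.val h3
  set m₂ := ∏ p ∈ m.primeFactors.filter (fun p => ¬ p ≤ n + 1), p ^ m.factorization p with hm₂
  set m₁ := ∏ p ∈ m.primeFactors.filter (fun p => p ≤ n + 1), p ^ m.factorization p with hm₁
  have hmm : m₁ * m₂ = m := by
    rw [hm₁, hm₂, Finset.prod_filter_mul_prod_filter_not]
    exact Nat.prod_factorization_pow_eq_self hm0
  have hlarge : m₂ ≤ 12 ^ n := by
    have e1 : A.index = A.relIndex (H ⊔ A) * (H ⊔ A).index :=
      (relIndex_mul_index le_sup_right).symm
    have e2 : A.relIndex (H ⊔ A) = A.relIndex H :=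
      Cop.relIndex_sup_eq (by rw [normalizer_eq_top]; exact le_top)
    rw [e2] at e1
    have e3 : m₂.Coprime (H ⊔ A).index := by
      rw [hm₂]
      apply Nat.Coprime.prod_left
      intro p hp
      rw [Finset.mem_filter] at hp
      have hpp := Nat.prime_of_mem_primeFactors hp.1
      apply Nat.Coprime.pow_left
      rw [hpp.coprime_iff_not_dvd]
      intro h
      exact hH2 p hpp (h.trans (index_dvd_of_le le_sup_left)) (by omega)
    have e4 : m₂ ∣ A.relIndex H * (H ⊔ A).index := by
      rw [← e1, ← hm, ← hmm]; exact dvd_mul_left _ _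
    have e5 : m₂ ∣ A.relIndex H := e3.dvd_of_dvd_mul_right e4
    have h6 : A.relIndex H ≠ 0 := index_ne_zero_of_finite
    exact (Nat.le_of_dvd (Nat.pos_of_ne_zero h6) e5).trans (hA H hHc)
  -- the small part
  set S := Finset.filter Nat.Prime (Finset.range (n + 2)) with hS
  have hScard : S.card = Nat.primeCounting (n + 1) := by
    rw [Nat.primeCounting, Nat.primeCounting', hS, Nat.count_eq_card_filter_range]
  have hsm : m₁ ≤ n.factorial * 12 ^ (n * Nat.primeCounting (n + 1)) := by
    have h1 : m₁ ≤ ∏ p ∈ S, p ^ m.factorization p := by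
      rw [hm₁]
      apply Finset.prod_le_prod_of_subset_of_one_le'
      · intro p hp
        rw [Finset.mem_filter] at hp
        rw [hS, Finset.mem_filter, Finset.mem_range]
        exact ⟨by omega, Nat.prime_of_mem_primeFactors hp.1⟩
      · intro p hp _
        rw [hS, Finset.mem_filter] at hp
        exact Nat.one_le_pow _ _ hp.2.pos
    have h2 : ∏ p ∈ S, p ^ m.factorization p ≤
        ∏ p ∈ S, (p ^ (n.factorial).factorization p * 12 ^ n) := by
      apply Finset.prod_le_prod (fun _ _ => Nat.zero_le _)
      intro p hp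
      rw [hS, Finset.mem_filter] at hp
      exact hsmall p hp.2
    have h3 : ∏ p ∈ S, (p ^ (n.factorial).factorization p * 12 ^ n) =
        n.factorial * 12 ^ (n * Nat.primeCounting (n + 1)) := by
      rw [Finset.prod_mul_distrib, Finset.prod_const, hScard, ← pow_mul]
      congr 1
      conv_rhs => rw [← Nat.prod_factorization_pow_eq_self (Nat.factorial_ne_zero n)]
      symm
      apply Finsupp.prod_of_support_subset
      · intro p hp
        rw [Nat.support_factorization] at hp
        have hpp := Nat.prime_of_mem_primeFactors hp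
        have hpd := Nat.dvd_of_mem_primeFactors hp
        rw [hS, Finset.mem_filter, Finset.mem_range]
        have := (hpp.dvd_factorial).mp hpd
        exact ⟨by omega, hpp⟩
      · intro p _; exact pow_zero p
    rw [← h3]
    exact h1.trans h2
  rw [← hmm]
  calc m₁ * m₂ ≤ (n.factorial * 12 ^ (n * Nat.primeCounting (n + 1))) * 12 ^ n :=
        Nat.mul_le_mul hsm hlarge
    _ = n.factorial * 12 ^ (n * (Nat.primeCounting (n + 1) + 1)) := by
        rw [mul_assoc, ← pow_add, mul_add, mul_one]

end Cfsg.Agent.S4469
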