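import Cfsg.Statements.S4471
import Cfsg.Agent.BLP.Main

set_option autoImplicit false
open Cfsg

namespace Cfsg.Agent.S4471

/-- Let p ≥ 7 be a prime and let the finite group G have a faithful irreducible character of degree n with n < 2p and n ≠ p. If the Sylow p-subgroups of G are non-abelian then p² does not divide the index of O_p(G) in G; consequently, in every case G/O_p(G) has abelian Sylow p-subgroups. -/
theorem result {G : Type*} [Group G] [Finite G] (χ : Cfsg.IrrCharacter G) (hfaith : ∀ g : G, (χ : G → ℂ) g = (χ : G → ℂ) 1 → g = 1) (n : ℕ) (hn : Cfsg.charDegree (χ : G → ℂ) = n) (p : ℕ) (hp : p.Prime) (h7 : 7 ≤ p) (hn2 : n < 2 * p) (hnp : n ≠ p) : ((∃ P : Sylow p G, ∃ x ∈ (P : Subgroup G), ∃ y ∈ (P : Subgroup G), x * y ≠ y * x) → ¬ p ^ 2 ∣ (Cfsg.pCore p G).index) ∧ ∀ Q : Sylow p (G ⧸ Cfsg.pCore p G), ∀ x ∈ (Q : Subgroup (G ⧸ Cfsg.pCore p G)), ∀ y ∈ (Q : Subgroup (G ⧸ Cfsg.pCore p G)), x * y = y * x := by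
  have : Fact p.Prime := ⟨hp⟩
  have hn1 : (χ : G → ℂ) 1 = n := by
    obtain ⟨d, hd⟩ := Cfsg.Agent.CharBase.exists_nat_degree (Cfsg.Agent.CharBase.irr_isCharacter χ)
    rw [← hn, Cfsg.charDegree, hd]
    simp
  have h1 : (∃ P : Sylow p G, ∃ x ∈ (P : Subgroup G), ∃ y ∈ (P : Subgroup G), x * y ≠ y * x) →
      ¬ p ^ 2 ∣ (Cfsg.pCore p G).index := by
    rintro ⟨P, hP⟩
    exact Cfsg.Agent.BLP.main χ.2 hfaith n hn1 p h7 hn2 hnp (P : Subgroup G) P.2 hP
  refine ⟨h1, ?_⟩
  intro Q x hx y hy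
  by_cases hab : ∃ P : Sylow p G, ∃ x ∈ (P : Subgroup G), ∃ y ∈ (P : Subgroup G), x * y ≠ y * x
  · -- the Sylow subgroup of the quotient has order at most `p`
    have h2 := h1 hab
    have hcard : Nat.card (G ⧸ Cfsg.pCore p G) = (Cfsg.pCore p G).index := rfl
    obtain ⟨k, hk⟩ := IsPGroup.iff_card.mp Q.2
    have hk1 : k ≤ 1 := by
      by_contra hcon
      apply h2
      rw [← hcard]
      exact (pow_dvd_pow p (by omega : 2 ≤ k)).trans (hk ▸ Subgroup.card_subgroup_dvd_card (Q : Subgroup (G ⧸ Cfsg.pCore p G)))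
    have hcyc : IsCyclic Q := by
      interval_cases k
      · rw [pow_zero] at hk
        have : Subsingleton Q := (Nat.card_eq_one_iff_unique.mp hk).1
        exact isCyclic_of_subsingleton
      · rw [pow_one] at hk
        exact isCyclic_of_prime_card hk
    let _ : CommGroup Q := hcyc.commGroup
    exact congrArg Subtype.val (mul_comm (⟨x, hx⟩ : Q) ⟨y, hy⟩)
  · push Not at hab
    have hker : Function.Surjective (QuotientGroup.mk' (Cfsg.pCore p G)) := QuotientGroup.mk'_surjective _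
    obtain ⟨P, hP⟩ := Sylow.mapSurjective_surjective hker p Q
    have hP' : (Q : Subgroup (G ⧸ Cfsg.pCore p G)) = (P : Subgroup G).map (QuotientGroup.mk' (Cfsg.pCore p G)) := by
      rw [← hP]; rfl
    rw [hP'] at hx hy
    obtain ⟨a, ha, rfl⟩ := hx
    obtain ⟨b, hb, rfl⟩ := hy
    rw [← map_mul, ← map_mul, hab P a ha b hb]

end Cfsg.Agent.S4471
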