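import Cfsg.Statements.S4475

import Cfsg.Agent.H74.FSForm

set_option autoImplicit false
open Cfsg

namespace Cfsg.Agent.S4475

open Cfsg.Agent.CharBase Cfsg.Agent.S0158
open scoped ComplexConjugate

/-- Let ρ be an irreducible representation of the finite group G on the coordinate space Fin n → ℂ whose character χ is real-valued, and let ν be the Frobenius–Schur indicator of χ (the average of χ(s²)). Writing X(g) for the matrix of ρ(g), there is a nonzero matrix M with X(g)ᵀ M X(g) = M for all g ∈ G; and every such M (zero or not) satisfies Mᵀ = ν·M. -/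
theorem result {G : Type*} [Group G] [Fintype G] (n : ℕ) (ρ : Representation ℂ G (Fin n → ℂ)) (hirr : ρ.IsIrreducible) (hreal : ∀ g : G, (ρ.character g).im = 0) : (∃ M : Matrix (Fin n) (Fin n) ℂ, M ≠ 0 ∧ ∀ g : G, (LinearMap.toMatrix' (ρ g)).transpose * M * LinearMap.toMatrix' (ρ g) = M) ∧ ∀ M : Matrix (Fin n) (Fin n) ℂ, (∀ g : G, (LinearMap.toMatrix' (ρ g)).transpose * M * LinearMap.toMatrix' (ρ g) = M) → M.transpose = ((Nat.card G : ℂ)⁻¹ * ∑ s : G, ρ.character (s * s)) • M := by
  haveI := hirr
  obtain ⟨htr, hirr', hker⟩ := matrix_facts ρ (Pi.basisFun ℂ (Fin n))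
  set R : G →* Matrix (Fin n) (Fin n) ℂ :=
      (LinearMap.toMatrixAlgEquiv (Pi.basisFun ℂ (Fin n))).toAlgHom.toMonoidHom.comp ρ with hRdef
  have hR : ∀ g, LinearMap.toMatrix' (ρ g) = R g := fun g => by
    rw [← LinearMap.toMatrix_eq_toMatrix']
    rfl
  simp only [hR]
  have hχ : IsIrrCharacter G ρ.character := ⟨n, ρ, hirr, rfl⟩
  constructor
  · apply H74.exists_invForm R
    have h2 : (Nat.card G : ℂ)⁻¹ * ∑ s : G, (R s).trace * (R s).trace =
        classInner ρ.character ρ.character := by
      unfold classInner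
      congr 1
      refine Finset.sum_congr rfl fun s _ => ?_
      rw [htr, Complex.conj_eq_iff_im.2 (hreal s)]
    classical
    have h3 := classInner_irr (G := G) ⟨ρ.character, hχ⟩ ⟨ρ.character, hχ⟩
    rw [if_pos rfl] at h3
    rw [h2, h3]
    exact one_ne_zero
  · intro B hB
    have h3 := H74.transpose_eq_fs R hirr' hker B hB
    have h4 : ∑ s : G, (R (s * s)).trace = ∑ s : G, ρ.character (s * s) :=
      Finset.sum_congr rfl fun s _ => htr _
    rw [h4] at h3
    exact h3

end Cfsg.Agent.S4475
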