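import Cfsg.Statements.S4476
import Cfsg.Agent.H52.FS

set_option autoImplicit false
open Cfsg Cfsg.Agent.CharBase Cfsg.Agent.H52
open scoped ComplexConjugate

namespace Cfsg.Agent.S4476

theorem card_sq_one {G : Type*} [Group G] [Fintype G] :
    Nat.card {s : G // s * s = 1} = 1 + Nat.card {x : G // orderOf x = 2} := by
  classical
  rw [Nat.card_eq_fintype_card, Nat.card_eq_fintype_card, Fintype.card_subtype, Fintype.card_subtype]
  have h1 : (Finset.univ.filter (fun s : G => s * s = 1)) = insert 1 (Finset.univ.filter (fun x : G => orderOf x = 2)) := by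
    ext x
    simp only [Finset.mem_filter, Finset.mem_univ, true_and, Finset.mem_insert]
    rw [orderOf_eq_prime_iff, pow_two]
    constructor
    · intro h
      by_cases hx : x = 1
      · exact Or.inl hx
      · exact Or.inr ⟨h, hx⟩
    · rintro (h | h)
      · rw [h, mul_one]
      · exact h.1
  rw [h1, Finset.card_insert_of_notMem, add_comm]
  simp

/-- Sum of the class sizes over the nontrivial classes. -/
theorem card_classes_bound {G : Type*} [Group G] [Fintype G] (b : ℚ) (hG : 1 < Nat.card G)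
    (h : ∀ x : G, x ≠ 1 → b < ((Subgroup.centralizer ({x} : Set G)).index : ℚ)) :
    ((Nat.card (ConjClasses G) : ℚ) - 1) * b < (Nat.card G : ℚ) - 1 := by
  classical
  have : Finite (ConjClasses G) := Quotient.finite _
  have := Fintype.ofFinite (ConjClasses G)
  have h1 := sum_conjClasses_card_eq_card G
  have h2 : ∀ x : G, (ConjClasses.mk x).carrier.toFinset.card = (Subgroup.centralizer ({x} : Set G)).index := by
    intro x
    rw [← card_isConj_eq_index, Set.toFinset_card, ← Nat.card_eq_fintype_card]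
    apply Nat.card_congr
    apply Equiv.subtypeEquivRight
    intro y
    rw [ConjClasses.mem_carrier_iff_mk_eq, ConjClasses.mk_eq_mk_iff_isConj, isConj_comm]
  have h3 : ∑ c ∈ Finset.univ.erase (1 : ConjClasses G), (c.carrier.toFinset.card : ℚ) = (Nat.card G : ℚ) - 1 := by
    have h4 : ∑ c : ConjClasses G, (c.carrier.toFinset.card : ℚ) = (Nat.card G : ℚ) := by
      rw [Nat.card_eq_fintype_card, ← h1]; push_cast; rfl
    rw [← h4, ← Finset.add_sum_erase Finset.univ _ (Finset.mem_univ (1 : ConjClasses G))]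
    have h5 : ((1 : ConjClasses G).carrier.toFinset.card : ℚ) = 1 := by
      have := h2 1
      rw [← ConjClasses.one_eq_mk_one] at this
      rw [this]
      have h6 : Subgroup.centralizer ({(1 : G)} : Set G) = ⊤ := by
        rw [eq_top_iff]
        intro x _
        rw [Subgroup.mem_centralizer_iff]
        simp
      rw [h6, Subgroup.index_top]; simp
    rw [h5]; ring
  have h4 : (Nat.card (ConjClasses G) : ℚ) - 1 = ((Finset.univ.erase (1 : ConjClasses G)).card : ℚ) := by
    rw [Finset.card_erase_of_mem (Finset.mem_univ _), Finset.card_univ, Nat.card_eq_fintype_card,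
      Nat.cast_sub Fintype.card_pos]
    simp
  rw [h4, ← h3, ← nsmul_eq_mul, ← Finset.sum_const]
  apply Finset.sum_lt_sum_of_nonempty
  · have hnt : Nontrivial G := Finite.one_lt_card_iff_nontrivial.mp hG
    obtain ⟨x, hx⟩ := exists_ne (1 : G)
    refine ⟨ConjClasses.mk x, Finset.mem_erase.mpr ⟨?_, Finset.mem_univ _⟩⟩
    intro h
    rw [ConjClasses.one_eq_mk_one, ConjClasses.mk_eq_mk_iff_isConj, isConj_one_left] at h
    exact hx h
  · intro c hc
    induction c using Quotient.inductionOn with
    | _ x =>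
      have hx : x ≠ 1 := by
        intro h
        rw [h] at hc
        exact (Finset.mem_erase.mp hc).1 rfl
      have := h2 x
      change b < (((ConjClasses.mk x).carrier.toFinset.card : ℕ) : ℚ)
      rw [this]
      exact h x hx

/-- Let G be a finite group of even order g with exactly t involutions, and put α = (g − 1)/t (a rational number). Then (a) some non-identity element x of G has at most α² conjugates; and (b) some non-principal real-valued irreducible character of G has degree at most α. -/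
theorem result {G : Type*} [Group G] [Fintype G] (heven : Even (Nat.card G)) (t : ℕ) (ht : Nat.card {x : G // orderOf x = 2} = t) : (∃ x : G, x ≠ 1 ∧ ((Subgroup.centralizer ({x} : Set G)).index : ℚ) ≤ (((Nat.card G : ℚ) - 1) / t) ^ 2) ∧ ∃ χ : Cfsg.IrrCharacter G, (χ : G → ℂ) ≠ (fun _ => 1) ∧ (∀ g : G, ((χ : G → ℂ) g).im = 0) ∧ (Cfsg.charDegree (χ : G → ℂ) : ℚ) ≤ ((Nat.card G : ℚ) - 1) / t := by
  classical
  have := Fintype.ofFinite (IrrCharacter G)
  have htpos : 0 < t := by
    rw [← ht]
    have h2 : Fact (Nat.Prime 2) := ⟨Nat.prime_two⟩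
    obtain ⟨x, hx⟩ := exists_prime_orderOf_dvd_card' (G := G) 2 heven.two_dvd
    have : Nonempty {x : G // orderOf x = 2} := ⟨⟨x, hx⟩⟩
    exact Nat.card_pos
  have hG1 : 1 < Nat.card G := by
    have h0 : 0 < Nat.card G := Nat.card_pos
    obtain ⟨k, hk⟩ := heven
    omega
  choose deg hdeg using fun ψ : IrrCharacter G => exists_nat_degree (irr_isCharacter ψ)
  have hdegpos : ∀ χ, 0 < deg χ := by
    intro χ
    apply Nat.pos_of_ne_zero
    intro h
    have h1 := hdeg χ
    rw [h, Nat.cast_zero] at h1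
    exact irr_one_ne_zero χ.2 h1
  let R : Finset (IrrCharacter G) := Finset.univ.filter (fun χ => χ ≠ oneIrr G ∧ ∀ g : G, ((χ : G → ℂ) g).im = 0)
  have hdeg1 : deg (oneIrr G) = 1 := by
    have := hdeg (oneIrr G)
    have h2 : ((oneIrr G : IrrCharacter G) : G → ℂ) 1 = 1 := rfl
    rw [h2] at this
    exact_mod_cast this.symm
  -- the count
  have hcount : (t : ℝ) ≤ ∑ χ ∈ R, (deg χ : ℝ) := by
    have h1 := card_sq_eq_one (G := G)
    rw [card_sq_one, ht] at h1
    have h2 : ((1 : ℝ) + t) = ∑ χ : IrrCharacter G, (fsi (χ : G → ℂ)).re * deg χ := by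
      have := congrArg Complex.re h1
      rw [Complex.re_sum] at this
      push_cast at this
      simp only [Complex.add_re, Complex.one_re, Complex.natCast_re] at this
      rw [this]
      refine Finset.sum_congr rfl fun χ _ => ?_
      rw [hdeg, ← nsmul_eq_mul', Complex.re_nsmul, nsmul_eq_mul']
    rw [← Finset.add_sum_erase Finset.univ _ (Finset.mem_univ (oneIrr G))] at h2
    have h3 : (fsi ((oneIrr G : IrrCharacter G) : G → ℂ)).re * deg (oneIrr G) = 1 := by
      have : fsi ((oneIrr G : IrrCharacter G) : G → ℂ) = 1 := fsi_one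
      rw [this, hdeg1]; simp
    rw [h3] at h2
    have h4 : (t : ℝ) = ∑ χ ∈ Finset.univ.erase (oneIrr G), (fsi (χ : G → ℂ)).re * deg χ := by linarith
    rw [h4, ← Finset.sum_filter_add_sum_filter_not (Finset.univ.erase (oneIrr G)) (fun χ : IrrCharacter G => ∀ g : G, ((χ : G → ℂ) g).im = 0)]
    have h5 : ∑ χ ∈ (Finset.univ.erase (oneIrr G)).filter (fun χ : IrrCharacter G => ¬ ∀ g : G, ((χ : G → ℂ) g).im = 0), (fsi (χ : G → ℂ)).re * (deg χ : ℝ) = 0 := by
      apply Finset.sum_eq_zero
      intro χ hχ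
      have h6 := (Finset.mem_filter.mp hχ).2
      push Not at h6
      rw [(fsi_eq_zero_iff χ.2).mpr h6]; simp
    rw [h5, add_zero]
    have h6 : (Finset.univ.erase (oneIrr G)).filter (fun χ : IrrCharacter G => ∀ g : G, ((χ : G → ℂ) g).im = 0) = R := by
      ext χ
      simp [R]
    rw [h6]
    apply Finset.sum_le_sum
    intro χ _
    rcases fsi_cases χ.2 with h | h | h
    · rw [h]; simp
    · rw [h]; simp
    · rw [h]; simp
  have hcountQ : t ≤ ∑ χ ∈ R, deg χ := by exact_mod_cast hcount
  have hsq : ∑ χ ∈ Finset.univ.erase (oneIrr G), deg χ ^ 2 = Nat.card G - 1 := by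
    have h1 : ∑ χ : IrrCharacter G, deg χ ^ 2 = Nat.card G := by
      have := sum_sq_degree (G := G)
      simp only [hdeg] at this
      exact_mod_cast this
    rw [← Finset.add_sum_erase Finset.univ _ (Finset.mem_univ (oneIrr G)), hdeg1] at h1
    omega
  have hR : R ⊆ Finset.univ.erase (oneIrr G) := by
    intro χ hχ
    rw [Finset.mem_erase]
    exact ⟨(Finset.mem_filter.mp hχ).2.1, Finset.mem_univ _⟩
  have hsqR : ∑ χ ∈ R, deg χ ^ 2 ≤ Nat.card G - 1 := by
    rw [← hsq]
    exact Finset.sum_le_sum_of_subset hR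
  set g : ℚ := (Nat.card G : ℚ) - 1 with hg
  have hgpos : 0 < g := by
    rw [hg]
    have : (1 : ℚ) < Nat.card G := by exact_mod_cast hG1
    linarith
  have htQ : (0 : ℚ) < t := by exact_mod_cast htpos
  have hsqRQ : ∑ χ ∈ R, (deg χ : ℚ) ^ 2 ≤ g := by
    have : ((∑ χ ∈ R, deg χ ^ 2 : ℕ) : ℚ) ≤ ((Nat.card G - 1 : ℕ) : ℚ) := by exact_mod_cast hsqR
    rw [Nat.cast_sub (by omega)] at this
    push_cast at this
    exact this
  have hcQ : (t : ℚ) ≤ ∑ χ ∈ R, (deg χ : ℚ) := by exact_mod_cast hcountQ
  constructor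
  · by_contra hcon
    push Not at hcon
    have h1 := card_classes_bound ((g / t) ^ 2) hG1 hcon
    rw [← card_irr_eq_card_conjClasses, Nat.card_eq_fintype_card] at h1
    have h2 : (R.card : ℚ) ≤ (Fintype.card (IrrCharacter G) : ℚ) - 1 := by
      have := Finset.card_le_card hR
      rw [Finset.card_erase_of_mem (Finset.mem_univ _), Finset.card_univ] at this
      have h0 : 0 < Fintype.card (IrrCharacter G) := Fintype.card_pos_iff.mpr ⟨oneIrr G⟩
      have h3 : R.card + 1 ≤ Fintype.card (IrrCharacter G) := by omega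
      have h4 : (R.card : ℚ) + 1 ≤ Fintype.card (IrrCharacter G) := by exact_mod_cast h3
      linarith
    have h3 : (t : ℚ) ^ 2 ≤ R.card * g := by
      calc (t : ℚ) ^ 2 ≤ (∑ χ ∈ R, (deg χ : ℚ)) ^ 2 := pow_le_pow_left₀ htQ.le hcQ 2
        _ ≤ R.card * ∑ χ ∈ R, (deg χ : ℚ) ^ 2 := sq_sum_le_card_mul_sum_sq
        _ ≤ R.card * g := mul_le_mul_of_nonneg_left hsqRQ (Nat.cast_nonneg _)
    have h4 : (g / t) ^ 2 * t ^ 2 = g ^ 2 := by
      rw [← mul_pow, div_mul_cancel₀ _ htQ.ne']
    have h5 : 0 < (g / t) ^ 2 := by positivity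
    have h6 : g ^ 2 ≤ (g / t) ^ 2 * (R.card * g) := by
      rw [← h4]; exact mul_le_mul_of_nonneg_left h3 h5.le
    have h7 : (g / t) ^ 2 * (R.card * g) ≤ (((Fintype.card (IrrCharacter G) : ℚ) - 1) * (g / t) ^ 2) * g := by
      have := mul_le_mul_of_nonneg_right h2 h5.le
      have := mul_le_mul_of_nonneg_right this hgpos.le
      calc (g / t) ^ 2 * (R.card * g) = R.card * (g / t) ^ 2 * g := by ring
        _ ≤ _ := this
    have h8 := mul_lt_mul_of_pos_right h1 hgpos
    nlinarith
  · by_contra hcon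
    push Not at hcon
    have h1 : ∀ χ ∈ R, g / t < deg χ := by
      intro χ hχ
      have h2 := (Finset.mem_filter.mp hχ).2
      have h3 := hcon χ (fun h => h2.1 (Subtype.ext h)) h2.2
      have h4 : Cfsg.charDegree (χ : G → ℂ) = deg χ := by
        unfold Cfsg.charDegree
        rw [hdeg]; simp
      rwa [h4] at h3
    have hne : R.Nonempty := by
      rw [Finset.nonempty_iff_ne_empty]
      intro h
      rw [h] at hcountQ
      simp at hcountQ
      omega
    have h2 : (g / t) * ∑ χ ∈ R, (deg χ : ℚ) < ∑ χ ∈ R, (deg χ : ℚ) ^ 2 := by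
      rw [Finset.mul_sum]
      apply Finset.sum_lt_sum_of_nonempty hne
      intro χ hχ
      rw [pow_two]
      exact mul_lt_mul_of_pos_right (h1 χ hχ) (by exact_mod_cast hdegpos χ)
    have h3 : g ≤ (g / t) * ∑ χ ∈ R, (deg χ : ℚ) := by
      calc g = (g / t) * t := by rw [div_mul_cancel₀ _ htQ.ne']
        _ ≤ _ := mul_le_mul_of_nonneg_left hcQ (by positivity)
    linarith

end Cfsg.Agent.S4476
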