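import Cfsg.Statements.S4478
import Cfsg.Agent.Char.DefectZero
import Cfsg.Agent.H75.Tools
import Cfsg.Agent.S0158

set_option autoImplicit false
set_option linter.style.haveILetI false
open Cfsg Cfsg.Agent.CharBase Cfsg.Agent.H75
open scoped ComplexConjugate

namespace Cfsg.Agent.S4478

/-- Let G be a finite group of even order and χ an irreducible character of G whose degree x is divisible by the full power of 2 dividing the order of G and, for every odd prime p such that G has an element of order 2p, by the full power of p dividing the order of G. Then all involutions of G are conjugate, the centralizer of every involution has order exactly x with x coprime to its index, and the Frobenius–Schur indicator of χ equals 1. -/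
theorem result {G : Type*} [Group G] [Fintype G] (heven : Even (Nat.card G)) (χ : Cfsg.IrrCharacter G) (h2 : 2 ^ (Nat.card G).factorization 2 ∣ Cfsg.charDegree (χ : G → ℂ)) (hp : ∀ p : ℕ, p.Prime → p ≠ 2 → (∃ g : G, orderOf g = 2 * p) → p ^ (Nat.card G).factorization p ∣ Cfsg.charDegree (χ : G → ℂ)) : (∀ s t : G, orderOf s = 2 → orderOf t = 2 → IsConj s t) ∧ (∀ s : G, orderOf s = 2 → Nat.card (Subgroup.centralizer ({s} : Set G)) = Cfsg.charDegree (χ : G → ℂ) ∧ (Nat.card (Subgroup.centralizer ({s} : Set G))).Coprime (Subgroup.centralizer ({s} : Set G)).index) ∧ (Nat.card G : ℂ)⁻¹ * ∑ g : G, (χ : G → ℂ) (g * g) = 1 := by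
  classical
  haveI := Fact.mk Nat.prime_two
  have hG0 : Nat.card G ≠ 0 := Nat.card_pos.ne'
  have hGc : (Nat.card G : ℂ) ≠ 0 := Nat.cast_ne_zero.mpr hG0
  set d := Cfsg.charDegree (χ : G → ℂ) with hd
  have hχ1 : (χ : G → ℂ) 1 = (d : ℂ) := by rw [hd, charDegree_eq_deg, ← deg_spec]
  let PP : ℕ → Prop := fun r => r.Prime ∧ (r = 2 ∨ ∃ g : G, orderOf g = 2 * r)
  have hPP2 : PP 2 := ⟨Nat.prime_two, Or.inl rfl⟩
  have hdvd : ∀ r, PP r → r ^ (Nat.card G).factorization r ∣ d := by
    rintro r ⟨hr, h⟩
    by_cases h2' : r = 2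
    · rw [h2']; exact h2
    · exact hp r hr h2' (h.resolve_left h2')
  have hvan : ∀ r, PP r → ∀ g : G, r ∣ orderOf g → (χ : G → ℂ) g = 0 := by
    intro r hr g hg
    exact Char.DZ.eq_zero_of_defect_zero r _ hr.1 (Nat.pow_succ_factorization_not_dvd hG0 hr.1) χ.2 hχ1
      (hdvd r hr) g hg
  let R : Set G := {g | ∀ r, PP r → ¬ r ∣ orderOf g}
  have hRodd : ∀ g ∈ R, ¬ 2 ∣ orderOf g := fun g hg => hg 2 hPP2
  have hzero : ∀ g, g ∉ R → (χ : G → ℂ) g = 0 := by
    intro g hg
    simp only [R, Set.mem_setOf_eq, not_forall, not_not] at hg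
    obtain ⟨r, hr, hrg⟩ := hg
    exact hvan r hr g hrg
  -- squares
  have hsq : ∀ g : G, g * g ∈ R → g ∈ R ∨ orderOf g = 2 := by
    intro g hg
    by_cases h2g : 2 ∣ orderOf g
    · right
      have h1 : orderOf (g * g) = orderOf g / 2 := by
        rw [← pow_two, orderOf_pow_of_dvd (by norm_num) h2g]
      by_contra hne
      have h3 : orderOf g / 2 ≠ 1 := by
        intro h; apply hne
        have := Nat.div_mul_cancel h2g
        omega
      obtain ⟨r, hr, hrd⟩ := Nat.exists_prime_and_dvd h3
      have hpos : 0 < orderOf g := orderOf_pos g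
      have h4 : 2 * r ∣ orderOf g := by
        obtain ⟨c, hc⟩ := hrd
        exact ⟨c, by rw [mul_assoc, ← hc]; exact (Nat.mul_div_cancel' h2g).symm⟩
      have h5 : orderOf (g ^ (orderOf g / (2 * r))) = 2 * r := by
        rw [orderOf_pow_of_dvd (Nat.div_pos (Nat.le_of_dvd hpos h4) (by have := hr.pos; omega)).ne'
          (Nat.div_dvd_of_dvd h4), Nat.div_div_self h4 hpos.ne']
      exact hg r ⟨hr, Or.inr ⟨_, h5⟩⟩ (by rw [h1]; exact hrd)
    · left
      have h1 : orderOf (g * g) = orderOf g := by
        rw [← pow_two]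
        exact Nat.Coprime.orderOf_pow ((Nat.Prime.coprime_iff_not_dvd Nat.prime_two).mpr h2g).symm
      intro r hr
      rw [← h1]; exact hg r hr
  -- the sum over the regular part
  have hd2 : 2 ∣ d := by
    have h1 : 2 ^ 1 ∣ 2 ^ (Nat.card G).factorization 2 :=
      pow_dvd_pow 2 ((Nat.prime_two.dvd_iff_one_le_factorization hG0).mp heven.two_dvd)
    rw [pow_one] at h1
    exact h1.trans h2
  have hne1 : χ ≠ oneIrr G := by
    intro h
    rw [h, oneIrr_apply] at hχ1
    have : d = 1 := by exact_mod_cast hχ1.symm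
    omega
  have hsumall : ∑ g : G, (χ : G → ℂ) g = 0 := by
    have h3 := classInner_irr_of_ne hne1
    unfold classInner at h3
    simp only [oneIrr_apply, map_one, mul_one] at h3
    exact (mul_eq_zero.mp h3).resolve_left (inv_ne_zero hGc)
  have hsumR : ∑ᶠ g ∈ R, (χ : G → ℂ) g = 0 := by
    rw [finsum_mem_def, finsum_eq_sum_of_fintype, ← hsumall]
    refine Finset.sum_congr rfl fun g _ => ?_
    by_cases hg : g ∈ R
    · rw [Set.indicator_of_mem hg]
    · rw [Set.indicator_of_notMem hg, hzero g hg]
  have hpow : ∀ g ∈ R, orderOf (g * g) = orderOf g := by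
    intro g hg
    rw [← pow_two]
    exact Nat.Coprime.orderOf_pow ((Nat.Prime.coprime_iff_not_dvd Nat.prime_two).mpr (hRodd g hg)).symm
  have hbij : Set.BijOn (fun g : G => g * g) R R := by
    refine ((Set.toFinite R).injOn_iff_bijOn_of_mapsTo ?_).mp ?_
    · intro g hg r hr
      simp only
      rw [hpow g hg]
      exact hg r hr
    · intro g hg h hh he
      simp only at he
      have e1 : ∀ y ∈ R, (y * y) ^ ((Nat.card G / 2 ^ (Nat.card G).factorization 2 + 1) / 2) = y := by
        intro y hy
        set m := Nat.card G / 2 ^ (Nat.card G).factorization 2 with hm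
        have hmodd : ¬ 2 ∣ m := Nat.not_dvd_ordCompl Nat.prime_two hG0
        have hom : orderOf y ∣ m := by
          have h1 : orderOf y ∣ 2 ^ (Nat.card G).factorization 2 * m := by
            rw [hm, Nat.ordProj_mul_ordCompl_eq_self]; exact orderOf_dvd_natCard y
          exact Nat.Coprime.dvd_of_dvd_mul_left (Nat.Coprime.pow_right _
            ((Nat.Prime.coprime_iff_not_dvd Nat.prime_two).mpr (hRodd y hy)).symm) h1
        rw [← pow_two, ← pow_mul]
        have h2' : 2 * ((m + 1) / 2) = m + 1 := by omega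
        rw [h2', pow_succ, orderOf_dvd_iff_pow_eq_one.mp hom, one_mul]
      rw [← e1 g hg, ← e1 h hh, he]
  have hsumR2 : ∑ᶠ g ∈ R, (χ : G → ℂ) (g * g) = 0 := by
    rw [← hsumR]
    exact finsum_mem_eq_of_bijOn (fun g : G => g * g) hbij (fun g _ => rfl)
  set t : ℕ := (Finset.univ.filter (fun g : G => orderOf g = 2)).card with ht
  have htot : ∑ g : G, (χ : G → ℂ) (g * g) = (t : ℂ) * d := by
    have h1 : ∀ g : G, (χ : G → ℂ) (g * g) =
        Set.indicator R (fun g : G => (χ : G → ℂ) (g * g)) g + (if orderOf g = 2 then (d : ℂ) else 0) := by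
      intro g
      by_cases hg : g ∈ R
      · rw [Set.indicator_of_mem hg, if_neg, add_zero]
        intro h; exact hRodd g hg (by rw [h])
      · rw [Set.indicator_of_notMem hg, zero_add]
        split_ifs with ho
        · have : g * g = 1 := by rw [← pow_two, ← ho, pow_orderOf_eq_one]
          rw [this, hχ1]
        · apply hzero
          intro h
          exact (hsq g h).elim hg ho
    rw [Finset.sum_congr rfl fun g _ => h1 g, Finset.sum_add_distrib, ← finsum_eq_sum_of_fintype,
      ← finsum_mem_def, hsumR2, zero_add, ← Finset.sum_filter, Finset.sum_const, nsmul_eq_mul]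
  obtain ⟨s0, hs0⟩ := exists_prime_orderOf_dvd_card' 2 heven.two_dvd
  have htpos : 0 < t := by
    rw [ht]
    exact Finset.card_pos.mpr ⟨s0, by simp [hs0]⟩
  have hdpos : 0 < d := by rw [hd, charDegree_eq_deg]; exact deg_pos χ
  have hnu : (Nat.card G : ℂ)⁻¹ * ∑ g : G, (χ : G → ℂ) (g * g) = 1 := by
    obtain ⟨n, ρ, hρ, hχρ⟩ := χ.2
    haveI := hρ
    have h1 := (S0158.result ρ).1
    rw [hχρ] at h1
    have h2' : (Nat.card G : ℂ)⁻¹ * ∑ g : G, (χ : G → ℂ) (g * g) = (((t * d : ℕ) : ℝ) / (Nat.card G : ℝ) : ℝ) := by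
      rw [htot]; push_cast; ring
    have hposR : (0 : ℝ) < ((t * d : ℕ) : ℝ) / (Nat.card G : ℝ) := by
      have : 0 < t * d := Nat.mul_pos htpos hdpos
      have : (0 : ℝ) < ((t * d : ℕ) : ℝ) := by exact_mod_cast this
      have : (0 : ℝ) < (Nat.card G : ℝ) := by exact_mod_cast Nat.card_pos
      positivity
    rcases h1 with h1 | h1 | h1
    · rw [h2'] at h1
      exact absurd (by exact_mod_cast h1 : ((t * d : ℕ) : ℝ) / (Nat.card G : ℝ) = 0) hposR.ne'
    · exact h1
    · rw [h2'] at h1
      have : ((t * d : ℕ) : ℝ) / (Nat.card G : ℝ) = -1 := by exact_mod_cast h1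
      linarith
  have hcard : t * d = Nat.card G := by
    rw [htot] at hnu
    have : (t : ℂ) * d = Nat.card G := by
      field_simp at hnu
      exact hnu
    exact_mod_cast this
  -- centralizers
  have hcen : ∀ s : G, orderOf s = 2 → Nat.card (Subgroup.centralizer ({s} : Set G)) ∣ d := by
    intro s hs
    rw [Nat.dvd_iff_prime_pow_dvd_dvd]
    intro r k hr hrk
    rcases Nat.eq_zero_or_pos k with rfl | hk
    · simp
    have hrC : r ∣ Nat.card (Subgroup.centralizer ({s} : Set G)) := (dvd_pow_self r hk.ne').trans hrk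
    have hPP : PP r := by
      refine ⟨hr, ?_⟩
      by_cases h2' : r = 2
      · exact Or.inl h2'
      right
      haveI := Fact.mk hr
      obtain ⟨v, hv⟩ := exists_prime_orderOf_dvd_card' r hrC
      have hc : Commute s (v : G) := by
        have h1 := v.2
        rw [Subgroup.mem_centralizer_singleton_iff] at h1
        exact h1.symm
      refine ⟨s * v, ?_⟩
      rw [hc.orderOf_mul_eq_mul_orderOf_of_coprime, hs, Subgroup.orderOf_coe, hv]
      rw [hs, Subgroup.orderOf_coe, hv]
      exact (Nat.coprime_primes Nat.prime_two hr).mpr (Ne.symm h2')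
    refine (pow_dvd_pow r ?_).trans (hdvd r hPP)
    exact (hr.pow_dvd_iff_le_factorization hG0).mp (hrk.trans (Subgroup.card_subgroup_dvd_card _))
  have hmain : ∀ s : G, orderOf s = 2 → Nat.card (Subgroup.centralizer ({s} : Set G)) = d ∧
      (Finset.univ.filter (fun x : G => IsConj s x)) = Finset.univ.filter (fun g : G => orderOf g = 2) := by
    intro s hs
    have h1 := hcen s hs
    have hsub : (Finset.univ.filter (fun x : G => IsConj s x)) ⊆
        Finset.univ.filter (fun g : G => orderOf g = 2) := by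
      intro x hx
      rw [Finset.mem_filter] at hx ⊢
      refine ⟨Finset.mem_univ _, ?_⟩
      obtain ⟨c, hc⟩ := isConj_iff.mp hx.2
      rw [← hc, ← hs]
      exact orderOf_injective (MulAut.conj c).toMonoidHom (MulAut.conj c).injective s
    have h3 := card_filter_isConj s
    have h4 := Finset.card_le_card hsub
    rw [h3, ← ht] at h4
    have h5 := Subgroup.card_mul_index (Subgroup.centralizer ({s} : Set G))
    have h6 : Nat.card (Subgroup.centralizer ({s} : Set G)) ≤ d := Nat.le_of_dvd hdpos h1
    have h7 : Nat.card (Subgroup.centralizer ({s} : Set G)) = d := by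
      by_contra hne
      have h8 : Nat.card (Subgroup.centralizer ({s} : Set G)) < d := lt_of_le_of_ne h6 hne
      have : Nat.card (Subgroup.centralizer ({s} : Set G)) * (Subgroup.centralizer ({s} : Set G)).index < d * t := by
        calc _ ≤ Nat.card (Subgroup.centralizer ({s} : Set G)) * t := Nat.mul_le_mul_left _ h4
          _ < d * t := Nat.mul_lt_mul_of_pos_right h8 htpos
      rw [h5, ← hcard, mul_comm] at this
      exact lt_irrefl _ this
    refine ⟨h7, Finset.eq_of_subset_of_card_le hsub ?_⟩
    rw [h3, ← ht]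
    rw [h7, ← hcard, mul_comm t d] at h5
    exact (Nat.eq_of_mul_eq_mul_left hdpos h5).ge
  refine ⟨fun s u hs hu => ?_, fun s hs => ⟨(hmain s hs).1, ?_⟩, hnu⟩
  · have h1 : u ∈ Finset.univ.filter (fun x : G => IsConj s x) := by
      rw [(hmain s hs).2]; simp [hu]
    exact (Finset.mem_filter.mp h1).2
  · rw [(hmain s hs).1]
    have h5 := Subgroup.card_mul_index (Subgroup.centralizer ({s} : Set G))
    rw [(hmain s hs).1] at h5
    rw [Nat.coprime_iff_gcd_eq_one]
    by_contra hne
    obtain ⟨r, hr, hrd⟩ := Nat.exists_prime_and_dvd hne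
    have hr1 : r ∣ d := hrd.trans (Nat.gcd_dvd_left _ _)
    have hr2 := hrd.trans (Nat.gcd_dvd_right _ _)
    have hPP : PP r := by
      refine ⟨hr, ?_⟩
      by_cases h2' : r = 2
      · exact Or.inl h2'
      right
      haveI := Fact.mk hr
      rw [← (hmain s hs).1] at hr1
      obtain ⟨v, hv⟩ := exists_prime_orderOf_dvd_card' r hr1
      have hc : Commute s (v : G) := by
        have h1 := v.2
        rw [Subgroup.mem_centralizer_singleton_iff] at h1
        exact h1.symm
      refine ⟨s * v, ?_⟩
      rw [hc.orderOf_mul_eq_mul_orderOf_of_coprime, hs, Subgroup.orderOf_coe, hv]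
      rw [hs, Subgroup.orderOf_coe, hv]
      exact (Nat.coprime_primes Nat.prime_two hr).mpr (Ne.symm h2')
    have h6 : r ^ ((Nat.card G).factorization r + 1) ∣ Nat.card G := by
      rw [pow_succ]
      conv_rhs => rw [← h5]
      exact Nat.mul_dvd_mul (hdvd r hPP) hr2
    exact Nat.pow_succ_factorization_not_dvd hG0 hr h6

end Cfsg.Agent.S4478
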