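import Cfsg.Statements.S4479

import Cfsg.Agent.H74.Four

set_option autoImplicit false
open Cfsg

namespace Cfsg.Agent.S4479

/-- An order formula from the principal 2-block. Let G be a finite group of order 4·g₀ with g₀ odd having no normal 2-complement (no normal subgroup of order g₀); let P be a Sylow 2-subgroup, J an involution of P, and fix a maximal ideal M of the algebraic integers containing 2. Suppose the principal 2-block consists of the principal character and three further distinct characters χ₁, χ₂, χ₃ of degrees x₁, x₂, x₃, with χ_i(J) = ε_i = ±1. Then, writing c(J) and c(P) for the orders of the centralizers of J and of P, the order of G equals 8·α·c(J)³/c(P)² with α = x₁x₂x₃ / ((x₁ + ε₁)(x₂ + ε₂)(x₃ + ε₃)). -/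
theorem result {G : Type*} [Group G] [Finite G] (M : Ideal Cfsg.AlgInt) (hM : Cfsg.IsPModular 2 M) (g₀ : ℕ) (hg₀ : Odd g₀) (hG : Nat.card G = 4 * g₀) (hnc : ¬ ∃ N : Subgroup G, N.Normal ∧ Nat.card N = g₀) (P : Sylow 2 G) (J : G) (hJ : J ∈ (P : Subgroup G)) (hJ2 : orderOf J = 2) (χ₁ χ₂ χ₃ : Cfsg.IrrCharacter G) (ε₁ ε₂ ε₃ : ℤ) (hB : Cfsg.principalBlock M G = {χ : Cfsg.IrrCharacter G | (χ : G → ℂ) = (fun _ => 1) ∨ χ = χ₁ ∨ χ = χ₂ ∨ χ = χ₃}) (hdist : (χ₁ : G → ℂ) ≠ (fun _ => 1) ∧ (χ₂ : G → ℂ) ≠ (fun _ => 1) ∧ (χ₃ : G → ℂ) ≠ (fun _ => 1) ∧ χ₁ ≠ χ₂ ∧ χ₁ ≠ χ₃ ∧ χ₂ ≠ χ₃) (hε : (ε₁ = 1 ∨ ε₁ = -1) ∧ (ε₂ = 1 ∨ ε₂ = -1) ∧ (ε₃ = 1 ∨ ε₃ = -1)) (hval : (χ₁ : G → ℂ) J = ε₁ ∧ (χ₂ : G → ℂ) J = ε₂ ∧ (χ₃ : G → ℂ) J = ε₃) : (Nat.card G : ℚ) = 8 * (((Cfsg.charDegree (χ₁ : G → ℂ) : ℚ) * Cfsg.charDegree (χ₂ : G → ℂ) * Cfsg.charDegree (χ₃ : G → ℂ)) / ((Cfsg.charDegree (χ₁ : G → ℂ) + ε₁)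 * (Cfsg.charDegree (χ₂ : G → ℂ) + ε₂) * (Cfsg.charDegree (χ₃ : G → ℂ) + ε₃))) * (Nat.card (Subgroup.centralizer ({J} : Set G)) : ℚ) ^ 3 / (Nat.card (Subgroup.centralizer ((P : Subgroup G) : Set G)) : ℚ) ^ 2 := by
  obtain ⟨hK, hone⟩ := H74.klein_of_no_complement g₀ hg₀ hG hnc P
  obtain ⟨h1, n, hn, hform⟩ := H74.four_relations hM hK hone hJ hJ2 hB hdist hε hval
  obtain ⟨he1, he2, he3⟩ := hε
  have hdpos : ∀ χ : IrrCharacter G, (0 : ℚ) < (charDegree (χ : G → ℂ) : ℚ) := by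
    intro χ
    exact_mod_cast Cfsg.Agent.H79.irr_degree_pos χ
  have hx1 := hdpos χ₁
  have hx2 := hdpos χ₂
  have hx3 := hdpos χ₃
  set x1 : ℚ := (charDegree (χ₁ : G → ℂ) : ℚ)
  set x2 : ℚ := (charDegree (χ₂ : G → ℂ) : ℚ)
  set x3 : ℚ := (charDegree (χ₃ : G → ℂ) : ℚ)
  have h1' : 1 + (ε₁ : ℚ) * x1 + ε₂ * x2 + ε₃ * x3 = 0 := by
    simp only [x1, x2, x3]
    exact_mod_cast h1
  set cJ : ℚ := (Nat.card (Subgroup.centralizer ({J} : Set G)) : ℚ) with hcJ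
  set cP : ℚ := (Nat.card (Subgroup.centralizer ((P : Subgroup G) : Set G)) : ℚ) with hcP
  have hcJ0 : 0 < cJ := by rw [hcJ]; exact_mod_cast Nat.card_pos
  have hcP0 : 0 < cP := by rw [hcP]; exact_mod_cast Nat.card_pos
  have hG0 : (0 : ℚ) < (Nat.card G : ℚ) := by exact_mod_cast Nat.card_pos
  have hn' : (n : ℚ) * cP = cJ := by rw [hcP, hcJ]; exact_mod_cast hn
  have hnq : (n : ℚ) = cJ / cP := by rw [eq_div_iff hcP0.ne', hn']
  have hsq : ∀ e : ℤ, (e = 1 ∨ e = -1) → (e : ℚ) * e = 1 := by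
    rintro e (rfl | rfl) <;> norm_num
  have s1 := hsq _ he1
  have s2 := hsq _ he2
  have s3 := hsq _ he3
  set a : ℚ := (ε₁ : ℚ)
  set b : ℚ := (ε₂ : ℚ)
  set c : ℚ := (ε₃ : ℚ)
  set S : ℚ := 1 + a / x1 + b / x2 + c / x3 with hS
  have hS0 : S ≠ 0 := by
    intro h
    rw [h, mul_zero] at hform
    have : 0 < 8 * cJ * (n : ℚ) ^ 2 := by
      have : 0 < (n : ℚ) := by rw [hnq]; positivity
      positivity
    exact absurd hform this.ne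
  -- the product formula
  have hprod : (x1 + a) * (x2 + b) * (x3 + c) = x1 * x2 * x3 * S := by
    rw [hS]
    field_simp
    linear_combination (a * b * c) * h1' - (b * c * x1) * s1 - (a * c * x2) * s2 - (a * b * x3) * s3
  have hne : (x1 + a) * (x2 + b) * (x3 + c) ≠ 0 := by
    rw [hprod]
    exact mul_ne_zero (mul_ne_zero (mul_ne_zero hx1.ne' hx2.ne') hx3.ne') hS0
  have h3 : (Nat.card G : ℚ) = 8 * cJ * (n : ℚ) ^ 2 / S := by
    rw [eq_div_iff hS0]; exact hform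
  rw [h3, hprod, hnq]
  field_simp

end Cfsg.Agent.S4479
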