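import Cfsg.Statements.S4480

import Cfsg.Agent.H74.FourNu

set_option autoImplicit false
open Cfsg

namespace Cfsg.Agent.S4480

open Cfsg.Agent.CharBase

/-- Same setting as the Klein-four order formula: G of order 4·g₀ (g₀ odd) with no normal 2-complement, P a Sylow 2-subgroup, J an involution of P, M over 2, principal 2-block {1, χ₁, χ₂, χ₃} with χ_i(J) = ε_i = ±1. Suppose ε₁ε₂ε₃ = −1 and ε₃ = −1, and put q = x₃ = χ₃(1). Then there is a natural number m with 4·c(J) = m·c(P)·(q + 1), and the order of G equals (m³·c(P)/4)·(q³ − q)/2, that is 8·#G = m³·c(P)·(q³ − q). -/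
theorem result {G : Type*} [Group G] [Finite G] (M : Ideal Cfsg.AlgInt) (hM : Cfsg.IsPModular 2 M) (g₀ : ℕ) (hg₀ : Odd g₀) (hG : Nat.card G = 4 * g₀) (hnc : ¬ ∃ N : Subgroup G, N.Normal ∧ Nat.card N = g₀) (P : Sylow 2 G) (J : G) (hJ : J ∈ (P : Subgroup G)) (hJ2 : orderOf J = 2) (χ₁ χ₂ χ₃ : Cfsg.IrrCharacter G) (ε₁ ε₂ ε₃ : ℤ) (hB : Cfsg.principalBlock M G = {χ : Cfsg.IrrCharacter G | (χ : G → ℂ) = (fun _ => 1) ∨ χ = χ₁ ∨ χ = χ₂ ∨ χ = χ₃}) (hdist : (χ₁ : G → ℂ) ≠ (fun _ => 1) ∧ (χ₂ : G → ℂ) ≠ (fun _ => 1) ∧ (χ₃ : G → ℂ) ≠ (fun _ => 1) ∧ χ₁ ≠ χ₂ ∧ χ₁ ≠ χ₃ ∧ χ₂ ≠ χ₃) (hε : (ε₁ = 1 ∨ ε₁ = -1) ∧ (ε₂ = 1 ∨ ε₂ = -1) ∧ (ε₃ = 1 ∨ ε₃ = -1)) (hval : (χ₁ : G → ℂ) J = ε₁ ∧ (χ₂ : G → ℂ) J = ε₂ ∧ (χ₃ : G → ℂ) J = ε₃) (hprod : ε₁ * ε₂ * ε₃ = -1) (hε₃ : ε₃ = -1) : ∃ m : ℕ, 4 * Nat.card (Subgroup.centralizer ({J} : Set G)) = m * Nat.card (Subgroup.centralizer ((P : Subgroup G) : Set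 G)) * (Cfsg.charDegree (χ₃ : G → ℂ) + 1) ∧ 8 * Nat.card G = m ^ 3 * Nat.card (Subgroup.centralizer ((P : Subgroup G) : Set G)) * (Cfsg.charDegree (χ₃ : G → ℂ) ^ 3 - Cfsg.charDegree (χ₃ : G → ℂ)) := by
  obtain ⟨hK, hone⟩ := H74.klein_of_no_complement g₀ hg₀ hG hnc P
  obtain ⟨h1, n, hn, hform⟩ := H74.four_relations hM hK hone hJ hJ2 hB hdist hε hval
  obtain ⟨he1, he2, -⟩ := hε
  subst hε₃
  have hdpos : ∀ χ : IrrCharacter G, 0 < charDegree (χ : G → ℂ) :=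
    fun χ => Cfsg.Agent.H79.irr_degree_pos χ
  have hx1 := hdpos χ₁
  have hx2 := hdpos χ₂
  have hx3 := hdpos χ₃
  -- the signs
  have hs : ε₁ = 1 ∧ ε₂ = 1 := by
    rcases he1 with rfl | rfl
    · rcases he2 with rfl | rfl
      · exact ⟨rfl, rfl⟩
      · norm_num at hprod
    · rcases he2 with rfl | rfl
      · norm_num at hprod
      · exfalso
        push_cast at h1
        omega
  obtain ⟨rfl, rfl⟩ := hs
  have hval' : (χ₁ : G → ℂ) J = 1 ∧ (χ₂ : G → ℂ) J = 1 ∧ (χ₃ : G → ℂ) J = -1 := by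
    obtain ⟨a, b, c⟩ := hval
    refine ⟨by rw [a]; simp, by rw [b]; simp, by rw [c]; simp⟩
  have hdeg := H74.four_degrees hM hK hone hJ hJ2 hB hdist hval'
  -- integrality
  have hidx : charDegree (χ₁ : G → ℂ) ∣ (Subgroup.centralizer ({J} : Set G)).index := by
    have := Fintype.ofFinite G
    apply Cfsg.Agent.Char.dvd_of_isIntegral_div hx1.ne'
    have h2 := isIntegral_centralChar χ₁.2 J
    rw [hval'.1, mul_one, Cfsg.Agent.BlkC.charDegree_spec] at h2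
    exact h2
  obtain ⟨k, hk⟩ := hidx
  have hGc := Subgroup.card_mul_index (Subgroup.centralizer ({J} : Set G))
  rw [hk] at hGc
  rw [← hdeg] at h1 hform
  set x : ℕ := charDegree (χ₁ : G → ℂ) with hx
  set q : ℕ := charDegree (χ₃ : G → ℂ) with hq
  have hqx : q = 2 * x + 1 := by
    have : (1 : ℤ) + 1 * (x : ℤ) + 1 * x + -1 * q = 0 := h1
    omega
  set cJ : ℕ := Nat.card (Subgroup.centralizer ({J} : Set G)) with hcJ
  set cP : ℕ := Nat.card (Subgroup.centralizer ((P : Subgroup G) : Set G)) with hcP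
  have hcJ0 : 0 < cJ := Nat.card_pos
  have hx0 : (0 : ℚ) < x := by exact_mod_cast hx1
  have hq0 : (0 : ℚ) < q := by exact_mod_cast hx3
  have hqx' : (q : ℚ) = 2 * x + 1 := by exact_mod_cast hqx
  have hform2 : (Nat.card G : ℚ) * ((q : ℚ) + 1) ^ 2 = 16 * cJ * n ^ 2 * q * x := by
    have h5 : (1 : ℚ) + ((1 : ℤ) : ℚ) / (x : ℚ) + ((1 : ℤ) : ℚ) / (x : ℚ) +
        ((-1 : ℤ) : ℚ) / (q : ℚ) = ((q : ℚ) + 1) ^ 2 / (2 * q * x) := by
      push_cast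
      field_simp
      rw [hqx']; ring
    rw [h5] at hform
    rw [mul_div_assoc', div_eq_iff (by positivity)] at hform
    rw [hform]; ring
  have hform3 : Nat.card G * (q + 1) ^ 2 = 16 * cJ * n ^ 2 * q * x := by exact_mod_cast hform2
  have hkey : k * (q + 1) ^ 2 = (4 * n) ^ 2 * q := by
    have h6 : (cJ * x) * (k * (q + 1) ^ 2) = (cJ * x) * ((4 * n) ^ 2 * q) := by
      calc (cJ * x) * (k * (q + 1) ^ 2) = cJ * (x * k) * (q + 1) ^ 2 := by ring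
        _ = Nat.card G * (q + 1) ^ 2 := by rw [hGc]
        _ = 16 * cJ * n ^ 2 * q * x := hform3
        _ = (cJ * x) * ((4 * n) ^ 2 * q) := by ring
    exact Nat.eq_of_mul_eq_mul_left (Nat.mul_pos hcJ0 hx1) h6
  have hdvd : (q + 1) ∣ 4 * n := by
    have h7 : (q + 1) ^ 2 ∣ (4 * n) ^ 2 * q := ⟨k, by rw [← hkey]; ring⟩
    have h8 : Nat.Coprime ((q + 1) ^ 2) q := by
      apply Nat.Coprime.pow_left
      simp
    exact (Nat.pow_dvd_pow_iff two_ne_zero).1 (h8.dvd_of_dvd_mul_right h7)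
  obtain ⟨m, hm⟩ := hdvd
  refine ⟨m, ?_, ?_⟩
  · rw [← hn]
    calc 4 * (n * cP) = 4 * n * cP := by ring
      _ = m * cP * (q + 1) := by rw [hm]; ring
  · have h9 : q ^ 3 - q = (q + 1) * q * (2 * x) := by
      rw [hqx]
      have : (2 * x + 1) ^ 3 = (2 * x + 1 + 1) * (2 * x + 1) * (2 * x) + (2 * x + 1) := by ring
      rw [this, Nat.add_sub_cancel]
    rw [h9]
    have h10 : 0 < (q + 1) ^ 2 := by positivity
    apply Nat.eq_of_mul_eq_mul_right h10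
    calc 8 * Nat.card G * (q + 1) ^ 2 = 8 * (Nat.card G * (q + 1) ^ 2) := by ring
      _ = 8 * (16 * (n * cP) * n ^ 2 * q * x) := by rw [hform3, hn]
      _ = (4 * n) ^ 3 * (cP * q * (2 * x)) := by ring
      _ = m ^ 3 * cP * ((q + 1) * q * (2 * x)) * (q + 1) ^ 2 := by rw [hm]; ring

end Cfsg.Agent.S4480
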