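import Cfsg.Statements.S4481

import Cfsg.Agent.H74.DihStruct

set_option autoImplicit false
open Cfsg

namespace Cfsg.Agent.S4481

/-- The principal 2-block of a group with dihedral Sylow 2-subgroups. Let G be a finite group whose Sylow 2-subgroup P is dihedral of order 2^n ≥ 8, let σ be an element of P of order 2^(n−1), ζ a primitive 2^(n−1)-th root of unity, and M a maximal ideal of the algebraic integers containing 2. Then the principal 2-block consists of exactly 3 + 2^(n−2) irreducible characters, which can be labelled 1, χ₁, χ₂, χ₃ and χ^(j) for 1 ≤ j ≤ 2^(n−2) − 1 (all distinct), with signs δ₁, δ₂, δ₃ such that for 0 < λ < 2^(n−1): χ₁(σ^λ) = δ₁, χ₂(σ^λ) = δ₂(−1)^(λ+1), χ₃(σ^λ) = δ₃(−1)^(λ+1) and χ^(j)(σ^λ) = δ₁(ζ^(jλ) + ζ^(−jλ)); and for every element ρ of odd order and every j: 1 + δ₁χ₁(ρ) = −δ₂χ₂(ρ) − δ₃χ₃(ρ) = δ₁χ^(j)(ρ). -/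
theorem result {G : Type*} [Group G] [Finite G] (M : Ideal Cfsg.AlgInt) (hM : Cfsg.IsPModular 2 M) (n : ℕ) (hn : 3 ≤ n) (P : Sylow 2 G) (hP : Nonempty ((P : Subgroup G) ≃* DihedralGroup (2 ^ (n - 1)))) (σ : G) (hσ : σ ∈ (P : Subgroup G)) (hσo : orderOf σ = 2 ^ (n - 1)) (ζ : ℂ) (hζ : IsPrimitiveRoot ζ (2 ^ (n - 1))) : Nat.card (Cfsg.principalBlock M G) = 3 + 2 ^ (n - 2) ∧ ∃ (χ₁ χ₂ χ₃ : Cfsg.IrrCharacter G) (χ' : Fin (2 ^ (n - 2) - 1) → Cfsg.IrrCharacter G) (δ₁ δ₂ δ₃ : ℤ), (δ₁ = 1 ∨ δ₁ = -1) ∧ (δ₂ = 1 ∨ δ₂ = -1) ∧ (δ₃ = 1 ∨ δ₃ = -1) ∧ Function.Injective χ' ∧ (χ₁ : G → ℂ) ≠ (fun _ => 1) ∧ (χ₂ : G → ℂ) ≠ (fun _ => 1) ∧ (χ₃ : G → ℂ) ≠ (fun _ => 1) ∧ χ₁ ≠ χ₂ ∧ χ₁ ≠ χ₃ ∧ χ₂ ≠ χ₃ ∧ (∀ j, χ' j ≠ χ₁ ∧ χ' j ≠ χ₂ ∧ χ' j ≠ χ₃ ∧ (χ' j : G → ℂ) ≠ (fun _ => 1)) ∧ Cfsg.principalBlock M G = {χ : Cfsg.IrrCharacter G | (χ : G → ℂ) = (fun _ => 1) ∨ χ = χ₁ ∨ χ = χ₂ ∨ χ = χ₃ ∨ ∃ j, χ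 = χ' j} ∧ (∀ l : ℕ, 0 < l → l < 2 ^ (n - 1) → (χ₁ : G → ℂ) (σ ^ l) = δ₁ ∧ (χ₂ : G → ℂ) (σ ^ l) = δ₂ * (-1) ^ (l + 1) ∧ (χ₃ : G → ℂ) (σ ^ l) = δ₃ * (-1) ^ (l + 1) ∧ ∀ j : Fin (2 ^ (n - 2) - 1), (χ' j : G → ℂ) (σ ^ l) = δ₁ * (ζ ^ (((j : ℕ) + 1) * l) + (ζ ^ (((j : ℕ) + 1) * l))⁻¹)) ∧ ∀ ρ : G, Odd (orderOf ρ) → ∀ j : Fin (2 ^ (n - 2) - 1), 1 + δ₁ * (χ₁ : G → ℂ) ρ = -δ₂ * (χ₂ : G → ℂ) ρ - δ₃ * (χ₃ : G → ℂ) ρ ∧ 1 + δ₁ * (χ₁ : G → ℂ) ρ = δ₁ * (χ' j : G → ℂ) ρ := by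
  classical
  have := Fintype.ofFinite G
  have h2m : 2 ^ (n - 1) = 2 * 2 ^ (n - 2) := by
    rw [← pow_succ']; congr 1; omega
  have hm2 : 2 ≤ 2 ^ (n - 2) := by
    have : 2 ^ 1 ≤ 2 ^ (n - 2) := Nat.pow_le_pow_right (by norm_num) (by omega)
    simpa using this
  obtain ⟨s, V, h⟩ := H74.exists_dihBlk hM n hn P hP σ hσ hσo
  rw [h2m] at hζ ⊢
  obtain ⟨c1, c2, c3, e, δ1, δ2, δ3, o⟩ := H74.exists_dihOut h hζ
  set m := 2 ^ (n - 2) with hm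
  have hone : ∀ χ : IrrCharacter G, (χ : G → ℂ) = (fun _ => 1) ↔ χ = CharBase.oneIrr G :=
    fun χ => ⟨fun h => Subtype.ext h, fun h => by rw [h]; rfl⟩
  have hidx : ∀ j : Fin (m - 1), 1 ≤ (j : ℕ) + 1 ∧ (j : ℕ) + 1 < m := by
    intro j
    have := j.2
    omega
  have hinj : Function.Injective (fun j : Fin (m - 1) => e ((j : ℕ) + 1)) := by
    intro i j hij
    have h1 := o.einj _ _ (hidx i).1 (hidx i).2 (hidx j).1 (hidx j).2 hij
    exact Fin.ext (by omega)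
  have hset : principalBlock M G = {χ : IrrCharacter G | (χ : G → ℂ) = (fun _ => 1) ∨ χ = c1 ∨
      χ = c2 ∨ χ = c3 ∨ ∃ j : Fin (m - 1), χ = e ((j : ℕ) + 1)} := by
    ext χ
    rw [o.mem, Set.mem_ofPred_eq, hone]
    constructor
    · rintro (h | h | h | h | ⟨j, hj, hj', h⟩)
      · exact Or.inl h
      · exact Or.inr (Or.inl h)
      · exact Or.inr (Or.inr (Or.inl h))
      · exact Or.inr (Or.inr (Or.inr (Or.inl h)))
      · refine Or.inr (Or.inr (Or.inr (Or.inr ⟨⟨j - 1, by omega⟩, ?_⟩)))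
        rw [h]
        congr 1
        simp only
        omega
    · rintro (h | h | h | h | ⟨j, h⟩)
      · exact Or.inl h
      · exact Or.inr (Or.inl h)
      · exact Or.inr (Or.inr (Or.inl h))
      · exact Or.inr (Or.inr (Or.inr (Or.inl h)))
      · exact Or.inr (Or.inr (Or.inr (Or.inr ⟨(j : ℕ) + 1, (hidx j).1, (hidx j).2, h⟩)))
  have hen : ∀ j : Fin (m - 1), e ((j : ℕ) + 1) ≠ CharBase.oneIrr G ∧ e ((j : ℕ) + 1) ≠ c1 ∧
      e ((j : ℕ) + 1) ≠ c2 ∧ e ((j : ℕ) + 1) ≠ c3 := fun j => o.en _ (hidx j).1 (hidx j).2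
  refine ⟨?_, c1, c2, c3, fun j => e ((j : ℕ) + 1), δ1, δ2, δ3, o.s1, o.s2, o.s3, hinj, ?_, ?_, ?_,
    o.c12, o.c13, o.c23, ?_, hset, ?_, ?_⟩
  · have h1 : principalBlock M G = ↑(({CharBase.oneIrr G, c1, c2, c3} : Finset (IrrCharacter G)) ∪
        Finset.univ.image (fun j : Fin (m - 1) => e ((j : ℕ) + 1))) := by
      rw [hset]
      ext χ
      simp only [Set.mem_ofPred_eq, hone, Finset.coe_union, Finset.coe_insert,
        Finset.coe_singleton, Finset.coe_image, Finset.coe_univ, Set.image_univ, Set.mem_union,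
        Set.mem_insert_iff, Set.mem_singleton_iff, Set.mem_range]
      constructor
      · rintro (h | h | h | h | ⟨j, h⟩)
        · exact Or.inl (Or.inl h)
        · exact Or.inl (Or.inr (Or.inl h))
        · exact Or.inl (Or.inr (Or.inr (Or.inl h)))
        · exact Or.inl (Or.inr (Or.inr (Or.inr h)))
        · exact Or.inr ⟨j, h.symm⟩
      · rintro ((h | h | h | h) | ⟨j, h⟩)
        · exact Or.inl h
        · exact Or.inr (Or.inl h)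
        · exact Or.inr (Or.inr (Or.inl h))
        · exact Or.inr (Or.inr (Or.inr (Or.inl h)))
        · exact Or.inr (Or.inr (Or.inr (Or.inr ⟨j, h.symm⟩)))
    rw [h1, Nat.card_coe_set_eq, Set.ncard_coe_finset, Finset.card_union_of_disjoint,
      Finset.card_image_of_injective _ hinj, Finset.card_univ, Fintype.card_fin,
      Finset.card_insert_of_notMem, Finset.card_insert_of_notMem, Finset.card_insert_of_notMem,
      Finset.card_singleton]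
    · omega
    · simpa using o.c23
    · simp only [Finset.mem_insert, Finset.mem_singleton, not_or]; exact ⟨o.c12, o.c13⟩
    · simp only [Finset.mem_insert, Finset.mem_singleton, not_or]
      exact ⟨Ne.symm o.c1o, Ne.symm o.c2o, Ne.symm o.c3o⟩
    · rw [Finset.disjoint_left]
      intro χ hχ hχ'
      rw [Finset.mem_image] at hχ'
      obtain ⟨j, -, rfl⟩ := hχ'
      simp only [Finset.mem_insert, Finset.mem_singleton] at hχ
      obtain ⟨a, b, c, d⟩ := hen j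
      rcases hχ with h | h | h | h
      · exact a h
      · exact b h
      · exact c h
      · exact d h
  · rw [Ne, hone]; exact o.c1o
  · rw [Ne, hone]; exact o.c2o
  · rw [Ne, hone]; exact o.c3o
  · intro j
    obtain ⟨a, b, c, d⟩ := hen j
    refine ⟨b, c, d, ?_⟩
    rw [Ne, hone]; exact a
  · intro l hl hl'
    refine ⟨o.val1 l hl hl', o.val2 l hl hl', o.val3 l hl hl', fun j => ?_⟩
    exact o.vale l hl hl' _ (hidx j).1 (hidx j).2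
  · intro ρ hρ j
    refine ⟨?_, o.rege ρ hρ _ (hidx j).1 (hidx j).2⟩
    have h1 := o.reg ρ hρ
    linear_combination h1

end Cfsg.Agent.S4481
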