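import Cfsg.Statements.S4482

import Cfsg.Agent.H74.DihForm2

set_option autoImplicit false
open Cfsg

namespace Cfsg.Agent.S4482

open Cfsg

/-- An order formula for groups with dihedral Sylow 2-subgroups and one class of involutions. Let G be a finite group whose Sylow 2-subgroup P = ⟨σ, τ⟩ is dihedral of order 2^n ≥ 8 (σ of order 2^(n−1), τ an involution inverting σ), let J be the central involution σ^(2^(n−2)), and suppose J, τ and στ are conjugate in G. Fix M over 2 and let χ₁ be an irreducible character in the principal 2-block taking one constant value δ₁ = ±1 at every non-identity power of σ, with χ₁ ≠ 1. Then, with x₁ = χ₁(1) and c(·) denoting orders of centralizers, x₁ ≠ δ₁ and #G · (x₁ − δ₁)² = 2·x₁(x₁ + δ₁)·c(J)³·(1/c(J, τ) + 1/c(J, στ))², where c(J, y) is the order of the joint centralizer of J and y. -/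
theorem result {G : Type*} [Group G] [Finite G] (M : Ideal Cfsg.AlgInt) (hM : Cfsg.IsPModular 2 M) (n : ℕ) (hn : 3 ≤ n) (P : Sylow 2 G) (σ τ : G) (hσ : σ ∈ (P : Subgroup G)) (hτ : τ ∈ (P : Subgroup G)) (hσo : orderOf σ = 2 ^ (n - 1)) (hτo : orderOf τ = 2) (hrel : τ * σ * τ⁻¹ = σ⁻¹) (hgen : Subgroup.closure ({σ, τ} : Set G) = (P : Subgroup G)) (hconj : IsConj (σ ^ (2 ^ (n - 2))) τ ∧ IsConj (σ ^ (2 ^ (n - 2))) (σ * τ)) (χ₁ : Cfsg.IrrCharacter G) (hχ₁ : χ₁ ∈ Cfsg.principalBlock M G) (h1 : (χ₁ : G → ℂ) ≠ (fun _ => 1)) (δ₁ : ℤ) (hδ₁ : δ₁ = 1 ∨ δ₁ = -1) (hval : ∀ l : ℕ, 0 < l → l < 2 ^ (n - 1) → (χ₁ : G → ℂ) (σ ^ l) = δ₁) : (Cfsg.charDegree (χ₁ : G → ℂ) : ℤ) ≠ δ₁ ∧ (Nat.card G : ℚ) * ((Cfsg.charDegree (χ₁ : G → ℂ) : ℚ) - δ₁) ^ 2 = 2 * (Cfsg.charDegree (χ₁ : G → ℂ) : ℚ) * ((Cfsg.charDegree (χ₁ : G → ℂ) : ℚ) + δ₁) * (Nat.card (Subgroup.centralizer ({σ ^ (2 ^ (n - 2))} : Set G)) : ℚ) ^ 3 * (1 / (Nat.card (Subgroup.centralizer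 ({σ ^ (2 ^ (n - 2)), τ} : Set G)) : ℚ) + 1 / (Nat.card (Subgroup.centralizer ({σ ^ (2 ^ (n - 2)), σ * τ} : Set G)) : ℚ)) ^ 2 := by
  classical
  have := Fintype.ofFinite G
  have h2m : 2 ^ (n - 1) = 2 * 2 ^ (n - 2) := by
    rw [← pow_succ']; congr 1; omega
  have hm2 : 2 ≤ 2 ^ (n - 2) := by
    have : 2 ^ 1 ≤ 2 ^ (n - 2) := Nat.pow_le_pow_right (by norm_num) (by omega)
    simpa using this
  obtain ⟨V, h⟩ := H74.dihBlk_of_gens hM n hn P σ τ hσ hτ hσo hτo hrel hgen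
  rw [h2m] at hval
  set m := 2 ^ (n - 2) with hm
  have hζ := Complex.isPrimitiveRoot_exp (2 * m) (by omega)
  set ζ := Complex.exp (2 * Real.pi * Complex.I / ((2 * m : ℕ) : ℂ)) with hζdef
  obtain ⟨c1, c2, c3, e, δ1, δ2, δ3, o⟩ := H74.exists_dihOut h hζ
  have hev := h.even
  have hval' : ∀ l : ℕ, 0 < l → l < 2 * m → (χ₁ : G → ℂ) (σ ^ l) = δ₁ := hval
  have hsq : ∀ z : ℤ, (z = 1 ∨ z = -1) → (z : ℂ) * z = 1 := by
    rintro z (rfl | rfl) <;> norm_num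
  have hne : ∀ z w : ℤ, (z = 1 ∨ z = -1) → (w : ℂ) = z → (w : ℂ) = -z → False := by
    rintro z w (rfl | rfl) h1 h2 <;> (rw [h1] at h2; norm_num at h2)
  have hc1 : χ₁ = c1 ∧ δ₁ = δ1 := by
    rcases (o.mem χ₁).1 hχ₁ with h3 | h3 | h3 | h3 | ⟨j, hj1, hj2, h3⟩
    · exact absurd (by rw [h3]; rfl) h1
    · refine ⟨h3, ?_⟩
      have h4 := hval' 1 (by omega) (by omega)
      rw [h3, o.val1 1 (by omega) (by omega)] at h4
      exact_mod_cast h4.symm
    · exfalso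
      have h4 := hval' 1 (by omega) (by omega)
      have h5 := hval' 2 (by omega) (by omega)
      rw [h3, o.val2 1 (by omega) (by omega)] at h4
      rw [h3, o.val2 2 (by omega) (by omega)] at h5
      refine hne δ2 δ₁ o.s2 ?_ ?_
      · rw [← h4]; norm_num
      · rw [← h5]; norm_num
    · exfalso
      have h4 := hval' 1 (by omega) (by omega)
      have h5 := hval' 2 (by omega) (by omega)
      rw [h3, o.val3 1 (by omega) (by omega)] at h4
      rw [h3, o.val3 2 (by omega) (by omega)] at h5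
      refine hne δ3 δ₁ o.s3 ?_ ?_
      · rw [← h4]; norm_num
      · rw [← h5]; norm_num
    · exfalso
      have h4 := hval' m (by omega) (by omega)
      rw [h3, o.vale m (by omega) (by omega) j hj1 hj2, H74.DihOut.zeta_pow hζ (by omega)] at h4
      have h5 : ((-1 : ℂ) ^ j)⁻¹ = (-1) ^ j := by
        rw [← inv_pow]; norm_num
      rw [h5] at h4
      have h6 : ((-1 : ℂ) ^ j) * (-1) ^ j = 1 := by rw [← mul_pow]; norm_num
      have h7 := hsq δ1 o.s1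
      have h8 := hsq δ₁ hδ₁
      rw [← h4] at h8
      have h9 : (4 : ℂ) * (δ1 * δ1) * ((-1 : ℂ) ^ j * (-1) ^ j) = 1 := by
        linear_combination h8
      rw [h6, h7] at h9
      norm_num at h9
  obtain ⟨h3, h4⟩ := hc1
  rw [h3, h4]
  exact H74.dih_formula h hζ o hconj.1 hconj.2

end Cfsg.Agent.S4482
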