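import Cfsg.Statements.S4483
import Cfsg.Agent.BlkC.BrauerFeit
import Cfsg.Agent.H76.RealOdd
import Cfsg.Agent.H75.Tools

set_option autoImplicit false
set_option linter.style.haveILetI false
open Cfsg

namespace Cfsg.Agent.S4483

open Cfsg.Agent.CharBase Cfsg.Agent.Char Cfsg.Agent.Blk Cfsg.Agent.BlkC

/-- Let G be a finite group of order 2^n·g₀ with g₀ odd, and M a maximal ideal of the algebraic integers containing 2. Every real-valued irreducible character of G of odd degree lies in the principal 2-block; consequently G has at most 2^(2n) real-valued irreducible characters of odd degree. -/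
theorem result {G : Type*} [Group G] [Finite G] (M : Ideal Cfsg.AlgInt) (hM : Cfsg.IsPModular 2 M) : (∀ χ : Cfsg.IrrCharacter G, (∀ g : G, ((χ : G → ℂ) g).im = 0) → Odd (Cfsg.charDegree (χ : G → ℂ)) → χ ∈ Cfsg.principalBlock M G) ∧ Nat.card {χ : Cfsg.IrrCharacter G // (∀ g : G, ((χ : G → ℂ) g).im = 0) ∧ Odd (Cfsg.charDegree (χ : G → ℂ))} ≤ 2 ^ (2 * (Nat.card G).factorization 2) := by
  classical
  haveI := Fintype.ofFinite G
  haveI : M.IsPrime := isPrime_of_isPModular hM
  haveI : Fact (Nat.Prime 2) := ⟨Nat.prime_two⟩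
  have h1 : ∀ χ : Cfsg.IrrCharacter G, (∀ g : G, ((χ : G → ℂ) g).im = 0) →
      Odd (Cfsg.charDegree (χ : G → ℂ)) → χ ∈ Cfsg.principalBlock M G := by
    intro χ hre hodd
    rw [H75.charDegree_eq_deg] at hodd
    refine H76.mem_principalBlock_of_congr hM χ (H75.deg χ) (H75.deg_spec χ) hodd fun g => ?_
    have : (χ : G → ℂ) g⁻¹ = (χ : G → ℂ) g := by
      rw [isCharacter_inv (irr_isCharacter χ)]
      exact Complex.conj_eq_iff_im.mpr (hre g)
    rw [this, sub_self]
    exact mli_zero
  refine ⟨h1, ?_⟩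
  have hBF := brauer_feit (p := 2) hM (isPBlock_principalBlock (G := G) M)
  rw [blockDefect_principalBlock] at hBF
  have hle : Nat.card {χ : Cfsg.IrrCharacter G // (∀ g : G, ((χ : G → ℂ) g).im = 0) ∧
      Odd (Cfsg.charDegree (χ : G → ℂ))} ≤ Nat.card (principalBlock M G) :=
    Nat.card_le_card_of_injective (fun χ => (⟨χ.1, h1 χ.1 χ.2.1 χ.2.2⟩ : principalBlock M G))
      (fun a b h => Subtype.ext (congrArg (fun z : principalBlock M G => (z : IrrCharacter G)) h))
  rcases Nat.eq_zero_or_pos ((Nat.card G).factorization 2) with h0 | h0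
  · rw [h0] at hBF ⊢
    simp only [mul_zero, pow_zero] at hBF ⊢
    omega
  · have h4 : 4 ≤ 2 ^ (2 * (Nat.card G).factorization 2) := by
      calc 4 = 2 ^ (2 * 1) := by norm_num
        _ ≤ 2 ^ (2 * (Nat.card G).factorization 2) := Nat.pow_le_pow_right (by norm_num) (by omega)
    omega

end Cfsg.Agent.S4483
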