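import Cfsg.Statements.S4484
import Cfsg.Agent.H75.EigRep
import Cfsg.Agent.Glaub.PGroup
import Cfsg.Agent.H75.BlkTwo

set_option autoImplicit false
set_option linter.style.haveILetI false
open Cfsg

namespace Cfsg.Agent.S4484

open Cfsg.Agent.H75 Cfsg.Agent.H75.Sixty Cfsg.Agent.CharBase Cfsg.Agent.Blk
open scoped ComplexConjugate
open ZMod (stdAddChar)

theorem pow_apply_eig {G : Type*} [Group G] {n : ℕ} (ρ : Representation ℂ G (Fin n → ℂ)) {p : ℕ} [NeZero p]
    {x : G} {j : ZMod p} {w : Fin n → ℂ} (hw : ρ x w = (stdAddChar j : ℂ) • w) (k : ℕ) :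
    ρ (x ^ k) w = (stdAddChar (j * (k : ZMod p)) : ℂ) • w := by
  induction k with
  | zero => simp
  | succ k ih =>
    rw [pow_succ, map_mul, Module.End.mul_apply, hw, map_smul, ih, smul_smul, ← AddChar.map_add_eq_mul]
    congr 2
    push_cast; ring


/-- A refinement of Burnside's result on simple groups of order divisible by only two primes. Let G be a finite simple group of order p^a · q^b · g₀ with p, q distinct primes, a > 0, g₀ coprime to p and q, and the order of G different from p. Then g₀ − 1 > log p / log 6, that is 6^(g₀ − 1) > p. -/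
theorem result {G : Type*} [Group G] [Finite G] [IsSimpleGroup G] (p q a b g₀ : ℕ) (hp : p.Prime) (hq : q.Prime) (hpq : p ≠ q) (ha : 0 < a) (hg : Nat.card G = p ^ a * q ^ b * g₀) (hcop : ¬ p ∣ g₀) (hcoq : ¬ q ∣ g₀) (hne : Nat.card G ≠ p) : p < 6 ^ (g₀ - 1) := by
  classical
  have := Fintype.ofFinite G
  haveI := Fact.mk hp
  haveI := Fact.mk hq
  by_contra hcon
  push Not at hcon
  have hcard0 : Nat.card G ≠ 0 := Nat.card_pos.ne'
  have hg0 : 0 < g₀ := by
    rcases Nat.eq_zero_or_pos g₀ with h | h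
    · rw [h, mul_zero] at hg; exact absurd hg hcard0
    · exact h
  have hpd : p ∣ Nat.card G := by
    rw [hg, mul_assoc]
    exact (dvd_pow_self p ha.ne').mul_right _
  -- a central element of a Sylow subgroup
  obtain ⟨P⟩ : Nonempty (Sylow p G) := inferInstance
  have hPnt : Nontrivial P := by
    have h1 := P.dvd_card_of_dvd_card hpd
    rw [← Finite.one_lt_card_iff_nontrivial]
    exact lt_of_lt_of_le hp.one_lt (Nat.le_of_dvd Nat.card_pos h1)
  obtain ⟨x, hxo, hxP⟩ : ∃ x : G, orderOf x = p ∧ (P : Subgroup G) ≤ Subgroup.centralizer ({x} : Set G) := by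
    have h1 := P.isPGroup'.center_nontrivial
    have h2 : IsPGroup p (Subgroup.center P) := P.isPGroup'.to_subgroup _
    have h3 : p ∣ Nat.card (Subgroup.center P) := by
      rcases h2.card_eq_or_dvd with h | h
      · rw [← Finite.one_lt_card_iff_nontrivial, h] at h1
        exact absurd h1 (lt_irrefl 1)
      · exact h
    obtain ⟨z, hz⟩ := exists_prime_orderOf_dvd_card' p h3
    refine ⟨((z : P) : G), by rw [Subgroup.orderOf_coe, Subgroup.orderOf_coe, hz], ?_⟩
    intro g hg
    rw [Subgroup.mem_centralizer_singleton_iff]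
    have h4 := Subgroup.mem_center_iff.mp z.2 ⟨g, hg⟩
    exact congrArg Subtype.val h4
  have hxidx : ¬ p ∣ (Subgroup.centralizer ({x} : Set G)).index := fun h =>
    P.not_dvd_index (h.trans (Subgroup.index_dvd_of_le hxP))
  have hx1 : x ≠ 1 := by
    intro h
    rw [h, orderOf_one] at hxo
    exact hp.one_lt.ne hxo
  -- trivial centre
  have hZ : Subgroup.center G = ⊥ := by
    rcases (inferInstance : (Subgroup.center G).Normal).eq_bot_or_eq_top with h | h
    · exact h
    · exfalso
      have hn : (Subgroup.zpowers x).Normal := ⟨fun a ha g => by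
        have h1 : g ∈ Subgroup.center G := by rw [h]; trivial
        have h2 := Subgroup.mem_center_iff.mp h1 a
        rw [← h2, mul_assoc, mul_inv_cancel, mul_one]
        exact ha⟩
      rcases hn.eq_bot_or_eq_top with h1 | h1
      · rw [Subgroup.zpowers_eq_bot] at h1; exact hx1 h1
      · apply hne
        have h2 := Nat.card_zpowers x
        rw [h1, Subgroup.card_top, hxo] at h2
        exact h2
  obtain ⟨M, hM⟩ := Cfsg.Agent.Glaub.exists_isPModular hp
  obtain ⟨M', hM'⟩ := Cfsg.Agent.Glaub.exists_isPModular hq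
  haveI : M.IsPrime := hM.2.1.isPrime
  haveI : M'.IsPrime := hM'.2.1.isPrime
  haveI : Fintype (IrrCharacter G) := Fintype.ofFinite _
  -- the character
  obtain ⟨χ, hχB, hχ1, hχx, hχq⟩ : ∃ χ : IrrCharacter G, χ ∈ principalBlock M G ∧ χ ≠ oneIrr G ∧
      (χ : G → ℂ) x ≠ 0 ∧ ∀ d : ℕ, (χ : G → ℂ) 1 = d → ¬ q ∣ d := by
    by_contra hcon2
    push Not at hcon2
    have h0 := blockKernel_eq_zero' hM (B := principalBlock M G) ⟨oneIrr G, rfl⟩ (x := x) (y := 1)
      (by rw [hxo]) (by rw [orderOf_one]; exact hp.one_lt.ne' ∘ Nat.dvd_one.mp)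
    rw [show blockKernel (principalBlock M G) x 1 = ∑ ψ : IrrCharacter G, if ψ ∈ principalBlock M G then
      (ψ : G → ℂ) x * conj ((ψ : G → ℂ) 1) else 0 from finsum_mem_eq_sum_ite _ _,
      ← Finset.add_sum_erase _ _ (Finset.mem_univ (oneIrr G)), if_pos oneIrr_mem_principalBlock] at h0
    have h1 : MemLocalIdeal M' (∑ ψ ∈ Finset.univ.erase (oneIrr G), if ψ ∈ principalBlock M G then
      (ψ : G → ℂ) x * conj ((ψ : G → ℂ) 1) else 0) := by
      refine mli_sum _ _ fun ψ hψ => ?_
      split_ifs with hψB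
      · by_cases hψx : (ψ : G → ℂ) x = 0
        · rw [hψx, zero_mul]; exact mli_zero
        · obtain ⟨d, hd, hqd⟩ := hcon2 ψ hψB (Finset.ne_of_mem_erase hψ) hψx
          rw [hd, Complex.conj_natCast]
          exact mli_mul_left (mlr_of_isIntegral (irr_isIntegral ψ x)) ((mli_natCast_iff hM' d).mpr hqd)
      · exact mli_zero
    apply not_mli_one (M := M')
    have h2 : (1 : ℂ) = -(∑ ψ ∈ Finset.univ.erase (oneIrr G), if ψ ∈ principalBlock M G then
      (ψ : G → ℂ) x * conj ((ψ : G → ℂ) 1) else 0) := by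
      rw [oneIrr_apply, oneIrr_apply, map_one, mul_one] at h0
      linear_combination h0
    rw [h2]
    exact mli_neg h1
  obtain ⟨n, ρ, hirr, hρ⟩ := χ.2
  obtain ⟨d, hd⟩ := exists_nat_degree (irr_isCharacter χ)
  obtain ⟨c, hc⟩ := exists_count (n := p) (irr_isCharacter χ) x (by rw [← hxo]; exact pow_orderOf_eq_one x)
  have hxp : x ^ p = 1 := by rw [← hxo]; exact pow_orderOf_eq_one x
  have hc' : ∀ k : ℕ, ρ.character (x ^ k) = ∑ j : ZMod p, (c j : ℂ) * stdAddChar (j * (k : ZMod p)) := by
    intro k; rw [hρ]; exact hc k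
  have hfew := few_eigenvalues hM hxo χ hχB hd hc
  set s : Finset (ZMod p) := Finset.univ.filter (fun j => c j ≠ 0) with hs
  have hsg : s.card ≤ g₀ := by
    refine hfew.trans (Nat.le_of_dvd hg0 ?_)
    set h := Nat.gcd d (Subgroup.centralizer ({x} : Set G)).index with hh
    have h1 : h ∣ p ^ a * q ^ b * g₀ := by
      rw [← hg]
      exact (Nat.gcd_dvd_right _ _).trans (Subgroup.index_dvd_card _)
    have h2 : Nat.Coprime h (p ^ a) := by
      apply Nat.Coprime.pow_right
      exact ((Nat.Prime.coprime_iff_not_dvd hp).mpr fun h3 => hxidx (h3.trans (Nat.gcd_dvd_right _ _))).symm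
    have h3 : Nat.Coprime h (q ^ b) := by
      apply Nat.Coprime.pow_right
      exact ((Nat.Prime.coprime_iff_not_dvd hq).mpr fun h3 => hχq d hd (h3.trans (Nat.gcd_dvd_left _ _))).symm
    exact (Nat.Coprime.mul_right h2 h3).dvd_of_dvd_mul_left h1
  have hd0 : d ≠ 0 := by
    rintro rfl
    apply irr_one_ne_zero χ.2
    rw [hd]; simp
  obtain ⟨j₀, hj₀⟩ : ∃ j, c j ≠ 0 := by
    by_contra hall
    push Not at hall
    have h1 := hc 0
    simp only [pow_zero, hall, Nat.cast_zero, zero_mul, Finset.sum_const_zero] at h1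
    rw [hd] at h1
    exact hd0 (by exact_mod_cast h1)
  have hj₀s : j₀ ∈ s := by rw [hs, Finset.mem_filter]; exact ⟨Finset.mem_univ _, hj₀⟩
  set s' : Finset (ZMod p) := (s.erase j₀).image (fun j => j - j₀) with hs'
  have hs'card : s'.card ≤ g₀ - 1 := by
    refine Finset.card_image_le.trans ?_
    rw [Finset.card_erase_of_mem hj₀s]
    omega
  have hlt : 6 ^ s'.card < p := by
    have h1 : 6 ^ s'.card ≤ p := (Nat.pow_le_pow_right (by norm_num) hs'card).trans hcon
    refine lt_of_le_of_ne h1 fun h2 => ?_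
    rcases Nat.eq_zero_or_pos s'.card with h3 | h3
    · rw [h3, pow_zero] at h2
      exact hp.one_lt.ne h2
    · have h4 : 6 ∣ p := by rw [← h2]; exact dvd_pow_self 6 h3.ne'
      have h5 := (Nat.prime_dvd_prime_iff_eq Nat.prime_two hp).mp (dvd_trans (by norm_num) h4)
      have h6 := (Nat.prime_dvd_prime_iff_eq Nat.prime_three hp).mp (dvd_trans (by norm_num) h4)
      omega
  obtain ⟨t, ht0, ht⟩ := exists_close s' hlt
  have hA : ρ x ^ p = 1 := by rw [← map_pow, hxp, map_one]
  set y := x ^ t.val with hy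
  have hy1 : y ≠ 1 := by
    intro h
    have h1 := orderOf_dvd_of_pow_eq_one h
    rw [hxo] at h1
    exact ht0 ((ZMod.val_eq_zero t).mp (Nat.eq_zero_of_dvd_of_lt h1 (ZMod.val_lt t)))
  have hncl : Subgroup.normalClosure ({y} : Set G) = ⊤ := by
    rcases (inferInstance : (Subgroup.normalClosure ({y} : Set G)).Normal).eq_bot_or_eq_top with h | h
    · have h1 : y ∈ Subgroup.normalClosure ({y} : Set G) := Subgroup.subset_normalClosure rfl
      rw [h, Subgroup.mem_bot] at h1
      exact absurd h1 hy1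
    · exact h
  have hscal := sixty ρ (p := p) hirr y hncl (by rw [hy, ← pow_mul, mul_comm, pow_mul, hxp, one_pow])
    (c := (stdAddChar (t * j₀) : ℂ)) (by rw [← AddChar.map_nsmul_eq_pow]; simp) ?_ ?_
  · -- `y` is central
    have hker : MonoidHom.ker ρ = ⊥ := by
      rcases (MonoidHom.normal_ker ρ).eq_bot_or_eq_top with h | h
      · exact h
      · exfalso
        have h1 : ∀ g : G, (χ : G → ℂ) g = d := by
          intro g
          have h2 : ρ g = 1 := by
            have : g ∈ MonoidHom.ker ρ := by rw [h]; trivial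
            exact this
          rw [← hd, ← hρ]
          change LinearMap.trace ℂ _ (ρ g) = LinearMap.trace ℂ _ (ρ 1)
          rw [h2, map_one ρ]
        have h3 := classInner_irr_of_ne hχ1
        rw [classInner] at h3
        simp only [h1, oneIrr_apply, map_one, mul_one, Finset.sum_const, Finset.card_univ, nsmul_eq_mul] at h3
        rw [← Nat.card_eq_fintype_card, ← mul_assoc, inv_mul_cancel₀ (Nat.cast_ne_zero.mpr hcard0), one_mul] at h3
        exact hd0 (by exact_mod_cast h3)
    have hinj := (MonoidHom.ker_eq_bot_iff ρ).mp hker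
    apply hy1
    have h1 : y ∈ Subgroup.center G := by
      rw [Subgroup.mem_center_iff]
      intro g
      apply hinj
      refine LinearMap.ext fun v => ?_
      rw [map_mul, map_mul, Module.End.mul_apply, Module.End.mul_apply, hscal, hscal, map_smul]
    rw [hZ, Subgroup.mem_bot] at h1
    exact h1
  · -- an eigenvector
    have h1 : pr (p := p) (ρ x) j₀ ≠ 0 := by
      intro h
      have h2 := trace_pr ρ hc' j₀
      rw [h, map_zero] at h2
      exact hj₀ (by exact_mod_cast h2.symm)
    obtain ⟨v, hv⟩ : ∃ v, pr (p := p) (ρ x) j₀ v ≠ 0 := by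
      by_contra hall
      push Not at hall
      exact h1 (LinearMap.ext hall)
    refine ⟨_, hv, ?_⟩
    rw [hy, pow_apply_eig ρ (apply_pr hA j₀ v), ZMod.natCast_zmod_val, mul_comm]
  · intro μ v hv hμ
    obtain ⟨j, hj⟩ : ∃ j, pr (p := p) (ρ x) j v ≠ 0 := by
      by_contra hall
      push Not at hall
      apply hv
      rw [← sum_pr_apply (p := p) (A := ρ x) v]
      exact Finset.sum_eq_zero fun j _ => hall j
    have hcj : c j ≠ 0 := by
      intro h
      rw [pr_eq_zero ρ hxp hc' h] at hj
      exact hj rfl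
    have hcomm : ρ y * pr (p := p) (ρ x) j = pr (p := p) (ρ x) j * ρ y := by
      apply pr_comm
      rw [hy, ← map_mul, ← map_mul, ← pow_succ, ← pow_succ']
    have h1 : ρ y (pr (p := p) (ρ x) j v) = μ • pr (p := p) (ρ x) j v := by
      have h2 := congrArg (fun f : Module.End ℂ (Fin n → ℂ) => f v) hcomm
      simp only [Module.End.mul_apply] at h2
      rw [h2, hμ, map_smul]
    have h2 : ρ y (pr (p := p) (ρ x) j v) = (stdAddChar (t * j) : ℂ) • pr (p := p) (ρ x) j v := by
      rw [hy, pow_apply_eig ρ (apply_pr hA j v), ZMod.natCast_zmod_val, mul_comm]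
    have h3 : μ = stdAddChar (t * j) := by
      have h4 : (μ - stdAddChar (t * j)) • pr (p := p) (ρ x) j v = 0 := by
        rw [sub_smul, ← h1, h2, sub_self]
      rcases smul_eq_zero.mp h4 with h5 | h5
      · exact sub_eq_zero.mp h5
      · exact absurd h5 hj
    rw [h3]
    by_cases hjj : j = j₀
    · rw [hjj, sub_self, map_zero]; exact zero_lt_one
    · have h4 := ht (j - j₀) (by
        rw [hs', Finset.mem_image]
        exact ⟨j, Finset.mem_erase.mpr ⟨hjj, by rw [hs, Finset.mem_filter]; exact ⟨Finset.mem_univ _, hcj⟩⟩, rfl⟩)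
      have h5 : (stdAddChar (t * j) : ℂ) - stdAddChar (t * j₀) =
          stdAddChar (t * j₀) * ((stdAddChar (t * (j - j₀)) : ℂ) - 1) := by
        rw [mul_sub, mul_one, ← AddChar.map_add_eq_mul]
        congr 2
        ring
      have h6 : Complex.normSq (stdAddChar (t * j₀) : ℂ) = 1 := by
        have h7 : (stdAddChar (t * j₀) : ℂ) ^ p = 1 := by rw [← AddChar.map_nsmul_eq_pow]; simp
        rw [Complex.normSq_eq_norm_sq, Complex.norm_eq_one_of_pow_eq_one h7 hp.ne_zero]; norm_num
      rw [h5, map_mul, h6, one_mul]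
      exact h4

end Cfsg.Agent.S4484
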