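import Cfsg.Statements.S4485
import Cfsg.Agent.H74.UniCent

set_option autoImplicit false
universe u

open Cfsg

namespace Cfsg.Agent.S4485

open Cfsg.Agent Cfsg.Agent.CharBase

theorem aux (k : ℕ) : ∀ {G : Type u} [Group G] [Finite G] (p : ℕ) (_hp : p.Prime)
    (_hpG : p ∣ Nat.card G) (P : Sylow p G) (_hstar : H74.UC P) (χ : G → ℂ)
    (_hχ : Cfsg.IsCharacter G χ) (_hfaith : ∀ g : G, χ g = χ 1 → g = 1) (x : ℕ) (_hx : χ 1 = x)
    (_hdeg : x ^ 2 + 1 < Nat.card (P : Subgroup G)), Nat.card G ≤ k → (P : Subgroup G).Normal := by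
  induction k with
  | zero =>
    intro G _ _ p _ _ P _ χ _ _ x _ _ h
    have := Nat.card_pos (α := G)
    omega
  | succ k ih =>
    intro G _ _ p hp hpG P hstar χ hχ hfaith x hx hdeg hle
    classical
    have : Fact p.Prime := ⟨hp⟩
    have := Fintype.ofFinite G
    by_cases hno : ∃ K : Subgroup G, K.Normal ∧ K ≠ ⊤ ∧ (P : Subgroup G) ≤ K
    · obtain ⟨M, hMn, hMtop, hPM⟩ := hno
      -- apply induction to `M`
      let Q : Sylow p M := P.subtype hPM
      have hQ : (Q : Subgroup M) = (P : Subgroup G).subgroupOf M := rfl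
      have hcardQ : Nat.card (Q : Subgroup M) = Nat.card (P : Subgroup G) :=
        Nat.card_congr (Subgroup.subgroupOfEquivOfLe hPM).toEquiv
      have hpM : p ∣ Nat.card M := by
        have h1 : Nat.card (P : Subgroup G) ∣ Nat.card M := Subgroup.card_dvd_of_le hPM
        obtain ⟨m, hm⟩ := IsPGroup.iff_card.mp P.2
        have hm0 : m ≠ 0 := by
          rintro rfl
          rw [hm, pow_zero] at hdeg
          omega
        exact (dvd_pow_self p hm0).trans (hm ▸ h1)
      have hUC : H74.UC Q := by
        intro u hu hu1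
        have h1 := hstar (u : G) hu (fun h => hu1 (Subtype.ext h))
        ext y
        rw [Subgroup.mem_centralizer_singleton_iff, Subgroup.mem_centralizer_iff]
        have h2 : (y : G) ∈ Subgroup.centralizer ({(u : G)} : Set G) ↔
            (y : G) ∈ Subgroup.centralizer ((P : Subgroup G) : Set G) := by rw [h1]
        rw [Subgroup.mem_centralizer_singleton_iff, Subgroup.mem_centralizer_iff] at h2
        constructor
        · intro h v hv
          apply Subtype.ext
          exact h2.mp (congrArg Subtype.val h) (v : G) hv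
        · intro h
          apply Subtype.ext
          exact h2.mpr (fun v hv => congrArg Subtype.val (h ⟨v, hPM hv⟩ hv))
      have hlt : Nat.card M < Nat.card G := by
        have h1 := Subgroup.card_mul_index M
        have h2 : M.index ≠ 1 := fun h => hMtop (Subgroup.index_eq_one.mp h)
        have h3 : 0 < Nat.card M := Nat.card_pos
        have h4 : M.index ≠ 0 := Subgroup.index_ne_zero_of_finite
        have h5 : 2 ≤ M.index := by omega
        nlinarith
      have hQn := ih p hp hpM Q hUC (fun m : M => χ m) (isCharacter_restrict hχ M)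
        (fun m hm => Subtype.ext (hfaith m hm)) x hx (by rw [hcardQ]; exact hdeg) (by omega)
      -- Frattini
      have hF := Sylow.normalizer_sup_eq_top' P hPM
      have hMle : M ≤ Subgroup.normalizer ((P : Subgroup G) : Set G) := by
        intro m hm
        rw [Subgroup.mem_normalizer_iff]
        intro u
        constructor
        · intro hu
          exact hQn.conj_mem ⟨u, hPM hu⟩ hu ⟨m, hm⟩
        · intro hu
          have h1 := hQn.conj_mem ⟨m * u * m⁻¹, hPM hu⟩ hu ⟨m⁻¹, M.inv_mem hm⟩
          have h2 : (m⁻¹ * (m * u * m⁻¹) * (m⁻¹)⁻¹ : G) = u := by group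
          have h3 : (m⁻¹ * (m * u * m⁻¹) * (m⁻¹)⁻¹ : G) ∈ (P : Subgroup G) := h1
          rwa [h2] at h3
      have htop : Subgroup.normalizer ((P : Subgroup G) : Set G) = ⊤ := by
        rw [eq_top_iff, ← hF]
        exact sup_le le_rfl hMle
      exact Subgroup.normalizer_eq_top_iff.mp htop
    · -- all nontrivial constituents are linear
      have hcomm := H75.comm_of_faithful_linear hχ hfaith (fun ψ hψ => by
        by_cases h1 : ψ = oneIrr G
        · rw [h1]; rfl
        · have hψ' : classInner χ (ψ : G → ℂ) ≠ 0 := by convert hψ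
          have h2 := H75.deg_le_of_constituent hχ hx ψ hψ'
          have h3 := H75.deg_spec ψ
          have h4 : H75.deg ψ ^ 2 ≤ x ^ 2 := Nat.pow_le_pow_left h2 2
          have h5 := (hstar.main hpG ψ h1 h3 (by omega) hno).2
          rw [h3, h5]; norm_num)
      constructor
      intro u hu g
      rw [hcomm g u, mul_inv_cancel_right]
      exact hu

/-- Let G be a finite group and p a prime dividing its order such that every non-identity element of a Sylow p-subgroup P has the same centralizer as P itself (so P is abelian); let p^n be the order of P. If G has a faithful character of degree x with x² < p^n − 1, then P is normal in G. -/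
theorem result {G : Type*} [Group G] [Finite G] (p : ℕ) (hp : p.Prime) (hpG : p ∣ Nat.card G) (P : Sylow p G) (hstar : ∀ x ∈ (P : Subgroup G), x ≠ 1 → Subgroup.centralizer ({x} : Set G) = Subgroup.centralizer ((P : Subgroup G) : Set G)) (n : ℕ) (hn : Nat.card P = p ^ n) (χ : G → ℂ) (hχ : Cfsg.IsCharacter G χ) (hfaith : ∀ g : G, χ g = χ 1 → g = 1) (hdeg : Cfsg.charDegree χ ^ 2 + 1 < p ^ n) : (P : Subgroup G).Normal := by
  obtain ⟨x, hx⟩ := exists_nat_degree hχ
  have hdx := H75.charDegree_eq hx
  rw [hdx] at hdeg
  have hn' : Nat.card (P : Subgroup G) = p ^ n := hn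
  rw [← hn'] at hdeg
  exact aux (Nat.card G) p hp hpG P hstar χ hχ hfaith x hx hdeg le_rfl

end Cfsg.Agent.S4485
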