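import Cfsg.Statements.S4486
import Cfsg.Agent.H74.UniCent

set_option autoImplicit false
open Cfsg

namespace Cfsg.Agent.S4486

/-- Let G be a finite group and p a prime dividing its order such that every non-identity element of a Sylow p-subgroup P has the same centralizer as P; let p^n be the order of P. If G has a non-principal irreducible character χ of degree x with x² < p^n − 1, then either G has a proper normal subgroup containing P, or G has a normal subgroup of index p^n and x = 1. -/
theorem result {G : Type*} [Group G] [Finite G] (p : ℕ) (hp : p.Prime) (hpG : p ∣ Nat.card G) (P : Sylow p G) (hstar : ∀ x ∈ (P : Subgroup G), x ≠ 1 → Subgroup.centralizer ({x} : Set G) = Subgroup.centralizer ((P : Subgroup G) : Set G)) (n : ℕ) (hn : Nat.card P = p ^ n) (χ : Cfsg.IrrCharacter G) (h1 : (χ : G → ℂ) ≠ fun _ => 1) (hdeg : Cfsg.charDegree (χ : G → ℂ) ^ 2 + 1 < p ^ n) : (∃ K : Subgroup G, K.Normal ∧ K ≠ ⊤ ∧ (P : Subgroup G) ≤ K) ∨ ((∃ N : Subgroup G, N.Normal ∧ N.index = p ^ n) ∧ Cfsg.charDegree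 (χ : G → ℂ) = 1) := by
  classical
  have : Fact p.Prime := ⟨hp⟩
  by_cases hno : ∃ K : Subgroup G, K.Normal ∧ K ≠ ⊤ ∧ (P : Subgroup G) ≤ K
  · exact Or.inl hno
  · right
    obtain ⟨x, hx⟩ := Cfsg.Agent.CharBase.exists_nat_degree
      (Cfsg.Agent.CharBase.irr_isCharacter χ)
    have hdx := Cfsg.Agent.H75.charDegree_eq hx
    rw [hdx] at hdeg ⊢
    have hn' : Nat.card (P : Subgroup G) = p ^ n := hn
    have hUC : Cfsg.Agent.H74.UC P := hstar
    rw [← hn'] at hdeg ⊢
    exact hUC.main hpG χ (fun h => h1 (by rw [h]; rfl)) hx hdeg hno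

end Cfsg.Agent.S4486
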