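import Cfsg.Statements.S4487
import Cfsg.Agent.H79.PSolvK

set_option autoImplicit false
open Cfsg

namespace Cfsg.Agent.S4487

/-- Let G be a finite group and p a prime such that G has no non-trivial normal subgroup of order prime to p and C_G(O_p(G)) ≤ O_p(G). Then G has a single p-block: any two irreducible characters lie in the same block relative to every maximal ideal M of the algebraic integers containing p. -/
theorem result {G : Type*} [Group G] [Finite G] (p : ℕ) [Fact p.Prime] (M : Ideal Cfsg.AlgInt) (hM : Cfsg.IsPModular p M) (hcore : Cfsg.pPrimeCore p G = ⊥) (hconstr : Subgroup.centralizer ((Cfsg.pCore p G) : Set G) ≤ Cfsg.pCore p G) (χ ψ : Cfsg.IrrCharacter G) : Cfsg.SameBlock M (χ : G → ℂ) (ψ : G → ℂ) := by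
  classical
  have := Fintype.ofFinite G
  haveI := Cfsg.Agent.Blk.isPrime_of_isPModular hM
  have hcard : ¬ p ∣ Nat.card (⊥ : Subgroup G) := by
    rw [Subgroup.card_bot]
    exact fun h => (Fact.out : p.Prime).one_lt.ne' (Nat.dvd_one.1 h)
  have hb : (Cfsg.pCore p G).Normal := Cfsg.Agent.Solv.pCore_normal p
  have := Fintype.ofFinite (⊥ : Subgroup G)
  have hinv : ∀ g : G, Cfsg.Agent.Char.cj (⊥ : Subgroup G) g
      ((Cfsg.Agent.CharBase.oneIrr (⊥ : Subgroup G) : Cfsg.IrrCharacter (⊥ : Subgroup G)) :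
        (⊥ : Subgroup G) → ℂ) = Cfsg.Agent.CharBase.oneIrr (⊥ : Subgroup G) := fun g => rfl
  obtain ⟨k, hk⟩ := IsPGroup.iff_card.1 (Cfsg.Agent.Solv.pCore_isPGroup (G := G) p)
  obtain ⟨B, hB, hmem, -⟩ := Cfsg.Agent.H79.fong_core hM hcard hinv (K := Cfsg.pCore p G) bot_le
    ⟨k, by rw [Subgroup.relIndex_bot_left, hk]⟩ (by
      intro Q hQ hQp hmax
      have h1 := hmax (Cfsg.pCore p G) le_rfl (Cfsg.Agent.Solv.pCore_isPGroup p)
      have h2 : Q = Cfsg.pCore p G := Subgroup.eq_of_le_of_card_ge hQ h1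
      rw [h2]; exact hconstr)
  have hall : ∀ χ : Cfsg.IrrCharacter G, χ ∈ B := by
    intro χ
    rw [hmem χ]
    unfold Cfsg.classInner
    have h1 : ∀ n : (⊥ : Subgroup G), n = 1 := fun n => Subsingleton.elim _ _
    have h2 : ∑ n : (⊥ : Subgroup G), (χ : G → ℂ) n * (starRingEnd ℂ)
        (((Cfsg.Agent.CharBase.oneIrr (⊥ : Subgroup G) : Cfsg.IrrCharacter (⊥ : Subgroup G)) :
        (⊥ : Subgroup G) → ℂ) n) = (χ : G → ℂ) 1 := by
      rw [Fintype.sum_eq_single (1 : (⊥ : Subgroup G)) (fun n hn => absurd (h1 n) hn)]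
      change (χ : G → ℂ) 1 * (starRingEnd ℂ) 1 = _
      rw [map_one, mul_one]
    rw [h2]
    refine mul_ne_zero ?_ (Cfsg.Agent.CharBase.irr_one_ne_zero χ.2)
    exact inv_ne_zero (by exact_mod_cast Nat.card_pos.ne')
  exact Cfsg.Agent.Blk.sameBlock_of_mem hB (hall χ) (hall ψ)

end Cfsg.Agent.S4487
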