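import Cfsg.Statements.S4489
import Cfsg.Agent.H75.FieldBound

set_option autoImplicit false
open Cfsg

namespace Cfsg.Agent.S4489

open Cfsg.Agent.CharBase Cfsg.Agent.H75

/-- Let P be a finite p-group of order p^a with a > 0, and χ a faithful irreducible character of P of degree f whose field of values ℚ(χ) has degree (p − 1)·p^t over ℚ. Then a ≤ (f − 1)/(p − 1) + (t + 1)·f; in integer form, (p − 1)·a ≤ (f − 1) + (p − 1)(t + 1)·f. -/
theorem result {P : Type*} [Group P] [Finite P] (p a : ℕ) (hp : p.Prime) (ha : 0 < a) (hP : Nat.card P = p ^ a) (χ : Cfsg.IrrCharacter P) (hfaith : ∀ g : P, (χ : P → ℂ) g = (χ : P → ℂ) 1 → g = 1) (f t : ℕ) (hf : Cfsg.charDegree (χ : P → ℂ) = f) (hfield : Module.finrank ℚ (IntermediateField.adjoin ℚ (Set.range (χ : P → ℂ))) = (p - 1) * p ^ t) : (p - 1) * a ≤ (f - 1) + (p - 1) * (t + 1) * f := by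
  classical
  haveI : Fact p.Prime := ⟨hp⟩
  haveI := Fintype.ofFinite P
  have hPp : IsPGroup p P := IsPGroup.of_card hP
  have hdvd := deg_dvd χ
  rw [hP] at hdvd
  obtain ⟨m, -, hm⟩ := (Nat.dvd_prime_pow hp).mp hdvd
  have hf' : f = p ^ m := by rw [← hf, charDegree_eq_deg, hm]
  have hpos : 0 < (p - 1) * p ^ t :=
    Nat.mul_pos (Nat.sub_pos_of_lt hp.one_lt) (pow_pos hp.pos _)
  haveI : FiniteDimensional ℚ (IntermediateField.adjoin ℚ (Set.range (χ : P → ℂ))) :=
    FiniteDimensional.of_finrank_pos (by rw [hfield]; exact hpos)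
  have hR := ncard_galOrb_le hPp (irr_isCharacter χ)
  rw [hfield] at hR
  rw [hf']
  exact field_bound_aux m P a t χ hP ha hfaith (by rw [deg_spec, hm]) hR

end Cfsg.Agent.S4489
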