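import Cfsg.Statements.S4490
import Cfsg.Agent.H75.RealBlock

set_option autoImplicit false
open Cfsg

namespace Cfsg.Agent.S4490

open Cfsg.Agent.Blk Cfsg.Agent.BlkC Cfsg.Agent.CharBase

/-- Let G be a finite group and M a maximal ideal of the algebraic integers containing 2. Every 2-block B of G whose defect groups are the Sylow 2-subgroups of G (a block of full defect) and which is not the principal block is different from its complex-conjugate block, the block formed by the complex conjugates of the members of B. -/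
theorem result {G : Type*} [Group G] [Finite G] (M : Ideal Cfsg.AlgInt) (hM : Cfsg.IsPModular 2 M) (B : Set (Cfsg.IrrCharacter G)) (hB : Cfsg.IsPBlock M B) (P : Sylow 2 G) (hfull : Cfsg.IsDefectGroup 2 M B (P : Subgroup G)) (hnp : B ≠ Cfsg.principalBlock M G) : {ψ : Cfsg.IrrCharacter G | ∃ χ ∈ B, (ψ : G → ℂ) = fun g => (starRingEnd ℂ) ((χ : G → ℂ) g)} ≠ B := by
  classical
  have := Fintype.ofFinite G
  have hMp : M.IsPrime := hM.2.1.isPrime
  haveI : Fact (Nat.Prime 2) := ⟨Nat.prime_two⟩
  intro hconj
  apply hnp
  obtain ⟨y, hy, Q, hQ⟩ := hfull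
  have hyreg : ¬ 2 ∣ orderOf y := by
    intro h
    apply hy.2.1
    rw [blockCoeff_eq_zero_of_dvd hM hB h]
    exact mli_zero
  have := Fintype.ofFinite (P : Subgroup G)
  have hcard : Nat.card (P : Subgroup G) = 2 ^ blockDefect 2 B := by
    apply card_defect hM hB hy hyreg (P : Subgroup G) P.isPGroup'
    · intro u hu
      rw [hQ] at hu
      obtain ⟨u', hu', rfl⟩ := hu
      exact (Subgroup.mem_centralizer_singleton_iff.mp u'.2).symm
    · refine ⟨(Q : Subgroup (Subgroup.centralizer ({y} : Set G))).index, Q.not_dvd_index, ?_⟩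
      rw [hQ, Nat.card_congr ((Q : Subgroup (Subgroup.centralizer ({y} : Set G))).equivMapOfInjective
        (Subgroup.centralizer ({y} : Set G)).subtype
        (Subgroup.centralizer ({y} : Set G)).subtype_injective).symm.toEquiv]
      exact Subgroup.card_mul_index _
    · intro g hg
      exact blockCoeff_eq_zero_of_dvd hM hB hg
  have hdef : blockDefect 2 B = (Nat.card G).factorization 2 := by
    have h1 : Nat.card (P : Subgroup G) = 2 ^ (Nat.card G).factorization 2 :=
      Sylow.card_eq_multiplicity P
    rw [hcard] at h1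
    exact Nat.pow_right_injective le_rfl h1
  have hB1 : oneIrr G ∈ B := by
    apply Cfsg.Agent.H75.real_full_defect hM hB hdef
    intro g _
    symm
    let T : IrrCharacter G → IrrCharacter G := fun χ =>
      ⟨fun g => (starRingEnd ℂ) ((χ : G → ℂ) g), isIrrCharacter_conj χ.2⟩
    have hinj : Function.Injective T := by
      intro χ χ' h
      apply Subtype.ext
      funext x
      have h1 : (T χ : G → ℂ) x = (T χ' : G → ℂ) x := by rw [h]
      exact (starRingEnd ℂ).injective h1
    have hTB : T '' B = B := by
      conv_rhs => rw [← hconj]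
      ext ψ
      constructor
      · rintro ⟨χ, hχ, rfl⟩
        exact ⟨χ, hχ, rfl⟩
      · rintro ⟨χ, hχ, h⟩
        exact ⟨χ, hχ, Subtype.ext h.symm⟩
    apply Cfsg.Agent.H75.blockCoeff_of_map T hinj.injOn hTB
    intro χ _
    change (starRingEnd ℂ) ((χ : G → ℂ) 1) * (starRingEnd ℂ) ((starRingEnd ℂ) ((χ : G → ℂ) g)) = _
    rw [irr_inv χ g, ← irr_inv χ 1, inv_one]
  exact isPBlock_eq_of_mem hB isPBlock_principalBlock hB1 oneIrr_mem_principalBlock

end Cfsg.Agent.S4490
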