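import Cfsg.Statements.S4495
import Cfsg.Agent.H75.SelfCent2

set_option autoImplicit false
open Cfsg

namespace Cfsg.Agent.S4495

/-- Let the finite group G contain an element x of prime order p with C_G(x) = ⟨x⟩, and let t be the number of conjugacy classes of elements of order p. If t ≠ p − 1 then the commutator subgroup has index at most (p − 1)/t; if t = p − 1 it has index exactly p. -/
theorem result {G : Type*} [Group G] [Finite G] (p : ℕ) (hp : p.Prime) (x : G) (hx : orderOf x = p) (hC : Subgroup.centralizer ({x} : Set G) = Subgroup.zpowers x) (t : ℕ) (ht : Nat.card {C : ConjClasses G // ∃ g ∈ C.carrier, orderOf g = p} = t) : (t ≠ p - 1 → (commutator G).index * t ≤ p - 1) ∧ (t = p - 1 → (commutator G).index = p) := by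
  open Cfsg.Agent.H75 in
  have hkey := SC.card_classes_mul hp hx hC
  rw [ht] at hkey
  set n := Nat.card (Subgroup.normalizer (Subgroup.zpowers x : Set G)) with hn
  have hppos := hp.pos
  have hp1 := hp.one_lt
  have hnpos : 0 < n := Nat.card_pos
  constructor
  · intro h1
    have h2 : n ≠ p := by
      intro h3
      rw [h3] at hkey
      exact h1 (Nat.eq_of_mul_eq_mul_right hppos hkey)
    obtain ⟨k, hk⟩ := SC.commutator_index_dvd hp hx hC h2
    rw [← hn] at hk
    have hk1 : 1 ≤ k := by
      rcases Nat.eq_zero_or_pos k with rfl | h
      · rw [mul_zero] at hk; omega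
      · exact h
    have h3 : t * ((commutator G).index * k) * p = (p - 1) * p := by
      rw [← hkey, hk]; ring
    have h4 := Nat.eq_of_mul_eq_mul_right hppos h3
    rw [← h4]
    calc (commutator G).index * t = t * ((commutator G).index * 1) := by ring
      _ ≤ t * ((commutator G).index * k) :=
        Nat.mul_le_mul_left _ (Nat.mul_le_mul_left _ hk1)
  · intro h1
    have h2 : n = p := by
      rw [h1] at hkey
      exact Nat.eq_of_mul_eq_mul_left (by omega) hkey
    exact (SC.commutator_index_eq hp hx hC h2).1

end Cfsg.Agent.S4495
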