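import Cfsg.Statements.S4497
import Cfsg.Agent.H75.SelfCent3

set_option autoImplicit false
open Cfsg

namespace Cfsg.Agent.S4497

/-- Let the finite group G contain an element x of prime order p with C_G(x) = ⟨x⟩, let t be the number of conjugacy classes of elements of order p, and let S* = O_{p′}(G) be the largest normal subgroup of order prime to p. Then S* ≤ G′; if t ≠ p − 1 the quotient G′/S* is simple (in particular non-trivial); if t = p − 1 then G′ = S*. -/
theorem result {G : Type*} [Group G] [Finite G] (p : ℕ) (hp : p.Prime) (x : G) (hx : orderOf x = p) (hC : Subgroup.centralizer ({x} : Set G) = Subgroup.zpowers x) (t : ℕ) (ht : Nat.card {C : ConjClasses G // ∃ g ∈ C.carrier, orderOf g = p} = t) : Cfsg.pPrimeCore p G ≤ commutator G ∧ (t ≠ p - 1 → ∀ h : ((Cfsg.pPrimeCore p G).subgroupOf (commutator G)).Normal, IsSimpleGroup (↥(commutator G) ⧸ (Cfsg.pPrimeCore p G).subgroupOf (commutator G))) ∧ (t = p - 1 → commutator G = Cfsg.pPrimeCore p G) := by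
  open Cfsg.Agent.H75 in
  have hkey := SC.card_classes_mul hp hx hC
  rw [ht] at hkey
  have hppos := hp.pos
  have hp1 := hp.one_lt
  refine ⟨SC.core_le hp hx hC, ?_, ?_⟩
  · intro h1 h
    apply SC.isSimple_quotient hp hx hC
    apply SC.mem_commutator hp hx hC
    intro h3
    rw [h3] at hkey
    exact h1 (Nat.eq_of_mul_eq_mul_right hppos hkey)
  · intro h1
    have h2 : Nat.card (Subgroup.normalizer (Subgroup.zpowers x : Set G)) = p := by
      rw [h1] at hkey
      exact Nat.eq_of_mul_eq_mul_left (by omega) hkey
    apply le_antisymm _ (SC.core_le hp hx hC)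
    have h3 := (SC.commutator_index_eq hp hx hC h2).2
    exact Cfsg.Agent.Solv.le_pPrimeCore inferInstance ((Nat.Prime.coprime_iff_not_dvd hp).mpr h3).symm

end Cfsg.Agent.S4497
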