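import Cfsg.Statements.S4498
import Cfsg.Agent.H75.BlkTwo

set_option autoImplicit false
open Cfsg

namespace Cfsg.Agent.S4498

/-- Let p and q be distinct primes dividing the order of the finite group G, and suppose G has no element of order p·q. Fix maximal ideals M_p over p and M_q over q of the algebraic integers. Then the principal p-block and the principal q-block of G have a non-principal irreducible character in common. -/
theorem result {G : Type*} [Group G] [Finite G] (p q : ℕ) [Fact p.Prime] [Fact q.Prime] (hpq : p ≠ q) (hp : p ∣ Nat.card G) (hq : q ∣ Nat.card G) (hno : ∀ g : G, orderOf g ≠ p * q) (Mp Mq : Ideal Cfsg.AlgInt) (hMp : Cfsg.IsPModular p Mp) (hMq : Cfsg.IsPModular q Mq) : ∃ χ : Cfsg.IrrCharacter G, (χ : G → ℂ) ≠ (fun _ => 1) ∧ χ ∈ Cfsg.principalBlock Mp G ∧ χ ∈ Cfsg.principalBlock Mq G := by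
  open Cfsg.Agent.Blk Cfsg.Agent.H75 Cfsg.Agent.CharBase in
  classical
  have := Fintype.ofFinite G
  have hMp' : Mp.IsPrime := hMp.2.1.isPrime
  have hMq' : Mq.IsPrime := hMq.2.1.isPrime
  by_contra hcon
  push Not at hcon
  obtain ⟨x, hx⟩ := exists_prime_orderOf_dvd_card' p hp
  obtain ⟨y, hy⟩ := exists_prime_orderOf_dvd_card' q hq
  have hxp : p ∣ orderOf x := by rw [hx]
  have hyq : q ∣ orderOf y := by rw [hy]
  have h1 := blockKernel_comp (Cfsg.principalBlock Mp G) (Cfsg.principalBlock Mq G) x y
  have hP := isPBlock_principalBlock (M := Mp) (G := G)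
  have hQ := isPBlock_principalBlock (M := Mq) (G := G)
  have h2 : ∀ z : G, blockKernel (Cfsg.principalBlock Mp G) x z *
      blockKernel (Cfsg.principalBlock Mq G) z y = 0 := by
    intro z
    by_cases hzp : p ∣ orderOf z
    · by_cases hzq : q ∣ orderOf z
      · exfalso
        have hcop : Nat.Coprime p q := (Nat.coprime_primes Fact.out Fact.out).mpr hpq
        obtain ⟨d, hd⟩ := hcop.mul_dvd_of_dvd_of_dvd hzp hzq
        have hz0 : orderOf z ≠ 0 := (orderOf_pos z).ne'
        have hd0 : d ≠ 0 := by
          rintro rfl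
          rw [mul_zero] at hd
          exact hz0 hd
        apply hno (z ^ d)
        rw [orderOf_pow_of_dvd hd0 (by rw [hd]; exact Dvd.intro_left _ rfl), hd]
        exact Nat.mul_div_cancel _ (Nat.pos_of_ne_zero hd0)
      · rw [blockKernel_eq_zero hMq hQ hzq hyq, mul_zero]
    · rw [blockKernel_eq_zero' hMp hP hxp hzp, zero_mul]
  rw [Finset.sum_congr rfl fun z _ => h2 z, Finset.sum_const_zero] at h1
  have h3 : blockKernel (Cfsg.principalBlock Mp G ∩ Cfsg.principalBlock Mq G) x y = 1 := by
    have := Fintype.ofFinite (Cfsg.IrrCharacter G)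
    unfold blockKernel
    rw [finsum_mem_eq_sum_ite, Finset.sum_eq_single (oneIrr G)]
    · rw [if_pos ⟨oneIrr_mem_principalBlock, oneIrr_mem_principalBlock⟩]
      change (1 : ℂ) * (starRingEnd ℂ) (1 : ℂ) = 1
      simp
    · intro ψ _ hψ
      rw [if_neg]
      intro h
      refine hcon ψ ?_ h.1 h.2
      intro h4
      exact hψ (Subtype.ext h4)
    · intro h; exact absurd (Finset.mem_univ _) h
  rw [h3, mul_one] at h1
  exact (Nat.cast_ne_zero.mpr Nat.card_pos.ne') h1.symm

end Cfsg.Agent.S4498
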