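import Cfsg.Statements.S4500
import Cfsg.Agent.BlkC.BrauerFeit
import Cfsg.Agent.Glaub.PGroup
import Cfsg.Agent.H75.BlkTwo

set_option autoImplicit false
open Cfsg

namespace Cfsg.Agent.S4500

open Cfsg.Agent.Blk Cfsg.Agent.BlkC Cfsg.Agent.CharBase

theorem core {G : Type*} [Group G] [Fintype G] (p q r a b c : ℕ) (hp : p.Prime) (hq : q.Prime)
    (hr : r.Prime) (hG : Nat.card G = p ^ a * q ^ b * r ^ c) (S : Set (IrrCharacter G))
    (h1 : oneIrr G ∈ S) (x : G) (hx : blockKernel S 1 x = 0)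
    (hS : ∀ χ ∈ S, ¬ p ∣ charDegree (χ : G → ℂ)) :
    ∃ χ : IrrCharacter G, (χ : G → ℂ) ≠ (fun _ => 1) ∧ ∃ k : ℕ, charDegree (χ : G → ℂ) = q ^ k := by
  classical
  by_contra hcon
  push Not at hcon
  have := Fintype.ofFinite (IrrCharacter G)
  have hdvd : ∀ χ ∈ S, χ ≠ oneIrr G → r ∣ charDegree (χ : G → ℂ) := by
    intro χ hχ hne
    by_contra hrd
    have h2 := charDegree_dvd_card χ
    rw [hG] at h2
    have h3 : (charDegree (χ : G → ℂ)).Coprime (r ^ c) :=
      Nat.Coprime.pow_right c ((Nat.Prime.coprime_iff_not_dvd hr).mpr hrd).symm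
    have h4 := h3.dvd_of_dvd_mul_right h2
    have h5 : (charDegree (χ : G → ℂ)).Coprime (p ^ a) :=
      Nat.Coprime.pow_right a ((Nat.Prime.coprime_iff_not_dvd hp).mpr (hS χ hχ)).symm
    have h6 := h5.dvd_of_dvd_mul_left h4
    obtain ⟨k, -, hk⟩ := (Nat.dvd_prime_pow hq).mp h6
    exact hcon χ (fun h => hne (Subtype.ext h)) k hk
  unfold blockKernel at hx
  rw [finsum_mem_eq_sum_ite, ← Finset.add_sum_erase _ _ (Finset.mem_univ (oneIrr G)),
    if_pos h1] at hx
  have h7 : ∀ χ : IrrCharacter G, ∃ z : ℂ, IsIntegral ℤ z ∧ (χ ≠ oneIrr G →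
      (if χ ∈ S then (χ : G → ℂ) 1 * (starRingEnd ℂ) ((χ : G → ℂ) x) else 0) = (r : ℂ) * z) := by
    intro χ
    by_cases hχ : χ ∈ S
    · by_cases hne : χ ≠ oneIrr G
      · obtain ⟨m, hm⟩ := hdvd χ hχ hne
        refine ⟨(m : ℂ) * (χ : G → ℂ) x⁻¹, ?_, ?_⟩
        · exact (isIntegral_natCast m).mul (irr_isIntegral χ _)
        · intro _
          rw [if_pos hχ, ← irr_inv, charDegree_spec, hm]
          push_cast; ring
      · exact ⟨0, isIntegral_zero, fun h => absurd h hne⟩
    · exact ⟨0, isIntegral_zero, fun _ => by rw [if_neg hχ, mul_zero]⟩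
  choose z hz1 hz2 using h7
  rw [Finset.sum_congr rfl (fun χ hχ => hz2 χ (Finset.ne_of_mem_erase hχ)), ← Finset.mul_sum] at hx
  set w := ∑ χ ∈ Finset.univ.erase (oneIrr G), z χ with hw
  have hwi : IsIntegral ℤ w := IsIntegral.sum _ fun χ _ => hz1 χ
  have h8 : ((oneIrr G : IrrCharacter G) : G → ℂ) 1 * (starRingEnd ℂ) (((oneIrr G : IrrCharacter G) : G → ℂ) x) = 1 := by
    change (1 : ℂ) * (starRingEnd ℂ) (1 : ℂ) = 1
    simp
  rw [h8] at hx
  have hr0 : (r : ℂ) ≠ 0 := by exact_mod_cast hr.ne_zero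
  have h9 : ((-1 : ℤ) : ℂ) / (r : ℂ) = w := by
    rw [div_eq_iff hr0]
    push_cast
    linear_combination -hx
  obtain ⟨n, hn⟩ := int_dvd_of_isIntegral_div (a := -1) hr.ne_zero (by rw [h9]; exact hwi)
  have h10 : (r : ℤ) ∣ 1 := ⟨-n, by linarith⟩
  have h11 : r ∣ 1 := by exact_mod_cast h10
  exact hr.one_lt.ne' (Nat.dvd_one.mp h11)

theorem core2 {G : Type*} [Group G] [Finite G] [Nontrivial G] (p q r a b c : ℕ) (hp : p.Prime)
    (hq : q.Prime) (hr : r.Prime) (hpq : p ≠ q) (hpr : p ≠ r) (ha : a ≤ 2)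
    (hG : Nat.card G = p ^ a * q ^ b * r ^ c) :
    ∃ χ : IrrCharacter G, (χ : G → ℂ) ≠ (fun _ => 1) ∧ ∃ k : ℕ, charDegree (χ : G → ℂ) = q ^ k := by
  classical
  have := Fintype.ofFinite G
  haveI : Fact p.Prime := ⟨hp⟩
  by_cases hpG : p ∣ Nat.card G
  · obtain ⟨M, hM⟩ := Cfsg.Agent.Glaub.exists_isPModular hp
    have hMp : M.IsPrime := hM.2.1.isPrime
    obtain ⟨x, hx⟩ := exists_prime_orderOf_dvd_card' p hpG
    have hB := Blk.isPBlock_principalBlock (M := M) (G := G)
    apply core p q r a b c hp hq hr hG (principalBlock M G) oneIrr_mem_principalBlock x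
    · exact blockKernel_eq_zero hM hB (by rw [orderOf_one]; exact hp.one_lt.ne' ∘ Nat.dvd_one.1)
        (by rw [hx])
    · intro χ hχ hd
      have hfac : (Nat.card G).factorization p ≤ 2 := by
        by_contra hlt
        push Not at hlt
        have h1 : p ^ 3 ∣ Nat.card G :=
          (hp.pow_dvd_iff_le_factorization Nat.card_pos.ne').mpr hlt
        rw [hG] at h1
        have h2 : (p ^ 3).Coprime (r ^ c) :=
          Nat.Coprime.pow _ _ ((Nat.coprime_primes hp hr).mpr hpr)
        have h3 : (p ^ 3).Coprime (q ^ b) :=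
          Nat.Coprime.pow _ _ ((Nat.coprime_primes hp hq).mpr hpq)
        have h4 := h3.dvd_of_dvd_mul_right (h2.dvd_of_dvd_mul_right h1)
        have h5 := (Nat.pow_dvd_pow_iff_le_right hp.one_lt).mp h4
        omega
      have h1 : nuMin p (principalBlock M G) = 0 := by
        have h2 := defect_add_nuMin (p := p) (B := principalBlock M G)
          ⟨_, oneIrr_mem_principalBlock⟩
        rw [blockDefect_principalBlock] at h2
        omega
      have h2 : 1 ≤ nu p χ := by
        unfold nu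
        exact (hp.dvd_iff_one_le_factorization (charDegree_pos χ).ne').mp hd
      have h3 : 0 < blockHeight p (principalBlock M G) (χ : G → ℂ) := by
        rw [height_eq, h1]; omega
      have h4 := height_add_two_le hM hB hχ h3
      rw [blockDefect_principalBlock] at h4
      omega
  · obtain ⟨x, hx⟩ := exists_ne (1 : G)
    have := Fintype.ofFinite (IrrCharacter G)
    apply core p q r a b c hp hq hr hG Set.univ (Set.mem_univ _) x
    · unfold blockKernel
      rw [finsum_mem_eq_sum_ite]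
      simp only [Set.mem_univ, if_true]
      apply column_orthogonality_of_not_isConj
      intro h
      exact hx (isConj_one_right.mp h)
    · intro χ _ hd
      exact hpG (hd.trans (charDegree_dvd_card χ))

/-- Let G be a non-trivial finite group of order p^a · q^b · r^c with p, q, r distinct primes and a ≤ 2. Then G has a non-principal irreducible character whose degree is a power of q, and a non-principal irreducible character whose degree is a power of r; the power may be the zeroth, so a non-principal linear character serves for both. -/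
theorem result {G : Type*} [Group G] [Finite G] [Nontrivial G] (p q r a b c : ℕ) (hp : p.Prime) (hq : q.Prime) (hr : r.Prime) (hpq : p ≠ q) (hpr : p ≠ r) (hqr : q ≠ r) (ha : a ≤ 2) (hG : Nat.card G = p ^ a * q ^ b * r ^ c) : (∃ χ : Cfsg.IrrCharacter G, (χ : G → ℂ) ≠ (fun _ => 1) ∧ ∃ k : ℕ, Cfsg.charDegree (χ : G → ℂ) = q ^ k) ∧ ∃ χ : Cfsg.IrrCharacter G, (χ : G → ℂ) ≠ (fun _ => 1) ∧ ∃ k : ℕ, Cfsg.charDegree (χ : G → ℂ) = r ^ k := by
  exact ⟨core2 p q r a b c hp hq hr hpq hpr ha hG, core2 p r q a c b hp hr hq hpr hpq ha (by rw [hG]; ring)⟩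

end Cfsg.Agent.S4500
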