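import Cfsg.Statements.S4501
import Cfsg.Agent.BT.Cof5
import Cfsg.Agent.BT.SmallCof
import Cfsg.Agent.S4500
import Cfsg.Agent.S0073
import Cfsg.Agent.S0998
import Cfsg.Agent.S4504
import Cfsg.Agent.ClassBase.SimpleSmall

set_option autoImplicit false
open Cfsg

namespace Cfsg.Agent.S4501


section Aux

open Cfsg Subgroup Cfsg.Agent.BR Cfsg.Agent.BT
open Cfsg.Agent.CharBase (oneIrr)

universe u

variable {G : Type u} [Group G] [Finite G] [IsSimpleGroup G]

theorem not_solv (hnc : ∃ a b : G, a * b ≠ b * a) : ¬ Group.IsSolvable G := by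
  intro h
  have hperf := perfect_of_simple (BT.nmc hnc)
  have h1 := Group.IsSolvable.commutator_lt_top_of_nontrivial G
  rw [hperf] at h1
  exact lt_irrefl _ h1

/-- the nonprincipal character of degree a power of `s`. -/
theorem exists_char (hnc : ∃ a b : G, a * b ≠ b * a) {p q s a b c : ℕ} (hp : p.Prime)
    (hq : q.Prime) (hs : s.Prime) (hpq : p ≠ q) (hps : p ≠ s) (hqs : q ≠ s) (ha : a ≤ 2)
    (hG : Nat.card G = s ^ c * p ^ a * q ^ b) :
    ∃ χ : IrrCharacter G, χ ≠ oneIrr G ∧ ∃ k, 1 ≤ k ∧ k ≤ c ∧ dg χ = s ^ k := by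
  obtain ⟨⟨χ, hχ, k, hk⟩, -⟩ := S4500.result p s q a c b hp hs hq hps hpq hqs.symm ha
    (by rw [hG]; ring)
  have hne : χ ≠ oneIrr G := by
    rintro rfl
    exact hχ rfl
  refine ⟨χ, hne, k, ?_, ?_, hk⟩
  · by_contra hk0
    have hk0' : k = 0 := by omega
    rw [hk0', pow_zero] at hk
    exact hne (eq_one_of_perfect (perfect_of_simple (BT.nmc hnc)) hk)
  · have h1 := H79.irr_degree_dvd_card χ
    rw [hk, hG, mul_assoc] at h1
    have h2 : (s ^ k).Coprime (p ^ a * q ^ b) :=
      Nat.Coprime.mul_right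
        (Nat.Coprime.pow _ _ ((Nat.coprime_primes hs hp).mpr hps.symm))
        (Nat.Coprime.pow _ _ ((Nat.coprime_primes hs hq).mpr hqs.symm))
    have h3 := h2.dvd_of_dvd_mul_right h1
    exact (Nat.pow_dvd_pow_iff_le_right hs.one_lt).mp h3

theorem small_prime {r n : ℕ} (hr : r.Prime) (h : r ≤ n) (hn : n ≤ 9) : r = 2 ∨ r = 3 ∨ r = 5 ∨ r = 7 := by
  have : r ≤ 9 := h.trans hn
  interval_cases r <;> first | omega | (exfalso; revert hr; norm_num)

/-- the analysis of `3 * 2^x * r^y`. -/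
theorem three_case (hnc : ∃ a b : G, a * b ≠ b * a) {r x y : ℕ}
    (hr : r = 5 ∨ r = 7) (hG : Nat.card G = 3 * 2 ^ x * r ^ y) (hxy : x ≤ 2 ∨ y ≤ 2)
    (hy0 : y ≠ 0) {χ : IrrCharacter G} (hχ : dg χ = 3)
    (hf : ∀ g : G, (χ : G → ℂ) g = (χ : G → ℂ) 1 → g = 1) :
    Nonempty (G ≃* alternatingGroup (Fin 5)) ∨
      Nonempty (G ≃* Matrix.ProjectiveSpecialLinearGroup (Fin 2) (ZMod 7)) := by
  have h1 := three_le_one hnc hr hG hxy hχ hf
  have hy1 : y = 1 := by omega
  subst hy1
  have hnm := BT.nmc hnc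
  have hncyc : ¬ IsCyclic G := fun h => hnm h.isMulCommutative
  rcases hr with rfl | rfl
  · left
    have h60 : Nat.card G = 60 := by
      rcases S0998.result hncyc 3 2 5 x (by norm_num) (by norm_num) (by norm_num) (by norm_num)
        (by norm_num) (by norm_num) (by rw [hG]; ring) with ⟨F, _, _, hF, ⟨e⟩⟩ | ⟨F, _, _, hF, ⟨e⟩⟩
      · have h2 := H14.SubField.card_PSL2_odd (F := F) (by rw [hF]; decide)
        rw [hF, ← Nat.card_congr e.toEquiv] at h2
        omega
      · exfalso
        have h2 := H14.SubField.card_PSL2_odd (F := F) (by rw [hF]; decide)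
        rw [hF, ← Nat.card_congr e.toEquiv, hG] at h2
        have h3 : 5 ∣ 2 * (3 * 2 ^ x * 5 ^ 1) := ⟨2 * (3 * 2 ^ x), by ring⟩
        rw [h2] at h3
        revert h3
        decide
    exact ClassBase.simple_sixty h60
  · right
    have h7 : Nat.Prime 7 := by norm_num
    have hd : 7 ∣ Nat.card G := by rw [hG]; exact Dvd.intro_left _ rfl
    have hsq : ¬ 7 ^ 2 ∣ Nat.card G := by
      intro h
      rw [hG] at h
      have h3 : 7 * 7 ∣ (3 * 2 ^ x) * 7 := by
        have h4 : 3 * 2 ^ x * 7 ^ 1 = (3 * 2 ^ x) * 7 := by ring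
        rw [← h4]; exact h
      have h4 := Nat.dvd_of_mul_dvd_mul_right (by norm_num) h3
      rcases (h7.dvd_mul).mp h4 with h5 | h5
      · omega
      · have := (Nat.prime_dvd_prime_iff_eq h7 Nat.prime_two).mp (h7.dvd_of_dvd_pow h5)
        omega
    have hnn : ∀ H : Subgroup G, H.Normal → Nat.card H ≠ 7 := by
      intro H hH hc
      rcases hH.eq_bot_or_eq_top with h | h
      · rw [h, Subgroup.card_bot] at hc; omega
      · rw [h, Subgroup.card_top] at hc
        have h7f : Fact (Nat.Prime 7) := ⟨h7⟩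
        exact hncyc (isCyclic_of_prime_card hc)
    obtain ⟨e⟩ := S4504.result 7 h7 hd hsq hnn (χ : G → ℂ) (CharBase.irr_isCharacter χ) hf
      (by have : charDegree (χ : G → ℂ) = 3 := hχ
          omega)
    have hZ := BT.center_eq_bot (perfect_of_simple hnm)
    exact ⟨(QuotientGroup.quotientBot.symm.trans
      (QuotientGroup.quotientMulEquivOfEq hZ.symm)).trans e⟩

/-- the analysis of `4 * 3^x * r^y`. -/
theorem four_case (hnc : ∃ a b : G, a * b ≠ b * a) {r x y : ℕ}
    (hr : r = 5 ∨ r = 7) (hG : Nat.card G = 2 ^ 2 * 3 ^ x * r ^ y) (hxy : x ≤ 2 ∨ y ≤ 2)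
    (hy0 : y ≠ 0) {χ : IrrCharacter G} (hχ : dg χ = 4)
    (hf : ∀ g : G, (χ : G → ℂ) g = (χ : G → ℂ) 1 → g = 1) :
    Nonempty (G ≃* alternatingGroup (Fin 5)) := by
  have h1 := four_le_one hnc hr hG hxy hχ hf
  have hy1 : y = 1 := by omega
  subst hy1
  have hnm := BT.nmc hnc
  have hncyc : ¬ IsCyclic G := fun h => hnm h.isMulCommutative
  rcases hr with rfl | rfl
  · exact ClassBase.simple_sixty (order_twenty hnc (by rw [hG, pow_one]) hχ)
  · exfalso
    have h7 : Fact (Nat.Prime 7) := ⟨by norm_num⟩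
    rcases BT.small_cof hncyc (p := 7) (q := 3) (b := x) (g₀ := 4) Nat.prime_three (by norm_num)
      (by rw [hG]; ring) (by norm_num) with ⟨m, F, _, _, hF, -, ⟨e⟩⟩ | ⟨m, F, _, _, -, hm, -, -⟩
    · have h2 := H14.SubField.card_PSL2_odd (F := F) (by rw [hF]; decide)
      rw [hF, ← Nat.card_congr e.toEquiv, hG] at h2
      have h3 : 2 ∣ 3 ^ x := by omega
      have := (Nat.prime_dvd_prime_iff_eq Nat.prime_two Nat.prime_three).mp
        (Nat.prime_two.dvd_of_dvd_pow h3)
      omega
    · have h3 : 3 ∣ 2 ^ m := by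
        have h4 : 2 ^ m = 6 := by omega
        rw [h4]; norm_num
      have := (Nat.prime_dvd_prime_iff_eq Nat.prime_three Nat.prime_two).mp
        (Nat.prime_three.dvd_of_dvd_pow h3)
      omega

theorem four_main (hnc : ∃ a b : G, a * b ≠ b * a) {p q a b : ℕ} (hp : p.Prime)
    (hq : q.Prime) (hpq : p ≠ q) (ha : a ≤ 2)
    (hG : Nat.card G = 4 * p ^ a * q ^ b) : Nonempty (G ≃* alternatingGroup (Fin 5)) := by
  have hns := not_solv hnc
  have hnm := BT.nmc hnc
  have hp2 : p ≠ 2 := by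
    rintro rfl
    exact hns (S0144.result 2 q (a + 2) b hp hq (by rw [hG]; ring))
  have hq2 : q ≠ 2 := by
    rintro rfl
    exact hns (S0144.result 2 p (b + 2) a hq hp (by rw [hG]; ring))
  have ha0 : a ≠ 0 := by
    rintro rfl
    exact hns (S0144.result 2 q 2 b Nat.prime_two hq (by rw [hG]; ring))
  have hb0 : b ≠ 0 := by
    rintro rfl
    exact hns (S0144.result 2 p 2 a Nat.prime_two hp (by rw [hG]; ring))
  obtain ⟨χ, hχ1, k, hk1, hk2, hk⟩ := exists_char hnc (b := b) (c := 2) hp hq Nat.prime_two hpq hp2 hq2 ha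
    (by rw [hG]; ring)
  have hf : ∀ g : G, (χ : G → ℂ) g = (χ : G → ℂ) 1 → g = 1 := fun g hg => faithful_of_simple hχ1 hg
  have hχ : dg χ = 4 := by
    interval_cases k
    · exfalso
      apply H76.degree_ne_two hnc χ
      rw [dg_eq, hk]
      norm_num
    · rw [hk]; norm_num
  have hch : charDegree (χ : G → ℂ) = 4 := hχ
  have hpG : p ∣ Nat.card G := by
    rw [hG]; exact Dvd.dvd.mul_right (Dvd.dvd.mul_left (dvd_pow_self p ha0) _) _
  have hqG : q ∣ Nat.card G := by
    rw [hG]; exact Dvd.dvd.mul_left (dvd_pow_self q hb0) _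
  have hp9 := prime_le hnc (CharBase.irr_isCharacter χ) hf hp hpG
  have hq9 := prime_le hnc (CharBase.irr_isCharacter χ) hf hq hqG
  have hp' := small_prime hp hp9 (by rw [hch])
  have hq' := small_prime hq hq9 (by rw [hch])
  have hodd : Odd (p ^ a * q ^ b) := (hp.odd_of_ne_two hp2).pow.mul (hq.odd_of_ne_two hq2).pow
  have h3 : p = 3 ∨ q = 3 := by
    rcases S0073.result hnc with h | h
    · exfalso
      have hmin : (Nat.card G).minFac = 2 := by
        rw [Nat.minFac_eq_two_iff, hG]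
        exact ⟨2 * (p ^ a * q ^ b), by ring⟩
      rw [hmin, hG] at h
      obtain ⟨t, ht⟩ := hodd
      have h1 : 4 * p ^ a * q ^ b = 4 * (p ^ a * q ^ b) := by ring
      rw [h1, ht] at h
      omega
    · have h1 : 3 ∣ Nat.card G := (by norm_num : 3 ∣ 12).trans h
      rw [hG] at h1
      rcases (Nat.prime_three.dvd_mul).mp h1 with h1 | h1
      · rcases (Nat.prime_three.dvd_mul).mp h1 with h1 | h1
        · omega
        · left
          exact ((Nat.prime_dvd_prime_iff_eq Nat.prime_three hp).mp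
            (Nat.prime_three.dvd_of_dvd_pow h1)).symm
      · right
        exact ((Nat.prime_dvd_prime_iff_eq Nat.prime_three hq).mp
            (Nat.prime_three.dvd_of_dvd_pow h1)).symm
  rcases h3 with rfl | rfl
  · exact four_case hnc (r := q) (x := a) (y := b) (by omega) (by rw [hG]; ring) (Or.inl ha) hb0
      hχ hf
  · exact four_case hnc (r := p) (x := b) (y := a) (by omega) (by rw [hG]; ring) (Or.inr ha) ha0
      hχ hf

theorem three_main (hnc : ∃ a b : G, a * b ≠ b * a) {p q a b : ℕ} (hp : p.Prime)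
    (hq : q.Prime) (hpq : p ≠ q) (ha : a ≤ 2)
    (hG : Nat.card G = 3 * p ^ a * q ^ b) : Nonempty (G ≃* alternatingGroup (Fin 5)) ∨
      Nonempty (G ≃* Matrix.ProjectiveSpecialLinearGroup (Fin 2) (ZMod 7)) := by
  have hns := not_solv hnc
  have hnm := BT.nmc hnc
  have hp3 : p ≠ 3 := by
    rintro rfl
    exact hns (S0144.result 3 q (a + 1) b hp hq (by rw [hG]; ring))
  have hq3 : q ≠ 3 := by
    rintro rfl
    exact hns (S0144.result 3 p (b + 1) a hq hp (by rw [hG]; ring))
  have ha0 : a ≠ 0 := by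
    rintro rfl
    exact hns (S0144.result 3 q 1 b Nat.prime_three hq (by rw [hG]; ring))
  have hb0 : b ≠ 0 := by
    rintro rfl
    exact hns (S0144.result 3 p 1 a Nat.prime_three hp (by rw [hG]; ring))
  obtain ⟨χ, hχ1, k, hk1, hk2, hk⟩ := exists_char hnc (b := b) (c := 1) hp hq Nat.prime_three hpq hp3 hq3 ha
    (by rw [hG]; ring)
  have hf : ∀ g : G, (χ : G → ℂ) g = (χ : G → ℂ) 1 → g = 1 := fun g hg => faithful_of_simple hχ1 hg
  have hχ : dg χ = 3 := by
    have hk' : k = 1 := by omega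
    rw [hk, hk', pow_one]
  have hch : charDegree (χ : G → ℂ) = 3 := hχ
  have hpG : p ∣ Nat.card G := by
    rw [hG]; exact Dvd.dvd.mul_right (Dvd.dvd.mul_left (dvd_pow_self p ha0) _) _
  have hqG : q ∣ Nat.card G := by
    rw [hG]; exact Dvd.dvd.mul_left (dvd_pow_self q hb0) _
  have hp9 := prime_le hnc (CharBase.irr_isCharacter χ) hf hp hpG
  have hq9 := prime_le hnc (CharBase.irr_isCharacter χ) hf hq hqG
  have hp' := small_prime hp hp9 (by rw [hch]; norm_num)
  have hq' := small_prime hq hq9 (by rw [hch]; norm_num)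
  have h2 : p = 2 ∨ q = 2 := by
    by_contra hcon
    push Not at hcon
    obtain ⟨hp2, hq2⟩ := hcon
    have hodd : Odd (p ^ a * q ^ b) :=
      (hp.odd_of_ne_two hp2).pow.mul (hq.odd_of_ne_two hq2).pow
    have hodd' : ¬ 2 ∣ Nat.card G := by
      rw [hG]
      obtain ⟨t, ht⟩ := hodd
      have h1 : 3 * p ^ a * q ^ b = 3 * (p ^ a * q ^ b) := by ring
      rw [h1, ht]
      omega
    rcases S0073.result hnc with h | h
    · have hmin : (Nat.card G).minFac = 3 := by
        have h3 : 3 ∣ Nat.card G := by rw [hG, mul_assoc]; exact Dvd.intro _ rfl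
        have h4 : (Nat.card G).minFac ≤ 3 := Nat.minFac_le_of_dvd (by norm_num) h3
        have h5 : (Nat.card G).minFac.Prime := Nat.minFac_prime (by
          intro h; rw [h] at h3; omega)
        have h6 : (Nat.card G).minFac ≠ 2 := fun h => hodd' (by
          have := Nat.minFac_dvd (Nat.card G)
          rwa [h] at this)
        have := h5.two_le
        omega
      rw [hmin, hG] at h
      have h1 : 3 * 9 ∣ 3 * (p ^ a * q ^ b) := by
        have h1 : 3 * p ^ a * q ^ b = 3 * (p ^ a * q ^ b) := by ring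
        rw [← h1]; exact h
      have h3 : 3 ∣ p ^ a * q ^ b :=
        (by norm_num : 3 ∣ 9).trans (Nat.dvd_of_mul_dvd_mul_left (by norm_num) h1)
      rcases (Nat.prime_three.dvd_mul).mp h3 with h1 | h1
      · exact hp3 ((Nat.prime_dvd_prime_iff_eq Nat.prime_three hp).mp
            (Nat.prime_three.dvd_of_dvd_pow h1)).symm
      · exact hq3 ((Nat.prime_dvd_prime_iff_eq Nat.prime_three hq).mp
            (Nat.prime_three.dvd_of_dvd_pow h1)).symm
    · exact hodd' ((by norm_num : 2 ∣ 12).trans h)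
  rcases h2 with rfl | rfl
  · exact three_case hnc (r := q) (x := a) (y := b) (by omega) (by rw [hG]) (Or.inl ha) hb0
      hχ hf
  · exact three_case hnc (r := p) (x := b) (y := a) (by omega) (by rw [hG]; ring) (Or.inr ha) ha0
      hχ hf

end Aux

/-- Let G be a non-abelian finite simple group and p, q distinct primes. If the order of G is 4·p^a·q^b with a ≤ 2, then G is isomorphic to the alternating group of degree 5. If the order of G is 3·p^a·q^b with a ≤ 2, then G is isomorphic to the alternating group of degree 5 or to PSL(2,7). -/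
theorem result {G : Type*} [Group G] [Finite G] [IsSimpleGroup G] (hna : ∃ x y : G, x * y ≠ y * x) (p q a b : ℕ) (hp : p.Prime) (hq : q.Prime) (hpq : p ≠ q) (ha : a ≤ 2) : (Nat.card G = 4 * p ^ a * q ^ b → Nonempty (G ≃* alternatingGroup (Fin 5))) ∧ (Nat.card G = 3 * p ^ a * q ^ b → Nonempty (G ≃* alternatingGroup (Fin 5)) ∨ Nonempty (G ≃* Matrix.ProjectiveSpecialLinearGroup (Fin 2) (ZMod 7))) := by
  exact ⟨fun h => four_main hna hp hq hpq ha h, fun h => three_main hna hp hq hpq ha h⟩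

end Cfsg.Agent.S4501
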