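import Cfsg.Statements.S4505
import Cfsg.Agent.H75.MinMax

set_option autoImplicit false
open Cfsg

namespace Cfsg.Agent.S4505

open Cfsg.Agent.Blk Cfsg.Agent.BlkC Cfsg.Agent.CharBase Cfsg.Agent.H75

theorem sum_subtype_of_zero {α : Type*} [Fintype α] (P : α → Prop) [Fintype {a // P a}]
    {k : Type*} [AddCommMonoid k] (F : α → k) (h : ∀ a, ¬ P a → F a = 0) :
    ∑ a : {a // P a}, F a = ∑ a, F a := by
  classical
  rw [← Finset.sum_filter_of_ne (s := Finset.univ) (p := P)
    (fun a _ hne => by_contra fun hP => hne (h a hP))]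
  exact (Finset.sum_subtype _ (fun x => by simp) F).symm

theorem main {G : Type*} [Group G] [Fintype G] (p : ℕ) [Fact p.Prime] (M : Ideal AlgInt)
    (hM : IsPModular p M) (σ : ℕ) (BB : Set (Set (IrrCharacter G)))
    (hBB : ∀ B ∈ BB, IsPBlock M B ∧ blockDefect p B = σ) (P : ConjClasses G → Prop)
    (hP : ∀ C : ConjClasses G, ¬ P C → p ∣ orderOf (crep C) ∨
      (Nat.card (Subgroup.centralizer ({crep C} : Set G))).factorization p ≠ σ) :
    Nat.card BB ≤ Nat.card {C : ConjClasses G // P C} := by
  classical
  have hMp : M.IsPrime := hM.2.1.isPrime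
  have : Finite BB := inferInstance
  have : Fintype BB := Fintype.ofFinite _
  have : Fintype {C : ConjClasses G // P C} := Fintype.ofFinite _
  have : Fintype (ConjClasses G) := Fintype.ofFinite _
  rw [Nat.card_eq_fintype_card, Nat.card_eq_fintype_card]
  have hmem : ∀ B : BB, ∃ χ : IrrCharacter G, χ ∈ B.1 := fun B => block_nonempty (hBB B.1 B.2).1
  choose χ hχ using hmem
  let A : Matrix BB {C : ConjClasses G // P C} (kM M) :=
    fun B C => rd M (centralChar (χ B : G → ℂ) (crep C.1))
  let E : Matrix {C : ConjClasses G // P C} BB (kM M) :=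
    fun C B => rd M (blockCoeff B.1 (crep C.1))
  have hAE : A * E = 1 := by
    ext B B'
    rw [Matrix.mul_apply]
    have hB' := hBB B'.1 B'.2
    have hB := hBB B.1 B.2
    have h1 := omega_blockCoeff B'.1 (χ B)
    rw [omega_eq_sum_crep (blockCoeff_isClassFunction _)] at h1
    have h2 : ∑ C : {C : ConjClasses G // P C}, A B C * E C B' =
        rd M (if χ B ∈ B'.1 then 1 else 0) := by
      rw [← h1, rd_sum _ _ (fun c _ => mlr_mul (mlr_blockCoeff hB'.1 _) (mlr_centralChar _ _))]
      have h4 : ∀ C : {C : ConjClasses G // P C}, A B C * E C B' =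
          rd M (blockCoeff B'.1 (crep C.1) * centralChar (χ B : G → ℂ) (crep C.1)) := by
        intro C
        rw [rd_mul (mlr_blockCoeff hB'.1 _) (mlr_centralChar _ _), mul_comm]
      rw [Finset.sum_congr rfl fun C _ => h4 C]
      apply sum_subtype_of_zero P (fun C : ConjClasses G =>
        rd M (blockCoeff B'.1 (crep C) * centralChar (χ B : G → ℂ) (crep C)))
      intro C hC
      rw [rd_eq_zero_iff (mlr_mul (mlr_blockCoeff hB'.1 _) (mlr_centralChar _ _))]
      rcases hP C hC with h5 | h5
      · rw [blockCoeff_eq_zero_of_dvd hM hB'.1 h5, zero_mul]; exact mli_zero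
      · rcases lt_or_gt_of_ne h5 with h6 | h6
        · exact mli_mul_left (mlr_blockCoeff hB'.1 _)
            (mli_centralChar_of_defect_lt hM hB.1 (hχ B) (by rw [hB.2]; exact h6))
        · exact mli_mul_right (mli_blockCoeff_of_lt hM hB'.1 (by rw [hB'.2]; exact h6))
            (mlr_centralChar _ _)
    rw [h2]
    by_cases h7 : B = B'
    · subst h7
      rw [if_pos (hχ B), Matrix.one_apply_eq, rd_one]
    · rw [Matrix.one_apply_ne h7, if_neg, rd_eq_zero_iff mlr_zero]
      · exact mli_zero
      · intro h8
        exact h7 (Subtype.ext (isPBlock_eq_of_mem hB.1 hB'.1 (hχ B) h8))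
  have hinj : Function.Injective E.mulVecLin := by
    intro v w hvw
    have h9 : E.mulVec v = E.mulVec w := hvw
    have h10 := congrArg A.mulVec h9
    rwa [Matrix.mulVec_mulVec, Matrix.mulVec_mulVec, hAE, Matrix.one_mulVec, Matrix.one_mulVec]
      at h10
  have h11 := LinearMap.finrank_le_finrank_of_injective hinj
  rwa [Module.finrank_fintype_fun_eq_card, Module.finrank_fintype_fun_eq_card] at h11

/-- Let G be a finite group, p a prime and M a maximal ideal of the algebraic integers containing p. For every σ, the number of p-blocks of defect exactly σ is at most the number of conjugacy classes of p-regular elements whose centralizer has order divisible by p^σ but not by p^(σ+1). -/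
theorem result {G : Type*} [Group G] [Finite G] (p : ℕ) [Fact p.Prime] (M : Ideal Cfsg.AlgInt) (hM : Cfsg.IsPModular p M) (σ : ℕ) : Nat.card {B : Set (Cfsg.IrrCharacter G) // Cfsg.IsPBlock M B ∧ Cfsg.blockDefect p B = σ} ≤ Nat.card {C : ConjClasses G // ∃ g : G, ConjClasses.mk g = C ∧ ¬ p ∣ orderOf g ∧ (Nat.card (Subgroup.centralizer ({g} : Set G))).factorization p = σ} := by
  have := Fintype.ofFinite G
  apply main p M hM σ {B | IsPBlock M B ∧ blockDefect p B = σ} (fun B hB => hB)
  intro C hC
  by_contra hcon
  push Not at hcon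
  exact hC ⟨crep C, mk_crep C, hcon.1, hcon.2⟩

end Cfsg.Agent.S4505
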