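import Cfsg.Statements.S4506
import Cfsg.Agent.H75.PConj

set_option autoImplicit false
open Cfsg

namespace Cfsg.Agent.S4506

open Cfsg.Agent.CharBase Cfsg.Agent.Blk Cfsg.Agent.BlkC Cfsg.Agent.H75

/-- Let G be a finite group, p a prime, p^a the p-part of the order of G and g′ its p′-part. Call two irreducible characters p-conjugate when one is obtained from the other by applying a field automorphism of ℂ that fixes the g′-th roots of unity, and let r be the number of characters p-conjugate to the irreducible character χ (χ included). Then the exponent of p in r·χ(1) is at most a; and if p^a divides r·χ(1) then p^a already divides χ(1). -/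
theorem result {G : Type*} [Group G] [Finite G] (p : ℕ) (hp : p.Prime) (χ : Cfsg.IrrCharacter G) (r : ℕ) (hr : Nat.card {ψ : Cfsg.IrrCharacter G // ∃ σ : ℂ ≃+* ℂ, σ (Complex.exp (2 * Real.pi * Complex.I / ((Nat.card G / p ^ (Nat.card G).factorization p) : ℕ))) = Complex.exp (2 * Real.pi * Complex.I / ((Nat.card G / p ^ (Nat.card G).factorization p) : ℕ)) ∧ (ψ : G → ℂ) = fun g => σ ((χ : G → ℂ) g)} = r) : (r * Cfsg.charDegree (χ : G → ℂ)).factorization p ≤ (Nat.card G).factorization p ∧ (p ^ (Nat.card G).factorization p ∣ r * Cfsg.charDegree (χ : G → ℂ) → p ^ (Nat.card G).factorization p ∣ Cfsg.charDegree (χ : G → ℂ)) := by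
  classical
  haveI : Fact p.Prime := ⟨hp⟩
  haveI := Fintype.ofFinite G
  haveI := Fintype.ofFinite (IrrCharacter G)
  have hgp : Nat.card G / p ^ (Nat.card G).factorization p = gp' G p := rfl
  rw [hgp] at hr
  set P : IrrCharacter G → Prop := fun ψ => ∃ σ : ℂ ≃+* ℂ,
    σ (Complex.exp (2 * Real.pi * Complex.I / (gp' G p : ℕ))) =
      Complex.exp (2 * Real.pi * Complex.I / (gp' G p : ℕ)) ∧
      (ψ : G → ℂ) = fun g => σ ((χ : G → ℂ) g) with hP
  set S : Finset (IrrCharacter G) := Finset.univ.filter P with hS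
  have hcard : S.card = r := by
    rw [← hr, Nat.card_eq_fintype_card, Fintype.card_subtype]
  have hmem : ∀ ψ, ψ ∈ S ↔ P ψ := fun ψ => by rw [hS, Finset.mem_filter]; simp
  have hreg : ∀ ψ ∈ S, ∀ g : G, ¬ p ∣ orderOf g → (ψ : G → ℂ) g = (χ : G → ℂ) g := by
    intro ψ hψ g hg
    obtain ⟨σ, hσ, h⟩ := (hmem ψ).mp hψ
    rw [h]
    exact map_eq_of_reg hσ (irr_isCharacter χ) hg
  obtain ⟨hb1, hb2⟩ := bessel_reg (p := p) χ S hreg
  rw [hcard] at hb1 hb2
  have hself : χ ∈ S := (hmem χ).mpr ⟨RingEquiv.refl ℂ, rfl, rfl⟩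
  have hrpos : 0 < r := by rw [← hcard]; exact Finset.card_pos.mpr ⟨χ, hself⟩
  obtain ⟨m, hm⟩ := pow_nu_dvd_Nreg (p := p) χ χ
  have hNpos := Nreg_self_pos (p := p) χ
  have hppos : (0 : ℤ) < (p : ℤ) ^ nu p χ := pow_pos (by exact_mod_cast hp.pos) _
  have hm1 : 1 ≤ m := by
    rw [hm] at hNpos
    exact pos_of_mul_pos_right hNpos hppos.le
  have hle : r * p ^ nu p χ ≤ p ^ (Nat.card G).factorization p := by
    have : (r : ℤ) * (p : ℤ) ^ nu p χ ≤ (p : ℤ) ^ (Nat.card G).factorization p := by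
      refine le_trans ?_ hb1
      rw [hm]
      have h1 : (r : ℤ) * (p : ℤ) ^ nu p χ * 1 ≤ (r : ℤ) * (p : ℤ) ^ nu p χ * m :=
        mul_le_mul_of_nonneg_left hm1 (by positivity)
      linarith
    exact_mod_cast this
  have hd0 : charDegree (χ : G → ℂ) ≠ 0 := (charDegree_pos χ).ne'
  refine ⟨?_, ?_⟩
  · rw [Nat.factorization_mul hrpos.ne' hd0, Finsupp.add_apply]
    have h2 : p ^ (r.factorization p) ≤ r := Nat.le_of_dvd hrpos (Nat.ordProj_dvd r p)
    have h3 : p ^ (r.factorization p + nu p χ) ≤ p ^ (Nat.card G).factorization p := by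
      rw [pow_add]
      exact (Nat.mul_le_mul_right _ h2).trans hle
    exact (Nat.pow_le_pow_iff_right hp.one_lt).mp h3
  · intro hdvd
    have h4 : p ^ (Nat.card G).factorization p ∣ r * p ^ nu p χ := by
      have h5 : charDegree (χ : G → ℂ) = p ^ nu p χ * (charDegree (χ : G → ℂ) / p ^ nu p χ) :=
        (Nat.ordProj_mul_ordCompl_eq_self _ p).symm
      rw [h5, ← mul_assoc] at hdvd
      refine Nat.Coprime.dvd_of_dvd_mul_right ?_ hdvd
      apply Nat.Coprime.pow_left
      exact Nat.coprime_ordCompl hp hd0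
    have h6 : r * p ^ nu p χ = p ^ (Nat.card G).factorization p :=
      le_antisymm hle (Nat.le_of_dvd (Nat.mul_pos hrpos (pow_pos hp.pos _)) h4)
    have h7 : (r : ℤ) * Nreg p χ χ = (p : ℤ) ^ (Nat.card G).factorization p := by
      refine le_antisymm hb1 ?_
      have h8 : (p : ℤ) ^ (Nat.card G).factorization p = (r : ℤ) * (p : ℤ) ^ nu p χ := by
        exact_mod_cast h6.symm
      rw [h8, hm]
      have h1 : (r : ℤ) * (p : ℤ) ^ nu p χ * 1 ≤ (r : ℤ) * (p : ℤ) ^ nu p χ * m :=
        mul_le_mul_of_nonneg_left hm1 (by positivity)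
      linarith
    have hvan := hb2 h7
    -- restrict to a Sylow subgroup
    obtain ⟨Q⟩ : Nonempty (Sylow p G) := inferInstance
    haveI : Fintype (Q : Subgroup G) := Fintype.ofFinite _
    obtain ⟨n₀, hn₀⟩ := classInner_natCast (G := (Q : Subgroup G))
      (isCharacter_restrict (irr_isCharacter χ) (Q : Subgroup G))
      (irr_isCharacter (oneIrr (Q : Subgroup G)))
    have hQcard : Nat.card (Q : Subgroup G) = p ^ (Nat.card G).factorization p :=
      Sylow.card_eq_multiplicity Q
    have hQ0 : (Nat.card (Q : Subgroup G) : ℂ) ≠ 0 := by exact_mod_cast Nat.card_pos.ne'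
    have hsum : ∑ x : (Q : Subgroup G), (χ : G → ℂ) x = (Nat.card (Q : Subgroup G) : ℂ) * n₀ := by
      rw [← hn₀]
      unfold classInner
      rw [← mul_assoc, mul_inv_cancel₀ hQ0, one_mul]
      refine Finset.sum_congr rfl fun x _ => ?_
      simp
    have hsum2 : ∀ ψ ∈ S, ∑ x : (Q : Subgroup G), (ψ : G → ℂ) x =
        (Nat.card (Q : Subgroup G) : ℂ) * n₀ := by
      intro ψ hψ
      obtain ⟨σ, hσ, h⟩ := (hmem ψ).mp hψ
      have h9 := congrArg σ hsum
      rw [map_sum, map_mul, map_natCast, map_natCast] at h9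
      rw [← h9, h]
    have hsum3 : ∑ x : (Q : Subgroup G), ∑ ψ ∈ S, (ψ : G → ℂ) x = r * (χ : G → ℂ) 1 := by
      rw [Finset.sum_eq_single (1 : (Q : Subgroup G))]
      · rw [Subgroup.coe_one, Finset.sum_congr rfl fun ψ hψ => hreg ψ hψ 1
          (by rw [orderOf_one]; exact hp.one_lt.ne' ∘ Nat.dvd_one.mp), Finset.sum_const, hcard,
          nsmul_eq_mul]
      · intro x _ hx
        apply hvan
        have hx1 : (x : G) ≠ 1 := fun h => hx (Subtype.ext h)
        obtain ⟨k, hk⟩ := (IsPGroup.iff_orderOf.mp Q.isPGroup') x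
        rw [← Subgroup.orderOf_coe] at hk
        rw [hk]
        refine dvd_pow_self p ?_
        rintro rfl
        rw [pow_zero] at hk
        exact hx1 (orderOf_eq_one_iff.mp hk)
      · intro h; exact absurd (Finset.mem_univ _) h
    rw [Finset.sum_comm, Finset.sum_congr rfl hsum2, Finset.sum_const, hcard, nsmul_eq_mul,
      charDegree_spec] at hsum3
    have hr0 : (r : ℂ) ≠ 0 := by exact_mod_cast hrpos.ne'
    have h10 := mul_left_cancel₀ hr0 hsum3
    rw [hQcard] at h10
    have h11 : p ^ (Nat.card G).factorization p * n₀ = charDegree (χ : G → ℂ) := by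
      exact_mod_cast h10
    exact ⟨n₀, h11.symm⟩

end Cfsg.Agent.S4506
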