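import Cfsg.Statements.S4507
import Cfsg.Agent.H79.PFam

set_option autoImplicit false
open Cfsg

namespace Cfsg.Agent.S4507

open Cfsg.Agent

/-- Let G be a finite group whose order g is divisible by the prime p exactly once, g′ = g/p, and fix a maximal ideal M of the algebraic integers containing p. Call two irreducible characters p-conjugate when a field automorphism of ℂ fixing the g′-th roots of unity carries one to the other. Let B be a p-block of positive defect (its defect group is a Sylow p-subgroup). Then B contains a subset Y (the exceptional family) such that: Y is a full p-conjugacy class (its members are pairwise p-conjugate and every p-conjugate of a member of Y lies in Y); every member of B outside Y is p-conjugate only to itself; the size t of Y divides p − 1 and B has exactly t + (p − 1)/t members; and there are signs δ_χ = ±1 (χ ∈ B) such that for every p-regular element x and every θ ∈ Y,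 Σ_{χ ∈ B ∖ Y} δ_χ χ(x) + δ_θ θ(x) = 0. -/
theorem result {G : Type*} [Group G] [Finite G] (p : ℕ) [Fact p.Prime] (M : Ideal Cfsg.AlgInt) (hM : Cfsg.IsPModular p M) (hdiv : p ∣ Nat.card G) (hsq : ¬ p ^ 2 ∣ Nat.card G) (B : Set (Cfsg.IrrCharacter G)) (hB : Cfsg.IsPBlock M B) (hd : 0 < Cfsg.blockDefect p B) : ∃ Y : Set (Cfsg.IrrCharacter G), Y ⊆ B ∧ Y.Nonempty ∧ (∀ θ ∈ Y, ∀ ψ : Cfsg.IrrCharacter G, (∃ σ : ℂ ≃+* ℂ, σ (Complex.exp (2 * Real.pi * Complex.I / ((Nat.card G / p ^ (Nat.card G).factorization p) : ℕ))) = Complex.exp (2 * Real.pi * Complex.I / ((Nat.card G / p ^ (Nat.card G).factorization p) : ℕ)) ∧ (ψ : G → ℂ) = fun g => σ ((θ : G → ℂ) g)) ↔ ψ ∈ Y) ∧ (∀ χ ∈ B, χ ∉ Y → ∀ ψ : Cfsg.IrrCharacter G, (∃ σ : ℂ ≃+* ℂ, σ (Complex.exp (2 * Real.pi * Complex.I / ((Nat.card G / p ^ (Nat.card G).factorization p) : ℕ))) = Complex.exp (2 * Real.pi * Complex.I / ((Nat.card G / p ^ (Nat.card G).factorization p) : ℕ)) ∧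 (ψ : G → ℂ) = fun g => σ ((χ : G → ℂ) g)) → ψ = χ) ∧ Nat.card Y ∣ p - 1 ∧ Nat.card B = Nat.card Y + (p - 1) / Nat.card Y ∧ ∃ δ : Cfsg.IrrCharacter G → ℤ, (∀ χ ∈ B, δ χ = 1 ∨ δ χ = -1) ∧ ∀ x : G, ¬ p ∣ orderOf x → ∀ θ ∈ Y, (∑ᶠ χ ∈ B \ Y, (δ χ : ℂ) * (χ : G → ℂ) x) + (δ θ : ℂ) * (θ : G → ℂ) x = 0 := by
  classical
  have := Fintype.ofFinite G
  have hp' : p.Prime := Fact.out
  haveI := hM.2.1.isPrime
  obtain ⟨D, hD⟩ := BlkInd.exists_defectGroup hM hB
  have hcD := BlkInd.card_defectGroup hM hB hD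
  have hd1 : Cfsg.blockDefect p B = 1 := by
    by_contra hne
    apply hsq
    have h1 : Nat.card D ∣ Nat.card G := Subgroup.card_subgroup_dvd_card D
    rw [hcD] at h1
    exact (pow_dvd_pow p (by omega)).trans h1
  rw [hd1, pow_one] at hcD
  obtain ⟨T, f, χ1, d, h1D, hcf, hrank⟩ := H79.exists_data hM hB hD hcD
  have : Fintype (Subgroup.centralizer (D : Set G)) := Fintype.ofFinite _
  have hne : ∃ χ ∈ f, χ ≠ χ1 := by
    have h1 : (BlkC.Bfin f).card = p := by rw [← BlkC.natCard_eq_Bfin, hcf]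
    obtain ⟨χ, hχ, h2⟩ := Finset.exists_mem_ne (s := BlkC.Bfin f) (by rw [h1]; exact hp'.one_lt) χ1
    exact ⟨χ, (Set.Finite.mem_toFinset _).1 hχ, h2⟩
  obtain ⟨ψ0, -⟩ := Blk.isPBlock_nonempty hB
  obtain ⟨θ, ε, δ, o, -⟩ := d.main hM hrank hne ψ0
  have hroots : ∀ {σ : ℂ ≃+* ℂ}, σ (Complex.exp (2 * Real.pi * Complex.I /
      ((Nat.card G / p ^ (Nat.card G).factorization p) : ℕ))) = Complex.exp (2 * Real.pi * Complex.I /
      ((Nat.card G / p ^ (Nat.card G).factorization p) : ℕ)) →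
      ∀ ζ : ℂ, ζ ^ (Nat.card G / p ^ (Nat.card G).factorization p) = 1 → σ ζ = ζ := by
    intro σ hσ ζ hζ
    exact H75.fix_roots (H75.gp'_ne_zero (G := G) (p := p)) hσ ζ hζ
  have hroot' : (Complex.exp (2 * Real.pi * Complex.I /
      ((Nat.card G / p ^ (Nat.card G).factorization p) : ℕ))) ^
      (Nat.card G / p ^ (Nat.card G).factorization p) = 1 :=
    (Complex.isPrimitiveRoot_exp _ (H75.gp'_ne_zero (G := G) (p := p))).pow_eq_one
  set e := (Subgroup.centralizer (D : Set G)).relIndex T with he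
  have hY := o.card_Yf
  rw [hcf] at hY
  have hYc : Nat.card {ψ | CycG.Exc f χ1 θ ψ} = (CycG.CycOut.Yf B f χ1 θ).card := by
    rw [← Fintype.card_coe, ← Nat.card_eq_fintype_card]
    apply Nat.card_congr
    apply Equiv.subtypeEquivRight
    intro ψ
    rw [CycG.CycOut.mem_Yf]
    constructor
    · rintro ⟨χ, hχ, h1, rfl⟩
      exact ⟨o.mem χ hχ h1, χ, hχ, h1, rfl⟩
    · exact fun h => h.2
  have hYB : {ψ | CycG.Exc f χ1 θ ψ} ⊆ B := by
    rintro ψ ⟨χ, hχ, h1, rfl⟩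
    exact o.mem χ hχ h1
  refine ⟨{ψ | CycG.Exc f χ1 θ ψ}, hYB, ?_, ?_, ?_, ?_, ?_, ?_⟩
  · obtain ⟨χ, hχ, h1⟩ := hne
    exact ⟨θ χ, χ, hχ, h1, rfl⟩
  · rintro _ ⟨χ, hχ, h1, rfl⟩ ψ
    constructor
    · rintro ⟨σ, hσ, hψ⟩
      obtain ⟨h2, h3, h4⟩ := H79.gal_exc d hM h1D o (hroots hσ) hχ h1
      refine ⟨_, h2, h3, ?_⟩
      rw [← h4]
      exact Subtype.ext hψ
    · rintro ⟨χ', hχ', h1', rfl⟩
      obtain ⟨σ, hσ, h2⟩ := H79.exists_gal d hM h1D hχ h1 hχ' h1'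
      refine ⟨σ, hσ _ hroot', ?_⟩
      obtain ⟨-, -, h4⟩ := H79.gal_exc d hM h1D o hσ hχ h1
      rw [h2] at h4
      exact (congrArg Subtype.val h4).symm
  · rintro χ hχB hχY ψ ⟨σ, hσ, hψ⟩
    have h2 := H79.gal_nonexc d hM h1D o (hroots hσ) hχB hχY
    have h3 : ψ = Blk.irrGal σ χ := Subtype.ext hψ
    rw [h3, h2]
  · rw [hYc]
    exact ⟨e, by rw [mul_comm, ← hY, Nat.add_sub_cancel]⟩
  · have hYpos : 0 < (CycG.CycOut.Yf B f χ1 θ).card := by
      apply Nat.pos_of_ne_zero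
      intro h
      rw [h, mul_zero, zero_add] at hY
      exact hp'.one_lt.ne hY
    rw [hYc, ← hY, Nat.add_sub_cancel, Nat.mul_div_cancel _ hYpos, ← o.card_Xf,
      BlkC.natCard_eq_Bfin]
    have h2 := CycG.CycOut.sum_split (B := B) (f := f) (χ1 := χ1) (θ := θ) (fun _ => (1 : ℂ))
    simp only [Finset.sum_const, nsmul_eq_mul, mul_one] at h2
    have h3 : (BlkC.Bfin B).card = (CycG.CycOut.Xf B f χ1 θ).card + (CycG.CycOut.Yf B f χ1 θ).card := by
      exact_mod_cast h2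
    rw [h3, add_comm]
  · refine ⟨fun χ => if CycG.Exc f χ1 θ χ then δ else ε χ, ?_, ?_⟩
    · intro χ _
      by_cases h : CycG.Exc f χ1 θ χ
      · simp only [if_pos h]; exact o.delta
      · simp only [if_neg h]; exact o.eps χ
    · rintro x hx _ ⟨χ, hχ, h1, rfl⟩
      have h2 := o.reg_rel hχ h1 hx
      have hset : B \ {ψ | CycG.Exc f χ1 θ ψ} =
          (CycG.CycOut.Xf B f χ1 θ : Set (IrrCharacter G)) := by
        ext ψ
        rw [Finset.mem_coe, CycG.CycOut.mem_Xf]; rfl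
      rw [hset, finsum_mem_coe_finset]
      have h4 : CycG.Exc f χ1 θ (θ χ) := ⟨χ, hχ, h1, rfl⟩
      simp only [if_pos h4]
      have h3 : ∑ ψ ∈ CycG.CycOut.Xf B f χ1 θ,
          ((if CycG.Exc f χ1 θ ψ then δ else ε ψ : ℤ) : ℂ) * (ψ : G → ℂ) x =
          ∑ ψ ∈ CycG.CycOut.Xf B f χ1 θ, (ε ψ : ℂ) * (ψ : G → ℂ) x :=
        Finset.sum_congr rfl fun ψ hψ => by
          rw [if_neg (CycG.CycOut.mem_Xf.1 hψ).2]
      rw [h3]
      exact h2

end Cfsg.Agent.S4507
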