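import Cfsg.Statements.S4508
import Cfsg.Agent.H75.SelfCent5

set_option autoImplicit false
open Cfsg

namespace Cfsg.Agent.S4508

/-- Let the finite group G contain an element x of prime order p with C_G(x) = ⟨x⟩, and let t be the number of conjugacy classes of elements of order p. If G has an irreducible character of degree p − 1, then t is even or the commutator subgroup has even index. -/
theorem result {G : Type*} [Group G] [Finite G] (p : ℕ) (hp : p.Prime) (x : G) (hx : orderOf x = p) (hC : Subgroup.centralizer ({x} : Set G) = Subgroup.zpowers x) (t : ℕ) (ht : Nat.card {C : ConjClasses G // ∃ g ∈ C.carrier, orderOf g = p} = t) (χ : Cfsg.IrrCharacter G) (hχ : Cfsg.charDegree (χ : G → ℂ) + 1 = p) : Even t ∨ Even (commutator G).index := by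
  open Cfsg.Agent.H75 in
  have hkey := SC.card_classes_mul hp hx hC
  rw [ht] at hkey
  have hppos := hp.pos
  have hp1 := hp.one_lt
  haveI : Fact p.Prime := ⟨hp⟩
  by_cases hN : Nat.card (Subgroup.normalizer (Subgroup.zpowers x : Set G)) = p
  · have h1 : t = p - 1 := by
      rw [hN] at hkey
      exact Nat.eq_of_mul_eq_mul_right hppos hkey
    rcases hp.eq_two_or_odd' with h2 | h2
    · right
      rw [(Cfsg.Agent.H75.SC.commutator_index_eq hp hx hC hN).1, h2]
      exact even_two
    · left
      rw [h1]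
      exact Nat.Odd.sub_odd h2 odd_one
  · obtain ⟨e, he⟩ : ∃ e, Nat.card (Subgroup.normalizer (Subgroup.zpowers x : Set G)) = e * p := by
      have h1 : Nat.card (Subgroup.zpowers x) ∣
          Nat.card (Subgroup.normalizer (Subgroup.zpowers x : Set G)) :=
        Subgroup.card_dvd_of_le Subgroup.le_normalizer
      rw [Nat.card_zpowers, hx] at h1
      obtain ⟨m, hm⟩ := h1
      exact ⟨m, by rw [hm, mul_comm]⟩
    rw [he, ← mul_assoc] at hkey
    have hte : t * e = p - 1 := Nat.eq_of_mul_eq_mul_right hppos hkey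
    have he1 : e ≠ 1 := by
      rintro rfl
      apply hN; rw [he, one_mul]
    have hp2 : p ≠ 2 := by
      rintro rfl
      exact he1 (Nat.eq_one_of_mul_eq_one_left (by simpa using hte))
    by_cases ht2 : Even t
    · exact Or.inl ht2
    right
    have hodd : Odd t := Nat.not_even_iff_odd.mp ht2
    have hpodd : Odd p := hp.odd_of_ne_two hp2
    have heven : Even e := by
      have h1 : Even (t * e) := by rw [hte]; exact Nat.Odd.sub_odd hpodd odd_one
      rcases Nat.even_mul.mp h1 with h | h
      · exact absurd h ht2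
      · exact h
    obtain ⟨g, hgN, hge, hgk⟩ := Cfsg.Agent.H75.SC.exists_normalizer_generator hp hx hC he he1
    have hgx : g ∉ Subgroup.zpowers x := fun h =>
      he1 (Nat.dvd_one.mp (hgk 1 (by rw [pow_one]; exact h)))
    have hdeg : ((χ : G → ℂ) 1) + 1 = (p : ℂ) := by
      rw [← hχ, Cfsg.Agent.H75.charDegree_eq_deg, Cfsg.Agent.H75.deg_spec]
      push_cast; rfl
    have hx1 : x ≠ 1 := by
      rintro rfl
      rw [orderOf_one] at hx
      exact hp1.ne hx
    have hcent : Nat.card (Subgroup.centralizer ({x} : Set G)) = p := by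
      rw [hC, Nat.card_zpowers, hx]
    obtain ⟨m, hm⟩ : ∃ m : ℕ, x ^ m = g * x * g⁻¹ := by
      have h1 := (Subgroup.mem_normalizer_iff.mp hgN x).mp (Subgroup.mem_zpowers x)
      exact (mem_powers_iff_mem_zpowers (x := x)).mpr h1
    have hm1 : (m : ZMod p) ≠ 1 := by
      intro h
      have h1 : x ^ m = x ^ 1 := Cfsg.Agent.H75.pow_eq_of_natCast_eq hx (by rw [h, Nat.cast_one])
      rw [pow_one, hm, mul_inv_eq_iff_eq_mul] at h1
      exact hgx (Cfsg.Agent.H75.mem_zpowers_of_commute hC h1)
    have hm0 : (m : ZMod p) ≠ 0 := by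
      intro h
      have h1 : x ^ m = x ^ 0 := Cfsg.Agent.H75.pow_eq_of_natCast_eq hx (by rw [h, Nat.cast_zero])
      rw [pow_zero, hm, mul_inv_eq_one] at h1
      exact hx1 (mul_eq_left.mp h1)
    have hval := Cfsg.Agent.H75.char_eq_neg_one hx hcent χ hdeg hp2 hm1 hm0
      (isConj_iff.mpr ⟨g, hm.symm⟩)
    classical
    haveI : Fintype (Subgroup.zpowers x) := Fintype.ofFinite _
    have hsum : ∑ y : Subgroup.zpowers x, (χ : G → ℂ) y = 0 := by
      rw [← Finset.add_sum_erase _ _ (Finset.mem_univ (1 : Subgroup.zpowers x))]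
      have h1 : ∀ y ∈ Finset.univ.erase (1 : Subgroup.zpowers x), (χ : G → ℂ) y = -1 := by
        intro y hy
        obtain ⟨k, hk⟩ := (mem_powers_iff_mem_zpowers (x := x)).mpr y.2
        simp only at hk
        rw [← hk]
        apply hval
        intro h
        have h2 : x ^ k = x ^ 0 := Cfsg.Agent.H75.pow_eq_of_natCast_eq hx (by rw [h, Nat.cast_zero])
        rw [hk, pow_zero] at h2
        exact (Finset.ne_of_mem_erase hy) (Subtype.ext h2)
      rw [Finset.sum_congr rfl h1, Finset.sum_const, Finset.card_erase_of_mem (Finset.mem_univ _),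
        Finset.card_univ, ← Nat.card_eq_fintype_card, Nat.card_zpowers, hx, nsmul_eq_mul,
        Nat.cast_sub hppos, ← hdeg]
      rw [Subgroup.coe_one]
      push_cast
      ring
    have hvan : ∀ k : ℕ, ¬ e ∣ k → (χ : G → ℂ) (g ^ k) = 0 := by
      intro k hk
      apply Cfsg.Agent.H75.SC.char_vanish hp hx hC (Cfsg.Agent.CharBase.irr_isCharacter χ) hsum
        (pow_mem hgN k)
      intro h
      exact hk (hgk k h)
    obtain ⟨n, ρ, hρ, hρχ⟩ := χ.2
    have hρ1 : Module.finrank ℂ (Fin n → ℂ) = e * t := by
      have h1 := Representation.char_one ρ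
      rw [hρχ] at h1
      rw [h1] at hdeg
      have h2 : ((Module.finrank ℂ (Fin n → ℂ) + 1 : ℕ) : ℂ) = (p : ℂ) := by
        push_cast; exact hdeg
      have h3 : Module.finrank ℂ (Fin n → ℂ) + 1 = p := by exact_mod_cast h2
      rw [mul_comm, hte]
      omega
    apply Cfsg.Agent.H75.even_index_of_det ρ (g := g)
    rw [Cfsg.Agent.H75.det_of_trace_zero (e := e) (t := t) (Nat.pos_of_ne_zero (by
      rintro rfl
      simp at hte
      omega)).ne' (by rw [← map_pow, hge, map_one]) _ hρ1]
    · apply Odd.neg_one_pow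
      exact (Even.add_one heven).mul hodd
    · intro k hk
      have h1 := hvan k hk
      rw [← hρχ] at h1
      rw [← map_pow]
      exact h1

end Cfsg.Agent.S4508
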