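import Cfsg.Statements.S4509
import Cfsg.Agent.H75.SelfCent4

set_option autoImplicit false
open Cfsg

namespace Cfsg.Agent.S4509

/-- Let the finite group G contain an element x of prime order p with C_G(x) = ⟨x⟩; let t be the number of conjugacy classes of elements of order p and 1 + n·p the number of subgroups of order p. Then G has a normal subgroup of order 1 + n·p if and only if either t = p − 1, or t < p − 1 and G″ ≠ G′. Moreover, if t = p − 1 then G′ has order 1 + n·p and G/G′ is cyclic of order p; and if t < p − 1 and G″ ≠ G′ then G″ has order 1 + n·p and G′ has order p·(1 + n·p). -/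
theorem result {G : Type*} [Group G] [Finite G] (p : ℕ) (hp : p.Prime) (x : G) (hx : orderOf x = p) (hC : Subgroup.centralizer ({x} : Set G) = Subgroup.zpowers x) (t : ℕ) (ht : Nat.card {C : ConjClasses G // ∃ g ∈ C.carrier, orderOf g = p} = t) (n : ℕ) (hn : Nat.card {H : Subgroup G // Nat.card H = p} = 1 + n * p) : ((∃ S : Subgroup G, S.Normal ∧ Nat.card S = 1 + n * p) ↔ (t = p - 1 ∨ (t < p - 1 ∧ derivedSeries G 2 ≠ derivedSeries G 1))) ∧ (t = p - 1 → Nat.card (commutator G) = 1 + n * p ∧ IsCyclic (G ⧸ commutator G) ∧ (commutator G).index = p) ∧ (t < p - 1 → derivedSeries G 2 ≠ derivedSeries G 1 → Nat.card (derivedSeries G 2) = 1 + n * p ∧ Nat.card (commutator G) = p * (1 + n * p)) := by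
  open Cfsg.Agent.H75 in
  have hkey := SC.card_classes_mul hp hx hC
  rw [ht] at hkey
  have hppos := hp.pos
  have hp1 := hp.one_lt
  have hidx := Cfsg.Agent.H75.SC.card_subgroups hp hx hC
  rw [hn] at hidx
  have hG : Nat.card G = (1 + n * p) *
      Nat.card (Subgroup.normalizer (Subgroup.zpowers x : Set G)) := by
    rw [hidx, Subgroup.index_mul_card]
  have hNp : p ≤ Nat.card (Subgroup.normalizer (Subgroup.zpowers x : Set G)) := by
    have h1 : Nat.card (Subgroup.zpowers x) ≤
        Nat.card (Subgroup.normalizer (Subgroup.zpowers x : Set G)) :=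
      Subgroup.card_le_of_le Subgroup.le_normalizer
    rwa [Nat.card_zpowers, hx] at h1
  have hNpos : 0 < Nat.card (Subgroup.normalizer (Subgroup.zpowers x : Set G)) := Nat.card_pos
  have hd1 : derivedSeries G 1 = commutator G := derivedSeries_one G
  have hd2 : derivedSeries G 2 = ⁅commutator G, commutator G⁆ := by
    rw [derivedSeries_succ, hd1]
  rw [hd1, hd2]
  have hpdvd : ¬ p ∣ 1 + n * p := by
    intro h
    have h1 : p ∣ 1 := (Nat.dvd_add_left (Dvd.intro_left n rfl)).mp h
    exact hp1.ne' (Nat.dvd_one.mp h1)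
  have hB : t = p - 1 → Nat.card (commutator G) = 1 + n * p ∧ IsCyclic (G ⧸ commutator G) ∧
      (commutator G).index = p := by
    intro h1
    have h2 : Nat.card (Subgroup.normalizer (Subgroup.zpowers x : Set G)) = p := by
      rw [h1] at hkey
      exact Nat.eq_of_mul_eq_mul_left (by omega) hkey
    have h3 := (Cfsg.Agent.H75.SC.commutator_index_eq hp hx hC h2).1
    refine ⟨?_, ?_, h3⟩
    · rw [h2, ← Subgroup.card_mul_index (commutator G), h3] at hG
      exact Nat.eq_of_mul_eq_mul_right hppos hG
    · haveI : Fact p.Prime := ⟨hp⟩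
      exact isCyclic_of_prime_card (p := p) h3
  have hCc : t < p - 1 → ⁅commutator G, commutator G⁆ ≠ commutator G →
      Nat.card (⁅commutator G, commutator G⁆ : Subgroup G) = 1 + n * p ∧
        Nat.card (commutator G) = p * (1 + n * p) := by
    intro h1 h2
    have h3 : x ∈ commutator G := by
      apply Cfsg.Agent.H75.SC.mem_commutator hp hx hC
      intro h3
      rw [h3] at hkey
      exact h1.ne (Nat.eq_of_mul_eq_mul_right hppos hkey)
    obtain ⟨h4, h5, h6⟩ := Cfsg.Agent.H75.SC.derived_two hp hx hC h3 h2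
    rw [hG] at h5
    have h7 := Nat.eq_of_mul_eq_mul_right hNpos h5
    exact ⟨h7, by rw [h6, h7]⟩
  refine ⟨⟨?_, ?_⟩, hB, hCc⟩
  · rintro ⟨S, hS, hSc⟩
    by_cases h1 : t = p - 1
    · exact Or.inl h1
    · right
      have h2 : t ≤ p - 1 := by
        have h3 : t * p ≤ (p - 1) * p := by
          rw [← hkey]; exact Nat.mul_le_mul_left _ hNp
        exact Nat.le_of_mul_le_mul_right h3 hppos
      refine ⟨lt_of_le_of_ne h2 h1, ?_⟩
      have h3 : x ∈ commutator G := by
        apply Cfsg.Agent.H75.SC.mem_commutator hp hx hC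
        intro h3
        rw [h3] at hkey
        exact h1 (Nat.eq_of_mul_eq_mul_right hppos hkey)
      apply Cfsg.Agent.H75.SC.derived_ne hp hx hC h3 (S := S)
      · rw [hSc]; exact hpdvd
      · rw [hSc, hG]
  · rintro (h | ⟨h1, h2⟩)
    · exact ⟨commutator G, inferInstance, (hB h).1⟩
    · exact ⟨⁅commutator G, commutator G⁆, inferInstance, (hCc h1 h2).1⟩

end Cfsg.Agent.S4509
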