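import Cfsg.Statements.S4510
import Cfsg.Agent.H75.MinMax

set_option autoImplicit false
open Cfsg

namespace Cfsg.Agent.S4510

open Cfsg.Agent.Blk Cfsg.Agent.BlkC Cfsg.Agent.CharBase

/-- Let G be a finite group, p a prime, M a maximal ideal of the algebraic integers containing p, and call the defect of a conjugacy class the exponent of p in the order of the centralizer of its elements. Two irreducible characters lying in p-blocks of defect exactly d lie in the same block if and only if their central characters (class size times χ(x)/χ(1)) agree modulo the local ideal at M at every p-regular element x whose class has defect exactly d. -/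
theorem result {G : Type*} [Group G] [Finite G] (p : ℕ) [Fact p.Prime] (M : Ideal Cfsg.AlgInt) (hM : Cfsg.IsPModular p M) (d : ℕ) (χ ψ : Cfsg.IrrCharacter G) (hχ : Cfsg.blockDefect p (Cfsg.blockOf M (χ : G → ℂ)) = d) (hψ : Cfsg.blockDefect p (Cfsg.blockOf M (ψ : G → ℂ)) = d) : Cfsg.SameBlock M (χ : G → ℂ) (ψ : G → ℂ) ↔ ∀ x : G, ¬ p ∣ orderOf x → (Nat.card (Subgroup.centralizer ({x} : Set G))).factorization p = d → Cfsg.MemLocalIdeal M (Cfsg.centralChar (χ : G → ℂ) x - Cfsg.centralChar (ψ : G → ℂ) x) := by
  classical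
  have := Fintype.ofFinite G
  have hMp : M.IsPrime := hM.2.1.isPrime
  constructor
  · intro h x _ _; exact h x
  intro h
  by_contra hcon
  have hB : IsPBlock M (blockOf M (χ : G → ℂ)) := isPBlock_blockOf χ
  have hB' : IsPBlock M (blockOf M (ψ : G → ℂ)) := isPBlock_blockOf ψ
  have h1 := omega_blockCoeff (blockOf M (χ : G → ℂ)) χ
  have h2 := omega_blockCoeff (blockOf M (χ : G → ℂ)) ψ
  rw [if_pos (mem_blockOf_self χ)] at h1
  rw [if_neg (show ¬ ψ ∈ blockOf M (χ : G → ℂ) from hcon)] at h2
  rw [omega_eq_sum_classes (blockCoeff_isClassFunction _)] at h1 h2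
  have h3 : MemLocalIdeal M ((1 : ℂ) - 0) := by
    rw [← h1, ← h2, ← Finset.sum_sub_distrib]
    refine mli_sum _ _ fun c _ => ?_
    rw [← mul_sub]
    set y : G := Quotient.out c
    by_cases hy : p ∣ orderOf y
    · rw [blockCoeff_eq_zero_of_dvd hM hB hy, zero_mul]; exact mli_zero
    rcases lt_trichotomy ((Nat.card (Subgroup.centralizer ({y} : Set G))).factorization p) d with
      hlt | heq | hgt
    · apply mli_mul_left (mlr_blockCoeff hB y)
      apply mli_sub
      · exact Cfsg.Agent.H75.mli_centralChar_of_defect_lt hM hB (mem_blockOf_self χ) (by rw [hχ]; exact hlt)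
      · exact Cfsg.Agent.H75.mli_centralChar_of_defect_lt hM hB' (mem_blockOf_self ψ) (by rw [hψ]; exact hlt)
    · exact mli_mul_left (mlr_blockCoeff hB y) (h y hy heq)
    · apply mli_mul_right
      · exact Cfsg.Agent.H75.mli_blockCoeff_of_lt hM hB (by rw [hχ]; exact hgt)
      · exact mlr_sub (mlr_centralChar χ y) (mlr_centralChar ψ y)
  rw [sub_zero] at h3
  exact not_mli_one h3

end Cfsg.Agent.S4510
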