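import Cfsg.Statements.S4512
import Cfsg.Agent.H4.RankLoc

set_option autoImplicit false
open Cfsg

namespace Cfsg.Agent.S4512

/-- If G is a finite group with a Sylow 2-subgroup that is a Klein four-group and a single conjugacy class of involutions, then its principal 2-block (relative to a maximal ideal M of the algebraic integers containing 2) has 2-regular rank 3: the restrictions of its irreducible characters to the elements of odd order span a space of dimension 3 (it has three irreducible Brauer characters). -/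
theorem result {G : Type*} [Group G] [Finite G] (M : Ideal Cfsg.AlgInt) (hM : Cfsg.IsPModular 2 M) (P : Sylow 2 G)
    (hP : Nat.card P = 4) (hexp : ∀ x : P, x * x = 1)
    (hone : ∀ s t : G, orderOf s = 2 → orderOf t = 2 → IsConj s t) :
    Cfsg.blockRank 2 (Cfsg.principalBlock M G) = 3 := by
  classical
  haveI := Fintype.ofFinite G
  haveI : Fact (Nat.Prime 2) := ⟨Nat.prime_two⟩
  haveI := Cfsg.Agent.Blk.isPrime_of_isPModular hM
  have hKF : IsKleinFour (P : Subgroup G) := by
    refine ⟨hP, ?_⟩
    have h1 : Monoid.exponent (P : Subgroup G) ∣ 2 := by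
      rw [Monoid.exponent_dvd_iff_forall_pow_eq_one]
      intro x
      rw [pow_two]; exact hexp x
    rcases (Nat.dvd_prime Nat.prime_two).mp h1 with h | h
    · exfalso
      rw [Monoid.exp_eq_one_iff] at h
      have : Nat.card (P : Subgroup G) = 1 := Nat.card_eq_one_iff_unique.mpr ⟨h, ⟨1⟩⟩
      rw [show Nat.card (P : Subgroup G) = 4 from hP] at this
      omega
    · exact h
  obtain ⟨t, ht, -⟩ := Cfsg.Agent.H4.exists_involution hKF
  obtain ⟨ζ₂, ζ₃, ζ₄, ε, -, h2, h3, h23, h24, h34, hB, hval, -⟩ :=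
    Cfsg.Agent.H4.kleinBlock hM hKF hone
  -- the sections
  have hX : Cfsg.Agent.H4.IsNTRep 2 ({t} : Finset G) := by
    refine ⟨fun x hx => ?_, fun x hx => ?_, fun g hg hg1 => ?_⟩
    · rw [Finset.mem_singleton] at hx
      exact ⟨1, by rw [hx, ht, pow_one]⟩
    · rw [Finset.mem_singleton] at hx
      rintro rfl
      rw [← hx, orderOf_one] at ht
      omega
    · have h2 : orderOf g = 2 := by
        obtain ⟨k, hk⟩ := hg
        obtain ⟨Q, hQ⟩ := Cfsg.Agent.H4.exists_sylow_mem (p := 2) (t := g) (k := k)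
          (by rw [← hk, pow_orderOf_eq_one])
        have hQK := Cfsg.Agent.H4.isKleinFour_sylow hKF Q
        exact orderOf_eq_prime (by rw [pow_two]; exact Cfsg.Agent.H4.IsKleinFour.mul_self' hQK hQ) hg1
      refine ⟨t, ⟨Finset.mem_singleton_self t, hone g t h2 ht⟩, ?_⟩
      rintro x ⟨hx, -⟩
      exact Finset.mem_singleton.mp hx
  have hcount := Cfsg.Agent.H4.card_eq_add_sum hM
    (Cfsg.Agent.Blk.isPBlock_principalBlock (M := M) (G := G)) hX
  rw [Finset.sum_singleton, Cfsg.Agent.H4.indB_principal hM ⟨1, by rw [ht, pow_one]⟩,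
    Finset.sum_singleton] at hcount
  obtain ⟨k, hk⟩ := Cfsg.Agent.H4.centralizer_npc hKF ht
  rw [Cfsg.Agent.H4.blockRank_principal_of_npc hM hk] at hcount
  have h4 : Nat.card (Cfsg.principalBlock M G) = 4 := by
    rw [hB]
    have hone' : ∀ χ : Cfsg.IrrCharacter G, (χ : G → ℂ) = (fun _ => 1) ↔
        χ = Cfsg.Agent.CharBase.oneIrr G :=
      fun χ => ⟨fun h => Subtype.ext h, fun h => by rw [h]; rfl⟩
    have hset : {χ : Cfsg.IrrCharacter G | (χ : G → ℂ) = (fun _ => 1) ∨ χ = ζ₂ ∨ χ = ζ₃ ∨ χ = ζ₄} =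
        (({Cfsg.Agent.CharBase.oneIrr G, ζ₂, ζ₃, ζ₄} : Finset (Cfsg.IrrCharacter G)) :
          Set (Cfsg.IrrCharacter G)) := by
      ext χ
      simp [hone']
    rw [hset, Nat.card_coe_set_eq, Set.ncard_coe_finset]
    have h14 : Cfsg.Agent.CharBase.oneIrr G ≠ ζ₄ := by
      rintro h
      have h5 := (hval t ht).2.2
      rw [← h] at h5
      change (1 : ℂ) = -1 at h5
      norm_num at h5
    rw [Finset.card_insert_of_notMem, Finset.card_insert_of_notMem, Finset.card_insert_of_notMem,
      Finset.card_singleton]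
    · simpa using h34
    · simp only [Finset.mem_insert, Finset.mem_singleton, not_or]
      exact ⟨h23, h24⟩
    · simp only [Finset.mem_insert, Finset.mem_singleton, not_or]
      exact ⟨fun h => h2 ((hone' _).mpr h.symm), fun h => h3 ((hone' _).mpr h.symm), h14⟩
  omega


end Cfsg.Agent.S4512
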