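import Cfsg.Statements.S4633
import Cfsg.Agent.Star.Loc
import Cfsg.Agent.Cyc.Inert

set_option autoImplicit false
open Cfsg

namespace Cfsg.Agent.S4633

/-- Let B be a block of the finite group G relative to a maximal ideal M of the algebraic integers containing the prime p, with a nontrivial cyclic defect group P. Let c be a block of C_G(P) inducing B and T the stabilizer of c in N_G(P) (the elements of N_G(P) conjugating c to itself); T contains C_G(P). Then T/C_G(P) is cyclic of order dividing p − 1, and it acts freely on the non-identity elements of P: an element of T fixing some non-identity element of P under conjugation lies in C_G(P). -/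
theorem result {G : Type*} [Group G] [Finite G] (p : ℕ) [Fact p.Prime] (M : Ideal Cfsg.AlgInt) (hM : Cfsg.IsPModular p M) (B : Set (Cfsg.IrrCharacter G)) (hB : Cfsg.IsPBlock M B) (P : Subgroup G) (hPD : Cfsg.IsDefectGroup p M B P) (hP1 : P ≠ ⊥) (hcyc : IsCyclic P) (c : Set (Cfsg.IrrCharacter (Subgroup.centralizer (P : Set G)))) (hc : Cfsg.IsInducedBlock M (Subgroup.centralizer (P : Set G)) c B) (T : Subgroup G) (hT : ∀ g : G, g ∈ T ↔ (g ∈ Subgroup.normalizer (P : Set G) ∧ Cfsg.StabilizesBlock (Subgroup.centralizer (P : Set G)) c g)) [hn : ((Subgroup.centralizer (P : Set G)).subgroupOf T).Normal] : IsCyclic (T ⧸ (Subgroup.centralizer (P : Set G)).subgroupOf T) ∧ (Subgroup.centralizer (P : Set G)).relIndex T ∣ p - 1 ∧ ∀ g ∈ T, ∀ x ∈ P, x ≠ 1 → g * x * g⁻¹ = x → g ∈ Subgroup.centralizer (P : Set G) := by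
  classical
  have := Fintype.ofFinite G
  have hMp := Blk.isPrime_of_isPModular hM
  have := Blk.charP_kM hM
  obtain ⟨h1, h2, h3⟩ := Star.mmax_of_isInducedBlock hM hB hPD hc
  obtain rfl := Star.mem_T_iff hc.1 hT
  have hab := Star.comm_of_isCyclic hcyc
  have hnd := Star.not_dvd_inertial h2 hab
  obtain ⟨a, ha⟩ := IsPGroup.iff_card.1 h2.1.isPGroup
  have ha1 : 1 ≤ a := by
    rcases Nat.eq_zero_or_pos a with rfl | h
    · exact absurd (Subgroup.card_eq_one.1 (by rw [ha, pow_zero])) hP1
    · exact h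
  obtain ⟨h4, h5⟩ := Cyc.relIndex_dvd_and_cyclic Fact.out ha1 hcyc ha (Blk.stab_le _ _) hnd
  refine ⟨h5, h4, fun g hg x hx hx1 hgx => ?_⟩
  exact Star.centralizes_of_fix Fact.out hcyc ha (Blk.stab_le _ _) hnd hg hx hx1 hgx

end Cfsg.Agent.S4633
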