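import Cfsg.Statements.S4635
import Cfsg.Agent.Cyc.Compose
-- import your own Cfsg.Agent.* helpers here

set_option autoImplicit false
open Cfsg

namespace Cfsg.Agent.S4635

/-- Let B be a block of the finite group G relative to a maximal ideal M of the algebraic integers containing the prime p, with a nontrivial cyclic defect group P; let Z be the subgroup of order p of P and H = N_G(Z), which contains N_G(P). Let c be the block of H with defect group P that induces B. Then B and c contain the same number of irreducible characters, have the same p-regular rank, and there is a perfect isometry from c onto B. -/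
theorem result {G : Type*} [Group G] [Finite G] (p : ℕ) [Fact p.Prime] (M : Ideal Cfsg.AlgInt) (hM : Cfsg.IsPModular p M) (B : Set (Cfsg.IrrCharacter G)) (hB : Cfsg.IsPBlock M B) (P : Subgroup G) (hPD : Cfsg.IsDefectGroup p M B P) (hP1 : P ≠ ⊥) (hcyc : IsCyclic P) (Z : Subgroup G) (hZ : Z ≤ P) (hZcard : Nat.card Z = p) (H : Subgroup G) (hH : H = Subgroup.normalizer (Z : Set G)) (c : Set (Cfsg.IrrCharacter H)) (hcD : Cfsg.IsDefectGroup p M c (P.subgroupOf H)) (hc : Cfsg.IsInducedBlock M H c B) : Nat.card c = Nat.card B ∧ Cfsg.blockRank p c = Cfsg.blockRank p B ∧ ∃ (I : Cfsg.IrrCharacter H → Cfsg.IrrCharacter G) (ε : Cfsg.IrrCharacter H → ℤ), Cfsg.IsPerfectIsometry p M c B I ε := by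
  classical
  have := Fintype.ofFinite G
  have hMp := Blk.isPrime_of_isPModular hM
  have := Blk.charP_kM hM
  have hPp : IsPGroup p P := BlkInd.isPGroup_of_isDefectGroup hPD
  obtain ⟨a, ha⟩ := hPp.exists_card_eq
  have ha1 : 1 ≤ a := by
    by_contra h
    have h0 : a = 0 := by omega
    rw [h0, pow_zero] at ha
    exact hP1 ((Subgroup.card_eq_one).1 ha)
  obtain ⟨hPH, b₁, b₀, h1, h2⟩ := Cyc.exists_transfer hM hB hcyc hPp hZ hH hcD hc
  have := Fintype.ofFinite H
  obtain ⟨h1, hidx⟩ := h1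
  have hcP : Nat.card (P.subgroupOf H) = Nat.card P :=
    Nat.card_congr (Subgroup.subgroupOfEquivOfLe hPH).toEquiv
  have hcyc' : IsCyclic (P.subgroupOf H) :=
    isCyclic_of_injective (Subgroup.subgroupOfEquivOfLe hPH).toMonoidHom
      (Subgroup.subgroupOfEquivOfLe hPH).injective
  have hPa' : Nat.card (P.subgroupOf H) = p ^ a := by rw [hcP, ha]
  obtain ⟨F, instF, instF', Q, hF, hQ, hQcard, hQC⟩ := Cyc.exists_frob
    (T := Blk.stab (Subgroup.normalizer (P : Set G)) (Blk.EB M _ b₀)) (Blk.stab_le _ _) hcyc rfl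
  obtain ⟨I₁, ε₁, hI₁, -⟩ := Cyc.exists_perfect hM hB hcyc ha1 ha hPD h2 rfl hF Q hQ hQcard hQC
  obtain ⟨I₂, ε₂, hI₂, -⟩ := Cyc.exists_perfect hM hc.1 hcyc' ha1 hPa' hcD h1 hidx
    (by rw [hF, hcP]) Q hQ (by rw [hQcard, hcP]) hQC
  refine ⟨?_, ?_, Cyc.perfect_comp hI₁ hI₂⟩
  · rw [← Nat.card_congr (Set.BijOn.equiv I₁ hI₁.1), ← Nat.card_congr (Set.BijOn.equiv I₂ hI₂.1)]
  · rw [Cyc.rank_eq_inertial hM hB hcyc ha1 ha hPD h2,
      Cyc.rank_eq_inertial hM hc.1 hcyc' ha1 hPa' hcD h1, hidx]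

end Cfsg.Agent.S4635
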