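import Cfsg.Statements.S4636

set_option autoImplicit false
open scoped Pointwise
open Cfsg

namespace Cfsg.Agent.S4636

/-- Let P be a nontrivial cyclic p-subgroup of the finite group G and Z its subgroup of order p. For every x outside N_G(Z), P meets its conjugate xPx⁻¹ trivially; consequently N_G(Q) ≤ N_G(Z) for every nontrivial subgroup Q of P. -/
theorem result {G : Type*} [Group G] [Finite G] (p : ℕ) [Fact p.Prime] (P : Subgroup G) (hP : IsPGroup p P) (hP1 : P ≠ ⊥) (hcyc : IsCyclic P) (Z : Subgroup G) (hZ : Z ≤ P) (hZcard : Nat.card Z = p) : (∀ x : G, x ∉ Subgroup.normalizer (Z : Set G) → P ⊓ MulAut.conj x • P = ⊥) ∧ ∀ Q : Subgroup G, Q ≤ P → Q ≠ ⊥ → Subgroup.normalizer (Q : Set G) ≤ Subgroup.normalizer (Z : Set G) := by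
  have hp : p.Prime := Fact.out
  have hZ1 : ∀ Y : Subgroup G, Y ≤ P → Y ≠ ⊥ → Z ≤ Y := by
    intro Y hY hY1
    -- an element of order p in Y
    have hYp : IsPGroup p Y := hP.to_le hY
    have : ∃ z : G, z ∈ Y ∧ orderOf z = p := by
      obtain ⟨k, hk⟩ := hYp.exists_card_eq
      have hk0 : k ≠ 0 := by
        rintro rfl
        rw [pow_zero] at hk
        exact hY1 (Subgroup.eq_bot_of_card_eq Y hk)
      have hdvd : p ∣ Nat.card Y := by rw [hk]; exact dvd_pow_self p hk0
      obtain ⟨z, hz⟩ := exists_prime_orderOf_dvd_card' p hdvd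
      exact ⟨z, z.2, by rw [Subgroup.orderOf_coe]; exact hz⟩
    obtain ⟨z, hzY, hzo⟩ := this
    -- the cyclic group P has at most p elements with x^p=1
    haveI : IsCyclic P := hcyc
    have hle : Subgroup.zpowers z ≤ Y := by
      rw [Subgroup.zpowers_le]; exact hzY
    have hcardz : Nat.card (Subgroup.zpowers z) = p := by rw [Nat.card_zpowers, hzo]
    have heq : Z = Subgroup.zpowers z := by
      have h1 : (Z.subgroupOf P) = (Subgroup.zpowers z).subgroupOf P := by
        have ha : Nat.card (Z.subgroupOf P) = p := by
          rw [Nat.card_congr (Subgroup.subgroupOfEquivOfLe hZ).toEquiv, hZcard]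
        have hb : Nat.card ((Subgroup.zpowers z).subgroupOf P) = p := by
          rw [Nat.card_congr (Subgroup.subgroupOfEquivOfLe (hle.trans hY)).toEquiv, hcardz]
        classical
        haveI := Fintype.ofFinite P
        have key : ∀ X : Subgroup P, Nat.card X = p →
            (X : Set P) = ((Finset.univ.filter (fun a : P => a ^ p = 1) : Finset P) : Set P) := by
          intro X hX
          apply Set.eq_of_subset_of_ncard_le
          · intro a ha'
            simp only [Finset.coe_filter, Finset.mem_univ, true_and, Set.mem_setOf_eq]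
            have : (⟨a, ha'⟩ : X) ^ p = 1 := by rw [← hX]; exact pow_card_eq_one'
            exact congrArg Subtype.val this
          · rw [Set.ncard_coe_finset]
            refine (IsCyclic.card_pow_eq_one_le hp.pos).trans ?_
            rw [← hX]; exact le_of_eq (Nat.card_coe_set_eq _)
          · exact Set.toFinite _
        exact SetLike.coe_injective ((key _ ha).trans (key _ hb).symm)
      have h2 := congrArg (fun X => X.map P.subtype) h1
      simp only [Subgroup.subgroupOf_map_subtype] at h2
      rwa [inf_eq_left.mpr hZ, inf_eq_left.mpr (hle.trans hY)] at h2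
    rw [heq]; exact hle
  have hconj : ∀ x : G, MulAut.conj x • Z = Z → x ∈ Subgroup.normalizer (Z : Set G) := by
    intro x hx
    rw [Subgroup.mem_normalizer_iff]
    intro g
    conv_rhs => rw [← hx]
    rw [Subgroup.mem_pointwise_smul_iff_inv_smul_mem, ← map_inv, MulAut.smul_def,
      MulAut.conj_apply, inv_inv]
    simp [mul_assoc]
  have hcard : ∀ x : G, Nat.card (MulAut.conj x • Z : Subgroup G) = Nat.card Z := by
    intro x
    exact Nat.card_congr (Subgroup.equivSMul (MulAut.conj x) Z).symm.toEquiv
  have heqZ : ∀ x : G, Z ≤ MulAut.conj x • Z → MulAut.conj x • Z = Z := by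
    intro x hx
    exact (Subgroup.eq_of_le_of_card_ge hx (by rw [hcard])).symm
  constructor
  · intro x hx
    by_contra hne
    apply hx
    apply hconj
    apply heqZ
    have h1 := hZ1 _ inf_le_left hne
    -- conj x • Z is the least nontrivial subgroup of conj x • P
    have h2 : MulAut.conj x • Z ≤ P ⊓ MulAut.conj x • P := by
      have h3 : Z ≤ (MulAut.conj x)⁻¹ • (P ⊓ MulAut.conj x • P) := by
        apply hZ1
        · rw [Subgroup.smul_inf, inv_smul_smul]
          exact inf_le_right
        · intro h
          apply hne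
          have h2 := congrArg (fun X => (MulAut.conj x) • X) h
          simpa using h2
      have h4 := Subgroup.pointwise_smul_le_pointwise_smul_iff (a := MulAut.conj x) |>.mpr h3
      rwa [smul_inv_smul] at h4
    have h5 : Z = MulAut.conj x • Z := by
      have h6 : Z ≤ P := hZ
      have h7 : MulAut.conj x • Z ≤ P := h2.trans inf_le_left
      have h8 := hZ1 (MulAut.conj x • Z) h7 (by
        intro h
        have := hcard x
        rw [h, hZcard, Subgroup.card_bot] at this
        exact hp.one_lt.ne this)
      exact Subgroup.eq_of_le_of_card_ge h8 (by rw [hcard])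
    exact h5.le
  · intro Q hQ hQ1 x hx
    apply hconj
    apply heqZ
    have hxQ : MulAut.conj x • Q = Q := by
      ext y
      rw [Subgroup.mem_pointwise_smul_iff_inv_smul_mem, ← map_inv, MulAut.smul_def,
        MulAut.conj_apply, inv_inv]
      rw [Subgroup.mem_normalizer_iff] at hx
      have := hx (x⁻¹ * y * x)
      rw [this]
      simp [mul_assoc]
    apply hZ1
    · calc MulAut.conj x • Z ≤ MulAut.conj x • Q :=
            Subgroup.pointwise_smul_le_pointwise_smul_iff.mpr (hZ1 Q hQ hQ1)
        _ = Q := hxQ
        _ ≤ P := hQ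
    · intro h
      have := hcard x
      rw [h, hZcard, Subgroup.card_bot] at this
      exact hp.one_lt.ne this

end Cfsg.Agent.S4636
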