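import Cfsg.Statements.S4640
import Cfsg.Agent.BlkF.Fong
import Cfsg.Agent.BlkF.MajorAny
import Cfsg.Agent.Char.AbQuot

set_option autoImplicit false
open Cfsg

namespace Cfsg.Agent.S4640

/-- Let N be a normal subgroup of the finite group G of index a power of the prime p, M a maximal ideal of the algebraic integers containing p, b a block of N stabilized by every element of G, and B a block of G covering b (some member of B has a member of b as a constituent of its restriction to N). Suppose that B has a commutative defect group P. Then G = NP and P ∩ N is a defect group of b; every member of B restricts to a member of b; every member of b is the restriction of exactly [G : N] members of B; B contains exactly [G : N] times as many irreducible characters as b; and B and b have the same p-regular rank. -/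
theorem result {G : Type*} [Group G] [Fintype G] (p : ℕ) [Fact p.Prime] (M : Ideal Cfsg.AlgInt) (hM : Cfsg.IsPModular p M) (N : Subgroup G) [N.Normal] [Fintype N] (hNi : ∃ k : ℕ, N.index = p ^ k) (b : Set (Cfsg.IrrCharacter N)) (hb : Cfsg.IsPBlock M b) (hstab : ∀ g : G, Cfsg.StabilizesBlock N b g) (B : Set (Cfsg.IrrCharacter G)) (hB : Cfsg.IsPBlock M B) (hcov : ∃ χ ∈ B, ∃ θ ∈ b, Cfsg.classInner (fun n : N => (χ : G → ℂ) n) (θ : N → ℂ) ≠ 0) (P : Subgroup G) (hPD : Cfsg.IsDefectGroup p M B P) (hPab : ∀ x ∈ P, ∀ y ∈ P, x * y = y * x) : N ⊔ P = ⊤ ∧ Cfsg.IsDefectGroup p M b ((P ⊓ N).subgroupOf N) ∧ (∀ χ ∈ B, ∃ θ ∈ b, ∀ n : N, (χ : G → ℂ) n = (θ : N → ℂ) n) ∧ (∀ θ ∈ b, Nat.card {χ : Cfsg.IrrCharacter G // χ ∈ B ∧ ∀ n : N, (χ : G → ℂ) n = (θ : N → ℂ) n} = N.index) ∧ Nat.card B = N.index * Nat.card b ∧ Cfsg.blockRank p B = Cfsg.blockRank p b := by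
  classical
  have := Fintype.ofFinite (IrrCharacter G)
  have := Fintype.ofFinite (IrrCharacter N)
  have := Blk.isPrime_of_isPModular hM
  have := Blk.charP_kM hM
  have hp : p.Prime := Fact.out
  obtain ⟨kk, hkk⟩ := hNi
  have hN' : ∃ m : ℕ, (N.subgroupOf (⊤ : Subgroup G)).index = p ^ m := by
    refine ⟨kk, ?_⟩
    rw [← hkk]
    exact Subgroup.relIndex_top_right N
  have hfix : Blk.Fixed ⊤ (Blk.EB M N b) := fun x _ =>
    ((Blk.stabilizesBlock_iff hb x).1 (hstab x)).2
  have hcb := Blk.isBlk_EB (M := M) hb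
  have hblk : Blk.IsBlk ⊤ (Blk.EB M N b) := by
    have := BlkF.isBlk_orbSum hM le_top hN' hcb
    rwa [BlkF.orbSum_of_fixed hfix] at this
  -- the blocks covering `b`
  have hcovE : ∀ B' : Set (Cfsg.IrrCharacter G), Cfsg.IsPBlock M B' → BlkF.Cov N B' b →
      Blk.eB M B' = Blk.EB M N b := by
    intro B' hB' h
    exact (Blk.isBlk_eB hB').eq_of_mul_ne_zero hblk ((BlkF.cov_iff hB' hb).1 h)
  have hE := hcovE B hB hcov
  have hP' := (Blk.isDefectGroup_iff hM hB P).1 hPD
  have hNP : N ⊔ P = ⊤ := by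
    have h1 := BlkF.not_dvd_relIndex (T := ⊤) (D := P) hcb (BlkF.splitBlk hcb) le_top
      (BlkF.le_norm _) hfix (by rw [← hE]; exact hP')
    rw [Subgroup.relIndex_top_right] at h1
    have h2 : (P ⊔ N).index ∣ p ^ kk := by
      rw [← hkk]; exact Subgroup.index_dvd_of_le le_sup_right
    obtain ⟨j, -, hj⟩ := (Nat.dvd_prime_pow hp).1 h2
    have h3 : (P ⊔ N).index = 1 := by
      rw [hj]
      rcases Nat.eq_zero_or_pos j with h4 | h4
      · rw [h4, pow_zero]
      · exfalso
        apply h1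
        rw [hj]
        exact dvd_pow_self p h4.ne'
    rw [sup_comm]
    exact Subgroup.index_eq_one.1 h3
  have hDb : Cfsg.IsDefectGroup p M b ((P ⊓ N).subgroupOf N) := by
    obtain ⟨c', hc', hcP, hbc, hD⟩ := BlkF.exists_isDef_inf (N := N) (Blk.isBlk_eB hB) hP'
    rw [hE] at hbc
    have h2 := hcb.eq_of_mul_ne_zero hc' hbc
    rw [Blk.isDefectGroup_iff' hM hb, Subgroup.map_subgroupOf_eq_of_le inf_le_right, h2]
    exact hD
  -- `p`-regular elements lie in `N`
  have hreg : ∀ g : G, ¬ p ∣ orderOf g → g ∈ N := by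
    intro g hg
    have h2 : g ^ (p ^ kk) ∈ N := by
      rw [← hkk]; exact Subgroup.pow_index_mem _ _
    have h3 : (p ^ kk).Coprime (orderOf g) :=
      Nat.Coprime.pow_left kk ((Nat.Prime.coprime_iff_not_dvd hp).mpr hg)
    obtain ⟨n, hn⟩ := exists_pow_eq_self_of_coprime h3
    rw [← hn]
    exact Subgroup.pow_mem _ h2 _
  -- representatives in `P`
  have hrep : ∀ q : G ⧸ N, ∃ x ∈ P, (x : G ⧸ N) = q := by
    intro q
    obtain ⟨g, rfl⟩ := QuotientGroup.mk_surjective q
    have h1 : g ∈ N ⊔ P := by rw [hNP]; exact Subgroup.mem_top g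
    rw [← SetLike.mem_coe, Subgroup.normal_mul N P] at h1
    obtain ⟨n, hn, x, hx, rfl⟩ := h1
    refine ⟨x, hx, ?_⟩
    rw [QuotientGroup.mk_mul, (QuotientGroup.eq_one_iff n).2 hn, one_mul]
  have hab : ∀ a c : G ⧸ N, a * c = c * a := by
    intro a c
    obtain ⟨x, hx, rfl⟩ := hrep a
    obtain ⟨y, hy, rfl⟩ := hrep c
    rw [← QuotientGroup.mk_mul, ← QuotientGroup.mk_mul, hPab x hx y hy]
  -- irreducible restrictions
  have hirr : ∀ χ ∈ B, Cfsg.IsIrrCharacter N (fun n : N => (χ : G → ℂ) n) := by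
    intro χ hχ
    refine Char.restrict_irr_of_ne_zero N hab χ.2 fun q => ?_
    obtain ⟨x, hx, rfl⟩ := hrep q
    obtain ⟨c, -, hc, hne⟩ := BlkF.exists_ne_zero_of_comm hM hB hPD hPab hx hχ
    refine ⟨x * c, ?_, hne⟩
    rw [QuotientGroup.mk_mul, (QuotientGroup.eq_one_iff c).2 (hreg c hc), mul_one]
  -- the restriction lies in `b`
  have hres : ∀ χ ∈ B, ∃ θ ∈ b, ∀ n : N, (χ : G → ℂ) n = (θ : N → ℂ) n := by
    intro χ hχ
    refine ⟨⟨_, hirr χ hχ⟩, ?_, fun n => rfl⟩
    set θ : IrrCharacter N := ⟨_, hirr χ hχ⟩ with hθ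
    have hb' := Blk.isPBlock_blockOf (M := M) θ
    have hcov' : BlkF.Cov N B (blockOf M (θ : N → ℂ)) := by
      refine ⟨χ, hχ, θ, Blk.mem_blockOf_self θ, ?_⟩
      have h1 : classInner (θ : N → ℂ) (θ : N → ℂ) = 1 := CharBase.classInner_irr_self θ
      change classInner (θ : N → ℂ) (θ : N → ℂ) ≠ 0
      rw [h1]; exact one_ne_zero
    have h2 := (BlkF.cov_iff hB hb').1 hcov'
    rw [hE] at h2
    have h3 := hcb.eq_of_mul_ne_zero (Blk.isBlk_EB (M := M) hb') h2
    have h4 := Blk.EB_injective hb hb' h3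
    rw [h4]
    exact Blk.mem_blockOf_self θ
  -- characters over `b` lie in `B`
  have hover : ∀ χ : IrrCharacter G, ∀ θ ∈ b, classInner (fun n : N => (χ : G → ℂ) n)
      (θ : N → ℂ) ≠ 0 → χ ∈ B := by
    intro χ θ hθ hne
    have hB' := Blk.isPBlock_blockOf (M := M) χ
    have h1 := hcovE _ hB' ⟨χ, Blk.mem_blockOf_self χ, θ, hθ, hne⟩
    rw [← hE] at h1
    have h2 := Blk.eB_injective hB' hB h1
    rw [← h2]
    exact Blk.mem_blockOf_self χ
  have hcount : ∀ θ ∈ b, Nat.card {χ : Cfsg.IrrCharacter G // χ ∈ B ∧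
      ∀ n : N, (χ : G → ℂ) n = (θ : N → ℂ) n} = N.index := by
    intro θ hθ
    have hkey : ∀ χ : IrrCharacter G, classInner (indFun N (θ : N → ℂ)) (χ : G → ℂ) =
        if (χ ∈ B ∧ ∀ n : N, (χ : G → ℂ) n = (θ : N → ℂ) n) then 1 else 0 := by
      intro χ
      rw [Char.frobenius_reciprocity N _ _ (CharBase.irr_isClassFunction χ)]
      have hsymm := CharBase.classInner_comm_of_isCharacter (CharBase.irr_isCharacter θ)
        (CharBase.isCharacter_restrict (CharBase.irr_isCharacter χ) N)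
      rw [hsymm]
      split_ifs with h
      · have h1 : (fun n : N => (χ : G → ℂ) n) = (θ : N → ℂ) := funext h.2
        rw [h1]
        exact CharBase.classInner_irr_self θ
      · by_contra hne
        apply h
        have hχ := hover χ θ hθ hne
        refine ⟨hχ, ?_⟩
        have h1 := Char.eq_of_classInner_ne_zero (hirr χ hχ) θ.2 hne
        intro n
        exact congrFun h1 n
    have h1 := CharBase.classFun_eq_sum (f := indFun N (θ : N → ℂ))
      (Char.indFun_isClassFunction N (θ : N → ℂ))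
    have h2 := congrFun h1 1
    rw [Char.indFun_one_apply, Finset.sum_apply] at h2
    have h3 : ∀ χ : IrrCharacter G, (classInner (indFun N (θ : N → ℂ)) (χ : G → ℂ) •
        (χ : G → ℂ)) 1 = if (χ ∈ B ∧ ∀ n : N, (χ : G → ℂ) n = (θ : N → ℂ) n) then
          (θ : N → ℂ) 1 else 0 := by
      intro χ
      rw [Pi.smul_apply, hkey χ, smul_eq_mul]
      split_ifs with h
      · rw [one_mul]
        exact h.2 1
      · rw [zero_mul]
    rw [Finset.sum_congr rfl fun χ _ => h3 χ, ← Finset.sum_filter, Finset.sum_const,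
      nsmul_eq_mul] at h2
    have h4 := mul_right_cancel₀ (CharBase.irr_one_ne_zero θ.2) h2
    have h5 : N.index = (Finset.univ.filter fun χ : IrrCharacter G =>
        (χ ∈ B ∧ ∀ n : N, (χ : G → ℂ) n = (θ : N → ℂ) n)).card := by exact_mod_cast h4
    rw [h5, Nat.card_eq_fintype_card, Fintype.card_subtype]
  refine ⟨hNP, hDb, hres, hcount, ?_, ?_⟩
  · have h1 : Nat.card (Σ θ : b, {χ : Cfsg.IrrCharacter G // χ ∈ B ∧
        ∀ n : N, (χ : G → ℂ) n = ((θ : IrrCharacter N) : N → ℂ) n}) = N.index * Nat.card b := by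
      have := Fintype.ofFinite b
      rw [Nat.card_sigma, Finset.sum_congr rfl fun (θ : b) _ => hcount θ.1 θ.2, Finset.sum_const,
        Finset.card_univ, smul_eq_mul, Nat.card_eq_fintype_card, mul_comm]
    rw [← h1]
    symm
    refine Nat.card_congr (Equiv.ofBijective (fun x => ⟨x.2.1, x.2.2.1⟩) ⟨?_, ?_⟩)
    · rintro ⟨⟨θ, hθ⟩, ⟨χ, hχ⟩⟩ ⟨⟨θ', hθ'⟩, ⟨χ', hχ'⟩⟩ h
      have h2 : χ = χ' := congrArg Subtype.val h
      subst h2
      have h3 : θ = θ' := by
        apply Subtype.ext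
        funext n
        rw [← hχ.2 n, ← hχ'.2 n]
      subst h3
      rfl
    · rintro ⟨χ, hχ⟩
      obtain ⟨θ, hθ, h2⟩ := hres χ hχ
      exact ⟨⟨⟨θ, hθ⟩, ⟨χ, hχ, h2⟩⟩, rfl⟩
  · let E : (N → ℂ) →ₗ[ℂ] (G → ℂ) :=
      { toFun := fun f g => if h : g ∈ N then f ⟨g, h⟩ else 0
        map_add' := by
          intro f f'
          funext g
          simp only [Pi.add_apply]
          split_ifs <;> simp
        map_smul' := by
          intro c f
          funext g
          simp only [Pi.smul_apply, RingHom.id_apply]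
          split_ifs <;> simp }
    have hEinj : Function.Injective E := by
      intro f f' h
      funext n
      have := congrFun h (n : G)
      change (if h : (n : G) ∈ N then f ⟨n, h⟩ else 0) =
        (if h : (n : G) ∈ N then f' ⟨n, h⟩ else 0) at this
      rwa [dif_pos n.2, dif_pos n.2] at this
    have hEreg : ∀ (χ : IrrCharacter G) (θ : IrrCharacter N),
        (∀ n : N, (χ : G → ℂ) n = (θ : N → ℂ) n) →
        pRegularPart p (χ : G → ℂ) = E (pRegularPart p (θ : N → ℂ)) := by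
      intro χ θ h
      funext g
      change pRegularPart p (χ : G → ℂ) g =
        if h : g ∈ N then pRegularPart p (θ : N → ℂ) ⟨g, h⟩ else 0
      unfold pRegularPart IsPRegular
      by_cases hg : g ∈ N
      · rw [dif_pos hg]
        have h1 : orderOf (⟨g, hg⟩ : N) = orderOf g := by
          rw [← Subgroup.orderOf_coe]
        rw [h1, ← h ⟨g, hg⟩]
      · rw [dif_neg hg, if_neg]
        exact fun h1 => hg (hreg g h1)
    unfold blockRank
    have h1 : ((fun χ : IrrCharacter G => pRegularPart p (χ : G → ℂ)) '' B) =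
        E '' ((fun θ : IrrCharacter N => pRegularPart p (θ : N → ℂ)) '' b) := by
      ext f
      constructor
      · rintro ⟨χ, hχ, rfl⟩
        obtain ⟨θ, hθ, h2⟩ := hres χ hχ
        exact ⟨_, ⟨θ, hθ, rfl⟩, (hEreg χ θ h2).symm⟩
      · rintro ⟨_, ⟨θ, hθ, rfl⟩, rfl⟩
        have h2 : 0 < Nat.card {χ : Cfsg.IrrCharacter G // χ ∈ B ∧
            ∀ n : N, (χ : G → ℂ) n = (θ : N → ℂ) n} := by
          rw [hcount θ hθ]
          exact Nat.pos_of_ne_zero Subgroup.index_ne_zero_of_finite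
        obtain ⟨⟨χ, hχ, h3⟩⟩ := (Nat.card_pos_iff.1 h2).1
        exact ⟨χ, hχ, hEreg χ θ h3⟩
    rw [h1, ← Submodule.map_span]
    exact (LinearEquiv.finrank_eq (Submodule.equivMapOfInjective E hEinj _)).symm

end Cfsg.Agent.S4640
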