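import Cfsg.Statements.S4642
import Cfsg.Agent.Star.Constr
import Cfsg.Agent.H23.ExtLayer
import Cfsg.Agent.H31.Goldschmidt

set_option autoImplicit false
open Cfsg

namespace Cfsg.Agent.S4642

/-- Let G be a finite group, p a prime, M a maximal ideal of the algebraic integers containing p, K the largest normal subgroup of G of order prime to p, and L the preimage in G of the largest normal p-subgroup of G/K. Let Q be a Sylow p-subgroup of L and suppose C_G(Q) ≤ L. Let θ be an irreducible character of K invariant under conjugation by every element of G, and let B be the set of irreducible characters of G whose restriction to K contains θ. Then B is a block of G, every Sylow p-subgroup of G is a defect group of B, and B is of principal type: for every p-subgroup R of G exactly one block of C_G(R) induces B. -/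
theorem result {G : Type*} [Group G] [Fintype G] (p : ℕ) [Fact p.Prime] (M : Ideal Cfsg.AlgInt) (hM : Cfsg.IsPModular p M) (K : Subgroup G) (hK : K = Cfsg.pPrimeCore p G) [Fintype K] (L : Subgroup G) (hL : L = Cfsg.pPrimePCore p G) (Q : Subgroup G) (hQL : Q ≤ L) (hQp : IsPGroup p Q) (hQS : ¬ p ∣ Q.relIndex L) (hCQ : Subgroup.centralizer (Q : Set G) ≤ L) (θ : Cfsg.IrrCharacter K) (hθ : ∀ g : G, Cfsg.IsConjCharOf K g (θ : K → ℂ) (θ : K → ℂ)) (B : Set (Cfsg.IrrCharacter G)) (hBdef : ∀ χ : Cfsg.IrrCharacter G, χ ∈ B ↔ Cfsg.classInner (fun k : K => (χ : G → ℂ) k) (θ : K → ℂ) ≠ 0) : Cfsg.IsPBlock M B ∧ (∀ S : Sylow p G, Cfsg.IsDefectGroup p M B S) ∧ ∀ R : Subgroup G, IsPGroup p R → ∃! f : Set (Cfsg.IrrCharacter (Subgroup.centralizer (R : Set G))), Cfsg.IsInducedBlock M (Subgroup.centralizer (R : Set G)) f B := by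
  classical
  have hMp := Blk.isPrime_of_isPModular hM
  have := Blk.charP_kM hM
  have hKn : K.Normal := by rw [hK]; infer_instance
  have hLn : L.Normal := by rw [hL]; exact H23.pPrimePCore_normal p G
  have hKp : ¬ p ∣ Nat.card K := by
    have h1 := Solv.pPrimeCore_card_coprime (G := G) p
    rw [← hK] at h1
    exact (Nat.Prime.coprime_iff_not_dvd Fact.out).1 h1.symm
  have hKL : K ≤ L := by rw [hK, hL]; exact H31.pPrimeCore_le_pPrimePCore
  have hLp : ∃ m, K.relIndex L = p ^ m := by
    rw [hK, hL]; exact H23.relIndex_pPrimeCore_pPrimePCore p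
  have hinv : ∀ g : G, Char.cj K g (θ : K → ℂ) = θ := by
    intro g
    funext n
    rw [Char.cj_apply]
    exact hθ g n _ rfl
  have hCL : ∀ x : G, (∀ y ∈ L, x * y * x⁻¹ * y⁻¹ ∈ K) → x ∈ L := fun x hx =>
    Star.mem_of_centralizes_mod hKp hKL hQL hQp hQS hLp hCQ hx
  have hθb := H79.isPBlock_singleton hM hKp θ
  have he : Blk.IsBlk K (Blk.EB M K {θ}) := Blk.isBlk_EB hθb
  have hfix : Blk.Fixed ⊤ (Blk.EB M K {θ}) := H79.fixed_theta hinv
  have hbr : ∀ R : Subgroup G, IsPGroup p R →
      Blk.IsBlk (Subgroup.centralizer (R : Set G)) (Blk.br R (Blk.EB M K {θ})) := fun R hR =>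
    Star.isBlk_br_constrained hM hKp hKL hLp hCL he hfix hR
  have heT : Blk.IsBlk ⊤ (Blk.EB M K {θ}) := by
    have h1 := hbr ⊥ (IsPGroup.of_bot)
    rw [Blk.br_bot, Blk.centralizer_bot'] at h1
    exact h1
  obtain ⟨B', hB', hBe⟩ := Blk.exists_eB heT
  have hBB : B = B' := by
    ext χ
    rw [hBdef]
    have h1 := Blk.lam_eB hB' χ
    rw [hBe, H79.lam_theta hM hKp hinv χ] at h1
    by_cases h2 : χ ∈ B'
    · rw [if_pos h2] at h1
      simp only [h2, iff_true]
      intro h3
      rw [if_neg (not_not.2 h3)] at h1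
      exact zero_ne_one h1
    · rw [if_neg h2] at h1
      simp only [h2, iff_false, not_not]
      by_contra h3
      rw [if_pos h3] at h1
      exact one_ne_zero h1
  subst hBB
  refine ⟨hB', ?_, ?_⟩
  · intro S
    rw [Blk.isDefectGroup_iff hM hB']
    have hS : Blk.br (S : Subgroup G) (Blk.eB M B) ≠ 0 := by
      rw [hBe]; exact Star.br_ne_zero_pprime hM hKp he
    obtain ⟨D, hD⟩ := (Blk.isBlk_eB hB').exists_isDef p
    obtain ⟨D', hD', hSD⟩ := hD.exists_ge (Blk.fixed_eB B) le_top S.isPGroup' hS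
    rwa [S.is_maximal' hD'.isPGroup hSD] at hD'
  · intro R hR
    have h1 := hbr R hR
    obtain ⟨f, hf, hfe⟩ := Blk.exists_EB h1
    refine ⟨f, ?_, ?_⟩
    · change IsInducedBlock M _ f B
      rw [Star.isInducedBlock_iff_pair hM hR hf hB']
      refine ⟨⟨hR, Blk.isBlk_EB hf⟩, Blk.isBlk_eB hB', ?_⟩
      rw [hfe, hBe, h1.idem]
    · intro f' hf'
      have hf'b : IsPBlock M f' := hf'.1
      obtain ⟨-, -, h2⟩ := (Star.isInducedBlock_iff_pair hM hR hf'b hB').1 hf'
      apply Blk.EB_injective hf'b hf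
      have h3 := Blk.isBlk_EB (M := M) hf'b
      by_contra hne
      have h4 := (Blk.isBlk_EB (M := M) hf).mul_eq_zero_of_ne h3 (Ne.symm hne)
      rw [hfe, ← hBe, h2] at h4
      exact h3.ne_zero h4

end Cfsg.Agent.S4642
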