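import Cfsg.Statements.S4644
import Cfsg.Agent.H79.FixFin

set_option autoImplicit false
open Cfsg

namespace Cfsg.Agent.S4644

open Cfsg.Agent.Blk Cfsg.Agent.BlkC Cfsg.Agent.BlkF Cfsg.Agent.Star Cfsg.Agent.H79 Cfsg.Agent.BlkInd Cfsg.Agent.H4


/-- Let B be a block of the finite group G relative to a maximal ideal M of the algebraic integers containing the prime p, with a commutative defect group P; let c be a block of C_G(P) inducing B and T the stabilizer of c in N_G(P). Let u be an element of P fixed under conjugation by every element of T, H = C_G(u) (so C_G(P) ≤ H), and f the block of H induced by c inside H. Then B and f have the same p-regular rank and the same number of irreducible characters. -/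
theorem result {G : Type*} [Group G] [Finite G] (p : ℕ) [Fact p.Prime] (M : Ideal Cfsg.AlgInt) (hM : Cfsg.IsPModular p M) (B : Set (Cfsg.IrrCharacter G)) (hB : Cfsg.IsPBlock M B) (P : Subgroup G) (hPD : Cfsg.IsDefectGroup p M B P) (hPab : ∀ x ∈ P, ∀ y ∈ P, x * y = y * x) (c : Set (Cfsg.IrrCharacter (Subgroup.centralizer (P : Set G)))) (hc : Cfsg.IsInducedBlock M (Subgroup.centralizer (P : Set G)) c B) (T : Subgroup G) (hT : ∀ g : G, g ∈ T ↔ (g ∈ Subgroup.normalizer (P : Set G) ∧ Cfsg.StabilizesBlock (Subgroup.centralizer (P : Set G)) c g)) (u : G) (hu : u ∈ P) (huT : ∀ g ∈ T, g * u * g⁻¹ = u) (H : Subgroup G) (hH : H = Subgroup.centralizer ({u} : Set G)) (f : Set (Cfsg.IrrCharacter H)) (hf : Cfsg.IsInducedBlockIn M H (Subgroup.centralizer (P : Set G)) c f) : Cfsg.blockRank p B = Cfsg.blockRank p f ∧ Nat.card B = Nat.card f := by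
  classical
  haveI := isPrime_of_isPModular hM
  haveI := Fintype.ofFinite G
  haveI := charP_kM hM
  have hH' : H = Subgroup.centralizer (Subgroup.zpowers u : Set G) :=
    hH.trans (centralizer_zpowers_eq u).symm
  clear hH
  subst hH'
  obtain ⟨h1, h2, h3⟩ := mmax_of_isInducedBlock hM hB hPD hc
  have h4 : AbBlk p M B P (EB M _ c) := ⟨hB, h2, h1, hPab⟩
  have hTT := mem_T_iff (M := M) hc.1 hT
  have hfB : IsPBlock M f := hf.2.1
  have hf' : MLe p (Subgroup.zpowers u) (EB M _ f) P (EB M _ c) :=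
    (mle_iff_isInducedBlockIn hM hc.1 h2.1 hPab (Subgroup.zpowers_le.mpr hu) hfB).1 hf
  have hfix : ∀ t ∈ TT P (EB M _ c), t * u * t⁻¹ = u := fun t ht => huT t (by rw [hTT]; exact ht)
  have h5 := rk_fix hM h4 hu hfix hf'
  have h6 := nk_fix hM h4 hu hfix hf'
  rw [rk_EB hfB] at h5
  rw [nk_EB hfB] at h6
  exact ⟨h5.symm, h6.symm⟩

end Cfsg.Agent.S4644
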