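import Cfsg.Statements.S4645
import Cfsg.Agent.Star.NilApp
import Cfsg.Agent.Star.LocCyc

set_option autoImplicit false
open Cfsg

namespace Cfsg.Agent.S4645

/-- Let B be a block of the finite group G relative to a maximal ideal M of the algebraic integers containing the prime p, with a nontrivial cyclic defect group P; let c be a block of C_G(P) inducing B and T the stabilizer of c in N_G(P). Let Q be a nontrivial subgroup of P (so C_G(P) ≤ C_G(Q)), f the block of C_G(Q) induced by c inside C_G(Q), and T' the stabilizer of f in N_G(Q). Then T' = T·C_G(Q), the index of C_G(Q) in T' equals the index of C_G(P) in T, f has p-regular rank 1, and f is a nilpotent block of C_G(Q). -/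
theorem result {G : Type*} [Group G] [Finite G] (p : ℕ) [Fact p.Prime] (M : Ideal Cfsg.AlgInt) (hM : Cfsg.IsPModular p M) (B : Set (Cfsg.IrrCharacter G)) (hB : Cfsg.IsPBlock M B) (P : Subgroup G) (hPD : Cfsg.IsDefectGroup p M B P) (hP1 : P ≠ ⊥) (hcyc : IsCyclic P) (c : Set (Cfsg.IrrCharacter (Subgroup.centralizer (P : Set G)))) (hc : Cfsg.IsInducedBlock M (Subgroup.centralizer (P : Set G)) c B) (T : Subgroup G) (hT : ∀ g : G, g ∈ T ↔ (g ∈ Subgroup.normalizer (P : Set G) ∧ Cfsg.StabilizesBlock (Subgroup.centralizer (P : Set G)) c g)) (Q : Subgroup G) (hQP : Q ≤ P) (hQ1 : Q ≠ ⊥) (f : Set (Cfsg.IrrCharacter (Subgroup.centralizer (Q : Set G)))) (hf : Cfsg.IsInducedBlockIn M (Subgroup.centralizer (Q : Set G)) (Subgroup.centralizer (P : Set G)) c f) (T' : Subgroup G) (hT' : ∀ g : G, g ∈ T' ↔ (g ∈ Subgroup.normalizer (Q : Set G) ∧ Cfsg.StabilizesBlock (Subgroup.centralizer (Q : Set G)) f g)) : T' = T ⊔ Subgroup.centralizer (Q : Set G) ∧ (Subgroup.centralizer (Q : Set G)).relIndex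 T' = (Subgroup.centralizer (P : Set G)).relIndex T ∧ Cfsg.blockRank p f = 1 ∧ Cfsg.IsNilpotentBlock p M f := by
  classical
  have := Fintype.ofFinite G
  have hMp := Blk.isPrime_of_isPModular hM
  have := Blk.charP_kM hM
  obtain ⟨h1, h2, h3⟩ := Star.mmax_of_isInducedBlock hM hB hPD hc
  obtain rfl := Star.mem_T_iff hc.1 hT
  obtain rfl := Star.mem_T_iff hf.2.1 hT'
  have hab := Star.comm_of_isCyclic hcyc
  have hnd := Star.not_dvd_inertial h2 hab
  have hle := (Star.mle_iff_isInducedBlockIn hM hc.1 h2.1 hab hQP hf.2.1).1 hf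
  obtain ⟨a, ha⟩ := IsPGroup.iff_card.1 h2.1.isPGroup
  have := Fintype.ofFinite (Subgroup.centralizer (Q : Set G))
  have hfree : ∀ g ∈ Blk.stab (Subgroup.normalizer (P : Set G)) (Blk.EB M _ c),
      g ∈ Subgroup.centralizer (Q : Set G) → g ∈ Subgroup.centralizer (P : Set G) := by
    intro g hg hgQ
    obtain ⟨⟨x, hx⟩, hx1⟩ := (Subgroup.ne_bot_iff_exists_ne_one (H := Q)).1 hQ1
    refine Star.centralizes_of_fix Fact.out hcyc ha (Blk.stab_le _ _) hnd hg (hQP hx)
      (fun h0 => hx1 (Subtype.ext h0)) ?_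
    have := Subgroup.mem_centralizer_iff.1 hgQ x hx
    rw [← this]; group
  have hnil : IsNilpotentBlock p M f := by
    rw [BlkF.isNilpotentBlock_iff hM]
    refine ⟨hf.2.1, ?_⟩
    rw [← Star.res_EB, Star.mnilp_res_iff h2 hab hle]
    exact hfree
  have hPC := BlkF.le_centralizer_of_comm hab hQP
  have hsub : Blk.stab (Subgroup.normalizer (P : Set G)) (Blk.EB M _ c) ≤
      Blk.stab (Subgroup.normalizer (Q : Set G)) (Blk.EB M _ f) := by
    intro g hg
    refine BlkF.stab_inf_normalizer_le h2.1 hle ⟨hg, ?_⟩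
    exact Star.normalizer_le_of_isCyclic hcyc hQP hg.1
  have hfac := fun x hx => BlkF.stab_factor_of_comm h2 hab hle (x := x) hx
  refine ⟨?_, ?_, ?_, hnil⟩
  · apply le_antisymm
    · intro x hx
      obtain ⟨y, hy, z, hz, rfl⟩ := hfac x hx
      exact Subgroup.mul_mem_sup hy hz
    · exact sup_le hsub (Blk.centralizer_le_stab (hle.left_pair h2.1).blk)
  · rw [BlkF.relIndex_eq_of_mul hsub hfac]
    apply Star.relIndex_congr
    intro g hg
    exact ⟨hfree g hg, fun h => Blk.centralizer_le_of_le hQP h⟩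
  · have := Star.good_of_mnilp hM _ rfl hf.2.1 ((BlkF.isNilpotentBlock_iff hM).1 hnil).2
    exact Star.blockRank_of_good this

end Cfsg.Agent.S4645
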