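import Cfsg.Statements.S4647
import Cfsg.Agent.Star.PP2
import Cfsg.Agent.H64.Basic

set_option autoImplicit false
open Cfsg

open Cfsg.Agent

namespace Cfsg.Agent.S4647

/-- Let B be a block of the finite group G relative to a maximal ideal M of the algebraic integers containing the prime p, p^a the p-part of the order of G and p^d the order of a defect group D of B. If Σ_{χ ∈ B} χ(1)² = p^(2a−d) (the least possible value), then B is nilpotent. -/
theorem result {G : Type*} [Group G] [Finite G] (p : ℕ) [Fact p.Prime] (M : Ideal Cfsg.AlgInt) (hM : Cfsg.IsPModular p M) (B : Set (Cfsg.IrrCharacter G)) (hB : Cfsg.IsPBlock M B) (D : Subgroup G) (hD : Cfsg.IsDefectGroup p M B D) (a d : ℕ) (ha : (Nat.card G).factorization p = a) (hd : Nat.card D = p ^ d) (hmin : ∑ᶠ χ ∈ B, Cfsg.charDegree (χ : G → ℂ) ^ 2 = p ^ (2 * a - d)) : Cfsg.IsNilpotentBlock p M B := by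
  classical
  have := Fintype.ofFinite G
  have hMp := Blk.isPrime_of_isPModular hM
  have := Blk.charP_kM hM
  have hdef := (Blk.isDefectGroup_iff hM hB D).1 hD
  have hb := Blk.isBlk_eB hB
  obtain ⟨P, hDP⟩ := hdef.isPGroup.exists_le_sylow
  have hcard : Nat.card (P : Subgroup G) = p ^ a := by rw [← ha]; exact P.card_eq_multiplicity
  have hda : d ≤ a := by
    have h1 := Subgroup.card_dvd_of_le hDP
    rw [hd, hcard] at h1
    exact (Nat.pow_dvd_pow_iff_le_right hM.1.one_lt).1 h1
  rw [BlkC.finsum_mem_eq_Bfin] at hmin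
  refine (BlkF.isNilpotentBlock_iff hM).2 ⟨hB, fun Q f hf x hx hxp => ?_⟩
  have hbr : Blk.br Q (Blk.eB M B) ≠ 0 := by
    intro h
    have h1 := hf.2.2
    rw [h, zero_mul] at h1
    exact hf.1.blk.ne_zero h1.symm
  obtain ⟨S, hS⟩ := hf.1.isPGroup.exists_le_sylow
  obtain ⟨v, hv⟩ := H64.exists_sylow_conj_le S (P : Subgroup G) P.not_dvd_index
  rw [← BlkF.mem_centralizer_cj v]
  have hx' := BlkF.mem_stab_cj hx v
  refine Star.nilp_of_min hM hB hdef P.2 hcard hd hDP hmin hda (hf.1.isPGroup.map _)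
    ((Subgroup.map_mono hS).trans hv) ?_ hx'.1 (by rwa [BlkF.orderOf_conj'])
  have h2 : Blk.cj v (Blk.br Q (Blk.eB M B)) ≠ 0 := by
    intro h
    apply hbr
    apply Blk.cj_injective v
    rw [h, Blk.cj_zero]
  rw [Blk.cj_br, hb.fixed v (Subgroup.mem_top v)] at h2
  exact h2

end Cfsg.Agent.S4647
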