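import Cfsg.Statements.S4649
import Cfsg.Agent.Cyc.General
-- import your own Cfsg.Agent.* helpers here

set_option autoImplicit false
open Cfsg

namespace Cfsg.Agent.S4649

/-- A block with cyclic defect group, of a finite group relative to a maximal ideal M of the algebraic integers containing the prime p, is nilpotent if and only if its p-regular rank is 1 (it has a unique irreducible Brauer character). -/
theorem result {G : Type*} [Group G] [Finite G] (p : ℕ) [Fact p.Prime] (M : Ideal Cfsg.AlgInt) (hM : Cfsg.IsPModular p M) (B : Set (Cfsg.IrrCharacter G)) (hB : Cfsg.IsPBlock M B) (P : Subgroup G) (hPD : Cfsg.IsDefectGroup p M B P) (hcyc : IsCyclic P) : Cfsg.IsNilpotentBlock p M B ↔ Cfsg.blockRank p B = 1 := by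
  classical
  haveI := Fintype.ofFinite G
  have hMp := Blk.isPrime_of_isPModular hM
  haveI := Blk.charP_kM hM
  have hab := Star.comm_of_isCyclic hcyc
  have hdef := (Blk.isDefectGroup_iff hM hB P).1 hPD
  obtain ⟨e, he, hb⟩ := Star.exists_mmax_on hM hB hdef
  rw [BlkF.isNilpotentBlock_iff hM, and_iff_right hB,
    BlkF.mnilp_iff_of_comm he hb hab (fun K f hf => BlkF.splitBlk hf)]
  by_cases hbot : P = ⊥
  · subst hbot
    have h1 := CycG.blockRank_eq_one hM hB hPD bot_le
    simp only [h1, iff_true]
    intro x _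
    rw [Subgroup.mem_centralizer_iff]
    intro y hy
    have hy' : y = 1 := hy
    rw [hy', one_mul, mul_one]
  · obtain ⟨c, hc, rfl⟩ := Blk.exists_EB he.1.blk
    have hind := (Star.isInducedBlock_iff_pair hM he.1.isPGroup hc hB).2 hb
    obtain ⟨a, ha⟩ := he.1.isPGroup.exists_card_eq
    have ha1 : 1 ≤ a := by
      by_contra h
      have h0 : a = 0 := by omega
      rw [h0, pow_zero] at ha
      exact hbot ((Subgroup.card_eq_one).1 ha)
    obtain ⟨D₁, f, χ₁, hd, hcard, hidx, hrank, -⟩ := Cyc.exists_data hM hB hcyc ha1 ha hPD hind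
    haveI : Fintype (Subgroup.centralizer (D₁ : Set G)) := Fintype.ofFinite _
    obtain ⟨ψ0, -⟩ := Blk.isPBlock_nonempty hB
    have hne : ∃ χ ∈ f, χ ≠ χ₁ := by
      by_contra hcon
      push_neg at hcon
      have h1 : f ⊆ {χ₁} := fun χ hχ => hcon χ hχ
      have h2 : Nat.card f ≤ 1 := by
        rw [Nat.card_coe_set_eq]
        exact (Set.ncard_le_ncard h1).trans (Set.ncard_singleton _).le
      rw [hcard, ha] at h2
      have h3 : p ≤ p ^ a := Nat.le_self_pow (by omega) p
      have h4 := (Fact.out : p.Prime).one_lt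
      omega
    obtain ⟨θ, ε, δ, hout, -⟩ := hd.main hM (by rw [hidx]; exact hrank) hne ψ0
    rw [hout.rank, hidx, Subgroup.relIndex_eq_one]
    rfl

end Cfsg.Agent.S4649
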