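import Cfsg.Statements.S4650
import Cfsg.Agent.Star.Loc

set_option autoImplicit false
open Cfsg

namespace Cfsg.Agent.S4650

/-- Let B be a block of the finite group G relative to a maximal ideal M of the algebraic integers containing the prime p, with a nontrivial commutative defect group P; let c be a block of C_G(P) inducing B and T the stabilizer of c in N_G(P). Then T/C_G(P) acts freely on the non-identity elements of P (an element of T fixing a non-identity element of P under conjugation lies in C_G(P)) if and only if, for every nontrivial subgroup Q of P, the block of C_G(Q) induced by c inside C_G(Q) is a nilpotent block of C_G(Q). -/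
theorem result {G : Type*} [Group G] [Finite G] (p : ℕ) [Fact p.Prime] (M : Ideal Cfsg.AlgInt) (hM : Cfsg.IsPModular p M) (B : Set (Cfsg.IrrCharacter G)) (hB : Cfsg.IsPBlock M B) (P : Subgroup G) (hPD : Cfsg.IsDefectGroup p M B P) (hPab : ∀ x ∈ P, ∀ y ∈ P, x * y = y * x) (hP1 : P ≠ ⊥) (c : Set (Cfsg.IrrCharacter (Subgroup.centralizer (P : Set G)))) (hc : Cfsg.IsInducedBlock M (Subgroup.centralizer (P : Set G)) c B) (T : Subgroup G) (hT : ∀ g : G, g ∈ T ↔ (g ∈ Subgroup.normalizer (P : Set G) ∧ Cfsg.StabilizesBlock (Subgroup.centralizer (P : Set G)) c g)) : (∀ g ∈ T, ∀ x ∈ P, x ≠ 1 → g * x * g⁻¹ = x → g ∈ Subgroup.centralizer (P : Set G)) ↔ ∀ Q : Subgroup G, Q ≤ P → Q ≠ ⊥ → ∀ f : Set (Cfsg.IrrCharacter (Subgroup.centralizer (Q : Set G))), Cfsg.IsInducedBlockIn M (Subgroup.centralizer (Q : Set G)) (Subgroup.centralizer (P : Set G)) c f → Cfsg.IsNilpotentBlock p M f := by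
  classical
  have := Fintype.ofFinite G
  have hMp := Blk.isPrime_of_isPModular hM
  have := Blk.charP_kM hM
  obtain ⟨h1, h2, h3⟩ := Star.mmax_of_isInducedBlock hM hB hPD hc
  obtain rfl := Star.mem_T_iff hc.1 hT
  constructor
  · intro h Q hQP hQ1 f hf
    have hle := (Star.mle_iff_isInducedBlockIn hM hc.1 h2.1 hPab hQP hf.2.1).1 hf
    have := Fintype.ofFinite (Subgroup.centralizer (Q : Set G))
    rw [BlkF.isNilpotentBlock_iff hM]
    refine ⟨hf.2.1, ?_⟩
    rw [← Star.res_EB, Star.mnilp_res_iff h2 hPab hle]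
    intro g hg hgQ
    obtain ⟨⟨x, hx⟩, hx1⟩ := (Subgroup.ne_bot_iff_exists_ne_one (H := Q)).1 hQ1
    refine h g hg x (hQP hx) (fun h0 => hx1 (Subtype.ext h0)) ?_
    have := Subgroup.mem_centralizer_iff.1 hgQ x hx
    rw [← this]; group
  · intro h g hg x hx hx1 hgx
    have hQP : Subgroup.zpowers x ≤ P := by rwa [Subgroup.zpowers_le]
    obtain ⟨f0, hf0, hle⟩ := Blk.exists_mle h2.1 (Subgroup.zpowers x) hQP
    obtain ⟨f, hf, rfl⟩ := Blk.exists_EB hf0.blk
    have h4 := h (Subgroup.zpowers x) hQP (by rwa [Ne, Subgroup.zpowers_eq_bot]) f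
      ((Star.mle_iff_isInducedBlockIn hM hc.1 h2.1 hPab hQP hf).2 hle)
    have := Fintype.ofFinite (Subgroup.centralizer ((Subgroup.zpowers x : Subgroup G) : Set G))
    rw [BlkF.isNilpotentBlock_iff hM, ← Star.res_EB, Star.mnilp_res_iff h2 hPab hle] at h4
    refine h4.2 g hg ?_
    rw [Subgroup.mem_centralizer_iff]
    intro y hy
    obtain ⟨i, rfl⟩ := Subgroup.mem_zpowers_iff.1 hy
    have h5 : Commute g x := by
      have : g * x = x * g := by
        calc g * x = g * x * g⁻¹ * g := by group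
          _ = x * g := by rw [hgx]
      exact this
    exact (h5.zpow_right i).symm.eq

end Cfsg.Agent.S4650
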