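import Cfsg.Statements.S4651
import Cfsg.Agent.BlkC.ChainSum

set_option autoImplicit false
open Cfsg

namespace Cfsg.Agent.S4651

/-- An alternating-sum identity over chains of p-subgroups (the character-count form behind the chain reformulation of Alperin's weight conjecture, which holds unconditionally for the difference k − l). Let b be a block of the finite group G relative to a maximal ideal M of the algebraic integers containing the prime p. Consider the nonempty chains s = {Q_0 < Q_1 < ⋯ < Q_m} of nontrivial p-subgroups of G in which every member is normal in the largest member; let N_G(s) be the intersection of the normalizers of the members (the stabilizer of the chain), and let b_s be the set of irreducible characters of N_G(s) lying in blocks of N_G(s) that induce b. Then #G · (k(b) − l(b)) equals the sum over all such chains s of (−1)^m · #N_G(s) · (k(b_s) − l(b_s)), where k counts irreducible characters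 and l is the p-regular rank; equivalently, k(b) − l(b) is the alternating sum of k(b_s) − l(b_s) over representatives of the conjugacy classes of such chains. -/
theorem result {G : Type*} [Group G] [Finite G] (p : ℕ) [Fact p.Prime] (M : Ideal Cfsg.AlgInt) (hM : Cfsg.IsPModular p M) (b : Set (Cfsg.IrrCharacter G)) (hb : Cfsg.IsPBlock M b) : (Nat.card G : ℤ) * ((Nat.card b : ℤ) - (Cfsg.blockRank p b : ℤ)) = ∑ᶠ s ∈ {s : Finset (Subgroup G) | s.Nonempty ∧ (∀ Q ∈ s, ∀ R ∈ s, Q ≤ R ∨ R ≤ Q) ∧ (∀ Q ∈ s, Q ≠ ⊥ ∧ IsPGroup p Q) ∧ ∃ T ∈ s, ∀ Q ∈ s, Q ≤ T ∧ T ≤ Subgroup.normalizer ((Q : Subgroup G) : Set G)}, (-1 : ℤ) ^ (s.card - 1) * (Nat.card (((⨅ Q ∈ s, Subgroup.normalizer ((Q : Subgroup G) : Set G) : Subgroup G))) : ℤ) * ((Nat.card {ψ : Cfsg.IrrCharacter (((⨅ Q ∈ s, Subgroup.normalizer ((Q : Subgroup G) : Set G) : Subgroup G))) | ∃ β : Set (Cfsg.IrrCharacter (((⨅ Q ∈ s, Subgroup.normalizer ((Q : Subgroup G) : Set G) : Subgroup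 G)))), ψ ∈ β ∧ Cfsg.IsInducedBlock M (((⨅ Q ∈ s, Subgroup.normalizer ((Q : Subgroup G) : Set G) : Subgroup G))) β b} : ℤ) - (Cfsg.blockRank p {ψ : Cfsg.IrrCharacter (((⨅ Q ∈ s, Subgroup.normalizer ((Q : Subgroup G) : Set G) : Subgroup G))) | ∃ β : Set (Cfsg.IrrCharacter (((⨅ Q ∈ s, Subgroup.normalizer ((Q : Subgroup G) : Set G) : Subgroup G)))), ψ ∈ β ∧ Cfsg.IsInducedBlock M (((⨅ Q ∈ s, Subgroup.normalizer ((Q : Subgroup G) : Set G) : Subgroup G))) β b} : ℤ)) := by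
  classical
  have := Fintype.ofFinite G
  have hMp := Blk.isPrime_of_isPModular hM
  have h0 := BlkC.sum_DD_eq_zero hM b
  set 𝒮 := (Finset.univ : Finset (Finset (Subgroup G))).filter (fun σ => BlkC.Chain.IsNC p σ)
    with h𝒮
  have hemp : (∅ : Finset (Subgroup G)) ∈ 𝒮 := by
    rw [h𝒮, Finset.mem_filter]
    exact ⟨Finset.mem_univ _, by constructor <;> simp⟩
  rw [← Finset.add_sum_erase 𝒮 _ hemp] at h0
  have hNSe : BlkC.Chain.NS (∅ : Finset (Subgroup G)) = ⊤ := by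
    rw [eq_top_iff]; intro g _; rw [BlkC.Chain.mem_NS]; simp
  rw [hNSe, ← BlkC.card_mul_eq_DD_top hM b hb, Finset.card_empty, pow_zero, one_mul] at h0
  have h1 : ((((Nat.card G : ℤ) * ((Nat.card b : ℤ) - (Cfsg.blockRank p b : ℤ))) : ℤ) : ℂ) =
      ∑ σ ∈ 𝒮.erase ∅, (-1 : ℂ) ^ (σ.card - 1) * BlkC.DD p M b (BlkC.Chain.NS σ) := by
    push_cast
    have h2 : ∑ σ ∈ 𝒮.erase ∅, (-1 : ℂ) ^ σ.card * BlkC.DD p M b (BlkC.Chain.NS σ) =
        - ∑ σ ∈ 𝒮.erase ∅, (-1 : ℂ) ^ (σ.card - 1) * BlkC.DD p M b (BlkC.Chain.NS σ) := by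
      rw [← Finset.sum_neg_distrib]
      refine Finset.sum_congr rfl fun σ hσ => ?_
      have hne : σ ≠ ∅ := (Finset.mem_erase.mp hσ).1
      have hc : σ.card = (σ.card - 1) + 1 := by
        have := Finset.card_pos.mpr (Finset.nonempty_iff_ne_empty.mpr hne)
        omega
      nth_rewrite 1 [hc]
      rw [pow_succ]; ring
    rw [h2] at h0
    linear_combination h0
  have h3 : (((∑ᶠ s ∈ {s : Finset (Subgroup G) | s.Nonempty ∧ (∀ Q ∈ s, ∀ R ∈ s, Q ≤ R ∨ R ≤ Q) ∧ (∀ Q ∈ s, Q ≠ ⊥ ∧ IsPGroup p Q) ∧ ∃ T ∈ s, ∀ Q ∈ s, Q ≤ T ∧ T ≤ Subgroup.normalizer ((Q : Subgroup G) : Set G)}, (-1 : ℤ) ^ (s.card - 1) * (Nat.card (((⨅ Q ∈ s, Subgroup.normalizer ((Q : Subgroup G) : Set G) : Subgroup G))) : ℤ) * ((Nat.card {ψ : Cfsg.IrrCharacter (((⨅ Q ∈ s, Subgroup.normalizer ((Q : Subgroup G) : Set G) : Subgroup G))) | ∃ β : Set (Cfsg.IrrCharacter (((⨅ Q ∈ s, Subgroup.normalizer ((Q : Subgroup G) : Set G) : Subgroup G)))), ψ ∈ β ∧ Cfsg.IsInducedBlock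 M (((⨅ Q ∈ s, Subgroup.normalizer ((Q : Subgroup G) : Set G) : Subgroup G))) β b} : ℤ) - (Cfsg.blockRank p {ψ : Cfsg.IrrCharacter (((⨅ Q ∈ s, Subgroup.normalizer ((Q : Subgroup G) : Set G) : Subgroup G))) | ∃ β : Set (Cfsg.IrrCharacter (((⨅ Q ∈ s, Subgroup.normalizer ((Q : Subgroup G) : Set G) : Subgroup G)))), ψ ∈ β ∧ Cfsg.IsInducedBlock M (((⨅ Q ∈ s, Subgroup.normalizer ((Q : Subgroup G) : Set G) : Subgroup G))) β b} : ℤ))) : ℤ) : ℂ) =
      ∑ σ ∈ 𝒮.erase ∅, (-1 : ℂ) ^ (σ.card - 1) * BlkC.DD p M b (BlkC.Chain.NS σ) := by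
    rw [finsum_mem_eq_finite_toFinset_sum _ (Set.toFinite _)]
    push_cast
    refine Finset.sum_congr ?_ fun σ _ => ?_
    · ext σ
      rw [Set.Finite.mem_toFinset, Set.mem_setOf_eq, Finset.mem_erase, h𝒮, Finset.mem_filter]
      constructor
      · rintro ⟨e1, e2⟩
        exact ⟨Finset.nonempty_iff_ne_empty.mp e1, Finset.mem_univ _, (BlkC.isNC_iff e1).2 e2⟩
      · rintro ⟨e1, -, e2⟩
        have e3 := Finset.nonempty_iff_ne_empty.mpr e1
        exact ⟨e3, (BlkC.isNC_iff e3).1 e2⟩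
    · haveI := Fintype.ofFinite (BlkC.Chain.NS σ)
      have h4 := BlkC.card_mul_eq_DD hM b (BlkC.Chain.NS σ)
      rw [BlkC.inb_subtype b hb] at h4
      rw [← h4, mul_assoc]
      rfl
  have h5 := h1.trans h3.symm
  exact_mod_cast h5

end Cfsg.Agent.S4651
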