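import Cfsg.Statements.S4655
import Cfsg.Agent.Blk.Dict

set_option autoImplicit false
open Cfsg

open Cfsg.Agent.Blk Cfsg.Agent.CharBase

namespace Cfsg.Agent.S4655

/-- Fix a prime p and a maximal ideal M of the algebraic integers containing p. Let (P, e) be a Brauer pair of the finite group G (P a p-subgroup, e a p-block of C_G(P)) and Q a subgroup of P. Then there is exactly one p-block f of C_G(Q) such that the Brauer pair (Q, f) lies below (P, e). -/
theorem result {G : Type*} [Group G] [Fintype G] (p : ℕ) [Fact p.Prime] (M : Ideal Cfsg.AlgInt) (hM : Cfsg.IsPModular p M) (P Q : Subgroup G) (e : Set (Cfsg.IrrCharacter (Subgroup.centralizer (P : Set G)))) (hPe : Cfsg.IsBrauerPair p M P e) (hQP : Q ≤ P) : ∃! f : Set (Cfsg.IrrCharacter (Subgroup.centralizer (Q : Set G))), Cfsg.IsPBlock M f ∧ Cfsg.SubpairLE p M Q f P e := by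
  have := isPrime_of_isPModular hM
  have := charP_kM hM
  obtain ⟨hP, he⟩ := hPe
  obtain ⟨f0, hf0, hf0'⟩ := existsUnique_mle (p := p) (⟨hP, isBlk_EB he⟩ : MPair p P (EB M _ e)) hQP
  obtain ⟨f, hf, rfl⟩ := exists_EB (hf0.left_pair ⟨hP, isBlk_EB he⟩).blk
  refine ⟨f, ⟨hf, (subpairLE_iff hM hf he).2 hf0⟩, ?_⟩
  rintro f' ⟨hf', h'⟩
  exact EB_injective hf' hf (hf0' _ ((subpairLE_iff hM hf' he).1 h'))

end Cfsg.Agent.S4655
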