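import Cfsg.Statements.S4656
import Cfsg.Agent.Blk.Dict

set_option autoImplicit false
open Cfsg

open Cfsg.Agent.Blk Cfsg.Agent.CharBase

namespace Cfsg.Agent.S4656

/-- Fix a prime p and a maximal ideal M of the algebraic integers containing p. Let (P, e) be a Brauer pair of the finite group G and Q a normal subgroup of P. Then there is exactly one p-block f of C_G(Q) that is stable under conjugation by P and such that e occurs in the Brauer-map image at P of the idempotent of f; that is, exactly one f with (Q, f) normally below (P, e). -/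
theorem result {G : Type*} [Group G] [Fintype G] (p : ℕ) [Fact p.Prime] (M : Ideal Cfsg.AlgInt) (hM : Cfsg.IsPModular p M) (P Q : Subgroup G) (e : Set (Cfsg.IrrCharacter (Subgroup.centralizer (P : Set G)))) (hPe : Cfsg.IsBrauerPair p M P e) (hQP : Q ≤ P) (hPN : P ≤ Subgroup.normalizer (Q : Set G)) : ∃! f : Set (Cfsg.IrrCharacter (Subgroup.centralizer (Q : Set G))), Cfsg.IsNormalSubpair p M Q f P e := by
  have := isPrime_of_isPModular hM
  have := charP_kM hM
  obtain ⟨hP, he⟩ := hPe
  obtain ⟨f0, hf0, hf0'⟩ := existsUnique_norm (p := p)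
    (⟨hP, isBlk_EB he⟩ : MPair p P (EB M _ e)) hQP hPN
  obtain ⟨f, hf, rfl⟩ := exists_EB hf0.left.blk
  refine ⟨f, (isNormalSubpair_iff hM hf he).2 hf0, ?_⟩
  intro f' h'
  exact EB_injective h'.1.2 hf (hf0' _ ((isNormalSubpair_iff hM h'.1.2 he).1 h'))

end Cfsg.Agent.S4656
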