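import Cfsg.Statements.S4660
import Cfsg.Agent.Blk.Dict

set_option autoImplicit false
open Cfsg

open Cfsg.Agent.Blk Cfsg.Agent.CharBase

namespace Cfsg.Agent.S4660

/-- Fix a prime p and a maximal ideal M of the algebraic integers containing p. Let (P, e) be a maximal Brauer pair of the p-block B of the finite group G and (Q, f) any Brauer pair of B. Then some conjugate of (Q, f) lies below (P, e): there is x in G such that (x Q x⁻¹, conjugate of f by x) ≤ (P, e). -/
theorem result {G : Type*} [Group G] [Fintype G] (p : ℕ) [Fact p.Prime] (M : Ideal Cfsg.AlgInt) (hM : Cfsg.IsPModular p M) (B : Set (Cfsg.IrrCharacter G)) (P Q : Subgroup G) (e : Set (Cfsg.IrrCharacter (Subgroup.centralizer (P : Set G)))) (f : Set (Cfsg.IrrCharacter (Subgroup.centralizer (Q : Set G)))) (hmax : Cfsg.IsMaximalBrauerPair p M B P e) (hQf : Cfsg.IsBrauerPairOf p M B Q f) : ∃ x : G, Cfsg.SubpairLE p M (Q.map (MulAut.conj x).toMonoidHom) (Cfsg.conjBlock Q x f) P e := by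
  have := isPrime_of_isPModular hM
  have := charP_kM hM
  obtain ⟨hB, he, hof, hmx⟩ := (isMaximalBrauerPair_iff hM).1 hmax
  have hf := hQf.1.2
  obtain ⟨x, hx⟩ := hmx.exists_conj_le hof ((isBrauerPairOf_iff hM hB hf).1 hQf)
  refine ⟨x, ?_⟩
  rw [subpairLE_iff hM (isPBlock_conjBlock Q x hf) he, EB_conjBlock]
  exact hx

end Cfsg.Agent.S4660
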