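import Cfsg.Statements.S4661
import Cfsg.Agent.Blk.Dict

set_option autoImplicit false
open Cfsg

open Cfsg.Agent.Blk Cfsg.Agent.CharBase

namespace Cfsg.Agent.S4661

/-- Fix a prime p and a maximal ideal M of the algebraic integers containing p. Let (P, e) be a maximal Brauer pair of the p-block B of the finite group G, Q ≤ P, and f the p-block of C_G(Q) with (Q, f) ≤ (P, e). Then C_P(Q) is contained in a defect group of f (as a block of the group C_G(Q)); and for some x in G the conjugate pair (x Q x⁻¹, conjugate of f) again lies below (P, e) and C_P(x Q x⁻¹) is a defect group of the conjugate of f in C_G(x Q x⁻¹). -/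
theorem result {G : Type*} [Group G] [Fintype G] (p : ℕ) [Fact p.Prime] (M : Ideal Cfsg.AlgInt) (hM : Cfsg.IsPModular p M) (B : Set (Cfsg.IrrCharacter G)) (P Q : Subgroup G) (e : Set (Cfsg.IrrCharacter (Subgroup.centralizer (P : Set G)))) (f : Set (Cfsg.IrrCharacter (Subgroup.centralizer (Q : Set G)))) (hmax : Cfsg.IsMaximalBrauerPair p M B P e) (hQP : Q ≤ P) (hf : Cfsg.IsPBlock M f) (hle : Cfsg.SubpairLE p M Q f P e) : (∃ D : Subgroup (Subgroup.centralizer (Q : Set G)), Cfsg.IsDefectGroup p M f D ∧ (P ⊓ Subgroup.centralizer (Q : Set G)).subgroupOf (Subgroup.centralizer (Q : Set G)) ≤ D) ∧ ∃ x : G, Cfsg.SubpairLE p M (Q.map (MulAut.conj x).toMonoidHom) (Cfsg.conjBlock Q x f) P e ∧ Cfsg.IsDefectGroup p M (Cfsg.conjBlock Q x f) ((P ⊓ Subgroup.centralizer ((Q.map (MulAut.conj x).toMonoidHom) : Set G)).subgroupOf (Subgroup.centralizer ((Q.map (MulAut.conj x).toMonoidHom) : Set G))) := by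
  have := isPrime_of_isPModular hM
  have := charP_kM hM
  obtain ⟨hB, he, hof, hmx⟩ := (isMaximalBrauerPair_iff hM).1 hmax
  obtain ⟨⟨D, hD, hD2⟩, u, hu, hu2⟩ := hmx.centralizer_defect ((subpairLE_iff hM hf he).1 hle)
  constructor
  · refine ⟨D.subgroupOf _, ?_, ?_⟩
    · rw [isDefectGroup_iff' hM hf, Subgroup.subgroupOf_map_subtype, inf_eq_left.2 hD.le]
      exact hD
    · intro x hx
      rw [Subgroup.mem_subgroupOf] at hx ⊢
      exact hD2 hx
  · refine ⟨u, ?_, ?_⟩
    · rw [subpairLE_iff hM (isPBlock_conjBlock Q u hf) he, EB_conjBlock]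
      exact hu
    · rw [isDefectGroup_iff' hM (isPBlock_conjBlock Q u hf), Subgroup.subgroupOf_map_subtype,
        inf_eq_left.2 inf_le_right, EB_conjBlock]
      exact hu2

end Cfsg.Agent.S4661
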