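import Cfsg.Statements.S4662
import Cfsg.Agent.Blk.Lift

set_option autoImplicit false
open Cfsg

open Cfsg.Agent.Blk Cfsg.Agent.CharBase

namespace Cfsg.Agent.S4662

/-- Fix a prime p and a maximal ideal M of the algebraic integers containing p. Let (P, e) be a maximal Brauer pair of the p-block B of the finite group G, Q ≤ P, and f the p-block of C_G(Q) with (Q, f) ≤ (P, e). Let T be the stabilizer of f in N_G(Q). Then the idempotent of f is a block idempotent of T, and N_P(Q) is contained in a defect group of that block of T; moreover for some x in G the conjugate pair (x Q x⁻¹, conjugate of f) again lies below (P, e) and, with T' the stabilizer of the conjugate of f in N_G(x Q x⁻¹), N_P(x Q x⁻¹) is a defect group of the block of T' whose idempotent is that of the conjugate of f. -/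
theorem result {G : Type*} [Group G] [Fintype G] (p : ℕ) [Fact p.Prime] (M : Ideal Cfsg.AlgInt) (hM : Cfsg.IsPModular p M) (B : Set (Cfsg.IrrCharacter G)) (P Q : Subgroup G) (e : Set (Cfsg.IrrCharacter (Subgroup.centralizer (P : Set G)))) (f : Set (Cfsg.IrrCharacter (Subgroup.centralizer (Q : Set G)))) (hmax : Cfsg.IsMaximalBrauerPair p M B P e) (hQP : Q ≤ P) (hf : Cfsg.IsPBlock M f) (hle : Cfsg.SubpairLE p M Q f P e) (T : Subgroup G) (hT : ∀ y : G, y ∈ T ↔ y ∈ Subgroup.normalizer (Q : Set G) ∧ Cfsg.StabilizesBlock (Subgroup.centralizer (Q : Set G)) f y) : (∃ F : Set (Cfsg.IrrCharacter T), Cfsg.IsPBlock M F ∧ (∀ t : T, Cfsg.blockCoeff F t = Cfsg.subgroupBlockCoeff (Subgroup.centralizer (Q : Set G)) f (t : G)) ∧ ∃ D : Subgroup T, Cfsg.IsDefectGroup p M F D ∧ (P ⊓ Subgroup.normalizer (Q : Set G)).subgroupOf T ≤ D) ∧ ∃ x : G, Cfsg.SubpairLE p M (Q.map (MulAut.conj x).toMonoidHom) (Cfsg.conjBlock Q x f) P e ∧ ∀ (T' : Subgroup G), (∀ y : G, y ∈ T' ↔ y ∈ Subgroup.normalizer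 ((Q.map (MulAut.conj x).toMonoidHom) : Set G) ∧ Cfsg.StabilizesBlock (Subgroup.centralizer ((Q.map (MulAut.conj x).toMonoidHom) : Set G)) (Cfsg.conjBlock Q x f) y) → ∃ F' : Set (Cfsg.IrrCharacter T'), Cfsg.IsPBlock M F' ∧ (∀ t : T', Cfsg.blockCoeff F' t = Cfsg.subgroupBlockCoeff (Subgroup.centralizer ((Q.map (MulAut.conj x).toMonoidHom) : Set G)) (Cfsg.conjBlock Q x f) (t : G)) ∧ Cfsg.IsDefectGroup p M F' ((P ⊓ Subgroup.normalizer ((Q.map (MulAut.conj x).toMonoidHom) : Set G)).subgroupOf T') := by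
  have := isPrime_of_isPModular hM
  have := charP_kM hM
  obtain ⟨hB, he, hof, hmx⟩ := (isMaximalBrauerPair_iff hM).1 hmax
  have hQp : IsPGroup p Q := hmx.1.isPGroup.to_le hQP
  obtain ⟨⟨D, hD, hD2⟩, u, hu, hu2⟩ := hmx.normalizer_defect ((subpairLE_iff hM hf he).1 hle)
  have key : ∀ (Q : Subgroup G) (_ : IsPGroup p Q)
      (f : Set (Cfsg.IrrCharacter (Subgroup.centralizer (Q : Set G)))) (_ : Cfsg.IsPBlock M f)
      (T : Subgroup G), (∀ y : G, y ∈ T ↔ y ∈ Subgroup.normalizer (Q : Set G) ∧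
        Cfsg.StabilizesBlock (Subgroup.centralizer (Q : Set G)) f y) →
      T = stab (Subgroup.normalizer (Q : Set G)) (EB M _ f) ∧
      ∃ F : Set (Cfsg.IrrCharacter T), Cfsg.IsPBlock M F ∧
        (∀ t : T, Cfsg.blockCoeff F t =
          Cfsg.subgroupBlockCoeff (Subgroup.centralizer (Q : Set G)) f (t : G)) ∧
        EB M T F = EB M _ f := by
    intro Q hQp f hf T hT
    have hTiff : T = stab (Subgroup.normalizer (Q : Set G)) (EB M _ f) := by
      ext y
      rw [hT, mem_stab, stabilizesBlock_iff hf]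
      exact ⟨fun h => ⟨h.1, h.2.2⟩,
        fun h => ⟨h.1, normalizer_le_normalizer_centralizer Q h.1, h.2⟩⟩
    refine ⟨hTiff, ?_⟩
    subst hTiff
    exact exists_block_stab hM hQp hf (le_stab (isBlk_EB hf)) (centralizer_le_stab (isBlk_EB hf))
      (stab_le _ _) (fixed_stab _ _)
  constructor
  · obtain ⟨hTe, F, hF, hF2, hF3⟩ := key Q hQp f hf T hT
    refine ⟨F, hF, hF2, D.subgroupOf T, ?_, ?_⟩
    · rw [isDefectGroup_iff' hM hF, Subgroup.subgroupOf_map_subtype, hF3, hTe,
        inf_eq_left.2 hD.le]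
      exact hD
    · intro x hx
      rw [Subgroup.mem_subgroupOf] at hx ⊢
      exact hD2 hx
  · refine ⟨u, ?_, ?_⟩
    · rw [subpairLE_iff hM (isPBlock_conjBlock Q u hf) he, EB_conjBlock]
      exact hu
    · intro T' hT'
      obtain ⟨hTe, F, hF, hF2, hF3⟩ := key _ (isPGroup_map_conj hQp u) _
        (isPBlock_conjBlock Q u hf) T' hT'
      refine ⟨F, hF, hF2, ?_⟩
      rw [isDefectGroup_iff' hM hF, Subgroup.subgroupOf_map_subtype, hF3]
      rw [EB_conjBlock] at hTe ⊢
      have h1 := hu2.le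
      rw [← hTe] at hu2 h1
      rw [inf_eq_left.2 h1]
      exact hu2

end Cfsg.Agent.S4662
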