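import Cfsg.Statements.S4663
import Cfsg.Agent.Blk.Prin

set_option autoImplicit false
open Cfsg

open Cfsg.Agent.Blk Cfsg.Agent.CharBase

namespace Cfsg.Agent.S4663

/-- Fix a prime p and a maximal ideal M of the algebraic integers containing p. Brauer's Third Main Theorem in the language of Brauer pairs: for the principal p-block B₀ of the finite group G and any p-subgroup Q, a p-block e of C_G(Q) makes (Q, e) a Brauer pair of B₀ if and only if e is the principal p-block of C_G(Q). Equivalently, modulo M the truncation to C_G(Q) of the idempotent of B₀ is the idempotent of the principal block of C_G(Q). -/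
theorem result {G : Type*} [Group G] [Fintype G] (p : ℕ) [Fact p.Prime] (M : Ideal Cfsg.AlgInt) (hM : Cfsg.IsPModular p M) (Q : Subgroup G) (hQ : IsPGroup p Q) (e : Set (Cfsg.IrrCharacter (Subgroup.centralizer (Q : Set G)))) (he : Cfsg.IsPBlock M e) : Cfsg.IsBrauerPairOf p M (Cfsg.principalBlock M G) Q e ↔ e = Cfsg.principalBlock M (Subgroup.centralizer (Q : Set G)) := by
  have hMp := isPrime_of_isPModular hM
  have := charP_kM hM
  have hB := isPBlock_principalBlock (M := M) (G := G)
  have hE := isBlk_EB he
  rw [isBrauerPairOf_iff hM hB he]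
  have h1 : MPairOf p (eB M (Cfsg.principalBlock M G)) Q (EB M _ e) ↔
      br Q (eB M (Cfsg.principalBlock M G)) * EB M _ e = EB M _ e :=
    ⟨fun h => h.2.2, fun h => ⟨⟨hQ, hE⟩, isBlk_eB hB, h⟩⟩
  rw [h1, third_main (isBlk_eB hB) (aug_eB_principalBlock) ⟨hQ, hE⟩]
  constructor
  · intro h
    refine EB_injective he isPBlock_principalBlock ?_
    exact prin_unique hE h (isBlk_EB isPBlock_principalBlock) aug_EB_principalBlock
  · rintro rfl
    exact aug_EB_principalBlock

end Cfsg.Agent.S4663
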