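import Cfsg.Statements.S4666
import Cfsg.Agent.BlkC.Contrib

set_option autoImplicit false
open Cfsg

open Cfsg.Agent.BlkC Cfsg.Agent.CharBase Cfsg.Agent.Blk

namespace Cfsg.Agent.S4666

/-- Fix a prime p and a maximal ideal M of the algebraic integers containing p, and a p-block B of the finite group G of defect d. For every integer combination χ of the irreducible characters in B, p^d times the function that agrees with χ on p-regular elements and vanishes elsewhere is again an integer combination of the irreducible characters in B. -/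
theorem result {G : Type*} [Group G] [Fintype G] (p : ℕ) [Fact p.Prime] (M : Ideal Cfsg.AlgInt) (hM : Cfsg.IsPModular p M) (B : Set (Cfsg.IrrCharacter G)) (hB : Cfsg.IsPBlock M B) (χ : G → ℂ) (hχ : (∃ n : Cfsg.IrrCharacter G → ℤ, ∀ g : G, χ g = ∑ᶠ ψ ∈ B, (n ψ : ℂ) * (ψ : G → ℂ) g)) : (∃ n : Cfsg.IrrCharacter G → ℤ, ∀ g : G, (p ^ Cfsg.blockDefect p B : ℂ) * Cfsg.pRegularPart p χ g = ∑ᶠ ψ ∈ B, (n ψ : ℂ) * (ψ : G → ℂ) g) := by
  classical
  have := isPrime_of_isPModular hM
  have := Fintype.ofFinite (Cfsg.IrrCharacter G)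
  obtain ⟨n, hn⟩ := hχ
  -- the case of an irreducible character
  have key : ∀ θ ∈ B, ∀ g : G, (p ^ Cfsg.blockDefect p B : ℂ) * Cfsg.pRegularPart p (θ : G → ℂ) g =
      ∑ ψ ∈ Bfin B, (contrib p B θ ψ : ℂ) * (ψ : G → ℂ) g := by
    intro θ hθ g
    have h1 := classFun_eq_sum (pRegularPart_isClassFunction (p := p) (irr_isClassFunction θ))
    have h2 := congrFun h1 g
    rw [Finset.sum_apply] at h2
    rw [h2, Finset.mul_sum, ← Finset.sum_subset (Finset.subset_univ (Bfin B))]
    · refine Finset.sum_congr rfl fun ψ _ => ?_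
      rw [Pi.smul_apply, smul_eq_mul, ← mul_assoc, ← regInner_eq_classInner, contrib_regInner hθ ψ]
    · intro ψ _ hψ
      rw [Pi.smul_apply, ← regInner_eq_classInner, regInner_eq_zero hM, zero_smul, mul_zero]
      intro h
      exact hψ (mem_Bfin.mpr (mem_of_sameBlock hB hθ h))
  refine ⟨fun ψ => ∑ θ ∈ Bfin B, n θ * contrib p B θ ψ, fun g => ?_⟩
  have hlin : Cfsg.pRegularPart p χ g = ∑ θ ∈ Bfin B, (n θ : ℂ) *
      Cfsg.pRegularPart p (θ : G → ℂ) g := by
    unfold Cfsg.pRegularPart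
    by_cases hg : Cfsg.IsPRegular p g
    · simp only [if_pos hg]
      rw [hn, finsum_mem_eq_Bfin]
    · simp only [if_neg hg, mul_zero, Finset.sum_const_zero]
  rw [hlin, finsum_mem_eq_Bfin, Finset.mul_sum]
  have h3 : ∀ θ ∈ Bfin B, (p ^ Cfsg.blockDefect p B : ℂ) * ((n θ : ℂ) *
      Cfsg.pRegularPart p (θ : G → ℂ) g) =
      ∑ ψ ∈ Bfin B, (n θ : ℂ) * ((contrib p B θ ψ : ℂ) * (ψ : G → ℂ) g) := by
    intro θ hθ
    rw [mul_left_comm, key θ (mem_Bfin.mp hθ) g, Finset.mul_sum]
  rw [Finset.sum_congr rfl h3, Finset.sum_comm]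
  refine Finset.sum_congr rfl fun ψ _ => ?_
  push_cast
  rw [Finset.sum_mul]
  exact Finset.sum_congr rfl fun θ _ => by ring

end Cfsg.Agent.S4666
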