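import Cfsg.Statements.S4667
import Cfsg.Agent.Blk.Orth2

set_option autoImplicit false
open Cfsg

namespace Cfsg.Agent.S4667

/-- Fix a prime p and a maximal ideal M of the algebraic integers containing p, and a p-block B of the finite group G. The p-regular rank of B (the number of irreducible Brauer characters in B) times the order of G equals the sum over the p-regular elements x of G of Σ_{χ ∈ B} χ(x) χ(x⁻¹) (written with the restriction of χ to p-regular elements, which vanishes at p-singular x). -/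
theorem result {G : Type*} [Group G] [Fintype G] (p : ℕ) [Fact p.Prime] (M : Ideal Cfsg.AlgInt) (hM : Cfsg.IsPModular p M) (B : Set (Cfsg.IrrCharacter G)) (hB : Cfsg.IsPBlock M B) : (Nat.card G : ℂ) * (Cfsg.blockRank p B : ℂ) = ∑ x : G, ∑ᶠ χ ∈ B, Cfsg.pRegularPart p (χ : G → ℂ) x * (χ : G → ℂ) x⁻¹ := by
  classical
  have hMp := hM.2.1.isPrime
  have := Fintype.ofFinite (Cfsg.IrrCharacter G)
  have hG : (Nat.card G : ℂ) ≠ 0 := by exact_mod_cast Nat.card_pos.ne'
  -- linearity of the p-regular part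
  have hreg_add : ∀ f f' : G → ℂ, Cfsg.pRegularPart p (f + f') =
      Cfsg.pRegularPart p f + Cfsg.pRegularPart p f' := by
    intro f f'; ext g
    simp only [Cfsg.pRegularPart, Pi.add_apply]
    split_ifs <;> simp
  have hreg_smul : ∀ (c : ℂ) (f : G → ℂ), Cfsg.pRegularPart p (c • f) =
      c • Cfsg.pRegularPart p f := by
    intro c f; ext g
    simp only [Cfsg.pRegularPart, Pi.smul_apply]
    split_ifs <;> simp
  let T : (G → ℂ) →ₗ[ℂ] (G → ℂ) :=
    { toFun := Cfsg.pRegularPart p, map_add' := hreg_add, map_smul' := hreg_smul }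
  have hT : ∀ f, T f = Cfsg.pRegularPart p f := fun f => rfl
  have hTT : ∀ f, T (T f) = T f := by
    intro f; rw [hT, hT]; ext g
    simp only [Cfsg.pRegularPart]
    split_ifs <;> rfl
  have hTcf : ∀ f, Cfsg.IsClassFunction G f → Cfsg.IsClassFunction G (T f) := by
    intro f hf g h
    rw [hT]
    simp only [Cfsg.pRegularPart]
    have h1 : Cfsg.IsPRegular p (h * g * h⁻¹) ↔ Cfsg.IsPRegular p g := by
      unfold Cfsg.IsPRegular
      have : h * g * h⁻¹ = MulAut.conj h g := by simp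
      rw [this, MulEquiv.orderOf_eq]
    simp only [h1, hf g h]
  let ι : (Cfsg.IrrCharacter G → ℂ) →ₗ[ℂ] (G → ℂ) :=
    Fintype.linearCombination ℂ (fun χ : Cfsg.IrrCharacter G => (χ : G → ℂ))
  have hι : ∀ c, ι c = ∑ χ : Cfsg.IrrCharacter G, c χ • (χ : G → ℂ) := fun c => rfl
  have hιinj : Function.Injective ι := by
    rw [← LinearMap.ker_eq_bot, LinearMap.ker_eq_bot']
    intro c hc
    rw [hι] at hc
    ext χ
    exact Fintype.linearIndependent_iff.1 (CharBase.linearIndependent_irr G) c hc χ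
  let L : (Cfsg.IrrCharacter G → ℂ) →ₗ[ℂ] (G → ℂ) :=
    Fintype.linearCombination ℂ (fun χ : Cfsg.IrrCharacter G => if χ ∈ B then T (χ : G → ℂ) else 0)
  have hL : ∀ c, L c = ∑ χ : Cfsg.IrrCharacter G, c χ • (if χ ∈ B then T (χ : G → ℂ) else 0) :=
    fun c => rfl
  -- the matrix
  let A : Matrix (Cfsg.IrrCharacter G) (Cfsg.IrrCharacter G) ℂ := fun ψ χ =>
    if χ ∈ B then Cfsg.classInner (T (χ : G → ℂ)) (ψ : G → ℂ) else 0
  have hinner : ∀ (χ ψ : Cfsg.IrrCharacter G), Cfsg.classInner (T (χ : G → ℂ)) (ψ : G → ℂ) =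
      (Nat.card G : ℂ)⁻¹ * ∑ x : G, (if p ∣ orderOf x then 0 else
        (χ : G → ℂ) x * (starRingEnd ℂ) ((ψ : G → ℂ) x)) := by
    intro χ ψ
    unfold Cfsg.classInner
    congr 1
    refine Finset.sum_congr rfl fun x _ => ?_
    rw [hT]
    simp only [Cfsg.pRegularPart, Cfsg.IsPRegular]
    by_cases h : p ∣ orderOf x
    · simp [h]
    · simp [h]
  have hoff : ∀ (χ ψ : Cfsg.IrrCharacter G), χ ∈ B → ψ ∉ B →
      Cfsg.classInner (T (χ : G → ℂ)) (ψ : G → ℂ) = 0 := by
    intro χ ψ hχ hψ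
    rw [hinner, Blk.sum_regular_eq_zero hM hB hχ hψ, mul_zero]
  have hAapp : ∀ c ψ, Matrix.toLin' A c ψ = Cfsg.classInner (L c) (ψ : G → ℂ) := by
    intro c ψ
    rw [Matrix.toLin'_apply, Matrix.mulVec, dotProduct, hL, CharBase.classInner_sum_left]
    refine Finset.sum_congr rfl fun χ _ => ?_
    rw [CharBase.classInner_smul_left]
    show (if χ ∈ B then _ else 0) * c χ = _
    split_ifs
    · rw [mul_comm]
    · simp
  have hLcf : ∀ c, Cfsg.IsClassFunction G (L c) := by
    intro c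
    rw [hL]
    refine CharBase.isClassFunction_sum _ _ fun χ _ => CharBase.isClassFunction_smul _ ?_
    split_ifs
    · exact hTcf _ (CharBase.irr_isClassFunction _)
    · intro g h; rfl
  have hιA : ∀ c, ι (Matrix.toLin' A c) = L c := by
    intro c
    rw [CharBase.classFun_eq_sum (hLcf c), hι]
    exact Finset.sum_congr rfl fun ψ _ => by rw [hAapp]
  have hA0 : ∀ c ψ, ψ ∉ B → Matrix.toLin' A c ψ = 0 := by
    intro c ψ hψ
    rw [Matrix.toLin'_apply, Matrix.mulVec, dotProduct]
    refine Finset.sum_eq_zero fun χ _ => ?_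
    show (if χ ∈ B then _ else 0) * c χ = 0
    split_ifs with h
    · rw [hoff χ ψ h hψ, zero_mul]
    · rw [zero_mul]
  have hTL : ∀ c, T (L c) = L c := by
    intro c
    rw [hL, map_sum]
    refine Finset.sum_congr rfl fun χ _ => ?_
    rw [map_smul]
    split_ifs
    · rw [hTT]
    · rw [map_zero]
  have hLι : ∀ c, (∀ ψ, ψ ∉ B → c ψ = 0) → L c = T (ι c) := by
    intro c hc
    rw [hL, hι, map_sum]
    refine Finset.sum_congr rfl fun χ _ => ?_
    rw [map_smul]
    split_ifs with h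
    · rfl
    · rw [hc χ h]; simp
  have hidem : IsIdempotentElem (Matrix.toLin' A) := by
    apply LinearMap.ext
    intro c
    apply hιinj
    rw [Module.End.mul_apply, hιA, hιA, hLι _ (fun ψ hψ => hA0 c ψ hψ), hιA, hTL]
  have htrace := (LinearMap.IsIdempotentElem.isProj_range _ hidem).trace
  rw [Matrix.trace_toLin'_eq] at htrace
  -- the rank
  have hrange : Submodule.map ι (LinearMap.range (Matrix.toLin' A)) =
      Submodule.span ℂ ((fun χ : Cfsg.IrrCharacter G => Cfsg.pRegularPart p (χ : G → ℂ)) '' B) := by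
    apply le_antisymm
    · rintro _ ⟨_, ⟨c, rfl⟩, rfl⟩
      rw [hιA, hL]
      refine Submodule.sum_mem _ fun χ _ => Submodule.smul_mem _ _ ?_
      split_ifs with h
      · exact Submodule.subset_span ⟨χ, h, rfl⟩
      · exact Submodule.zero_mem _
    · rw [Submodule.span_le]
      rintro _ ⟨χ, hχ, rfl⟩
      refine ⟨_, ⟨Pi.single χ 1, rfl⟩, ?_⟩
      rw [hιA, hL, Finset.sum_eq_single χ]
      · rw [Pi.single_eq_same, one_smul, if_pos hχ]
        rfl
      · intro b _ hb
        rw [Pi.single_eq_of_ne hb, zero_smul]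
      · intro h; exact absurd (Finset.mem_univ _) h
  have hrank : Module.finrank ℂ (LinearMap.range (Matrix.toLin' A)) = Cfsg.blockRank p B := by
    unfold Cfsg.blockRank
    rw [← hrange]
    exact (Submodule.equivMapOfInjective ι hιinj _).finrank_eq
  rw [hrank] at htrace
  rw [← htrace, Matrix.trace]
  have hdiag : ∀ χ : Cfsg.IrrCharacter G, A.diag χ = if χ ∈ B then (Nat.card G : ℂ)⁻¹ *
      ∑ x : G, (if p ∣ orderOf x then 0 else
        (χ : G → ℂ) x * (starRingEnd ℂ) ((χ : G → ℂ) x)) else 0 := by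
    intro χ
    show (if χ ∈ B then _ else 0) = _
    split_ifs
    · exact hinner χ χ
    · rfl
  rw [Finset.sum_congr rfl fun χ _ => hdiag χ, Finset.mul_sum]
  have hright : ∀ x : G, ∑ᶠ χ ∈ B, Cfsg.pRegularPart p (χ : G → ℂ) x * (χ : G → ℂ) x⁻¹ =
      ∑ χ : Cfsg.IrrCharacter G, if χ ∈ B then (if p ∣ orderOf x then 0 else
        (χ : G → ℂ) x * (starRingEnd ℂ) ((χ : G → ℂ) x)) else 0 := by
    intro x
    rw [Blk.finsum_mem_eq_sum_ite]
    refine Finset.sum_congr rfl fun χ _ => ?_
    split_ifs with h1 h2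
    · simp [Cfsg.pRegularPart, Cfsg.IsPRegular, h2]
    · simp [Cfsg.pRegularPart, Cfsg.IsPRegular, h2, CharBase.irr_inv]
    · rfl
  rw [Finset.sum_congr rfl fun x _ => hright x, Finset.sum_comm]
  refine Finset.sum_congr rfl fun χ _ => ?_
  split_ifs
  · rw [mul_inv_cancel_left₀ hG]
  · simp

end Cfsg.Agent.S4667
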