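import Cfsg.Statements.S4668
import Cfsg.Agent.Blk.Chain

set_option autoImplicit false
open Cfsg

open Cfsg.Agent.Blk Cfsg.Agent.CharBase

namespace Cfsg.Agent.S4668

/-- Fix a prime p and a maximal ideal M of the algebraic integers containing p. Let Q₀ < Q₁ < ⋯ < Q_m be a strictly increasing chain of p-subgroups of the finite group G and N the intersection of their normalizers. Then every block idempotent of N is supported on C_G(Q_m): for every p-block E of N, the idempotent coefficient of E vanishes at every element of N outside C_G(Q_m). -/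
theorem result {G : Type*} [Group G] [Fintype G] (p : ℕ) [Fact p.Prime] (M : Ideal Cfsg.AlgInt) (hM : Cfsg.IsPModular p M) (m : ℕ) (Q : Fin (m + 1) → Subgroup G) (hQ : StrictMono Q) (hQp : ∀ i, IsPGroup p (Q i)) (N : Subgroup G) (hN : ∀ g : G, g ∈ N ↔ ∀ i, g ∈ Subgroup.normalizer (Q i : Set G)) (E : Set (Cfsg.IrrCharacter N)) (hE : Cfsg.IsPBlock M E) (n : N) (hn : (n : G) ∉ Subgroup.centralizer (Q (Fin.last m) : Set G)) : Cfsg.blockCoeff E n = 0 := by
  classical
  have := isPrime_of_isPModular hM
  have := Fintype.ofFinite N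
  by_contra hne
  apply hn
  have hreg : ¬ p ∣ orderOf (n : G) := by
    intro h
    apply hne
    refine blockCoeff_eq_zero_of_dvd hM hE ?_
    rwa [Subgroup.orderOf_coe] at h
  have hRn : ((Q (Fin.last m)).subgroupOf N).Normal := by
    refine ⟨fun u hu g => ?_⟩
    rw [Subgroup.mem_subgroupOf] at hu ⊢
    have h1 := (hN (g : G)).1 g.2 (Fin.last m)
    exact (Subgroup.mem_normalizer_iff.1 h1 (u : G)).1 hu
  have hRp : IsPGroup p ((Q (Fin.last m)).subgroupOf N) :=
    (hQp _).comap_of_injective _ N.subtype_injective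
  have hcen : n ∈ Subgroup.centralizer (((Q (Fin.last m)).subgroupOf N : Subgroup N) : Set N) := by
    by_contra h
    exact hne (blockCoeff_eq_zero_of_normal hM hRp hE h)
  refine centralizes_of_chain m Q hQ.monotone hQp (n : G) hreg (fun i => (hN _).1 n.2 i) ?_
  intro u hu huN
  have h1 := Subgroup.mem_centralizer_iff.1 hcen ⟨u, (hN u).2 huN⟩ (Subgroup.mem_subgroupOf.2 hu)
  exact (congrArg Subtype.val h1).symm

end Cfsg.Agent.S4668
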