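import Cfsg.Statements.S4672
import Cfsg.Agent.BlkF.Fong

set_option autoImplicit false
open Cfsg

namespace Cfsg.Agent.S4672

/-- Fix a prime p and a maximal ideal M of the algebraic integers containing p. Let N be a normal subgroup of the finite group G of p-power index and c a p-block of N stable under conjugation by G. Then the idempotent of c is a block idempotent of G: there is a p-block B of G whose idempotent coefficients agree with those of c on N and vanish off N; and for every defect group P of such a block B, G = NP and P ∩ N is a defect group of c. -/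
theorem result {G : Type*} [Group G] [Fintype G] (p : ℕ) [Fact p.Prime] (M : Ideal Cfsg.AlgInt) (hM : Cfsg.IsPModular p M) (N : Subgroup G) [N.Normal] (hN : ∃ k : ℕ, N.index = p ^ k) (c : Set (Cfsg.IrrCharacter N)) (hc : Cfsg.IsPBlock M c) (hst : ∀ x : G, Cfsg.StabilizesBlock N c x) : (∃ B : Set (Cfsg.IrrCharacter G), Cfsg.IsPBlock M B ∧ ∀ g : G, Cfsg.blockCoeff B g = Cfsg.subgroupBlockCoeff N c g) ∧ ∀ B : Set (Cfsg.IrrCharacter G), Cfsg.IsPBlock M B → (∀ g : G, Cfsg.blockCoeff B g = Cfsg.subgroupBlockCoeff N c g) → ∀ P : Subgroup G, Cfsg.IsDefectGroup p M B P → N ⊔ P = ⊤ ∧ Cfsg.IsDefectGroup p M c ((P ⊓ N).subgroupOf N) := by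
  classical
  have := Fintype.ofFinite N
  have := Blk.isPrime_of_isPModular hM
  have := Blk.charP_kM hM
  have hN' : ∃ m : ℕ, (N.subgroupOf (⊤ : Subgroup G)).index = p ^ m := by
    obtain ⟨k, hk⟩ := hN
    refine ⟨k, ?_⟩
    rw [← hk]
    exact Subgroup.relIndex_top_right N
  have hfix : Blk.Fixed ⊤ (Blk.EB M N c) := fun x _ =>
    ((Blk.stabilizesBlock_iff hc x).1 (hst x)).2
  have hcb := Blk.isBlk_EB (M := M) hc
  have hblk : Blk.IsBlk ⊤ (Blk.EB M N c) := by
    have := BlkF.isBlk_orbSum hM le_top hN' hcb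
    rwa [BlkF.orbSum_of_fixed hfix] at this
  constructor
  · obtain ⟨B, hB, hB2⟩ := Blk.exists_eB hblk
    refine ⟨B, hB, ?_⟩
    have hcf : ∀ t g : G, subgroupBlockCoeff N c (t * g * t⁻¹) = subgroupBlockCoeff N c g := by
      intro t g
      have htn : t ∈ Subgroup.normalizer (N : Set G) := by
        rw [BlkF.normalizer_normal_top]; exact Subgroup.mem_top t
      have h1 := (Blk.stabilizesBlock_iff_image _ htn c).1 (hst t)
      have h2 := Blk.subgroupBlockCoeff_image _ htn c (t * g * t⁻¹)
      rw [h1] at h2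
      rw [h2]
      congr 1
      group
    have key : blockCoeff B = subgroupBlockCoeff N c := by
      refine Blk.eq_of_redc_eq (M := M) (Blk.blockCoeff_isClassFunction B) (fun g t => hcf t g)
        (Blk.mlr_blockCoeff hB) (fun t => Blk.mlr_subgroupBlockCoeff hc t)
        (Blk.blockCoeff_conv_self B) (Blk.conv_sbc c) ?_
      change Blk.eB M B = _
      rw [hB2]
      apply Blk.ga_ext; intro g
      rw [Blk.EB_coeff, Blk.redc_coeff]
    intro g
    rw [key]
  · intro B hB hBc P hP
    have hE : Blk.eB M B = Blk.EB M N c := by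
      apply Blk.ga_ext; intro g
      rw [Blk.EB_coeff, Blk.eB, Blk.redc_coeff, hBc]
    have hP' := (Blk.isDefectGroup_iff hM hB P).1 hP
    constructor
    · have h1 := BlkF.not_dvd_relIndex (T := ⊤) (D := P) hcb (BlkF.splitBlk hcb) le_top
        (BlkF.le_norm _) hfix (by rw [← hE]; exact hP')
      rw [Subgroup.relIndex_top_right] at h1
      obtain ⟨k, hk⟩ := hN
      have h2 : (P ⊔ N).index ∣ p ^ k := by
        rw [← hk]; exact Subgroup.index_dvd_of_le le_sup_right
      obtain ⟨j, -, hj⟩ := (Nat.dvd_prime_pow (Fact.out : p.Prime)).1 h2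
      have h3 : (P ⊔ N).index = 1 := by
        rw [hj]
        rcases Nat.eq_zero_or_pos j with h4 | h4
        · rw [h4, pow_zero]
        · exfalso
          apply h1
          rw [hj]
          exact dvd_pow_self p h4.ne'
      rw [sup_comm]
      exact Subgroup.index_eq_one.1 h3
    · obtain ⟨c', hc', hcP, hbc, hD⟩ := BlkF.exists_isDef_inf (N := N) (Blk.isBlk_eB hB) hP'
      rw [hE] at hbc
      have h2 := hcb.eq_of_mul_ne_zero hc' hbc
      rw [Blk.isDefectGroup_iff' hM hc, Subgroup.map_subgroupOf_eq_of_le inf_le_right, h2]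
      exact hD

end Cfsg.Agent.S4672
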