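import Cfsg.Statements.S4673
import Cfsg.Agent.BlkF.Fong

set_option autoImplicit false
open Cfsg

namespace Cfsg.Agent.S4673

/-- Fix a prime p and a maximal ideal M of the algebraic integers containing p. Let N ≤ L be normal subgroups of the finite group G with L/N a p-group, let B be a p-block of G covering the p-block c of N (some member of B has a constituent in c on restriction to N), and suppose that N contains a defect group of B. Then the stabilizer T of c in G satisfies T ∩ L = N. -/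
theorem result {G : Type*} [Group G] [Fintype G] (p : ℕ) [Fact p.Prime] (M : Ideal Cfsg.AlgInt) (hM : Cfsg.IsPModular p M) (N L : Subgroup G) [N.Normal] [L.Normal] [Fintype N] (hNL : N ≤ L) (hLN : ∃ k : ℕ, (N.subgroupOf L).index = p ^ k) (B : Set (Cfsg.IrrCharacter G)) (hB : Cfsg.IsPBlock M B) (c : Set (Cfsg.IrrCharacter N)) (hc : Cfsg.IsPBlock M c) (hcov : (∃ χ ∈ B, ∃ θ ∈ c, Cfsg.classInner (fun n : N => (χ : G → ℂ) n) (θ : N → ℂ) ≠ 0)) (hD : ∃ D : Subgroup G, Cfsg.IsDefectGroup p M B D ∧ D ≤ N) (T : Subgroup G) (hT : ∀ x : G, x ∈ T ↔ Cfsg.StabilizesBlock N c x) : T ⊓ L = N := by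
  classical
  have := Blk.isPrime_of_isPModular hM
  have := Blk.charP_kM hM
  obtain ⟨D, hD, hDN⟩ := hD
  have h1 := BlkF.stab_le_of_defect hM hNL hLN (Blk.isBlk_eB hB)
    ((Blk.isDefectGroup_iff hM hB D).1 hD) hDN (Blk.isBlk_EB hc) ((BlkF.cov_iff hB hc).1 hcov)
  apply le_antisymm
  · rintro x ⟨hx, hxL⟩
    exact h1 ⟨hxL, ((Blk.stabilizesBlock_iff hc x).1 ((hT x).1 hx)).2⟩
  · refine le_inf (fun x hx => ?_) hNL
    rw [hT, Blk.stabilizesBlock_iff hc]
    exact ⟨Subgroup.le_normalizer hx, (Blk.isBlk_EB hc).fixed x hx⟩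

end Cfsg.Agent.S4673
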