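import Cfsg.Statements.S4674
import Cfsg.Agent.BlkF.HarrisKnorr
import Cfsg.Agent.BlkF.CoverSub

set_option autoImplicit false
open Cfsg

namespace Cfsg.Agent.S4674

/-- Fix a prime p and a maximal ideal M of the algebraic integers containing p. Let N be a normal subgroup of the finite group G, Q a p-subgroup of N, H = N_G(Q) and L = H ∩ N = N_N(Q). Let d be a p-block of N with defect group Q and e the p-block of L with defect group Q that induces d inside N (its Brauer correspondent). Then block induction from H to G is a bijection from the p-blocks of H covering e onto the p-blocks of G covering d: every block of H covering e induces exactly one block of G, and that block covers d; and every block of G covering d is induced by exactly one block of H covering e. -/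
theorem result {G : Type*} [Group G] [Fintype G] (p : ℕ) [Fact p.Prime] (M : Ideal Cfsg.AlgInt) (hM : Cfsg.IsPModular p M) (N : Subgroup G) [N.Normal] [Fintype N] (Q : Subgroup G) (hQ : IsPGroup p Q) (hQN : Q ≤ N) [Fintype ↥(Subgroup.normalizer (Q : Set G) ⊓ N)] (d : Set (Cfsg.IrrCharacter N)) (hd : Cfsg.IsPBlock M d) (hdQ : Cfsg.IsDefectGroup p M d (Q.subgroupOf N)) (e : Set (Cfsg.IrrCharacter ↥(Subgroup.normalizer (Q : Set G) ⊓ N))) (he : Cfsg.IsPBlock M e) (heQ : Cfsg.IsDefectGroup p M e (Q.subgroupOf (Subgroup.normalizer (Q : Set G) ⊓ N))) (hed : Cfsg.IsInducedBlockIn M N (Subgroup.normalizer (Q : Set G) ⊓ N) e d) : (∀ c : Set (Cfsg.IrrCharacter ↥(Subgroup.normalizer (Q : Set G))), Cfsg.IsPBlock M c → (∃ ψ ∈ c, ∃ ξ ∈ e, Cfsg.classInner (fun l : ↥(Subgroup.normalizer (Q : Set G) ⊓ N) => (ψ : ↥(Subgroup.normalizer (Q : Set G)) → ℂ) (Subgroup.inclusion inf_le_left l)) (ξ : ↥(Subgroup.normalizer (Q : Set G) ⊓ N) → ℂ) ≠ 0) → ∃! B : Set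 (Cfsg.IrrCharacter G), Cfsg.IsInducedBlock M (Subgroup.normalizer (Q : Set G)) c B ∧ (∃ χ ∈ B, ∃ θ ∈ d, Cfsg.classInner (fun n : N => (χ : G → ℂ) n) (θ : N → ℂ) ≠ 0)) ∧ (∀ B : Set (Cfsg.IrrCharacter G), Cfsg.IsPBlock M B → (∃ χ ∈ B, ∃ θ ∈ d, Cfsg.classInner (fun n : N => (χ : G → ℂ) n) (θ : N → ℂ) ≠ 0) → ∃! c : Set (Cfsg.IrrCharacter ↥(Subgroup.normalizer (Q : Set G))), (Cfsg.IsPBlock M c ∧ ∃ ψ ∈ c, ∃ ξ ∈ e, Cfsg.classInner (fun l : ↥(Subgroup.normalizer (Q : Set G) ⊓ N) => (ψ : ↥(Subgroup.normalizer (Q : Set G)) → ℂ) (Subgroup.inclusion inf_le_left l)) (ξ : ↥(Subgroup.normalizer (Q : Set G) ⊓ N) → ℂ) ≠ 0) ∧ Cfsg.IsInducedBlock M (Subgroup.normalizer (Q : Set G)) c B) := by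
  classical
  have hprime := Blk.isPrime_of_isPModular hM
  have := Blk.charP_kM hM
  have hQH : Q ≤ (Subgroup.normalizer (Q : Set G)) := Subgroup.le_normalizer
  have hCH : Subgroup.centralizer (Q : Set G) ≤ (Subgroup.normalizer (Q : Set G)) := Blk.centralizer_le_normalizer Q
  have hdb := Blk.isBlk_EB (M := M) hd
  have heb := Blk.isBlk_EB (M := M) he
  have hdQ' : Blk.IsDef p N (Blk.EB M N d) Q := by
    have := (Blk.isDefectGroup_iff' hM hd _).1 hdQ
    rwa [Subgroup.map_subgroupOf_eq_of_le hQN] at this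
  have heQ' : Blk.IsDef p ((Subgroup.normalizer (Q : Set G)) ⊓ N) (Blk.EB M ((Subgroup.normalizer (Q : Set G)) ⊓ N) e) Q := by
    have := (Blk.isDefectGroup_iff' hM he _).1 heQ
    rwa [Subgroup.map_subgroupOf_eq_of_le (le_inf hQH hQN)] at this
  -- the Brauer correspondent
  have h1 : Blk.br Q (Blk.EB M N d) * Blk.EB M ((Subgroup.normalizer (Q : Set G)) ⊓ N) e = Blk.EB M ((Subgroup.normalizer (Q : Set G)) ⊓ N) e :=
    BlkF.br_mul_of_isInducedBlockIn hM hQ (le_inf hQH hQN) inf_le_left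
      (inf_le_inf_right N hCH) inf_le_right he hd hed
  have hde : Blk.br Q (Blk.EB M N d) = Blk.EB M ((Subgroup.normalizer (Q : Set G)) ⊓ N) e :=
    (BlkF.isBlk_br_inf hdb hdQ').1.eq_of_mul_ne_zero heb (by rw [h1]; exact heb.ne_zero)
  have hnorm : (((Subgroup.normalizer (Q : Set G)) ⊓ N).subgroupOf (Subgroup.normalizer (Q : Set G))).Normal := by
    rw [Subgroup.inf_subgroupOf_left]
    infer_instance
  have hind : ∀ {c : Set (Cfsg.IrrCharacter (Subgroup.normalizer (Q : Set G)))} {B : Set (Cfsg.IrrCharacter G)},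
      Cfsg.IsPBlock M c → Cfsg.IsPBlock M B → (Cfsg.IsInducedBlock M (Subgroup.normalizer (Q : Set G)) c B ↔
        Blk.br Q (Blk.eB M B) * Blk.EB M (Subgroup.normalizer (Q : Set G)) c = Blk.EB M (Subgroup.normalizer (Q : Set G)) c) := fun hc hB =>
    BlkF.isInducedBlock_iff_br hM hQ hQH le_rfl hCH hc hB
  constructor
  · intro c hc hcov
    have hce := (BlkF.cov_sub_iff (M := M) (inf_le_left : (Subgroup.normalizer (Q : Set G)) ⊓ N ≤ (Subgroup.normalizer (Q : Set G))) hc he).1 hcov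
    have hcb := Blk.isBlk_EB (M := M) hc
    -- the block `b` with `Br_Q(b) c = c`
    obtain ⟨s, hs, hs1⟩ := Blk.exists_all_blks (G := G) (Blk.kM M) (⊤ : Subgroup G)
    have hbrF : ∀ b ∈ s, Blk.Fixed (Subgroup.normalizer (Q : Set G)) (Blk.br Q b) := fun b hb =>
      (((hs b).1 hb).fixed.mono le_top).br le_rfl
    have hbrS : ∀ b : MonoidAlgebra (Blk.kM M) G, Blk.Supp (Subgroup.normalizer (Q : Set G)) (Blk.br Q b) := fun b =>
      (Blk.supp_br Q b).mono hCH
    obtain ⟨b, hbs, hbc⟩ : ∃ b ∈ s, Blk.EB M (Subgroup.normalizer (Q : Set G)) c * Blk.br Q b = Blk.EB M (Subgroup.normalizer (Q : Set G)) c := by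
      by_contra hcon
      push Not at hcon
      apply hcb.ne_zero
      have h2 : (1 : MonoidAlgebra (Blk.kM M) G) = ∑ b ∈ s, Blk.br Q b := by
        rw [← Blk.br_sum, hs1, Blk.br_one]
      rw [← mul_one (Blk.EB M (Subgroup.normalizer (Q : Set G)) c), h2, Finset.mul_sum]
      refine Finset.sum_eq_zero fun b hb => ?_
      have hbb := (hs b).1 hb
      rcases hcb.prim (Blk.br Q b) (hbrS b) (hbrF b hb) (by
        rw [← Blk.br_mul hQ (hbb.fixed.mono le_top) (hbb.fixed.mono le_top), hbb.idem]) with h | h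
      · exact absurd h (hcon b hb)
      · exact h
    have hbb := (hs b).1 hbs
    have hbc' : Blk.br Q b * Blk.EB M (Subgroup.normalizer (Q : Set G)) c = Blk.EB M (Subgroup.normalizer (Q : Set G)) c := by
      rw [Blk.mul_comm_of_fixed (hbrF b hbs) hcb.supp, hbc]
    obtain ⟨B, hB, rfl⟩ := Blk.exists_eB hbb
    refine ⟨B, ⟨(hind hc hB).2 hbc', (BlkF.cov_iff hB hd).2
      (BlkF.HK.covers_up hQ hQN hbb hdb hcb hde hbc' hce)⟩, ?_⟩
    rintro B' ⟨hB'c, -⟩
    have hB' := hB'c.2.1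
    have h3 := (hind hc hB').1 hB'c
    apply Blk.eB_injective hB' hB
    refine (Blk.isBlk_eB hB').eq_of_mul_ne_zero hbb fun h0 => ?_
    have h4 : Blk.br Q (Blk.eB M B') * (Blk.br Q (Blk.eB M B) * Blk.EB M (Subgroup.normalizer (Q : Set G)) c) = 0 := by
      rw [← mul_assoc, ← Blk.br_mul hQ ((Blk.isBlk_eB hB').fixed.mono le_top)
        (hbb.fixed.mono le_top), h0, Blk.br_zero, zero_mul]
    rw [hbc', h3] at h4
    exact hcb.ne_zero h4
  · intro B hB hcov
    have hbb := Blk.isBlk_eB hB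
    have hbd := (BlkF.cov_iff hB hd).1 hcov
    have hbd' : ¬ IsNilpotent (Blk.eB M B * Blk.EB M N d) := by
      intro hn
      apply hbd
      refine Blk.eq_zero_of_idem_nilpotent ?_ hn
      have e4 : Blk.EB M N d * Blk.eB M B = Blk.eB M B * Blk.EB M N d := by
        rw [Blk.mul_comm_of_fixed hbb.fixed (Blk.supp_top _)]
      rw [mul_assoc, ← mul_assoc (Blk.EB M N d), e4, mul_assoc (Blk.eB M B) (Blk.EB M N d)
        (Blk.EB M N d), hdb.idem, ← mul_assoc, hbb.idem]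
    have hbr := BlkF.br_ne_of_not_nilpotent hdb hQN hQ hdQ'.br_ne (hbb.fixed.mono le_top) hbd'
    have hbF : Blk.Fixed (Subgroup.normalizer (Q : Set G)) (Blk.br Q (Blk.eB M B)) := (hbb.fixed.mono le_top).br le_rfl
    have hbS : Blk.Supp (Subgroup.normalizer (Q : Set G)) (Blk.br Q (Blk.eB M B)) := (Blk.supp_br Q _).mono hCH
    obtain ⟨c, hc, hbc⟩ := Blk.exists_blk_le (Subgroup.normalizer (Q : Set G)) (Blk.br Q (Blk.eB M B)) ⟨hbS, hbF⟩ (by
      rw [← Blk.br_mul hQ (hbb.fixed.mono le_top) (hbb.fixed.mono le_top), hbb.idem]) hbr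
    obtain ⟨c', hc', rfl⟩ := Blk.exists_EB hc
    have hce := BlkF.HK.covers_down hQN hbb hdb hdQ' heb hc hde hbc hbd
    refine ⟨c', ⟨⟨hc', (BlkF.cov_sub_iff (M := M) (inf_le_left : (Subgroup.normalizer (Q : Set G)) ⊓ N ≤ (Subgroup.normalizer (Q : Set G))) hc' he).2 hce⟩,
      (hind hc' hB).2 hbc⟩, ?_⟩
    rintro c'' ⟨⟨hc'', hcov''⟩, hind''⟩
    have hbc'' := (hind hc'' hB).1 hind''
    have hce'' := (BlkF.cov_sub_iff (M := M) (inf_le_left : (Subgroup.normalizer (Q : Set G)) ⊓ N ≤ (Subgroup.normalizer (Q : Set G))) hc'' he).1 hcov''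
    apply Blk.EB_injective hc'' hc'
    exact BlkF.HK.unique hbb heb heQ' (Blk.isBlk_EB hc'') hce'' hc hce hbc'' hbc

end Cfsg.Agent.S4674
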