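import Cfsg.Statements.S4679
import Cfsg.Agent.BlkF.Full
import Cfsg.Agent.Blk.Lift

set_option autoImplicit false
open Cfsg

namespace Cfsg.Agent.S4679

/-- Fix a prime p and a maximal ideal M of the algebraic integers containing p, a p-block B of the finite group G with maximal Brauer pair (P, e), its fusion system F on P, a Brauer pair (Q, f) ≤ (P, e), and let T be the stabilizer of f in N_G(Q). Then Q is fully normalized in F if and only if N_P(Q) is a defect group of the block of T whose idempotent is that of f. -/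
theorem result {G : Type*} [Group G] [Fintype G] (p : ℕ) [Fact p.Prime] (M : Ideal Cfsg.AlgInt) (hM : Cfsg.IsPModular p M) (B : Set (Cfsg.IrrCharacter G)) (P : Subgroup G) (e : Set (Cfsg.IrrCharacter (Subgroup.centralizer (P : Set G)))) (hmax : Cfsg.IsMaximalBrauerPair p M B P e) (F : Cfsg.FusionSystem P) (hF : Cfsg.IsBlockFusionSystemOn p M B P e F) (Q : Subgroup G) (f : Set (Cfsg.IrrCharacter (Subgroup.centralizer (Q : Set G)))) (hQP : Q ≤ P) (hf : Cfsg.IsPBlock M f) (hle : Cfsg.SubpairLE p M Q f P e) (T : Subgroup G) (hT : ∀ y : G, y ∈ T ↔ y ∈ Subgroup.normalizer (Q : Set G) ∧ Cfsg.StabilizesBlock (Subgroup.centralizer (Q : Set G)) f y) : F.IsFullyNormalized Q ↔ ∃ F' : Set (Cfsg.IrrCharacter T), Cfsg.IsPBlock M F' ∧ (∀ t : T, Cfsg.blockCoeff F' t = Cfsg.subgroupBlockCoeff (Subgroup.centralizer (Q : Set G)) f (t : G)) ∧ Cfsg.IsDefectGroup p M F' ((P ⊓ Subgroup.normalizer (Q : Set G)).subgroupOf T) := by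
  classical
  have hMp : M.IsPrime := hM.2.1.isPrime
  have := Cfsg.Agent.Blk.charP_kM hM
  obtain ⟨-, hPe, -, he⟩ := (Cfsg.Agent.Blk.isMaximalBrauerPair_iff hM).1 hmax
  obtain rfl := (Cfsg.Agent.BlkF.isBlockFusionSystemOn_iff hM hmax he.1 F).1 hF
  have hQ := (Cfsg.Agent.Blk.subpairLE_iff hM hf hPe).1 hle
  have hp := hQ.left_pair he.1
  have hTe := Cfsg.Agent.BlkF.stab_eq (M := M) hf hT
  obtain ⟨g0, hg0, -⟩ := hQ.inf_normalizer he.1
  have hPT : P ⊓ Subgroup.normalizer (Q : Set G) ≤ T := by rw [hTe]; exact hg0.le_stab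
  rw [Cfsg.Agent.BlkF.isFullyNormalized_iff he hQ, ← hTe]
  constructor
  · intro h
    obtain ⟨E, hE1, hE2, hE3⟩ := Cfsg.Agent.Blk.exists_block_stab (T := T) hM hp.isPGroup hf
      (by rw [hTe]; exact Cfsg.Agent.Blk.le_stab hp.blk)
      (by rw [hTe]; exact Cfsg.Agent.Blk.centralizer_le_stab hp.blk)
      (by rw [hTe]; exact Cfsg.Agent.Blk.stab_le _ _)
      (by rw [hTe]; exact Cfsg.Agent.Blk.fixed_stab _ _)
    refine ⟨E, hE1, hE2, ?_⟩
    rw [Cfsg.Agent.BlkF.isDefectGroup_subgroupOf_iff hM hE1 hPT, hE3]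
    exact h
  · rintro ⟨E, hE1, hE2, hE3⟩
    rw [Cfsg.Agent.BlkF.isDefectGroup_subgroupOf_iff hM hE1 hPT] at hE3
    have hEf : Cfsg.Agent.Blk.EB M T E = Cfsg.Agent.Blk.EB M _ f := by
      apply Cfsg.Agent.Blk.ga_ext; intro g
      rw [Cfsg.Agent.Blk.EB_coeff, Cfsg.Agent.Blk.EB_coeff]
      congr 1
      by_cases hg : g ∈ T
      · have h1 : Cfsg.subgroupBlockCoeff T E g = Cfsg.blockCoeff E ⟨g, hg⟩ := by
          unfold Cfsg.subgroupBlockCoeff
          rw [dif_pos hg]
        rw [h1, hE2]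
      · have h1 : Cfsg.subgroupBlockCoeff T E g = 0 := by
          unfold Cfsg.subgroupBlockCoeff
          rw [dif_neg hg]
        have h2 : Cfsg.subgroupBlockCoeff (Subgroup.centralizer (Q : Set G)) f g = 0 := by
          unfold Cfsg.subgroupBlockCoeff
          rw [dif_neg]
          intro h
          apply hg
          rw [hTe]
          exact Cfsg.Agent.Blk.centralizer_le_stab hp.blk h
        rw [h1, h2]
    rwa [hEf] at hE3

end Cfsg.Agent.S4679
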