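import Cfsg.Statements.S4680
import Cfsg.Agent.BlkF.Full

set_option autoImplicit false
open Cfsg

namespace Cfsg.Agent.S4680

/-- Fix a prime p and a maximal ideal M of the algebraic integers containing p, a p-block B of the finite group G with maximal Brauer pair (P, e), its fusion system F on P, and a Brauer pair (Q, f) ≤ (P, e). Then Q is centric in F if and only if Z(Q) is a defect group of f as a block of C_G(Q). -/
theorem result {G : Type*} [Group G] [Fintype G] (p : ℕ) [Fact p.Prime] (M : Ideal Cfsg.AlgInt) (hM : Cfsg.IsPModular p M) (B : Set (Cfsg.IrrCharacter G)) (P : Subgroup G) (e : Set (Cfsg.IrrCharacter (Subgroup.centralizer (P : Set G)))) (hmax : Cfsg.IsMaximalBrauerPair p M B P e) (F : Cfsg.FusionSystem P) (hF : Cfsg.IsBlockFusionSystemOn p M B P e F) (Q : Subgroup G) (f : Set (Cfsg.IrrCharacter (Subgroup.centralizer (Q : Set G)))) (hQP : Q ≤ P) (hf : Cfsg.IsPBlock M f) (hle : Cfsg.SubpairLE p M Q f P e) : F.IsCentric Q ↔ Cfsg.IsDefectGroup p M f ((Q ⊓ Subgroup.centralizer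 (Q : Set G)).subgroupOf (Subgroup.centralizer (Q : Set G))) := by
  classical
  have hMp : M.IsPrime := hM.2.1.isPrime
  have := Cfsg.Agent.Blk.charP_kM hM
  obtain ⟨-, hPe, -, he⟩ := (Cfsg.Agent.Blk.isMaximalBrauerPair_iff hM).1 hmax
  obtain rfl := (Cfsg.Agent.BlkF.isBlockFusionSystemOn_iff hM hmax he.1 F).1 hF
  rw [Cfsg.Agent.BlkF.isCentric_iff he ((Cfsg.Agent.Blk.subpairLE_iff hM hf hPe).1 hle),
    Cfsg.Agent.BlkF.isDefectGroup_subgroupOf_iff hM hf inf_le_right]

end Cfsg.Agent.S4680
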