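import Cfsg.Statements.S4681
import Cfsg.Agent.BlkF.Abel

set_option autoImplicit false
open Cfsg

namespace Cfsg.Agent.S4681

/-- Fix a prime p and a maximal ideal M of the algebraic integers containing p. Let B₀ be the principal p-block of the finite group G, P a Sylow p-subgroup and e₀ the principal p-block of C_G(P). Then (P, e₀) is a maximal Brauer pair of B₀, and the fusion system of B₀ on (P, e₀) is the fusion system of G on P: its maps from each subgroup of P are exactly the conjugation maps into P by elements of G. -/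
theorem result {G : Type*} [Group G] [Fintype G] (p : ℕ) [Fact p.Prime] (M : Ideal Cfsg.AlgInt) (hM : Cfsg.IsPModular p M) (S : Sylow p G) : Cfsg.IsMaximalBrauerPair p M (Cfsg.principalBlock M G) (S : Subgroup G) (Cfsg.principalBlock M (Subgroup.centralizer ((S : Subgroup G) : Set G))) ∧ ∀ F : Cfsg.FusionSystem (S : Subgroup G), Cfsg.IsBlockFusionSystemOn p M (Cfsg.principalBlock M G) (S : Subgroup G) (Cfsg.principalBlock M (Subgroup.centralizer ((S : Subgroup G) : Set G))) F → ∀ Q : Subgroup G, F.Hom Q = (Cfsg.groupFusionSystem (S : Subgroup G)).Hom Q := by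
  classical
  have hMp : M.IsPrime := hM.2.1.isPrime
  have := Cfsg.Agent.Blk.charP_kM hM
  have hB := Cfsg.Agent.Blk.isPBlock_principalBlock (M := M) (G := G)
  have he := Cfsg.Agent.Blk.isPBlock_principalBlock (M := M)
    (G := Subgroup.centralizer ((S : Subgroup G) : Set G))
  have hpair : Cfsg.Agent.Blk.MPair p (S : Subgroup G) (Cfsg.Agent.Blk.EB M _
      (Cfsg.principalBlock M (Subgroup.centralizer ((S : Subgroup G) : Set G)))) :=
    ⟨S.2, Cfsg.Agent.Blk.isBlk_EB he⟩
  have haug := Cfsg.Agent.Blk.aug_EB_principalBlock (M := M)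
    (H := Subgroup.centralizer ((S : Subgroup G) : Set G))
  have hmax : Cfsg.IsMaximalBrauerPair p M (Cfsg.principalBlock M G) (S : Subgroup G)
      (Cfsg.principalBlock M (Subgroup.centralizer ((S : Subgroup G) : Set G))) := by
    rw [Cfsg.Agent.Blk.isMaximalBrauerPair_iff hM]
    refine ⟨hB, he, ⟨hpair, Cfsg.Agent.Blk.isBlk_eB hB, ?_⟩, hpair, fun R g hR =>
      S.3 hR.right.isPGroup hR.le⟩
    exact (Cfsg.Agent.Blk.third_main (Cfsg.Agent.Blk.isBlk_eB hB)
      Cfsg.Agent.Blk.aug_eB_principalBlock hpair).2 haug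
  refine ⟨hmax, fun F hF Q => ?_⟩
  rw [(Cfsg.Agent.BlkF.isBlockFusionSystemOn_iff hM hmax hpair F).1 hF,
    Cfsg.Agent.BlkF.blkFus_prin hpair haug]

end Cfsg.Agent.S4681
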