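import Cfsg.Statements.S4682
import Cfsg.Agent.BlkF.Abel

set_option autoImplicit false
open Cfsg

namespace Cfsg.Agent.S4682

/-- Fix a prime p and a maximal ideal M of the algebraic integers containing p, a p-block B of the finite group G with maximal Brauer pair (P, e), P abelian, and a Brauer pair (Q, f) ≤ (P, e). Let T_Q be the stabilizer of f in N_G(Q) and T_P the stabilizer of e in N_G(P). Then every element of T_Q is a product of an element of T_P and an element of C_G(Q); and the index of C_G(Q) in T_Q equals the index of T_P ∩ C_G(Q) in T_P ∩ N_G(Q). -/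
theorem result {G : Type*} [Group G] [Fintype G] (p : ℕ) [Fact p.Prime] (M : Ideal Cfsg.AlgInt) (hM : Cfsg.IsPModular p M) (B : Set (Cfsg.IrrCharacter G)) (P : Subgroup G) (e : Set (Cfsg.IrrCharacter (Subgroup.centralizer (P : Set G)))) (hmax : Cfsg.IsMaximalBrauerPair p M B P e) (hab : ∀ x ∈ P, ∀ y ∈ P, x * y = y * x) (Q : Subgroup G) (f : Set (Cfsg.IrrCharacter (Subgroup.centralizer (Q : Set G)))) (hQP : Q ≤ P) (hf : Cfsg.IsPBlock M f) (hle : Cfsg.SubpairLE p M Q f P e) (TQ : Subgroup G) (hTQ : ∀ y : G, y ∈ TQ ↔ y ∈ Subgroup.normalizer (Q : Set G) ∧ Cfsg.StabilizesBlock (Subgroup.centralizer (Q : Set G)) f y) (TP : Subgroup G) (hTP : ∀ y : G, y ∈ TP ↔ y ∈ Subgroup.normalizer (P : Set G) ∧ Cfsg.StabilizesBlock (Subgroup.centralizer (P : Set G)) e y) : (∀ x ∈ TQ, ∃ y ∈ TP, ∃ c ∈ Subgroup.centralizer (Q : Set G), x = y * c) ∧ ((Subgroup.centralizer (Q : Set G)).subgroupOf TQ).index = ((TP ⊓ Subgroup.centralizer (Q : Set G)).subgroupOf (TP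 ⊓ Subgroup.normalizer (Q : Set G))).index := by
  classical
  have hMp : M.IsPrime := hM.2.1.isPrime
  have := Cfsg.Agent.Blk.charP_kM hM
  obtain ⟨-, hPe, -, he⟩ := (Cfsg.Agent.Blk.isMaximalBrauerPair_iff hM).1 hmax
  have hQ := (Cfsg.Agent.Blk.subpairLE_iff hM hf hPe).1 hle
  have hTQe := Cfsg.Agent.BlkF.stab_eq (M := M) hf hTQ
  have hTPe := Cfsg.Agent.BlkF.stab_eq (M := M) hPe hTP
  have h1 : ∀ x ∈ TQ, ∃ y ∈ TP, ∃ c ∈ Subgroup.centralizer (Q : Set G), x = y * c := by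
    intro x hx
    rw [hTQe] at hx
    obtain ⟨y, hy, c, hc, h⟩ := Cfsg.Agent.BlkF.stab_factor_of_comm he hab hQ hx
    exact ⟨y, by rw [hTPe]; exact hy, c, hc, h⟩
  refine ⟨h1, ?_⟩
  have h2 : TP ⊓ Subgroup.normalizer (Q : Set G) ≤ TQ := by
    rw [hTPe, hTQe]
    exact Cfsg.Agent.BlkF.stab_inf_normalizer_le he.1 hQ
  have h3 : (Subgroup.centralizer (Q : Set G)).relIndex TQ =
      (Subgroup.centralizer (Q : Set G)).relIndex (TP ⊓ Subgroup.normalizer (Q : Set G)) := by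
    refine Cfsg.Agent.BlkF.relIndex_eq_of_mul h2 fun t ht => ?_
    obtain ⟨y, hy, c, hc, h⟩ := h1 t ht
    refine ⟨y, ⟨hy, ?_⟩, c, hc, h⟩
    have h4 : y = t * c⁻¹ := by rw [h]; group
    change y ∈ Subgroup.normalizer (Q : Set G)
    rw [h4]
    exact Subgroup.mul_mem _ ((hTQ t).1 ht).1
      (Subgroup.inv_mem _ (Cfsg.Agent.Blk.centralizer_le_normalizer Q hc))
  change (Subgroup.centralizer (Q : Set G)).relIndex TQ =
    (TP ⊓ Subgroup.centralizer (Q : Set G)).relIndex (TP ⊓ Subgroup.normalizer (Q : Set G))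
  rw [h3, ← Subgroup.inf_relIndex_right]
  congr 1
  apply le_antisymm
  · exact le_inf (inf_le_right.trans inf_le_left) inf_le_left
  · exact le_inf inf_le_right (le_inf inf_le_left (inf_le_right.trans
      (Cfsg.Agent.Blk.centralizer_le_normalizer Q)))

end Cfsg.Agent.S4682
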