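import Cfsg.Statements.S4685
import Cfsg.Agent.BlkInd.FocAct
import Cfsg.Agent.BlkF.Full

set_option autoImplicit false
open Cfsg

namespace Cfsg.Agent.S4685

/-- Fix a prime p and a maximal ideal M of the algebraic integers containing p, a p-block B of the finite group G with maximal Brauer pair (P, e) and fusion system F on P. Then for every h the number of irreducible characters of height h in B is divisible by the index of Z(P) ∩ foc(F) in Z(P), where foc(F) is the focal subgroup of F. -/
theorem result {G : Type*} [Group G] [Fintype G] (p : ℕ) [Fact p.Prime] (M : Ideal Cfsg.AlgInt) (hM : Cfsg.IsPModular p M) (B : Set (Cfsg.IrrCharacter G)) (P : Subgroup G) (e : Set (Cfsg.IrrCharacter (Subgroup.centralizer (P : Set G)))) (hmax : Cfsg.IsMaximalBrauerPair p M B P e) (F : Cfsg.FusionSystem P) (hF : Cfsg.IsBlockFusionSystemOn p M B P e F) (h : ℕ) : ((P ⊓ Subgroup.centralizer (P : Set G) ⊓ F.focalSubgroup).subgroupOf (P ⊓ Subgroup.centralizer (P : Set G))).index ∣ Nat.card {χ : Cfsg.IrrCharacter G // χ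 ∈ B ∧ Cfsg.blockHeight p B (χ : G → ℂ) = h} := by
  classical
  have hMp : M.IsPrime := hM.2.1.isPrime
  have := Cfsg.Agent.Blk.charP_kM hM
  obtain ⟨hB, hPe, hof, he⟩ := (Cfsg.Agent.Blk.isMaximalBrauerPair_iff hM).1 hmax
  obtain rfl := (Cfsg.Agent.BlkF.isBlockFusionSystemOn_iff hM hmax he.1 F).1 hF
  have h1 := Cfsg.Agent.BlkInd.relIndex_dvd_height hM hB he hof
    (Cfsg.Agent.BlkInd.focIn_focalSubgroup he.1)
    (Z := (P ⊓ Subgroup.centralizer (P : Set G)).subgroupOf P) (by
      intro z hz x
      rw [Subgroup.mem_subgroupOf] at hz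
      have h2 := Subgroup.mem_centralizer_iff.mp hz.2 x x.2
      exact Subtype.ext h2) h
  rw [Subgroup.relIndex_subgroupOf inf_le_left] at h1
  change ((P ⊓ Subgroup.centralizer (P : Set G) ⊓ _).relIndex _) ∣ _
  rw [Subgroup.inf_relIndex_left]
  exact h1

end Cfsg.Agent.S4685
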