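import Cfsg.Statements.S4688
import Cfsg.Agent.BlkF.NilpLocal

set_option autoImplicit false
open Cfsg

namespace Cfsg.Agent.S4688

/-- Fix a prime p and a maximal ideal M of the algebraic integers containing p, and a nilpotent p-block B of the finite group G with maximal Brauer pair (P, e). Then for every Brauer pair (Q, f) of B, f is a nilpotent block of C_G(Q); and if moreover (Q, f) ≤ (P, e), then C_P(Q) is a defect group of f as a block of C_G(Q). -/
theorem result {G : Type*} [Group G] [Fintype G] (p : ℕ) [Fact p.Prime] (M : Ideal Cfsg.AlgInt) (hM : Cfsg.IsPModular p M) (B : Set (Cfsg.IrrCharacter G)) (P : Subgroup G) (e : Set (Cfsg.IrrCharacter (Subgroup.centralizer (P : Set G)))) (hmax : Cfsg.IsMaximalBrauerPair p M B P e) (hnil : Cfsg.IsNilpotentBlock p M B) (Q : Subgroup G) (f : Set (Cfsg.IrrCharacter (Subgroup.centralizer (Q : Set G)))) (hQf : Cfsg.IsBrauerPairOf p M B Q f) : Cfsg.IsNilpotentBlock p M f ∧ (Cfsg.SubpairLE p M Q f P e → Cfsg.IsDefectGroup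 p M f ((P ⊓ Subgroup.centralizer (Q : Set G)).subgroupOf (Subgroup.centralizer (Q : Set G)))) := by
  classical
  have hMp : M.IsPrime := hM.2.1.isPrime
  have := Cfsg.Agent.Blk.charP_kM hM
  obtain ⟨hB, hPe, hof, he⟩ := (Cfsg.Agent.Blk.isMaximalBrauerPair_iff hM).1 hmax
  have hf := hQf.1.2
  have hn := ((Cfsg.Agent.BlkF.isNilpotentBlock_iff hM).1 hnil).2
  have hb := (Cfsg.Agent.Blk.isBrauerPairOf_iff hM hB hf).1 hQf
  constructor
  · have := Fintype.ofFinite (Subgroup.centralizer (Q : Set G))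
    rw [Cfsg.Agent.BlkF.isNilpotentBlock_iff hM]
    refine ⟨hf, ?_⟩
    rw [Cfsg.Agent.Blk.EB_eq] at hb
    exact Cfsg.Agent.BlkF.mnilp_centralizer hn rfl hb
  · intro hle
    have hQ := (Cfsg.Agent.Blk.subpairLE_iff hM hf hPe).1 hle
    rw [Cfsg.Agent.BlkF.isDefectGroup_subgroupOf_iff hM hf inf_le_right]
    exact Cfsg.Agent.BlkF.isDef_of_mnilp he hof
      (fun K f hf => Cfsg.Agent.BlkF.splitBlk hf) hn hQ

end Cfsg.Agent.S4688
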