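import Cfsg.Statements.S4690
import Cfsg.Agent.Star.NilApp

set_option autoImplicit false
open Cfsg

namespace Cfsg.Agent.S4690

/-- Fix a prime p and a maximal ideal M of the algebraic integers containing p, and a nilpotent p-block B of the finite group G with defect group P. Then there is a bijection from B onto the irreducible characters of P carrying the height of each χ ∈ B to the exponent of p in the degree of its image. -/
theorem result {G : Type*} [Group G] [Fintype G] (p : ℕ) [Fact p.Prime] (M : Ideal Cfsg.AlgInt) (hM : Cfsg.IsPModular p M) (B : Set (Cfsg.IrrCharacter G)) (hnil : Cfsg.IsNilpotentBlock p M B) (P : Subgroup G) (hP : Cfsg.IsDefectGroup p M B P) : ∃ Φ : B ≃ Cfsg.IrrCharacter P, ∀ χ : B, Cfsg.blockHeight p B ((χ : Cfsg.IrrCharacter G) : G → ℂ) = (Cfsg.charDegree ((Φ χ : Cfsg.IrrCharacter P) : P → ℂ)).factorization p := by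
  classical
  have hMp := Blk.isPrime_of_isPModular hM
  have := Blk.charP_kM hM
  obtain ⟨hB, hn⟩ := (BlkF.isNilpotentBlock_iff hM).1 hnil
  have hdef := (Blk.isDefectGroup_iff hM hB P).1 hP
  obtain ⟨e, he, hb⟩ := Star.exists_mmax_on hM hB hdef
  obtain ⟨χ₀, hχ₀, h0⟩ := BlkC.exists_height_zero hM hB
  obtain ⟨-, Ψ, h1, h2, h3, h4⟩ := Star.nilp_structure hM hB he hb hdef hn hχ₀ h0
  have hbij : Function.Bijective (fun ζ : IrrCharacter P => (⟨Ψ ζ, h1 ζ⟩ : B)) := by
    constructor
    · intro ζ ζ' h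
      exact h3 (congrArg Subtype.val h)
    · rintro ⟨ψ, hψ⟩
      obtain ⟨ζ, hζ⟩ := h4 ψ hψ
      exact ⟨ζ, Subtype.ext hζ⟩
  refine ⟨(Equiv.ofBijective _ hbij).symm, fun χ => ?_⟩
  obtain ⟨ζ, rfl⟩ := (Equiv.ofBijective _ hbij).surjective χ
  rw [Equiv.symm_apply_apply, Equiv.ofBijective_apply]
  simp only
  exact Star.height_nilp hM hB he hb (Star.innerF_of_mnilp hM he hb hn) hχ₀ h0 (h1 ζ) (h2 ζ)

end Cfsg.Agent.S4690
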