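import Cfsg.Statements.S4692
import Cfsg.Agent.BlkF.Cover

set_option autoImplicit false
open Cfsg

namespace Cfsg.Agent.S4692

/-- Fix a prime p and a maximal ideal M of the algebraic integers containing p. Let N be a normal subgroup of p-power index in the finite group G and c a p-block of N stable under conjugation by G, and let B be the p-block of G whose idempotent is that of c (it exists and is unique). Then c is nilpotent as a block of N if and only if B is nilpotent as a block of G. -/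
theorem result {G : Type*} [Group G] [Fintype G] (p : ℕ) [Fact p.Prime] (M : Ideal Cfsg.AlgInt) (hM : Cfsg.IsPModular p M) (N : Subgroup G) [N.Normal] (hN : ∃ k : ℕ, N.index = p ^ k) (c : Set (Cfsg.IrrCharacter N)) (hc : Cfsg.IsPBlock M c) (hst : ∀ x : G, Cfsg.StabilizesBlock N c x) (B : Set (Cfsg.IrrCharacter G)) (hB : Cfsg.IsPBlock M B) (hBc : ∀ g : G, Cfsg.blockCoeff B g = Cfsg.subgroupBlockCoeff N c g) : Cfsg.IsNilpotentBlock p M c ↔ Cfsg.IsNilpotentBlock p M B := by
  classical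
  have hMp : M.IsPrime := hM.2.1.isPrime
  have := Cfsg.Agent.Blk.charP_kM hM
  have := Fintype.ofFinite N
  have hE : Cfsg.Agent.Blk.eB M B = Cfsg.Agent.Blk.incl N (Cfsg.Agent.Blk.eB M c) := by
    rw [← Cfsg.Agent.Blk.EB_eq]
    apply Cfsg.Agent.Blk.ga_ext; intro g
    rw [Cfsg.Agent.Blk.EB_coeff, ← hBc g]
    rfl
  have hb := Cfsg.Agent.Blk.isBlk_eB (M := M) hB
  have hb' := Cfsg.Agent.Blk.isBlk_eB (M := M) hc
  rw [hE] at hb
  have hsupp := Cfsg.Agent.BlkF.supp_of_index (G := G) hM hN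
  rw [Cfsg.Agent.BlkF.isNilpotentBlock_iff hM, Cfsg.Agent.BlkF.isNilpotentBlock_iff hM, hE]
  constructor
  · rintro ⟨-, h⟩
    exact ⟨hB, Cfsg.Agent.BlkF.mnilp_up hN hsupp hb' hb h⟩
  · rintro ⟨-, h⟩
    exact ⟨hc, Cfsg.Agent.BlkF.mnilp_down hsupp hb' hb h⟩

end Cfsg.Agent.S4692
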