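import Cfsg.Statements.S4693
import Cfsg.Agent.BlkF.Central
import Cfsg.Agent.Blk.Lift

set_option autoImplicit false
open Cfsg

namespace Cfsg.Agent.S4693

/-- Fix a prime p and a maximal ideal M of the algebraic integers containing p, a p-block B of the finite group G with maximal Brauer pair (P, e) and fusion system F on P, and a Brauer pair (Q, f) ≤ (P, e) with Q centric in F. Suppose every element of G normalizes Q and stabilizes f. Then the idempotent of B agrees with that of f modulo M at every element of G, and f is the idempotent of a nilpotent block of Q·C_G(Q): some p-block of Q·C_G(Q) has the idempotent coefficients of f and is nilpotent. -/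
theorem result {G : Type*} [Group G] [Fintype G] (p : ℕ) [Fact p.Prime] (M : Ideal Cfsg.AlgInt) (hM : Cfsg.IsPModular p M) (B : Set (Cfsg.IrrCharacter G)) (P : Subgroup G) (e : Set (Cfsg.IrrCharacter (Subgroup.centralizer (P : Set G)))) (hmax : Cfsg.IsMaximalBrauerPair p M B P e) (F : Cfsg.FusionSystem P) (hF : Cfsg.IsBlockFusionSystemOn p M B P e F) (Q : Subgroup G) (f : Set (Cfsg.IrrCharacter (Subgroup.centralizer (Q : Set G)))) (hQP : Q ≤ P) (hf : Cfsg.IsPBlock M f) (hle : Cfsg.SubpairLE p M Q f P e) (hcen : F.IsCentric Q) (hG : ∀ x : G, x ∈ Subgroup.normalizer (Q : Set G) ∧ Cfsg.StabilizesBlock (Subgroup.centralizer (Q : Set G)) f x) : (∀ g : G, Cfsg.MemLocalIdeal M (Cfsg.blockCoeff B g - Cfsg.subgroupBlockCoeff (Subgroup.centralizer (Q : Set G)) f g)) ∧ ∃ F' : Set (Cfsg.IrrCharacter ↥(Q ⊔ Subgroup.centralizer (Q : Set G))), Cfsg.IsPBlock M F' ∧ (∀ t : ↥(Q ⊔ Subgroup.centralizer (Q : Set G)), Cfsg.blockCoeff F' t = Cfsg.subgroupBlockCoeff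 (Subgroup.centralizer (Q : Set G)) f (t : G)) ∧ Cfsg.IsNilpotentBlock p M F' := by
  classical
  have hMp : M.IsPrime := hM.2.1.isPrime
  have := Cfsg.Agent.Blk.charP_kM hM
  obtain ⟨hB, hPe, hof, he⟩ := (Cfsg.Agent.Blk.isMaximalBrauerPair_iff hM).1 hmax
  obtain rfl := (Cfsg.Agent.BlkF.isBlockFusionSystemOn_iff hM hmax he.1 F).1 hF
  have hQ := (Cfsg.Agent.Blk.subpairLE_iff hM hf hPe).1 hle
  have hpair := hQ.left_pair he.1
  have hofQ := (hQ.pairOf_iff he.1).1 hof
  have hD := (Cfsg.Agent.BlkF.isCentric_iff he hQ).1 hcen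
  have hNQ : (⊤ : Subgroup G) ≤ Subgroup.normalizer (Q : Set G) := fun x _ => (hG x).1
  have hfix : Cfsg.Agent.Blk.Fixed ⊤ (Cfsg.Agent.Blk.EB M _ f) := fun x _ =>
    ((Cfsg.Agent.Blk.stabilizesBlock_iff (M := M) hf x).1 (hG x).2).2
  have hblk := hpair.blk.of_centralizer hpair.isPGroup le_top le_top hNQ hfix
  have hself : Cfsg.Agent.Blk.MPairOf p (Cfsg.Agent.Blk.EB M _ f) Q
      (Cfsg.Agent.Blk.EB M _ f) := by
    refine ⟨hpair, hblk, ?_⟩
    rw [Cfsg.Agent.Blk.br_of_supp hpair.blk.supp, hpair.blk.idem]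
  have hEq : Cfsg.Agent.Blk.eB M B = Cfsg.Agent.Blk.EB M _ f := hofQ.unique hself
  constructor
  · intro g
    have h1 := congrArg (fun y : MonoidAlgebra (Cfsg.Agent.Blk.kM M) G => y.coeff g) hEq
    simp only [Cfsg.Agent.Blk.EB_coeff] at h1
    exact (Cfsg.Agent.Blk.rd_eq_iff (Cfsg.Agent.Blk.mlr_blockCoeff hB g)
      (Cfsg.Agent.Blk.mlr_subgroupBlockCoeff hf g)).1 h1
  · have hQT : Q ≤ Q ⊔ Subgroup.centralizer (Q : Set G) := le_sup_left
    have hCT : Subgroup.centralizer (Q : Set G) ≤ Q ⊔ Subgroup.centralizer (Q : Set G) :=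
      le_sup_right
    have hTN : Q ⊔ Subgroup.centralizer (Q : Set G) ≤ Subgroup.normalizer (Q : Set G) :=
      le_top.trans hNQ
    obtain ⟨E, hE1, hE2, hE3⟩ := Cfsg.Agent.Blk.exists_block_stab
      (T := Q ⊔ Subgroup.centralizer (Q : Set G)) hM hpair.isPGroup hf hQT hCT hTN
      (hfix.mono le_top)
    refine ⟨E, hE1, hE2, ?_⟩
    have := Fintype.ofFinite (↥(Q ⊔ Subgroup.centralizer (Q : Set G)))
    rw [Cfsg.Agent.BlkF.isNilpotentBlock_iff hM]
    refine ⟨hE1, ?_⟩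
    have h4 : Cfsg.Agent.Blk.eB M E = Cfsg.Agent.Blk.res (Q ⊔ Subgroup.centralizer (Q : Set G))
        (Cfsg.Agent.Blk.EB M _ f) := by
      apply Cfsg.Agent.Blk.incl_injective
      rw [Cfsg.Agent.Blk.incl_res (hpair.blk.supp.mono hCT), ← hE3, Cfsg.Agent.Blk.EB_eq]
    rw [h4]
    have hnorm := Cfsg.Agent.BlkF.normal_subgroupOf_centralizer Q hTN
    refine Cfsg.Agent.BlkF.mnilp_sup hpair.isPGroup hpair.blk hD rfl ?_
    refine Cfsg.Agent.BlkF.supp_of_index hM ?_
    have h1 : (Subgroup.centralizer (Q : Set G)).relIndex (Q ⊔ Subgroup.centralizer (Q : Set G)) =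
        (Subgroup.centralizer (Q : Set G)).relIndex Q :=
      Cfsg.Agent.BlkF.relIndex_eq_of_mul hQT fun t ht =>
        (Cfsg.Agent.BlkF.mem_sup_centralizer Subgroup.le_normalizer).1 ht
    obtain ⟨n, hn⟩ := IsPGroup.iff_card.1 hpair.isPGroup
    have h2 : (Subgroup.centralizer (Q : Set G)).relIndex Q ∣ p ^ n := by
      rw [← hn]; exact Subgroup.relIndex_dvd_card _ Q
    obtain ⟨m, -, hm⟩ := (Nat.dvd_prime_pow (Fact.out : p.Prime)).1 h2
    exact ⟨m, by rw [← hm, ← h1]; rfl⟩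

end Cfsg.Agent.S4693
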