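import Cfsg.Statements.S4694
import Cfsg.Agent.BlkF.DefZero
import Cfsg.Agent.BlkF.Full

set_option autoImplicit false
open Cfsg

namespace Cfsg.Agent.S4694

/-- Fix a prime p and a maximal ideal M of the algebraic integers containing p, a p-block B of the finite group G and a Brauer pair (Q, e) of B. Let T be the stabilizer of e in N_G(Q) and suppose that (Q, e) carries a weight: the block of T whose idempotent is that of e contains an irreducible character χ that is constant on the cosets of Q and whose degree has p-part equal to the p-part of the index of Q in T. Then Z(Q) is a defect group of e as a block of C_G(Q), and Q is the largest normal p-subgroup of T: every p-subgroup of T normalized by T lies in Q. -/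
theorem result {G : Type*} [Group G] [Fintype G] (p : ℕ) [Fact p.Prime] (M : Ideal Cfsg.AlgInt) (hM : Cfsg.IsPModular p M) (B : Set (Cfsg.IrrCharacter G)) (Q : Subgroup G) (e : Set (Cfsg.IrrCharacter (Subgroup.centralizer (Q : Set G)))) (hQe : Cfsg.IsBrauerPairOf p M B Q e) (T : Subgroup G) (hT : ∀ y : G, y ∈ T ↔ y ∈ Subgroup.normalizer (Q : Set G) ∧ Cfsg.StabilizesBlock (Subgroup.centralizer (Q : Set G)) e y) (F' : Set (Cfsg.IrrCharacter T)) (hF' : Cfsg.IsPBlock M F') (hF'e : ∀ t : T, Cfsg.blockCoeff F' t = Cfsg.subgroupBlockCoeff (Subgroup.centralizer (Q : Set G)) e (t : G)) (χ : Cfsg.IrrCharacter T) (hχ : χ ∈ F') (hχQ : ∀ q : G, q ∈ Q → ∀ t : T, ∀ t' : T, (t' : G) = q * (t : G) → (χ : T → ℂ) t' = (χ : T → ℂ) t) (hdeg : (Cfsg.charDegree (χ : T → ℂ)).factorization p + (Nat.card Q).factorization p = (Nat.card T).factorization p) : Cfsg.IsDefectGroup p M e ((Q ⊓ Subgroup.centralizer (Q : Set G)).subgroupOf (Subgroup.centralizer (Q : Set G))) ∧ ∀ R : Subgroup G, R ≤ T → IsPGroup p R → (∀ t ∈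 T, t ∈ Subgroup.normalizer (R : Set G)) → R ≤ Q := by
  classical
  have := Blk.isPrime_of_isPModular hM
  have := Blk.charP_kM hM
  have hQ : IsPGroup p Q := hQe.1.1
  have he : Cfsg.IsPBlock M e := hQe.1.2
  have heb := Blk.isBlk_EB (M := M) he
  have hTN : T ≤ Subgroup.normalizer (Q : Set G) := fun y hy => ((hT y).1 hy).1
  have hQT : Q ≤ T := by
    intro y hy
    rw [hT, Blk.stabilizesBlock_iff he]
    exact ⟨Subgroup.le_normalizer hy, Blk.normalizer_le_normalizer_centralizer Q
      (Subgroup.le_normalizer hy), heb.supp.fixed_of_centralizer y hy⟩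
  have hCT : Subgroup.centralizer (Q : Set G) ≤ T := by
    intro y hy
    rw [hT, Blk.stabilizesBlock_iff he]
    exact ⟨Blk.centralizer_le_normalizer Q hy, Subgroup.le_normalizer hy, heb.fixed y hy⟩
  have hE : Blk.EB M T F' = Blk.EB M (Subgroup.centralizer (Q : Set G)) e := by
    apply Blk.ga_ext; intro g
    rw [Blk.EB_coeff, Blk.EB_coeff]
    congr 1
    by_cases hg : g ∈ T
    · rw [← hF'e ⟨g, hg⟩]
      unfold Cfsg.subgroupBlockCoeff
      rw [dif_pos hg]
    · unfold Cfsg.subgroupBlockCoeff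
      rw [dif_neg hg, dif_neg (fun h => hg (hCT h))]
  have hker : ∀ t ∈ Q.subgroupOf T, (χ : T → ℂ) t = (χ : T → ℂ) 1 := by
    intro t ht
    exact hχQ t (Subgroup.mem_subgroupOf.1 ht) 1 t (by simp)
  obtain ⟨h1, h2⟩ := BlkF.weight_core hM hQ hQT hCT hTN he hF' hE hχ hker hdeg
  exact ⟨h1, fun R hRT hRp hR => h2 R hRT hRp fun t ht => hR t ht⟩

end Cfsg.Agent.S4694
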