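import Cfsg.Statements.S4697
import Cfsg.Agent.H4.AbBound

set_option autoImplicit false
open Cfsg

namespace Cfsg.Agent.S4697

/-- Let p be a prime, M a maximal ideal of the algebraic integers containing p, and B a p-block of the finite group G with an abelian defect group D of order p^d. If D has rank 2 (its least number of generators is 2) then B contains at most p^d irreducible characters; if D has rank 3 then the number k of irreducible characters in B satisfies k^3 ≤ p^(5d). -/
theorem result {G : Type*} [Group G] [Finite G] (p : ℕ) [Fact p.Prime] (M : Ideal Cfsg.AlgInt) (hM : Cfsg.IsPModular p M) (B : Set (Cfsg.IrrCharacter G)) (hB : Cfsg.IsPBlock M B) (D : Subgroup G) (hBD : Cfsg.IsDefectGroup p M B D) (hab : IsMulCommutative D) (d : ℕ) (hDd : Nat.card D = p ^ d) : (Group.rank D = 2 → Nat.card B ≤ p ^ d) ∧ (Group.rank D = 3 → Nat.card B ^ 3 ≤ p ^ (5 * d)) := by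
  classical
  haveI := Fintype.ofFinite G
  have hcomm : ∀ x ∈ D, ∀ y ∈ D, x * y = y * x := fun x hx y hy =>
    congrArg Subtype.val (hab.is_comm.comm (⟨x, hx⟩ : D) ⟨y, hy⟩)
  haveI := Cfsg.Agent.Blk.isPrime_of_isPModular hM
  have hd : d = Cfsg.blockDefect p B := by
    have h1 := Cfsg.Agent.BlkInd.card_defectGroup hM hB hBD
    rw [hDd] at h1
    exact Nat.pow_right_injective (Fact.out : p.Prime).two_le h1
  obtain ⟨S, hS, hS'⟩ := Group.rank_spec D
  constructor
  · intro hr
    rw [hr, Finset.card_eq_two] at hS
    obtain ⟨x, y, -, rfl⟩ := hS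
    rw [hd]
    refine Cfsg.Agent.H4.card_le_of_two_gen hM hB hBD hcomm (z := x) (w := y) ?_
    rw [← hS']
    congr 1
    simp
  · intro hr
    rw [hr, Finset.card_eq_three] at hS
    obtain ⟨x, y, z, -, -, -, rfl⟩ := hS
    rw [hd]
    have h1 : Subgroup.closure ({x, y, z} : Set D) = ⊤ := by
      rw [← hS']; congr 1; simp
    rcases le_total (orderOf x) (orderOf y) with h | h
    · rcases le_total (orderOf y) (orderOf z) with h' | h'
      · refine Cfsg.Agent.H4.card_cube_le hM hB hBD hcomm (z := z) (w := x) (v := y) ?_ (h.trans h') h'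
        rw [← h1]; congr 1; ext a; simp; tauto
      · refine Cfsg.Agent.H4.card_cube_le hM hB hBD hcomm (z := y) (w := x) (v := z) ?_ h h'
        rw [← h1]; congr 1; ext a; simp; tauto
    · rcases le_total (orderOf x) (orderOf z) with h' | h'
      · refine Cfsg.Agent.H4.card_cube_le hM hB hBD hcomm (z := z) (w := x) (v := y) ?_ h' (h.trans h')
        rw [← h1]; congr 1; ext a; simp; tauto
      · exact Cfsg.Agent.H4.card_cube_le hM hB hBD hcomm h1 h h'


end Cfsg.Agent.S4697
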