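import Cfsg.Statements.S4702
import Cfsg.Agent.H34.Sharp3PGL
import Cfsg.Agent.H73.PGLTwo

set_option autoImplicit false
open Cfsg

namespace Cfsg.Agent.S4702

/-- A triply transitive permutation group of odd degree m in which only the identity fixes three points has degree m = 2^a + 1, and is isomorphic to the group of 2 × 2 matrices of determinant 1 over the field with 2^a elements. -/
theorem result {α : Type*} [Fintype α] [DecidableEq α] (hm : 3 ≤ Fintype.card α) (hodd : Odd (Fintype.card α)) (G : Subgroup (Equiv.Perm α)) (h3 : MulAction.IsMultiplyPretransitive G α 3) (hfix : ∀ g : G, 3 ≤ Nat.card (MulAction.fixedBy α g) → g = 1) : ∃ a : ℕ, 1 ≤ a ∧ Fintype.card α = 2 ^ a + 1 ∧ ∃ (F : Type) (_ : Field F) (_ : Fintype F), Fintype.card F = 2 ^ a ∧ Nonempty (G ≃* Matrix.SpecialLinearGroup (Fin 2) F) := by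
  classical
  have hsharp : ∀ x : Fin 3 ↪ α, MulAction.stabilizer G x = ⊥ := by
    intro x
    rw [eq_bot_iff]
    intro g hg
    rw [Subgroup.mem_bot]
    apply hfix
    have hg' : ∀ i, g • x i = x i := by
      intro i
      have := congrArg (fun e : Fin 3 ↪ α => e i) (MulAction.mem_stabilizer_iff.mp hg)
      exact this
    have h1 : Nat.card (Set.range x) = 3 := by
      rw [Nat.card_range_of_injective x.injective, Nat.card_eq_fintype_card, Fintype.card_fin]
    rw [← h1]
    refine Nat.card_mono (Set.toFinite _) ?_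
    rintro _ ⟨i, rfl⟩
    exact hg' i
  have hS := Cfsg.Agent.H34.sharp3_of h3 hsharp
  obtain ⟨i, z, e, hiz, hie, hze⟩ := Fintype.two_lt_card_iff.mp (show 2 < Fintype.card α by omega)
  obtain ⟨F, hF, hFt, hc, ⟨φ⟩⟩ := hS.iso_pgl_even hiz hze hie (by rw [Nat.card_eq_fintype_card]; exact hodd)
  rw [Nat.card_eq_fintype_card] at hc
  have heven : Even (Fintype.card F) := by
    rw [hc]
    obtain ⟨k, hk⟩ := hodd
    exact ⟨k, by omega⟩
  obtain ⟨h2, a, ha, hca⟩ := Cfsg.Agent.H73.PGLTwo.two_eq_zero_of_even heven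
  obtain ⟨ψ⟩ := Cfsg.Agent.H73.PGLTwo.nonempty_pgl_sl h2
  exact ⟨a, ha, by omega, F, hF, hFt, hca, ⟨φ.trans ψ⟩⟩

end Cfsg.Agent.S4702
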