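import Cfsg.Statements.S4705
import Cfsg.Agent.BT.PM2L

set_option autoImplicit false
open Cfsg

namespace Cfsg.Agent.S4705

/-- Let G be a finite group with centre Z and p > 5 a prime such that a Sylow p-subgroup of G has order p and is not normal. If G has a faithful irreducible character of degree p − 2, then p = 2^a + 1 for some a and G is isomorphic to the direct product of SL(2, 2^a) with Z. -/
theorem result {G : Type*} [Group G] [Finite G] (p : ℕ) [Fact p.Prime] (hp : 5 < p) (P : Sylow p G) (hP : Nat.card P = p) (hnn : ¬ (P : Subgroup G).Normal) (ζ : G → ℂ) (hζ : Cfsg.IsIrrCharacter G ζ) (hfaith : ∀ g : G, ζ g = ζ 1 → g = 1) (hdeg : Cfsg.charDegree ζ = p - 2) : ∃ (a : ℕ) (F : Type) (_ : Field F) (_ : Fintype F), p = 2 ^ a + 1 ∧ Fintype.card F = 2 ^ a ∧ Nonempty (G ≃* Matrix.SpecialLinearGroup (Fin 2) F × Subgroup.center G) := by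
  obtain ⟨m, F, h1, h2, h3, h4, h5⟩ := Cfsg.Agent.BT.pm2_main
    (Cfsg.Agent.BR.Sp.of_sylow P hP) hp hnn (ζ := ⟨ζ, hζ⟩)
    (by
      have : Cfsg.Agent.BR.dg (⟨ζ, hζ⟩ : Cfsg.IrrCharacter G) = p - 2 := hdeg
      omega) hfaith
  exact ⟨m, F, h1, h2, h3, h4, h5⟩

end Cfsg.Agent.S4705
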