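import Cfsg.Statements.S4707
import Cfsg.Agent.BT.Deg2p

set_option autoImplicit false
open Cfsg

namespace Cfsg.Agent.S4707

/-- Let p > 3 be a prime and G a primitive permutation group of degree 2p that is not doubly transitive. If a Sylow p-subgroup of G has normalizer of order 2p, then p = 5 and G is isomorphic to the alternating group of degree 5. -/
theorem result {α : Type*} [Fintype α] [DecidableEq α] {p : ℕ} [Fact p.Prime] (hp : 3 < p) (hα : Fintype.card α = 2 * p) (G : Subgroup (Equiv.Perm α)) (hprim : MulAction.IsPreprimitive G α) (hnot2 : ¬ MulAction.IsMultiplyPretransitive G α 2) (P : Sylow p G) (hN : Nat.card (Subgroup.normalizer ((P : Subgroup G) : Set G)) = 2 * p) : p = 5 ∧ Nonempty (G ≃* alternatingGroup (Fin 5)) := by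
  have hpp : p.Prime := Fact.out
  have hfin : Finite G := inferInstance
  have hcard : Nat.card (P : Subgroup G) = p := by
    obtain ⟨k, hk⟩ := (IsPGroup.iff_card (p := p)).mp P.2
    have h1 : Nat.card (P : Subgroup G) ∣ 2 * p := by
      rw [← hN]
      exact Subgroup.card_dvd_of_le Subgroup.le_normalizer
    have h2 : p ∣ Nat.card G := by
      have h3 := Subgroup.card_subgroup_dvd_card (Subgroup.normalizer ((P : Subgroup G) : Set G))
      rw [hN] at h3
      exact (Dvd.intro_left 2 rfl).trans h3
    have h3 : k ≠ 0 := by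
      rintro rfl
      rw [pow_zero] at hk
      have h4 := (P : Subgroup G).card_mul_index
      rw [hk, one_mul] at h4
      rw [← h4] at h2
      exact P.not_dvd_index h2
    have h4 : ¬ 2 ≤ k := by
      intro h
      have h5 : p ^ 2 ∣ 2 * p := (Nat.pow_dvd_pow p h).trans (hk ▸ h1)
      have h6 : p ∣ 2 := by
        rw [pow_two] at h5
        exact Nat.dvd_of_mul_dvd_mul_right hpp.pos h5
      have := Nat.le_of_dvd (by norm_num) h6
      omega
    have h5 : k = 1 := by omega
    rw [hk, h5, pow_one]
  exact Cfsg.Agent.BT.deg2p_main hp hα G hprim hnot2 (Cfsg.Agent.BR.Sp.of_sylow P hcard) hN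


end Cfsg.Agent.S4707
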