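import Cfsg.Statements.S4712
import Cfsg.Agent.H4.PRat

set_option autoImplicit false
open Cfsg

namespace Cfsg.Agent.S4712

open Cfsg.Agent

theorem exists_gen (p : ℕ) [hp : Fact p.Prime] (hodd : p ≠ 2) (n : ℕ) (hn : n ≠ 0) :
    ∃ k : ℕ, k.Coprime n ∧ k ≡ 1 [MOD n / p ^ n.factorization p] ∧
      ∀ k' : ℕ, k'.Coprime n → k' ≡ 1 [MOD n / p ^ n.factorization p] → ∃ j : ℕ, k' ≡ k ^ j [MOD n] := by
  obtain ⟨a, ha⟩ : ∃ a, a = n.factorization p := ⟨_, rfl⟩
  obtain ⟨m, hm⟩ : ∃ m, m = n / p ^ n.factorization p := ⟨_, rfl⟩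
  rw [← hm]
  have hnm : p ^ a * m = n := by rw [ha, hm]; exact Nat.ordProj_mul_ordCompl_eq_self n p
  have hcop : (p ^ a).Coprime m := by
    rw [hm]
    exact Nat.Coprime.pow_left _ (Nat.coprime_ordCompl hp.out hn)
  have hcyc : IsCyclic (ZMod (p ^ a))ˣ := ZMod.isCyclic_units_of_prime_pow p hp.out hodd a
  haveI : NeZero (p ^ a) := ⟨pow_ne_zero _ hp.out.ne_zero⟩
  obtain ⟨u, hu⟩ := IsCyclic.exists_monoid_generator (α := (ZMod (p ^ a))ˣ)
  obtain ⟨k, hk1, hk2⟩ := Nat.chineseRemainder hcop (u : ZMod (p ^ a)).val 1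
  have hkc1 : k.Coprime (p ^ a) := by
    have h1 := ZMod.val_coe_unit_coprime u
    have h2 : Nat.gcd k (p ^ a) = Nat.gcd (u : ZMod (p ^ a)).val (p ^ a) := hk1.gcd_eq
    unfold Nat.Coprime at *
    rw [h2]; exact h1
  have hkc2 : k.Coprime m := by
    have h2 : Nat.gcd k m = Nat.gcd 1 m := hk2.gcd_eq
    unfold Nat.Coprime
    rw [h2]; exact Nat.gcd_one_left m
  refine ⟨k, ?_, hk2, ?_⟩
  · rw [← hnm]; exact Nat.Coprime.mul_right hkc1 hkc2
  · intro k' hk' hk'1
    have hc' : k'.Coprime (p ^ a) := Nat.Coprime.coprime_dvd_right (Dvd.intro _ hnm) hk'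
    obtain ⟨j, hj⟩ := hu (ZMod.unitOfCoprime k' hc')
    refine ⟨j, ?_⟩
    rw [← hnm]
    refine (Nat.modEq_and_modEq_iff_modEq_mul hcop).1 ⟨?_, ?_⟩
    · rw [← ZMod.natCast_eq_natCast_iff]
      have h1 := congrArg (fun x : (ZMod (p ^ a))ˣ => (x : ZMod (p ^ a))) hj
      simp only [Units.val_pow_eq_pow_val, ZMod.coe_unitOfCoprime] at h1
      rw [← h1]
      push_cast
      congr 1
      have h2 : (k : ZMod (p ^ a)) = (((u : ZMod (p ^ a)).val : ℕ) : ZMod (p ^ a)) := by
        rw [ZMod.natCast_eq_natCast_iff]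
        exact hk1
      rw [h2, ZMod.natCast_zmod_val]
    · refine hk'1.trans ?_
      have := (hk2.pow j).symm
      rwa [one_pow] at this

/-- Let p be an odd prime, M a maximal ideal of the algebraic integers containing p, G a finite group of order n with p-part p^a, and B a p-block of G. Call an irreducible character χ p-rational when χ(g^k) = χ(g) for every g and every k coprime to n with k ≡ 1 modulo n/p^a (χ is fixed by the Galois automorphisms fixing the roots of unity of order prime to p). Then the number of p-rational irreducible characters in B is at least the p-regular rank of B (the number of irreducible Brauer characters in B). -/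
theorem result {G : Type*} [Group G] [Finite G] (p : ℕ) [Fact p.Prime] (hodd : p ≠ 2) (M : Ideal Cfsg.AlgInt) (hM : Cfsg.IsPModular p M) (B : Set (Cfsg.IrrCharacter G)) (hB : Cfsg.IsPBlock M B) : Cfsg.blockRank p B ≤ Nat.card {χ : Cfsg.IrrCharacter G // χ ∈ B ∧ ∀ k : ℕ, Nat.Coprime k (Nat.card G) → k ≡ 1 [MOD Nat.card G / p ^ (Nat.card G).factorization p] → ∀ g : G, (χ : G → ℂ) (g ^ k) = (χ : G → ℂ) g} := by

  classical
  haveI := Fintype.ofFinite G
  obtain ⟨k, hk1, hk2, hk3⟩ := exists_gen p hodd (Nat.card G) Nat.card_pos.ne'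
  have hreg : ∀ s : G, ¬ p ∣ orderOf s → s ^ k = s := by
    intro s hs
    have h1 : orderOf s ∣ Nat.card G / p ^ (Nat.card G).factorization p := by
      have h2 : orderOf s ∣ p ^ (Nat.card G).factorization p *
          (Nat.card G / p ^ (Nat.card G).factorization p) := by
        rw [Nat.ordProj_mul_ordCompl_eq_self]
        exact orderOf_dvd_natCard s
      refine Nat.Coprime.dvd_of_dvd_mul_left ?_ h2
      exact Nat.Coprime.pow_right _ (((Nat.Prime.coprime_iff_not_dvd (Fact.out : p.Prime)).2 hs).symm)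
    have h3 : k ≡ 1 [MOD orderOf s] := hk2.of_dvd h1
    have h4 := (pow_eq_pow_iff_modEq (x := s) (n := k) (m := 1)).2 h3
    rw [h4, pow_one]
  refine (H4.PRat.blockRank_le hM hB hreg hk1).trans ?_
  rw [← Nat.card_eq_finsetCard]
  haveI : Finite (Cfsg.IrrCharacter G) := inferInstance
  refine Nat.card_le_card_of_injective
    (fun χ : ((BlkC.Bfin B).filter (fun χ : Cfsg.IrrCharacter G =>
      ∀ g : G, (χ : G → ℂ) (g ^ k) = (χ : G → ℂ) g)) => (⟨χ.1, ?_, ?_⟩ : {χ : Cfsg.IrrCharacter G // χ ∈ B ∧ ∀ k : ℕ, Nat.Coprime k (Nat.card G) → k ≡ 1 [MOD Nat.card G / p ^ (Nat.card G).factorization p] → ∀ g : G, (χ : G → ℂ) (g ^ k) = (χ : G → ℂ) g})) ?_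
  · exact BlkC.mem_Bfin.1 (Finset.mem_filter.1 χ.2).1
  · intro k' hk'1 hk'2 g
    obtain ⟨j, hj⟩ := hk3 k' hk'1 hk'2
    have h1 : g ^ k' = g ^ k ^ j :=
      (pow_eq_pow_iff_modEq (x := g)).2 (hj.of_dvd (orderOf_dvd_natCard g))
    rw [h1]
    have hfix := (Finset.mem_filter.1 χ.2).2
    clear h1 hj
    induction j with
    | zero => rw [pow_zero, pow_one]
    | succ j ih =>
      rw [pow_succ, pow_mul, hfix, ih]
  · intro χ χ' h
    exact Subtype.ext (congrArg (fun z => z.1) h)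


end Cfsg.Agent.S4712
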