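import Cfsg.Statements.S4714
import Cfsg.Agent.BlkInd.Canon2

set_option autoImplicit false
open Cfsg

namespace Cfsg.Agent.S4714

/-- Let p be a prime, M a maximal ideal of the algebraic integers containing p, D a p-subgroup of the finite group G with G = D·C_G(D), and B a p-block with defect group D. Let χ be a member of B having D in its kernel (there is exactly one, the canonical character of B). Then the irreducible characters in B are exactly the functions θ on G for which there is an irreducible character ζ of D such that θ(yx) = ζ(y)χ(x) whenever y ∈ D, x has order prime to p and x commutes with y, and θ(z) = 0 whenever the p-part of z does not lie in D. -/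
theorem result {G : Type*} [Group G] [Finite G] (p : ℕ) [Fact p.Prime] (M : Ideal Cfsg.AlgInt) (hM : Cfsg.IsPModular p M) (D : Subgroup G) (hD : IsPGroup p D) (hG : D ⊔ Subgroup.centralizer (D : Set G) = ⊤) (B : Set (Cfsg.IrrCharacter G)) (hB : Cfsg.IsPBlock M B) (hBD : Cfsg.IsDefectGroup p M B D) (χ : Cfsg.IrrCharacter G) (hχ : χ ∈ B) (hχD : ∀ y ∈ D, (χ : G → ℂ) y = (χ : G → ℂ) 1) : (∀ θ : Cfsg.IrrCharacter G, θ ∈ B ↔ ∃ ζ : Cfsg.IrrCharacter D, (∀ (y : D) (x : G), ¬ p ∣ orderOf x → Commute (y : G) x → (θ : G → ℂ) ((y : G) * x) = (ζ : D → ℂ) y * (χ : G → ℂ) x) ∧ (∀ z : G, (∀ y : G, Cfsg.IsPPart p z y → y ∉ D) → (θ : G → ℂ) z = 0)) ∧ ∀ ζ : Cfsg.IrrCharacter D, ∃ θ ∈ B, (∀ (y : D) (x : G), ¬ p ∣ orderOf x → Commute (y : G) x → (θ : G → ℂ) ((y : G) * x) = (ζ : D → ℂ) y * (χ : G → ℂ) x) ∧ (∀ z : G, (∀ y : G, Cfsg.IsPPart p z y → y ∉ D) → (θ : G → ℂ) z = 0) := by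
  classical
  have : M.IsPrime := hM.2.1.isPrime
  have := Fintype.ofFinite G
  obtain ⟨f, hf⟩ := Cfsg.Agent.BlkInd.canon_classification hM hG hD hB hBD hχ hχD
  have key : ∀ ζ : Cfsg.IrrCharacter D, (∀ (y : D) (x : G), ¬ p ∣ orderOf x → Commute (y : G) x →
      Cfsg.Agent.BlkInd.canonMul p D (ζ : D → ℂ) (χ : G → ℂ) ((y : G) * x) = (ζ : D → ℂ) y * (χ : G → ℂ) x) ∧
      (∀ z : G, (∀ y : G, Cfsg.IsPPart p z y → y ∉ D) →
        Cfsg.Agent.BlkInd.canonMul p D (ζ : D → ℂ) (χ : G → ℂ) z = 0) := by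
    intro ζ
    constructor
    · intro y x hx _
      exact Cfsg.Agent.BlkInd.canonMul_section hG hD _ (Cfsg.Agent.CharBase.irr_isCharacter χ) hχD y hx
    · intro z hz
      have h1 := hz _ (Cfsg.Agent.BlkInd.ppart_spec z)
      unfold Cfsg.Agent.BlkInd.canonMul
      rw [Cfsg.Agent.Char.extendByZero_of_notMem D _ h1, zero_mul]
  constructor
  · intro θ
    constructor
    · intro hθ
      refine ⟨f.symm ⟨θ, hθ⟩, ?_⟩
      have h1 := hf (f.symm ⟨θ, hθ⟩)
      rw [f.apply_symm_apply] at h1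
      have h2 := key (f.symm ⟨θ, hθ⟩)
      rw [← h1] at h2
      exact h2
    · rintro ⟨ζ, h1, h2⟩
      have h3 : (θ : G → ℂ) = Cfsg.Agent.BlkInd.canonMul p D (ζ : D → ℂ) (χ : G → ℂ) := by
        funext z
        have hs := Cfsg.Agent.BlkInd.ppart_spec (p := p) z
        by_cases hz : Cfsg.Agent.BlkInd.ppart p z ∈ D
        · obtain ⟨s, hs1, hs2, hs3, hs4⟩ := hs
          have h4 := h1 ⟨_, hz⟩ s hs4 hs2
          have h5 := (key ζ).1 ⟨_, hz⟩ s hs4 hs2
          simp only [hs1] at h4 h5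
          rw [h4, h5]
        · have h4 : ∀ y : G, Cfsg.IsPPart p z y → y ∉ D := by
            intro y hy
            rwa [Cfsg.Agent.BlkInd.isPPart_unique (Fact.out) hy hs]
          rw [h2 z h4, (key ζ).2 z h4]
      have h4 : θ = ((f ζ : B) : Cfsg.IrrCharacter G) := Subtype.ext (h3.trans (hf ζ).symm)
      rw [h4]
      exact (f ζ).2
  · intro ζ
    refine ⟨(f ζ : B), (f ζ).2, ?_⟩
    rw [hf ζ]
    exact key ζ

end Cfsg.Agent.S4714
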