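import Cfsg.Statements.S4715
import Cfsg.Agent.BlkInd.HtCenter
import Cfsg.Agent.BlkInd.Link

set_option autoImplicit false
open Cfsg

namespace Cfsg.Agent.S4715

/-- Let p be a prime, M a maximal ideal of the algebraic integers containing p, B a p-block of the finite group G with defect group D of order p^d, H = D·C_G(D), b a block of H inducing B, T the stabilizer of b in N_G(D) and e = [T : H] the inertial index of B; let n be the integer with p^n ≤ e < p^(n+1) and p^c the order of the centre of D. Then every irreducible character in B has height h with h + c ≤ n + d. -/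
theorem result {G : Type*} [Group G] [Finite G] (p : ℕ) [Fact p.Prime] (M : Ideal Cfsg.AlgInt) (hM : Cfsg.IsPModular p M) (B : Set (Cfsg.IrrCharacter G)) (hB : Cfsg.IsPBlock M B) (D : Subgroup G) (hBD : Cfsg.IsDefectGroup p M B D) (d : ℕ) (hDd : Nat.card D = p ^ d) (H : Subgroup G) (hH : H = D ⊔ Subgroup.centralizer (D : Set G)) (b : Set (Cfsg.IrrCharacter H)) (hind : Cfsg.IsInducedBlock M H b B) (T : Subgroup G) (hT : ∀ g : G, g ∈ T ↔ (g ∈ Subgroup.normalizer (D : Set G) ∧ ∀ θ ∈ b, ∀ θ' : Cfsg.IrrCharacter H, (∀ h h' : H, (h' : G) = g * h * g⁻¹ → (θ' : H → ℂ) h' = (θ : H → ℂ) h) → θ' ∈ b)) (e : ℕ) (he : H.relIndex T = e) (n : ℕ) (hn : p ^ n ≤ e ∧ e < p ^ (n + 1)) (c : ℕ) (hc : Nat.card (Subgroup.center D) = p ^ c) : ∀ χ ∈ B, Cfsg.blockHeight p B (χ : G → ℂ) + c ≤ n + d := by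
  classical
  intro χ hχ
  haveI := Fintype.ofFinite G
  have hMp : M.IsPrime := hM.2.1.isPrime
  have := Cfsg.Agent.Blk.charP_kM hM
  obtain ⟨hmax, hof⟩ := Cfsg.Agent.BlkInd.mmax_of_induced hM hB hBD hH hind
  have hd : d = Cfsg.blockDefect p B := by
    have h1 := Cfsg.Agent.BlkInd.card_defectGroup hM hB hBD
    rw [hDd] at h1
    exact Nat.pow_right_injective (Fact.out : p.Prime).two_le h1
  rw [hd]
  refine Cfsg.Agent.BlkInd.height_center hM hB hmax hof (H := H) (T := T) ?_ ?_ hχ ?_ (by
    rw [he]; exact hn.2)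
  · intro t ht
    rw [Cfsg.Agent.Blk.mem_stab] at ht
    rw [hT]
    refine ⟨ht.1, fun θ hθ θ' h => ?_⟩
    refine Cfsg.Agent.BlkInd.mem_of_stab_EB hind.1 ?_ ht.2 hθ h
    rw [hH]
    have h1 : (D ⊔ Subgroup.centralizer (D : Set G)).map (MulAut.conj t).toMonoidHom =
        D ⊔ Subgroup.centralizer (D : Set G) := by
      rw [Subgroup.map_sup, Cfsg.Agent.Blk.map_conj_centralizer,
        Cfsg.Agent.Blk.map_conj_of_mem_normalizer ht.1]
    exact Cfsg.Agent.BlkF.mem_normalizer_of_cjS_eq h1
  · intro z hz h hh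
    have h1 : H ≤ Subgroup.centralizer ({z} : Set G) := by
      rw [hH, sup_le_iff]
      constructor
      · intro x hx
        rw [Subgroup.mem_centralizer_singleton_iff]
        exact Subgroup.mem_centralizer_iff.mp hz.2 x hx
      · intro x hx
        rw [Subgroup.mem_centralizer_singleton_iff]
        exact (Subgroup.mem_centralizer_iff.mp hx z hz.1).symm
    have h2 := Subgroup.mem_centralizer_singleton_iff.mp (h1 hh)
    rw [h2, mul_inv_cancel_right]
  · rw [← Cfsg.Agent.BlkInd.center_map_subtype, ← hc]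
    exact (Nat.card_congr ((Subgroup.center D).equivMapOfInjective _
      (Subgroup.subtype_injective _)).toEquiv).symm

end Cfsg.Agent.S4715
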