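import Cfsg.Statements.S4721
import Cfsg.Agent.H79.AbelInv3

set_option autoImplicit false
open Cfsg

namespace Cfsg.Agent.S4721

/-- Let p be a prime, M a maximal ideal of the algebraic integers containing p, and G a finite group with a nontrivial abelian Sylow p-subgroup P, N = N_G(P), C = C_G(P), such that N/C is cyclic of order 3, #P > 4, and C_G(y) ∩ N = C for every non-identity y ∈ P. Then the principal p-block is the disjoint union of a set X of exactly 3 characters containing the principal character and a set Y of (#P − 1)/3 characters, with signs a_χ = ±1 (χ ∈ X, a = 1 at the principal character) and δ = ±1 such that every χ ∈ X takes the value a_χ at every element whose p-part is a non-identity element of P, and there is a map ζ from the non-principal linear characters of P onto Y, constant on N-conjugacy classes, with ζ_ψ(z) = δ·Σ ψ'(y) over the N-orbit of ψ, for z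 with p-part y ≠ 1 in P. If moreover G has an involution lying in no proper normal subgroup of G, then exactly two of the three numbers −δ and a_χ (χ ∈ X non-principal) equal −1, and the product of the degrees of the two non-principal members of X and of any member of Y is a perfect square. -/
theorem result {G : Type*} [Group G] [Finite G] (p : ℕ) [Fact p.Prime] (M : Ideal Cfsg.AlgInt) (hM : Cfsg.IsPModular p M) (P : Sylow p G) (hab : IsMulCommutative P) (hP1 : Nat.card P ≠ 1) (hCN : (Subgroup.centralizer ((P : Subgroup G) : Set G)).relIndex (Subgroup.normalizer ((P : Subgroup G) : Set G)) = 3) (hcyc : ∃ g : G, g ∈ Subgroup.normalizer ((P : Subgroup G) : Set G) ∧ Subgroup.centralizer ((P : Subgroup G) : Set G) ⊔ Subgroup.zpowers g = Subgroup.normalizer ((P : Subgroup G) : Set G)) (hm2 : 3 + 1 < Nat.card P) (hfrob : ∀ y : G, y ∈ (P : Subgroup G) → y ≠ 1 → Subgroup.centralizer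 ({y} : Set G) ⊓ Subgroup.normalizer ((P : Subgroup G) : Set G) = Subgroup.centralizer ((P : Subgroup G) : Set G)) : ∃ (X Y : Set (Cfsg.IrrCharacter G)), Cfsg.principalBlock M G = X ∪ Y ∧ Disjoint X Y ∧ Nat.card X = 3 ∧ Nat.card Y = (Nat.card P - 1) / 3 ∧ (∃ χ₁ ∈ X, (χ₁ : G → ℂ) = fun _ => 1) ∧ ∃ (a : Cfsg.IrrCharacter G → ℤ) (δ : ℤ) (ζ : (↥(P : Subgroup G) →* ℂˣ) → Cfsg.IrrCharacter G), (δ = 1 ∨ δ = -1) ∧ (∀ χ ∈ X, (a χ = 1 ∨ a χ = -1) ∧ ∀ z y : G, Cfsg.IsPPart p z y → y ∈ (P : Subgroup G) → y ≠ 1 → (χ : G → ℂ) z = (a χ : ℂ)) ∧ (∀ ψ : ↥(P : Subgroup G) →* ℂˣ, ψ ≠ 1 → ζ ψ ∈ Y) ∧ (∀ η ∈ Y, ∃ ψ : ↥(P : Subgroup G) →* ℂˣ, ψ ≠ 1 ∧ ζ ψ = η) ∧ (∀ ψ ψ' : ↥(P : Subgroup G) →* ℂˣ, ψ ≠ 1 → (∃ n : G, n ∈ Subgroup.normalizer ((P : Subgroup G) : Set G) ∧ ∀ w w' : ↥(P : Subgroup G), (w' : G) = n * w * n⁻¹ → ψ' w' = ψ w) → ζ ψ' = ζ ψ) ∧ (∀ ψ : ↥(P : Subgroup G) →* ℂˣ, ψ ≠ 1 → ∀ (z : G) (y :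 ↥(P : Subgroup G)), Cfsg.IsPPart p z (y : G) → (y : G) ≠ 1 → (ζ ψ : G → ℂ) z = (δ : ℂ) * ∑ᶠ ψ' ∈ {ψ' : ↥(P : Subgroup G) →* ℂˣ | ∃ n : G, n ∈ Subgroup.normalizer ((P : Subgroup G) : Set G) ∧ ∀ w w' : ↥(P : Subgroup G), (w' : G) = n * w * n⁻¹ → ψ' w' = ψ w}, ((ψ' y : ℂˣ) : ℂ)) ∧ ((∃ t : G, orderOf t = 2 ∧ ∀ K : Subgroup G, K.Normal → t ∈ K → K = ⊤) → Nat.card {χ : Cfsg.IrrCharacter G // χ ∈ X ∧ (χ : G → ℂ) ≠ (fun _ => 1) ∧ a χ = -1} + (if δ = 1 then 1 else 0) = 2 ∧ ∀ η ∈ Y, IsSquare (Cfsg.charDegree (η : G → ℂ) * ∏ᶠ χ ∈ {χ : Cfsg.IrrCharacter G | χ ∈ X ∧ (χ : G → ℂ) ≠ fun _ => 1}, Cfsg.charDegree (χ : G → ℂ))) := by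
  classical
  have hfr : Cfsg.Agent.H79.FrobAb (P : Subgroup G) 3 :=
    { hab := fun a ha b hb => congrArg Subtype.val
        (hab.is_comm.comm (⟨a, ha⟩ : (P : Subgroup G)) ⟨b, hb⟩)
      frob := hfrob
      idx := hCN }
  obtain ⟨r, ψ, ε, μ, a, hr, hr2, hψ1, hcov, hψinj, hε, hinj, hmem, hX, hY, hcard, hreg, hlin,
    hone, hone1⟩ := Cfsg.Agent.H79.structure_three hM hfr hm2
  have := Fintype.ofFinite (Cfsg.IrrCharacter G)
  have hdiv : (Nat.card P - 1) / 3 = r := by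
    rw [← hr, Nat.add_sub_cancel, Nat.mul_div_cancel_left r (by norm_num)]
  let i₀ : Fin r := ⟨0, by omega⟩
  let ζ : ((P : Subgroup G) →* ℂˣ) → Cfsg.IrrCharacter G := fun φ =>
    if h : φ ≠ 1 then μ (Classical.choose (hcov φ h)) else μ i₀
  have hζ : ∀ (φ : (P : Subgroup G) →* ℂˣ) (h : φ ≠ 1) (i : Fin r),
      Cfsg.Agent.H79.Rel φ (ψ i) → ζ φ = μ i := by
    intro φ h i hi
    have h1 : ζ φ = μ (Classical.choose (hcov φ h)) := dif_pos h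
    rw [h1]
    congr 1
    exact hψinj _ _ ((Classical.choose_spec (hcov φ h)).symm.trans hi)
  have hset : ∀ φ : (P : Subgroup G) →* ℂˣ, {ψ' : ↥(P : Subgroup G) →* ℂˣ | ∃ n : G,
      n ∈ Subgroup.normalizer ((P : Subgroup G) : Set G) ∧
        ∀ w w' : ↥(P : Subgroup G), (w' : G) = n * w * n⁻¹ → ψ' w' = φ w} =
      {ψ' | Cfsg.Agent.H79.Rel φ ψ'} := by
    intro φ
    ext ψ'
    exact (Cfsg.Agent.H79.rel_iff φ ψ').symm
  refine ⟨Cfsg.principalBlock M G \ Set.range μ,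
    Set.range μ, ?_, disjoint_sdiff_self_left, hcard, ?_, ?_, a, ε, ζ, hε, ?_, ?_, ?_, ?_, ?_, ?_⟩
  · rw [Set.sdiff_union_of_subset]
    rintro _ ⟨i, rfl⟩
    exact hmem i
  · rw [hdiv, Nat.card_congr (Equiv.ofInjective μ hinj).symm, Nat.card_eq_fintype_card,
      Fintype.card_fin]
  · exact ⟨_, hone, rfl⟩
  · exact fun χ hχ => hX χ hχ
  · intro φ hφ
    obtain ⟨i, hi⟩ := hcov φ hφ
    exact ⟨i, (hζ φ hφ i hi).symm⟩
  · rintro _ ⟨i, rfl⟩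
    exact ⟨ψ i, hψ1 i, hζ (ψ i) (hψ1 i) i (Cfsg.Agent.H79.Rel.refl _)⟩
  · intro φ φ' hφ hn
    have hr' : Cfsg.Agent.H79.Rel φ φ' := (Cfsg.Agent.H79.rel_iff φ φ').2 hn
    obtain ⟨i, hi⟩ := hcov φ hφ
    rw [hζ φ hφ i hi, hζ φ' (hr'.symm.ne_one hφ) i (hr'.symm.trans hi)]
  · intro φ hφ z y hz hy1
    obtain ⟨i, hi⟩ := hcov φ hφ
    rw [hζ φ hφ i hi, hY i z y hz hy1, hset]
    have h1 : {ψ' : ↥(P : Subgroup G) →* ℂˣ | Cfsg.Agent.H79.Rel φ ψ'} =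
        {ψ' | Cfsg.Agent.H79.Rel (ψ i) ψ'} := by
      ext ψ'
      exact ⟨fun h => hi.symm.trans h, fun h => hi.trans h⟩
    rw [h1]
    rfl
  · rintro ⟨t, ht, hK⟩
    refine ⟨(Cfsg.Agent.H79.invol_three hM hfr hm2 ψ μ a hψ1 hcov hψinj hε hinj hmem hX hY hcard
      hreg hlin hone hone1 ht hK i₀).1, ?_⟩
    rintro _ ⟨i, rfl⟩
    exact (Cfsg.Agent.H79.invol_three hM hfr hm2 ψ μ a hψ1 hcov hψinj hε hinj hmem hX hY hcard
      hreg hlin hone hone1 ht hK i).2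

end Cfsg.Agent.S4721
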