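import Cfsg.Statements.S4722
import Cfsg.Agent.H79.Columns

set_option autoImplicit false
open Cfsg

namespace Cfsg.Agent.S4722

/-- Let M be a maximal ideal of the algebraic integers containing 2, P a 2-subgroup of the finite group G, U a subset of P, and t an involution of G such that no element of U is inverted by any conjugate of t. Let θ be a generalized character of P vanishing outside U, and for χ in the principal 2-block B₀ put a_χ = #P⁻¹ Σ_{y ∈ P} χ(y) θ(y⁻¹). Then Σ_{χ ∈ B₀} a_χ χ(t)^2/χ(1) = 0, Σ_{χ ∈ B₀} a_χ χ(1) = 0 and Σ_{χ ∈ B₀} a_χ χ(t) = 0. If moreover #P⁻¹ Σ_{y ∈ P} θ(y) ≠ 0, then either at least two of the a_χ have positive real part and at least two have negative real part, or G has a proper normal subgroup containing O_2'(G) and t. -/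
theorem result {G : Type*} [Group G] [Finite G] (M : Ideal Cfsg.AlgInt) (hM : Cfsg.IsPModular 2 M) (P : Subgroup G) (hP : IsPGroup 2 P) (U : Set G) (hUP : U ⊆ (P : Set G)) (t : G) (ht : orderOf t = 2) (hinv : ∀ u ∈ U, ∀ g : G, (g * t * g⁻¹) * u * (g * t * g⁻¹)⁻¹ ≠ u⁻¹) (θ : ↥P → ℂ) (hθ : Cfsg.IsGeneralizedCharacter ↥P θ) (hθU : ∀ y : ↥P, (y : G) ∉ U → θ y = 0) : (∑ᶠ χ ∈ Cfsg.principalBlock M G, ((Nat.card ↥P : ℂ)⁻¹ * ∑ᶠ y : ↥P, (χ : G → ℂ) (y : G) * θ y⁻¹) * (χ : G → ℂ) t ^ 2 / (χ : G → ℂ) 1 = 0) ∧ (∑ᶠ χ ∈ Cfsg.principalBlock M G, ((Nat.card ↥P : ℂ)⁻¹ * ∑ᶠ y : ↥P, (χ : G → ℂ) (y : G) * θ y⁻¹) * (χ : G → ℂ) 1 = 0) ∧ (∑ᶠ χ ∈ Cfsg.principalBlock M G, ((Nat.card ↥P : ℂ)⁻¹ * ∑ᶠ y : ↥P, (χ : G → ℂ) (y : G) * θ y⁻¹) * (χ : G → ℂ) t = 0) ∧ ((Nat.card ↥P : ℂ)⁻¹ * ∑ᶠ y : ↥P, θ y ≠ 0 → (2 ≤ Nat.card {χ : Cfsg.IrrCharacter G // χ ∈ Cfsg.principalBlock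 M G ∧ 0 < (((Nat.card ↥P : ℂ)⁻¹ * ∑ᶠ y : ↥P, (χ : G → ℂ) (y : G) * θ y⁻¹)).re} ∧ 2 ≤ Nat.card {χ : Cfsg.IrrCharacter G // χ ∈ Cfsg.principalBlock M G ∧ (((Nat.card ↥P : ℂ)⁻¹ * ∑ᶠ y : ↥P, (χ : G → ℂ) (y : G) * θ y⁻¹)).re < 0}) ∨ ∃ K : Subgroup G, K.Normal ∧ K ≠ ⊤ ∧ Cfsg.pPrimeCore 2 G ≤ K ∧ t ∈ K) := by
  classical
  haveI : Fact (Nat.Prime 2) := ⟨Nat.prime_two⟩
  haveI := Fintype.ofFinite G
  haveI := Fintype.ofFinite (Cfsg.IrrCharacter G)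
  haveI := Cfsg.Agent.Blk.isPrime_of_isPModular hM
  have htt : t * t = 1 := by
    have := pow_orderOf_eq_one t
    rwa [ht, pow_two] at this
  have htp : ∃ k : ℕ, orderOf t = 2 ^ k := ⟨1, by rw [ht, pow_one]⟩
  obtain ⟨h1, h2, h3⟩ := Cfsg.Agent.H79.three_relations hM
    (Cfsg.Agent.Blk.isPBlock_principalBlock (M := M) (G := G)) hP U htt htp hinv θ hθU
  refine ⟨?_, ?_, ?_, ?_⟩
  · refine Eq.trans ?_ h1
    rw [← Cfsg.Agent.Blk.finsum_mem_eq_sum_ite (Cfsg.principalBlock M G)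
      (fun χ => Cfsg.Agent.H79.aCol P θ χ * ((χ : G → ℂ) t ^ 2 / (χ : G → ℂ) 1))]
    refine finsum_mem_congr rfl (fun χ _ => ?_)
    rw [Cfsg.Agent.H79.aCol, mul_div_assoc]
  · refine Eq.trans ?_ h2
    rw [← Cfsg.Agent.Blk.finsum_mem_eq_sum_ite (Cfsg.principalBlock M G)
      (fun χ => Cfsg.Agent.H79.aCol P θ χ * (χ : G → ℂ) 1)]
    rfl
  · refine Eq.trans ?_ h3
    rw [← Cfsg.Agent.Blk.finsum_mem_eq_sum_ite (Cfsg.principalBlock M G)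
      (fun χ => Cfsg.Agent.H79.aCol P θ χ * (χ : G → ℂ) t)]
    rfl
  · intro hne
    by_contra hcon
    rw [not_or] at hcon
    obtain ⟨hcon1, hcon2⟩ := hcon
    have key : ∀ (Q : Cfsg.IrrCharacter G → Prop), ¬ 2 ≤ Nat.card {χ : Cfsg.IrrCharacter G // χ ∈ Cfsg.principalBlock M G ∧ Q χ} →
        ∃ χ₀ : Cfsg.IrrCharacter G, ∀ χ ∈ Cfsg.principalBlock M G, Q χ → χ = χ₀ := by
      intro Q hQ
      by_cases hex : ∃ χ₀ : Cfsg.IrrCharacter G, χ₀ ∈ Cfsg.principalBlock M G ∧ Q χ₀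
      · obtain ⟨χ₀, hχ₀⟩ := hex
        refine ⟨χ₀, fun χ hχ hQχ => ?_⟩
        by_contra hne'
        apply hQ
        have hnt : Nontrivial {χ : Cfsg.IrrCharacter G // χ ∈ Cfsg.principalBlock M G ∧ Q χ} :=
          ⟨⟨⟨χ, hχ, hQχ⟩, ⟨χ₀, hχ₀⟩, fun h => hne' (congrArg Subtype.val h)⟩⟩
        exact Finite.one_lt_card
      · exact ⟨Cfsg.Agent.CharBase.oneIrr G, fun χ hχ hQχ => absurd ⟨χ, hχ, hQχ⟩ hex⟩
    apply hcon2
    refine Cfsg.Agent.H79.column_dichotomy hM hP U htt htp hinv θ hθ hθU hne ?_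
    rw [not_and_or] at hcon1
    rcases hcon1 with h | h
    · left
      exact key _ h
    · right
      exact key _ h

end Cfsg.Agent.S4722
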