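import Cfsg.Statements.S4723
import Cfsg.Agent.BlkInd.StabHt

set_option autoImplicit false
open Cfsg

namespace Cfsg.Agent.S4723

/-- Let p be a prime, M a maximal ideal of the algebraic integers containing p, H a normal subgroup of the finite group G and b a p-block of H. Let T be the stabilizer of b in G. Then b contains a character θ of height zero whose own stabilizer in G (the elements g with θ(g h g⁻¹) = θ(h) for all h ∈ H) has index prime to p in T, i.e. contains a Sylow p-subgroup of T. -/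
theorem result {G : Type*} [Group G] [Finite G] (p : ℕ) [Fact p.Prime] (M : Ideal Cfsg.AlgInt) (hM : Cfsg.IsPModular p M) (H : Subgroup G) [H.Normal] (b : Set (Cfsg.IrrCharacter ↥H)) (hb : Cfsg.IsPBlock M b) (T : Subgroup G) (hT : (∀ g : G, g ∈ T ↔ ∀ θ ∈ b, ∀ θ' : Cfsg.IrrCharacter ↥H, (∀ h h' : ↥H, (h' : G) = g * h * g⁻¹ → (θ' : ↥H → ℂ) h' = (θ : ↥H → ℂ) h) → θ' ∈ b)) : ∃ θ ∈ b, Cfsg.blockHeight p b (θ : ↥H → ℂ) = 0 ∧ ∃ S : Subgroup G, S ≤ T ∧ (∀ g : G, g ∈ S ↔ (g ∈ T ∧ ∀ h h' : ↥H, (h' : G) = g * h * g⁻¹ → (θ : ↥H → ℂ) h' = (θ : ↥H → ℂ) h)) ∧ ¬ p ∣ S.relIndex T := by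
  classical
  haveI := Fintype.ofFinite G
  haveI := Fintype.ofFinite H
  have : M.IsPrime := hM.2.1.isPrime
  -- elements of `T` stabilize `b`
  have hT1 : ∀ g ∈ T, ∀ θ ∈ b, Cfsg.Agent.BlkInd.cjI g⁻¹ θ ∈ b := by
    intro g hg θ hθ
    refine (hT g).mp hg θ hθ _ ?_
    intro h h' hh
    show (θ : ↥H → ℂ) ⟨g⁻¹ * h' * g⁻¹⁻¹, _⟩ = (θ : ↥H → ℂ) h
    refine congrArg (θ : ↥H → ℂ) (Subtype.ext ?_)
    show g⁻¹ * (h' : G) * g⁻¹⁻¹ = h
    rw [hh]; group
  have hst : ∀ s ∈ T, ∀ ψ : Cfsg.IrrCharacter ↥H, Cfsg.Agent.BlkInd.cjI s ψ ∈ b ↔ ψ ∈ b := by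
    intro s hs ψ
    constructor
    · intro h
      have h1 := hT1 s hs _ h
      rw [← Cfsg.Agent.BlkInd.cjI_mul, mul_inv_cancel, Cfsg.Agent.BlkInd.cjI_one] at h1
      exact h1
    · intro h
      have h1 := hT1 s⁻¹ (T.inv_mem hs) _ h
      rwa [inv_inv] at h1
  obtain ⟨P⟩ : Nonempty (Sylow p T) := inferInstance
  set S₀ : Subgroup G := (P : Subgroup T).map T.subtype with hS₀
  have hS₀T : S₀ ≤ T := Subgroup.map_subtype_le _
  have hS₀p : IsPGroup p S₀ := P.2.map _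
  obtain ⟨ψ, hψ, hψ0, hψS⟩ := Cfsg.Agent.BlkInd.exists_fixed_height_zero hM hb hS₀p
    (fun s hs ψ => hst s (hS₀T hs) ψ)
  -- the stabilizer
  let S : Subgroup G :=
    { carrier := {g | g ∈ T ∧ Cfsg.Agent.BlkInd.cjI g ψ = ψ}
      one_mem' := ⟨T.one_mem, Cfsg.Agent.BlkInd.cjI_one ψ⟩
      mul_mem' := by
        rintro a c ⟨ha, ha'⟩ ⟨hc, hc'⟩
        refine ⟨T.mul_mem ha hc, ?_⟩
        rw [Cfsg.Agent.BlkInd.cjI_mul, ha', hc']
      inv_mem' := by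
        rintro a ⟨ha, ha'⟩
        refine ⟨T.inv_mem ha, ?_⟩
        conv_lhs => rw [← ha']
        rw [← Cfsg.Agent.BlkInd.cjI_mul, mul_inv_cancel, Cfsg.Agent.BlkInd.cjI_one] }
  have hST : S ≤ T := fun g hg => hg.1
  refine ⟨ψ, hψ, hψ0, S, hST, fun g => ?_, ?_⟩
  · show (g ∈ T ∧ Cfsg.Agent.BlkInd.cjI g ψ = ψ) ↔ _
    refine and_congr_right (fun _ => ?_)
    constructor
    · intro h a a' haa
      have h1 : Cfsg.Agent.Char.cj H g (ψ : ↥H → ℂ) a = (ψ : ↥H → ℂ) a := congrFun (congrArg Subtype.val h) a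
      rw [← h1, Cfsg.Agent.Char.cj_apply]
      refine congrArg (ψ : ↥H → ℂ) (Subtype.ext haa)
    · intro h
      apply Subtype.ext
      funext a
      show Cfsg.Agent.Char.cj H g (ψ : ↥H → ℂ) a = (ψ : ↥H → ℂ) a
      rw [Cfsg.Agent.Char.cj_apply]
      exact h a _ rfl
  · intro hd
    have h1 : S₀ ≤ S := fun s hs => ⟨hS₀T hs, hψS s hs⟩
    have h2 := Subgroup.relIndex_dvd_of_le_left T h1
    have h3 : S₀.relIndex T = (P : Subgroup T).index := by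
      have e1 : S₀.subgroupOf T = (P : Subgroup T) := by
        rw [hS₀]
        exact Subgroup.comap_map_eq_self_of_injective T.subtype_injective _
      rw [Subgroup.relIndex, e1]
    rw [h3] at h2
    exact P.not_dvd_index (hd.trans h2)

end Cfsg.Agent.S4723
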