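import Cfsg.Statements.S4726
import Cfsg.Agent.BlkInd.Link

set_option autoImplicit false
open Cfsg

namespace Cfsg.Agent.S4726

/-- Let p be a prime, M a maximal ideal of the algebraic integers containing p, H a subgroup of the finite group G and b a p-block of H with defect group D₀ such that C_G(D₀) ≤ H. Then b induces a block of G, and for every block B of G induced by b there is a defect group D of B with Z(D) ≤ Z(D₀) ≤ D₀ ≤ D (as subgroups of G). In particular, if the defect groups of B are abelian then D₀ is a defect group of B. -/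
theorem result {G : Type*} [Group G] [Finite G] (p : ℕ) [Fact p.Prime] (M : Ideal Cfsg.AlgInt) (hM : Cfsg.IsPModular p M) (H : Subgroup G) (b : Set (Cfsg.IrrCharacter ↥H)) (hb : Cfsg.IsPBlock M b) (D₀ : Subgroup ↥H) (hD₀ : Cfsg.IsDefectGroup p M b D₀) (hC : Subgroup.centralizer ((D₀.map H.subtype : Subgroup G) : Set G) ≤ H) : Cfsg.InducedBlockDefined M H b ∧ ∀ B : Set (Cfsg.IrrCharacter G), Cfsg.IsInducedBlock M H b B → (∃ D : Subgroup G, Cfsg.IsDefectGroup p M B D ∧ (Subgroup.center ↥D).map D.subtype ≤ ((Subgroup.center ↥D₀).map D₀.subtype).map H.subtype ∧ ((Subgroup.center ↥D₀).map D₀.subtype).map H.subtype ≤ D₀.map H.subtype ∧ D₀.map H.subtype ≤ D) ∧ (∀ D : Subgroup G, Cfsg.IsDefectGroup p M B D → IsMulCommutative ↥D → Cfsg.IsDefectGroup p M B (D₀.map H.subtype)) := by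
  classical
  haveI : M.IsPrime := hM.2.1.isPrime
  haveI := Fintype.ofFinite G
  haveI := Fintype.ofFinite H
  have hDef := (Cfsg.Agent.Blk.isDefectGroup_iff hM hb D₀).mp hD₀
  refine ⟨Cfsg.Agent.BlkInd.inducedBlockDefined_of_centralizer hM hb hDef.isPGroup hDef.br_ne hC, ?_⟩
  intro B hind
  obtain ⟨D, hD1, hD2, hD3⟩ := Cfsg.Agent.BlkInd.exists_defect_centric hM hind hD₀ hC
  have hz : (Subgroup.center ↥D).map D.subtype ≤ ((Subgroup.center ↥D₀).map D₀.subtype).map H.subtype := by
    rw [Cfsg.Agent.BlkInd.center_map_subtype, Cfsg.Agent.BlkInd.center_map_subtype]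
    refine le_trans ?_ hD3
    exact inf_le_inf_left _ (Subgroup.centralizer_le hD2)
  have hz2 : ((Subgroup.center ↥D₀).map D₀.subtype).map H.subtype ≤ D₀.map H.subtype :=
    Subgroup.map_mono (Subgroup.map_subtype_le _)
  refine ⟨⟨D, hD1, hz, hz2, hD2⟩, ?_⟩
  intro E hE hEc
  obtain ⟨g, hg⟩ := Cfsg.Agent.BlkInd.defectGroup_conj hM hind.2.1 hE hD1
  have hDc : D ≤ Subgroup.centralizer (D : Set G) := by
    intro x hx
    rw [Subgroup.mem_centralizer_iff]
    intro y hy
    rw [← hg] at hx hy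
    obtain ⟨x', hx', rfl⟩ := hx
    obtain ⟨y', hy', rfl⟩ := hy
    rw [← map_mul, ← map_mul]
    congr 1
    exact congrArg Subtype.val (hEc.is_comm.comm (⟨y', hy'⟩ : E) ⟨x', hx'⟩)
  have h1 : D ≤ D₀.map H.subtype := by
    refine le_trans ?_ (le_trans hD3 (Subgroup.map_mono inf_le_left))
    exact le_inf le_rfl (hDc.trans (Subgroup.centralizer_le hD2))
  have h2 : D = D₀.map H.subtype := le_antisymm h1 hD2
  rw [← h2]
  exact hD1

end Cfsg.Agent.S4726
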