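import Cfsg.Statements.S4730
import Cfsg.Agent.Blk.Osima
import Cfsg.Agent.H79.Count
import Cfsg.Agent.Char.BurnsideClass

set_option autoImplicit false
open Cfsg

namespace Cfsg.Agent.S4730

/-- Let p be a prime, M a maximal ideal of the algebraic integers containing p, and G a finite group with trivial centre, Sylow p-subgroup P of order p^a and centre Z(P) of order p^b. If χ is a faithful irreducible character of G whose degree is a power of p, then the p-block of χ has defect at most a − b; in particular, if P is abelian then χ lies in a block of defect zero. -/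
theorem result {G : Type*} [Group G] [Finite G] (p : ℕ) [Fact p.Prime] (M : Ideal Cfsg.AlgInt) (hM : Cfsg.IsPModular p M) (hZ : Subgroup.center G = ⊥) (P : Sylow p G) (a b : ℕ) (ha : Nat.card P = p ^ a) (hb : Nat.card (Subgroup.center ↥(P : Subgroup G)) = p ^ b) (χ : Cfsg.IrrCharacter G) (hfaith : ∀ g : G, (χ : G → ℂ) g = (χ : G → ℂ) 1 → g = 1) (n : ℕ) (hdeg : Cfsg.charDegree (χ : G → ℂ) = p ^ n) : Cfsg.blockDefect p (Cfsg.blockOf M (χ : G → ℂ)) ≤ a - b ∧ (IsMulCommutative ↥(P : Subgroup G) → Cfsg.blockDefect p (Cfsg.blockOf M (χ : G → ℂ)) = 0) := by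

  classical
  have hp : p.Prime := Fact.out
  have hMp : M.IsPrime := Blk.isPrime_of_isPModular hM
  have := Fintype.ofFinite G
  -- characters vanish on the nontrivial central elements of `P`
  have hvan : ∀ z : Subgroup.center ↥(P : Subgroup G), z ≠ 1 → (χ : G → ℂ) ((z : ↥(P : Subgroup G)) : G) = 0 ∧
      ¬ p ∣ (Subgroup.centralizer ({((z : ↥(P : Subgroup G)) : G)} : Set G)).index := by
    intro z hz
    have hzG : ((z : ↥(P : Subgroup G)) : G) ≠ 1 := by
      intro h
      apply hz
      apply Subtype.ext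
      apply Subtype.ext
      exact h
    have hPle : (P : Subgroup G) ≤ Subgroup.centralizer ({((z : ↥(P : Subgroup G)) : G)} : Set G) := by
      intro x hx
      rw [Subgroup.mem_centralizer_singleton_iff]
      have h1 := Subgroup.mem_center_iff.mp z.2 ⟨x, hx⟩
      have h2 := congrArg (fun y : ↥(P : Subgroup G) => (y : G)) h1
      simpa using h2
    have hidx : ¬ p ∣ (Subgroup.centralizer ({((z : ↥(P : Subgroup G)) : G)} : Set G)).index := by
      intro h
      exact P.not_dvd_index (h.trans (Subgroup.index_dvd_of_le hPle))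
    refine ⟨?_, hidx⟩
    obtain ⟨m, ρ, hρ, h, hm, hpos⟩ := H79.irr_exists_rep χ
    have hcop : Nat.Coprime (Module.finrank ℂ (Fin m → ℂ))
        (Subgroup.centralizer ({((z : ↥(P : Subgroup G)) : G)} : Set G)).index := by
      rw [Module.finrank_fin_fun, ← hm, hdeg]
      exact ((Nat.Prime.coprime_iff_not_dvd hp).mpr hidx).pow_left n
    rw [← h]
    rcases Char.character_eq_zero_or_norm_eq ρ ((z : ↥(P : Subgroup G)) : G) hcop with h0 | h0
    · exact h0
    · exfalso
      obtain ⟨ω, hω⟩ := (Char.rep_norm_character_eq_iff ρ _).mp h0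
      apply hzG
      have hmem : ((z : ↥(P : Subgroup G)) : G) ∈ Subgroup.center G := by
        rw [Subgroup.mem_center_iff]
        intro g
        have h2 : g * ((z : ↥(P : Subgroup G)) : G) * g⁻¹ * ((z : ↥(P : Subgroup G)) : G)⁻¹ = 1 := by
          apply hfaith
          rw [← h, Representation.character, Representation.character]
          congr 1
          have h3 : ρ g * ρ ((z : ↥(P : Subgroup G)) : G) = ρ ((z : ↥(P : Subgroup G)) : G) * ρ g := by
            rw [hω]
            ext v
            simp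
          rw [map_mul, map_mul, map_mul, h3, mul_assoc (ρ _) (ρ g), ← map_mul ρ g, mul_inv_cancel,
            map_one, mul_one, ← map_mul, mul_inv_cancel, map_one]
        rw [mul_inv_eq_one, mul_inv_eq_iff_eq_mul] at h2
        exact h2
      rw [hZ, Subgroup.mem_bot] at hmem
      exact hmem
  -- degrees in the block
  have hdvd : ∀ ψ ∈ blockOf M (χ : G → ℂ), p ^ b ∣ charDegree (ψ : G → ℂ) := by
    intro ψ hψ
    have hψ1 : (ψ : G → ℂ) 1 ≠ 0 := H79.irr_one_ne_zero ψ
    let Z : Subgroup G := (Subgroup.center ↥(P : Subgroup G)).map (P : Subgroup G).subtype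
    have hZcard : Nat.card Z = p ^ b := by
      rw [← hb]
      exact Subgroup.card_map_of_injective (Subgroup.subtype_injective _)
    obtain ⟨m, hm⟩ := H79.sum_subgroup_eq (CharBase.irr_isCharacter ψ) Z
    have hq : ∀ u : Z, u ≠ 1 → MemLocalIdeal M ((ψ : G → ℂ) u / (ψ : G → ℂ) 1) := by
      intro u hu
      obtain ⟨v, hv, hvu⟩ := Subgroup.mem_map.mp u.2
      have hz1 : (⟨v, hv⟩ : Subgroup.center ↥(P : Subgroup G)) ≠ 1 := by
        intro h
        apply hu
        apply Subtype.ext
        rw [← hvu]
        have : v = 1 := congrArg Subtype.val h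
        rw [this]; rfl
      obtain ⟨h1, h2⟩ := hvan ⟨v, hv⟩ hz1
      have h3 : ((v : ↥(P : Subgroup G)) : G) = (u : G) := hvu
      simp only [h3] at h1 h2
      have h4 : SameBlock M (χ : G → ℂ) (ψ : G → ℂ) := hψ
      have h5 := h4 (u : G)
      unfold centralChar at h5
      rw [h1, mul_zero, zero_div, zero_sub] at h5
      have h6 := Blk.mli_neg h5
      rw [neg_neg] at h6
      have h7 := Blk.mli_mul_left (Blk.mlr_natCast_inv hM h2) h6
      have hi0 : ((Subgroup.centralizer ({(u : G)} : Set G)).index : ℂ) ≠ 0 := by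
        exact_mod_cast Subgroup.index_ne_zero_of_finite
      have h8 : ((Subgroup.centralizer ({(u : G)} : Set G)).index : ℂ)⁻¹ *
          (((Subgroup.centralizer ({(u : G)} : Set G)).index : ℂ) * (ψ : G → ℂ) u / (ψ : G → ℂ) 1) =
          (ψ : G → ℂ) u / (ψ : G → ℂ) 1 := by
        field_simp
      rwa [h8] at h7
    set s : ℂ := ∑ u ∈ Finset.univ.erase (1 : Z), (ψ : G → ℂ) u / (ψ : G → ℂ) 1 with hs
    have hsM : MemLocalIdeal M s := Blk.mli_sum _ _ (fun u hu => hq u (Finset.ne_of_mem_erase hu))
    have h1s : ¬ MemLocalIdeal M (1 + s) := by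
      intro h
      have := Blk.mli_sub h hsM
      rw [add_sub_cancel_right] at this
      exact Blk.not_mli_one this
    have h1s0 : (1 + s) ≠ 0 := by
      intro h
      rw [h] at h1s
      exact h1s Blk.mli_zero
    have h1r : MemLocalRing M (1 + s) := Blk.mlr_add Blk.mlr_one (Blk.mlr_of_mli hsM)
    have heq : (ψ : G → ℂ) 1 * (1 + s) = (p : ℂ) ^ b * m := by
      rw [← Finset.add_sum_erase _ _ (Finset.mem_univ (1 : Z)), hZcard] at hm
      push_cast at hm
      rw [← hm, mul_add, mul_one, hs, Finset.mul_sum]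
      congr 1
      refine Finset.sum_congr rfl (fun u _ => ?_)
      field_simp
    have hp0 : (p : ℂ) ≠ 0 := by exact_mod_cast hp.ne_zero
    have h2 : ((charDegree (ψ : G → ℂ) : ℤ) : ℂ) / (p : ℂ) ^ b = (1 + s)⁻¹ * ((m : ℕ) : ℂ) := by
      rw [H79.irr_one] at heq
      field_simp
      rw [mul_comm]
      push_cast
      linear_combination heq
    have h3 : MemLocalRing M (((charDegree (ψ : G → ℂ) : ℤ) : ℂ) / (p : ℂ) ^ b) := by
      rw [h2]
      exact Blk.mlr_mul (Blk.mlr_inv h1r h1s) (Blk.mlr_natCast m)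
    rw [Blk.mlr_int_div_pow_iff hM] at h3
    exact_mod_cast h3
  have hfac : (Nat.card G).factorization p = a := by
    have h1 := P.card_eq_multiplicity
    have h2 : Nat.card ↥(P : Subgroup G) = p ^ a := ha
    rw [h2] at h1
    exact (Nat.pow_right_injective hp.two_le h1).symm
  have hinf : b ≤ sInf ((fun ψ : IrrCharacter G => (charDegree (ψ : G → ℂ)).factorization p) ''
      blockOf M (χ : G → ℂ)) := by
    apply le_csInf
    · exact ⟨_, χ, Blk.mem_blockOf_self χ, rfl⟩
    · rintro _ ⟨ψ, hψ, rfl⟩
      exact (hp.pow_dvd_iff_le_factorization (H79.irr_degree_pos ψ).ne').mp (hdvd ψ hψ)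
  have hmain : blockDefect p (blockOf M (χ : G → ℂ)) ≤ a - b := by
    unfold blockDefect
    rw [hfac]
    omega
  refine ⟨hmain, fun hc => ?_⟩
  have hab : a = b := by
    have h1 : Subgroup.center ↥(P : Subgroup G) = ⊤ := by
      rw [eq_top_iff]
      intro x _
      rw [Subgroup.mem_center_iff]
      intro g
      exact hc.is_comm.comm g x
    rw [h1, Subgroup.card_top] at hb
    have h2 : Nat.card ↥(P : Subgroup G) = p ^ a := ha
    rw [h2] at hb
    exact Nat.pow_right_injective hp.two_le hb
  omega

end Cfsg.Agent.S4730
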