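import Cfsg.Statements.S4732
import Cfsg.Agent.JFan.Lin

set_option autoImplicit false
universe u v
open Cfsg

namespace Cfsg.Agent.S4732

/-- Let p be a prime. There is a function f of two natural-number arguments such that every finite group G admitting a faithful representation of degree n over a field of characteristic p, with Sylow p-subgroups of order p^m, has a normal abelian subgroup A with [G : A] < f(m, n). -/
theorem result (p : ℕ) [Fact p.Prime] : ∃ f : ℕ → ℕ → ℕ, ∀ (G : Type u) [Group G] [Finite G] (F : Type v) [Field F] [CharP F p] (n : ℕ) (ρ : Representation F G (Fin n → F)), Function.Injective ρ → ∀ m : ℕ, (Nat.card G).factorization p = m → ∃ A : Subgroup G, A.Normal ∧ IsMulCommutative A ∧ A.index < f m n := by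
  classical
  choose b hb using fun m n => Cfsg.Agent.JFan.exists_bound.{v, v, u} p m n
  refine ⟨fun m n => (b m n).factorial + 1, ?_⟩
  intro G _ _ F _ _ n ρ hρ m hm
  let K := AlgebraicClosure F
  haveI : CharP K p := charP_of_injective_algebraMap (algebraMap F K).injective p
  let σ : G →* ((Fin n → K) →ₗ[K] (Fin n → K)) :=
    ((Matrix.toLinAlgEquiv' (R := K) (n := Fin n) : Matrix (Fin n) (Fin n) K ≃ₐ[K] _) :
      Matrix (Fin n) (Fin n) K →* _).comp
      ((((algebraMap F K).mapMatrix : Matrix (Fin n) (Fin n) F →+* Matrix (Fin n) (Fin n) K) :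
        Matrix (Fin n) (Fin n) F →* Matrix (Fin n) (Fin n) K).comp
      (((LinearMap.toMatrixAlgEquiv' (R := F) (n := Fin n) :
        ((Fin n → F) →ₗ[F] (Fin n → F)) ≃ₐ[F] Matrix (Fin n) (Fin n) F) :
        ((Fin n → F) →ₗ[F] (Fin n → F)) →* Matrix (Fin n) (Fin n) F).comp ρ))
  have hσ : Function.Injective σ := by
    intro x y hxy
    have h1 := (Matrix.toLinAlgEquiv' (R := K) (n := Fin n)).injective hxy
    have h2 : Function.Injective ((algebraMap F K).mapMatrix :
        Matrix (Fin n) (Fin n) F →+* Matrix (Fin n) (Fin n) K) := by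
      intro A B hAB
      ext i j
      exact (algebraMap F K).injective (congrFun (congrFun hAB i) j)
    have h3 := (LinearMap.toMatrixAlgEquiv' (R := F) (n := Fin n)).injective (h2 h1)
    exact hρ h3
  have hfin : Module.finrank K (Fin n → K) ≤ n := by
    rw [Module.finrank_fintype_fun_eq_card, Fintype.card_fin]
  obtain ⟨A, hA1, -, hA3⟩ := hb m n K (Fin n → K) G σ hσ hfin hm.le
  refine ⟨A.normalCore, A.normalCore_normal, ⟨⟨?_⟩⟩, ?_⟩
  · rintro ⟨x, hx⟩ ⟨y, hy⟩
    have hx' := A.normalCore_le hx
    have hy' := A.normalCore_le hy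
    exact Subtype.ext (Subgroup.mem_centralizer_iff.1 (hA1 hy') x hx')
  · have h : A.normalCore.index ∣ A.index.factorial := by
      rw [Subgroup.normalCore_eq_ker, Subgroup.index_ker, Subgroup.index_eq_card,
        ← Nat.card_perm]
      exact Subgroup.card_subgroup_dvd_card (MulAction.toPermHom G (G ⧸ A)).range
    have h1 := Nat.le_of_dvd (Nat.factorial_pos _) h
    have h2 := Nat.factorial_le hA3
    change A.normalCore.index < (b m n).factorial + 1
    omega

end Cfsg.Agent.S4732
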