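import Cfsg.Statements.S4958
import Cfsg.Agent.H34.KGV5

set_option autoImplicit false
open Cfsg

namespace Cfsg.Agent.S4958

/-- Let X be a finite group and V a normal subgroup of X in which every element has order dividing the prime p, whose index in X is prime to p and which is its own centralizer in X; so V is an elementary abelian normal Sylow p-subgroup, and any complement G to V in X is a group of order prime to p acting faithfully on the vector space V by conjugation (the coprime linear setting of the k(GV) problem). Let G be a complement to V in X and suppose that for some v in V the centralizer of v in G is abelian. Then the number of conjugacy classes of X is at most the order of V (the abelian-stabilizer criterion for the k(GV) problem). -/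
theorem result {X : Type*} [Group X] [Finite X] (p : ℕ) [Fact p.Prime] (V : Subgroup X) [V.Normal] (hVexp : ∀ v ∈ V, v ^ p = 1) (hidx : ¬ p ∣ V.index) (hself : Subgroup.centralizer (V : Set X) = V) (G : Subgroup X) (hGV : Subgroup.IsComplement' V G) (v : X) (hv : v ∈ V) (hab : ∀ a ∈ G ⊓ Subgroup.centralizer ({v} : Set X), ∀ b ∈ G ⊓ Subgroup.centralizer ({v} : Set X), a * b = b * a) : Nat.card (ConjClasses X) ≤ Nat.card V := by
  classical
  -- `V` is abelian
  have hVc : ∀ a ∈ V, ∀ b ∈ V, a * b = b * a := by
    intro a ha b hb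
    have h1 : b ∈ Subgroup.centralizer (V : Set X) := by rw [hself]; exact hb
    exact (Subgroup.mem_centralizer_iff.1 h1) a ha
  have hidx0 : V.index = Nat.card G := hGV.symm.index_eq_card
  -- the trivial case
  by_cases hVb : V = ⊥
  · have h1 : (⊤ : Subgroup X) = ⊥ := by
      rw [← hVb, ← hself, hVb]
      ext x
      simp [Subgroup.mem_centralizer_iff]
    have h2 : Subsingleton X := by
      refine ⟨fun a b => ?_⟩
      have ha : a ∈ (⊤ : Subgroup X) := Subgroup.mem_top a
      have hb : b ∈ (⊤ : Subgroup X) := Subgroup.mem_top b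
      rw [h1, Subgroup.mem_bot] at ha hb
      rw [ha, hb]
    have h3 : Nat.card (ConjClasses X) ≤ Nat.card X := Nat.card_le_card_of_surjective ConjClasses.mk (fun c => ConjClasses.exists_rep c)
    refine h3.trans ?_
    have : Nat.card X = 1 := Nat.card_eq_one_iff_unique.2 ⟨h2, ⟨1⟩⟩
    rw [this]
    exact Nat.card_pos
  -- a nontrivial vector with abelian stabilizer
  obtain ⟨z, hz, hz1, hzab⟩ : ∃ z ∈ V, z ≠ 1 ∧ ∀ a ∈ G ⊓ Subgroup.centralizer ({z} : Set X), ∀ b ∈ G ⊓ Subgroup.centralizer ({z} : Set X), a * b = b * a := by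
    by_cases hv1 : v = 1
    · obtain ⟨z, hz⟩ := Subgroup.ne_bot_iff_exists_ne_one.1 hVb
      refine ⟨z, z.2, fun h => hz (Subtype.ext h), fun a ha b hb => hab a ⟨ha.1, ?_⟩ b ⟨hb.1, ?_⟩⟩
      · rw [hv1]; simp [Subgroup.mem_centralizer_iff]
      · rw [hv1]; simp [Subgroup.mem_centralizer_iff]
    · exact ⟨v, hv, hv1, hab⟩
  have hzo : orderOf z = p := orderOf_eq_prime (hVexp z hz) hz1
  have hp : p.Prime := Fact.out
  set H : Subgroup X := G ⊓ Subgroup.centralizer ({z} : Set X) with hH
  set P : Subgroup X := Subgroup.zpowers z with hPdef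
  have hPV : P ≤ V := by rw [hPdef, Subgroup.zpowers_le]; exact hz
  letI iV : CommGroup V := { (inferInstance : Group V) with mul_comm := fun a b => Subtype.ext (hVc a a.2 b b.2) }
  letI iP : CommGroup P := { (inferInstance : Group P) with mul_comm := fun a b => Subtype.ext (hVc a (hPV a.2) b (hPV b.2)) }
  letI iH : CommGroup H := { (inferInstance : Group H) with mul_comm := fun a b => Subtype.ext (hzab a a.2 b b.2) }
  have hPc : Nat.card P = p := by rw [hPdef, Nat.card_zpowers, hzo]
  have hHz : ∀ y ∈ H, y * z = z * y := fun y hy => ((Subgroup.mem_centralizer_iff.1 hy.2) z rfl).symm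
  have hcomm : ∀ (m : P) (n : H), Commute (P.subtype m) (H.subtype n) := by
    intro m n
    obtain ⟨k, hk⟩ := Subgroup.mem_zpowers_iff.1 m.2
    show Commute (m : X) (n : X)
    rw [← hk]
    exact Commute.zpow_left (hHz n n.2).symm k
  have hHidx : Nat.card H ∣ V.index := by
    rw [hidx0]
    exact Subgroup.card_dvd_of_le inf_le_left
  have hHp : p.Coprime (Nat.card H) := (Nat.Prime.coprime_iff_not_dvd hp).2 fun h => hidx (h.trans hHidx)
  have hco : (Nat.card V).Coprime (Nat.card H) := by
    have h1 : IsPGroup p V := fun g => ⟨1, by rw [pow_one]; exact Subtype.ext (hVexp g g.2)⟩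
    obtain ⟨n, hn⟩ := IsPGroup.iff_card.1 h1
    rw [hn]
    exact Nat.Coprime.pow_left n hHp
  obtain ⟨L, hL1, hL2⟩ := Cfsg.Agent.H34.KGV.exists_list (H := H) (Nat.card V) V ((MulAut.conjNormal (H := V)).comp H.subtype) rfl hco
  refine Cfsg.Agent.H34.KGV.main_bound p (P := P) (H := H) (MonoidHom.noncommCoprod P.subtype H.subtype hcomm) hPc L ?_ (Nat.card V) ?_ ?_
  · intro y hy
    have h1 := hL1 y hy
    have h2 : (y : X) ∈ V := by
      rw [← hself, Subgroup.mem_centralizer_iff]
      intro w hw
      have h3 := congrArg Subtype.val (h1 ⟨w, hw⟩)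
      have h4 : (y : X) * w * (y : X)⁻¹ = w := h3
      rw [mul_inv_eq_iff_eq_mul] at h4
      exact h4.symm
    have h3 : (y : X) ∈ (⊥ : Subgroup X) := hGV.disjoint.le_bot ⟨h2, y.2.1⟩
    exact Subtype.ext (Subgroup.mem_bot.1 h3)
  · intro u y hu
    set φ : H →* MulAut V := (MulAut.conjNormal (H := V)).comp H.subtype with hφ
    have h1 := hL2 y
    set c0 : X := (MonoidHom.noncommCoprod P.subtype H.subtype hcomm) (u, y) with hc0
    have hc0' : c0 = (u : X) * (y : X) := rfl
    -- decomposition of the centralizer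
    have hdec : ∀ c : Subgroup.centralizer ({c0} : Set X), ∃ q : (Cfsg.Agent.H34.KGV.fixSub φ y) × H, ((q.1 : V) : X) * (q.2 : X) = c := by
      rintro ⟨c, hc⟩
      have hc1 : Commute c c0 := ((Subgroup.mem_centralizer_iff.1 hc) c0 rfl).symm
      -- `c` commutes with `z`
      have huy : Commute (u : X) (y : X) := hcomm u y
      have h2 : c0 ^ Nat.card H = ((u ^ Nat.card H : P) : X) := by
        rw [hc0', huy.mul_pow]
        have : (y : X) ^ Nat.card H = 1 := by
          have h3 : y ^ Nat.card H = 1 := pow_card_eq_one'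
          exact_mod_cast congrArg Subtype.val h3
        rw [this, mul_one]; rfl
      have h3 : u ^ Nat.card H ≠ 1 := by
        intro h
        have h4 : orderOf u ∣ Nat.card H := orderOf_dvd_of_pow_eq_one h
        have h5 : orderOf u ∣ p := by rw [← hPc]; exact orderOf_dvd_natCard u
        have h6 : orderOf u ∣ 1 := by rw [← hHp]; exact Nat.dvd_gcd h5 h4
        exact hu (orderOf_eq_one_iff.1 (Nat.dvd_one.1 h6))
      have hzP : z ∈ P := Subgroup.mem_zpowers z
      have h4 : (⟨z, hzP⟩ : P) ∈ Subgroup.zpowers (u ^ Nat.card H) := mem_zpowers_of_prime_card (p := p) hPc h3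
      obtain ⟨k, hk⟩ := Subgroup.mem_zpowers_iff.1 h4
      have hcz : Commute c z := by
        have h5 : ((u ^ Nat.card H : P) : X) ^ k = z := congrArg Subtype.val hk
        rw [← h5, ← h2]
        exact (hc1.pow_right _).zpow_right _
      have hcu : Commute c (u : X) := by
        obtain ⟨k, hk⟩ := Subgroup.mem_zpowers_iff.1 u.2
        rw [← hk]
        exact hcz.zpow_right k
      have hcy : Commute c (y : X) := by
        have h5 : (y : X) = (u : X)⁻¹ * c0 := by rw [hc0']; group
        rw [h5]
        exact hcu.inv_right.mul_right hc1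
      obtain ⟨⟨w, g⟩, hwg⟩ := hGV.2 c
      have hwg' : (w : X) * (g : X) = c := hwg
      have hwz : Commute (w : X) z := hVc w w.2 z hz
      have hg : (g : X) = (w : X)⁻¹ * c := by rw [← hwg']; group
      have hgz : Commute (g : X) z := by
        rw [hg]
        exact hwz.inv_left.mul_left hcz
      have hgH : (g : X) ∈ H := by
        refine ⟨g.2, Subgroup.mem_centralizer_iff.2 ?_⟩
        intro h hh
        rw [Set.mem_singleton_iff] at hh
        rw [hh]
        exact hgz.symm
      have hgy : Commute (g : X) (y : X) := hzab g hgH y y.2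
      have hw : (w : X) = c * (g : X)⁻¹ := by rw [← hwg']; group
      have hwy : Commute (w : X) (y : X) := by
        rw [hw]
        exact hcy.mul_left hgy.inv_left
      refine ⟨⟨⟨w, ?_⟩, ⟨g, hgH⟩⟩, hwg'⟩
      rw [Cfsg.Agent.H34.KGV.mem_fixSub]
      apply Subtype.ext
      show (y : X) * (w : X) * (y : X)⁻¹ = w
      rw [← hwy.eq, mul_inv_cancel_right]
    choose f hf using hdec
    have h2 : Nat.card (Subgroup.centralizer ({c0} : Set X)) ≤ Nat.card (Cfsg.Agent.H34.KGV.fixSub φ y) * Nat.card H := by
      rw [← Nat.card_prod]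
      refine Nat.card_le_card_of_injective f fun a b hab' => ?_
      apply Subtype.ext
      rw [← hf a, ← hf b, hab']
    calc Cfsg.Agent.H34.KGV.wtH L y * Nat.card (Subgroup.centralizer ({c0} : Set X))
        ≤ Cfsg.Agent.H34.KGV.wtH L y * (Nat.card (Cfsg.Agent.H34.KGV.fixSub φ y) * Nat.card H) := Nat.mul_le_mul_left _ h2
      _ = (Cfsg.Agent.H34.KGV.wtH L y * Nat.card (Cfsg.Agent.H34.KGV.fixSub φ y)) * Nat.card H := by rw [mul_assoc]
      _ ≤ Nat.card V * Nat.card H := by
        refine Nat.mul_le_mul_right _ ?_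
        exact h1
  · intro χ hχ
    exact hidx (hχ.trans (Cfsg.Agent.H75.ito χ V hVc))

end Cfsg.Agent.S4958
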