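import Cfsg.Statements.S4964
import Cfsg.Agent.H4.BlkQuot
import Cfsg.Agent.Cop.MinAct
import Cfsg.Agent.Solv.Frattini
import Cfsg.Agent.BlkInd.Brauer
import Cfsg.Agent.H75.Inflate

set_option autoImplicit false
set_option linter.style.haveILetI false
open Cfsg

namespace Cfsg.Agent.S4964

/-- Let D be a normal p-subgroup of the finite group G, let D′ be its commutator subgroup (normal in G), and fix a maximal ideal M of the algebraic integers containing p. Then (i) two irreducible characters of G ⧸ D′ lie in the same p-block if and only if their inflations to G do, and (ii) every p-block of G contains the inflation of some irreducible character of G ⧸ D′; so inflation induces a bijection between the p-blocks of G ⧸ D′ and the p-blocks of G. -/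
theorem result {G : Type*} [Group G] [Finite G] (p : ℕ) [Fact p.Prime] (M : Ideal Cfsg.AlgInt) (hM : Cfsg.IsPModular p M) (D : Subgroup G) [D.Normal] (hD : IsPGroup p D) : (∀ χ ψ : Cfsg.IrrCharacter (G ⧸ ⁅D, D⁆), Cfsg.SameBlock M (χ : G ⧸ ⁅D, D⁆ → ℂ) (ψ : G ⧸ ⁅D, D⁆ → ℂ) ↔ Cfsg.SameBlock M ((χ : G ⧸ ⁅D, D⁆ → ℂ) ∘ QuotientGroup.mk) ((ψ : G ⧸ ⁅D, D⁆ → ℂ) ∘ QuotientGroup.mk)) ∧ ∀ B : Set (Cfsg.IrrCharacter G), Cfsg.IsPBlock M B → ∃ χ : Cfsg.IrrCharacter (G ⧸ ⁅D, D⁆), ∃ θ ∈ B, (θ : G → ℂ) = (χ : G ⧸ ⁅D, D⁆ → ℂ) ∘ QuotientGroup.mk := by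
  classical
  haveI := Cfsg.Agent.Blk.isPrime_of_isPModular hM
  haveI := Fintype.ofFinite G
  have hD'D : ⁅D, D⁆ ≤ D := Subgroup.commutator_le_self D
  have hD'p : IsPGroup p (⁅D, D⁆ : Subgroup G) := hD.to_le hD'D
  refine ⟨fun χ ψ => ⟨fun h => H4.sameBlock_inflate hM ⁅D, D⁆ h, fun h => ?_⟩, fun B hB => ?_⟩
  · refine H4.sameBlock_of_regular hM χ ψ fun x hx => ?_
    haveI := Fintype.ofFinite (G ⧸ ⁅D, D⁆)
    by_cases hxE : x ∈ Subgroup.centralizer ((D.map (QuotientGroup.mk' ⁅D, D⁆) : Subgroup (G ⧸ ⁅D, D⁆)) : Set (G ⧸ ⁅D, D⁆))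
    · obtain ⟨g, hg, rfl⟩ := H4.exists_regular_lift x hx
      have hcen : ∀ y ∈ D, Commute g y := by
        have h1 : Subgroup.zpowers g ≤ Subgroup.centralizer (D : Set G) := by
          refine Cop.le_centralizer_of_frattini ?_ ?_ ?_
          · rw [Subgroup.normalizer_eq_top]; exact le_top
          · have h2 : IsPGroup p (frattini D) := hD.to_subgroup _
            obtain ⟨n, hn⟩ := IsPGroup.iff_card.1 h2
            rw [hn, Nat.card_zpowers]
            exact Nat.Coprime.pow_right n ((Nat.Prime.coprime_iff_not_dvd hM.1).mpr hg).symm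
          · intro a ha k hk
            have h4 : ⁅D, D⁆ ≤ (frattini D).map D.subtype := by
              have h5 : ⁅D, D⁆ = (commutator D).map D.subtype := by
                rw [map_commutator_eq]
                congr 1 <;> exact (Subgroup.range_subtype _).symm
              rw [h5]
              exact Subgroup.map_mono (Solv.commutator_le_frattini_of_pGroup hD)
            apply h4
            obtain ⟨n, rfl⟩ := Subgroup.mem_zpowers_iff.mp ha
            have h6 := (Subgroup.zpow_mem _ hxE n)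
            rw [Subgroup.mem_centralizer_iff] at h6
            have h7 := h6 _ ⟨k, hk, rfl⟩
            have h8 : QuotientGroup.mk' ⁅D, D⁆ (g ^ n * k * (g ^ n)⁻¹ * k⁻¹) = 1 := by
              rw [map_mul, map_mul, map_mul, map_inv, map_inv, map_zpow]
              rw [QuotientGroup.mk'_apply, QuotientGroup.mk'_apply] at *
              rw [← h7]; group
            rw [QuotientGroup.mk'_apply, QuotientGroup.eq_one_iff] at h8
            exact h8
        intro y hy
        have h2 := h1 (Subgroup.mem_zpowers g)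
        rw [Subgroup.mem_centralizer_iff] at h2
        exact (h2 y hy).symm
      have h1 := h g
      rw [H4.centralChar_inflate_of_regular hD'p hg (fun y hy => hcen y (hD'D hy)),
        H4.centralChar_inflate_of_regular hD'p hg (fun y hy => hcen y (hD'D hy))] at h1
      exact h1
    · have hE : IsPGroup p (D.map (QuotientGroup.mk' ⁅D, D⁆)) := hD.map _
      exact Blk.mli_sub (BlkInd.mli_centralChar_of_normal hM hE χ hxE)
        (BlkInd.mli_centralChar_of_normal hM hE ψ hxE)
  · obtain ⟨θ, hθB, hθ⟩ := BlkInd.exists_mem_block_ker hM hD'p hB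
    obtain ⟨χ', hχ', he⟩ := H75.exists_deflate_irr ⁅D, D⁆ θ.2 (fun n hn => by simpa using hθ n hn 1)
    exact ⟨⟨χ', hχ'⟩, θ, hθB, funext fun g => (he g).symm⟩

end Cfsg.Agent.S4964
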