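import Cfsg.Statements.S4965
import Mathlib.Tactic.Group
import Mathlib.GroupTheory.GroupAction.CardCommute

set_option autoImplicit false
open Cfsg

namespace Cfsg.Agent.S4965

/-- Let X be a finite group with an abelian normal subgroup V (any two elements of V commute), and let φ be the action of X ⧸ V on V induced by conjugation (well defined because V is abelian; the hypothesis hφ says that the class of x acts as conjugation by x). Then X has at most as many conjugacy classes as the semidirect product of V by X ⧸ V formed with this action: the split extension has the largest class number among extensions with the given action. -/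
theorem result {X : Type*} [Group X] [Finite X] (V : Subgroup X) [V.Normal] (hab : ∀ a ∈ V, ∀ b ∈ V, a * b = b * a) (φ : X ⧸ V →* MulAut ↥V) (hφ : ∀ (x : X) (v : ↥V), ((φ (QuotientGroup.mk x) v : ↥V) : X) = x * v * x⁻¹) : Nat.card (ConjClasses X) ≤ Nat.card (ConjClasses (SemidirectProduct ↥V (X ⧸ V) φ)) := by
  classical
  let Q := X ⧸ V
  let Y := SemidirectProduct ↥V Q φ
  have hYfin : Finite Y := Finite.of_equiv _ SemidirectProduct.equivProd.symm
  have hcard : Nat.card Y = Nat.card X := by
    rw [Nat.card_congr (SemidirectProduct.equivProd (φ := φ)), Nat.card_prod, mul_comm]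
    exact (Subgroup.card_eq_card_quotient_mul_card_subgroup V).symm
  -- the chosen commuting lifts
  let P : Q → Q → X × X → Prop := fun a b p => (QuotientGroup.mk p.1 : Q) = a ∧ (QuotientGroup.mk p.2 : Q) = b ∧ Commute p.1 p.2
  let c : Q → Q → X × X := fun a b => if h : ∃ p, P a b p then h.choose else 1
  have hc : ∀ x y : X, Commute x y → P (QuotientGroup.mk x) (QuotientGroup.mk y) (c (QuotientGroup.mk x) (QuotientGroup.mk y)) := by
    intro x y hxy
    have h : ∃ p, P (QuotientGroup.mk x) (QuotientGroup.mk y) p := ⟨(x, y), rfl, rfl, hxy⟩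
    change P _ _ (dite _ _ _)
    rw [dif_pos h]
    exact h.choose_spec
  have hmem : ∀ x x₀ : X, (QuotientGroup.mk x₀ : Q) = QuotientGroup.mk x → x * x₀⁻¹ ∈ V := by
    intro x x₀ h
    rw [QuotientGroup.eq] at h
    have := (inferInstance : V.Normal).conj_mem _ h x₀
    have e : x₀ * (x₀⁻¹ * x) * x₀⁻¹ = x * x₀⁻¹ := by group
    rwa [e] at this
  let F : {p : X × X // Commute p.1 p.2} → {p : Y × Y // Commute p.1 p.2} := fun p =>
    ⟨(⟨⟨p.1.1 * (c (QuotientGroup.mk p.1.1) (QuotientGroup.mk p.1.2)).1⁻¹, hmem _ _ (hc _ _ p.2).1⟩, QuotientGroup.mk p.1.1⟩,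
      ⟨⟨p.1.2 * (c (QuotientGroup.mk p.1.1) (QuotientGroup.mk p.1.2)).2⁻¹, hmem _ _ (hc _ _ p.2).2.1⟩, QuotientGroup.mk p.1.2⟩), by
      obtain ⟨⟨x, y⟩, hxy⟩ := p
      obtain ⟨h1, h2, h3⟩ := hc x y hxy
      simp only at hxy h1 h2 h3 ⊢
      set x₀ := (c (QuotientGroup.mk x) (QuotientGroup.mk y)).1
      set y₀ := (c (QuotientGroup.mk x) (QuotientGroup.mk y)).2
      apply SemidirectProduct.ext
      · rw [SemidirectProduct.mul_left, SemidirectProduct.mul_left]
        apply Subtype.ext
        rw [Subgroup.coe_mul, Subgroup.coe_mul]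
        simp only
        have hφ' : ∀ (q : Q) (z : X) (v : V), (QuotientGroup.mk z : Q) = q → ((φ q v : ↥V) : X) = z * v * z⁻¹ := by
          rintro _ z v rfl; exact hφ z v
        rw [hφ' _ x₀ _ h1, hφ' _ y₀ _ h2]
        simp only
        have h4 : x * y = y * x := hxy
        have h5 : x₀ * y₀ = y₀ * x₀ := h3
        calc x * x₀⁻¹ * (x₀ * (y * y₀⁻¹) * x₀⁻¹) = (x * y) * (x₀ * y₀)⁻¹ := by group
          _ = (y * x) * (y₀ * x₀)⁻¹ := by rw [h4, h5]
          _ = y * y₀⁻¹ * (y₀ * (x * x₀⁻¹) * y₀⁻¹) := by group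
      · rw [SemidirectProduct.mul_right, SemidirectProduct.mul_right]
        simp only
        rw [← QuotientGroup.mk_mul, ← QuotientGroup.mk_mul, hxy.eq]⟩
  have hF : Function.Injective F := by
    rintro ⟨⟨x, y⟩, hxy⟩ ⟨⟨x', y'⟩, hxy'⟩ h
    have h1 := congrArg Subtype.val h
    simp only [F, Prod.mk.injEq] at h1
    obtain ⟨h2, h3⟩ := h1
    have e1 := congrArg SemidirectProduct.right h2
    have e2 := congrArg SemidirectProduct.right h3
    have e3 := congrArg Subtype.val (congrArg SemidirectProduct.left h2)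
    have e4 := congrArg Subtype.val (congrArg SemidirectProduct.left h3)
    simp only at e1 e2 e3 e4
    rw [e1, e2] at e3 e4
    rw [mul_left_inj] at e3 e4
    simp only [e3, e4]
  have h1 := Nat.card_le_card_of_injective F hF
  rw [card_comm_eq_card_conjClasses_mul_card, card_comm_eq_card_conjClasses_mul_card, hcard] at h1
  exact Nat.le_of_mul_le_mul_right h1 Nat.card_pos

end Cfsg.Agent.S4965
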