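import Cfsg.Statements.S4966
import Cfsg.Agent.H75.SelfDual2

set_option autoImplicit false
open Cfsg

namespace Cfsg.Agent.S4966

/-- Let F be a finite field of characteristic p, G a finite group of order prime to p, and V a finite-dimensional representation of G over F carrying a nondegenerate G-invariant bilinear form (equivalently, V is self-dual). Then V is the direct sum of two G-invariant subspaces U and W such that U carries a G-invariant alternating bilinear form that is nondegenerate on U and W carries a G-invariant symmetric bilinear form that is nondegenerate on W; moreover when p = 2 the decomposition can be chosen with G acting trivially on W. -/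
theorem result {F : Type*} [Field F] [Fintype F] (p : ℕ) [Fact p.Prime] [CharP F p] {G : Type*} [Group G] [Finite G] (hcop : ¬ p ∣ Nat.card G) {V : Type*} [AddCommGroup V] [Module F V] [FiniteDimensional F V] (ρ : Representation F G V) (B : LinearMap.BilinForm F V) (hB : B.Nondegenerate) (hBinv : ∀ g : G, ∀ x y : V, B (ρ g x) (ρ g y) = B x y) : ∃ U W : Submodule F V, IsCompl U W ∧ (∀ g : G, ∀ u ∈ U, ρ g u ∈ U) ∧ (∀ g : G, ∀ w ∈ W, ρ g w ∈ W) ∧ (∃ A : LinearMap.BilinForm F V, (∀ x : V, A x x = 0) ∧ (∀ g : G, ∀ x ∈ U, ∀ y ∈ U, A (ρ g x) (ρ g y) = A x y) ∧ (∀ x ∈ U, (∀ y ∈ U, A x y = 0) → x = 0)) ∧ (∃ S : LinearMap.BilinForm F V, (∀ x y : V, S x y = S y x) ∧ (∀ g : G, ∀ x ∈ W, ∀ y ∈ W, S (ρ g x) (ρ g y) = S x y) ∧ (∀ x ∈ W, (∀ y ∈ W, S x y = 0) → x = 0)) ∧ (p = 2 → ∀ g : G, ∀ w ∈ W, ρ g w = w) := by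
-----
  classical
  have hcop' : (Nat.card G : F) ≠ 0 := by
    intro h
    rw [CharP.cast_eq_zero_iff F p] at h
    exact hcop h
  obtain ⟨U, W, hU, hW, hd, hs, ⟨A, ha, hai, han⟩, ⟨S, hs', hsi, hsn⟩, ht⟩ :=
    Cfsg.Agent.H75.SD.good_of_ndeg (p := p) hcop' hBinv _ ⊤ (fun _ _ _ => Submodule.mem_top)
      (fun x _ hx => hB.1 x fun y => hx y Submodule.mem_top) rfl
  have hc : IsCompl U W := ⟨disjoint_iff.mpr hd, codisjoint_iff.mpr hs⟩
  have e1 : ∀ x ∈ U, U.projection W hc x = x := fun x hx => Submodule.projection_apply_of_mem_left hc hx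
  have e2 : ∀ x ∈ W, W.projection U hc.symm x = x := fun x hx =>
    Submodule.projection_apply_of_mem_left hc.symm hx
  refine ⟨U, W, hc, hU, hW, ⟨A.compl₁₂ (U.projection W hc) (U.projection W hc), ?_, ?_, ?_⟩,
    ⟨S.compl₁₂ (W.projection U hc.symm) (W.projection U hc.symm), ?_, ?_, ?_⟩, ht⟩
  · intro x
    rw [LinearMap.compl₁₂_apply]
    exact ha _ (Submodule.projection_apply_mem hc x)
  · intro g x hx y hy
    rw [LinearMap.compl₁₂_apply, LinearMap.compl₁₂_apply, e1 _ (hU g x hx), e1 _ (hU g y hy), e1 x hx,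
      e1 y hy, hai g x hx y hy]
  · intro x hx hxy
    refine han x hx fun y hy => ?_
    have := hxy y hy
    rwa [LinearMap.compl₁₂_apply, e1 x hx, e1 y hy] at this
  · intro x y
    rw [LinearMap.compl₁₂_apply, LinearMap.compl₁₂_apply]
    exact hs' _ (Submodule.projection_apply_mem hc.symm x) _ (Submodule.projection_apply_mem hc.symm y)
  · intro g x hx y hy
    rw [LinearMap.compl₁₂_apply, LinearMap.compl₁₂_apply, e2 _ (hW g x hx), e2 _ (hW g y hy), e2 x hx,
      e2 y hy, hsi g x hx y hy]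
  · intro x hx hxy
    refine hsn x hx fun y hy => ?_
    have := hxy y hy
    rwa [LinearMap.compl₁₂_apply, e2 x hx, e2 y hy] at this

end Cfsg.Agent.S4966
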