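import Cfsg.Statements.S4967
import Cfsg.Agent.H75.SelfDual

set_option autoImplicit false
open Cfsg

namespace Cfsg.Agent.S4967

open Cfsg.Agent.H75.SD in
theorem card_dvd {A H : Type*} [Field A] [CommGroup H] [Finite H] {ψ : H →* A}
    (hψ : Function.Injective ψ) {m : ℕ} (hm : ∀ h, ψ h ^ m = 1) : Nat.card H ∣ m := by
  haveI : IsCyclic H := isCyclic_of_injective_ringHom ψ hψ
  obtain ⟨g, hg⟩ := IsCyclic.exists_generator (α := H)
  rw [← orderOf_eq_card_of_forall_mem_zpowers hg]
  apply orderOf_dvd_of_pow_eq_one
  apply hψ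
  rw [map_pow, hm, map_one]

/-- Let F be a finite field with r elements and of characteristic p, H a finite abelian group of order prime to p, and V a faithful irreducible representation of H over F of dimension n (faithful: distinct elements act differently; irreducible: the only H-invariant subspaces are 0 and V). Call V self-dual when it carries a nondegenerate H-invariant bilinear form. If n = 1 and V is self-dual then H has order at most 2. If n ≥ 2 then V is self-dual if and only if n is even and the order of H divides r^(n/2) + 1. -/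
theorem result {F : Type*} [Field F] [Fintype F] (p : ℕ) [Fact p.Prime] [CharP F p] {H : Type*} [CommGroup H] [Finite H] (hcop : ¬ p ∣ Nat.card H) {V : Type*} [AddCommGroup V] [Module F V] [FiniteDimensional F V] (ρ : Representation F H V) (hfaith : Function.Injective ρ) (hirr : ∀ U : Submodule F V, (∀ h : H, ∀ u ∈ U, ρ h u ∈ U) → U = ⊥ ∨ U = ⊤) : (Module.finrank F V = 1 → (∃ B : LinearMap.BilinForm F V, B.Nondegenerate ∧ ∀ h : H, ∀ x y : V, B (ρ h x) (ρ h y) = B x y) → Nat.card H ≤ 2) ∧ (2 ≤ Module.finrank F V → ((∃ B : LinearMap.BilinForm F V, B.Nondegenerate ∧ ∀ h : H, ∀ x y : V, B (ρ h x) (ρ h y) = B x y) ↔ (Even (Module.finrank F V) ∧ Nat.card H ∣ Fintype.card F ^ (Module.finrank F V / 2) + 1))) := by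
  classical
  have key : Module.finrank F V ≠ 0 → (∃ B : LinearMap.BilinForm F V, B.Nondegenerate ∧
      ∀ h : H, ∀ x y : V, B (ρ h x) (ρ h y) = B x y) → ∃ j < Module.finrank F V,
        Nat.card H ∣ Fintype.card F ^ j + 1 ∧ (2 * j = Module.finrank F V ∨ Module.finrank F V = 1) := by
    rintro hn ⟨B, hB, hinv⟩
    obtain ⟨A, _, _, _, ψ, e, hgen, he⟩ := Cfsg.Agent.H75.SD.exists_field ρ hirr hn
    have hψ : Function.Injective ψ := by
      intro a b hab
      apply hfaith
      apply LinearMap.ext
      intro v
      obtain ⟨x, rfl⟩ := e.surjective v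
      rw [← he, ← he, hab]
    obtain ⟨j, hj, h1, h2⟩ := Cfsg.Agent.H75.SD.of_form (ψ := ψ) hgen
      (B := (B.compl₁₂ e.toLinearMap e.toLinearMap)) ⟨by
        intro x hx
        apply e.injective
        rw [map_zero]
        refine hB.1 _ fun y => ?_
        obtain ⟨z, rfl⟩ := e.surjective y
        exact hx z, by
        intro y hy
        apply e.injective
        rw [map_zero]
        refine hB.2 _ fun x => ?_
        obtain ⟨z, rfl⟩ := e.surjective x
        exact hy z⟩ (by
        intro h x y
        show B (e (ψ h * x)) (e (ψ h * y)) = B (e x) (e y)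
        rw [he, he, hinv])
    rw [e.finrank_eq] at hj h2
    refine ⟨j, hj, card_dvd hψ h1, ?_⟩
    rcases h2 with h2 | h2
    · right
      have hj0 : j = 0 := by omega
      subst hj0
      have h3 : ∀ h, ψ h ∈ (⊥ : Subalgebra F A) := by
        intro h
        have h4 := h1 h
        rw [pow_zero, one_add_one_eq_two, sq, mul_self_eq_one_iff] at h4
        rcases h4 with h4 | h4 <;> rw [h4]
        · exact one_mem _
        · exact neg_mem (one_mem _)
      have h4 : (⊤ : Subalgebra F A) = ⊥ := by
        rw [← hgen, eq_bot_iff, Algebra.adjoin_le_iff]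
        rintro _ ⟨h, rfl⟩
        exact h3 h
      rw [← e.finrank_eq]
      exact Subalgebra.bot_eq_top_iff_finrank_eq_one.mp h4.symm
    · exact Or.inl h2
  refine ⟨?_, ?_⟩
  · intro hn hself
    obtain ⟨j, hj, hd, -⟩ := key (by omega) hself
    have hj0 : j = 0 := by omega
    rw [hj0, pow_zero] at hd
    exact Nat.le_of_dvd (by norm_num) hd
  · intro hn
    constructor
    · intro hself
      obtain ⟨j, hj, hd, h2⟩ := key (by omega) hself
      have h3 : 2 * j = Module.finrank F V := by omega
      refine ⟨⟨j, by omega⟩, ?_⟩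
      rw [← h3, Nat.mul_div_cancel_left _ (by norm_num : 0 < 2)]
      exact hd
    · rintro ⟨-, hd⟩
      obtain ⟨A, _, _, _, ψ, e, hgen, he⟩ := Cfsg.Agent.H75.SD.exists_field ρ hirr (by omega)
      obtain ⟨B, hB, hinv⟩ := Cfsg.Agent.H75.SD.form_of (F := F) ψ (m := Module.finrank F V / 2) (by
        intro h
        rw [← map_pow]
        obtain ⟨c, hc⟩ := hd
        rw [hc, pow_mul, pow_card_eq_one', one_pow, map_one])
      refine ⟨B.compl₁₂ e.symm.toLinearMap e.symm.toLinearMap, ⟨?_, ?_⟩, ?_⟩
      · intro x hx
        apply e.symm.injective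
        rw [map_zero]
        refine hB.1 _ fun y => ?_
        obtain ⟨z, rfl⟩ := e.symm.surjective y
        exact hx z
      · intro y hy
        apply e.symm.injective
        rw [map_zero]
        refine hB.2 _ fun x => ?_
        obtain ⟨z, rfl⟩ := e.symm.surjective x
        exact hy z
      · intro h x y
        show B (e.symm (ρ h x)) (e.symm (ρ h y)) = B (e.symm x) (e.symm y)
        have h1 : ∀ z, e.symm (ρ h z) = ψ h * e.symm z := by
          intro z
          rw [e.symm_apply_eq, he, e.apply_symm_apply]
        rw [h1, h1, hinv]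

end Cfsg.Agent.S4967
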