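import Cfsg.Statements.S5005
import Cfsg.Agent.H10.MathDeg
import Cfsg.Agent.H10.MathLoc

set_option autoImplicit false
open Cfsg

namespace Cfsg.Agent.S5005

/-- All irreducible complex characters of the Mathieu group `M₂₂` lie in a single 2-block: any two of them lie in the same block relative to every maximal ideal of the algebraic integers containing 2. -/
theorem result (M : Ideal Cfsg.AlgInt) (hM : Cfsg.IsPModular 2 M)
    (χ ψ : Cfsg.IrrCharacter ↥Cfsg.Spor.M22) : Cfsg.SameBlock M (χ : ↥Cfsg.Spor.M22 → ℂ) (ψ : ↥Cfsg.Spor.M22 → ℂ) := by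
  have : Fact (Nat.Prime 2) := ⟨Nat.prime_two⟩
  exact Cfsg.Agent.H10.OneBlock.sameBlock_of_local hM (fun t ht => Cfsg.Agent.H10.MathLoc.loc_M22 t ht)
    (Cfsg.Agent.H10.MathDeg.no_defect_zero_M22) χ ψ

end Cfsg.Agent.S5005
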