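import Cfsg.Statements.S5015
import Cfsg.Agent.RankOne.Basic

set_option autoImplicit false
open Cfsg

namespace Cfsg.Agent.S5015

/-- Let a group Y act doubly transitively on a set Ω with at least three points, and suppose that the stabilizer of a point α contains a nilpotent subgroup A, normalized by that stabilizer, which acts regularly on the points other than α. Then for any y in Y moving α, the subgroups A and y A y⁻¹ are the unipotent subgroups of a rank one group, and the normal closure of A in Y (the subgroup generated by all conjugates of A) is generated by A and y A y⁻¹ alone. -/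
theorem result {Y Ω : Type*} [Group Y] [MulAction Y Ω]
    (h2 : MulAction.IsMultiplyPretransitive Y Ω 2) (hΩ : 3 ≤ ENat.card Ω) (α : Ω) (A : Subgroup Y)
    (hA : A ≤ MulAction.stabilizer Y α) (hAn : ∀ y ∈ MulAction.stabilizer Y α, Cfsg.conjBy A y = A)
    (hnil : Group.IsNilpotent A) (hreg : ∀ β γ : Ω, β ≠ α → γ ≠ α → ∃! a : Y, a ∈ A ∧ a • β = γ)
    (y : Y) (hy : y ∉ MulAction.stabilizer Y α) :
    Cfsg.IsRankOnePair A (Cfsg.conjBy A y) ∧ Subgroup.normalClosure (A : Set Y) = A ⊔ Cfsg.conjBy A y := by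
  classical
  have hconj : ∀ g g' : Y, g • α = g' • α → Cfsg.conjBy A g = Cfsg.conjBy A g' := by
    intro g g' hg
    have h1 : g'⁻¹ * g ∈ MulAction.stabilizer Y α := by
      rw [MulAction.mem_stabilizer_iff, mul_smul, hg, inv_smul_smul]
    have h3 := hAn _ h1
    rw [Cfsg.Agent.RankOne.conjBy_mul, Cfsg.Agent.RankOne.conjBy_inv_eq, inv_inv] at h3
    exact h3
  have hne1 : ∀ a ∈ A, a ≠ 1 → ∀ γ : Ω, γ ≠ α → a • γ ≠ γ := by
    intro a ha ha1 γ hγ he
    obtain ⟨c, -, hc⟩ := hreg γ γ hγ hγ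
    exact ha1 ((hc a ⟨ha, he⟩).trans (hc 1 ⟨A.one_mem, one_smul _ _⟩).symm)
  have hfix : ∀ a ∈ A, a • α = α := fun a ha => MulAction.mem_stabilizer_iff.mp (hA ha)
  set β : Ω := y • α with hβ
  have hβα : β ≠ α := by
    intro h; exact hy (MulAction.mem_stabilizer_iff.mpr h)
  set B : Subgroup Y := Cfsg.conjBy A y with hB
  have hBfix : ∀ b ∈ B, b • β = β := by
    intro b hb
    rw [hB, Cfsg.Agent.RankOne.mem_conjBy] at hb
    have h1 := hfix _ hb
    rw [mul_smul, mul_smul, inv_smul_eq_iff] at h1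
    exact h1
  have hBreg : ∀ γ δ : Ω, γ ≠ β → δ ≠ β → ∃ b ∈ B, b • γ = δ := by
    intro γ δ hγ hδ
    obtain ⟨a, ⟨ha, haγ⟩, -⟩ := hreg (y⁻¹ • γ) (y⁻¹ • δ) (by rw [Ne, inv_smul_eq_iff]; exact hγ)
      (by rw [Ne, inv_smul_eq_iff]; exact hδ)
    refine ⟨y * a * y⁻¹, Cfsg.Agent.RankOne.conj_mem_conjBy y ha, ?_⟩
    rw [mul_smul, mul_smul, haγ, smul_inv_smul]
  have hBne1 : ∀ b ∈ B, b ≠ 1 → ∀ γ : Ω, γ ≠ β → b • γ ≠ γ := by
    intro b hb hb1 γ hγ he
    rw [hB, Cfsg.Agent.RankOne.mem_conjBy] at hb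
    refine hne1 _ hb ?_ (y⁻¹ • γ) (by rw [Ne, inv_smul_eq_iff]; exact hγ) ?_
    · intro hc
      apply hb1
      have : b = y * (y⁻¹ * b * y) * y⁻¹ := by group
      rw [this, hc]; group
    · rw [mul_smul, smul_inv_smul, mul_smul, he]
  have hneAB : A ≠ B := by
    intro hAB
    have hex : ∃ γ : Ω, γ ≠ α ∧ γ ≠ β := by
      by_contra hcon
      push Not at hcon
      have hsub : (Set.univ : Set Ω) ⊆ {α, β} := by
        intro γ _
        by_cases hγ : γ = α
        · left; exact hγ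
        · right; exact hcon γ hγ
      have h3 : ENat.card Ω ≤ 2 := by
        rw [← Set.encard_univ]
        refine (Set.encard_le_encard hsub).trans ((Set.encard_insert_le _ _).trans ?_)
        rw [Set.encard_singleton]; exact le_of_eq (by norm_num)
      have h4 : (3 : ℕ∞) ≤ 2 := hΩ.trans h3
      exact absurd h4 (by decide)
    obtain ⟨γ, hγα, hγβ⟩ := hex
    obtain ⟨a, ⟨ha, haβ⟩, -⟩ := hreg β γ hβα hγα
    have h5 : a ∈ B := by rw [← hAB]; exact ha
    exact hγβ (haβ.symm.trans (hBfix a h5))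
  refine ⟨⟨hneAB, hnil, Cfsg.Agent.RankOne.nilpotent_conjBy y hnil, ?_, ?_⟩, ?_⟩
  · intro a ha ha1
    have ha' : a⁻¹ • β ≠ β := hne1 _ (A.inv_mem ha) (by simpa using ha1) β hβα
    obtain ⟨c, hc, hcα⟩ := hBreg α (a⁻¹ • β) (Ne.symm hβα) ha'
    refine ⟨c⁻¹, B.inv_mem hc, ?_, ?_⟩
    · intro hc1
      rw [inv_eq_one] at hc1
      rw [hc1, one_smul, eq_inv_smul_iff, hfix a ha] at hcα
      exact hβα hcα.symm
    · rw [inv_inv, hB, Cfsg.Agent.RankOne.conjBy_conjBy]
      apply hconj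
      rw [hcα, mul_smul]
  · intro b hb hb1
    have hb' : b⁻¹ • α ≠ α := hBne1 _ (B.inv_mem hb) (by simpa using hb1) α (Ne.symm hβα)
    obtain ⟨c, ⟨hc, hcβ⟩, -⟩ := hreg β (b⁻¹ • α) hβα hb'
    refine ⟨c⁻¹, A.inv_mem hc, ?_, ?_⟩
    · intro hc1
      rw [inv_eq_one] at hc1
      rw [hc1, one_smul, eq_inv_smul_iff, hBfix b hb] at hcβ
      exact hβα hcβ
    · rw [inv_inv, hB, Cfsg.Agent.RankOne.conjBy_conjBy]
      apply hconj
      rw [mul_smul]
      exact hcβ
  · apply le_antisymm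
    · rw [Subgroup.normalClosure, Subgroup.closure_le]
      intro x hx
      rw [Group.mem_conjugatesOfSet_iff] at hx
      obtain ⟨a, ha, hax⟩ := hx
      rw [isConj_iff] at hax
      obtain ⟨g, rfl⟩ := hax
      have hmem : g * a * g⁻¹ ∈ Cfsg.conjBy A g := Cfsg.Agent.RankOne.conj_mem_conjBy g ha
      by_cases hg : g • α = α
      · have : Cfsg.conjBy A g = A := hAn g (MulAction.mem_stabilizer_iff.mpr hg)
        rw [this] at hmem
        exact (le_sup_left : A ≤ A ⊔ B) hmem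
      · obtain ⟨c, ⟨hc, hcβ⟩, -⟩ := hreg β (g • α) hβα hg
        have h6 : Cfsg.conjBy A g = Cfsg.conjBy B c := by
          rw [hB, Cfsg.Agent.RankOne.conjBy_conjBy]
          apply hconj
          rw [mul_smul]
          exact hcβ.symm
        rw [h6] at hmem
        exact Cfsg.Agent.RankOne.conjBy_le_of_mem (le_sup_right : B ≤ A ⊔ B)
          ((le_sup_left : A ≤ A ⊔ B) hc) hmem
    · apply sup_le
      · exact Subgroup.le_normalClosure
      · intro x hx
        rw [hB, Cfsg.Agent.RankOne.mem_conjBy] at hx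
        have h7 : y⁻¹ * x * y ∈ Subgroup.normalClosure (A : Set Y) := Subgroup.subset_normalClosure hx
        have h8 := (Subgroup.normalClosure_normal (s := (A : Set Y))).conj_mem _ h7 y
        have : y * (y⁻¹ * x * y) * y⁻¹ = x := by group
        rwa [this] at h8

end Cfsg.Agent.S5015
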