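import Cfsg.Statements.S5026
import Cfsg.Agent.RankOne.Root

set_option autoImplicit false
open Cfsg

namespace Cfsg.Agent.S5026

/-- Let S be a degenerate set of abstract root subgroups of G (a set of abstract transvection groups) and let a, b be commuting non-identity elements of members of S with a b ≠ 1. Then the members of S centralizing a b are exactly those centralizing both a and b. -/
theorem result {G : Type*} [Group G] {S : Set (Subgroup G)} (hS : Cfsg.IsRootSubgroupSet S) (hdeg : Cfsg.IsDegenerateRootSet S)
    {a b : G} (ha : a ∈ Cfsg.rootElements S) (hb : b ∈ Cfsg.rootElements S) (hab : a * b = b * a) (hab1 : a * b ≠ 1) :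
    Cfsg.centralizingMembers S (Subgroup.zpowers (a * b)) =
      Cfsg.centralizingMembers S (Subgroup.zpowers a) ∩ Cfsg.centralizingMembers S (Subgroup.zpowers b) := by
  obtain ⟨ha1, A, hA, haA⟩ := ha
  obtain ⟨hb1, B, hB, hbB⟩ := hb
  have hiff : ∀ (C : Subgroup G) (x : G), C ≤ Subgroup.centralizer ((Subgroup.zpowers x : Subgroup G) : Set G) ↔
      ∀ c ∈ C, x * c = c * x := by
    intro C x
    constructor
    · intro h c hc
      exact (Subgroup.mem_centralizer_iff.mp (h hc)) x (Subgroup.mem_zpowers x)
    · intro h c hc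
      rw [Subgroup.mem_centralizer_iff]
      intro y hy
      obtain ⟨k, rfl⟩ := Subgroup.mem_zpowers_iff.mp hy
      have : Commute x c := h c hc
      exact (this.zpow_left k)
  ext C
  simp only [Cfsg.centralizingMembers, Set.mem_setOf_eq, Set.mem_inter_iff]
  rw [hiff, hiff, hiff]
  constructor
  · rintro ⟨hC, hcent⟩
    -- C centralizes a
    have hfixab : Cfsg.conjBy C (a * b) = C :=
      Cfsg.Agent.RankOne.conjBy_of_centralizer hcent
    have key : ∀ c ∈ C, a * c = c * a := by
      by_contra hcon
      push Not at hcon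
      obtain ⟨c, hc, hac⟩ := hcon
      have hbc : b * c ≠ c * b := by
        intro hbc
        apply hac
        have h1 := hcent c hc
        have h2 : (a * c) * b = (c * a) * b := by
          rw [mul_assoc, ← hbc, ← mul_assoc, h1, mul_assoc]
        exact mul_right_cancel h2
      have hAC : Cfsg.IsRankOnePair A C := by
        rcases hS.pair A hA C hC with h1 | h1 | h1
        · exact absurd (Cfsg.Agent.RankOne.commute_of_commutator_eq_bot h1 haA hc) hac
        · exact h1
        · exact absurd h1 (hdeg A hA C hC)
      have hBC : Cfsg.IsRankOnePair B C := by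
        rcases hS.pair B hB C hC with h1 | h1 | h1
        · exact absurd (Cfsg.Agent.RankOne.commute_of_commutator_eq_bot h1 hbB hc) hbc
        · exact h1
        · exact absurd h1 (hdeg B hB C hC)
      have he : Cfsg.conjBy C a⁻¹ = Cfsg.conjBy C b := by
        rw [← hfixab, Cfsg.Agent.RankOne.conjBy_conjBy, ← mul_assoc, inv_mul_cancel, one_mul, hfixab]
      obtain ⟨d, hd, hBd⟩ := Cfsg.Agent.RankOne.exists_conjBy_right_of_eq hAC hBC (A.inv_mem haA) hbB
        (by simpa using ha1) hb1 he
      by_cases hAB : A = B
      · apply hab1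
        have h3 : a * b ∈ A := by rw [← hAB] at hbB; exact A.mul_mem haA hbB
        exact Cfsg.Agent.RankOne.eq_one_of_conj hAC h3 hfixab
      · apply ha1
        have hBm : B ∈ Cfsg.unipotentSubgroups A C := by
          rw [hBd]
          exact Cfsg.Agent.RankOne.conjBy_mem_unipotent Cfsg.Agent.RankOne.left_mem_unipotent
            (Cfsg.Agent.RankOne.mem_sup_right' hd)
        -- a commutes with b so B ∩ conjBy B a ≠ 1
        have hBa := Cfsg.Agent.RankOne.conjBy_mem_unipotent hBm (Cfsg.Agent.RankOne.mem_sup_left' (B := C) haA)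
        have h5 : Cfsg.conjBy B a = B := by
          by_contra hne
          apply hb1
          apply Cfsg.Agent.RankOne.eq_one_of_conj_mem hAC hBm hBa (Ne.symm hne) hbB
          apply Cfsg.Agent.RankOne.conjBy_eq_of_mem
          rw [Cfsg.Agent.RankOne.mem_conjBy, mul_assoc, ← hab]
          simpa using hbB
        exact Cfsg.Agent.RankOne.eq_one_of_conj_mem hAC Cfsg.Agent.RankOne.left_mem_unipotent hBm hAB haA h5
    refine ⟨⟨hC, key⟩, hC, ?_⟩
    intro c hc
    have h1 := hcent c hc
    have h2 := key c hc
    have h3 : a * (b * c) = a * (c * b) := by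
      rw [← mul_assoc, h1, ← mul_assoc, ← mul_assoc, h2]
    exact mul_left_cancel h3
  · rintro ⟨⟨hC, h1⟩, -, h2⟩
    refine ⟨hC, ?_⟩
    intro c hc
    rw [mul_assoc, h2 c hc, ← mul_assoc, h1 c hc, mul_assoc]

end Cfsg.Agent.S5026
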