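import Cfsg.Statements.S5035
import Cfsg.Agent.H84.Root3

set_option autoImplicit false
open Cfsg

namespace Cfsg.Agent.S5035

open Cfsg H84
open scoped commutatorElement

variable {G H : Type*} [Group G] [Group H]

theorem map_conjBy (f : G →* H) (A : Subgroup G) (g : G) : (conjBy A g).map f = conjBy (A.map f) (f g) := by
  rw [conjBy, conjBy, Subgroup.map_map, Subgroup.map_map]
  congr 1
  ext x
  simp

theorem map_r1 (f : G →* H) {A B : Subgroup G} (h : IsRankOnePair A B) :
    A.map f = B.map f ∨ IsRankOnePair (A.map f) (B.map f) := by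
  by_cases hne : A.map f = B.map f
  · exact Or.inl hne
  right
  have key : ∀ A B : Subgroup G, IsRankOnePair A B → A.map f ≠ B.map f → RankOneCondition (A.map f) (B.map f) := by
    rintro A B h hne _ ⟨a, ha, rfl⟩ ha1
    have ha1' : a ≠ 1 := by rintro rfl; exact ha1 (map_one _)
    obtain ⟨b, hb, -, hab⟩ := h.cond_left a ha ha1'
    have h2 := congrArg (Subgroup.map f) hab
    rw [map_conjBy, map_conjBy, map_inv, map_inv] at h2
    refine ⟨f b, ⟨b, hb, rfl⟩, fun hb1 => hne ?_, h2⟩
    rw [hb1, inv_one, conjBy_one] at h2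
    have h3 : conjBy (A.map f) (f a) = A.map f := conjBy_self ⟨a, ha, rfl⟩
    rw [← h3, h2, conjBy_conjBy, mul_inv_cancel, conjBy_one]
  have nil : ∀ A : Subgroup G, Group.IsNilpotent A → Group.IsNilpotent (A.map f) := by
    intro A hA
    have := hA
    exact Group.nilpotent_of_surjective (f.subgroupMap A) (f.subgroupMap_surjective A)
  exact ⟨hne, nil A h.nilpotent_left, nil B h.nilpotent_right, key A B h hne, key B A (RankOnePair_symm h) (Ne.symm hne)⟩

theorem map_com (f : G →* H) {A B : Subgroup G} (h : Com A B) : Com (A.map f) (B.map f) := by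
  rintro _ ⟨a, ha, rfl⟩ _ ⟨b, hb, rfl⟩
  rw [← map_mul, ← map_mul, h a ha b hb]

/-- Let S be a set of abstract root subgroups of G whose graph of rank one pairs is connected, and f a homomorphism from G onto a group H. Then either the images of the members of S form a set of abstract root subgroups of H whose graph of rank one pairs is again connected, or H equals the image of a member of S. -/
theorem result {G H : Type*} [Group G] [Group H] {S : Set (Subgroup G)} (hS : Cfsg.IsRootSubgroupSet S)
    (hc : Cfsg.IsConnectedFamily (Cfsg.FAdj S) S) (f : G →* H) (hf : Function.Surjective f) :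
    (Cfsg.IsRootSubgroupSet ((fun A : Subgroup G => A.map f) '' S) ∧
      Cfsg.IsConnectedFamily (Cfsg.FAdj ((fun A : Subgroup G => A.map f) '' S)) ((fun A : Subgroup G => A.map f) '' S)) ∨
    ∃ A ∈ S, A.map f = ⊤ := by
  set S' := (fun A : Subgroup G => A.map f) '' S with hS'
  by_cases hbot : ∃ A ∈ S, A.map f = ⊥
  · right
    obtain ⟨A, hA, hAb⟩ := hbot
    refine ⟨A, hA, ?_⟩
    have hall : ∀ B ∈ S, B.map f = ⊥ := by
      intro B hB
      have hp := hc A hA B hB
      induction hp with
      | refl => exact hAb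
      | tail _ h ih =>
        rename_i Y Z _
        have hY := ih h.1
        rw [Subgroup.eq_bot_iff_forall]
        rintro _ ⟨z, hz, rfl⟩
        by_cases hz1 : z = 1
        · rw [hz1, map_one]
        · obtain ⟨y, hy, -, hyz⟩ := r1_right h.2.2 hz hz1
          have h2 := congrArg (Subgroup.map f) hyz
          rw [map_conjBy, map_conjBy, hY, conjBy_bot] at h2
          have h3 : f y = 1 := by
            have : f y ∈ Y.map f := ⟨y, hy, rfl⟩
            rw [hY] at this
            exact Subgroup.mem_bot.mp this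
          rw [h3, conjBy_one] at h2
          have : f z ∈ Z.map f := ⟨z, hz, rfl⟩
          rw [← h2] at this
          exact Subgroup.mem_bot.mp this
    have htop : (⊤ : Subgroup H) = ⊥ := by
      rw [← MonoidHom.range_eq_top.mpr hf, MonoidHom.range_eq_map, ← hS.generates, Subgroup.map_iSup]
      rw [eq_bot_iff]
      refine iSup_le fun B => ?_
      rw [Subgroup.map_iSup]
      exact iSup_le fun hB => (hall B hB).le
    rw [hAb, htop]
  · left
    have hS'' : Cfsg.IsRootSubgroupSet S' := by
      refine ⟨?_, ?_, ?_, ?_, ?_⟩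
      · rintro _ ⟨A, hA, rfl⟩
        have h := map_com f (rs_comm hS hA)
        exact ⟨⟨fun x y => Subtype.ext (h x.1 x.2 y.1 y.2)⟩⟩
      · rintro _ ⟨A, hA, rfl⟩ h
        exact hbot ⟨A, hA, h⟩
      · rw [eq_top_iff, ← MonoidHom.range_eq_top.mpr hf, MonoidHom.range_eq_map, ← hS.generates, Subgroup.map_iSup]
        refine iSup_le fun B => ?_
        rw [Subgroup.map_iSup]
        refine iSup_le fun hB => ?_
        exact le_iSup₂_of_le (B.map f) ⟨B, hB, rfl⟩ le_rfl
      · rintro _ ⟨A, hA, rfl⟩ h
        obtain ⟨g, rfl⟩ := hf h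
        exact ⟨conjBy A g, hS.conj_mem A hA g, map_conjBy f A g⟩
      · rintro _ ⟨A, hA, rfl⟩ _ ⟨B, hB, rfl⟩
        show ⁅A.map f, B.map f⁆ = ⊥ ∨ IsRankOnePair (A.map f) (B.map f) ∨ RootCommutatorCase S' (A.map f) (B.map f)
        rcases hS.pair A hA B hB with h | h | h
        · left
          rw [← Subgroup.map_commutator, h, Subgroup.map_bot]
        · rcases map_r1 f h with h' | h'
          · left
            rw [h', com_iff]; exact map_com f (rs_comm hS hB)
          · exact Or.inr (Or.inl h')
        · right; right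
          obtain ⟨h1, h2, h3, h4⟩ := h
          refine ⟨?_, ?_, ?_, ?_⟩
          · rw [← Subgroup.map_commutator]; exact ⟨_, h1, rfl⟩
          · rw [← Subgroup.map_commutator, ← Subgroup.map_sup]
            rintro _ ⟨c, hc', rfl⟩ _ ⟨x, hx, rfl⟩
            rw [← map_mul, ← map_mul, h2 c hc' x hx]
          · rintro _ ⟨a, ha, rfl⟩ ha1
            have ha1' : a ≠ 1 := by rintro rfl; exact ha1 (map_one _)
            rw [← Subgroup.map_commutator, ← h3 a ha ha1', MonoidHom.map_closure]
            congr 1
            ext y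
            constructor
            · rintro ⟨_, ⟨b, hb, rfl⟩, rfl⟩
              exact ⟨_, ⟨b, hb, rfl⟩, by simp⟩
            · rintro ⟨_, ⟨b, hb, rfl⟩, rfl⟩
              exact ⟨f b, ⟨b, hb, rfl⟩, by simp⟩
          · rintro _ ⟨a, ha, rfl⟩ ha1
            have ha1' : a ≠ 1 := by rintro rfl; exact ha1 (map_one _)
            rw [← Subgroup.map_commutator, ← h4 a ha ha1', MonoidHom.map_closure]
            congr 1
            ext y
            constructor
            · rintro ⟨_, ⟨b, hb, rfl⟩, rfl⟩
              exact ⟨_, ⟨b, hb, rfl⟩, by simp⟩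
            · rintro ⟨_, ⟨b, hb, rfl⟩, rfl⟩
              exact ⟨f b, ⟨b, hb, rfl⟩, by simp⟩
    refine ⟨hS'', ?_⟩
    rintro _ ⟨A, hA, rfl⟩ _ ⟨B, hB, rfl⟩
    have hp := hc A hA B hB
    induction hp with
    | refl => exact Relation.ReflTransGen.refl
    | tail _ h ih =>
      have ih' := ih h.1
      rcases map_r1 f h.2.2 with h' | h'
      · simp only at ih' ⊢
        rw [← h']; exact ih'
      · exact ih'.tail ⟨⟨_, h.1, rfl⟩, ⟨_, h.2.1, rfl⟩, h'⟩

end Cfsg.Agent.S5035
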