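import Cfsg.Statements.S5037
import Cfsg.Agent.H84.Root5

set_option autoImplicit false
open Cfsg

namespace Cfsg.Agent.S5037

open Cfsg H84

/-- Let S be a class of abstract root subgroups of G that is either degenerate or non-degenerate (so either the commutator case never occurs, or all three cases occur), and A ≠ C members of S. If every member of S commuting with A commutes with C, then A and C have the same commuting members of S; and if every rank one partner of A is a rank one partner of C, then A and C commute and have the same rank one partners. -/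
theorem result {G : Type*} [Group G] {S : Set (Subgroup G)} (hS : Cfsg.IsRootSubgroupClass S)
    (hdn : Cfsg.IsDegenerateRootSet S ∨ Cfsg.IsNondegenerateRootSet S)
    {A C : Subgroup G} (hA : A ∈ S) (hC : C ∈ S) (hAC : A ≠ C) :
    (Cfsg.centralizingMembers S A ⊆ Cfsg.centralizingMembers S C →
      Cfsg.centralizingMembers S A = Cfsg.centralizingMembers S C) ∧
    (Cfsg.rankOnePartners S A ⊆ Cfsg.rankOnePartners S C →
      ⁅A, C⁆ = ⊥ ∧ Cfsg.rankOnePartners S A = Cfsg.rankOnePartners S C) := by
  have hS' := hS.1
  -- if `C` has no rank one partner then everything commutes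
  have noR : ∀ X ∈ S, (¬ ∃ D ∈ S, IsRankOnePair X D) → ∀ Y ∈ S, ∀ Z ∈ S, Com Y Z := by
    intro X hX hno Y hY Z hZ
    have hnoR : ¬ ∃ A ∈ S, ∃ B ∈ S, IsRankOnePair A B := fun h => hno (class_conj_R hS h X hX)
    rcases rs_pair hS' hY hZ with h | h | h
    · exact h
    · exact absurd ⟨Y, hY, Z, hZ, h⟩ hnoR
    · rcases hdn with hd | hn
      · exact absurd h (hd Y hY Z hZ)
      · exact absurd hn.2.1 hnoR
  constructor
  · intro hsub
    have hAC' : Com A C := (mem_cm.mp (hsub (mem_cm.mpr ⟨hA, rs_comm hS' hA⟩))).2
    refine Set.Subset.antisymm hsub ?_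
    by_cases hD : ∃ D ∈ S, IsRankOnePair C D
    · obtain ⟨D, hD, hCD⟩ := hD
      have hAD : IsRankOnePair A D := by
        rcases rs_pair hS' hA hD with h | h | h
        · exact absurd (mem_cm.mp (hsub (mem_cm.mpr ⟨hD, h.symm⟩))).2.symm (r1_not_com hCD)
        · exact h
        · exfalso
          rcases hdn with hd | hn
          · exact hd A hA D hD h
          · have h1 := L1 hS' hC hD hA hCD hAC' h.1
            have h2 : Com ⁅A, D⁆ C := (mem_cm.mp (hsub (mem_cm.mpr ⟨h.1, cc_comA h⟩))).2
            exact hS'.ne_bot _ h1.hC (com_iff.mpr h2)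
      exact sub_eq (equiv_cm hS') hAD hCD hAC' hsub
    · intro B hB
      exact mem_cm.mpr ⟨hB.1, noR C hC hD B hB.1 A hA⟩
  · intro hsub
    by_cases hD : ∃ D ∈ S, IsRankOnePair A D
    · obtain ⟨D, hD, hAD⟩ := hD
      have hAC' : Com A C := by
        rcases rs_pair hS' hA hC with h | h | h
        · exact h
        · exact absurd rfl (hsub ⟨hC, h⟩ : C ∈ Cfsg.rankOnePartners S C).2.ne
        · exfalso
          rcases hdn with hd | hn
          · exact hd A hA C hC h
          · exact not_cc_of_sub hS hn hA hC hsub h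
      exact ⟨com_iff.mpr hAC', Set.Subset.antisymm hsub (sub_eq (equiv_r1 hS') hAD (hsub ⟨hD, hAD⟩).2 hAC' hsub)⟩
    · have hall := noR A hA hD
      refine ⟨com_iff.mpr (hall A hA C hC), Set.Subset.antisymm hsub ?_⟩
      rintro B ⟨hB, hCB⟩
      exact absurd (hall C hC B hB) (r1_not_com hCB)

end Cfsg.Agent.S5037
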