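import Cfsg.Statements.S5039
import Cfsg.Agent.H84.Root7

set_option autoImplicit false
universe u
open Cfsg

namespace Cfsg.Agent.S5039

open Cfsg H84
open scoped commutatorElement

/-- the unipotent element -/
def uu {k : Type*} [Field k] (t : k) : Matrix.SpecialLinearGroup (Fin 2) k :=
  ⟨!![1, t; 0, 1], by rw [Matrix.det_fin_two_of]; ring⟩

def dd {k : Type*} [Field k] (l : k) (hl : l ≠ 0) : Matrix.SpecialLinearGroup (Fin 2) k :=
  ⟨!![l, 0; 0, l⁻¹], by rw [Matrix.det_fin_two_of, mul_inv_cancel₀ hl]; ring⟩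

theorem uu_mul {k : Type*} [Field k] (s t : k) : uu s * uu t = uu (s + t) := by
  apply Subtype.ext
  show !![1, s; 0, 1] * !![1, t; 0, 1] = !![1, s + t; 0, 1]
  rw [Matrix.mul_fin_two]
  congr 1
  ext i j
  fin_cases i <;> fin_cases j <;> simp [add_comm]

theorem dd_uu {k : Type*} [Field k] (l : k) (hl : l ≠ 0) (s : k) : dd l hl * uu s = uu (l * l * s) * dd l hl := by
  apply Subtype.ext
  show !![l, 0; 0, l⁻¹] * !![1, s; 0, 1] = !![1, l * l * s; 0, 1] * !![l, 0; 0, l⁻¹]
  rw [Matrix.mul_fin_two, Matrix.mul_fin_two]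
  ext i j
  fin_cases i <;> fin_cases j <;> simp
  field_simp

theorem uu_ne {k : Type*} [Field k] : uu (1 : k) ∉ Subgroup.center (Matrix.SpecialLinearGroup (Fin 2) k) := by
  intro h
  rw [Subgroup.mem_center_iff] at h
  have h1 := h ⟨!![1, 0; 1, 1], by rw [Matrix.det_fin_two_of]; ring⟩
  have h2 := congrArg (fun g : Matrix.SpecialLinearGroup (Fin 2) k => (g : Matrix (Fin 2) (Fin 2) k) 0 0) h1
  have e1 : (!![1, 0; 1, 1] * !![1, 1; 0, 1] : Matrix (Fin 2) (Fin 2) k) 0 0 =
      (!![1, 1; 0, 1] * !![1, 0; 1, 1] : Matrix (Fin 2) (Fin 2) k) 0 0 := h2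
  rw [Matrix.mul_fin_two, Matrix.mul_fin_two] at e1
  simp at e1

theorem uu_comm {k : Type*} [Field k] (hk : 3 < ENat.card k) : uu (1 : k) ∈ ⁅(⊤ : Subgroup (Matrix.SpecialLinearGroup (Fin 2) k)), (⊤ : Subgroup (Matrix.SpecialLinearGroup (Fin 2) k))⁆ := by
  have hex : ∃ l : k, l ≠ 0 ∧ l * l - 1 ≠ 0 := by
    by_contra hcon
    push Not at hcon
    have hsub : (Set.univ : Set k) ⊆ {0, 1, -1} := by
      intro x _
      by_cases h1 : x = 0
      · simp [h1]
      · have h2 := hcon x h1
        have h3 : (x - 1) * (x + 1) = 0 := by rw [← h2]; ring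
        rcases mul_eq_zero.mp h3 with h4 | h4
        · simp [sub_eq_zero.mp h4]
        · simp [eq_neg_of_add_eq_zero_left h4]
    have h4 : (Set.univ : Set k).encard ≤ 3 := by
      refine (Set.encard_le_encard hsub).trans ?_
      refine (Set.encard_insert_le _ _).trans ?_
      refine (add_le_add_left (Set.encard_insert_le _ _) _).trans ?_
      rw [Set.encard_singleton]
      norm_num
    rw [Set.encard_univ] at h4
    exact absurd hk (not_lt.mpr h4)
  obtain ⟨l, hl, hl2⟩ := hex
  have e : uu (1 : k) = ⁅dd l hl, uu ((l * l - 1)⁻¹)⁆ := by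
    rw [commutatorElement_def, dd_uu, mul_inv_cancel_right, eq_mul_inv_iff_mul_eq, uu_mul]
    congr 1
    have h5 : (l * l - 1) * (l * l - 1)⁻¹ = 1 := mul_inv_cancel₀ hl2
    linear_combination (-1 : k) * h5
  rw [e]
  exact Subgroup.commutator_mem_commutator (Subgroup.mem_top _) (Subgroup.mem_top _)

theorem psl2_aux {G : Type*} [Group G] {k : Type*} [Field k] (hk : 3 < ENat.card k) {A₀ B₀ : Subgroup G}
    (h : IsPSL2PairOver k A₀ B₀) : ∃ x ∈ A₀, x ≠ 1 ∧ x ∈ ⁅A₀ ⊔ B₀, A₀ ⊔ B₀⁆ := by
  obtain ⟨φ, h1, h2, h3, -⟩ := h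
  refine ⟨φ (uu 1), ?_, ?_, ?_⟩
  · rw [← h3]
    exact ⟨_, Subgroup.subset_closure ⟨rfl, rfl, rfl⟩, rfl⟩
  · intro h4
    exact uu_ne (h2 (MonoidHom.mem_ker.mpr h4))
  · rw [← h1, MonoidHom.range_eq_map, ← Subgroup.map_commutator]
    exact ⟨_, uu_comm hk, rfl⟩

/-- Let S be a class of abstract root subgroups of G containing two different commuting members. Suppose that, in case S is degenerate and every element of every member of S has order at most 3, the following holds: for every A ∈ S and every rank one partner B of A there are subgroups A₀ ≤ A and B₀ ≤ B generating an image of SL₂(k) with central kernel, k a field with at least four elements, A₀ and B₀ being the images of the unitriangular subgroups. Then every rank one pair A, B in S is special. -/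
theorem result {G : Type u} [Group G] {S : Set (Subgroup G)} (hS : Cfsg.IsRootSubgroupClass S)
    (hcomm : ∃ A ∈ S, ∃ C ∈ S, A ≠ C ∧ ⁅A, C⁆ = ⊥)
    (hH : Cfsg.IsDegenerateRootSet S → (∀ A ∈ S, ∀ a ∈ A, 0 < orderOf a ∧ orderOf a ≤ 3) →
      ∀ A ∈ S, ∀ B ∈ Cfsg.rankOnePartners S A, ∃ A₀ B₀ : Subgroup G, A₀ ≤ A ∧ B₀ ≤ B ∧
        ∃ (k : Type u) (_ : Field k), 3 < ENat.card k ∧ Cfsg.IsPSL2PairOver k A₀ B₀)
    {A B : Subgroup G} (hA : A ∈ S) (hB : B ∈ Cfsg.rankOnePartners S A) : Cfsg.IsSpecialRankOnePair A B := by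
  have hS' := hS.1
  obtain ⟨hB, hAB⟩ := hB
  by_cases hd : Cfsg.IsDegenerateRootSet S
  · by_cases hbad : Bad S A B
    · exfalso
      have hR : HR S := class_conj_R hS ⟨A, hA, B, hB, hAB⟩
      have hex : ∃ C ∈ S, C ≠ A ∧ Com C A := by
        obtain ⟨X, hX, Y, hY, hXY, hc⟩ := hcomm
        obtain ⟨g, rfl⟩ := hS.2.2 X hX A hA
        exact ⟨conjBy Y g, hS'.conj_mem _ hY g, fun h => hXY (conjBy_inj.mp h).symm, ((com_iff.mp hc).symm.conj g)⟩
      obtain ⟨C, hC, hCA, hCA', M, hM, hAM, hCM⟩ := exM hS hd hA hB hAB hex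
      have hT : Tri A C M := ⟨hAM, hCM, hCA'.symm, hCA.symm, rs_comm hS' hA, rs_comm hS' hC, rs_comm hS' hM⟩
      have hCB := (hbad C hC).mp ⟨hCA, hCA'⟩
      by_cases hord : ∀ A ∈ S, ∀ a ∈ A, 0 < orderOf a ∧ orderOf a ≤ 3
      · obtain ⟨A₀, B₀, hA₀, hB₀, k, hk, hk3, hpsl⟩ := hH hd hord A hA B ⟨hB, hAB⟩
        obtain ⟨x, hxA, hx1, hxX⟩ := psl2_aux hk3 hpsl
        have hBM : IsRankOnePair B M := by
          rcases rs_pair hS' hB hM with h | h | h
          · exfalso
            have hne : M ≠ B := by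
              rintro rfl
              exact r1_not_com hCM hCB.2
            exact r1_not_com hAM ((hbad M hM).mpr ⟨hne, h.symm⟩).2.symm
          · exact h
          · exact absurd h (hd B hB M hM)
        have hTB : Tri B C M := ⟨hBM, hCM, hCB.2.symm, hCB.1.symm, rs_comm hS' hB, rs_comm hS' hC, rs_comm hS' hM⟩
        refine hx1 (bad_commutator hS' hT hTB hbad hC ?_ (hA₀ hxA))
        exact Subgroup.commutator_mono (sup_le_sup hA₀ hB₀) (sup_le_sup hA₀ hB₀) hxX
      · push Not at hord
        obtain ⟨X, hX, y, hy, hyo⟩ := hord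
        obtain ⟨g, hg⟩ := hS.2.2 X hX M hM
        -- an element of `M` of order > 3
        have hm : g * y * g⁻¹ ∈ M := by rw [hg]; exact conj_mem_conjBy hy
        have hpow : ∀ i : ℕ, i ≠ 0 → i ≤ 3 → (g * y * g⁻¹) ^ i ≠ 1 := by
          intro i hi hi3 h
          rw [conj_pow, conj_eq_one_iff] at h
          have h1 := orderOf_dvd_of_pow_eq_one h
          have h2 := Nat.le_of_dvd (Nat.pos_of_ne_zero hi) h1
          have h3 : 0 < orderOf y := by
            rw [Nat.pos_iff_ne_zero]
            rintro h0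
            rw [h0, zero_dvd_iff] at h1
            exact hi h1
          have := hyo h3
          omega
        obtain ⟨a, ha, ha1, hda⟩ := four_power hT hm (by simpa using hpow 1 (by norm_num) (by norm_num))
          (by have := hpow 2 (by norm_num) (by norm_num); rwa [pow_two] at this)
          (by have := hpow 3 (by norm_num) (by norm_num); rwa [pow_succ, pow_two] at this)
          (D := B) (fun w hw1 hw2 => ((hbad _ (hS'.conj_mem _ hA w)).mp ⟨hw1, hw2.symm⟩).2.symm)
        exact ha1 (r1_norm_left hAB ha (conjBy_of_comm hda))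
    · -- good case
      have hex : ∃ C ∈ S, ¬ ((C ≠ A ∧ Com C A) ↔ (C ≠ B ∧ Com C B)) := by
        by_contra hcon
        push Not at hcon
        exact hbad fun C hC => hcon C hC
      obtain ⟨C, hC, hne⟩ := hex
      by_cases h1 : C ≠ A ∧ Com C A
      · have h2 : ¬ (C ≠ B ∧ Com C B) := fun h => hne ⟨fun _ => h, fun _ => h1⟩
        have hCB : C ≠ B := by
          rintro rfl
          exact r1_not_com hAB h1.2.symm
        have hnc : ¬ Com C B := fun h => h2 ⟨hCB, h⟩
        rcases rs_pair hS' hC hB with h | h | h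
        · exact absurd h hnc
        · exact good_special hAB h h1.2.symm h1.1.symm (rs_comm hS' hA) (rs_comm hS' hB)
        · exact absurd h (hd C hC B hB)
      · have h2 : C ≠ B ∧ Com C B := by
          by_contra h2
          exact hne ⟨fun h => absurd h h1, fun h => absurd h h2⟩
        have hCA : C ≠ A := by
          rintro rfl
          exact r1_not_com hAB h2.2
        have hnc : ¬ Com C A := fun h => h1 ⟨hCA, h⟩
        rcases rs_pair hS' hC hA with h | h | h
        · exact absurd h hnc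
        · exact special_symm (good_special (RankOnePair_symm hAB) h h2.2.symm h2.1.symm (rs_comm hS' hB) (rs_comm hS' hA))
        · exact absurd h (hd C hC A hA)
  · have hnd : Cfsg.IsNondegenerateRootSet S := by
      refine ⟨hcomm, ⟨A, hA, B, hB, hAB⟩, ?_⟩
      by_contra hcon
      apply hd
      intro X hX Y hY h
      exact hcon ⟨X, hX, Y, hY, h⟩
    obtain ⟨E, hE, hconf⟩ := nd_conf hS hnd hA hB hAB
    exact hconf.special

end Cfsg.Agent.S5039
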