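import Cfsg.Statements.S5043
import Cfsg.Agent.H84.RDatSL

set_option autoImplicit false
open Matrix
open Cfsg
open Cfsg.Agent.H84

namespace Cfsg.Agent.S5043

/-- Let k be a field and n a natural number. In SL_{n+3}(k) (so in every dimension at least 3) the conjugates of the root subgroup of elementary transvections 1 + c E₁₂ (c ∈ k) — that is, the groups of transvections attached to an incident point–hyperplane pair — form a non-degenerate class of abstract k-root subgroups of SL_{n+3}(k) whose graph of rank one pairs is connected. -/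
theorem result (k : Type*) [Field k] (n : ℕ) :
    Cfsg.IsRootSubgroupClass {A : Subgroup (Matrix.SpecialLinearGroup (Fin (n + 3)) k) |
        ∃ g : Matrix.SpecialLinearGroup (Fin (n + 3)) k,
          A = Cfsg.conjBy (Subgroup.closure {t : Matrix.SpecialLinearGroup (Fin (n + 3)) k |
            ∃ c : k, (t : Matrix (Fin (n + 3)) (Fin (n + 3)) k) = Matrix.transvection 0 1 c}) g} ∧
    Cfsg.IsNondegenerateRootSet {A : Subgroup (Matrix.SpecialLinearGroup (Fin (n + 3)) k) |
        ∃ g : Matrix.SpecialLinearGroup (Fin (n + 3)) k,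
          A = Cfsg.conjBy (Subgroup.closure {t : Matrix.SpecialLinearGroup (Fin (n + 3)) k |
            ∃ c : k, (t : Matrix (Fin (n + 3)) (Fin (n + 3)) k) = Matrix.transvection 0 1 c}) g} ∧
    Cfsg.IsKRootSubgroupSet k {A : Subgroup (Matrix.SpecialLinearGroup (Fin (n + 3)) k) |
        ∃ g : Matrix.SpecialLinearGroup (Fin (n + 3)) k,
          A = Cfsg.conjBy (Subgroup.closure {t : Matrix.SpecialLinearGroup (Fin (n + 3)) k |
            ∃ c : k, (t : Matrix (Fin (n + 3)) (Fin (n + 3)) k) = Matrix.transvection 0 1 c}) g} ∧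
    Cfsg.IsConnectedFamily (Cfsg.FAdj {A : Subgroup (Matrix.SpecialLinearGroup (Fin (n + 3)) k) |
        ∃ g : Matrix.SpecialLinearGroup (Fin (n + 3)) k,
          A = Cfsg.conjBy (Subgroup.closure {t : Matrix.SpecialLinearGroup (Fin (n + 3)) k |
            ∃ c : k, (t : Matrix (Fin (n + 3)) (Fin (n + 3)) k) = Matrix.transvection 0 1 c}) g})
      {A : Subgroup (Matrix.SpecialLinearGroup (Fin (n + 3)) k) |
        ∃ g : Matrix.SpecialLinearGroup (Fin (n + 3)) k,
          A = Cfsg.conjBy (Subgroup.closure {t : Matrix.SpecialLinearGroup (Fin (n + 3)) k |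
            ∃ c : k, (t : Matrix (Fin (n + 3)) (Fin (n + 3)) k) = Matrix.transvection 0 1 c}) g} := by
  have h01 : (0 : Fin (n + 3)) ≠ 1 := by
    intro h
    have := congrArg Fin.val h
    simp at this
  have h02 : (0 : Fin (n + 3)) ≠ 2 := by
    intro h
    have := congrArg Fin.val h
    rw [Fin.val_two] at this
    simp at this
  have h12 : (1 : Fin (n + 3)) ≠ 2 := by
    intro h
    have := congrArg Fin.val h
    rw [Fin.val_two] at this
    simp at this
  rw [RDSL.set_eq h01]
  have m01 := RDSL.single_mem (k := k) h01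
  have m02 := RDSL.single_mem (k := k) h02
  have m12 := RDSL.single_mem (k := k) h12
  have m10 := RDSL.single_mem (k := k) h01.symm
  have hs : ∀ {i j l m : Fin (n + 3)}, j ≠ l → (Matrix.single i j (1 : k)) * (Matrix.single l m (1 : k)) = 0 :=
    fun h => Matrix.single_mul_single_of_ne _ _ _ _ h _
  refine ⟨⟨RD.rootSet RDSL.dat RDSL.gen, RD.isClass RDSL.dat ⟨_, m01⟩ RDSL.conn⟩, ⟨?_, ?_, ?_⟩,
    RD.kRootSet RDSL.dat RDSL.gen, RD.connected RDSL.dat RDSL.conn⟩
  · refine ⟨_, ⟨_, m01, rfl⟩, _, ⟨_, m02, rfl⟩, ?_, ?_⟩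
    · intro h
      obtain ⟨g, hg⟩ := RDSL.dat.lift _ m01 (1 : k)
      have h1 := (RD.mem_X (RDSL.dat.sq _ m01)).2 ⟨(1 : k), hg⟩
      rw [h] at h1
      obtain ⟨c, hc⟩ := (RD.mem_X (RDSL.dat.sq _ m02)).1 h1
      rw [hg] at hc
      have := congrFun (congrFun hc 0) 1
      simp [Matrix.single_apply, h12.symm] at this
    · rw [com_iff]
      exact RD.X_comm RDSL.dat m01 m02 (by rw [hs h01.symm, hs h02.symm])
  · exact ⟨_, ⟨_, m01, rfl⟩, _, ⟨_, m10, rfl⟩, RD.opp_r1 RDSL.dat m01 m10 ⟨1, one_ne_zero, by simp, by simp⟩⟩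
  · refine ⟨_, ⟨_, m01, rfl⟩, _, ⟨_, m12, rfl⟩, (RD.X_cc RDSL.dat m01 m12 m02 one_ne_zero ?_ ?_ ?_).1⟩
    · simp [hs h02.symm]
    · rw [hs h02.symm, zero_mul]
    · rw [hs h02.symm]; simp

end Cfsg.Agent.S5043
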