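import Cfsg.Statements.S5058
import Cfsg.Agent.RI.SLTwo

set_option autoImplicit false
open Matrix
open Cfsg

namespace Cfsg.Agent.S5058

/-- Let F be a finite field of characteristic 2 and n a natural number. Then the transvections of SL_{n+3}(F) (so in every dimension at least 3) (the conjugates of the elementary matrices 1 + c E₁₂, c ≠ 0) form a class of root involutions of SL_{n+3}(F); when F has two elements they form a class of {3,4}⁺-transpositions (every product of odd order has order 1 or 3). -/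
theorem result (F : Type*) [Field F] [Fintype F] [CharP F 2] (n : ℕ) :
    Cfsg.IsRootInvolutionClass {t : Matrix.SpecialLinearGroup (Fin (n + 3)) F | ∃ c : F, c ≠ 0 ∧
        ∃ g : Matrix.SpecialLinearGroup (Fin (n + 3)) F, ((g⁻¹ * t * g : Matrix.SpecialLinearGroup (Fin (n + 3)) F) :
          Matrix (Fin (n + 3)) (Fin (n + 3)) F) = Matrix.transvection 0 1 c} ∧
    (Fintype.card F = 2 → Cfsg.IsThreeFourPlusTranspositionSet {t : Matrix.SpecialLinearGroup (Fin (n + 3)) F | ∃ c : F, c ≠ 0 ∧
        ∃ g : Matrix.SpecialLinearGroup (Fin (n + 3)) F, ((g⁻¹ * t * g : Matrix.SpecialLinearGroup (Fin (n + 3)) F) :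
          Matrix (Fin (n + 3)) (Fin (n + 3)) F) = Matrix.transvection 0 1 c}) := by
  classical
  set D : Set (Matrix.SpecialLinearGroup (Fin (n + 3)) F) := {t | ∃ c : F, c ≠ 0 ∧
        ∃ g : Matrix.SpecialLinearGroup (Fin (n + 3)) F, ((g⁻¹ * t * g : Matrix.SpecialLinearGroup (Fin (n + 3)) F) :
          Matrix (Fin (n + 3)) (Fin (n + 3)) F) = Matrix.transvection 0 1 c} with hDdef
  have h01 : (0 : Fin (n + 3)) ≠ 1 := by
    intro h
    have := congrArg Fin.val h
    simp at this
  have hstd : ∀ {i j : Fin (n + 3)} (hij : i ≠ j) (c : F), c ≠ 0 →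
      RI.IsTvv (Matrix.SpecialLinearGroup.transvection hij c) (Pi.single i c) (Pi.single j 1) := by
    intro i j hij c hc
    refine ⟨?_, ?_, ?_, ?_⟩
    · intro h; have := congrFun h i; simp at this; exact hc this
    · intro h; have := congrFun h j; simp at this
    · simp [hij.symm]
    · rw [Matrix.SpecialLinearGroup.transvection_coe]
      congr 1
      ext k l
      rw [Matrix.vecMulVec_apply, Matrix.single_apply]
      by_cases h1 : i = k
      · subst h1
        by_cases h2 : j = l
        · subst h2; simp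
        · simp [h2]
      · simp [h1]
  have htr : ∀ {t : Matrix.SpecialLinearGroup (Fin (n + 3)) F} {v φ}, RI.IsTvv t v φ →
      Cfsg.IsTransvection (t : Matrix (Fin (n + 3)) (Fin (n + 3)) F) := by
    intro t v φ h
    have e : (t : Matrix (Fin (n + 3)) (Fin (n + 3)) F) - 1 = Matrix.vecMulVec v φ := by
      rw [h.2.2.2, add_sub_cancel_left]
    refine ⟨?_, ?_⟩
    · rw [e]
      apply le_antisymm (Matrix.rank_vecMulVec_le v φ)
      by_contra h0
      have h1 : (Matrix.vecMulVec v φ).rank = 0 := by omega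
      apply RI.vv_ne_zero h.1 h.2.1
      rw [Matrix.rank, Submodule.finrank_eq_zero, LinearMap.range_eq_bot] at h1
      ext i j
      have h2 := congrFun (LinearMap.congr_fun h1 (Pi.single j 1)) i
      rw [Matrix.mulVecLin_apply, Matrix.mulVec_single_one] at h2
      exact h2
    · rw [e, RI.vv_mul, h.2.2.1, zero_smul]
  have hmem : ∀ t, t ∈ D ↔ ∃ v φ, RI.IsTvv t v φ := by
    intro t
    constructor
    · rintro ⟨c, hc, g, hg⟩
      have h1 : g⁻¹ * t * g = Matrix.SpecialLinearGroup.transvection h01 c := by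
        apply Subtype.ext
        exact hg
      have h2 := hstd h01 c hc
      have h3 : t = g * Matrix.SpecialLinearGroup.transvection h01 c * g⁻¹ := by rw [← h1]; group
      have hcg : (g : Matrix (Fin (n + 3)) (Fin (n + 3)) F) *
          ((g⁻¹ : Matrix.SpecialLinearGroup (Fin (n + 3)) F) : Matrix (Fin (n + 3)) (Fin (n + 3)) F) = 1 := by
        rw [← Matrix.SpecialLinearGroup.coe_mul, mul_inv_cancel]; rfl
      have hcg' : ((g⁻¹ : Matrix.SpecialLinearGroup (Fin (n + 3)) F) : Matrix (Fin (n + 3)) (Fin (n + 3)) F) *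
          (g : Matrix (Fin (n + 3)) (Fin (n + 3)) F) = 1 := by
        rw [← Matrix.SpecialLinearGroup.coe_mul, inv_mul_cancel]; rfl
      refine ⟨(g : Matrix (Fin (n + 3)) (Fin (n + 3)) F).mulVec (Pi.single 0 c),
        Matrix.vecMul (Pi.single 1 1)
          ((g⁻¹ : Matrix.SpecialLinearGroup (Fin (n + 3)) F) : Matrix (Fin (n + 3)) (Fin (n + 3)) F), ?_, ?_, ?_, ?_⟩
      · intro h
        apply h2.1
        have := congrArg (fun x => ((g⁻¹ : Matrix.SpecialLinearGroup (Fin (n + 3)) F) :
          Matrix (Fin (n + 3)) (Fin (n + 3)) F).mulVec x) h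
        simp only [Matrix.mulVec_mulVec, hcg', Matrix.one_mulVec, Matrix.mulVec_zero] at this
        exact this
      · intro h
        apply h2.2.1
        have := congrArg (fun x => Matrix.vecMul x (g : Matrix (Fin (n + 3)) (Fin (n + 3)) F)) h
        simp only [Matrix.vecMul_vecMul, hcg', Matrix.vecMul_one, Matrix.zero_vecMul] at this
        exact this
      · rw [Matrix.dotProduct_mulVec, Matrix.vecMul_vecMul, hcg', Matrix.vecMul_one]
        exact h2.2.2.1
      · rw [h3, Matrix.SpecialLinearGroup.coe_mul, Matrix.SpecialLinearGroup.coe_mul, h2.2.2.2, Matrix.mul_add,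
          Matrix.add_mul, Matrix.mul_one, hcg, H43.mul_vecMulVec', H43.vecMulVec_mul']
    · rintro ⟨v, φ, h⟩
      have h2 := hstd h01 (1 : F) one_ne_zero
      have hc := S2579.result (by omega) t _ (htr h) (htr h2)
      rw [isConj_iff] at hc
      obtain ⟨g, hg⟩ := hc
      refine ⟨1, one_ne_zero, g⁻¹, ?_⟩
      rw [inv_inv, hg]; rfl
  have hconj : ∀ a ∈ D, ∀ b ∈ D, ∃ g, b = g * a * g⁻¹ := by
    intro a ha b hb
    obtain ⟨v, φ, h1⟩ := (hmem a).mp ha
    obtain ⟨w, ψ, h2⟩ := (hmem b).mp hb
    have hc := S2579.result (by omega) a b (htr h1) (htr h2)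
    rw [isConj_iff] at hc
    obtain ⟨g, hg⟩ := hc
    exact ⟨g, hg.symm⟩
  have hD : Cfsg.IsRootInvolutionSet D := by
    refine ⟨?_, ?_, ?_, ?_⟩
    · intro d hd
      obtain ⟨v, φ, h⟩ := (hmem d).mp hd
      exact h.order
    · apply H40.sl_eq_top_of_transvections
      intro i j hij t
      by_cases ht : t = 0
      · subst ht
        have : Matrix.SpecialLinearGroup.transvection hij (0 : F) = 1 := by
          apply Subtype.ext
          rw [Matrix.SpecialLinearGroup.transvection_coe]
          exact Matrix.transvection_zero (i := i) (j := j)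
        rw [this]; exact one_mem _
      · exact Subgroup.subset_closure ((hmem _).mpr ⟨_, _, hstd hij t ht⟩)
    · rintro d ⟨c, hc, g, hg⟩ x
      refine ⟨c, hc, x * g, ?_⟩
      have e : (x * g)⁻¹ * (x * d * x⁻¹) * (x * g) = g⁻¹ * d * g := by group
      rw [e]
      exact hg
    · intro a ha b hb
      obtain ⟨v, φ, h1⟩ := (hmem a).mp ha
      obtain ⟨w, ψ, h2⟩ := (hmem b).mp hb
      have key : ∀ {a b : Matrix.SpecialLinearGroup (Fin (n + 3)) F} {v φ w ψ : Fin (n + 3) → F},
          RI.IsTvv a v φ → RI.IsTvv b w ψ → φ ⬝ᵥ w ≠ 0 → ψ ⬝ᵥ v = 0 →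
          (orderOf (a * b) = 4 ∧ (a * b) ^ 2 ∈ D) := by
        intro a b v φ w ψ h1 h2 h3 h4
        have h5 := (RI.pair_cases h1 h2).2 h3 h4
        refine ⟨?_, (hmem _).mpr ⟨_, _, h5⟩⟩
        have h6 := h5.order
        have h7 : orderOf (a * b) = 2 * orderOf ((a * b) ^ 2) := by
          rw [h6]
          have h8 : orderOf (a * b) / (orderOf (a * b)).gcd 2 = 2 := by rw [← orderOf_pow]; exact h6
          have h9 : (orderOf (a * b)).gcd 2 ∣ 2 := Nat.gcd_dvd_right _ _
          have h10 : (orderOf (a * b)).gcd 2 ∣ orderOf (a * b) := Nat.gcd_dvd_left _ _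
          rcases (Nat.dvd_prime Nat.prime_two).mp h9 with h11 | h11
          · rw [h11, Nat.div_one] at h8
            rw [h8] at h11
            norm_num at h11
          · rw [h11] at h8 h10
            omega
        rw [h7, h6]
      by_cases h3 : φ ⬝ᵥ w = 0
      · by_cases h4 : ψ ⬝ᵥ v = 0
        · exact Or.inl ((RI.pair_cases h1 h2).1 ⟨h3, h4⟩)
        · right; right
          have h5 := key h2 h1 h4 h3
          have hinv : a * b = (b * a)⁻¹ := by
            rw [_root_.mul_inv_rev, inv_eq_of_mul_eq_one_left h1.sq, inv_eq_of_mul_eq_one_left h2.sq]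
          rw [hinv, orderOf_inv]
          refine ⟨h5.1, ?_⟩
          have h6 : ((b * a)⁻¹) ^ 2 = (b * a) ^ 2 := by
            rw [inv_pow]
            apply inv_eq_of_mul_eq_one_left
            rw [← pow_add]
            have := pow_orderOf_eq_one (b * a)
            rw [h5.1] at this
            exact this
          rw [h6]; exact h5.2
      · by_cases h4 : ψ ⬝ᵥ v = 0
        · exact Or.inr (Or.inr (key h1 h2 h3 h4))
        · exact Or.inr (Or.inl (RI.pair_odd h1 h2 h3 h4))
  have hne : D.Nonempty := ⟨_, (hmem _).mpr ⟨_, _, hstd h01 (1 : F) one_ne_zero⟩⟩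
  refine ⟨⟨hD, hne, hconj⟩, ?_⟩
  intro hF
  refine ⟨hD, ?_⟩
  intro a ha b hb hodd
  have htwo : ∀ x : F, x ≠ 0 → x = 1 := by
    intro x hx
    have h1 : x ^ (Fintype.card F - 1) = 1 := FiniteField.pow_card_sub_one_eq_one x hx
    rw [hF] at h1
    simpa using h1
  obtain ⟨v, φ, h1⟩ := (hmem a).mp ha
  obtain ⟨w, ψ, h2⟩ := (hmem b).mp hb
  rcases RI.trich hD ha hb with h3 | h3 | h3
  · left
    have h4 : (a * b) ^ 2 = 1 := by
      rw [pow_two]
      nth_rw 1 [h3.eq]
      rw [mul_assoc, ← mul_assoc a a b, h1.sq, one_mul, h2.sq]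
    have h5 := orderOf_dvd_of_pow_eq_one h4
    rcases (Nat.dvd_prime Nat.prime_two).mp h5 with h6 | h6
    · exact h6
    · rw [h6] at hodd; exact absurd hodd (by decide)
  · right
    have h4 : (a * b) ^ 3 = 1 := by
      by_cases h5 : φ ⬝ᵥ w = 0
      · by_cases h6 : ψ ⬝ᵥ v = 0
        · exact absurd ((RI.pair_cases h1 h2).1 ⟨h5, h6⟩) (h3.not_comm hD ha hb)
        · exfalso
          have h7 := ((RI.pair_cases h2 h1).2 h6 h5).order
          have hinv : a * b = (b * a)⁻¹ := by
            rw [_root_.mul_inv_rev, inv_eq_of_mul_eq_one_left h1.sq, inv_eq_of_mul_eq_one_left h2.sq]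
          have h8 : Odd (orderOf (b * a)) := by
            have := h3.2; rwa [hinv, orderOf_inv] at this
          have h9 := Odd.of_dvd_nat h8 (orderOf_pow_dvd 2)
          rw [h7] at h9
          exact absurd h9 (by decide)
      · by_cases h6 : ψ ⬝ᵥ v = 0
        · exfalso
          have h7 := ((RI.pair_cases h1 h2).2 h5 h6).order
          have h9 := Odd.of_dvd_nat h3.2 (orderOf_pow_dvd 2)
          rw [h7] at h9
          exact absurd h9 (by decide)
        · exact RI.pair_three h1 h2 (htwo _ h5) (htwo _ h6)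
    refine orderOf_eq_prime h4 ?_
    intro h5
    apply h3.not_comm hD ha hb
    have h6 : a = b := by
      have := eq_inv_of_mul_eq_one_left h5
      rwa [inv_eq_of_mul_eq_one_left h2.sq] at this
    rw [h6]
    exact Commute.refl b
  · exfalso
    rw [show orderOf (a * b) = 4 from h3] at hodd
    exact absurd hodd (by decide)

end Cfsg.Agent.S5058
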