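import Cfsg.Statements.S5060
import Cfsg.Agent.H11.QpSL

set_option autoImplicit false
open Cfsg

namespace Cfsg.Agent.S5060

open Cfsg.Agent.H11.QP

/-- Let k ⊆ K be fields with the characteristic of k not 2 and k not of order 3, and let α ∈ K be a non-zero element algebraic over k. Then the subgroup of SL₂(K) generated by the upper unitriangular matrices with entry c and the lower unitriangular matrices with entry cα, c ranging over k, is exactly the group of matrices of SL₂(K) with all entries in k(α). -/
theorem result {k K : Type*} [Field k] [Field K] [Algebra k K] (hk2 : ringChar k ≠ 2) (hk3 : Nat.card k ≠ 3)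
    (α : K) (hα : IsAlgebraic k α) (hα0 : α ≠ 0) :
    (Subgroup.closure ({g : Matrix.SpecialLinearGroup (Fin 2) K | ∃ c : k, (g : Matrix (Fin 2) (Fin 2) K) = !![1, algebraMap k K c; 0, 1]} ∪
        {g : Matrix.SpecialLinearGroup (Fin 2) K | ∃ c : k, (g : Matrix (Fin 2) (Fin 2) K) = !![1, 0; algebraMap k K c * α, 1]}) :
      Set (Matrix.SpecialLinearGroup (Fin 2) K)) =
    {g : Matrix.SpecialLinearGroup (Fin 2) K | ∀ i j : Fin 2, (g : Matrix (Fin 2) (Fin 2) K) i j ∈ IntermediateField.adjoin k ({α} : Set K)} := by
  have h2 := two_ne_zero_of_ringChar hk2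
  have hint : IsIntegral k α := hα.isIntegral
  set F := IntermediateField.adjoin k ({α} : Set K) with hF
  let pb : PowerBasis k F := IntermediateField.adjoin.powerBasis hint
  have hgen : ((pb.gen : F) : K) = α := by
    rw [IntermediateField.adjoin.powerBasis_gen]
    exact IntermediateField.AdjoinSimple.coe_gen k α
  have hg0 : pb.gen ≠ 0 := by
    intro h
    apply hα0
    rw [← hgen, h]; rfl
  have htop := HS_top h2 hk3 pb hg0
  let φ : Matrix.SpecialLinearGroup (Fin 2) F →* Matrix.SpecialLinearGroup (Fin 2) K :=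
    Matrix.SpecialLinearGroup.map (algebraMap F K)
  have hφ : ∀ g : Matrix.SpecialLinearGroup (Fin 2) F, ∀ i j, (φ g).1 i j = ((g.1 i j : F) : K) := fun g i j => rfl
  apply Set.Subset.antisymm
  · intro g hg
    have hle : Subgroup.closure ({g : Matrix.SpecialLinearGroup (Fin 2) K | ∃ c : k, (g : Matrix (Fin 2) (Fin 2) K) = !![1, algebraMap k K c; 0, 1]} ∪
        {g : Matrix.SpecialLinearGroup (Fin 2) K | ∃ c : k, (g : Matrix (Fin 2) (Fin 2) K) = !![1, 0; algebraMap k K c * α, 1]}) ≤ φ.range := by
      rw [Subgroup.closure_le]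
      rintro g (⟨c, hc⟩ | ⟨c, hc⟩)
      · refine ⟨X2 (algebraMap k F c), ?_⟩
        apply Subtype.ext
        rw [hc]
        ext i j
        rw [hφ]
        fin_cases i <;> fin_cases j <;> simp [X2_val, ← IsScalarTower.algebraMap_apply]
      · refine ⟨Y2 (algebraMap k F c * pb.gen), ?_⟩
        apply Subtype.ext
        rw [hc]
        ext i j
        rw [hφ]
        fin_cases i <;> fin_cases j <;> simp [Y2_val, hgen]
    obtain ⟨g₀, rfl⟩ := hle hg
    intro i j
    rw [hφ]
    exact (g₀.1 i j).2
  · intro g hg
    let g₀ : Matrix.SpecialLinearGroup (Fin 2) F := ⟨Matrix.of fun i j => ⟨g.1 i j, hg i j⟩, by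
      apply Subtype.ext
      rw [Matrix.det_fin_two]
      have := g.2
      rw [Matrix.det_fin_two] at this
      exact this⟩
    have hg₀ : φ g₀ = g := by
      apply Subtype.ext
      ext i j
      rfl
    rw [← hg₀]
    have hm : g₀ ∈ HS k pb.gen := by rw [htop]; trivial
    refine Subgroup.closure_induction (p := fun x _ => φ x ∈ Subgroup.closure _) ?_ ?_ ?_ ?_ hm
    · rintro x (⟨c, rfl⟩ | ⟨c, rfl⟩)
      · apply Subgroup.subset_closure
        left
        refine ⟨c, ?_⟩
        ext i j
        rw [hφ]
        fin_cases i <;> fin_cases j <;> simp [X2_val, ← IsScalarTower.algebraMap_apply]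
      · apply Subgroup.subset_closure
        right
        refine ⟨c, ?_⟩
        ext i j
        rw [hφ]
        fin_cases i <;> fin_cases j <;> simp [Y2_val, hgen]
    · change φ 1 ∈ _
      rw [map_one]; exact one_mem _
    · intro x y _ _ hx hy
      change φ (x * y) ∈ _
      rw [map_mul]; exact mul_mem hx hy
    · intro x _ hx
      change φ x⁻¹ ∈ _
      rw [map_inv]; exact inv_mem hx

end Cfsg.Agent.S5060
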