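import Cfsg.Statements.S5061
import Cfsg.Agent.H11.QpUni

set_option autoImplicit false
open Cfsg

namespace Cfsg.Agent.S5061

open Cfsg.Agent.H11.QP

/-- Let M be a finite-dimensional vector space over a field k, G ≤ GL(M), and 𝒲 a set of subgroups of G, invariant under conjugation by G, such that any two members of 𝒲 generate a subgroup acting unipotently on M (for some n all products of n endomorphisms g − 1 from it vanish). Then the subgroup generated by all members of 𝒲 acts unipotently on M and is normal in G. -/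
theorem result {k : Type*} [Field k] {M : Type*} [AddCommGroup M] [Module k M] [FiniteDimensional k M]
    {G : Subgroup (LinearMap.GeneralLinearGroup k M)} {W : Set (Subgroup (LinearMap.GeneralLinearGroup k M))} (hWG : ∀ A ∈ W, A ≤ G)
    (hWW : ∀ A ∈ W, ∀ B ∈ W, Cfsg.IsUnipotentOn (A ⊔ B)) (hWconj : ∀ A ∈ W, ∀ g ∈ G, Cfsg.conjBy A g ∈ W) :
    Cfsg.IsUnipotentOn (⨆ A ∈ W, A) ∧ ∀ g ∈ G, Cfsg.conjBy (⨆ A ∈ W, A) g = ⨆ A ∈ W, A := by
  have e : (⨆ A ∈ W, A) = sSup W := sSup_eq_iSup.symm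
  rw [e]
  refine ⟨unip_sSup hWG hWW hWconj, ?_⟩
  have hle : ∀ g ∈ G, conjBy (sSup W) g ≤ sSup W := by
    intro g hg
    rw [Subgroup.map_le_iff_le_comap]
    apply sSup_le
    intro A hA
    rw [← Subgroup.map_le_iff_le_comap]
    exact le_sSup (hWconj A hA g hg)
  intro g hg
  apply le_antisymm (hle g hg)
  intro x hx
  refine ⟨g⁻¹ * x * g, ?_, ?_⟩
  · have := hle g⁻¹ (inv_mem hg) ⟨x, hx, rfl⟩
    change g⁻¹ * x * g⁻¹⁻¹ ∈ sSup W at this
    rwa [inv_inv] at this
  · change g * (g⁻¹ * x * g) * g⁻¹ = x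
    group

end Cfsg.Agent.S5061
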