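import Cfsg.Statements.S5064
import Cfsg.Agent.H11.QpPair

set_option autoImplicit false
universe u
open Cfsg

namespace Cfsg.Agent.S5064

open Cfsg.Agent.H11.QP

/-- Let k be a field of characteristic not 2 with k not of order 3, M a finite-dimensional k-vector space and G ≤ GL(M) such that (G, M) is a quadratic pair (M irreducible for G, and G generated by its quadratically acting elements σ whose scalar family 1 + c(σ − 1), c ∈ k, lies in G). Write 𝒬_d for the quadratic elements of G of minimal commutator rank, E(σ) for the subgroup generated by the members of 𝒬_d with the same fixed space and commutator space as σ, and Σ for the set of these subgroups. If σ, τ ∈ 𝒬_d and the subgroup H generated by their two scalar families does not act unipotently on M, then H is isomorphic to SL₂ over a simple algebraic extension k(λ) of k. -/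
theorem result {k : Type u} [Field k] (hk2 : ringChar k ≠ 2) (hk3 : Nat.card k ≠ 3)
    {M : Type u} [AddCommGroup M] [Module k M] [FiniteDimensional k M]
    {G : Subgroup (LinearMap.GeneralLinearGroup k M)} (hG : Cfsg.IsQuadraticPair G)
    {σ τ : LinearMap.GeneralLinearGroup k M} (hσ : σ ∈ Cfsg.minimalQuadraticElements G) (hτ : τ ∈ Cfsg.minimalQuadraticElements G)
    (hH : ¬ Cfsg.IsUnipotentOn (Subgroup.closure (Cfsg.scalarFamily σ ∪ Cfsg.scalarFamily τ))) :
    ∃ (K : Type u) (_ : Field K) (_ : Algebra k K) (lam : K), IsAlgebraic k lam ∧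
      IntermediateField.adjoin k ({lam} : Set K) = ⊤ ∧
      Nonempty (↥(Subgroup.closure (Cfsg.scalarFamily σ ∪ Cfsg.scalarFamily τ)) ≃* Matrix.SpecialLinearGroup (Fin 2) K) := by
  have h2 := two_ne_zero_of_ringChar hk2
  have hx := min_iff.mp hσ
  have hy := min_iff.mp hτ
  set x := (σ : M →ₗ[k] M) - 1 with hxdef
  set y := (τ : M →ₗ[k] M) - 1 with hydef
  have hnn : ¬ IsNilpotent (x * y) := by
    intro hn
    apply hH
    refine isUnipotentOn_mono ?_ (unip_oneP hx.inn.sq hy.inn.sq hn)
    rw [Subgroup.closure_le]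
    rintro g (⟨c, hc⟩ | ⟨c, hc⟩)
    · exact Subgroup.mem_sup_left ⟨c, hc⟩
    · exact Subgroup.mem_sup_right ⟨c, hc⟩
  obtain ⟨m₀, u, h⟩ := main_B h2 hk3 hx hy hnn
  haveI : Fact (Irreducible m₀) := ⟨h.irr⟩
  obtain ⟨Ψ, hinj, hrange⟩ := exists_SL2 h2 hk3 hx.2.1 h
  refine ⟨AdjoinRoot m₀, inferInstance, inferInstance, AdjoinRoot.root m₀, ?_, ?_, ?_⟩
  · exact AdjoinRoot.isAlgebraic_root h.irr.ne_zero
  · exact IntermediateField.adjoin_eq_top_of_algebra (F := k) (E := AdjoinRoot m₀) _ AdjoinRoot.adjoinRoot_eq_top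
  · have hr : Ψ.range = Subgroup.closure (Cfsg.scalarFamily σ ∪ Cfsg.scalarFamily τ) := hrange
    exact ⟨((MonoidHom.ofInjective hinj).trans (MulEquiv.subgroupCongr hr)).symm⟩

end Cfsg.Agent.S5064
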