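import Cfsg.Statements.S5067
-- import your own Cfsg.Agent.* helpers here

set_option autoImplicit false
open Cfsg

namespace Cfsg.Agent.S5067

open scoped commutatorElement in
theorem lcs_lift {P : Type*} [Group P] {E : Subgroup P} (hE : IsMulCommutative ↥E)
    {x y : P} (hx : x ∈ E ⊔ (⊤ : Subgroup P).lowerCentralSeries 1)
    (hy : y ∈ E ⊔ (⊤ : Subgroup P).lowerCentralSeries 1) :
    ⁅x, y⁆ ∈ (⊤ : Subgroup P).lowerCentralSeries 2 := by
  set L1 := (⊤ : Subgroup P).lowerCentralSeries 1 with hL1
  set L2 := (⊤ : Subgroup P).lowerCentralSeries 2 with hL2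
  have : L2.Normal := by rw [hL2]; infer_instance
  have : L1.Normal := by rw [hL1]; infer_instance
  have hc : ∀ u ∈ L1, ∀ w : P, Commute (u : P ⧸ L2) (w : P ⧸ L2) := by
    intro u hu w
    have h1 : ⁅u, w⁆ ∈ L2 := Subgroup.commutator_mem_commutator hu (Subgroup.mem_top w)
    rw [← QuotientGroup.eq_one_iff] at h1
    rw [commute_iff_eq]
    rw [← commutatorElement_eq_one_iff_mul_comm]
    exact h1
  have hEc : ∀ a ∈ E, ∀ b ∈ E, Commute (a : P ⧸ L2) (b : P ⧸ L2) := by
    intro a ha b hb
    have h2 : a * b = b * a := congrArg Subtype.val (hE.is_comm.comm (⟨a, ha⟩ : E) ⟨b, hb⟩)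
    rw [commute_iff_eq, ← QuotientGroup.mk_mul, ← QuotientGroup.mk_mul, h2]
  rw [← QuotientGroup.eq_one_iff]
  obtain ⟨a, ha, u, hu, rfl⟩ := Subgroup.mem_sup_of_normal_right.mp hx
  obtain ⟨b, hb, v, hv, rfl⟩ := Subgroup.mem_sup_of_normal_right.mp hy
  have h3 : Commute ((a * u : P) : P ⧸ L2) ((b * v : P) : P ⧸ L2) := by
    rw [QuotientGroup.mk_mul, QuotientGroup.mk_mul]
    exact Commute.mul_left ((hEc a ha b hb).mul_right ((hc v hv a).symm)) ((hc u hu b).mul_right (hc u hu v))
  exact commutatorElement_eq_one_iff_mul_comm.mpr h3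

open scoped commutatorElement in
theorem lcs_le {P : Type*} [Group P] {E : Subgroup P} (hE : IsMulCommutative ↥E) (n : ℕ) :
    (Subgroup.normalClosure (E : Set P)).lowerCentralSeries (n + 1) ≤
      (⊤ : Subgroup P).lowerCentralSeries (n + 2) := by
  have hN : Subgroup.normalClosure (E : Set P) ≤ E ⊔ (⊤ : Subgroup P).lowerCentralSeries 1 := by
    have : (E ⊔ (⊤ : Subgroup P).lowerCentralSeries 1).Normal := by
      constructor
      intro x hx g
      have : g * x * g⁻¹ = ⁅g, x⁆ * x := by simp [commutatorElement_def]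
      rw [this]
      refine mul_mem (Subgroup.mem_sup_right ?_) hx
      exact Subgroup.commutator_mem_commutator (Subgroup.mem_top _) (Subgroup.mem_top _)
    exact Subgroup.normalClosure_le_normal (fun x hx => Subgroup.mem_sup_left hx)
  induction n with
  | zero =>
    rw [Subgroup.lowerCentralSeries_succ, Subgroup.lowerCentralSeries_zero]
    refine Subgroup.commutator_le.mpr fun x hx y hy => lcs_lift hE (hN hx) (hN hy)
  | succ n ih =>
    rw [Subgroup.lowerCentralSeries_succ, Subgroup.lowerCentralSeries_succ]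
    exact Subgroup.commutator_mono ih le_top

open scoped commutatorElement in
theorem class_lt {P : Type*} [Group P] [Group.IsNilpotent P]
    (hna : ¬ IsMulCommutative P) {E : Subgroup P} (hE : IsMulCommutative ↥E) :
    Group.nilpotencyClass ↥(Subgroup.normalClosure (E : Set P)) < Group.nilpotencyClass P := by
  obtain ⟨c, hc⟩ : ∃ c, Group.nilpotencyClass P = c + 2 := by
    by_contra hcon
    push Not at hcon
    have h1 : Group.nilpotencyClass P ≤ 1 := by
      by_contra h2
      exact hcon (Group.nilpotencyClass P - 2) (by omega)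
    rw [← Subgroup.lowerCentralSeries_eq_bot_iff_nilpotencyClass_le] at h1
    apply hna
    refine ⟨⟨fun a b => ?_⟩⟩
    have h3 : ⁅a, b⁆ ∈ (⊤ : Subgroup P).lowerCentralSeries 1 :=
      Subgroup.commutator_mem_commutator (Subgroup.mem_top _) (Subgroup.mem_top _)
    rw [h1, Subgroup.mem_bot] at h3
    exact commutatorElement_eq_one_iff_mul_comm.mp h3
  have h1 : (⊤ : Subgroup P).lowerCentralSeries (c + 2) = ⊥ := by
    rw [← hc]; exact Subgroup.lowerCentralSeries_nilpotencyClass
  have h2 := lcs_le hE c
  rw [h1, le_bot_iff, ← Subgroup.top_subtype_lowerCentralSeries] at h2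
  have h3 : (⊤ : Subgroup ↥(Subgroup.normalClosure (E : Set P))).lowerCentralSeries (c + 1) = ⊥ := by
    rwa [(Subgroup.map_eq_bot_iff_of_injective _ (Subgroup.subtype_injective _))] at h2
  rw [hc]
  have h4 := Subgroup.lowerCentralSeries_eq_bot_iff_nilpotencyClass_le.mp h3
  omega


/-- Let P be a non-abelian nilpotent p-group (every element of p-power order; P possibly infinite) generated by two abelian subgroups E and F. Then the normal closure of E in P, and likewise that of F, has nilpotency class strictly smaller than that of P. -/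
theorem result {P : Type*} [Group P] {p : ℕ} [Fact p.Prime] (hP : IsPGroup p P) [Group.IsNilpotent P]
    (hna : ¬ IsMulCommutative P) {E F : Subgroup P} (hE : IsMulCommutative ↥E) (hF : IsMulCommutative ↥F) (hgen : E ⊔ F = ⊤) :
    Group.nilpotencyClass ↥(Subgroup.normalClosure (E : Set P)) < Group.nilpotencyClass P ∧
    Group.nilpotencyClass ↥(Subgroup.normalClosure (F : Set P)) < Group.nilpotencyClass P := by
  exact ⟨class_lt hna hE, class_lt hna hF⟩

end Cfsg.Agent.S5067
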