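import Cfsg.Statements.S5073
import Cfsg.Agent.H11.QpGrp

set_option autoImplicit false
universe u
open Cfsg

namespace Cfsg.Agent.S5073

open Cfsg.Agent.H11.QP

/-- Let k be a field of characteristic not 2 with k not of order 3, M a finite-dimensional k-vector space and G ≤ GL(M) such that (G, M) is a quadratic pair (M irreducible for G, and G generated by its quadratically acting elements σ whose scalar family 1 + c(σ − 1), c ∈ k, lies in G). Write 𝒬_d for the quadratic elements of G of minimal commutator rank, E(σ) for the subgroup generated by the members of 𝒬_d with the same fixed space and commutator space as σ, and Σ for the set of these subgroups. Let E, F ∈ Σ. If some non-identity element of E commutes with some non-identity element of F, or some non-identity element of E normalizes F, then E and F commute elementwise. -/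
theorem result {k : Type u} [Field k] (hk2 : ringChar k ≠ 2) (hk3 : Nat.card k ≠ 3)
    {M : Type u} [AddCommGroup M] [Module k M] [FiniteDimensional k M]
    {G : Subgroup (LinearMap.GeneralLinearGroup k M)} (hG : Cfsg.IsQuadraticPair G)
    {E F : Subgroup (LinearMap.GeneralLinearGroup k M)} (hE : E ∈ Cfsg.quadraticRootSubgroups G) (hF : F ∈ Cfsg.quadraticRootSubgroups G)
    (h : (∃ e ∈ E, e ≠ 1 ∧ ∃ f ∈ F, f ≠ 1 ∧ e * f = f * e) ∨ E ⊓ Subgroup.normalizer (F : Set (LinearMap.GeneralLinearGroup k M)) ≠ ⊥) :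
    ⁅E, F⁆ = ⊥ := by
  have hc2 := two_ne_zero_of_ringChar hk2
  obtain ⟨σ, hσ, rfl⟩ := hE
  obtain ⟨τ, hτ, rfl⟩ := hF
  have hx := min_iff.mp hσ
  have hy := min_iff.mp hτ
  have hA := isE_of_min hσ
  have hB := isE_of_min hτ
  by_contra hc
  by_cases hn : NN ((σ : M →ₗ[k] M) - 1) ((τ : M →ₗ[k] M) - 1)
  · rcases h with ⟨e, he, he1, f, hf, hf1, hef⟩ | hne
    · have ha := (hA e).mp he
      have hb := (hB f).mp hf
      have ha0 := sub_one_ne he1
      have hb0 := sub_one_ne hf1
      have h1 : ((e : M →ₗ[k] M) - 1) * ((f : M →ₗ[k] M) - 1) = ((f : M →ₗ[k] M) - 1) * ((e : M →ₗ[k] M) - 1) := by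
        have h3 := congrArg (fun g : LinearMap.GeneralLinearGroup k M => (g : M →ₗ[k] M)) hef
        simp only [Units.val_mul] at h3
        rw [sub_mul, mul_sub, mul_sub, sub_mul, mul_sub, mul_sub, h3]
        simp only [one_mul, mul_one]; abel
      have h4 := hn.of_InE hx hy ha ha0 hb hb0
      apply h4.not_nilpotent ha0
      refine ⟨2, ?_⟩
      rw [pow_two]
      nth_rewrite 2 [h1]
      rw [mul_assoc, ← mul_assoc ((f : M →ₗ[k] M) - 1), hb.1.sq, zero_mul, mul_zero]
    · obtain ⟨⟨e, he⟩, he1'⟩ := Subgroup.ne_bot_iff_exists_ne_one.mp hne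
      have he1 : e ≠ 1 := fun h => he1' (Subtype.ext h)
      apply not_normalize hy hx hB hA hn.symm he.1 he1
      intro g hg
      exact (Subgroup.mem_normalizer_iff.mp he.2 g).mp hg
  · obtain ⟨a, b, ha, hb, hcp⟩ := not_comm_exists hc2 hk3 hx hy hA hB hn hc
    have hE' := hA.congr hx ha hcp.hx.2.1
    have hF' := hB.congr hy hb hcp.hy.2.1
    have hn' : ¬ NN a b := fun h => hn (h.congr (ha.ker_eq hx hcp.hx.2.1).symm (ha.range_eq hx hcp.hx.2.1).symm
      (hb.ker_eq hy hcp.hy.2.1).symm (hb.range_eq hy hcp.hy.2.1).symm)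
    rcases h with ⟨e, he, he1, f, hf, hf1, hef⟩ | hne
    · have ha := (hE' e).mp he
      have hb := (hF' f).mp hf
      have ha0 := sub_one_ne he1
      have hb0 := sub_one_ne hf1
      obtain ⟨h1, h3⟩ := hcp.other hc2 hk3 hn' ha ha0 hb hb0
      apply h1.ne
      have h3 := congrArg (fun g : LinearMap.GeneralLinearGroup k M => (g : M →ₗ[k] M)) hef
      simp only [Units.val_mul] at h3
      rw [sub_mul, mul_sub, mul_sub, sub_mul, mul_sub, mul_sub, h3]
      simp only [one_mul, mul_one]; abel
    · obtain ⟨⟨e, he⟩, he1'⟩ := Subgroup.ne_bot_iff_exists_ne_one.mp hne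
      have he1 : e ≠ 1 := fun h => he1' (Subtype.ext h)
      have ha := (hE' e).mp he.1
      have ha0 := sub_one_ne he1
      obtain ⟨h1, h3⟩ := hcp.other hc2 hk3 hn' ha ha0 (InE.refl hcp.hy.inn) hcp.hy.2.1
      -- the conjugate of `1 + b`
      have h4 := (Subgroup.mem_normalizer_iff.mp he.2 _).mp (hF'.un_mem (InE.refl hcp.hy.inn))
      rw [hF'] at h4
      have h5 := conj_sub_one e (un b hcp.hy.inn.sq)
      rw [un_val, add_sub_cancel_left, inv_val_of_sq ha.1.sq] at h5
      have h6 : (e : M →ₗ[k] M) * b * (1 - ((e : M →ₗ[k] M) - 1)) =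
          b + (((e : M →ₗ[k] M) - 1) * b - b * ((e : M →ₗ[k] M) - 1)) := by
        have h7 := h1.xyx
        conv_lhs => rw [one_add_sub_one e]
        generalize (e : M →ₗ[k] M) - 1 = z at *
        rw [add_sub_cancel_left, add_mul, one_mul, mul_sub, mul_one, add_mul, h7]; abel
      rw [h6] at h5
      rw [h5] at h4
      have h8 : InE G b (((e : M →ₗ[k] M) - 1) * b - b * ((e : M →ₗ[k] M) - 1)) := by
        have := h4.sub hcp.hy.inn.sq (InE.refl hcp.hy.inn)
        rwa [add_sub_cancel_left] at this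
      -- so the commutator has the kernel and range of `b`
      have k1 := h8.ker_eq hcp.hy h1.ne
      have k2 := h8.range_eq hcp.hy h1.ne
      apply h1.ne
      have h9 : ((e : M →ₗ[k] M) - 1) * b = 0 := mul_eq_zero_of_le (by rw [← k2]; exact le_of_mul_eq_zero h1.xg)
      have h10 : b * ((e : M →ₗ[k] M) - 1) = 0 := mul_eq_zero_of_le (by rw [← k1]; exact le_of_mul_eq_zero h1.gx)
      rw [h9, h10, sub_zero]

end Cfsg.Agent.S5073
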