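import Cfsg.Statements.S5081
import Cfsg.Agent.Fus.Radical

set_option autoImplicit false
open Cfsg

namespace Cfsg.Agent.S5081

/-- Let F be a saturated fusion system over a finite p-group S, P a proper subgroup of S that is fully normalized, and H the subgroup of Aut_F(P) generated by the automorphisms that extend to maps of the system defined on strictly larger subgroups of S. Then either P is not essential and H is all of Aut_F(P), or P is essential and the image of H in Out_F(P) = Aut_F(P)/Inn(P) is strongly p-embedded there. -/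
theorem result {Ω : Type*} [Group Ω] {S : Subgroup Ω} [Finite S] (p : ℕ) [Fact p.Prime] (hS : IsPGroup p S) (F : Cfsg.FusionSystem S) (hF : F.IsSaturated p) (P : Subgroup Ω) (hPS : P < S) (hPn : F.IsFullyNormalized P) (H : Subgroup (MulAut P)) (hH : H = Subgroup.closure {α : MulAut P | ∃ (Q : Subgroup Ω) (hPQ : P < Q) (φ : Q →* Ω), φ ∈ F.Hom Q ∧ ∀ x : P, φ (Subgroup.inclusion hPQ.le x) = α x}) : (¬ F.IsEssential p P ∧ H = F.autGroup P) ∨ (F.IsEssential p P ∧ ∃ _ : ((Cfsg.Inn P).subgroupOf (F.autGroup P)).Normal, Cfsg.IsStronglyPEmbedded p ((H.subgroupOf (F.autGroup P)).map (QuotientGroup.mk' ((Cfsg.Inn P).subgroupOf (F.autGroup P))))) := by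
  classical
  have hN := Cfsg.Agent.Fus.inn_subgroupOf_normal F P
  -- membership in the generating set, pointwise
  have hgen : ∀ (α : MulAut P) (R : Subgroup Ω) (g : Ω → Ω), P < R → Cfsg.Agent.Fus.IsMap F R g →
      (∀ x ∈ P, g x = Cfsg.Agent.Fus.ofAut α x) → α ∈ H := by
    intro α R g hR hg hgα
    rw [hH]
    refine Subgroup.subset_closure ⟨R, hR, hg.hom, hg.hom_mem, fun x => ?_⟩
    show g x = α x
    rw [hgα x x.2, Cfsg.Agent.Fus.ofAut_coe]
  have hgen' : ∀ (M : Subgroup (MulAut P)), (∀ (α : MulAut P) (R : Subgroup Ω) (g : Ω → Ω), P < R →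
      Cfsg.Agent.Fus.IsMap F R g → (∀ x ∈ P, g x = Cfsg.Agent.Fus.ofAut α x) → α ∈ M) → H ≤ M := by
    intro M hM
    rw [hH, Subgroup.closure_le]
    rintro α ⟨R, hR, φ, hφ, hφα⟩
    refine hM α R (Cfsg.Agent.Fus.ofHom φ) hR (Cfsg.Agent.Fus.isMap_of_mem hφ) fun x hx => ?_
    rw [Cfsg.Agent.Fus.ofHom_apply φ (hR.le hx), Cfsg.Agent.Fus.ofAut_apply α hx]
    exact hφα ⟨x, hx⟩
  have hHle : H ≤ F.autGroup P := by
    refine hgen' _ fun α R g hR hg hgα => ?_
    rw [Cfsg.Agent.Fus.mem_autGroup_iff hPS.le]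
    exact (hg.mono hR.le).congr hgα
  by_cases hc : F.IsCentric P
  · by_cases htop : H.subgroupOf (F.autGroup P) = ⊤
    · left
      have hHeq : H = F.autGroup P := le_antisymm hHle (Subgroup.subgroupOf_eq_top.mp htop)
      refine ⟨fun hess => ?_, hHeq⟩
      obtain ⟨M, hM, hMα⟩ := Cfsg.Agent.Fus.exists_proper_of_essential' hS hF hess
      apply hM
      rw [eq_top_iff]
      intro α _
      have h1 : H ≤ M.map (F.autGroup P).subtype := by
        refine hgen' _ fun β R g hR hg hgβ => ?_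
        have hβ : β ∈ F.autGroup P := by
          rw [Cfsg.Agent.Fus.mem_autGroup_iff hPS.le]
          exact (hg.mono hR.le).congr hgβ
        exact ⟨⟨β, hβ⟩, hMα ⟨β, hβ⟩ R g hR hg hgβ, rfl⟩
      rw [hHeq] at h1
      obtain ⟨γ, hγ, hγα⟩ := h1 α.2
      have : γ = α := Subtype.ext hγα
      rwa [← this]
    · right
      have hse := Cfsg.Agent.Fus.isStronglyPEmbedded_of_proper hS hF hPn hc hPS.ne hN
        (H.subgroupOf (F.autGroup P)) (by
          rintro α ⟨R, g, hR, hg, hgα⟩
          exact hgen α R g hR hg hgα) htop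
      exact ⟨⟨hc, hPn, hN, _, hse⟩, hN, hse⟩
  · left
    refine ⟨fun hess => hc hess.1, le_antisymm hHle fun α hα => ?_⟩
    have hC : ¬ Cfsg.FusionSystem.centralizerIn S P ≤ P := fun hC =>
      hc (Cfsg.Agent.Fus.isCentric_of_fullyCentralized (Cfsg.Agent.Fus.sat_fullyCentralized hS hF hPn) hC)
    obtain ⟨c, hcC, hcP⟩ := Set.not_subset.mp hC
    obtain ⟨R, g, hR, hg, hgα⟩ := Cfsg.Agent.Fus.exists_extend_of_inExt
      (Cfsg.Agent.Fus.sat_receptive' hS hF hPn) hα (Cfsg.Agent.Fus.inExt_of_centralizer hcC) hcP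
    exact hgen α R g hR hg hgα

end Cfsg.Agent.S5081
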