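import Cfsg.Statements.S5087
import Cfsg.Agent.Fus.NormalChar

set_option autoImplicit false
open Cfsg

namespace Cfsg.Agent.S5087

/-- In a saturated fusion system over a finite p-group S, a subgroup Q is normal in the system if and only if every subgroup P that equals S or is essential contains Q and every element of Aut_F(P) maps Q onto itself. -/
theorem result {Ω : Type*} [Group Ω] {S : Subgroup Ω} [Finite S] (p : ℕ) [Fact p.Prime] (hS : IsPGroup p S) (F : Cfsg.FusionSystem S) (hF : F.IsSaturated p) (Q : Subgroup Ω) : F.IsNormal Q ↔ ∀ P : Subgroup Ω, (P = S ∨ F.IsEssential p P) → (Q ≤ P ∧ ∀ α ∈ F.autGroup P, (Q.subgroupOf P).map α.toMonoidHom = Q.subgroupOf P) := by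
  rw [Cfsg.Agent.Fus.isNormal_iff_essential hS hF]
  have hS' : ∀ P : Subgroup Ω, (P = S ∨ F.IsEssential p P) → P ≤ S := by
    rintro P (rfl | hP)
    · exact le_rfl
    · exact hP.1.1
  constructor
  · intro h P hP
    refine ⟨(h P hP).1, fun α hα => ?_⟩
    ext y
    constructor
    · rintro ⟨x, hx, rfl⟩
      have := (h P hP).2 α hα x hx
      rw [Cfsg.Agent.Fus.ofAut_coe] at this
      exact this
    · intro hy
      have := (h P hP).2 α⁻¹ (Subgroup.inv_mem _ hα) y hy
      rw [Cfsg.Agent.Fus.ofAut_coe] at this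
      exact ⟨α⁻¹ y, this, MulAut.apply_inv_self _ _ _⟩
  · intro h P hP
    refine ⟨(h P hP).1, fun α hα x hx => ?_⟩
    rw [Cfsg.Agent.Fus.ofAut_apply α ((h P hP).1 hx)]
    have h1 : α ⟨x, (h P hP).1 hx⟩ ∈ (Q.subgroupOf P).map α.toMonoidHom := ⟨⟨x, (h P hP).1 hx⟩, hx, rfl⟩
    rw [(h P hP).2 α hα] at h1
    exact h1

end Cfsg.Agent.S5087
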