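import Cfsg.Statements.S5089
import Cfsg.Agent.Fus.NormalChar

set_option autoImplicit false
open Cfsg

namespace Cfsg.Agent.S5089

/-- A saturated fusion system over a finite p-group has a nontrivial subgroup that is normal in the system (O_p(F) ≠ 1) if and only if some nontrivial abelian subgroup is strongly closed in the system. -/
theorem result {Ω : Type*} [Group Ω] {S : Subgroup Ω} [Finite S] (p : ℕ) [Fact p.Prime] (hS : IsPGroup p S) (F : Cfsg.FusionSystem S) (hF : F.IsSaturated p) : F.core ≠ ⊥ ↔ ∃ Q : Subgroup Ω, Q ≠ ⊥ ∧ IsMulCommutative Q ∧ F.StronglyClosed Q := by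
  constructor
  · intro h
    obtain ⟨Q, hQ, hQne⟩ : ∃ Q, F.IsNormal Q ∧ Q ≠ ⊥ := by
      by_contra hcon
      push Not at hcon
      apply h
      rw [eq_bot_iff]
      exact sSup_le fun Q hQ => (hcon Q hQ).le
    have hQS : Q ≤ S := hQ.1
    have hfQ : Finite Q := Cfsg.Agent.Fus.finite_of_le hQS
    have hntQ : Nontrivial Q := (Subgroup.nontrivial_iff_ne_bot Q).mpr hQne
    have hZ : Nontrivial (Subgroup.center Q) := (hS.to_le hQS).center_nontrivial
    have hsub : ((Subgroup.center Q).map Q.subtype).subgroupOf Q = Subgroup.center Q := by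
      rw [Subgroup.subgroupOf, Subgroup.comap_map_eq_self_of_injective Q.subtype_injective]
    refine ⟨(Subgroup.center Q).map Q.subtype, ?_, ⟨⟨?_⟩⟩, ?_⟩
    · intro hbot
      rw [Subgroup.map_eq_bot_iff_of_injective _ Q.subtype_injective] at hbot
      exact (Subgroup.nontrivial_iff_ne_bot _).mp hZ hbot
    · rintro ⟨_, x, hx, rfl⟩ ⟨_, y, hy, rfl⟩
      apply Subtype.ext
      exact congrArg (fun z : Q => (z : Ω)) ((Subgroup.mem_center_iff.mp hx y).symm)
    · apply Cfsg.Agent.Fus.IsNormal.stronglyClosed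
      refine Cfsg.Agent.Fus.IsNormal.char hQ (Subgroup.map_subtype_le _) ?_
      rw [hsub]; infer_instance
  · rintro ⟨Q, hne, hab, hQ⟩ hcore
    have h1 := Cfsg.Agent.Fus.stronglyClosed_abelian_normal hS hF hQ hab
    have h2 : Q ≤ F.core := le_sSup h1
    rw [hcore, le_bot_iff] at h2
    exact hne h2

end Cfsg.Agent.S5089
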