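import Cfsg.Statements.S5094
import Cfsg.Agent.H69.ZStar
import Cfsg.Agent.Fus.NormalChar
import Cfsg.Agent.Fus.Join
import Cfsg.Agent.Fus.Group

set_option autoImplicit false
set_option linter.style.haveILetI false
set_option linter.unusedSectionVars false
open Cfsg

namespace Cfsg.Agent.S5094

open Subgroup Cfsg.Agent.H69

theorem isConjElt_iff_group {G : Type*} [Group G] (S : Subgroup G) (x y : G) :
    (Cfsg.groupFusionSystem S).IsConjElt x y ↔ x ∈ S ∧ y ∈ S ∧ ∃ g : G, g * x * g⁻¹ = y := by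
  constructor
  · rintro ⟨φ, hφ, rfl⟩
    obtain ⟨h1, h2, g, hg⟩ := hφ
    exact ⟨h1 (mem_zpowers x), h2 _, g, (hg ⟨x, mem_zpowers x⟩).symm⟩
  · rintro ⟨hx, hy, g, rfl⟩
    refine ⟨Cfsg.conjHom (zpowers x) g, ⟨zpowers_le.mpr hx, ?_, g, fun z => rfl⟩, rfl⟩
    intro z
    obtain ⟨m, hm⟩ := mem_zpowers_iff.mp z.2
    show g * (z : G) * g⁻¹ ∈ S
    rw [← hm, ← conj_zpow]
    exact zpow_mem hy m

/-- Glauberman's Z*-Theorem in fusion language: for a finite group G with Sylow 2-subgroup S, the centre of the fusion system of G on S is the set of elements of S whose image in G/O(G) is central, O(G) being the largest normal subgroup of odd order. -/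
theorem result {G : Type*} [Group G] [Finite G] (S : Sylow 2 G) : (Cfsg.groupFusionSystem (S : Subgroup G)).center = (S : Subgroup G) ⊓ (Subgroup.center (G ⧸ Cfsg.oddCore G)).comap (QuotientGroup.mk' (Cfsg.oddCore G)) := by
  have hsat := Fus.group_saturated S
  apply le_antisymm
  · intro x hx
    have hc := Fus.Join.isCentral_center (Cfsg.groupFusionSystem (S : Subgroup G))
    rw [Fus.isCentral_iff_singleton S.2 hsat] at hc
    have hxS := hc.1 hx
    refine mem_inf.mpr ⟨hxS, ?_⟩
    rw [mem_comap, mem_center_iff]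
    intro y
    obtain ⟨g, rfl⟩ := QuotientGroup.mk_surjective y
    have h1 := zstar_gen (Nat.card G) G le_rfl S x hxS (fun g hg => by
      exact hc.2 x hx _ ((isConjElt_iff_group _ _ _).mpr ⟨hxS, hg, g, rfl⟩)) g
    have h2 := (QuotientGroup.eq_one_iff (N := Cfsg.oddCore G) _).mpr h1
    rw [QuotientGroup.mk_mul, QuotientGroup.mk_mul, QuotientGroup.mk_mul, QuotientGroup.mk_inv,
      QuotientGroup.mk_inv, mul_inv_eq_one, mul_inv_eq_iff_eq_mul] at h2
    exact h2
  · apply Fus.Join.le_center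
    rw [Fus.isCentral_iff_singleton S.2 hsat]
    refine ⟨inf_le_left, ?_⟩
    intro x hx y hxy
    obtain ⟨h1, h2, g, rfl⟩ := (isConjElt_iff_group _ _ _).mp hxy
    have h3 := mem_center_iff.mp (mem_comap.mp (mem_inf.mp hx).2) (QuotientGroup.mk g)
    have h4 : g * x * g⁻¹ * x⁻¹ ∈ Cfsg.oddCore G := by
      rw [← QuotientGroup.eq_one_iff, QuotientGroup.mk_mul, QuotientGroup.mk_mul,
        QuotientGroup.mk_mul, QuotientGroup.mk_inv, QuotientGroup.mk_inv, mul_inv_eq_one,
        mul_inv_eq_iff_eq_mul]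
      exact h3
    have h5 : g * x * g⁻¹ * x⁻¹ ∈ (S : Subgroup G) := mul_mem h2 (inv_mem h1)
    obtain ⟨k, hk⟩ := orderOf_of_mem_isPGroup S.2 h5
    have h6 := Transfer.coprime_orderOf_of_coprime_card (Solv.pPrimeCore_card_coprime 2) h4
    rw [hk] at h6
    have h7 : orderOf (g * x * g⁻¹ * x⁻¹) = 1 := by
      rw [hk]
      by_contra hne
      have hk0 : k ≠ 0 := by rintro rfl; exact hne (pow_zero 2)
      exact absurd (Nat.Coprime.eq_one_of_dvd h6.symm (dvd_pow_self 2 hk0)) (by norm_num)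
    rw [orderOf_eq_one_iff, mul_inv_eq_one] at h7
    exact h7

end Cfsg.Agent.S5094
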