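import Cfsg.Statements.S5102
import Cfsg.Prelude.Def_FusionSystem

set_option autoImplicit false
open Cfsg

namespace Cfsg.Agent.S5102

/-- A normal p-subgroup of a finite group G is normal in the fusion system of G on a Sylow p-subgroup. -/
theorem result {G : Type*} [Group G] [Finite G] (p : ℕ) [Fact p.Prime] (S : Sylow p G) (R : Subgroup G) [R.Normal] (hR : IsPGroup p R) : (Cfsg.groupFusionSystem (S : Subgroup G)).IsNormal R := by
  have hRS : R ≤ (S : Subgroup G) := by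
    obtain ⟨T, hT⟩ := hR.exists_le_sylow
    obtain ⟨g, hg⟩ := MulAction.exists_smul_eq G T S
    intro x hx
    have h1 : g⁻¹ * x * g⁻¹⁻¹ ∈ R := (inferInstance : R.Normal).conj_mem x hx g⁻¹
    have h2 : (MulAut.conj g) (g⁻¹ * x * g⁻¹⁻¹) ∈ (S : Subgroup G) := by
      rw [← hg]
      exact ⟨_, hT h1, rfl⟩
    have h3 : (MulAut.conj g) (g⁻¹ * x * g⁻¹⁻¹) = x := by simp [MulAut.conj_apply]; group
    rwa [h3] at h2
  refine ⟨hRS, fun P φ hφ => ?_⟩
  obtain ⟨hP, hφS, g, hg⟩ := hφ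
  have hmem : ∀ x : ↥(P ⊔ R), g * (x : G) * g⁻¹ ∈ (S : Subgroup G) := by
    have key : P ⊔ R ≤ ((S : Subgroup G).comap (MulAut.conj g).toMonoidHom) := by
      refine sup_le ?_ ?_
      · intro x hx
        have := hφS ⟨x, hx⟩
        rw [hg] at this
        exact this
      · intro x hx
        exact hRS ((inferInstance : R.Normal).conj_mem x hx g)
    exact fun x => key x.2
  refine ⟨Cfsg.conjHom (P ⊔ R) g, ⟨sup_le hP hRS, hmem, g, fun x => rfl⟩, fun x => ?_, ?_⟩
  · rw [hg]; rfl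
  · ext y; constructor
    · rintro ⟨x, hx, rfl⟩
      exact (inferInstance : R.Normal).conj_mem _ hx g
    · intro hy
      have h1 : g⁻¹ * y * g⁻¹⁻¹ ∈ R := (inferInstance : R.Normal).conj_mem y hy g⁻¹
      refine ⟨⟨g⁻¹ * y * g⁻¹⁻¹, le_sup_right (a := P) h1⟩, h1, ?_⟩
      show g * (g⁻¹ * y * g⁻¹⁻¹) * g⁻¹ = y
      group

end Cfsg.Agent.S5102
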