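import Cfsg.Statements.S5103
import Cfsg.Agent.Fus.CentralQuot
import Cfsg.Agent.Fus.Iso3
import Cfsg.Agent.Fus.ModelUnique

set_option autoImplicit false
open Cfsg

namespace Cfsg.Agent.S5103

/-- A fusion system over a finite p-group that has a model (a finite group realizing it on a Sylow p-subgroup with self-centralizing largest normal p-subgroup) is constrained. -/
theorem result {Ω : Type*} [Group Ω] {S : Subgroup Ω} [Finite S] (p : ℕ) [Fact p.Prime] (hS : IsPGroup p S) (F : Cfsg.FusionSystem S) {G : Type*} [Group G] (ι : S →* G) (hG : F.IsModel p G ι) : F.IsConstrained p := by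
  obtain ⟨hfin, hr, ⟨R, hR⟩, hc⟩ := id hG
  have ht := Cfsg.Agent.Fus.tr_of_isRealizedBy hr
  have h1 : (Cfsg.groupFusionSystem ι.range).IsSaturated p := by
    rw [← hR]; exact Cfsg.Agent.Fus.group_saturated R
  refine ⟨ht.symm.isSaturated h1, _, Cfsg.Agent.Fus.coreOf_normal hG,
    Cfsg.Agent.Fus.isCentric_of_isNormal (Cfsg.Agent.Fus.coreOf_normal hG) ?_⟩
  intro x hx
  obtain ⟨hxS, hxc⟩ := Cfsg.Agent.Fus.mem_centralizerIn.1 hx
  refine Cfsg.Agent.Fus.mem_coreOf.2 ⟨hxS, hc ?_⟩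
  rw [Subgroup.mem_centralizer_iff]
  intro y hy
  obtain ⟨s, hs, rfl⟩ := Cfsg.Agent.Fus.pCore_exists hG hy
  have hsS := Cfsg.Agent.Fus.coreOf_le hs
  rw [← Cfsg.Agent.Fus.jj_mul hsS hxS, ← Cfsg.Agent.Fus.jj_mul hxS hsS, hxc s hs]

end Cfsg.Agent.S5103
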