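import Cfsg.Statements.S5104
import Cfsg.Agent.H85.Base

set_option autoImplicit false
open Cfsg

namespace Cfsg.Agent.S5104

open Cfsg Cfsg.Agent.H85

theorem card_inf_centralizer {Ω : Type*} [Group Ω] {U V : Subgroup Ω} (e : U ≃* V) :
    Nat.card ↥(U ⊓ Subgroup.centralizer (U : Set Ω)) =
      Nat.card ↥(V ⊓ Subgroup.centralizer (V : Set Ω)) := by
  have key : ∀ W : Subgroup Ω, Nat.card ↥(W ⊓ Subgroup.centralizer (W : Set Ω)) =
      Nat.card (Subgroup.center W) := by
    intro W
    have : W ⊓ Subgroup.centralizer (W : Set Ω) = (Subgroup.center W).map W.subtype := by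
      ext x; constructor
      · rintro ⟨hx, hc⟩
        refine ⟨⟨x, hx⟩, ?_, rfl⟩
        refine Subgroup.mem_center_iff.2 fun g => Subtype.ext ?_
        exact Subgroup.mem_centralizer_iff.1 hc g g.2
      · rintro ⟨x, hx, rfl⟩
        refine ⟨x.2, Subgroup.mem_centralizer_iff.2 fun g hg => ?_⟩
        exact congrArg Subtype.val (Subgroup.mem_center_iff.1 hx ⟨g, hg⟩)
    rw [this]
    exact (Nat.card_congr ((Subgroup.center W).equivMapOfInjective _ W.subtype_injective).toEquiv).symm
  rw [key, key]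
  exact Nat.card_congr (Subgroup.centerCongr e).toEquiv

/-- In a saturated fusion system over a finite p-group S, a fully centralized subgroup U with C_S(U) ≤ U is centric. -/
theorem result {Ω : Type*} [Group Ω] {S : Subgroup Ω} [Finite S] (p : ℕ) [Fact p.Prime] (hS : IsPGroup p S) (F : Cfsg.FusionSystem S) (hF : F.IsSaturated p) (U : Subgroup Ω) (hU : F.IsFullyCentralized U) (hC : Cfsg.FusionSystem.centralizerIn S U ≤ U) : F.IsCentric U := by
  refine ⟨hU.1, fun V hV => ?_⟩
  obtain ⟨e, he⟩ := isConj_iff.1 hV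
  have hfin : Finite ↥(Cfsg.FusionSystem.centralizerIn S V) :=
    Finite.of_injective _ (Subgroup.inclusion_injective (inf_le_left : S ⊓ _ ≤ S))
  have h1 : Nat.card ↥(Cfsg.FusionSystem.centralizerIn S V) ≤
      Nat.card ↥(V ⊓ Subgroup.centralizer (V : Set Ω)) := by
    refine (hU.2 V hV).trans ?_
    rw [← card_inf_centralizer e]
    have : Cfsg.FusionSystem.centralizerIn S U ≤ U ⊓ Subgroup.centralizer (U : Set Ω) :=
      le_inf hC inf_le_right
    have hfin2 : Finite ↥(U ⊓ Subgroup.centralizer (U : Set Ω)) :=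
      Finite.of_injective _ (Subgroup.inclusion_injective ((inf_le_left : U ⊓ _ ≤ U).trans hU.1))
    exact Nat.card_le_card_of_injective _ (Subgroup.inclusion_injective this)
  have h2 : V ⊓ Subgroup.centralizer (V : Set Ω) ≤ Cfsg.FusionSystem.centralizerIn S V :=
    inf_le_inf_right _ he.le_right
  have h3 : V ⊓ Subgroup.centralizer (V : Set Ω) = Cfsg.FusionSystem.centralizerIn S V :=
    Subgroup.eq_of_le_of_card_ge h2 h1
  rw [← h3]
  exact inf_le_left

end Cfsg.Agent.S5104
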