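import Cfsg.Statements.S5105
import Cfsg.Agent.Solv.Core

set_option autoImplicit false
open Cfsg

namespace Cfsg.Agent.S5105

open Cfsg

/-- Model Theorem, rigidity: if G is a model of a constrained fusion system over a finite p-group S (through ι : S → G), then every automorphism of G fixing ι(S) elementwise is conjugation by ι(z) for some z in the centre of S. -/
theorem result {Ω : Type*} [Group Ω] {S : Subgroup Ω} [Finite S] (p : ℕ) [Fact p.Prime] (hS : IsPGroup p S) (F : Cfsg.FusionSystem S) (hF : F.IsConstrained p) {G : Type*} [Group G] (ι : S →* G) (hG : F.IsModel p G ι) (ψ : G ≃* G) (hψ : ∀ x : S, ψ (ι x) = ι x) : ∃ z : S, z ∈ Subgroup.center S ∧ ∀ g : G, ψ g = ι z * g * (ι z)⁻¹ := by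
  obtain ⟨hfin, ⟨hinj, -⟩, ⟨T, hT⟩, hC⟩ := hG
  have hQT : Cfsg.pCore p G ≤ (T : Subgroup G) := Cfsg.Agent.Solv.pCore_le_sylow T
  have hQn : (Cfsg.pCore p G).Normal := inferInstance
  set Q := Cfsg.pCore p G with hQ
  have hfix : ∀ x ∈ (T : Subgroup G), ψ x = x := by
    intro x hx
    rw [hT] at hx
    obtain ⟨s, rfl⟩ := hx
    exact hψ s
  -- the cocycle
  have hcent : ∀ g : G, ψ g * g⁻¹ ∈ Subgroup.centralizer (Q : Set G) := by
    intro g
    rw [Subgroup.mem_centralizer_iff]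
    intro y hy
    have h1 : g⁻¹ * y * g ∈ Q := by
      have := hQn.conj_mem y hy g⁻¹
      rwa [inv_inv] at this
    have h2 : ψ y = y := hfix y (hQT hy)
    have h3 : ψ (g⁻¹ * y * g) = g⁻¹ * y * g := hfix _ (hQT h1)
    rw [map_mul, map_mul, map_inv, h2] at h3
    calc y * (ψ g * g⁻¹) = ψ g * ((ψ g)⁻¹ * y * ψ g) * g⁻¹ := by group
      _ = ψ g * (g⁻¹ * y * g) * g⁻¹ := by rw [h3]
      _ = ψ g * g⁻¹ * y := by group
  let Z : Subgroup G := Q ⊓ Subgroup.centralizer (Q : Set G)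
  have hZmem : ∀ g : G, ψ g * g⁻¹ ∈ Z := fun g => ⟨hC (hcent g), hcent g⟩
  have hZcomm : ∀ a b : Z, a * b = b * a := by
    rintro ⟨a, ha1, ha2⟩ ⟨b, hb1, hb2⟩
    exact Subtype.ext (Subgroup.mem_centralizer_iff.1 hb2 a ha1)
  letI : CommGroup Z := { (inferInstance : Group Z) with mul_comm := hZcomm }
  have hZconj : ∀ (g : G) (z : Z), g * z * g⁻¹ ∈ Z := by
    rintro g ⟨z, hz1, hz2⟩
    refine ⟨hQn.conj_mem z hz1 g, ?_⟩
    show g * z * g⁻¹ ∈ Subgroup.centralizer (Q : Set G)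
    rw [Subgroup.mem_centralizer_iff]
    intro y hy
    have h1 : g⁻¹ * y * g ∈ Q := by
      have := hQn.conj_mem y hy g⁻¹
      rwa [inv_inv] at this
    have h2 := Subgroup.mem_centralizer_iff.1 hz2 _ h1
    calc y * (g * z * g⁻¹) = g * ((g⁻¹ * y * g) * z) * g⁻¹ := by group
      _ = g * (z * (g⁻¹ * y * g)) * g⁻¹ := by rw [h2]
      _ = g * z * g⁻¹ * y := by group
  let c : G → Z →* Z := fun g =>
    { toFun := fun z => ⟨g * z * g⁻¹, hZconj g z⟩
      map_one' := Subtype.ext (by simp)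
      map_mul' := fun a b => Subtype.ext (by
        show g * ((a : G) * b) * g⁻¹ = g * a * g⁻¹ * (g * b * g⁻¹)
        group) }
  let k : G → Z := fun g => ⟨ψ g * g⁻¹, hZmem g⟩
  have hk : ∀ g h, k (g * h) = k g * c g (k h) := by
    intro g h
    apply Subtype.ext
    show ψ (g * h) * (g * h)⁻¹ = ψ g * g⁻¹ * (g * (ψ h * h⁻¹) * g⁻¹)
    rw [map_mul]; group
  have hkT : ∀ g, ∀ s ∈ (T : Subgroup G), k (g * s) = k g := by
    intro g s hs
    apply Subtype.ext
    show ψ (g * s) * (g * s)⁻¹ = ψ g * g⁻¹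
    rw [map_mul, hfix s hs]; group
  let K : G ⧸ (T : Subgroup G) → Z := Quotient.lift k (by
    intro a b hab
    have h1 : a⁻¹ * b ∈ (T : Subgroup G) := QuotientGroup.leftRel_apply.1 hab
    have h2 := hkT a _ h1
    rw [mul_inv_cancel_left] at h2
    exact h2.symm)
  have hfinQ : Finite (G ⧸ (T : Subgroup G)) := inferInstance
  letI : Fintype (G ⧸ (T : Subgroup G)) := Fintype.ofFinite _
  set a : Z := ∏ x, K x with ha
  set n := Nat.card (G ⧸ (T : Subgroup G)) with hn
  have key : ∀ h : G, a = k h ^ n * c h a := by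
    intro h
    have h1 : a = ∏ x, K (h • x) := (Fintype.prod_equiv (MulAction.toPerm h) _ _ fun x => rfl).symm
    have h2 : ∀ x : G ⧸ (T : Subgroup G), K (h • x) = k h * c h (K x) := by
      intro x
      obtain ⟨g, rfl⟩ := QuotientGroup.mk_surjective x
      exact hk h g
    calc a = ∏ x, K (h • x) := h1
      _ = ∏ x, (k h * c h (K x)) := by simp only [h2]
      _ = k h ^ n * c h a := by
        rw [Finset.prod_mul_distrib, Finset.prod_const, Finset.card_univ, ← Nat.card_eq_fintype_card,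
          ← hn, ← map_prod]
  have hcop : (Nat.card Z).Coprime n := by
    have h1 : ¬ p ∣ n := T.not_dvd_index
    have hZp : IsPGroup p Z := T.isPGroup'.to_le (inf_le_left.trans hQT)
    obtain ⟨m, hm⟩ := hZp.exists_card_eq
    rw [hm]
    exact Nat.Coprime.pow_left m ((Nat.Prime.coprime_iff_not_dvd Fact.out).2 h1)
  set b := (powCoprime hcop).symm a with hb
  have hbn : b ^ n = a := (powCoprime hcop).apply_symm_apply a
  have hkb : ∀ h : G, k h = b * (c h b)⁻¹ := by
    intro h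
    have h1 := key h
    rw [← hbn, map_pow, ← mul_pow] at h1
    have h2 : b = k h * c h b := (powCoprime hcop).injective h1
    rw [eq_mul_inv_iff_mul_eq]
    exact h2.symm
  have hψb : ∀ h : G, ψ h = b * h * (b : G)⁻¹ := by
    intro h
    have h1 : ψ h * h⁻¹ = (b : G) * (h * b * h⁻¹)⁻¹ := congrArg Subtype.val (hkb h)
    calc ψ h = ψ h * h⁻¹ * h := by group
      _ = (b : G) * (h * b * h⁻¹)⁻¹ * h := by rw [h1]
      _ = b * h * (b : G)⁻¹ := by group
  have hbT : (b : G) ∈ (T : Subgroup G) := hQT b.2.1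
  rw [hT] at hbT
  obtain ⟨z, hz⟩ := hbT
  refine ⟨z, ?_, fun g => by rw [hz]; exact hψb g⟩
  rw [Subgroup.mem_center_iff]
  intro x
  apply hinj
  have h1 := hψb (ι x)
  rw [hψ x, ← hz] at h1
  rw [map_mul, map_mul]
  calc ι x * ι z = (ι z * ι x * (ι z)⁻¹) * ι z := by rw [← h1]
    _ = ι z * ι x := by group

end Cfsg.Agent.S5105
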