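import Cfsg.Statements.S5106
import Cfsg.Agent.Fus.ModInn

set_option autoImplicit false
open Cfsg

namespace Cfsg.Agent.S5106

open Cfsg.FusionSystem Cfsg.Agent.Fus Cfsg.Agent.H85

/-- In a saturated fusion system over a finite p-group S, a subgroup R ≤ S is normal in the system if and only if every map of the system whose source is a subgroup of R is the restriction of an element of Aut_F(R). -/
theorem result {Ω : Type*} [Group Ω] {S : Subgroup Ω} [Finite S] (p : ℕ) [Fact p.Prime] (hS : IsPGroup p S) (F : Cfsg.FusionSystem S) (hF : F.IsSaturated p) (R : Subgroup Ω) (hRS : R ≤ S) : F.IsNormal R ↔ ∀ (P : Subgroup Ω) (hPR : P ≤ R) (φ : P →* Ω), φ ∈ F.Hom P → ∃ α ∈ F.autGroup R, ∀ x : P, ((α (Subgroup.inclusion hPR x) : R) : Ω) = φ x := by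
  constructor
  · intro hN P hPR φ hφ
    obtain ⟨g, hg, hgf, himg⟩ := (isNormal_iff.1 hN).2 P (ofHom φ) (isMap_of_mem hφ)
    have hgR : IsMap F R g := hg.mono le_sup_right
    refine ⟨hgR.aut himg, hgR.aut_mem himg, fun x => ?_⟩
    rw [hgR.coe_aut_apply himg]
    show g x = φ x
    rw [hgf x x.2, ofHom_coe]
  · intro h
    have h' : ∀ {P : Subgroup Ω} {f : Ω → Ω}, IsMap F P f → P ≤ R → ∃ α ∈ F.autGroup R,
        ∀ x ∈ P, f x = ofAut α x := by
      intro P f hf hP
      obtain ⟨α, hα, hαf⟩ := h P hP hf.hom hf.hom_mem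
      refine ⟨α, hα, fun x hx => ?_⟩
      have := hαf ⟨x, hx⟩
      rw [hf.hom_apply] at this
      rw [ofAut_apply α (hP hx)]
      exact this.symm
    have hsc : F.StronglyClosed R := by
      rw [stronglyClosed_iff]
      refine ⟨hRS, fun P f hf hP x hx => ?_⟩
      obtain ⟨α, -, hα⟩ := h' hf hP
      rw [hα x hx]; exact ofAut_mem α (hP hx)
    refine isNormal_of_modInn hS hF hsc hsc hRS ?_ ?_ ?_
    · intro r hr x hx
      have := sc_conj_mem hsc hx (R.inv_mem hr)
      have h2 := R.mul_mem hr this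
      convert h2 using 1
      group
    · intro r hr
      exact ⟨r, hr, fun x _ => rfl⟩
    · intro P f hf hP a ha
      obtain ⟨α, -, hα⟩ := h' hf hP
      refine ⟨ofAut α a, ofAut_mem α ha, fun x hx hax => ?_⟩
      rw [hα _ hax, hα x hx, ofAut_map_mul α (R.mul_mem ha (hP hx)) (R.inv_mem ha),
        ofAut_map_mul α ha (hP hx), ofAut_map_inv' α ha]

end Cfsg.Agent.S5106
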