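import Cfsg.Statements.S5107
import Cfsg.Agent.Fus.ModInn
import Cfsg.Agent.Fus.Group
import Cfsg.Agent.Fus.Join

set_option autoImplicit false
open Cfsg

namespace Cfsg.Agent.S5107

open Cfsg.FusionSystem Cfsg.Agent.Fus Cfsg.Agent.H85

/-- If a Sylow p-subgroup S of a finite group G has nilpotency class at most two and its centre is strongly closed in S with respect to G, then every map of the fusion system of G on S is conjugation by an element of N_G(S), and S is the largest subgroup normal in that fusion system. -/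
theorem result {G : Type*} [Group G] [Finite G] (p : ℕ) [Fact p.Prime] (S : Sylow p G) (hcl : ⁅(S : Subgroup G), (S : Subgroup G)⁆ ≤ (S : Subgroup G) ⊓ Subgroup.centralizer ((S : Subgroup G) : Set G)) (hZ : Cfsg.IsStronglyClosed ((S : Subgroup G) ⊓ Subgroup.centralizer ((S : Subgroup G) : Set G)) (S : Subgroup G)) : (∀ (P : Subgroup G) (φ : P →* G), φ ∈ (Cfsg.groupFusionSystem (S : Subgroup G)).Hom P → ∃ g ∈ Subgroup.normalizer ((S : Subgroup G) : Set G), ∀ x : P, φ x = g * (x : G) * g⁻¹) ∧ (Cfsg.groupFusionSystem (S : Subgroup G)).core = S := by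
  set F := Cfsg.groupFusionSystem (S : Subgroup G) with hFdef
  have hSp : IsPGroup p (S : Subgroup G) := S.isPGroup'
  have hF : F.IsSaturated p := group_saturated S
  set Z := (S : Subgroup G) ⊓ Subgroup.centralizer ((S : Subgroup G) : Set G) with hZdef
  have hZsc : F.StronglyClosed Z := by
    rw [stronglyClosed_iff]
    refine ⟨hZ.1, fun P f hf hP x hx => ?_⟩
    obtain ⟨-, hfS, g, hg⟩ := isMap_group.1 hf
    have h1 := hfS x hx
    rw [hg x hx] at h1 ⊢
    exact hZ.2 x (hP hx) g h1
  have hSsc : F.StronglyClosed (S : Subgroup G) := by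
    rw [stronglyClosed_iff]
    exact ⟨le_rfl, fun P f hf _ x hx => hf.mem hx⟩
  have hN : F.IsNormal (S : Subgroup G) := by
    refine isNormal_of_modInn (A := ⊥) hSp hF hSsc hZsc bot_le ?_ ?_ ?_
    · intro r hr x hx
      exact hcl (Subgroup.commutator_mem_commutator hr hx)
    · intro r hr
      refine ⟨1, Subgroup.one_mem _, fun x hx => ?_⟩
      rw [(Subgroup.mem_centralizer_iff.1 hx.2 r hr)]
      group
    · intro P f hf hP a ha
      refine ⟨1, Subgroup.one_mem _, fun x hx hax => ?_⟩
      rw [Subgroup.mem_bot.1 ha]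
      simp
  refine ⟨fun P φ hφ => ?_, ?_⟩
  · obtain ⟨g, hg, hgf, himg⟩ := (isNormal_iff.1 hN).2 P (ofHom φ) (isMap_of_mem hφ)
    have hgS : IsMap F (S : Subgroup G) g := hg.mono le_sup_right
    obtain ⟨-, hS', y, hy⟩ := isMap_group.1 hgS
    have hPS : P ≤ (S : Subgroup G) := le_sup_left.trans hg.le
    refine ⟨y, ?_, fun x => ?_⟩
    · have hfin : Finite (S : Subgroup G) := inferInstance
      exact mem_normalizer_of_conj fun x hx => by rw [← hy x hx]; exact hS' x hx
    · rw [← hy x (hPS x.2), hgf x x.2, ofHom_coe]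
  · exact le_antisymm (Join.core_le F) (Join.le_core hN)

end Cfsg.Agent.S5107
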