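import Cfsg.Statements.S5111
import Cfsg.Agent.Fus.Stab2

set_option autoImplicit false
open Cfsg

namespace Cfsg.Agent.S5111

open Cfsg.FusionSystem Cfsg.Agent.Fus Cfsg.Agent.H85

/-- Stancu's form of saturation. -/
theorem fullyAutomized_of_receptive {Ω : Type*} [Group Ω] {S : Subgroup Ω} [Finite S] {p : ℕ} [Fact p.Prime]
    (hS : IsPGroup p S) (F : FusionSystem S) (hA : F.IsFullyAutomized p S)
    (hR : ∀ P : Subgroup Ω, F.IsFullyNormalized P → F.IsReceptive P) (P : Subgroup Ω)
    (hP : F.IsFullyNormalized P) : F.IsFullyAutomized p P := by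
  obtain ⟨n, hn⟩ : ∃ n, n = Nat.card S - Nat.card P := ⟨_, rfl⟩
  induction n using Nat.strong_induction_on generalizing P with
  | _ n IH =>
    by_cases hPS : P = S
    · subst hPS; exact hA
    have hPlt : P < S := lt_of_le_of_ne hP.1 hPS
    have := finite_of_le hP.1
    have := finite_mulAut (P := P)
    refine isFullyAutomized_of hS hP.1 fun K hK hKp hle => ?_
    by_contra hcon
    have hlt : autInducedBy S P < K := lt_of_le_not_ge hle hcon
    obtain ⟨α, ⟨hαK, hαn⟩, hαS⟩ := SetLike.exists_of_lt (lt_inf_normalizer hKp hlt)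
    have hαF := hK hαK
    obtain ⟨b, hb⟩ : ∃ b, α ^ p ^ b = 1 := by
      obtain ⟨b, hb⟩ := hKp ⟨α, hαK⟩
      exact ⟨b, congrArg Subtype.val hb⟩
    -- extend `α` to `N = N_S(P)`
    have hαm : IsMap F P (ofAut α) := isMap_ofAut hP.1 hαF
    have hαi : img P (ofAut α) = P := img_ofAut α
    obtain ⟨g, hg, hgα⟩ := recep_exists_extend_of_le (hR P hP) hαm hαi (le_normalizerIn hP.1) (by
      rintro n ⟨hn1, hn2⟩
      refine ⟨hn1, hn2, ?_⟩
      have h1 : α * conjAut n hn2 * α⁻¹ ∈ autInducedBy S P :=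
        (Subgroup.mem_normalizer_iff.1 hαn _).1 (conjAut_mem hn1 hn2)
      obtain ⟨h, hh, hx⟩ := mem_autInducedBy'.1 h1
      refine ⟨h, hh, fun x hx' => ?_⟩
      have h2 := hx _ (ofAut_mem α hx')
      rw [ofAut_mul _ _ (ofAut_mem α hx'), ofAut_inv_apply α hx', ofAut_mul _ _ hx',
        ofAut_conjAut _ _ hx'] at h2
      exact h2)
    set N := normalizerIn S P with hN
    have hNS : N ≤ S := normalizerIn_le P
    have hPN : P ≤ N := le_normalizerIn hP.1
    have := finite_of_le hNS
    have := finite_mulAut (P := N)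
    have hgN : img N g = N := by
      refine hg.img_eq fun x hx => ⟨hg.mem hx, ?_⟩
      have h1 := hg.map_normalizer hPN hx
      have h2 : img P g = P := by rw [img_congr hgα, hαi]
      rw [h2] at h1
      exact h1 hx.2
    obtain ⟨k, hk, a, ha⟩ := exists_pPart_pow (p := p) (hg.aut hgN) b
    set β := (hg.aut hgN) ^ k with hβ
    have hβP : ∀ x ∈ P, ofAut β x = ofAut α x := by
      intro x hx
      have h1 := restr_pow hPN (hg.aut hgN) α (fun x hx => by
        rw [hg.ofAut_aut hgN (hPN hx), hgα x hx]) k x hx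
      rw [← h1, pow_eq_self_of_modEq hb hk]
    have hβF : β ∈ F.autGroup N := Subgroup.pow_mem _ (hg.aut_mem hgN) k
    -- go to a fully normalized conjugate of `N`
    obtain ⟨N', hNN', hN'⟩ := exists_fullyNormalized (F := F) hNS
    obtain ⟨τ, hτ, hτi⟩ := isConj_iff.1 hNN'
    have hcard : Nat.card P < Nat.card N' := by
      rw [isConj_card_eq hNN']
      exact card_lt_of_lt hNS (lt_normalizerIn hS hPlt)
    have hcardS : Nat.card N' ≤ Nat.card S := Subgroup.card_le_of_le hN'.1
    have hfa := IH (Nat.card S - Nat.card N') (by omega) N' hN' rfl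
    obtain ⟨γ, hγ, hγc⟩ := IsFullyAutomized.conj_le hfa (K := (Subgroup.zpowers β).map (hτ.trans hτi).toMonoidHom) (by
      rintro _ ⟨κ, hκ, rfl⟩
      exact hτ.trans_mem hτi ((Subgroup.zpowers_le.2 hβF) hκ)) (by
      refine IsPGroup.map ?_ _
      rintro ⟨κ, hκ⟩
      obtain ⟨z, rfl⟩ := Subgroup.mem_zpowers_iff.1 hκ
      refine ⟨a, Subtype.ext ?_⟩
      show (β ^ z) ^ p ^ a = 1
      rw [← zpow_natCast, ← zpow_mul, mul_comm, zpow_mul, zpow_natCast, ha, one_zpow])
    obtain ⟨u, hu, huc⟩ := mem_autInducedBy'.1 (hγc _ ⟨β, Subgroup.mem_zpowers β, rfl⟩)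
    have hτmem : ∀ x ∈ N, τ x ∈ N' := fun x hx => by rw [← hτi]; exact subset_img hx
    have hτ' : IsMap F N (fun x => ofAut γ (τ x)) := (isMap_ofAut hN'.1 hγ).comp hτ hτmem
    set τ' : Ω → Ω := fun x => ofAut γ (τ x) with hτ'def
    have hkey : ∀ x ∈ N, τ' (ofAut β x) = u * τ' x * u⁻¹ := by
      intro x hx
      have h1 := huc _ (ofAut_mem γ (hτmem x hx))
      rw [ofAut_mul _ _ (ofAut_mem γ (hτmem x hx)), ofAut_inv_apply γ (hτmem x hx),
        ofAut_mul _ _ (hτmem x hx)] at h1
      have h2 := hτ.ofAut_trans hτi β hx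
      have h3 : ofAut ((hτ.trans hτi).toMonoidHom β) (τ x) = τ (ofAut β x) := h2
      rw [h3] at h1
      exact h1
    have hτ'P : IsMap F P τ' := hτ'.mono hPN
    have hun : u ∈ normalizerIn S (img P τ') := by
      refine ⟨hu, ?_⟩
      have := finite_of_le hτ'P.img_le
      refine mem_normalizer_of_conj fun y hy => ?_
      obtain ⟨x, hx, rfl⟩ := hτ'P.mem_img.1 hy
      rw [← hkey x (hPN hx), hβP x hx]
      exact subset_img (ofAut_mem α hx)
    have himgN : img N τ' = normalizerIn S (img P τ') := by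
      refine eq_of_le_of_card_le (normalizerIn_le (S := S) _) ?_ ?_
      · rw [hτ'.img_le_iff]
        intro x hx
        exact ⟨hτ'.mem hx, (hτ'.map_normalizer hPN hx) hx.2⟩
      · rw [hτ'.card_img]
        exact hP.2 _ hτ'P.isConj
    rw [← himgN] at hun
    obtain ⟨h, hh, rfl⟩ := hτ'.mem_img.1 hun
    refine hαS (mem_autInducedBy'.2 ⟨h, hNS hh, fun x hx => ?_⟩)
    rw [← hβP x hx]
    have hxN := hPN hx
    refine hτ'.inj (ofAut_mem β hxN) (N.mul_mem (N.mul_mem hh hxN) (N.inv_mem hh)) ?_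
    rw [hkey x hxN, hτ'.map_conj hh hxN]

/-- A fusion system over a finite p-group S is saturated if and only if the inner automorphisms of S form a Sylow p-subgroup of Aut_F(S) and every fully normalized subgroup of S is receptive. -/
theorem result {Ω : Type*} [Group Ω] {S : Subgroup Ω} [Finite S] (p : ℕ) [Fact p.Prime] (hS : IsPGroup p S) (F : Cfsg.FusionSystem S) : F.IsSaturated p ↔ (F.IsFullyAutomized p S ∧ ∀ P : Subgroup Ω, F.IsFullyNormalized P → F.IsReceptive P) := by
  constructor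
  · intro hF
    have hSn : F.IsFullyNormalized S := by
      refine ⟨le_rfl, fun P _ => ?_⟩
      have h1 : normalizerIn S S = S := le_antisymm (normalizerIn_le S) (le_normalizerIn le_rfl)
      rw [h1]
      exact Subgroup.card_le_of_le (normalizerIn_le P)
    exact ⟨sat_fullyAutomized hS hF hSn, fun P hP => sat_receptive' hS hF hP⟩
  · rintro ⟨hA, hR⟩ P hP
    obtain ⟨Q, hPQ, hQ⟩ := exists_fullyNormalized (F := F) hP
    exact ⟨Q, hPQ, fullyAutomized_of_receptive hS F hA hR Q hQ, hR Q hQ⟩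

end Cfsg.Agent.S5111
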