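import Cfsg.Statements.S5119
import Cfsg.Agent.Fus.Invar

set_option autoImplicit false
open Cfsg

namespace Cfsg.Agent.S5119

open Cfsg.FusionSystem Cfsg.Agent.Fus Cfsg.Agent.H85

/-- Let F be a saturated fusion system over a finite p-group S and E a subsystem of F over a subgroup T that is strongly closed in F. Then E is invariant in F (invariance under Aut_F(T) plus the Frattini condition) if and only if the strong invariance condition holds: for P ≤ Q ≤ T, every map φ of E from P into Q and every map ψ of F with source Q, the transported map ψ φ ψ⁻¹ on ψ(P) is a map of E. -/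
theorem result {Ω : Type*} [Group Ω] {S : Subgroup Ω} [Finite S] (p : ℕ) [Fact p.Prime] (hS : IsPGroup p S) (F : Cfsg.FusionSystem S) (hF : F.IsSaturated p) {T : Subgroup Ω} (E : Cfsg.FusionSystem T) (hE : E.IsSubsystemOf F) (hT : F.StronglyClosed T) : E.IsInvariantIn F ↔ ∀ (P Q : Subgroup Ω) (hPQ : P ≤ Q) (_ : Q ≤ T) (φ : P →* Ω) (_ : φ ∈ E.Hom P) (hφQ : ∀ x : P, φ x ∈ Q) (ψ : Q →* Ω) (_ : ψ ∈ F.Hom Q), ∃ χ ∈ E.Hom ((P.subgroupOf Q).map ψ), ∀ (x : P) (hx : ψ (Subgroup.inclusion hPQ x) ∈ (P.subgroupOf Q).map ψ), χ ⟨ψ (Subgroup.inclusion hPQ x), hx⟩ = ψ ⟨φ x, hφQ x⟩ := by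
  constructor
  · intro hI P Q hPQ hQT φ hφ hφQ ψ hψ
    obtain ⟨k, hk, hkx⟩ := strongInv_of_invariant hI P Q (ofHom φ) (ofHom ψ) hPQ hQT (isMap_of_mem hφ)
      (fun x hx => by rw [ofHom_apply φ hx]; exact hφQ _) (isMap_of_mem hψ)
    have e : (P.subgroupOf Q).map ψ = img P (ofHom ψ) :=
      map_subgroupOf_eq_img ψ hPQ fun x => (ofHom_coe ψ x).symm
    rw [e]
    refine ⟨hk.hom, hk.hom_mem, fun x hx => ?_⟩
    have h1 := hkx x x.2
    rw [ofHom_apply ψ (hPQ x.2), ofHom_coe, ofHom_apply ψ (hφQ x)] at h1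
    exact h1
  · intro h
    refine isInvariantIn_of_strongInv hS hF hE hT ?_
    intro P Q f g hPQ hQT hf hfQ hg
    obtain ⟨χ, hχ, hχx⟩ := h P Q hPQ hQT hf.hom hf.hom_mem (fun x => hfQ x x.2) hg.hom hg.hom_mem
    have e : (P.subgroupOf Q).map hg.hom = img P g :=
      map_subgroupOf_eq_img hg.hom hPQ fun x => rfl
    rw [← e]
    refine ⟨ofHom χ, isMap_of_mem hχ, fun x hx => ?_⟩
    have h1 : g x ∈ (P.subgroupOf Q).map hg.hom := by rw [e]; exact subset_img hx
    rw [ofHom_apply χ h1]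
    exact hχx ⟨x, hx⟩ h1

end Cfsg.Agent.S5119
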