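import Cfsg.Statements.S5121
import Cfsg.Agent.Fus.StrictCons

set_option autoImplicit false
open Cfsg

namespace Cfsg.Agent.S5121

/-- Let G be a finite group with Sylow p-subgroup S and C_G(O_p(G)) ≤ O_p(G). For every subgroup T ≤ S and every normal subsystem E over T of the fusion system of G on S there is exactly one normal subgroup H of G containing T as a Sylow p-subgroup whose fusion system on T is E. -/
theorem result {G : Type*} [Group G] [Finite G] (p : ℕ) [Fact p.Prime] (S : Sylow p G) (hG : Subgroup.centralizer ((Cfsg.pCore p G : Subgroup G) : Set G) ≤ Cfsg.pCore p G) (T : Subgroup G) (hTS : T ≤ S) (E : Cfsg.FusionSystem T) (hE : E.IsNormalIn (Cfsg.groupFusionSystem (S : Subgroup G)) p) : ∃ H : Subgroup G, (∃ hTH : T ≤ H, H.Normal ∧ (∃ R : Sylow p H, (R : Subgroup H) = T.subgroupOf H) ∧ ∀ P : Subgroup G, E.Hom P = (Cfsg.fusionSystemOfSubgroup H T hTH).Hom P) ∧ ∀ H' : Subgroup G, (∃ hTH' : T ≤ H', H'.Normal ∧ (∃ R : Sylow p H', (R :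 Subgroup H') = T.subgroupOf H') ∧ ∀ P : Subgroup G, E.Hom P = (Cfsg.fusionSystemOfSubgroup H' T hTH').Hom P) → H' = H := by
  have hQS : pCore p G ≤ (S : Subgroup G) :=
    Fus.normal_le_sylow (Fus.pCore_normal' p G) ((Fus.isPGroup_pCore p G)) S
  have h : Fus.SCData S (pCore p G) T (T ⊓ pCore p G) E :=
    ⟨Fus.pCore_normal' p G, (Fus.isPGroup_pCore p G), fun N h1 h2 => Fus.le_pCore h1 h2, hG, hQS, hE, rfl⟩
  have hsyl : H85.SylIn p T (h.L ⊔ T) := by
    have h1 := (H85.sylIn_top S).inf_normal (N := h.L ⊔ T) le_top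
      (by have := h.Hnormal; rw [Subgroup.normalizer_eq_top])
    rwa [h.S_inf_H] at h1
  refine ⟨h.L ⊔ T, ⟨le_sup_right, h.Hnormal, (H85.sylIn_iff le_sup_right).1 hsyl, fun P => ?_⟩, ?_⟩
  · exact congrArg (fun X : Cfsg.FusionSystem T => X.Hom P) h.fs_eq
  · rintro H' ⟨h1, h2, h3, h4⟩
    exact h.unique h1 h2 h3 h4

end Cfsg.Agent.S5121
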