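import Cfsg.Statements.S5123
import Cfsg.Agent.H85.GroupFus

set_option autoImplicit false
open Cfsg

namespace Cfsg.Agent.S5123

open Cfsg Cfsg.Agent.H85

/-- Let G be a finite group with Sylow p-subgroup S, P, Q ≤ S and g ∈ G with gPg⁻¹ = Q, and suppose N_S(Q) is a Sylow p-subgroup of N_G(Q). Let N be the set of x ∈ N_S(P) with gxg⁻¹ ∈ N_S(Q)C_G(Q). Then some h ∈ C_G(Q) satisfies (hg)N(hg)⁻¹ ≤ S. -/
theorem result {G : Type*} [Group G] [Finite G] (p : ℕ) [Fact p.Prime] (S : Sylow p G) (P Q : Subgroup G) (hP : P ≤ S) (hQ : Q ≤ S) (g : G) (hg : P.map (MulAut.conj g).toMonoidHom = Q) (hN : (∃ R : Sylow p ↥(Subgroup.normalizer (Q : Set G)), (R : Subgroup ↥(Subgroup.normalizer (Q : Set G))) = (Cfsg.FusionSystem.normalizerIn (S : Subgroup G) Q).subgroupOf (Subgroup.normalizer (Q : Set G)))) : ∃ h ∈ Subgroup.centralizer (Q : Set G), ((Cfsg.FusionSystem.normalizerIn (S : Subgroup G) P) ⊓ (Cfsg.FusionSystem.normalizerIn (S : Subgroup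 G) Q ⊔ Subgroup.centralizer (Q : Set G)).comap (MulAut.conj g).toMonoidHom).map (MulAut.conj (h * g)).toMonoidHom ≤ S := by
  have h1 : SylIn p _ _ := (sylIn_iff (p := p) (inf_le_right : Cfsg.FusionSystem.normalizerIn (S : Subgroup G) Q ≤ _)).2 hN
  set N := (Cfsg.FusionSystem.normalizerIn (S : Subgroup G) P) ⊓ (Cfsg.FusionSystem.normalizerIn (S : Subgroup G) Q ⊔ Subgroup.centralizer (Q : Set G)).comap (MulAut.conj g).toMonoidHom with hNdef
  have h2 : SylIn p (Cfsg.FusionSystem.normalizerIn (S : Subgroup G) Q)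
      (Cfsg.FusionSystem.normalizerIn (S : Subgroup G) Q ⊔ Subgroup.centralizer (Q : Set G)) :=
    h1.mono le_sup_left (sup_le h1.le centralizer_le_normalizer')
  have h3 : cj g N ≤ Cfsg.FusionSystem.normalizerIn (S : Subgroup G) Q ⊔ Subgroup.centralizer (Q : Set G) := by
    rintro _ ⟨x, hx, rfl⟩
    exact hx.2
  obtain ⟨b, hb, hbN⟩ := h2.exists_cj_le h3 (isPGroup_cj (S.isPGroup'.to_le (inf_le_left.trans inf_le_left)))
  have hb' := Subgroup.inv_mem _ hb
  rw [sup_comm] at hb'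
  have h4 : Cfsg.FusionSystem.normalizerIn (S : Subgroup G) Q ≤
      Subgroup.normalizer (Subgroup.centralizer (Q : Set G) : Set G) :=
    inf_le_right.trans normalizer_le_normalizer_centralizer
  obtain ⟨c, hc, s, hs, hcs⟩ := (mem_sup_iff_of_normalizes h4).1 hb'
  refine ⟨c⁻¹, Subgroup.inv_mem _ hc, ?_⟩
  have h5 : cj (c⁻¹ * g) N = cj s (cj b (cj g N)) := by
    rw [cj_cj, cj_cj]
    congr 3
    have : b = s⁻¹ * c⁻¹ := by rw [← mul_inv_rev, hcs, inv_inv]
    rw [this]; group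
  show cj (c⁻¹ * g) N ≤ S
  rw [h5]
  refine (cj_mono hbN).trans ?_
  rintro _ ⟨x, hx, rfl⟩
  exact (S : Subgroup G).mul_mem ((S : Subgroup G).mul_mem hs.1 hx.1) ((S : Subgroup G).inv_mem hs.1)

end Cfsg.Agent.S5123
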