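import Cfsg.Statements.S5128
import Cfsg.Agent.Fus.Extend

set_option autoImplicit false
open Cfsg

namespace Cfsg.Agent.S5128

open Cfsg Cfsg.Agent.Fus

/-- In a saturated fusion system over a finite p-group S, the product of two strongly closed subgroups is strongly closed. -/
theorem result {Ω : Type*} [Group Ω] {S : Subgroup Ω} [Finite S] (p : ℕ) [Fact p.Prime] (hS : IsPGroup p S) (F : Cfsg.FusionSystem S) (hF : F.IsSaturated p) (T₁ T₂ : Subgroup Ω) (h₁ : F.StronglyClosed T₁) (h₂ : F.StronglyClosed T₂) : F.StronglyClosed (T₁ ⊔ T₂) := by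
  rw [stronglyClosed_iff]
  refine ⟨sup_le h₁.1 h₂.1, fun P f hf hP x hx => ?_⟩
  obtain ⟨g, hg, hgf⟩ := exists_extend_stronglyClosed hS hF h₁ hf
  have h2n : T₂ ≤ Subgroup.normalizer (T₁ : Set Ω) := h₂.1.trans (sc_le_normalizer h₁)
  obtain ⟨a, ha, b, hb, hab⟩ := (Cfsg.Agent.H85.mem_sup_iff_of_normalizes h2n).1 (hP hx)
  have hxm : x ∈ P ⊔ T₁ := Subgroup.mem_sup_left hx
  have ham : a ∈ P ⊔ T₁ := Subgroup.mem_sup_right ha
  have hbm : b ∈ P ⊔ T₁ := by
    have := Subgroup.mul_mem _ (Subgroup.inv_mem _ ham) hxm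
    rwa [← hab, inv_mul_cancel_left] at this
  have h3 : g x ∈ T₁ ⊔ T₂ := by
    rw [← hab, hg.map_mul ham hbm]
    exact Subgroup.mul_mem _ (Subgroup.mem_sup_left (sc_map_mem h₁ hg ham ha))
      (Subgroup.mem_sup_right (sc_map_mem h₂ hg hbm hb))
  have h4 := hgf x hx
  have h5 := Subgroup.mul_mem (T₁ ⊔ T₂) (Subgroup.inv_mem _ (Subgroup.mem_sup_left h4)) h3
  rwa [show (g x * (f x)⁻¹)⁻¹ * g x = f x by group] at h5

end Cfsg.Agent.S5128
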