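import Cfsg.Statements.S5133
import Cfsg.Agent.Fus.Quot
import Cfsg.Agent.Fus.NormalChar

set_option autoImplicit false
open Cfsg

namespace Cfsg.Agent.S5133

open Cfsg.Agent.Fus Cfsg.FusionSystem in
theorem isFac_of_surjective {Ω : Type*} [Group Ω] {S : Subgroup Ω}
    {F : Cfsg.FusionSystem S} {Ω' : Type*} [Group Ω'] {S' : Subgroup Ω'} {F' : Cfsg.FusionSystem S'}
    {α : S →* Ω'} (hα : F.IsSurjectiveMorphism F' α) : IsFac F (preimageAlong α ⊥) α F' := by
  obtain ⟨hm, hr, hs⟩ := isSurjectiveMorphism_iff.1 hα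
  obtain ⟨h1, h2⟩ := isMorphism_iff.1 hm
  refine ⟨stronglyClosed_iff_isMap.2 ⟨preimageAlong_le α ⊥, ?_⟩, ?_, hr, ?_⟩
  · intro P f hf x hx hxT
    obtain ⟨f', hf', hi⟩ := h2 P f hf
    obtain ⟨hxS, hx1⟩ := (mem_preimageAlong α).1 hxT
    refine (mem_preimageAlong α).2 ⟨hf.mem hx, ?_⟩
    rw [← hi x hx, Subgroup.mem_bot.1 hx1, hf'.map_one]
    exact Subgroup.one_mem _
  · intro x hx
    rw [mem_preimageAlong, Subgroup.mem_bot]
    exact ⟨fun h => ⟨hx, h⟩, fun h => h.2⟩
  · intro P' f'
    constructor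
    · intro hf'
      exact ⟨by rw [hr]; exact hf'.le, hs P' f' hf'⟩
    · rintro ⟨hP', f, hf, hi⟩
      obtain ⟨g', hg', hgi⟩ := h2 _ f hf
      rw [imageAlong_preimageAlong α hP'] at hg'
      refine hg'.congr fun y hy => ?_
      obtain ⟨x, hx, rfl⟩ := (mem_range_iff α).1 (hP' hy)
      have hx' : x ∈ preimageAlong α P' := (mem_preimageAlong α).2 ⟨hx, hy⟩
      rw [hgi x hx', hi x hx']

/-- Let F be a saturated fusion system over a finite p-group S, F' a fusion system over S', and α : S → S' a surjective morphism of fusion systems from F to F' (α maps S onto S' and every map of F' with source P' ≤ S' is induced along α by a map of F on the full preimage of P'). Then F' is saturated. -/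
theorem result {Ω : Type*} [Group Ω] {S : Subgroup Ω} [Finite S] (p : ℕ) [Fact p.Prime] (hS : IsPGroup p S) (F : Cfsg.FusionSystem S) (hF : F.IsSaturated p) {Ω' : Type*} [Group Ω'] {S' : Subgroup Ω'} (F' : Cfsg.FusionSystem S') (α : S →* Ω') (hα : F.IsSurjectiveMorphism F' α) : F'.IsSaturated p := by
  exact (isFac_of_surjective hα).isSaturated hS hF

end Cfsg.Agent.S5133
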