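import Cfsg.Statements.S5140
import Cfsg.Agent.Fus.PExt2

set_option autoImplicit false
open Cfsg

namespace Cfsg.Agent.S5140

/-- Let F be a saturated fusion system over a finite p-group S. Then F has a p'-residual subsystem: a saturated subsystem over S of index prime to p contained in every saturated subsystem over S of index prime to p. -/
theorem result {Ω : Type*} [Group Ω] {S : Subgroup Ω} [Finite S] (p : ℕ) [Fact p.Prime] (hS : IsPGroup p S) (F : Cfsg.FusionSystem S) (hF : F.IsSaturated p) : ∃ E : Cfsg.FusionSystem S, F.IsPPrimeResidual p E := by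
  exact ⟨Cfsg.Agent.Fus.pPrimeRes F p, Cfsg.Agent.Fus.isPPrimeResidual_pPrimeRes hS hF⟩

end Cfsg.Agent.S5140
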