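import Cfsg.Statements.S5143
import Cfsg.Agent.Fus.ES17

set_option autoImplicit false
open Cfsg

namespace Cfsg.Agent.S5143

open Cfsg.Agent.Fus

theorem residual_hom {Ω : Type*} [Group Ω] {R H H' : Subgroup Ω} [Finite R] {p : ℕ} [Fact p.Prime] (hR : IsPGroup p R)
    (h : H' = H) (hHR : H ≤ R) {D : Cfsg.FusionSystem R} {D₁ : Cfsg.FusionSystem H'} {E₁ : Cfsg.FusionSystem H}
    (hD₁ : D₁.IsSaturated p) (hE₁ : E₁.IsSaturated p) (hi : D₁.HasPPowerIndexIn D p) (hi' : E₁.HasPPowerIndexIn D p)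
    (P : Subgroup Ω) : D₁.Hom P = E₁.Hom P := by
  subst h
  rw [ppower_unique hR hHR hD₁ hE₁ hi hi']

/-- Let F be a saturated fusion system over a finite p-group S, E a normal subsystem over T, and R a subgroup with T ≤ R ≤ S. Then there is exactly one saturated subsystem D of F over R (exactly one family of map sets) whose p-residual subsystem is that of E: the hyperfocal subgroups of D and E coincide and the p-residual subsystems of D and of E have the same maps. -/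
theorem result {Ω : Type*} [Group Ω] {S : Subgroup Ω} [Finite S] (p : ℕ) [Fact p.Prime] (hS : IsPGroup p S) (F : Cfsg.FusionSystem S) (hF : F.IsSaturated p) {T : Subgroup Ω} (E : Cfsg.FusionSystem T) (hE : E.IsNormalIn F p) (R : Subgroup Ω) (hTR : T ≤ R) (hRS : R ≤ S) : ∃ D : Cfsg.FusionSystem R, (D.IsSaturated p ∧ D.IsSubsystemOf F ∧ D.hyperfocalSubgroup p = E.hyperfocalSubgroup p ∧ ∀ (D₁ : Cfsg.FusionSystem (D.hyperfocalSubgroup p)) (E₁ : Cfsg.FusionSystem (E.hyperfocalSubgroup p)), D.IsPResidual p D₁ → E.IsPResidual p E₁ → ∀ P : Subgroup Ω, D₁.Hom P = E₁.Hom P) ∧ ∀ D' : Cfsg.FusionSystem R, D'.IsSaturated p → D'.IsSubsystemOf F → D'.hyperfocalSubgroup p = E.hyperfocalSubgroup p → (∀ (D₁ : Cfsg.FusionSystem (D'.hyperfocalSubgroup p)) (E₁ : Cfsg.FusionSystem (E.hyperfocalSubgroup p)), D'.IsPResidual p D₁ → E.IsPResidual p E₁ → ∀ P : Subgroup Ω, D₁.Hom P = E₁.Hom P) → ∀ P : Subgroup Ω, D'.Hom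 P = D.Hom P := by
  obtain ⟨E₁, hE₁F, hE₁E, hE₁s, hE₁i⟩ := exists_opE' hS hE
  have hTS := hTR.trans hRS
  have hfT := finite_of_le hTS
  have hfR := finite_of_le hRS
  have hpT := isPGroup_of_le hS hTS
  have hpR := isPGroup_of_le hS hRS
  have hEs : E.IsSaturated p := hE.1.1
  have hEF : E.IsSubsystemOf F := hE.1.2.2.1
  have hHT : E.hyperfocalSubgroup p ≤ T := hyper_le_S
  have hHR := hHT.trans hTR
  obtain ⟨h1, h2, h3⟩ := hasPPowerIndexIn_iff.1 hE₁i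
  have hEP : PSub E₁ E p := ⟨hEs, hHT, h1, h2, h3⟩
  obtain ⟨D, hD, hDF, hmax⟩ := exists_pSub hS hE₁F hHR hRS
  have hED : E.IsSubsystemOf D := hmax T E hTR hEP hEF
  have hDh : D.hyperfocalSubgroup p = E.hyperfocalSubgroup p := le_antisymm hD.hyp (hyper_mono' hED)
  have hT' : D.StronglyClosed (E.hyperfocalSubgroup p) := sc_of_sub hDF hE₁F.1.2.2.2.1 hHR
  refine ⟨D, ⟨hD.sat, hDF, hDh, fun D₁ E₁' hD₁ hE₁' P => ?_⟩, fun D' hD's hD'F hD'h hres P => ?_⟩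
  · have e1 : E₁' = E₁ := ppower_unique hpT hHT hE₁'.1 hE₁s hE₁'.2 hE₁i
    rw [e1]
    exact residual_hom hpR hDh hHR hD₁.1 hE₁s hD₁.2 (hasPPowerIndexIn_iff.2 ⟨hD.sub, hD.hyp, hD.pp⟩) P
  · obtain ⟨D₁, hD₁s, hD₁le, hD₁c⟩ := exists_ppower _ rfl hpR hD's (hyper_le_S) (le_refl (D'.hyperfocalSubgroup p))
    have hD₁ : D'.IsPResidual p D₁ := ⟨hD₁s, hasPPowerIndexIn_iff.2 ⟨hD₁le, le_rfl, hD₁c⟩⟩
    have he := hres D₁ E₁ hD₁ ⟨hE₁s, hE₁i⟩
    have hm : ∀ P f, IsMap D₁ P f ↔ IsMap E₁ P f := fun P => hom_eq_iff.1 (he P)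
    have hP' : PSub E₁ D' p := ⟨hD's, hHR, isSubsystemOf_iff.2 fun P f hf =>
      isSubsystemOf_iff.1 hD₁le _ _ ((hm P f).2 hf), hD'h.le, fun P hP α hα hco =>
        (hm _ _).1 (hD₁c P (by rw [hD'h]; exact hP) α hα hco)⟩
    have hle : D' ≤ D := le_iff.2 fun P f hf => isSubsystemOf_iff.1 (hmax R D' le_rfl hP' hD'F) P f hf
    have hge := hD.le_of_le hpR hP' hE₁s hT' hle
    exact hom_eq_iff.2 fun f => ⟨fun h => le_iff.1 hle P f h, fun h => le_iff.1 hge P f h⟩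

end Cfsg.Agent.S5143
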