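import Cfsg.Statements.S5160
import Cfsg.Agent.Fus.Simple

set_option autoImplicit false
open Cfsg

namespace Cfsg.Agent.S5160

/-- Let G be a finite group with nontrivial Sylow p-subgroup S and F its fusion system on S. Suppose (a) no nontrivial proper subgroup of S is strongly closed in F, and (b) the automorphisms of S induced by G are generated by those induced, for R running over the fully normalized radical centric subgroups of F, by the subgroup of N_G(R) generated by its elements of p-power order. Then F is simple. -/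
theorem result {G : Type*} [Group G] [Finite G] (p : ℕ) [Fact p.Prime] (S : Sylow p G) (hS1 : (S : Subgroup G) ≠ ⊥) (ha : ∀ T : Subgroup G, (Cfsg.groupFusionSystem (S : Subgroup G)).StronglyClosed T → T = ⊥ ∨ T = (S : Subgroup G)) (hb : Cfsg.autInducedBy ⊤ (S : Subgroup G) = ⨆ (R : Subgroup G) (_ : (Cfsg.groupFusionSystem (S : Subgroup G)).IsFullyNormalized R ∧ (Cfsg.groupFusionSystem (S : Subgroup G)).IsRadical p R ∧ (Cfsg.groupFusionSystem (S : Subgroup G)).IsCentric R), Cfsg.autInducedBy (Subgroup.closure {g : G | g ∈ Subgroup.normalizer (R : Set G) ∧ ∃ k : ℕ, orderOf g = p ^ k}) (S : Subgroup G)) : (Cfsg.groupFusionSystem (S : Subgroup G)).IsSimple p := by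
  refine Fus.isSimple_of_autGroup S.2 (Fus.group_saturated S) hS1 ha ?_
  have h0 : (Cfsg.groupFusionSystem (S : Subgroup G)).autGroup S = Cfsg.autInducedBy ⊤ (S : Subgroup G) := by
    rw [Fus.groupFusionSystem_eq, Fus.autGroup_fsos le_rfl]
  rw [h0, hb]
  refine iSup_le fun R => iSup_le fun hR => ?_
  intro α hα
  obtain ⟨g, hg, he⟩ := Fus.mem_autInducedBy'.mp hα
  refine Subgroup.subset_closure ⟨?_, R, hR.2.2, ?_⟩
  · rw [← hb, ← h0, Fus.mem_autGroup_iff le_rfl, Fus.isMap_group]
    exact ⟨le_rfl, fun x hx => Fus.ofAut_mem _ hx, g, he⟩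
  · have hg' : g ∈ Subgroup.closure {g : G | g ∈ Subgroup.normalizer (R : Set G) ∧
      ((∃ k : ℕ, g ^ p ^ k = 1) ∨ ∀ x ∈ R, x * g = g * x)} := by
      refine Subgroup.closure_mono ?_ hg
      rintro g ⟨h1, k, hk⟩
      exact ⟨h1, Or.inl ⟨k, by rw [← hk]; exact pow_orderOf_eq_one g⟩⟩
    obtain ⟨β, hβ, hβe⟩ := Fus.mem_closure_pElement hR.2.2.1 hg'
    rw [hb] at h0
    refine ⟨β, hβ, fun x hx => ?_⟩
    rw [he x (hR.2.2.1 hx), hβe x hx]

end Cfsg.Agent.S5160
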