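import Cfsg.Statements.S5164
import Cfsg.Agent.Fus.AltFus6

set_option autoImplicit false
open Cfsg

namespace Cfsg.Agent.S5164

open Cfsg.Agent.Fus Cfsg.Agent.Fus.WrP

/-- For n ≥ 6 and a prime p, a nontrivial Sylow p-subgroup of the alternating group of degree n is abelian if and only if n < p². -/
theorem result (n p : ℕ) (hn : 6 ≤ n) [Fact p.Prime] (S : Sylow p (alternatingGroup (Fin n))) (hS : (S : Subgroup (alternatingGroup (Fin n))) ≠ ⊥) : IsMulCommutative S ↔ n < p ^ 2 := by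
  have hp := (Fact.out : p.Prime)
  have h1p : Fact (1 < p) := ⟨hp.one_lt⟩
  set a := n / p with ha
  set r := n % p with hr
  have hrp : r < p := Nat.mod_lt _ hp.pos
  have hna : n = p * a + r := (Nat.div_add_mod n p).symm
  constructor
  · intro hcom
    by_contra hnp
    push Not at hnp
    set a' := a / p with ha'
    set r' := a % p with hr'
    have hrp' : r' < p := Nat.mod_lt _ hp.pos
    have haa : a = p * a' + r' := (Nat.div_add_mod a p).symm
    have hpa : p ≤ a := by
      rw [ha, Nat.le_div_iff_mul_le hp.pos, ← sq]; exact hnp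
    have ha'1 : 1 ≤ a' := by
      rw [ha', Nat.le_div_iff_mul_le hp.pos, one_mul]; exact hpa
    have ha3 : 3 ≤ a := by
      by_cases hp2 : p = 2
      · rw [ha, hp2, Nat.le_div_iff_mul_le (by norm_num)]; omega
      · have := hp.two_le
        omega
    have hne : Nonempty (Fin a') := ⟨⟨0, ha'1⟩⟩
    have hcardA : Fintype.card ((Fin a' × ZMod p) ⊕ Fin r') = a := by
      rw [card_base, Fintype.card_fin, Fintype.card_fin]; exact haa.symm
    obtain ⟨P', hP', -⟩ := exists_sylIn_ge (p := p) (K := (⊥ : Subgroup (Equiv.Perm (Fin a')))) (L := ⊤) bot_le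
      IsPGroup.of_bot
    have hP : SylIn p (W (p := p) (Fin r') P') ⊤ := sylIn_W (by rw [Fintype.card_fin]; exact hrp') hP'
    have hU : SylIn p (W (p := p) (Fin r) (W (p := p) (Fin r') P') ⊓ alternatingGroup (Pt p (Fin a') (Fin r') (Fin r)))
      (alternatingGroup (Pt p (Fin a') (Fin r') (Fin r))) := sylIn_U (by rw [Fintype.card_fin]; exact hrp) hP
    have e : Pt p (Fin a') (Fin r') (Fin r) ≃ Fin n := by
      apply Fintype.equivOfCardEq
      rw [card_base, hcardA, Fintype.card_fin, Fintype.card_fin]; exact hna.symm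
    have hdisj : ∀ c c' : (Fin a' × ZMod p) ⊕ Fin r', c ≠ c' → (wa 1 1 (Pi.single c 1 - Pi.single c' 1) :
        Equiv.Perm (Pt p (Fin a') (Fin r') (Fin r))) ∈ W (p := p) (Fin r) (W (p := p) (Fin r') P') ⊓
          alternatingGroup (Pt p (Fin a') (Fin r') (Fin r)) := by
      intro c c' hcc'
      refine ⟨⟨1, Subgroup.one_mem _, _, rfl⟩, ?_⟩
      show Equiv.Perm.sign _ = 1
      by_cases hp2 : p = 2
      · have h2 : ∀ d : (Fin a' × ZMod p) ⊕ Fin r', Equiv.Perm.sign (wa 1 1 (Pi.single d 1) :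
            Equiv.Perm (Pt p (Fin a') (Fin r') (Fin r))) = -1 := by
          clear_value a r a' r'
          subst hp2
          intro d
          rw [WrP.sign_one, Finset.prod_eq_single d]
          · rw [Pi.single_eq_same, Pi.one_apply, sign_aff_two]; rfl
          · intro b' _ hb'
            rw [Pi.single_eq_of_ne hb', Pi.one_apply, sign_aff_two]; rfl
          · intro h; exact absurd (Finset.mem_univ d) h
        rw [sub_eq_add_neg, ← wa_base_mul, ← wa_base_inv, map_mul, map_inv, h2, h2]; rfl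
      · exact sign_eq_one_of_pow hp2 (k := 1) (by rw [pow_one]; exact wa_base_pow_p _)
    -- a block permutation
    set c : (Fin a' × ZMod p) ⊕ Fin r' := Sum.inl (⟨0, ha'1⟩, 0) with hc
    set s : Equiv.Perm ((Fin a' × ZMod p) ⊕ Fin r') := wa 1 1 (Pi.single ⟨0, ha'1⟩ 1) with hs
    have hsc : s c ≠ c := by
      rw [hs, hc, wa_inl]
      simp
    have hsU : (wa s 1 0 : Equiv.Perm (Pt p (Fin a') (Fin r') (Fin r))) ∈
        W (p := p) (Fin r) (W (p := p) (Fin r') P') ⊓ alternatingGroup (Pt p (Fin a') (Fin r') (Fin r)) := by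
      refine ⟨⟨s, ⟨1, P'.one_mem, _, rfl⟩, 0, rfl⟩, ?_⟩
      show Equiv.Perm.sign _ = 1
      rw [sign_blk, ← map_pow, hs, wa_base_pow_p, map_one]
    obtain ⟨c', hc'1, hc'2⟩ : ∃ c' : (Fin a' × ZMod p) ⊕ Fin r', c' ≠ c ∧ s c' ≠ c := by
      by_contra hcon
      push Not at hcon
      have h1 : (Finset.univ : Finset ((Fin a' × ZMod p) ⊕ Fin r')) ⊆ {c, s⁻¹ c} := fun d _ => by
        rw [Finset.mem_insert, Finset.mem_singleton]
        by_cases h : d = c
        · exact Or.inl h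
        · refine Or.inr ?_
          rw [eq_comm, Equiv.Perm.inv_eq_iff_eq]
          exact (hcon d h).symm
      have h2 := (Finset.card_le_card h1).trans Finset.card_le_two
      rw [Finset.card_univ, hcardA] at h2
      omega
    have hxU := hdisj c c' hc'1.symm
    -- transport
    let φ := Equiv.altCongrHom e
    have hQ : IsPGroup p (((W (p := p) (Fin r) (W (p := p) (Fin r') P') ⊓
        alternatingGroup (Pt p (Fin a') (Fin r') (Fin r))).subgroupOf
          (alternatingGroup (Pt p (Fin a') (Fin r') (Fin r)))).map φ.toMonoidHom) := by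
      apply IsPGroup.map
      exact hU.isPGroup.of_injective (Subgroup.subgroupOfEquivOfLe hU.le).toMonoidHom
        (Subgroup.subgroupOfEquivOfLe hU.le).injective
    obtain ⟨g, -, hg⟩ := (sylIn_top S).exists_conj (K := ((W (p := p) (Fin r) (W (p := p) (Fin r') P') ⊓
        alternatingGroup (Pt p (Fin a') (Fin r') (Fin r))).subgroupOf
          (alternatingGroup (Pt p (Fin a') (Fin r') (Fin r)))).map φ.toMonoidHom) le_top hQ
    have h1 := hg _ ⟨⟨_, hxU.2⟩, hxU, rfl⟩
    have h2 := hg _ ⟨⟨_, hsU.2⟩, hsU, rfl⟩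
    have h3 := congrArg Subtype.val (hcom.is_comm.comm (⟨_, h1⟩ : S) ⟨_, h2⟩)
    have h4 : φ (⟨_, hxU.2⟩ * ⟨_, hsU.2⟩) = φ (⟨_, hsU.2⟩ * ⟨_, hxU.2⟩) := by
      rw [map_mul, map_mul]
      have h5 : (g * φ ⟨_, hxU.2⟩ * g⁻¹) * (g * φ ⟨_, hsU.2⟩ * g⁻¹) =
          (g * φ ⟨_, hsU.2⟩ * g⁻¹) * (g * φ ⟨_, hxU.2⟩ * g⁻¹) := h3
      have h6 : g * (φ ⟨_, hxU.2⟩ * φ ⟨_, hsU.2⟩) * g⁻¹ = g * (φ ⟨_, hsU.2⟩ * φ ⟨_, hxU.2⟩) * g⁻¹ := by
        rw [← conj_mul, ← conj_mul]; exact h5
      exact mul_left_cancel (mul_right_cancel h6)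
    have h5 := congrArg Subtype.val (φ.injective h4)
    have h6 : (wa 1 1 (Pi.single c 1 - Pi.single c' 1) * wa s 1 0 : Equiv.Perm (Pt p (Fin a') (Fin r') (Fin r))) =
      wa s 1 0 * wa 1 1 (Pi.single c 1 - Pi.single c' 1) := h5
    have h7 : (wa s 1 0 * wa 1 1 (Pi.single c 1 - Pi.single c' 1) * (wa s 1 0)⁻¹ :
      Equiv.Perm (Pt p (Fin a') (Fin r') (Fin r))) = wa 1 1 (Pi.single c 1 - Pi.single c' 1) := by
      rw [← h6, mul_inv_cancel_right]
    rw [wa_conj_base] at h7
    have h8 := congrFun (wa_inj h7).2.2 c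
    have h9 : s⁻¹ c ≠ c := by
      intro h
      rw [Equiv.Perm.inv_eq_iff_eq] at h
      exact hsc h.symm
    have h10 : s⁻¹ c ≠ c' := by
      intro h
      rw [Equiv.Perm.inv_eq_iff_eq] at h
      exact hc'2 h.symm
    rw [Pi.sub_apply, Pi.sub_apply, Pi.single_eq_same, Pi.single_eq_of_ne hc'1.symm, Pi.single_eq_of_ne h9,
      Pi.single_eq_of_ne h10, sub_zero, sub_zero, mul_zero] at h8
    exact zero_ne_one h8
  · intro hnp
    have hap : a < p := by
      rw [ha, Nat.div_lt_iff_lt_mul hp.pos, ← sq]; exact hnp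
    have hP : SylIn p (⊥ : Subgroup (Equiv.Perm (Fin a))) ⊤ := by
      refine ⟨bot_le, IsPGroup.of_bot, ?_⟩
      rw [Subgroup.relIndex_top_right, Subgroup.index_bot, Nat.card_eq_fintype_card, Fintype.card_perm,
        Fintype.card_fin, hp.dvd_factorial]
      omega
    have hW : SylIn p (W (p := p) (Fin r) (⊥ : Subgroup (Equiv.Perm (Fin a)))) ⊤ :=
      sylIn_W (by rw [Fintype.card_fin]; exact hrp) hP
    have e : Fin n ≃ ((Fin a × ZMod p) ⊕ Fin r) := by
      apply Fintype.equivOfCardEq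
      rw [card_base, Fintype.card_fin, Fintype.card_fin, Fintype.card_fin]; exact hna
    let φ : alternatingGroup (Fin n) →* Equiv.Perm ((Fin a × ZMod p) ⊕ Fin r) :=
      (e.permCongrHom.toMonoidHom).comp (alternatingGroup (Fin n)).subtype
    have hφ : Function.Injective φ := e.permCongrHom.injective.comp (Subgroup.subtype_injective _)
    obtain ⟨g, -, hg⟩ := hW.exists_conj (K := (S : Subgroup (alternatingGroup (Fin n))).map φ) le_top
      (S.isPGroup'.map φ)
    refine ⟨⟨?_⟩⟩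
    rintro ⟨x, hx⟩ ⟨y, hy⟩
    apply Subtype.ext
    apply hφ
    show φ (x * y) = φ (y * x)
    rw [map_mul, map_mul]
    have h1 := hg _ ⟨x, hx, rfl⟩
    have h2 := hg _ ⟨y, hy, rfl⟩
    obtain ⟨f1, hf1⟩ := mem_base.mp h1
    obtain ⟨f2, hf2⟩ := mem_base.mp h2
    have h6 : g * (φ x * φ y) * g⁻¹ = g * (φ y * φ x) * g⁻¹ := by
      rw [← conj_mul, ← conj_mul, hf1, hf2, wa_base_mul, wa_base_mul, add_comm]
    exact mul_left_cancel (mul_right_cancel h6)

end Cfsg.Agent.S5164
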