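import Cfsg.Statements.S5165
import Cfsg.Agent.Fus.AltFus6

set_option autoImplicit false
open Cfsg

namespace Cfsg.Agent.S5165

open Cfsg.Agent.Fus Cfsg.Agent.Fus.WrP

theorem zmod2_cases : ∀ v : ZMod 2, v = 0 ∨ v = 1 := by decide

theorem zmod2_add : (0 : ZMod 2) = 1 + 1 := by decide

/-- For n ≥ 6, a prime p with p² ≤ n, and n congruent to 0 or 1 modulo p, the p-fusion system of the alternating group of degree n on a Sylow p-subgroup is simple. -/
theorem result (n p : ℕ) (hn : 6 ≤ n) [Fact p.Prime] (hnp : p ^ 2 ≤ n) (hb : n % p ≤ 1) (S : Sylow p (alternatingGroup (Fin n))) : (Cfsg.groupFusionSystem (S : Subgroup (alternatingGroup (Fin n)))).IsSimple p := by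
  have hp := (Fact.out : p.Prime)
  have h1p : Fact (1 < p) := ⟨hp.one_lt⟩
  set a := n / p with ha
  set r := n % p with hr
  set a' := a / p with ha'
  set r' := a % p with hr'
  have hrp : r < p := Nat.mod_lt _ hp.pos
  have hrp' : r' < p := Nat.mod_lt _ hp.pos
  have hna : n = p * a + r := (Nat.div_add_mod n p).symm
  have haa : a = p * a' + r' := (Nat.div_add_mod a p).symm
  have hpa : p ≤ a := by
    rw [ha, Nat.le_div_iff_mul_le hp.pos, ← sq]; exact hnp
  have ha'1 : 1 ≤ a' := by
    rw [ha', Nat.le_div_iff_mul_le hp.pos, one_mul]; exact hpa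
  have ha3 : 3 ≤ a := by
    by_cases hp2 : p = 2
    · rw [ha, hp2, Nat.le_div_iff_mul_le (by norm_num)]; omega
    · have := hp.two_le
      omega
  have hne : Nonempty (Fin a') := ⟨⟨0, ha'1⟩⟩
  have hss : Subsingleton (Fin r) := by
    rw [← Fintype.card_le_one_iff_subsingleton, Fintype.card_fin]; exact hb
  have hcardA : Fintype.card ((Fin a' × ZMod p) ⊕ Fin r') = a := by
    rw [card_base, Fintype.card_fin, Fintype.card_fin]; exact haa.symm
  obtain ⟨P', hP', -⟩ := exists_sylIn_ge (p := p) (K := (⊥ : Subgroup (Equiv.Perm (Fin a')))) (L := ⊤) bot_le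
    IsPGroup.of_bot
  have hP : SylIn p (W (p := p) (Fin r') P') ⊤ := sylIn_W (by rw [Fintype.card_fin]; exact hrp') hP'
  have hU : SylIn p (W (p := p) (Fin r) (W (p := p) (Fin r') P') ⊓ alternatingGroup (Pt p (Fin a') (Fin r') (Fin r)))
    (alternatingGroup (Pt p (Fin a') (Fin r') (Fin r))) := sylIn_U (by rw [Fintype.card_fin]; exact hrp) hP
  have e : Pt p (Fin a') (Fin r') (Fin r) ≃ Fin n := by
    apply Fintype.equivOfCardEq
    rw [card_base, hcardA, Fintype.card_fin, Fintype.card_fin]; exact hna.symm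
  have hdisj : ∀ c c' : (Fin a' × ZMod p) ⊕ Fin r', c ≠ c' → (wa 1 1 (Pi.single c 1 - Pi.single c' 1) :
      Equiv.Perm (Pt p (Fin a') (Fin r') (Fin r))) ∈ W (p := p) (Fin r) (W (p := p) (Fin r') P') ⊓
        alternatingGroup (Pt p (Fin a') (Fin r') (Fin r)) := by
    intro c c' hcc'
    refine ⟨⟨1, Subgroup.one_mem _, _, rfl⟩, ?_⟩
    show Equiv.Perm.sign _ = 1
    by_cases hp2 : p = 2
    · have h2 : ∀ d : (Fin a' × ZMod p) ⊕ Fin r', Equiv.Perm.sign (wa 1 1 (Pi.single d 1) :
          Equiv.Perm (Pt p (Fin a') (Fin r') (Fin r))) = -1 := by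
        clear_value a r a' r'
        subst hp2
        intro d
        rw [WrP.sign_one, Finset.prod_eq_single d]
        · rw [Pi.single_eq_same, Pi.one_apply, sign_aff_two]; rfl
        · intro b' _ hb'
          rw [Pi.single_eq_of_ne hb', Pi.one_apply, sign_aff_two]; rfl
        · intro h; exact absurd (Finset.mem_univ d) h
      rw [sub_eq_add_neg, ← wa_base_mul, ← wa_base_inv, map_mul, map_inv, h2, h2]; rfl
    · exact sign_eq_one_of_pow hp2 (k := 1) (by rw [pow_one]; exact wa_base_pow_p _)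
  have hU1 : W (p := p) (Fin r) (W (p := p) (Fin r') P') ⊓ alternatingGroup (Pt p (Fin a') (Fin r') (Fin r)) ≠ ⊥ := by
    obtain ⟨c, c', hcc'⟩ : ∃ c c' : (Fin a' × ZMod p) ⊕ Fin r', c ≠ c' :=
      Fintype.one_lt_card_iff.mp (by rw [hcardA]; omega)
    intro h
    have h2 := hdisj c c' hcc'
    rw [h, Subgroup.mem_bot] at h2
    have h3 := (wa_inj (h2.trans wa_one.symm)).2.2
    have h4 := congrFun h3 c
    rw [Pi.sub_apply, Pi.single_eq_same, Pi.single_eq_of_ne hcc', sub_zero] at h4
    exact one_ne_zero h4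
  refine isSimple_of_ambient (alternatingGroup (Pt p (Fin a') (Fin r') (Fin r))) (Equiv.altCongrHom e) _ hU hU1 ?_ ?_ S
  · intro T hT hT1 hsc
    refine U_le_T rfl hU.isPGroup hT hT1 hsc (by rw [hcardA]; exact ha3) (by rw [Fintype.card_fin]; exact hrp) ?_
      (gen_order_p _ _ rfl _ hP)
    intro hp2
    refine ⟨Sum.inl (⟨0, ha'1⟩, 0), Sum.inl (⟨0, ha'1⟩, 1), ?_, 1, P'.one_mem, Pi.single ⟨0, ha'1⟩ 1, ?_⟩
    · intro h
      rw [Sum.inl.injEq, Prod.mk.injEq] at h
      exact zero_ne_one h.2
    · clear_value a r a' r'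
      subst hp2
      apply ext_inl
      · intro b v
        rw [wa_inl]
        by_cases hb : b = ⟨0, ha'1⟩
        · subst hb
          rcases zmod2_cases v with rfl | rfl
          · rw [Equiv.swap_apply_left]; simp
          · rw [Equiv.swap_apply_right]; simp
            exact zmod2_add
        · rw [Equiv.swap_apply_of_ne_of_ne, Pi.single_eq_of_ne hb]
          · simp
          · intro h
            rw [Sum.inl.injEq, Prod.mk.injEq] at h
            exact hb h.1
          · intro h
            rw [Sum.inl.injEq, Prod.mk.injEq] at h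
            exact hb h.1
      · intro x
        rw [Equiv.swap_apply_of_ne_of_ne Sum.inr_ne_inl Sum.inr_ne_inl]; rfl
  · intro g hg hgU
    by_cases hp2 : p = 2
    · clear_value a r a' r'
      subst hp2
      exact hb_two rfl hU.isPGroup hP (by rw [hcardA]; exact ha3) (by rw [Fintype.card_fin]; exact hrp) hg hgU
    · have hWA : W (p := p) (Fin r) (W (p := p) (Fin r') P') ≤ alternatingGroup (Pt p (Fin a') (Fin r') (Fin r)) :=
        W_le_alt hp2 (sylIn_W (by rw [Fintype.card_fin]; exact hrp) hP).isPGroup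
      exact hb_odd hp2 hss hP'.isPGroup (inf_eq_left.mpr hWA) hg hgU

end Cfsg.Agent.S5165
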