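import Cfsg.Statements.S5311
import Cfsg.Agent.Fus.Lay12

set_option autoImplicit false
open Cfsg

namespace Cfsg.Agent.S5311

/-- The layer of a saturated fusion system F over a finite p-group S is characteristic in F: for every automorphism α of S that is an automorphism of F (α and its inverse are morphisms from F to F) and every layer E of F over T, α carries T onto T and, for every map φ of E with source P, the map induced by α on α(P) (that is, α ∘ φ ∘ α⁻¹) is a map of E. -/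
theorem result {Ω : Type*} [Group Ω] {S : Subgroup Ω} [Finite S] (p : ℕ) [Fact p.Prime] (hS : IsPGroup p S) (F : Cfsg.FusionSystem S) (hF : F.IsSaturated p)
    (α : ↥S ≃* ↥S) (hα : F.IsMorphism F (S.subtype.comp α.toMonoidHom))
    (hα' : F.IsMorphism F (S.subtype.comp α.symm.toMonoidHom))
    {T : Subgroup Ω} (E : Cfsg.FusionSystem T) (hE : E.IsLayerOf F p) :
    Cfsg.FusionSystem.imageAlong (S.subtype.comp α.toMonoidHom) T = T ∧
      ∀ (P : Subgroup Ω) (φ : ↥P →* Ω), φ ∈ E.Hom P →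
        ∀ φ' : ↥(Cfsg.FusionSystem.imageAlong (S.subtype.comp α.toMonoidHom) P) →* Ω,
          Cfsg.FusionSystem.InducedAlong (S.subtype.comp α.toMonoidHom) φ φ' →
            φ' ∈ E.Hom (Cfsg.FusionSystem.imageAlong (S.subtype.comp α.toMonoidHom) P) := by
  have h1 : Fus.AutInv (α : MulAut S) F := Fus.autInv_of_isMorphism hα
  have h2 : Fus.AutInv ((α : MulAut S)⁻¹) F := Fus.autInv_of_isMorphism (α := (α : MulAut S)⁻¹) hα'
  obtain ⟨h3, h4⟩ := Fus.layer_char hS h1 h2 hE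
  have hTS := (Fus.isNormalIn.sc hE.1).1
  refine ⟨(Fus.imageAlong_aut hTS (α : MulAut S)).trans h3, fun P φ hφ φ' hi => ?_⟩
  have hm := Fus.isMap_of_mem hφ
  have hPS := hm.le.trans hTS
  have h5 := h4 P _ hm
  have h6 : Fus.IsMap E (Cfsg.FusionSystem.imageAlong (S.subtype.comp α.toMonoidHom) P)
      (fun y => Fus.ofAut (α : MulAut S) (Fus.ofHom φ (Fus.ofAut (α : MulAut S)⁻¹ y))) :=
    h5.mono (Fus.imageAlong_aut hPS (α : MulAut S)).le
  refine h6.mem_hom fun y => ?_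
  obtain ⟨hP, hφS, hP', hh⟩ := hi
  have hy : (y : Ω) ∈ Fus.img P (Fus.ofAut (α : MulAut S)) := (Fus.imageAlong_aut hPS (α : MulAut S)).le y.2
  obtain ⟨x, hx, hxy⟩ := (Fus.mem_img_ofAut (α : MulAut S) hPS).1 hy
  have h7 := hh ⟨x, hx⟩
  have h8 : Fus.ofAut (α : MulAut S) x = ((α ⟨x, hP hx⟩ : S) : Ω) := Fus.ofAut_apply (α : MulAut S) (hP hx)
  have h9 : y = ⟨(S.subtype.comp α.toMonoidHom) ⟨x, hP hx⟩, hP' ⟨x, hx⟩⟩ := Subtype.ext (by
    rw [← hxy, h8]; rfl)
  rw [← hxy, Fus.ofAut_inv_apply (α : MulAut S) (hP hx), Fus.ofHom_apply φ hx, h9]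
  have h10 : Fus.ofAut (α : MulAut S) (φ ⟨x, hx⟩) = ((α ⟨φ ⟨x, hx⟩, hφS ⟨x, hx⟩⟩ : S) : Ω) :=
    Fus.ofAut_apply (α : MulAut S) (hφS ⟨x, hx⟩)
  rw [h10]
  exact h7

end Cfsg.Agent.S5311
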