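import Cfsg.Statements.S5346
import Cfsg.Agent.ThreeTrans.WidthOne

set_option autoImplicit false
open Cfsg

namespace Cfsg.Agent.S5346

/-- Let D be a conjugation-invariant generating set of 3-transpositions of a finite group G and d a member of D. Then D has width 1 (no two different members of D commute) if and only if G is the product of the subgroup generated by d with the largest normal 3-subgroup of G. -/
theorem result {G : Type*} [Group G] [Finite G] {D : Set G} (hD : Cfsg.IsThreeTranspositionGroup D) {d : G} (hd : d ∈ D) : Cfsg.commutingWidth D = 1 ↔ Subgroup.zpowers d ⊔ Cfsg.pCore 3 G = ⊤ := by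
  have : Fact (Nat.Prime 3) := ⟨Nat.prime_three⟩
  have : Fact (Nat.Prime 2) := ⟨Nat.prime_two⟩
  constructor
  · intro hw
    have hw' := ThreeTrans.eq_of_commute_of_width_one hD.1 hD.2.1 hw
    rw [eq_top_iff, ← hD.2.2, Subgroup.closure_le]
    intro e he
    have h1 : e = d * (d * e) := by
      rw [← mul_assoc, ThreeTrans.mul_self_of_mem hD.1 hd, one_mul]
    rw [SetLike.mem_coe, h1]
    exact mul_mem (Subgroup.mem_sup_left (Subgroup.mem_zpowers d))
      (Subgroup.mem_sup_right (ThreeTrans.mul_mem_three_core_of_width_one hD.1 hD.2.1 hw' hd he))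
  · intro htop
    have hN : (Cfsg.pCore 3 G).Normal := Solv.pCore_normal 3
    have hcard : Nat.card G ∣ 2 * Nat.card (Cfsg.pCore 3 G) := by
      have h1 := Solv.card_sup_dvd_of_normal (Subgroup.zpowers d) (Cfsg.pCore 3 G)
      rw [htop, Subgroup.card_top, Nat.card_zpowers, hD.1.1 d hd] at h1
      exact h1
    obtain ⟨k, hk⟩ := (IsPGroup.iff_card).1 (Solv.pCore_isPGroup (G := G) 3)
    rw [hk] at hcard
    -- a Sylow 2-subgroup has order at most two
    have hT : ∀ T : Sylow 2 G, Nat.card (T : Subgroup G) ∣ 2 := by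
      intro T
      obtain ⟨m, hm⟩ := (IsPGroup.iff_card).1 T.isPGroup'
      have h1 : Nat.card (T : Subgroup G) ∣ 2 * 3 ^ k := (Subgroup.card_subgroup_dvd_card _).trans hcard
      refine Nat.Coprime.dvd_of_dvd_mul_right ?_ h1
      rw [hm]
      exact Nat.Coprime.pow _ _ (by norm_num)
    obtain ⟨T, hdT⟩ : ∃ T : Sylow 2 G, d ∈ T := by
      have h1 : IsPGroup 2 (Subgroup.zpowers d) := by
        apply IsPGroup.of_card (n := 1)
        rw [Nat.card_zpowers, hD.1.1 d hd, pow_one]
      obtain ⟨T, hT⟩ := h1.exists_le_sylow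
      exact ⟨T, hT (Subgroup.mem_zpowers d)⟩
    rw [ThreeTrans.commutingWidth_eq hD.1 hD.2.1 T, Set.ncard_eq_one]
    refine ⟨d, ?_⟩
    apply Set.eq_singleton_iff_unique_mem.2
    refine ⟨⟨hd, hdT⟩, ?_⟩
    rintro x ⟨hx, hxT⟩
    by_contra hne
    have h2 : Subgroup.zpowers d = (T : Subgroup G) := by
      apply Subgroup.eq_of_le_of_card_ge
      · rw [Subgroup.zpowers_le]; exact hdT
      · rw [Nat.card_zpowers, hD.1.1 d hd]
        exact Nat.le_of_dvd (by norm_num) (hT T)
    have h3 : x ∈ Subgroup.zpowers d := by rw [h2]; exact hxT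
    obtain ⟨j, rfl⟩ := Subgroup.mem_zpowers_iff.1 h3
    have hd2 : d ^ (2 : ℤ) = 1 := by
      have := ThreeTrans.mul_self_of_mem hD.1 hd
      rw [← pow_two] at this
      exact_mod_cast this
    rcases Int.even_or_odd j with ⟨m, hm⟩ | ⟨m, hm⟩
    · apply ThreeTrans.ne_one_of_mem hD.1 hx
      rw [hm, ← two_mul, zpow_mul, hd2, one_zpow]
    · apply hne
      rw [hm, zpow_add, zpow_mul, hd2, one_zpow, one_mul, zpow_one]

end Cfsg.Agent.S5346
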