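import Cfsg.Statements.S5347
import Cfsg.Agent.ThreeTrans.Basic

set_option autoImplicit false
open Cfsg

namespace Cfsg.Agent.S5347

/-- Let D be a conjugation-invariant generating set of 3-transpositions of a finite group G, p a prime bigger than 3, and P a p-subgroup of G. If a member d of D normalizes P then d centralizes P. -/
theorem result {G : Type*} [Group G] [Finite G] {D : Set G} (hD : Cfsg.IsThreeTranspositionGroup D) {p : ℕ} (hp : p.Prime) (hp3 : 3 < p) (P : Subgroup G) (hP : IsPGroup p P) {d : G} (hd : d ∈ D) (hnorm : d ∈ Subgroup.normalizer (P : Set G)) : ∀ x ∈ P, Commute d x := by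
  intro x hx
  have hconj : x * d * x⁻¹ ∈ D := hD.2.1 x d hd
  have hmem : d * (x * d * x⁻¹) ∈ P := by
    have h1 : d * x * d⁻¹ ∈ P := (Subgroup.mem_normalizer_iff.1 hnorm x).1 hx
    have h2 : d * (x * d * x⁻¹) = (d * x * d⁻¹) * x⁻¹ := by
      rw [ThreeTrans.inv_of_mem hD.1 hd]; group
    rw [h2]
    exact mul_mem h1 (inv_mem hx)
  have hone : d * (x * d * x⁻¹) = 1 := by
    obtain ⟨k, hk⟩ := hP ⟨_, hmem⟩
    have hk' : (d * (x * d * x⁻¹)) ^ p ^ k = 1 := by
      have := congrArg Subtype.val hk
      simpa using this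
    have hcop : ∀ m, (m = 2 ∨ m = 3) → (d * (x * d * x⁻¹)) ^ m = 1 → d * (x * d * x⁻¹) = 1 := by
      intro m hm h
      have hc : Nat.Coprime m (p ^ k) := by
        apply Nat.Coprime.pow_right
        rcases hm with rfl | rfl
        · exact (Nat.coprime_primes Nat.prime_two hp).2 (by omega)
        · exact (Nat.coprime_primes Nat.prime_three hp).2 (by omega)
      have h1 := orderOf_dvd_of_pow_eq_one h
      have h2 := orderOf_dvd_of_pow_eq_one hk'
      exact orderOf_eq_one_iff.1 (Nat.eq_one_of_dvd_coprimes hc h1 h2)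
    rcases hD.1.2 d hd _ hconj with h | h
    · exact hcop 2 (Or.inl rfl) h
    · exact hcop 3 (Or.inr rfl) h
  have h3 : x * d * x⁻¹ = d := by
    have := mul_eq_one_iff_eq_inv'.1 hone
    rw [this, ThreeTrans.inv_of_mem hD.1 hd]
  show d * x = x * d
  exact (mul_inv_eq_iff_eq_mul.1 h3).symm

end Cfsg.Agent.S5347
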