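import Cfsg.Statements.S5350
import Cfsg.Agent.ThreeTrans.WClass

set_option autoImplicit false
open Cfsg

namespace Cfsg.Agent.S5350

/-- Let D be a conjugacy class of 3-transpositions generating the finite group G, with at least two members, and d a member of D. Then the set of members w of D whose commuting partners in D (other than w) are exactly those of d (other than d) coincides with the set of members of D lying in the coset of d modulo the largest normal 3-subgroup of G, and also with the orbit of d under conjugation by that normal 3-subgroup. -/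
theorem result {G : Type*} [Group G] [Finite G] {D : Set G} (hD : Cfsg.IsThreeTranspositionClass D) (hD2 : ∃ a ∈ D, ∃ b ∈ D, a ≠ b) {d : G} (hd : d ∈ D) : {w : G | w ∈ D ∧ {y : G | y ∈ D ∧ y ≠ d ∧ Commute d y} = {y : G | y ∈ D ∧ y ≠ w ∧ Commute w y}} = {w : G | w ∈ D ∧ d⁻¹ * w ∈ Cfsg.pCore 3 G} ∧ {w : G | w ∈ D ∧ {y : G | y ∈ D ∧ y ≠ d ∧ Commute d y} = {y : G | y ∈ D ∧ y ≠ w ∧ Commute w y}} = {w : G | ∃ g ∈ Cfsg.pCore 3 G, w = g * d * g⁻¹} := by
  have hconj := ThreeTrans.class_conj hD
  have hN : (Cfsg.pCore 3 G).Normal := Solv.pCore_normal 3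
  have hNp := Solv.pCore_isPGroup (G := G) 3
  constructor
  · ext v
    constructor
    · rintro ⟨hv, h⟩
      refine ⟨hv, ?_⟩
      rw [ThreeTrans.inv_of_mem hD.1 hd]
      exact ThreeTrans.mul_mem_three_core hD.1 hconj ⟨hv, hd, h.symm⟩
    · rintro ⟨hv, h⟩
      exact ⟨hv, (ThreeTrans.wRel_of_mem_three_core hD.1 hNp hd hv h).2.2⟩
  · ext v
    constructor
    · rintro ⟨hv, h⟩
      exact ThreeTrans.exists_three_core_conj hD.1 hconj ⟨hv, hd, h.symm⟩
    · rintro ⟨g, hg, rfl⟩
      have hv := hconj g d hd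
      refine ⟨hv, (ThreeTrans.wRel_of_mem_three_core hD.1 hNp hd hv ?_).2.2⟩
      have h1 : d⁻¹ * (g * d * g⁻¹) = (d⁻¹ * g * d⁻¹⁻¹) * g⁻¹ := by group
      rw [h1]
      exact mul_mem (hN.conj_mem g hg d⁻¹) (inv_mem hg)

end Cfsg.Agent.S5350
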