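import Cfsg.Statements.S5351
import Cfsg.Agent.ThreeTrans.Prim

set_option autoImplicit false
open Cfsg

namespace Cfsg.Agent.S5351

/-- Let D be a conjugacy class of 3-transpositions generating the finite group G, with at least two members. Then for every prime p > 3 the largest normal p-subgroup of G is central, and exactly one of the following holds: the largest normal 2-subgroup of G is not central; the largest normal 3-subgroup of G is not central; the layer of G (the product of its components) is non-trivial. -/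
theorem result {G : Type*} [Group G] [Finite G] {D : Set G} (hD : Cfsg.IsThreeTranspositionClass D) (hD2 : ∃ a ∈ D, ∃ b ∈ D, a ≠ b) : (∀ p : ℕ, p.Prime → 3 < p → Cfsg.pCore p G ≤ Subgroup.center G) ∧ ((¬ Cfsg.pCore 2 G ≤ Subgroup.center G ∧ Cfsg.pCore 3 G ≤ Subgroup.center G ∧ Cfsg.layer G = ⊥) ∨ (Cfsg.pCore 2 G ≤ Subgroup.center G ∧ ¬ Cfsg.pCore 3 G ≤ Subgroup.center G ∧ Cfsg.layer G = ⊥) ∨ (Cfsg.pCore 2 G ≤ Subgroup.center G ∧ Cfsg.pCore 3 G ≤ Subgroup.center G ∧ Cfsg.layer G ≠ ⊥)) := by
  refine ⟨fun p hp hp3 => ThreeTrans.pCore_le_center_of_three_lt (ThreeTrans.IsThreeTranspositionClass.group hD) hp hp3, ?_⟩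
  have : Fact (Nat.Prime 2) := ⟨Nat.prime_two⟩
  have : Fact (Nat.Prime 3) := ⟨Nat.prime_three⟩
  by_cases h2 : Cfsg.pCore 2 G ≤ Subgroup.center G
  · by_cases h3 : Cfsg.pCore 3 G ≤ Subgroup.center G
    · exact Or.inr (Or.inr ⟨h2, h3, (ThreeTrans.layer_ne_bot_of_cores hD hD2 h2 h3).1⟩)
    · refine Or.inr (Or.inl ⟨h2, h3, ?_⟩)
      by_contra hne
      obtain ⟨L, hL⟩ := ThreeTrans.exists_component_of_layer_ne_bot hne
      exact h3 (ThreeTrans.pCore_le_center_of_component hD hL 3)
  · refine Or.inl ⟨h2, ?_, ?_⟩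
    · rcases ThreeTrans.core_not_both hD with h | h
      · exact absurd h h2
      · exact h
    · by_contra hne
      obtain ⟨L, hL⟩ := ThreeTrans.exists_component_of_layer_ne_bot hne
      exact h2 (ThreeTrans.pCore_le_center_of_component hD hL 2)

end Cfsg.Agent.S5351
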