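import Cfsg.Statements.S5354
import Cfsg.Agent.ThreeTransp.Primitive

set_option autoImplicit false
open Cfsg

namespace Cfsg.Agent.S5354

/-- Let D be a conjugation-invariant generating set of 3-transpositions of the finite group G on which G acts primitively by conjugation, and suppose two different members of D commute (width at least 2). Then G has a quasisimple normal subgroup L of index at most 2 with the generalized Fitting subgroup of G equal to L times the centre, the commuting graph of D is connected, and for d in D the subgroup generated by the members of D commuting with d is a maximal D-subgroup: it is proper, and every subgroup generated by members of D that contains it is either it or G. -/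
theorem result {G : Type*} [Group G] [Finite G] {D : Set G} (hD : Cfsg.IsThreeTranspositionGroup D) (hprim : Cfsg.IsPrimitiveUnderConj D) (hw : ∃ a ∈ D, ∃ b ∈ D, a ≠ b ∧ Commute a b) : (∃ L : Subgroup G, L.Normal ∧ Cfsg.IsQuasisimple L ∧ L.index ≤ 2 ∧ Cfsg.generalizedFittingSubgroup G = L ⊔ Subgroup.center G) ∧ (Cfsg.commutingGraph D).Connected ∧ ∀ d ∈ D, Subgroup.closure {y : G | y ∈ D ∧ Commute d y} ≠ ⊤ ∧ ∀ H : Subgroup G, Cfsg.IsDSubgroup D H → Subgroup.closure {y : G | y ∈ D ∧ Commute d y} ≤ H → H = Subgroup.closure {y : G | y ∈ D ∧ Commute d y} ∨ H = ⊤ := by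
  have hcls := ThreeTrans.class_of_primitive hD hprim
  have h2 := ThreeTrans.pCore_two_le_of_primitive hcls hprim
  have h3 := ThreeTrans.pCore_three_le_of_primitive hcls hprim hw
  have hconn := ThreeTrans.connected_of_primitive hD.2.1 hprim hw
  have hI := ThreeTransp.irred_of_primitive hcls hprim
  refine ⟨?_, hconn, ?_⟩
  · obtain ⟨L, hL⟩ := ThreeTrans.exists_component_of_layer_ne_bot
      (ThreeTrans.layer_ne_bot_of_cores hcls hprim.2.1 h2 h3).1
    have hLn := ThreeTrans.component_normal hD hL
    exact ⟨L, hLn, hL.2, ThreeTrans.index_le_two_of_connected hcls hprim.2.1 hLn hL.2 hconn,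
      ThreeTrans.generalizedFitting_eq hcls hL⟩
  · intro d hd
    obtain ⟨a, ha, b, hb, hab, hc⟩ := hw
    obtain ⟨e, he, hde⟩ := ThreeTrans.exists_not_commute hcls hprim.2.1 hd
    refine ⟨?_, ?_⟩
    · intro htop
      apply hde
      have h1 : Subgroup.closure {y : G | y ∈ D ∧ Commute d y} ≤ Subgroup.centralizer {d} := by
        rw [Subgroup.closure_le]
        rintro y ⟨_, hy⟩
        rw [SetLike.mem_coe, Subgroup.mem_centralizer_singleton_iff]
        exact hy.symm.eq
      rw [htop] at h1
      have h4 : e ∈ Subgroup.centralizer {d} := h1 trivial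
      rw [Subgroup.mem_centralizer_singleton_iff] at h4
      exact h4.symm
    · intro H hH hle
      by_cases hex : ∃ f ∈ D, f ∈ H ∧ ¬ Commute d f
      · right
        obtain ⟨f, hf, hfH, hdf⟩ := hex
        exact ThreeTransp.eq_top_of_perp_le hcls hI hd hf hdf ha hb hab hc hconn hfH
          (fun y hy hdy => hle (Subgroup.subset_closure ⟨hy, hdy⟩))
      · left
        push Not at hex
        apply le_antisymm _ hle
        rw [← hH, Subgroup.closure_le]
        rintro f ⟨hf, hfH⟩
        exact Subgroup.subset_closure ⟨hf, hex f hf hfH⟩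

end Cfsg.Agent.S5354
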