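import Cfsg.Statements.S5355
import Cfsg.Agent.ThreeTransp.CoreFive

set_option autoImplicit false
open Cfsg

namespace Cfsg.Agent.S5355

open Cfsg.Agent.ThreeTransp

variable {G : Type*} [Group G] {D : Set G}

/-- the conclusion of the relations of type `A₃`: for commuting `x`, `x'` and `y` -/
theorem pair_conj (hD : Cfsg.IsThreeTranspositionSet D) {x x' y : G} (hx : x ∈ D) (hx' : x' ∈ D) (hy : y ∈ D)
    (hxx : Commute x x') (hxy : ¬ Commute x y) (hxy' : ¬ Commute x' y) :
    Commute (x * x' * y * (x * x')⁻¹) y := by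
  have sx := mul_self hD hx
  have sx' := mul_self hD hx'
  have sy := mul_self hD hy
  have b := braid hD hx hy hxy
  have b' := braid hD hx' hy hxy'
  have c := hxx.eq
  rw [mul_inv_rev, inv_eq hD hx, inv_eq hD hx', commute_iff_eq]
  have e1 : x * x' * y * (x' * x) = x * (y * x' * y) * x := by
    calc x * x' * y * (x' * x) = x * (x' * y * x') * x := by simp only [mul_assoc]
      _ = _ := by rw [b']
  have e2 : y * (x * x' * y * (x' * x)) * y = x * x' * y * (x' * x) := by
    calc y * (x * x' * y * (x' * x)) * y = y * (x * (y * x' * y) * x) * y := by rw [e1]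
      _ = (y * x * y) * x' * (y * x * y) := by simp only [mul_assoc]
      _ = (x * y * x) * x' * (x * y * x) := by rw [b]
      _ = x * y * (x * x') * x * y * x := by simp only [mul_assoc]
      _ = x * y * (x' * x) * x * y * x := by rw [c]
      _ = x * y * x' * (x * x) * y * x := by simp only [mul_assoc]
      _ = x * (y * x' * y) * x := by rw [sx]; simp only [mul_assoc, one_mul]
      _ = _ := e1.symm
  calc x * x' * y * (x' * x) * y = (y * y) * (x * x' * y * (x' * x)) * y := by rw [sy, one_mul]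
    _ = y * (y * (x * x' * y * (x' * x)) * y) := by simp only [mul_assoc]
    _ = _ := by rw [e2]

theorem zyz {a b : G} (ha : a * a = 1) (hb : b * b = 1) (h3 : (b * (a * b * a)) * (b * (a * b * a)) = 1) :
    a * (b * (a * b * a)) = b * a * b := by
  have h4 : (b * a * b) * (a * (b * (a * b * a))) = 1 := by
    rw [← h3]; simp only [mul_assoc]
  have h5 : (b * a * b) * (b * a * b) = 1 := by
    calc (b * a * b) * (b * a * b) = b * (a * ((b * b) * a)) * b := by simp only [mul_assoc]
      _ = 1 := by rw [hb, one_mul, ha, mul_one, hb]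
  rw [eq_inv_of_mul_eq_one_right h4]
  exact inv_eq_of_mul_eq_one_left h5

/-- every member has exactly one partner -/
structure Par (D : Set G) (p : G → G) : Prop where
  mem : ∀ x ∈ D, p x ∈ D
  ne : ∀ x ∈ D, p x ≠ x
  comm : ∀ x ∈ D, Commute x (p x)
  eq : ∀ x ∈ D, ∀ y ∈ D, Commute x y → y = x ∨ y = p x
  same : ∀ x ∈ D, ∀ y ∈ D, (Commute (p x) y ↔ Commute x y)

theorem Par.inv {p : G → G} (h : Par D p) {x : G} (hx : x ∈ D) : p (p x) = x := by
  rcases h.eq _ (h.mem x hx) _ hx (h.comm x hx).symm with k | k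
  · exact absurd k.symm (h.ne x hx)
  · exact k.symm

section

variable (hcls : Cfsg.IsThreeTranspositionClass D) {p : G → G} (h : Par D p)
include hcls h

theorem p_conj {x : G} (hx : x ∈ D) (g : G) : p (g * x * g⁻¹) = g * p x * g⁻¹ := by
  have h1 : g * p x * g⁻¹ ∈ D := conj_mem hcls (h.mem x hx) g
  rcases h.eq _ (conj_mem hcls hx g) _ h1 ((commute_conj_iff g).2 (h.comm x hx)) with k | k
  · exact absurd (mul_left_cancel (mul_right_cancel k)) (h.ne x hx)
  · exact k.symm

/-- the product of a member and its partner -/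
theorem z_conj {x : G} (hx : x ∈ D) (g : G) : (g * x * g⁻¹) * p (g * x * g⁻¹) = g * (x * p x) * g⁻¹ := by
  rw [p_conj hcls h hx g]; group

theorem z_sq {x : G} (hx : x ∈ D) : (x * p x) * (x * p x) = 1 := by
  have c := (h.comm x hx).eq
  calc (x * p x) * (x * p x) = x * (p x * x) * p x := by simp only [mul_assoc]
    _ = x * (x * p x) * p x := by rw [c]
    _ = (x * x) * (p x * p x) := by simp only [mul_assoc]
    _ = 1 := by rw [mul_self hcls.1 hx, mul_self hcls.1 (h.mem x hx), one_mul]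

theorem z_inv {x : G} (hx : x ∈ D) : (x * p x)⁻¹ = x * p x := inv_eq_of_mul_eq_one_left (z_sq hcls h hx)

theorem z_ne {x : G} (hx : x ∈ D) : x * p x ≠ 1 := by
  intro k
  have := eq_inv_of_mul_eq_one_right k
  rw [inv_eq hcls.1 hx] at this
  exact h.ne x hx this

theorem z_p {x : G} (hx : x ∈ D) : p x * p (p x) = x * p x := by rw [h.inv hx, (h.comm x hx).eq]

/-- conjugation by the product of a pair -/
theorem swap {x y : G} (hx : x ∈ D) (hy : y ∈ D) (hxy : ¬ Commute x y) :
    (x * p x) * y * (x * p x)⁻¹ = p y := by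
  have hxy' : ¬ Commute (p x) y := fun k => hxy ((h.same x hx y hy).1 k)
  have h1 := pair_conj hcls.1 hx (h.mem x hx) hy (h.comm x hx) hxy hxy'
  rcases h.eq y hy _ (conj_mem hcls hy _) h1.symm with k | k
  · exfalso
    have k1 : Commute (x * p x) y := mul_inv_eq_iff_eq_mul.1 k
    have t1 := third_conj hcls.1 hx hy hxy
    have t2 := third_conj hcls.1 (h.mem x hx) hy hxy'
    have e : x * y * x⁻¹ = p x * y * (p x)⁻¹ := by
      have h2 : y = (x * p x)⁻¹ * y * (x * p x) := by
        rw [mul_assoc, ← k1.eq, ← mul_assoc, inv_mul_cancel, one_mul]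
      calc x * y * x⁻¹ = x * ((x * p x)⁻¹ * y * (x * p x)) * x⁻¹ := by rw [← h2]
        _ = x * (p x)⁻¹ * x⁻¹ * y * (x * p x * x⁻¹) := by group
        _ = p x * y * (p x)⁻¹ := by
          rw [inv_eq hcls.1 (h.mem x hx), (h.comm x hx).eq, mul_inv_cancel_right]
    have t3 : (x * y * x⁻¹) * y * (x * y * x⁻¹)⁻¹ = x := third_conj' hcls.1 hx hy hxy
    have t4 : (p x * y * (p x)⁻¹) * y * (p x * y * (p x)⁻¹)⁻¹ = p x := third_conj' hcls.1 (h.mem x hx) hy hxy'
    rw [e, t4] at t3
    exact h.ne x hx t3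
  · exact k

theorem z_mul {x y : G} (hx : x ∈ D) (hy : y ∈ D) (hxy : ¬ Commute x y) :
    (x * p x) * (y * p y) = (y * x * y⁻¹) * p (y * x * y⁻¹) := by
  have h1 := swap hcls h hx hy hxy
  rw [z_inv hcls h hx] at h1
  have h3 := z_sq hcls h hy
  rw [← h1] at h3
  rw [z_conj hcls h hx y, ← h1, inv_eq hcls.1 hy]
  exact zyz (z_sq hcls h hx) (mul_self hcls.1 hy) h3

theorem eq_of_z {x y : G} (hx : x ∈ D) (hy : y ∈ D) (hz : x * p x = y * p y) : Commute x y := by
  by_contra hxy
  have h1 := swap hcls h hx hy hxy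
  rw [hz] at h1
  have h2 : (y * p y) * y * (y * p y)⁻¹ = y := by
    have c := (h.comm y hy).eq
    have : Commute (y * p y) y := by
      rw [commute_iff_eq]
      calc y * p y * y = y * (p y * y) := by rw [mul_assoc]
        _ = _ := by rw [← c]
    rw [this.eq, mul_inv_cancel_right]
  rw [h2] at h1
  exact h.ne y hy h1.symm

/-- there are only three pairs -/
theorem three_pairs {x y g : G} (hx : x ∈ D) (hy : y ∈ D) (hg : g ∈ D) (hxy : ¬ Commute x y) (hxg : ¬ Commute x g)
    (hyg : ¬ Commute y g) (htg : ¬ Commute (y * x * y⁻¹) g) : False := by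
  have ht : y * x * y⁻¹ ∈ D := conj_mem hcls hx y
  have hs : g * y * g⁻¹ ∈ D := conj_mem hcls hy g
  -- `x` and the third point of `y`, `g` do not commute
  have hxs : ¬ Commute x (g * y * g⁻¹) := by
    intro k
    have k1 : g * y * g⁻¹ = x ∨ g * y * g⁻¹ = p x := h.eq x hx _ hs k
    apply htg
    -- conjugate by `y`
    have k2 : Commute (y * (g * y * g⁻¹) * y⁻¹) g := by
      have t := third_conj hcls.1 hg hy (fun k => hyg k.symm)
      have : y * (g * y * g⁻¹) * y⁻¹ = g := by
        have b := braid hcls.1 hg hy (fun k => hyg k.symm)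
        rw [inv_eq hcls.1 hg, inv_eq hcls.1 hy, b]
        have sy := mul_self hcls.1 hy
        calc y * (y * g * y) * y = (y * y) * g * (y * y) := by simp only [mul_assoc]
          _ = g := by rw [sy, one_mul, mul_one]
      rw [this]
    rcases k1 with k1 | k1
    · rwa [k1] at k2
    · rw [k1, ← p_conj hcls h hx y] at k2
      exact (h.same _ ht g hg).1 k2
  have z1 := z_mul hcls h ht hg htg
  have z2 := z_mul hcls h hx hy hxy
  have z3 := z_mul hcls h hx hs hxs
  have z4 := z_mul hcls h hy hg hyg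
  -- the two associations have the same product
  have hP : g * (y * x * y⁻¹) * g⁻¹ ∈ D := conj_mem hcls ht g
  have hQ : (g * y * g⁻¹) * x * (g * y * g⁻¹)⁻¹ ∈ D := conj_mem hcls hx _
  have hPQ := eq_of_z hcls h hP hQ (by
    rw [← z1, ← z3, ← z2, ← z4]; simp only [mul_assoc])
  have e1 : g * (y * x * y⁻¹) * g⁻¹ = (g * y) * x * (g * y)⁻¹ := by group
  have e2 : (g * y * g⁻¹) * x * (g * y * g⁻¹)⁻¹ = (g * y) * (g⁻¹ * x * g) * (g * y)⁻¹ := by group
  rw [e1, e2, commute_conj_iff] at hPQ
  have e3 : g⁻¹ * x * g = g * x * g⁻¹ := by rw [inv_eq hcls.1 hg]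
  rw [e3, ← third hcls.1 hx hg hxg] at hPQ
  exact third_not_commute hxg hPQ

end

theorem string4 (hD : Cfsg.IsThreeTranspositionSet D) {d u b : G} (hd : d ∈ D) (hu : u ∈ D) (hb : b ∈ D)
    (hdu : ¬ Commute d u) (hub : ¬ Commute u b) (cdb : Commute d b) :
    ∃ φ : Equiv.Perm (Fin 4) →* G, φ (Equiv.swap 0 1) = d ∧ φ (Equiv.swap 1 2) = u ∧ φ (Equiv.swap 2 3) = b := by
  let s : ℕ → G := fun i => match i with
    | 0 => d
    | 1 => u
    | 2 => b
    | _ => 1
  have hs : BraidRel 3 s := by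
    refine ⟨fun i hi => ?_, fun i j hij hj => ?_, fun i hi => ?_⟩
    · interval_cases i
      · exact mul_self hD hd
      · exact mul_self hD hu
      · exact mul_self hD hb
    · have h3 : i = 0 ∧ j = 2 := by omega
      rcases h3 with ⟨rfl, rfl⟩
      exact cdb.eq
    · have h3 : i = 0 ∨ i = 1 := by omega
      rcases h3 with rfl | rfl
      · exact braid hD hd hu hdu
      · exact braid hD hu hb hub
  obtain ⟨φ, hφ⟩ := hs.exists_hom
  exact ⟨φ, hφ 0 (by norm_num), hφ 1 (by norm_num), hφ 2 (by norm_num)⟩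

theorem key4 : ∀ σ : Equiv.Perm (Fin 4), σ ≠ 1 → ∃ a b : Equiv.Perm (Fin 4), (a * σ * a⁻¹) * (b * σ * b⁻¹) =
    Equiv.swap 0 1 * Equiv.swap 2 3 := by decide +kernel

theorem par_of {d d' : G} (hcls : Cfsg.IsThreeTranspositionClass D) (hd : d ∈ D) (hd' : d' ∈ D) (hne : d' ≠ d)
    (hc : Commute d d') (heq : ∀ y ∈ D, Commute d y → y = d ∨ y = d')
    (hs : ∀ e ∈ D, Commute d' e ↔ Commute d e) : ∃ p : G → G, Par D p := by
  have hex : ∀ x : G, ∃ x', x ∈ D → x' ∈ D ∧ x' ≠ x ∧ Commute x x' ∧ (∀ y ∈ D, Commute x y → y = x ∨ y = x') ∧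
      ∀ e ∈ D, Commute x' e ↔ Commute x e := by
    intro x
    by_cases hx : x ∈ D
    · obtain ⟨g, rfl⟩ := exists_conj hcls hd hx
      have back : ∀ y : G, g * (g⁻¹ * y * g⁻¹⁻¹) * g⁻¹ = y := fun y => by group
      refine ⟨g * d' * g⁻¹, fun _ => ⟨conj_mem hcls hd' g, fun k => hne (mul_left_cancel (mul_right_cancel k)),
        (commute_conj_iff g).2 hc, ?_, ?_⟩⟩
      · intro y hy k
        have k2 : Commute (g * d * g⁻¹) (g * (g⁻¹ * y * g⁻¹⁻¹) * g⁻¹) := by rw [back]; exact k
        rw [commute_conj_iff] at k2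
        rcases heq _ (conj_mem hcls hy _) k2 with k3 | k3
        · left; rw [← k3, back]
        · right; rw [← k3, back]
      · intro e he
        rw [← back e, commute_conj_iff, commute_conj_iff]
        exact hs _ (conj_mem hcls he _)
    · exact ⟨1, fun h => absurd h hx⟩
  choose p hp using hex
  exact ⟨p, fun x hx => (hp x hx).1, fun x hx => (hp x hx).2.1, fun x hx => (hp x hx).2.2.1,
    fun x hx => (hp x hx).2.2.2.1, fun x hx => (hp x hx).2.2.2.2⟩

theorem main {p : G → G} (hcls : Cfsg.IsThreeTranspositionClass D) (h : Par D p) {x y : G} (hx : x ∈ D) (hy : y ∈ D)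
    (hxy : ¬ Commute x y) : Nonempty (G ≃* Equiv.Perm (Fin 4)) := by
  have hxy' : ¬ Commute (p x) y := fun k => hxy ((h.same x hx y hy).1 k)
  have hpx := h.mem x hx
  obtain ⟨φ, f1, f2, f3⟩ := string4 hcls.1 hx hy hpx hxy (fun k => hxy' k.symm) (h.comm x hx)
  have rx : x ∈ φ.range := ⟨_, f1⟩
  have ry : y ∈ φ.range := ⟨_, f2⟩
  have rpx : p x ∈ φ.range := ⟨_, f3⟩
  have rpy : p y ∈ φ.range := by
    rw [← swap hcls h hx hy hxy]
    exact mul_mem (mul_mem (mul_mem rx rpx) ry) (inv_mem (mul_mem rx rpx))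
  have ht : y * x * y⁻¹ ∈ D := conj_mem hcls hx y
  have rt : y * x * y⁻¹ ∈ φ.range := mul_mem (mul_mem ry rx) (inv_mem ry)
  have rpt : p (y * x * y⁻¹) ∈ φ.range := by
    rw [p_conj hcls h hx y]
    exact mul_mem (mul_mem ry rpx) (inv_mem ry)
  have hall : ∀ g ∈ D, g ∈ φ.range := by
    intro g hg
    by_cases c1 : Commute x g
    · rcases h.eq x hx g hg c1 with k | k
      · rw [k]; exact rx
      · rw [k]; exact rpx
    by_cases c2 : Commute y g
    · rcases h.eq y hy g hg c2 with k | k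
      · rw [k]; exact ry
      · rw [k]; exact rpy
    by_cases c3 : Commute (y * x * y⁻¹) g
    · rcases h.eq _ ht g hg c3 with k | k
      · rw [k]; exact rt
      · rw [k]; exact rpt
    · exact absurd (three_pairs hcls h hx hy hg hxy c1 c2 c3) id
  have hsurj : Function.Surjective φ := by
    rw [← MonoidHom.range_eq_top, eq_top_iff, ← hcls.2.2, Subgroup.closure_le]
    exact hall
  have hinj : Function.Injective φ := by
    rw [← MonoidHom.ker_eq_bot_iff]
    by_contra hne
    obtain ⟨σ, hσ, hσ1⟩ := φ.ker.ne_bot_iff_exists_ne_one.1 hne |>.imp fun σ hσ => by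
      exact (⟨σ.2, fun k => hσ (Subtype.ext k)⟩ : (σ : Equiv.Perm (Fin 4)) ∈ φ.ker ∧ (σ : Equiv.Perm (Fin 4)) ≠ 1)
    obtain ⟨a, b, hab⟩ := key4 _ hσ1
    have h1 : Equiv.swap (0 : Fin 4) 1 * Equiv.swap 2 3 ∈ φ.ker := by
      rw [← hab]
      exact mul_mem ((inferInstance : φ.ker.Normal).conj_mem _ hσ a) ((inferInstance : φ.ker.Normal).conj_mem _ hσ b)
    rw [MonoidHom.mem_ker, map_mul, f1, f3] at h1
    exact z_ne hcls h hx h1
  exact ⟨(MulEquiv.ofBijective φ ⟨hinj, hsurj⟩).symm⟩


/-- Let D be a conjugacy class of 3-transpositions generating the finite group G, with at least two members, and d a member of D. Suppose that every member of D commuting with d commutes with exactly the same members of D as d does, and that exactly one member of D other than d commutes with d. Then G is isomorphic to the symmetric group of degree 4. -/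
theorem result {G : Type*} [Group G] [Finite G] {D : Set G} (hD : Cfsg.IsThreeTranspositionClass D) (hD2 : ∃ a ∈ D, ∃ b ∈ D, a ≠ b) {d : G} (hd : d ∈ D) (hV : {y : G | y ∈ D ∧ Commute d y} = {v : G | v ∈ D ∧ ∀ e ∈ D, Commute v e ↔ Commute d e}) (hm : {y : G | y ∈ D ∧ Commute d y}.ncard = 2) : Nonempty (G ≃* Equiv.Perm (Fin 4)) := by
  have hdS : d ∈ {y : G | y ∈ D ∧ Commute d y} := ⟨hd, Commute.refl _⟩
  obtain ⟨u, v, huv, hS⟩ := Set.ncard_eq_two.1 hm
  obtain ⟨d', hd', hSd⟩ : ∃ d', d' ≠ d ∧ {y : G | y ∈ D ∧ Commute d y} = {d, d'} := by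
    rw [hS] at hdS
    rcases hdS with k | k
    · exact ⟨v, fun e => huv (by rw [e, k]), by rw [hS, k]⟩
    · rw [Set.mem_singleton_iff] at k
      exact ⟨u, fun e => huv (by rw [e, k]), by rw [hS, k, Set.pair_comm]⟩
  have h1 : d' ∈ {y : G | y ∈ D ∧ Commute d y} := by rw [hSd]; simp
  have h2 : d' ∈ {v : G | v ∈ D ∧ ∀ e ∈ D, Commute v e ↔ Commute d e} := by rw [← hV]; exact h1
  have heq : ∀ y ∈ D, Commute d y → y = d ∨ y = d' := by
    intro y hy k
    have : y ∈ {y : G | y ∈ D ∧ Commute d y} := ⟨hy, k⟩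
    rw [hSd] at this
    simpa using this
  obtain ⟨p, hp⟩ := par_of hD hd h1.1 hd' h1.2 heq h2.2
  by_cases hnc : ∃ y ∈ D, ¬ Commute d y
  · obtain ⟨y, hy, k⟩ := hnc
    exact main hD hp hd hy k
  · exfalso
    push Not at hnc
    -- `d` is central
    have hcen : ∀ g : G, Commute d g := by
      intro g
      have hg : g ∈ Subgroup.closure D := by rw [hD.2.2]; trivial
      induction hg using Subgroup.closure_induction with
      | mem y hy => exact hnc y hy
      | one => exact Commute.one_right _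
      | mul a b _ _ ha hb => exact ha.mul_right hb
      | inv a _ ha => exact ha.inv_right
    obtain ⟨a, ha, b, hb, hab⟩ := hD2
    obtain ⟨g, hg⟩ := exists_conj hD hd ha
    obtain ⟨g', hg'⟩ := exists_conj hD hd hb
    rw [← (hcen g).eq, mul_inv_cancel_right] at hg
    rw [← (hcen g').eq, mul_inv_cancel_right] at hg'
    exact hab (by rw [← hg, ← hg'])

end Cfsg.Agent.S5355
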