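import Cfsg.Statements.S5356
import Cfsg.Agent.ThreeTrans.Perp3

set_option autoImplicit false
open Cfsg

namespace Cfsg.Agent.S5356

/-- Let D be a conjugacy class of 3-transpositions generating the finite group G, with at least two members, and d a member of D such that every member of D commuting with d commutes with exactly the same members of D as d. Then there is a Sylow 3-subgroup P of G normalized by d such that G is generated by d, P and the largest normal 2-subgroup of G. -/
theorem result {G : Type*} [Group G] [Finite G] {D : Set G} (hD : Cfsg.IsThreeTranspositionClass D) (hD2 : ∃ a ∈ D, ∃ b ∈ D, a ≠ b) {d : G} (hd : d ∈ D) (hV : {y : G | y ∈ D ∧ Commute d y} = {v : G | v ∈ D ∧ ∀ e ∈ D, Commute v e ↔ Commute d e}) : ∃ P : Sylow 3 G, d ∈ Subgroup.normalizer (P : Set G) ∧ Subgroup.zpowers d ⊔ (P : Subgroup G) ⊔ Cfsg.pCore 2 G = ⊤ := by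

  have hconj := ThreeTrans.class_conj hD
  have hN : (Cfsg.pCore 2 G).Normal := Solv.pCore_normal 2
  have hV : ∀ a ∈ D, ∀ b ∈ D, Commute a b → a * b ∈ Cfsg.pCore 2 G := by
    intro a ha b hb hab
    obtain ⟨g, hg⟩ := ThreeTrans.class_exists_conj hD hd ha
    have h1 : g⁻¹ * b * g ∈ {y : G | y ∈ D ∧ Commute d y} := by
      refine ⟨?_, ?_⟩
      · have := hconj g⁻¹ b hb
        rwa [inv_inv] at this
      · rw [← hg] at hab
        exact (ThreeTrans.commute_conj_iff g d b).1 hab
    rw [hV] at h1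
    have h2 := ThreeTrans.mul_mem_two_core hD.1 hconj (d := d) (v := g⁻¹ * b * g)
      ⟨h1.1, hd, h1.2⟩
    have h3 := hN.conj_mem _ h2 g
    have h4 : g * (d * (g⁻¹ * b * g)) * g⁻¹ = a * b := by
      rw [← hg]; group
    rwa [h4] at h3
  have hnc : ∀ a ∈ D, ∃ b ∈ D, ¬ Commute a b := fun a ha => ThreeTrans.exists_not_commute hD hD2 ha
  obtain ⟨e, he, hde⟩ := hnc d hd
  obtain ⟨P, hP⟩ := ThreeTrans.exists_invariant_sylow_three hD.1 hconj (N := Cfsg.pCore 2 G)
    (Solv.pCore_isPGroup 2) hV hd he hde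
  exact ⟨P, hP, ThreeTrans.generate_of_perp hD.1 hconj hD.2.2 (Solv.pCore_isPGroup 2) hV hnc hd P⟩

end Cfsg.Agent.S5356
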