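import Mathlib
import Cfsg.Statements.S5358
import Cfsg.Agent.R3.Struct
-- import your own Cfsg.Agent.* helpers here

set_option autoImplicit false
open scoped MatrixGroups
open Cfsg

namespace Cfsg.Agent.S5358

/-- Let Q be a non-degenerate quadratic form on the n-dimensional coordinate space over the field with three elements and u, v vectors of the same non-zero norm Q(u) = Q(v) spanning different lines (v ≠ u and v ≠ −u). Then the reflection matrices of u and v commute if and only if u and v are orthogonal for the polar form of Q. -/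
theorem result (n : ℕ) (Q : QuadraticForm (ZMod 3) (Fin n → ZMod 3)) (hQ : (QuadraticMap.polarBilin Q).Nondegenerate) (u v : Fin n → ZMod 3) (hu : Q u ≠ 0) (huv : Q u = Q v) (h1 : v ≠ u) (h2 : v ≠ -u) : Commute (Cfsg.reflectionMatrix (⇑Q) u) (Cfsg.reflectionMatrix (⇑Q) v) ↔ QuadraticMap.polar (⇑Q) u v = 0 := by
  have hv : Q v ≠ 0 := huv ▸ hu
  rw [← Cfsg.Agent.R3.refl_commute_iff hu hv rfl huv.symm h1 h2]
  constructor
  · intro h
    refine Cfsg.Agent.Orth.OGrp_ext fun x => ?_
    rw [Cfsg.Agent.Orth.coe_mul_apply, Cfsg.Agent.Orth.coe_mul_apply, ← Cfsg.Agent.Orth.reflectionMatrix_mulVec,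
      ← Cfsg.Agent.Orth.reflectionMatrix_mulVec, ← Cfsg.Agent.Orth.reflectionMatrix_mulVec,
      ← Cfsg.Agent.Orth.reflectionMatrix_mulVec, Matrix.mulVec_mulVec, Matrix.mulVec_mulVec, h.eq]
  · intro h
    refine Cfsg.Agent.Orth.matrix_eq_of_mulVec fun x => ?_
    rw [← Matrix.mulVec_mulVec, ← Matrix.mulVec_mulVec, Cfsg.Agent.Orth.reflectionMatrix_mulVec Q hv,
      Cfsg.Agent.Orth.reflectionMatrix_mulVec Q hu, Cfsg.Agent.Orth.reflectionMatrix_mulVec Q hu,
      Cfsg.Agent.Orth.reflectionMatrix_mulVec Q hv, ← Cfsg.Agent.Orth.coe_mul_apply,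
      ← Cfsg.Agent.Orth.coe_mul_apply, h.eq]

end Cfsg.Agent.S5358
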