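import Mathlib
import Cfsg.Statements.S5360
import Cfsg.Agent.R3.Struct
-- import your own Cfsg.Agent.* helpers here

set_option autoImplicit false
open scoped MatrixGroups
open Cfsg

namespace Cfsg.Agent.S5360

/-- Let Q be a non-degenerate quadratic form on the n-dimensional coordinate space over the field with three elements, n ≥ 5, c a non-zero scalar, and R the subgroup of the isometry group generated by the reflections of norm c. Then the commutator subgroup of R is quasisimple of index at most 2, the generalized Fitting subgroup of R is the product of the centre and the commutator subgroup, and R acts primitively by conjugation on its reflections of norm c. -/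
theorem result (n : ℕ) (hn : 5 ≤ n) (Q : QuadraticForm (ZMod 3) (Fin n → ZMod 3)) (hQ : (QuadraticMap.polarBilin Q).Nondegenerate) (c : ZMod 3) (hc : c ≠ 0) : Cfsg.IsQuasisimple (commutator ↥(Cfsg.reflectionSubgroup (⇑Q) c)) ∧ (commutator ↥(Cfsg.reflectionSubgroup (⇑Q) c)).index ≤ 2 ∧ Cfsg.generalizedFittingSubgroup ↥(Cfsg.reflectionSubgroup (⇑Q) c) = Subgroup.center ↥(Cfsg.reflectionSubgroup (⇑Q) c) ⊔ commutator ↥(Cfsg.reflectionSubgroup (⇑Q) c) ∧ Cfsg.IsPrimitiveUnderConj {g : ↥(Cfsg.reflectionSubgroup (⇑Q) c) | (g : ↥(Cfsg.isometryGroup (ZMod 3) (⇑Q))) ∈ Cfsg.reflectionsOfNorm (⇑Q) c} := by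
  have hn' : 5 ≤ Module.finrank (ZMod 3) (Fin n → ZMod 3) := by rw [Cfsg.Agent.R3.finrank_fin]; exact hn
  have hcls := Cfsg.Agent.R3.class_equiv (Cfsg.Agent.R3.eR hc) (Cfsg.Agent.R3.class_DS hQ hn' hc)
  have hprim := Cfsg.Agent.R3.prim_equiv (Cfsg.Agent.R3.eR hc) (Cfsg.Agent.R3.prim_DS hQ hn' hc)
  obtain ⟨a, ha, b, hb, hab, hcom⟩ := Cfsg.Agent.R3.exists_comm_pair hQ hn' hc
  obtain ⟨h1, h2, h3⟩ := Cfsg.Agent.R3.struct_of_primitive hcls hprim
    ⟨(Cfsg.Agent.R3.eR hc).symm a, by simpa using ha, (Cfsg.Agent.R3.eR hc).symm b, by simpa using hb,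
      fun h => hab ((Cfsg.Agent.R3.eR hc).symm.injective h), by
        have := hcom.map (Cfsg.Agent.R3.eR hc).symm.toMonoidHom
        exact this⟩
  refine ⟨h1, h2, h3, ?_⟩
  rw [Cfsg.Agent.R3.eR_preimage hc]
  exact hprim

end Cfsg.Agent.S5360
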