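import Cfsg.Statements.S5363
import Cfsg.Agent.ThreeTrans.Basic

set_option autoImplicit false
open Cfsg

namespace Cfsg.Agent.S5363

/-- Let D be a conjugation-invariant set of involutions of a finite group G. Then every product of two members of D has odd order or order 2 if and only if, for every a in D and every b in D different from a and commuting with a, the members of D commuting with a b are exactly those commuting with both a and b. -/
theorem result {G : Type*} [Group G] [Finite G] {D : Set G} (hinv : ∀ d ∈ D, orderOf d = 2) (hconj : ∀ g : G, ∀ d ∈ D, g * d * g⁻¹ ∈ D) : (∀ a ∈ D, ∀ b ∈ D, Odd (orderOf (a * b)) ∨ orderOf (a * b) = 2) ↔ ∀ a ∈ D, ∀ b ∈ D, b ≠ a → Commute a b → {y : G | y ∈ D ∧ Commute (a * b) y} = {y : G | y ∈ D ∧ Commute a y} ∩ {y : G | y ∈ D ∧ Commute b y} := by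
  have hsq : ∀ d ∈ D, d * d = 1 := fun d hd => by
    have := pow_orderOf_eq_one d
    rwa [hinv d hd, pow_two] at this
  have hinv' : ∀ d ∈ D, d⁻¹ = d := fun d hd => inv_eq_of_mul_eq_one_left (hsq d hd)
  constructor
  · intro h a ha b hb hba hab
    ext y
    constructor
    · rintro ⟨hy, hc⟩
      have key : Commute a y := by
        rcases h a ha y hy with ho | he
        · have hza : Commute (a * b) a := (Commute.refl a).mul_left hab.symm
          have hzy : Commute (a * b) (a * y) := hza.mul_right hc
          have hz2 : orderOf (a * b) = 2 := by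
            apply orderOf_eq_prime
            · exact (ThreeTrans.commute_iff_sq (hsq a ha) (hsq b hb)).1 hab
            · intro h1
              apply hba
              rw [mul_eq_one_iff_eq_inv.1 h1, hinv' b hb]
          have hcop : Nat.Coprime (orderOf (a * b)) (orderOf (a * y)) := by
            rw [hz2]; exact (Nat.coprime_two_left).2 ho
          have h1 := hzy.orderOf_mul_eq_mul_orderOf_of_coprime hcop
          have h2 : a * b * (a * y) = b * y := by
            rw [hab.eq, mul_assoc b a, ← mul_assoc a a, hsq a ha, one_mul]
          rw [h2, hz2] at h1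
          rcases h b hb y hy with h3 | h3
          · rw [h1] at h3
            exact absurd h3 (by rw [Nat.not_odd_iff_even]; exact even_two_mul _)
          · have h4 : orderOf (a * y) = 1 := by omega
            have h5 := orderOf_eq_one_iff.1 h4
            rw [mul_eq_one_iff_eq_inv.1 h5, hinv' y hy]
        · exact (ThreeTrans.commute_iff_sq (hsq a ha) (hsq y hy)).2 (by rw [← he]; exact pow_orderOf_eq_one _)
      refine ⟨⟨hy, key⟩, hy, ?_⟩
      have h1 : Commute (a * (a * b)) y := key.mul_left hc
      rwa [← mul_assoc, hsq a ha, one_mul] at h1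
    · rintro ⟨⟨hy, h1⟩, -, h2⟩
      exact ⟨hy, h1.mul_left h2⟩
  · intro h a ha b hb
    rcases Nat.even_or_odd (orderOf (a * b)) with he | ho
    · right
      obtain ⟨k, hk⟩ := he
      by_contra hne
      have hpos : 0 < orderOf (a * b) := orderOf_pos _
      have hk2 : 2 ≤ k := by omega
      have hab_conj : ∀ j : ℕ, a * (a * b) ^ j * a = ((a * b) ^ j)⁻¹ := by
        intro j
        have h1 : a * (a * b) * a⁻¹ = (a * b)⁻¹ := by
          rw [hinv' a ha, mul_inv_rev, hinv' a ha, hinv' b hb, ← mul_assoc a a, hsq a ha, one_mul]
        have h2 := conj_pow (i := j) (a := a) (b := a * b)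
        rw [h1] at h2
        rw [inv_pow, hinv' a ha] at h2
        exact h2.symm
      have hb_conj : ∀ j : ℕ, b * (a * b) ^ j * b = ((a * b) ^ j)⁻¹ := by
        intro j
        have h1 : b * (a * b) * b⁻¹ = (a * b)⁻¹ := by
          rw [hinv' b hb, mul_inv_rev, hinv' a ha, hinv' b hb, mul_assoc, mul_assoc, hsq b hb, mul_one]
        have h2 := conj_pow (i := j) (a := b) (b := a * b)
        rw [h1] at h2
        rw [inv_pow, hinv' b hb] at h2
        exact h2.symm
      set z := (a * b) ^ k with hz
      have hzz : z * z = 1 := by
        rw [hz, ← pow_add, ← hk]; exact pow_orderOf_eq_one _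
      have hzinv : z⁻¹ = z := inv_eq_of_mul_eq_one_left hzz
      have hz1 : z ≠ 1 := by
        intro h1
        have := orderOf_dvd_of_pow_eq_one h1
        have := Nat.le_of_dvd (by omega) this
        omega
      have hza : Commute a z := by
        have h1 := hab_conj k
        rw [← hz, hzinv] at h1
        show a * z = z * a
        calc a * z = a * z * a * a := by rw [mul_assoc (a * z), hsq a ha, mul_one]
          _ = z * a := by rw [h1]
      have hzb : Commute b z := by
        have h1 := hb_conj k
        rw [← hz, hzinv] at h1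
        show b * z = z * b
        calc b * z = b * z * b * b := by rw [mul_assoc (b * z), hsq b hb, mul_one]
          _ = z * b := by rw [h1]
      have hmem : a * z ∈ D := by
        have hshift : ∀ j : ℕ, a * (a * b) ^ j = ((a * b) ^ j)⁻¹ * a := by
          intro j
          rw [← hab_conj j, mul_assoc (a * (a * b) ^ j), hsq a ha, mul_one]
        rcases Nat.even_or_odd' k with ⟨j, hj | hj⟩
        · have h1 : a * z = ((a * b) ^ j)⁻¹ * a * ((a * b) ^ j)⁻¹⁻¹ := by
            rw [hz, hj, two_mul, pow_add, ← mul_assoc, hshift j, inv_inv]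
          rw [h1]; exact hconj _ a ha
        · have h1 : a * z = ((a * b) ^ j)⁻¹ * b * ((a * b) ^ j)⁻¹⁻¹ := by
            have h2 : (a * b) ^ k = (a * b) ^ j * (a * b) * (a * b) ^ j := by
              rw [hj, ← pow_succ, ← pow_add]; congr 1; omega
            rw [hz, h2, inv_inv]
            calc a * ((a * b) ^ j * (a * b) * (a * b) ^ j) = (a * (a * b) ^ j) * (a * b) * (a * b) ^ j := by group
              _ = ((a * b) ^ j)⁻¹ * (a * a) * b * (a * b) ^ j := by rw [hshift j]; group
              _ = _ := by rw [hsq a ha, mul_one]
          rw [h1]; exact hconj _ b hb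
      have hne' : a * z ≠ a := by
        intro h1
        exact hz1 (mul_eq_left.1 h1)
      have hcomm : Commute a (a * z) := (Commute.refl a).mul_right hza
      have h2 := h a ha (a * z) hmem hne' hcomm
      have h3 : b ∈ {y : G | y ∈ D ∧ Commute (a * (a * z)) y} := by
        refine ⟨hb, ?_⟩
        rw [← mul_assoc, hsq a ha, one_mul]
        exact hzb.symm
      rw [h2] at h3
      have h4 : Commute a b := h3.1.2
      have h5 := (ThreeTrans.commute_iff_sq (hsq a ha) (hsq b hb)).1 h4
      have h6 := Nat.le_of_dvd (by norm_num) (orderOf_dvd_of_pow_eq_one h5)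
      omega
    · exact Or.inl ho

end Cfsg.Agent.S5363
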