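import Cfsg.Statements.S5364
import Cfsg.Agent.ThreeTrans.Basic

set_option autoImplicit false
open Cfsg

namespace Cfsg.Agent.S5364

/-- Let D be a conjugation-invariant set of involutions of a finite group G and t an involution in the centre of G such that d t does not lie in D for any d in D. If the images of the members of D in G modulo the subgroup generated by t satisfy the 3-transposition order conditions (each has order 2 and any two have product of order at most 3), then so do the members of D. -/
theorem result {G : Type*} [Group G] [Finite G] {D : Set G} (hinv : ∀ d ∈ D, orderOf d = 2) (hconj : ∀ g : G, ∀ d ∈ D, g * d * g⁻¹ ∈ D) (t : G) (ht : orderOf t = 2) (htZ : t ∈ Subgroup.center G) (hDt : ∀ d ∈ D, d * t ∉ D) [(Subgroup.zpowers t).Normal] (himg : Cfsg.IsThreeTranspositionSet ((QuotientGroup.mk : G → G ⧸ Subgroup.zpowers t) '' D)) : Cfsg.IsThreeTranspositionSet D := by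
  have hsq : ∀ d ∈ D, d * d = 1 := fun d hd => by
    have := pow_orderOf_eq_one d
    rwa [hinv d hd, pow_two] at this
  have hinv' : ∀ d ∈ D, d⁻¹ = d := fun d hd => inv_eq_of_mul_eq_one_left (hsq d hd)
  have htc : ∀ g : G, t * g = g * t := fun g => ((Subgroup.mem_center_iff.1 htZ) g).symm
  refine ⟨hinv, fun d hd e he => ?_⟩
  have hz : ∀ g : G, ((g : G) : G ⧸ Subgroup.zpowers t) = 1 → g = 1 ∨ g = t := by
    intro g hg
    rw [QuotientGroup.eq_one_iff] at hg
    obtain ⟨k, rfl⟩ := Subgroup.mem_zpowers_iff.1 hg
    have ht2 : t ^ (2 : ℤ) = 1 := by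
      have := pow_orderOf_eq_one t
      rw [ht] at this
      exact_mod_cast this
    rcases Int.even_or_odd k with ⟨m, hm⟩ | ⟨m, hm⟩
    · left; rw [hm, ← two_mul, zpow_mul, ht2, one_zpow]
    · right; rw [hm, zpow_add, zpow_mul, ht2, one_zpow, one_mul, zpow_one]
  have h := himg.2 _ ⟨d, hd, rfl⟩ _ ⟨e, he, rfl⟩
  have hded : d * e * d⁻¹ ∈ D := hconj d e he
  have hede : e * d * e⁻¹ ∈ D := hconj e d hd
  rw [← QuotientGroup.mk_mul, ← QuotientGroup.mk_pow, ← QuotientGroup.mk_pow] at h
  rcases h with h | h
  · rcases hz _ h with h1 | h1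
    · exact Or.inl h1
    · exfalso
      have h2 : d * e * d⁻¹ = e * t := by
        rw [hinv' d hd]
        have h3 : d * e * d * e = t := by rw [← h1, pow_two]; group
        rw [← htc, ← h3, mul_assoc (d * e * d), hsq e he, mul_one]
      rw [h2] at hded
      exact hDt e he hded
  · rcases hz _ h with h1 | h1
    · exact Or.inr h1
    · exfalso
      have h2 : d * e * d⁻¹ = (e * d * e⁻¹) * t := by
        rw [hinv' d hd, hinv' e he]
        have h3 : (d * e * d) * (e * d * e) = t := by rw [← h1, pow_three]; group
        have h4 : (e * d * e) * (e * d * e) = 1 := by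
          have : (e * d * e) * (e * d * e) = e * (d * ((e * e) * d)) * e := by group
          rw [this, hsq e he, one_mul, hsq d hd, mul_one, hsq e he]
        rw [← htc, ← h3, mul_assoc (d * e * d), h4, mul_one]
      rw [h2] at hded
      exact hDt _ hede hded

end Cfsg.Agent.S5364
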