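import Cfsg.Statements.S5376
import Cfsg.Agent.Fi22.Quasi
import Cfsg.Agent.S5361

set_option autoImplicit false
open Cfsg

namespace Cfsg.Agent.S5376

/-- Let G be a finite group with trivial centre generated by a conjugation-invariant set D of 3-transpositions on which it acts primitively, of type M(22), and suppose some finite primitive 3-transposition group of type M(23) exists. Then G is simple, and for every d in D the subgroup generated by the members of D other than d commuting with d contains d and is quasisimple with centre generated by d. -/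
theorem result {G : Type*} [Group G] [Finite G] {D : Set G} (hD : Cfsg.IsThreeTranspositionGroup D) (hprim : Cfsg.IsPrimitiveUnderConj D) (ht : Cfsg.IsOfTypeM22 G D) (hex : ∃ (X : Type) (_ : Group X) (_ : Finite X) (E : Set X), Cfsg.IsThreeTranspositionClass E ∧ Cfsg.IsPrimitiveUnderConj E ∧ Cfsg.IsOfTypeM23 X E) : IsSimpleGroup G ∧ ∀ d ∈ D, d ∈ Subgroup.closure {y : G | y ∈ D ∧ y ≠ d ∧ Commute d y} ∧ Cfsg.IsQuasisimple ↥(Subgroup.closure {y : G | y ∈ D ∧ y ≠ d ∧ Commute d y}) ∧ Subgroup.center ↥(Subgroup.closure {y : G | y ∈ D ∧ y ≠ d ∧ Commute d y}) = (Subgroup.zpowers d).subgroupOf (Subgroup.closure {y : G | y ∈ D ∧ y ≠ d ∧ Commute d y}) := by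
  have h := Cfsg.Agent.Fi22.H22.of_primitive hD hprim ht
  refine ⟨?_, fun d hd => ⟨h.mem_closure_perp hd, h.quasisimple hd, h.center_closure_perp hd⟩⟩
  obtain ⟨d, hd, -⟩ := ht.2
  obtain ⟨a, ha⟩ := h.perp_nonempty hd
  have h1 : IsSimpleGroup (commutator G) :=
    (Cfsg.Agent.S5361.result h.cls ht.1 ⟨d, hd, a, ha.1, ha.2.1.symm, ha.2.2⟩).1.2 hprim
  rw [h.commutator_eq_top] at h1
  exact (Subgroup.topEquiv (G := G)).symm.isSimpleGroup

end Cfsg.Agent.S5376
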