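import Cfsg.Statements.S5377
import Cfsg.Agent.F22C.Setup
import Cfsg.Agent.FiEx.M22
import Cfsg.Agent.Fi22.Uniq

set_option autoImplicit false
open Cfsg

namespace Cfsg.Agent.S5377

/-- Let G be a finite group with an involution d whose centralizer C is quasisimple with C modulo the subgroup generated by d isomorphic to the projective special unitary group of dimension 6 over the field with four elements, and suppose some conjugate of d other than d commutes with d. Then the conjugacy class of d is a class of 3-transpositions generating G, and G with this class is of type M(22). -/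
theorem result {G : Type*} [Group G] [Finite G] (d : G) (hd : orderOf d = 2) (hq : Cfsg.IsQuasisimple (Subgroup.centralizer ({d} : Set G))) [((Subgroup.zpowers d).subgroupOf (Subgroup.centralizer ({d} : Set G))).Normal] (K : Type) [Field K] [Fintype K] (hK : Fintype.card K = 4) (e : (Subgroup.centralizer ({d} : Set G)) ⧸ (Subgroup.zpowers d).subgroupOf (Subgroup.centralizer ({d} : Set G)) ≃* Cfsg.PSU 6 K 2) (hnwc : ∃ g : G, g * d * g⁻¹ ∈ Subgroup.centralizer ({d} : Set G) ∧ g * d * g⁻¹ ≠ d) : Cfsg.IsThreeTranspositionClass (conjugatesOf d) ∧ Cfsg.IsOfTypeM22 G (conjugatesOf d) := by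
  have hP := F22C.locP d hd hq K hK e hnwc
  have h := F22C.h22 hP
  obtain ⟨X, _, _, E, h1, h2, h3⟩ := FiEx.M22.exists22
  have hX : Fi22.H22 E := Fi22.H22.of_primitive
    ⟨h1.1, fun g x hx => ThreeTransp.conj_mem h1 hx g, h1.2.2⟩ h2 h3
  obtain ⟨f, -, hf⟩ := h.exists_iso
  obtain ⟨fX, -, hfX⟩ := hX.exists_iso
  refine ⟨h.cls, ?_⟩
  have h4 := FiEx.type22_map (fX.trans f.symm) h3
  have h5 : (fX.trans f.symm) '' E = conjugatesOf d := by
    have h6 : (fX.trans f.symm) '' E = f.symm '' (fX '' E) := by
      rw [Set.image_image]; rfl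
    rw [h6, hfX]
    have h7 : (f.symm : Cfsg.Spor.Fi22 → G) '' (f '' conjugatesOf d) = conjugatesOf d := by
      rw [Set.image_image]; simp
    rw [hf] at h7
    exact h7
  rw [h5] at h4
  exact h4

end Cfsg.Agent.S5377
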