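import Cfsg.Statements.S5387
import Cfsg.Agent.MulX.L34C
import Cfsg.Agent.S0243
import Cfsg.Agent.ClassBase.RelHom

set_option autoImplicit false
open Cfsg

namespace Cfsg.Agent.S5387

/-- Up to isomorphism there is at most one quasisimple group whose centre is elementary abelian of order 4 and whose central quotient is isomorphic to the projective special linear group of dimension 3 over the field with four elements: any two such groups are isomorphic. -/
theorem result {L₁ L₂ : Type*} [Group L₁] [Finite L₁] [Group L₂] [Finite L₂] (F : Type) [Field F] [Fintype F] (hF : Fintype.card F = 4) (h₁ : Cfsg.IsQuasisimple L₁) (h₂ : Cfsg.IsQuasisimple L₂) (hc₁ : Nat.card (Subgroup.center L₁) = 4) (hc₂ : Nat.card (Subgroup.center L₂) = 4) (he₁ : ∀ x ∈ Subgroup.center L₁, x * x = 1) (he₂ : ∀ x ∈ Subgroup.center L₂, x * x = 1) (e₁ : L₁ ⧸ Subgroup.center L₁ ≃* Matrix.ProjectiveSpecialLinearGroup (Fin 3) F) (e₂ : L₂ ⧸ Subgroup.center L₂ ≃* Matrix.ProjectiveSpecialLinearGroup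 (Fin 3) F) : Nonempty (L₁ ≃* L₂) := by
  have e : Cfsg.Agent.MulX.K4 ≃+* F :=
    FiniteField.ringEquivOfCardEq (by rw [hF, Cfsg.Agent.MulX.K4.card])
  have card : Nat.card (Matrix.ProjectiveSpecialLinearGroup (Fin 3) Cfsg.Agent.MulX.K4) = 20160 := by
    have h := Cfsg.Agent.S0243.result Cfsg.Agent.MulX.K4.card 3 (by norm_num)
    rw [Fin.prod_univ_three] at h
    have e : (4 ^ 3 - 4 ^ ((0 : Fin 3) : ℕ)) * (4 ^ 3 - 4 ^ ((1 : Fin 3) : ℕ)) * (4 ^ 3 - 4 ^ ((2 : Fin 3) : ℕ)) = 181440 := by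
      decide
    rw [e] at h
    have e2 : Nat.gcd 3 (4 - 1) = 3 := by decide
    rw [e2] at h
    omega
  have e' := (Cfsg.Agent.ClassBase.pslCongr (n := Fin 3) e).symm
  exact Cfsg.Agent.MulX.L34.unique card h₁ h₂ hc₁ hc₂ he₁ he₂ (e₁.trans e') (e₂.trans e')

end Cfsg.Agent.S5387
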