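import Cfsg.Statements.S5392
import Cfsg.Agent.H90.LeechFactsProof
import Cfsg.Agent.Leech.MinGen

set_option autoImplicit false
open Cfsg

namespace Cfsg.Agent.S5392

/-- The Leech lattice modulo twice itself is a faithful irreducible module for the first Conway group: an automorphism of the rank-24 lattice built from the length-24 code that moves every lattice vector only by twice a lattice vector lies in the centre of the automorphism group (the centre consists of ±1, which act trivially there, so the kernel is exactly the centre), and an additive subgroup lying between twice the lattice and the lattice that is invariant under all lattice automorphisms is one of the two. -/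
theorem result : (∀ g : ↥Cfsg.Co0, (∀ v : ↥Cfsg.leechLattice, ∃ w : ↥Cfsg.leechLattice, ((g • v : ↥Cfsg.leechLattice) : Cfsg.GolayPt → ℤ) - (v : Cfsg.GolayPt → ℤ) = 2 • (w : Cfsg.GolayPt → ℤ)) → g ∈ Subgroup.center ↥Cfsg.Co0) ∧ ∀ M : AddSubgroup (Cfsg.GolayPt → ℤ), (∀ v ∈ Cfsg.leechLattice, (2 : ℤ) • v ∈ M) → M ≤ Cfsg.leechLattice → (∀ g : ↥Cfsg.Co0, ∀ v : ↥Cfsg.leechLattice, (v : Cfsg.GolayPt → ℤ) ∈ M → ((g • v : ↥Cfsg.leechLattice) : Cfsg.GolayPt → ℤ) ∈ M) → (∀ x ∈ M, ∃ w ∈ Cfsg.leechLattice, x = (2 : ℤ) • w) ∨ M = Cfsg.leechLattice := by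
  refine ⟨fun g hg => ?_, fun M h2 hM hinv => ?_⟩
  · have h1 : ∀ v, H90.Cg (g.1 v) v := by
      intro v
      obtain ⟨w, hw⟩ := hg v
      rw [H90.cg_iff]
      exact ⟨w, w.2, hw⟩
    rw [Subgroup.mem_center_iff]
    intro x
    rcases H90.trivial_mod_two g.2 h1 with h | h
    · have : g = 1 := Subtype.ext h
      rw [this, one_mul, mul_one]
    · apply Subtype.ext
      show x.1 * g.1 = g.1 * x.1
      rw [h]; exact (H90.negCo_central x.2).symm
  · by_cases hall : ∀ x ∈ M, ∃ w ∈ Cfsg.leechLattice, x = (2 : ℤ) • w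
    · exact Or.inl hall
    right
    push Not at hall
    obtain ⟨x, hx, hx2⟩ := hall
    have key32 : ∀ v : leechLattice, sqNorm (v : GolayPt → ℤ) = 32 → (v : GolayPt → ℤ) ∈ M →
        M = leechLattice := by
      intro v hv hvM
      apply le_antisymm hM
      rw [← Leech.minSub_eq]
      apply (AddSubgroup.closure_le _).2
      rintro y ⟨hy, hy32⟩
      obtain ⟨g, hg⟩ := Leech.trans_32 v ⟨y, hy⟩ hv hy32
      have := hinv g v hvM
      rw [hg] at this
      exact this
    obtain ⟨w, ⟨u, hu⟩, hn⟩ := H90.exists_cg_small ⟨x, hM hx⟩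
    have hwM : (w : GolayPt → ℤ) ∈ M := by
      have h3 : x = (w : GolayPt → ℤ) + ((u : GolayPt → ℤ) + (u : GolayPt → ℤ)) := congrArg Subtype.val hu
      have h4 : (w : GolayPt → ℤ) = x - (2 : ℤ) • (u : GolayPt → ℤ) := by
        rw [h3, two_smul]; abel
      rw [h4]
      exact M.sub_mem hx (h2 _ u.2)
    rcases hn with hn | hn | hn | hn
    · exfalso
      have h3 := (Leech.sqNorm_eq_zero_iff _).1 hn
      have h4 : x = (w : GolayPt → ℤ) + ((u : GolayPt → ℤ) + (u : GolayPt → ℤ)) := congrArg Subtype.val hu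
      apply hx2 u u.2
      rw [h4, h3, two_smul, zero_add]
    · exact key32 w hn hwM
    · -- norm 48
      have hx48 : ∃ a : leechLattice, sqNorm (a : GolayPt → ℤ) = 48 ∧ (a : GolayPt → ℤ) none = 5 ∧
          ∀ i, i ≠ none → (a : GolayPt → ℤ) i = 1 := by
        refine ⟨⟨Leech.oddVec, Leech.oddVec_mem⟩ + H90.v8 none, ?_, ?_, ?_⟩
        · rw [AddSubgroup.coe_add, H90.v8_coe]
          show sqNorm (Leech.oddVec + Pi.single none 8) = 48
          decide
        · rw [AddSubgroup.coe_add, H90.v8_coe]
          show Leech.oddVec none + (Pi.single none 8 : GolayPt → ℤ) none = 5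
          decide
        · intro i hi
          rw [AddSubgroup.coe_add, H90.v8_coe]
          show Leech.oddVec i + (Pi.single none 8 : GolayPt → ℤ) i = 1
          revert i; decide
      obtain ⟨a, ha, ha1, ha2⟩ := hx48
      obtain ⟨g, hg⟩ := Leech.trans_48 w a hn ha
      have haM : (a : GolayPt → ℤ) ∈ M := by
        have := hinv g w hwM
        rwa [hg] at this
      obtain ⟨σ, hσ, hσ1⟩ := Leech.M24_one (some 0) none
      have h3 := hinv ⟨H90.permCo σ hσ, H90.permCo_mem σ hσ⟩ a haM
      have h4 := M.sub_mem haM h3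
      apply key32 (H90.vm none (some 0)) (H90.sqNorm_vm (by decide))
      have h5 : (H90.vm none (some 0) : GolayPt → ℤ) = (a : GolayPt → ℤ) -
          (((⟨H90.permCo σ hσ, H90.permCo_mem σ hσ⟩ : Co0) • a : leechLattice) : GolayPt → ℤ) := by
        funext i
        rw [H90.vm_coe]
        show _ = (a : GolayPt → ℤ) i - (a : GolayPt → ℤ) (σ i)
        by_cases hi : i = none
        · subst hi
          have h6 : σ none ≠ none := by
            intro h
            exact absurd (σ.injective (h.trans hσ1.symm)) (by decide)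
          rw [ha1, ha2 _ h6]
          simp
        · by_cases hi2 : i = some 0
          · rw [hi2, hσ1, ha1, ha2 _ (by decide)]; simp
          · have h6 : σ i ≠ none := by
              intro h; exact hi2 (σ.injective (h.trans hσ1.symm))
            rw [ha2 _ hi, ha2 _ h6, Pi.sub_apply, Pi.single_eq_of_ne hi, Pi.single_eq_of_ne hi2]; rfl
      rw [h5]; exact h4
    · -- norm 64
      have h64 : ∀ y : H90.evenSum, sqNorm (H90.emb4 y : GolayPt → ℤ) = 64 → (H90.emb4 y : GolayPt → ℤ) ∈ M := by
        intro y hy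
        obtain ⟨g, hg⟩ := Leech.trans_64 w (H90.emb4 y) hn hy
        have := hinv g w hwM
        rwa [hg] at this
      have h3 := h64 (H90.EE none (some 0) + H90.EE (some 1) (some 2)) (by
        rw [H90.emb4_coe, AddSubgroup.coe_add, H90.EE_coe, H90.EE_coe]; decide)
      have h4 := h64 (H90.EE none (some 0) + H90.EE (some 1) (some 3)) (by
        rw [H90.emb4_coe, AddSubgroup.coe_add, H90.EE_coe, H90.EE_coe]; decide)
      have h5 := M.sub_mem h3 h4
      apply key32 (H90.vm (some 2) (some 3)) (H90.sqNorm_vm (by decide))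
      have h6 : (H90.vm (some 2) (some 3) : GolayPt → ℤ) =
          (H90.emb4 (H90.EE none (some 0) + H90.EE (some 1) (some 2)) : GolayPt → ℤ) -
          (H90.emb4 (H90.EE none (some 0) + H90.EE (some 1) (some 3)) : GolayPt → ℤ) := by
        rw [H90.emb4_coe, H90.emb4_coe, AddSubgroup.coe_add, AddSubgroup.coe_add, H90.EE_coe, H90.EE_coe,
          H90.EE_coe, H90.vm_coe]
        decide
      rw [h6]; exact h5

end Cfsg.Agent.S5392
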