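import Cfsg.Statements.S5394
import Cfsg.Agent.H90.Mult23

set_option autoImplicit false
open Cfsg

namespace Cfsg.Agent.S5394

/-- The automorphism group of the length-24 code built from the squares modulo 23 has exactly two conjugacy classes of involutions: an involution either fixes exactly the eight points of an octad or has no fixed points, both kinds occur, and any two involutions of the same kind are conjugate in the group. -/
theorem result : (∀ g ∈ Cfsg.M24, orderOf g = 2 → (Finset.univ.filter fun p => g p = p) ∈ Cfsg.octads ∨ ∀ p, g p ≠ p) ∧ (∃ g ∈ Cfsg.M24, orderOf g = 2 ∧ (Finset.univ.filter fun p => g p = p) ∈ Cfsg.octads) ∧ (∃ g ∈ Cfsg.M24, orderOf g = 2 ∧ ∀ p, g p ≠ p) ∧ ∀ g ∈ Cfsg.M24, ∀ h ∈ Cfsg.M24, orderOf g = 2 → orderOf h = 2 → ((∀ p, g p ≠ p) ↔ (∀ p, h p ≠ p)) → ∃ k ∈ Cfsg.M24, k * g * k⁻¹ = h := by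
  refine ⟨?_, ?_, ?_, ?_⟩
  · intro g hg h2
    exact H90.Tab.inv_dichotomy hg h2
  · exact H90.Tab.exists_inv8
  · exact H90.Tab.exists_inv0
  · intro g hg h hh hg2 hh2 hiff
    exact H90.Tab.inv_conj_of_iff hg hh hg2 hh2 hiff

end Cfsg.Agent.S5394
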