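import Cfsg.Statements.S5395
import Cfsg.Agent.H20.ExtraInner

set_option autoImplicit false
open Cfsg

namespace Cfsg.Agent.S5395

open Cfsg.Agent.H20
open scoped commutatorElement

/-- For a finite extraspecial 2-group E, an automorphism of E that induces the identity on E modulo its centre is inner (so these automorphisms form exactly the inner automorphism group, an elementary abelian 2-group of order |E|/2). -/
theorem result {E : Type*} [Group E] [Finite E] (hE : Cfsg.IsExtraspecial 2 E) (φ : E ≃* E) (hφ : ∀ x : E, φ x * x⁻¹ ∈ Subgroup.center E) : ∃ g : E, ∀ x : E, φ x = g * x * g⁻¹ := by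
  have : Fact (Nat.Prime 2) := ⟨Nat.prime_two⟩
  have h := Cfsg.Agent.Extra.ges_of_isExtraspecial hE
  let θ : E →* Subgroup.center E :=
    { toFun := fun x => ⟨φ x * x⁻¹, hφ x⟩
      map_one' := by apply Subtype.ext; simp
      map_mul' := by
        intro x y
        apply Subtype.ext
        have h1 := Subgroup.mem_center_iff.1 (hφ y) x⁻¹
        simp only [Subgroup.coe_mul, map_mul, mul_inv_rev]
        calc φ x * φ y * (y⁻¹ * x⁻¹) = φ x * ((φ y * y⁻¹) * x⁻¹) := by group
          _ = φ x * (x⁻¹ * (φ y * y⁻¹)) := by rw [h1]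
          _ = φ x * x⁻¹ * (φ y * y⁻¹) := by group }
  have hθ : ∀ z ∈ Subgroup.center E, θ z = 1 := by
    intro z hz
    by_cases hz1 : z = 1
    · rw [hz1, map_one]
    -- φ z = z since the centre has order 2
    apply Subtype.ext
    change φ z * z⁻¹ = 1
    have hφz : φ z ∈ Subgroup.center E := by
      have h1 := hφ z
      have h2 := mul_mem h1 hz
      simpa using h2
    obtain ⟨n, hn⟩ := h.exists_pow_eq hz hz1 hφz
    have hz2 := h.center_pow hz
    rcases Nat.even_or_odd' n with ⟨k, rfl | rfl⟩
    · exfalso
      rw [pow_mul, hz2, one_pow] at hn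
      apply hz1
      apply φ.injective
      rw [← hn, map_one]
    · rw [pow_add, pow_mul, hz2, one_pow, one_mul, pow_one] at hn
      rw [← hn, mul_inv_cancel]
  obtain ⟨g, hg⟩ := ges_hom h θ hθ
  refine ⟨g, fun x => ?_⟩
  have h1 := hg x
  have h2 : (θ x : E) = φ x * x⁻¹ := rfl
  rw [h2, commutatorElement_def] at h1
  have h3 := congrArg (· * x) h1
  simp only [inv_mul_cancel_right] at h3
  exact h3.symm

end Cfsg.Agent.S5395
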