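import Cfsg.Statements.S5396
import Cfsg.Agent.H73.ExMod

set_option autoImplicit false
open Cfsg

namespace Cfsg.Agent.S5396

/-- For every n ≥ 1 there exist finite extraspecial 2-groups of order 2^(2n+1) whose 2-rank (the largest rank of an elementary abelian subgroup) is n, and ones whose 2-rank is n + 1 (so for each such order there are two non-isomorphic extraspecial 2-groups, told apart by their 2-rank). -/
theorem result (n : ℕ) (hn : 1 ≤ n) : ∀ r ∈ ({n, n + 1} : Set ℕ), ∃ (E : Type) (_ : Group E) (_ : Finite E), Cfsg.IsExtraspecial 2 E ∧ Nat.card E = 2 ^ (2 * n + 1) ∧ sSup {k : ℕ | ∃ A : Subgroup E, Cfsg.IsElementaryAbelian 2 A ∧ Nat.card A = 2 ^ k} = r := by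
  have h2 : Fact (Nat.Prime 2) := ⟨Nat.prime_two⟩
  have hfour : (4 : ℤ) ^ n = ((2 ^ (2 * n) : ℕ) : ℤ) := by push_cast; rw [pow_mul]; norm_num
  have fin : ∀ (E : Type) [Group E] [Finite E] (r : ℕ), Cfsg.PRankLE 2 r E →
      (∃ A : Subgroup E, IsMulCommutative A ∧ (∀ a ∈ A, a ^ 2 = 1) ∧ 2 ^ r ≤ Nat.card A) →
      sSup {k : ℕ | ∃ A : Subgroup E, Cfsg.IsElementaryAbelian 2 A ∧ Nat.card A = 2 ^ k} = r := by
    intro E _ _ r hr ⟨A, hA, hA2, hAc⟩
    have h3 : Nat.card A = 2 ^ r := le_antisymm (hr A hA hA2) hAc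
    apply IsGreatest.csSup_eq
    refine ⟨⟨A, ⟨hA, hA2⟩, h3⟩, ?_⟩
    rintro k ⟨B, ⟨hB, hB2⟩, hBk⟩
    have h4 := hr B hB hB2
    rw [hBk] at h4
    exact (Nat.pow_le_pow_iff_right (by norm_num)).mp h4
  intro r hr
  rcases hr with rfl | hr
  · obtain ⟨E, _, _, hE, hc, hs⟩ := H73.ExMod.exists_model r hn false
    refine ⟨E, inferInstance, inferInstance, hE, hc, ?_⟩
    have hG := Extra.ges_of_isExtraspecial hE
    have hpos : 0 < 2 ^ r := pow_pos (by norm_num) _
    rw [hfour] at hs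
    simp only [Bool.false_eq_true, if_false] at hs
    rcases H73.ExSp2.rank_cases hG hn hc with ⟨h4, h5, h6⟩ | ⟨h4, h5, h6⟩
    · exfalso
      rw [h4] at hs
      push_cast at hs
      have : (0 : ℤ) < 2 ^ r := by positivity
      linarith
    · exact fin E r h5 (H73.ExSp2.exists_rank r hG hc).2
  · rw [Set.mem_singleton_iff] at hr
    subst hr
    obtain ⟨E, _, _, hE, hc, hs⟩ := H73.ExMod.exists_model n hn true
    refine ⟨E, inferInstance, inferInstance, hE, hc, ?_⟩
    have hG := Extra.ges_of_isExtraspecial hE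
    have hs' : H73.ExSp2.sq E = 2 ^ (2 * n) + 2 ^ n := by
      rw [hfour] at hs
      simp only [if_true] at hs
      exact_mod_cast hs
    rcases H73.ExSp2.rank_cases hG hn hc with ⟨h4, h5, h6⟩ | ⟨h4, h5, h6⟩
    · exact fin E (n + 1) h5 ((H73.ExSp2.exists_rank n hG hc).1 hs')
    · exfalso
      have hpos : 0 < 2 ^ n := pow_pos (by norm_num) _
      omega

end Cfsg.Agent.S5396
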