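import Cfsg.Statements.S5402
import Cfsg.Agent.F23C.Setup
import Cfsg.Agent.FiEx.M22
import Cfsg.Agent.FiEx.M23
import Cfsg.Agent.Fi22.Uniq
import Cfsg.Agent.Fi22.Uniq23

set_option autoImplicit false
open Cfsg

namespace Cfsg.Agent.S5402

/-- Let G be a finite group with an involution d whose centralizer C is quasisimple, such that C modulo the subgroup generated by d is of type M(22) with respect to some conjugacy class of 3-transpositions generating it, and also has an involution whose own centralizer is quasisimple with quotient by it isomorphic to the projective special unitary group of dimension 6 over the field with four elements and which is not weakly closed in its centralizer; and suppose some conjugate of d other than d commutes with d. Then the conjugacy class of d is a class of 3-transpositions generating G, and G with this class is of type M(23). -/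
theorem result {G : Type*} [Group G] [Finite G] (d : G) (hd : orderOf d = 2) (hq : Cfsg.IsQuasisimple (Subgroup.centralizer ({d} : Set G))) [((Subgroup.zpowers d).subgroupOf (Subgroup.centralizer ({d} : Set G))).Normal] (htype : ∃ E : Set ((Subgroup.centralizer ({d} : Set G)) ⧸ (Subgroup.zpowers d).subgroupOf (Subgroup.centralizer ({d} : Set G))), Cfsg.IsThreeTranspositionClass E ∧ Cfsg.IsOfTypeM22 _ E) (hinvol : ∃ d' : (Subgroup.centralizer ({d} : Set G)) ⧸ (Subgroup.zpowers d).subgroupOf (Subgroup.centralizer ({d} : Set G)), orderOf d' = 2 ∧ Cfsg.IsQuasisimple (Subgroup.centralizer ({d'} : Set _)) ∧ (∃ (K : Type) (_ : Field K) (_ : Fintype K), Fintype.card K = 4 ∧ ∃ _ : ((Subgroup.zpowers d').subgroupOf (Subgroup.centralizer ({d'} : Set _))).Normal, Nonempty ((Subgroup.centralizer ({d'} : Set _)) ⧸ (Subgroup.zpowers d').subgroupOf (Subgroup.centralizer ({d'} : Set _)) ≃* Cfsg.PSU 6 K 2)) ∧ ∃ g, g * d' * g⁻¹ ∈ Subgroup.centralizer ({d'} : Set _) ∧ g * d' * g⁻¹ ≠ d') (hnwc : ∃ g : G, g * d * g⁻¹ ∈ Subgroup.centralizer ({d}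 : Set G) ∧ g * d * g⁻¹ ≠ d) : Cfsg.IsThreeTranspositionClass (conjugatesOf d) ∧ Cfsg.IsOfTypeM23 G (conjugatesOf d) := by
  obtain ⟨E, hE, h22⟩ := htype
  have hP := F23C.locP3 d hd hq hE h22 hnwc
  have h := F23C.w23 hP
  obtain ⟨X, _, _, F, h1, h2, h3⟩ := FiEx.M23.exists23
  have hX : Fi22.H23 F := Fi22.H23.of_primitive
    ⟨h1.1, fun g x hx => ThreeTransp.conj_mem h1 hx g, h1.2.2⟩ h2 h3
  obtain ⟨f, -, hf⟩ := h.exists_iso
  obtain ⟨fX, -, hfX⟩ := hX.exists_iso
  refine ⟨h.cls, ?_⟩
  have h4 := FiEx.type23_map (fX.trans f.symm) h3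
  have h5 : (fX.trans f.symm) '' F = conjugatesOf d := by
    have h6 : (fX.trans f.symm) '' F = f.symm '' (fX '' F) := by
      rw [Set.image_image]; rfl
    rw [h6, hfX]
    have h7 : (f.symm : Cfsg.Spor.Fi23 → G) '' (f '' conjugatesOf d) = conjugatesOf d := by
      rw [Set.image_image]; simp
    rw [hf] at h7
    exact h7
  rw [h5] at h4
  exact h4

end Cfsg.Agent.S5402
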