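import Cfsg.Statements.S5408
import Cfsg.Agent.H90.MonsterForm

set_option autoImplicit false
open Cfsg

namespace Cfsg.Agent.S5408

/-- Let G be a finite group of Monster type at the involution z with Q the extraspecial normal subgroup of order 2^25 of C = C_G(z) (so C/Q is identified with the first Conway group with Q modulo its centre the Leech lattice modulo 2, and z is not weakly closed in Q). Then Q is of plus type: it contains an elementary abelian subgroup of order 2^13. -/
theorem result {G : Type*} [Group G] [Finite G] (z : G) (Q : Subgroup (Subgroup.centralizer ({z} : Set G))) [Q.Normal] (hM : Cfsg.IsOfMonsterType z Q) : ∃ E : Subgroup Q, Cfsg.IsElementaryAbelian 2 E ∧ Nat.card E = 2 ^ 13 := by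
  obtain ⟨hset, e, ψ, hψ⟩ := hM
  obtain ⟨ζ, hX, -⟩ := H90.XS.of_isExtraspecial hset.2.2.1
  obtain ⟨E, -, hE⟩ := H90.exists_elementaryAbelian hX hψ
  exact ⟨E, hE⟩

end Cfsg.Agent.S5408
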