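import Cfsg.Statements.S5420
import Cfsg.Agent.H90.Large

set_option autoImplicit false
open Cfsg

namespace Cfsg.Agent.S5420

/-- Let Q be an extraspecial 2-subgroup of the finite group G whose centralizer in G is its centre Z and which is normal in the centralizer of Z. If Z lies in the largest normal 2-subgroup of G, then Q is a large extraspecial 2-subgroup of G: it normalizes no non-trivial subgroup of G of odd order. -/
theorem result {G : Type*} [Group G] [Finite G] (Q : Subgroup G) (hL1 : Cfsg.IsExtraspecial 2 ↥Q) (hL2 : Subgroup.centralizer (Q : Set G) = ((Subgroup.center ↥Q).map Q.subtype)) (hL3 : Subgroup.centralizer (((Subgroup.center ↥Q).map Q.subtype) : Set G) ≤ Subgroup.normalizer (Q : Set G)) (hZ : ((Subgroup.center ↥Q).map Q.subtype) ≤ Cfsg.pCore 2 G) : Cfsg.IsLargeExtraspecial Q := by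
  obtain ⟨z, h, hz⟩ := H90.PL.of_isExtraspecial hL1 hL2 hL3
  refine h.isLarge hL1 ?_
  intro K hK hQK k hk
  apply h.inf_centralizer_eq_one K hK hQK k hk
  have hzO : z ∈ Cfsg.pCore 2 G := hZ (by rw [hz]; exact Subgroup.mem_zpowers z)
  have h1 : k * z * k⁻¹ * z⁻¹ ∈ Cfsg.pCore 2 G :=
    Subgroup.mul_mem _ ((inferInstance : (Cfsg.pCore 2 G).Normal).conj_mem z hzO k)
      (Subgroup.inv_mem _ hzO)
  have h2 : k * z * k⁻¹ * z⁻¹ ∈ K := by
    have : k * (z * k⁻¹ * z⁻¹) ∈ K := K.mul_mem hk (hQK z h.mem _ (K.inv_mem hk))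
    convert this using 1; group
  obtain ⟨n, hn⟩ := H90.isPGroup_pCore 2 G ⟨_, h1⟩
  have h3 := H90.eq_one_of_mem_odd_of_pow hK h2 (n := n) (by
    have := congrArg Subtype.val hn
    simpa using this)
  rw [mul_inv_eq_one, mul_inv_eq_iff_eq_mul] at h3
  exact h3

end Cfsg.Agent.S5420
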