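import Cfsg.Statements.S5423
import Cfsg.Agent.H73.Heis5

set_option autoImplicit false
open Cfsg

namespace Cfsg.Agent.S5423

/-- Let G be a finite group that is the split extension of an elementary abelian normal subgroup U of order 2^(n+1), n ≥ 1, by its full automorphism group: U has a complement M in G whose conjugation action on U is faithful and realizes every automorphism of U. Let Z be a subgroup of U of order 2 and Q the largest normal 2-subgroup of the centralizer C of Z. Then Q is extraspecial of order 2^(2n+1) with an elementary abelian subgroup of order 2^(n+1) (plus type), Q is a large extraspecial 2-subgroup of G, and C is the split extension of Q by the general linear group of degree n over the field with two elements. -/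
theorem result {G : Type*} [Group G] [Finite G] (n : ℕ) (hn : 1 ≤ n) (U M : Subgroup G) [U.Normal] (hU : Cfsg.IsElementaryAbelian 2 U) (hUcard : Nat.card ↥U = 2 ^ (n + 1)) (hUM : U ⊓ M = ⊥) (hUM' : U ⊔ M = ⊤) (hfaith : ∀ m ∈ M, (∀ u ∈ U, m * u * m⁻¹ = u) → m = 1) (hfull : ∀ φ : ↥U ≃* ↥U, ∃ m ∈ M, ∀ u : ↥U, ((φ u : ↥U) : G) = m * u * m⁻¹) (Z : Subgroup G) (hZU : Z ≤ U) (hZ : Nat.card ↥Z = 2) (Q : Subgroup G) (hQ : Q = (Cfsg.pCore 2 ↥(Subgroup.centralizer (Z : Set G))).map (Subgroup.centralizer (Z : Set G)).subtype) : Cfsg.IsExtraspecial 2 ↥Q ∧ Nat.card ↥Q = 2 ^ (2 * n + 1) ∧ (∃ E : Subgroup G, E ≤ Q ∧ Cfsg.IsElementaryAbelian 2 E ∧ Nat.card ↥E = 2 ^ (n + 1)) ∧ Cfsg.IsLargeExtraspecial Q ∧ ∃ K : Subgroup G, K ≤ Subgroup.centralizer (Z : Set G) ∧ Q ⊓ K = ⊥ ∧ Q ⊔ K = Subgroup.centralizer (Z : Set G) ∧ Nonempty (↥K ≃* Matrix.GeneralLinearGroup (Fin n) (ZMod 2)) := by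
  classical
  have hcomm : ∀ a b : ↥U, a * b = b * a := hU.1.1.1
  letI : CommGroup ↥U := { (inferInstance : Group ↥U) with mul_comm := hcomm }
  have h2 : ∀ x : Additive ↥U, (2 : ℕ) • x = 0 := by
    intro x
    have := hU.2 (x.toMul : G) x.toMul.2
    apply Additive.toMul.injective
    apply Subtype.ext
    exact this
  letI : Module Cfsg.Agent.H73.Heis.F (Additive ↥U) := AddCommGroup.zmodModule h2
  let W := Fin n → Cfsg.Agent.H73.Heis.F
  have hW : Nat.card W = 2 ^ n := by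
    rw [Nat.card_pi]; simp [Cfsg.Agent.H73.Heis.F]
  -- the generator of `Z`
  obtain ⟨z, hzZ, hz1, hZz⟩ : ∃ z ∈ Z, z ≠ 1 ∧ ∀ y ∈ Z, y = 1 ∨ y = z := by
    obtain ⟨⟨z, hz⟩, hz1, hz2⟩ := (Nat.card_eq_two_iff' (1 : ↥Z)).mp hZ
    refine ⟨z, hz, fun h => hz1 (Subtype.ext h), ?_⟩
    intro y hy
    by_cases h : y = 1
    · exact Or.inl h
    · right
      exact congrArg Subtype.val (hz2 ⟨y, hy⟩ (fun h' => h (congrArg Subtype.val h')))
  have hzU : z ∈ U := hZU hzZ
  have hcZ : Subgroup.centralizer (Z : Set G) = Subgroup.centralizer ({z} : Set G) := by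
    apply le_antisymm
    · exact Subgroup.centralizer_le (by simpa using hzZ)
    · intro g hg
      rw [Subgroup.mem_centralizer_iff]
      intro y hy
      rcases hZz y hy with h | h
      · rw [h, one_mul, mul_one]
      · rw [h]; exact (Subgroup.mem_centralizer_singleton_iff.mp hg).symm
  rw [hcZ] at hQ ⊢
  obtain ⟨e, he⟩ : ∃ e : Additive ↥U ≃ₗ[Cfsg.Agent.H73.Heis.F] (W × Cfsg.Agent.H73.Heis.F),
      e (Additive.ofMul ⟨z, hzU⟩) = (0, 1) := by
    refine Cfsg.Agent.H73.Heis.exists_coord n ?_ ?_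
    · rw [show Nat.card (Additive ↥U) = Nat.card ↥U from rfl, hUcard]
    · intro h
      apply hz1
      exact congrArg (fun x : Additive ↥U => ((x.toMul : ↥U) : G)) h
  let τ : Multiplicative (W × Cfsg.Agent.H73.Heis.F) ≃* ↥U :=
    { toFun := fun v => (e.symm v.toAdd).toMul
      invFun := fun u => Multiplicative.ofAdd (e (Additive.ofMul u))
      left_inv := fun v => by simp
      right_inv := fun u => by simp
      map_mul' := fun v w => by simp }
  have hτ : z = τ (Multiplicative.ofAdd ((0 : W), (1 : Cfsg.Agent.H73.Heis.F))) := by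
    have h3 : e.symm ((0 : W), (1 : Cfsg.Agent.H73.Heis.F)) = Additive.ofMul ⟨z, hzU⟩ := by
      rw [← he, LinearEquiv.symm_apply_apply]
    show z = (((e.symm ((0 : W), (1 : Cfsg.Agent.H73.Heis.F))).toMul : ↥U) : G)
    rw [h3]; rfl
  obtain ⟨D, hD, hC, hDU⟩ := Cfsg.Agent.H73.Heis.affine U M hUM hUM' hfaith hfull
    (fun a ha b hb => congrArg Subtype.val (hcomm ⟨a, ha⟩ ⟨b, hb⟩)) τ z hτ
  have hodd : ∀ K : Subgroup G, Odd (Nat.card K) → Q ≤ Subgroup.normalizer (K : Set _) → K = ⊥ := by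
    intro K hK hQK
    have hQm := D.mem_Q hD hC hQ
    have hUQ : U ≤ Q := by
      intro u hu
      obtain ⟨s, c, h⟩ := hDU u hu
      exact (hQm u).mpr ⟨0, s, c, h⟩
    have hUK : U ⊓ K = ⊥ := by
      apply Disjoint.eq_bot
      apply Subgroup.disjoint_of_coprime_natCard
      rw [hUcard]
      exact Nat.Coprime.pow_left _ (Nat.coprime_two_left.mpr hK)
    rw [eq_bot_iff]
    intro k hk
    have hkc : ∀ u ∈ U, k * u * k⁻¹ = u := by
      intro u hu
      have h3 : k * u * k⁻¹ * u⁻¹ ∈ U ⊓ K := by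
        refine ⟨U.mul_mem (‹U.Normal›.conj_mem _ hu k) (U.inv_mem hu), ?_⟩
        have h4 := (Subgroup.mem_normalizer_iff.mp (hQK (hUQ hu)) k⁻¹).mp (K.inv_mem hk)
        have h5 := K.mul_mem hk h4
        have e2 : k * (u * k⁻¹ * u⁻¹) = k * u * k⁻¹ * u⁻¹ := by group
        rwa [e2] at h5
      rw [hUK, Subgroup.mem_bot, mul_inv_eq_one] at h3
      exact h3
    have hkt : k ∈ U ⊔ M := by rw [hUM']; exact Subgroup.mem_top _
    rw [Subgroup.mem_sup_of_normal_left] at hkt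
    obtain ⟨u', hu', m, hm, rfl⟩ := hkt
    have hm1 : m = 1 := by
      apply hfaith m hm
      intro u hu
      have h3 := hkc u hu
      have h4 : m * u * m⁻¹ ∈ U := ‹U.Normal›.conj_mem _ hu m
      have h5 : u' * (m * u * m⁻¹) = (m * u * m⁻¹) * u' :=
        congrArg Subtype.val (hcomm ⟨u', hu'⟩ ⟨_, h4⟩)
      calc m * u * m⁻¹ = (m * u * m⁻¹) * u' * u'⁻¹ := by group
        _ = u' * (m * u * m⁻¹) * u'⁻¹ := by rw [h5]
        _ = (u' * m) * u * (u' * m)⁻¹ := by group
        _ = u := h3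
    rw [hm1, mul_one] at hk ⊢
    have : u' ∈ U ⊓ K := ⟨hu', hk⟩
    rwa [hUK] at this
  obtain ⟨h1, h2', h3, h4, K, h5, h6, h7, ⟨e2⟩⟩ := Cfsg.Agent.H73.Heis.main D hD hC hn hW Q hQ hodd
  exact ⟨h1, h2', h3, h4, K, h5, h6, h7,
    ⟨e2.trans ((Matrix.GeneralLinearGroup.toLin (n := Fin n) (R := ZMod 2)).trans
      (LinearMap.GeneralLinearGroup.generalLinearEquiv (ZMod 2) (Fin n → ZMod 2))).symm⟩⟩

end Cfsg.Agent.S5423
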