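import Cfsg.Statements.S5424
import Cfsg.Agent.H73.Heis4

set_option autoImplicit false
open Cfsg

namespace Cfsg.Agent.S5424

/-- Let G be the special linear group of degree n + 2 over the field with two elements, n ≥ 2, let z be a transvection, and let Q be the largest normal 2-subgroup of the centralizer C of z. Then Q is extraspecial of order 2^(2n+1) with an elementary abelian subgroup of order 2^(n+1) (plus type), Q is a large extraspecial 2-subgroup of G, and C is the split extension of Q by the special linear group of degree n over the field with two elements. -/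
theorem result (n : ℕ) (hn : 2 ≤ n) (z : Matrix.SpecialLinearGroup (Fin (n + 2)) (ZMod 2)) (hz : (z : Matrix (Fin (n + 2)) (Fin (n + 2)) (ZMod 2)) = Matrix.transvection 0 1 1) (Q : Subgroup (Matrix.SpecialLinearGroup (Fin (n + 2)) (ZMod 2))) (hQ : Q = (Cfsg.pCore 2 ↥(Subgroup.centralizer ({z} : Set (Matrix.SpecialLinearGroup (Fin (n + 2)) (ZMod 2))))).map (Subgroup.centralizer ({z} : Set (Matrix.SpecialLinearGroup (Fin (n + 2)) (ZMod 2)))).subtype) : Cfsg.IsExtraspecial 2 ↥Q ∧ Nat.card ↥Q = 2 ^ (2 * n + 1) ∧ (∃ E : Subgroup (Matrix.SpecialLinearGroup (Fin (n + 2)) (ZMod 2)), E ≤ Q ∧ Cfsg.IsElementaryAbelian 2 E ∧ Nat.card ↥E = 2 ^ (n + 1)) ∧ Cfsg.IsLargeExtraspecial Q ∧ ∃ K : Subgroup (Matrix.SpecialLinearGroup (Fin (n + 2)) (ZMod 2)), K ≤ Subgroup.centralizer ({z} : Set (Matrix.SpecialLinearGroup (Fin (n + 2)) (ZMod 2))) ∧ Q ⊓ K = ⊥ ∧ Q ⊔ K = Subgroup.centralizer ({z} : Set (Matrix.SpecialLinearGroup (Fin (n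 + 2)) (ZMod 2))) ∧ Nonempty (↥K ≃* Matrix.SpecialLinearGroup (Fin n) (ZMod 2)) := by
  classical
  let W := Fin n → Cfsg.Agent.H73.Heis.F
  let Θ : Matrix.SpecialLinearGroup (Fin (n + 2)) (ZMod 2) ≃*
      ((W × Cfsg.Agent.H73.Heis.F × Cfsg.Agent.H73.Heis.F) ≃ₗ[Cfsg.Agent.H73.Heis.F]
        (W × Cfsg.Agent.H73.Heis.F × Cfsg.Agent.H73.Heis.F)) :=
    (Cfsg.Agent.H73.Heis.slEquiv (n + 2)).trans (Cfsg.Agent.H73.Heis.conjE (Cfsg.Agent.H73.Heis.consE n))
  have hΘz : Θ z = Cfsg.Agent.H73.Heis.T 1 0 0 1 := by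
    apply LinearEquiv.ext
    rintro ⟨x, a, b⟩
    have h1 : Θ z (x, a, b) = (Cfsg.Agent.H73.Heis.consE n).symm
        ((z : Matrix (Fin (n + 2)) (Fin (n + 2)) (ZMod 2)).mulVec (Cfsg.Agent.H73.Heis.consE n (x, a, b))) := rfl
    rw [h1, hz, LinearEquiv.symm_apply_eq, Cfsg.Agent.H73.Heis.T_apply]
    rw [Matrix.transvection, Matrix.add_mulVec, Matrix.one_mulVec]
    ext i
    rw [Pi.add_apply, Matrix.single_mulVec]
    refine Fin.cases ?_ (fun i => ?_) i
    · rw [Function.update_self]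
      show a + 1 * b = a + (0 : W →ₗ[Cfsg.Agent.H73.Heis.F] Cfsg.Agent.H73.Heis.F) x + b * 1
      simp
    · rw [Function.update_of_ne (Fin.succ_ne_zero i)]
      refine Fin.cases ?_ (fun i => ?_) i
      · show b + 0 = b
        simp
      · show x i + 0 = (x + b • (0 : W)) i
        simp
  let D : Cfsg.Agent.H73.Heis.HD (Matrix.SpecialLinearGroup (Fin (n + 2)) (ZMod 2)) W :=
    Cfsg.Agent.H73.Heis.HDof Θ
  have hD : z = D.el 1 0 0 1 := by
    apply Θ.injective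
    rw [hΘz]
    exact (Θ.apply_symm_apply _).symm
  have hC : ∀ g ∈ Subgroup.centralizer ({z} : Set (Matrix.SpecialLinearGroup (Fin (n + 2)) (ZMod 2))),
      ∃ A μ s c, g = D.el A μ s c := by
    intro g hg
    rw [Subgroup.mem_centralizer_singleton_iff] at hg
    have h1 : Θ g * Cfsg.Agent.H73.Heis.T 1 0 0 1 = Cfsg.Agent.H73.Heis.T 1 0 0 1 * Θ g := by
      rw [← hΘz, ← map_mul, ← map_mul, hg]
    obtain ⟨A, μ, s, c, h⟩ := Cfsg.Agent.H73.Heis.exists_T (Θ g) h1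
    exact ⟨A, μ, s, c, by rw [← Θ.symm_apply_apply g, h]; rfl⟩
  have hW : Nat.card W = 2 ^ n := by
    rw [Nat.card_pi]; simp [Cfsg.Agent.H73.Heis.F]
  have hodd : ∀ K : Subgroup (Matrix.SpecialLinearGroup (Fin (n + 2)) (ZMod 2)), Odd (Nat.card K) →
      Q ≤ Subgroup.normalizer (K : Set _) → K = ⊥ := by
    intro K hK hQK
    have hQm := D.mem_Q hD hC hQ
    refine Cfsg.Agent.H73.Heis.hodd D hD hC hQm (D.cent_le hD hC hQ) (D.isP_Q hD hC hQ) ?_ Θ.toMonoidHom hΘz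
      Θ.injective hK hQK
    exact ⟨fun _ => 1, fun h => by
      have h2 := congrFun h ⟨0, by omega⟩
      exact (one_ne_zero : (1 : ZMod 2) ≠ 0) h2⟩
  obtain ⟨h1, h2, h3, h4, K, h5, h6, h7, ⟨e⟩⟩ := Cfsg.Agent.H73.Heis.main D hD hC (by omega : 1 ≤ n) hW Q hQ hodd
  exact ⟨h1, h2, h3, h4, K, h5, h6, h7, ⟨e.trans (Cfsg.Agent.H73.Heis.slEquiv n).symm⟩⟩

end Cfsg.Agent.S5424
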