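import Cfsg.Statements.S5430
import Cfsg.Agent.H94.LargeY

set_option autoImplicit false
open Cfsg

namespace Cfsg.Agent.S5430

open Cfsg.Agent.H94 Cfsg.Agent.H90
open scoped commutatorElement

/-- the three involutions of the four-group -/
abbrev T {G : Type*} [Group G] (z s : G) : Type _ := {x : G // x = z ∨ x = s ∨ x = z * s}

theorem card_T {G : Type*} [Group G] {z s : G} (hz1 : z ≠ 1) (hs1 : s ≠ 1) (hne : s ≠ z) : Nat.card (T z s) = 3 := by
  have h1 : Nat.card (T z s) = Set.ncard ({z, s, z * s} : Set G) := by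
    rw [← Nat.card_coe_set_eq]
    exact Nat.card_congr (Equiv.subtypeEquivRight (by intro x; simp))
  rw [h1, Set.ncard_eq_three]
  exact ⟨z, s, z * s, hne.symm, fun h => hs1 (mul_eq_left.mp h.symm), fun h => hz1 (mul_eq_right.mp h.symm), rfl⟩

theorem mem_T_iff {G : Type*} [Group G] {Q Q' : Subgroup G} {z s : G} (P : Pr Q Q' z s) (x : G) :
    (x = z ∨ x = s ∨ x = z * s) ↔ (x ∈ Subgroup.zpowers z ⊔ Subgroup.zpowers s ∧ x ≠ 1) := by
  rw [P.mem_V]
  constructor
  · intro h
    refine ⟨Or.inr h, ?_⟩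
    rcases h with rfl | rfl | rfl
    · exact P.h.ne_one
    · exact P.h'.ne_one
    · intro h
      have : z * (z * s) = z * 1 := by rw [h]
      rw [← mul_assoc, P.z2, one_mul, mul_one] at this
      exact P.hne this
  · rintro ⟨h1, h2⟩
    exact h1.resolve_left h2

/-- the conjugation action of the normalizer of `V` on its involutions -/
def act {G : Type*} [Group G] {Q Q' : Subgroup G} {z s : G} (P : Pr Q Q' z s) :
    ↥(Subgroup.normalizer ((Subgroup.zpowers z ⊔ Subgroup.zpowers s : Subgroup G) : Set G)) →* Equiv.Perm (T z s) where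
  toFun n :=
    { toFun := fun t => ⟨n * t * (n : G)⁻¹, by
        rw [mem_T_iff P]
        have ht := (mem_T_iff P t).mp t.2
        refine ⟨(Subgroup.mem_normalizer_iff.mp n.2 t).mp ht.1, fun h => ht.2 ?_⟩
        rw [mul_inv_eq_one] at h
        exact mul_eq_left.mp h⟩
      invFun := fun t => ⟨(n : G)⁻¹ * t * n, by
        rw [mem_T_iff P]
        have ht := (mem_T_iff P t).mp t.2
        refine ⟨(Subgroup.mem_normalizer_iff''.mp n.2 t).mp ht.1, fun h => ht.2 ?_⟩
        have h2 : (t : G) = n * ((n : G)⁻¹ * t * n) * (n : G)⁻¹ := by group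
        rw [h2, h]; group⟩
      left_inv := fun t => by ext; simp only; group
      right_inv := fun t => by ext; simp only; group }
  map_one' := by ext t; simp
  map_mul' a b := by
    ext t
    simp only [Subgroup.coe_mul, Equiv.coe_fn_mk, Equiv.Perm.mul_apply]
    group

theorem act_apply {G : Type*} [Group G] {Q Q' : Subgroup G} {z s : G} (P : Pr Q Q' z s) (n) (t : T z s) :
    ((act P n t : T z s) : G) = n * t * (n : G)⁻¹ := rfl

theorem act_eq_one {G : Type*} [Group G] {Q Q' : Subgroup G} {z s : G} (P : Pr Q Q' z s) (n) :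
    act P n = 1 ↔ (n : G) ∈ Pr.CV z s := by
  constructor
  · intro h
    rw [Pr.mem_CV]
    have h1 := congrArg Subtype.val (DFunLike.congr_fun h ⟨z, Or.inl rfl⟩)
    have h2 := congrArg Subtype.val (DFunLike.congr_fun h ⟨s, Or.inr (Or.inl rfl)⟩)
    rw [act_apply] at h1 h2
    exact ⟨mul_inv_eq_iff_eq_mul.mp h1, mul_inv_eq_iff_eq_mul.mp h2⟩
  · intro h
    rw [Pr.mem_CV] at h
    ext t
    rw [act_apply, Equiv.Perm.one_apply, mul_inv_eq_iff_eq_mul]
    rcases t with ⟨t, rfl | rfl | rfl⟩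
    · exact h.1
    · exact h.2
    · simp only
      rw [← mul_assoc, h.1, mul_assoc, h.2, mul_assoc]

/-- Let Q be a large extraspecial 2-subgroup of the finite group G (extraspecial; centralizer equal to its centre; normal in the centralizer of its centre; normalizing no non-trivial subgroup of odd order) with centre generated by z, an involution, of width w ≥ 2 (order 2^(2w+1)); let g be an element outside the centralizer H of z with g z g⁻¹ in Q; write V for the subgroup generated by z and g z g⁻¹, X for the subgroup generated by Q and g Q g⁻¹, R for the subgroup generated by the centralizer of z in g Q g⁻¹ and the centralizer of g z g⁻¹ in Q, and E for the intersection of Q and g Q g⁻¹. Then R is the centralizer of V in X and is the largest normal 2-subgroup of X, and X/R is isomorphic to the symmetric group of degree 3; moreover the normalizer of V is the product of X and the centralizer of V in H, X is normal in it, and modulo R it is the direct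 product of X/R and of the centralizer of V in H modulo R. -/
theorem result {G : Type*} [Group G] [Finite G] (Q : Subgroup G) (hQ : Cfsg.IsLargeExtraspecial Q) (z : G) (hz : ((Subgroup.center ↥Q).map Q.subtype) = Subgroup.zpowers z) (hz2 : orderOf z = 2) (w : ℕ) (hw : 2 ≤ w) (hcard : Nat.card ↥Q = 2 ^ (2 * w + 1)) (g : G) (hgH : g ∉ Subgroup.centralizer ({z} : Set G)) (hgQ : g * z * g⁻¹ ∈ Q) (V X R E : Subgroup G) (hV : V = Subgroup.closure ({z, g * z * g⁻¹} : Set G)) (hX : X = Q ⊔ (Q).map (MulAut.conj g).toMonoidHom) (hR : R = ((Q).map (MulAut.conj g).toMonoidHom ⊓ Subgroup.centralizer ({z} : Set G)) ⊔ (Q ⊓ Subgroup.centralizer ({g * z * g⁻¹} : Set G))) (hE : E = Q ⊓ (Q).map (MulAut.conj g).toMonoidHom) : R = X ⊓ Subgroup.centralizer (V : Set G) ∧ R = (Cfsg.pCore 2 ↥X).map X.subtype ∧ (∃ h : (R.subgroupOf X).Normal, Nonempty (↥X ⧸ R.subgroupOf X ≃* Equiv.Perm (Fin 3))) ∧ Subgroup.normalizer (V : Set G) = X ⊔ (Subgroup.centralizer ({z} : Set G) ⊓ Subgroup.centralizer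 (V : Set G)) ∧ (∀ y ∈ Subgroup.normalizer (V : Set G), ∀ x ∈ X, y * x * y⁻¹ ∈ X) ∧ R ≤ Subgroup.centralizer ({z} : Set G) ⊓ Subgroup.centralizer (V : Set G) ∧ (∀ x ∈ X, ∀ c ∈ Subgroup.centralizer ({z} : Set G) ⊓ Subgroup.centralizer (V : Set G), x * c * x⁻¹ * c⁻¹ ∈ R) ∧ X ⊓ (Subgroup.centralizer ({z} : Set G) ⊓ Subgroup.centralizer (V : Set G)) = R := by
  have P := Pr.mk' Q hQ z hz w hw hcard g hgH hgQ
  have hQ'def : Q.map (MulAut.conj g).toMonoidHom = Q.map (MulAut.conj g).toMonoidHom := rfl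
  set Q' := Q.map (MulAut.conj g).toMonoidHom with hQ'
  set s := g * z * g⁻¹ with hs
  have hV' : V = Subgroup.zpowers z ⊔ Subgroup.zpowers s := by
    rw [hV, Set.insert_eq, Subgroup.closure_union, ← Subgroup.zpowers_eq_closure, ← Subgroup.zpowers_eq_closure]
  have hR' : R = Pr.R Q Q' z s := by
    rw [hR, Pr.R, Pr.A, Pr.A, sup_comm]
  have hX' : X = Pr.X Q Q' := hX
  have hCV : Subgroup.centralizer (V : Set G) = Pr.CV z s := by
    ext x
    rw [Pr.mem_CV, Subgroup.mem_centralizer_iff]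
    constructor
    · intro h
      refine ⟨(h z ?_).symm, (h s ?_).symm⟩
      · rw [SetLike.mem_coe, hV', P.mem_V]; tauto
      · rw [SetLike.mem_coe, hV', P.mem_V]; tauto
    · rintro ⟨h1, h2⟩ v hv
      rw [SetLike.mem_coe, hV', P.mem_V] at hv
      rcases hv with rfl | rfl | rfl | rfl
      · simp
      · exact h1.symm
      · exact h2.symm
      · rw [mul_assoc, ← h2, ← mul_assoc, ← h1, mul_assoc]
  have hCz : Subgroup.centralizer ({z} : Set G) ⊓ Pr.CV z s = Pr.CV z s := by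
    rw [inf_eq_right, Pr.CV]; exact inf_le_left
  obtain ⟨q, hq, hqA, hqs⟩ := P.exists_q
  obtain ⟨v, hv, hvB, hvz⟩ := P.symm.exists_q
  obtain ⟨hqv3, hle⟩ := P.main hQ' hs hq hqA hv hvB
  have hRX : Pr.R Q Q' z s = Pr.X Q Q' ⊓ Pr.CV z s :=
    le_antisymm (le_inf P.R_le_X P.R_le_CV) hle
  have hXN : Pr.X Q Q' ≤ Subgroup.normalizer ((Subgroup.zpowers z ⊔ Subgroup.zpowers s : Subgroup G) : Set G) := by
    have hVE : Subgroup.zpowers z ⊔ Subgroup.zpowers s ≤ Q ⊓ Q' := by
      rw [sup_le_iff, Subgroup.zpowers_le, Subgroup.zpowers_le]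
      exact ⟨P.z_mem_E, P.s_mem_E⟩
    have key : ∀ x ∈ Pr.X Q Q', ∀ v ∈ Subgroup.zpowers z ⊔ Subgroup.zpowers s, x * v * x⁻¹ ∈ Subgroup.zpowers z ⊔ Subgroup.zpowers s := by
      intro x hx v hv
      have h1 := mul_mem (P.comm_E_mem_V hx (hVE hv)) hv
      simpa using h1
    intro x hx
    rw [Subgroup.mem_normalizer_iff]
    intro v
    refine ⟨key x hx v, fun h => ?_⟩
    have := key x⁻¹ (inv_mem hx) _ h
    convert this using 1; group
  have hqX : q ∈ Pr.X Q Q' := Subgroup.mem_sup_left hq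
  have hvX : v ∈ Pr.X Q Q' := Subgroup.mem_sup_right hv
  have hz1 := P.h.ne_one
  have hs1 := P.h'.ne_one
  have hfin : Finite (T z s) := inferInstance
  let e : T z s ≃ Fin 3 := Finite.equivFinOfCardEq (card_T hz1 hs1 P.hne)
  let φ : ↥(Subgroup.normalizer ((Subgroup.zpowers z ⊔ Subgroup.zpowers s : Subgroup G) : Set G)) →* Equiv.Perm (Fin 3) :=
    (Equiv.permCongrHom e).toMonoidHom.comp (act P)
  let ψ : ↥(Pr.X Q Q') →* Equiv.Perm (Fin 3) := φ.comp (Subgroup.inclusion hXN)
  have hφ : ∀ n, φ n = 1 ↔ (n : G) ∈ Pr.CV z s := by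
    intro n
    rw [← act_eq_one P n]
    change (Equiv.permCongrHom e) (act P n) = 1 ↔ _
    rw [MulEquiv.map_eq_one_iff]
  have hψ : ∀ x, ψ x = 1 ↔ (x : G) ∈ Pr.R Q Q' z s := by
    intro x
    change φ _ = 1 ↔ _
    rw [hφ, hRX, Subgroup.mem_inf]
    exact ⟨fun h => ⟨x.2, h⟩, fun h => h.2⟩
  have hker : ψ.ker = (Pr.R Q Q' z s).subgroupOf (Pr.X Q Q') := by
    ext x
    rw [MonoidHom.mem_ker, hψ, Subgroup.mem_subgroupOf]
  have hqv : q * v ∉ Pr.CV z s := by
    intro h
    have h1 := (Pr.mem_CV.mp h).1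
    have h2 : (q * v) * z * (q * v)⁻¹ = z := by rw [h1]; group
    have h3 : (q * v) * z * (q * v)⁻¹ = s := by
      calc (q * v) * z * (q * v)⁻¹ = q * (v * z * v⁻¹) * q⁻¹ := by group
        _ = (q * z) * q⁻¹ * (q * s * q⁻¹) := by rw [hvz]; group
        _ = z * s * z := by rw [P.h.central q hq, hqs]; group
        _ = s := by rw [← P.comm, mul_assoc, P.z2, mul_one]
    exact P.hne (h3.symm.trans h2)
  have hsurj : Function.Surjective ψ := by
    have h1 : orderOf (ψ ⟨q, hqX⟩) = 2 := by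
      rw [orderOf_eq_prime_iff]
      refine ⟨?_, ?_⟩
      · rw [← map_pow, hψ]
        change q ^ 2 ∈ _
        rw [pow_two]; exact P.sq_mem_R hq
      · rw [Ne, hψ]
        intro h
        exact hqA (P.mem_A_of hq (P.R_le_CV h))
    have h2 : orderOf (ψ ⟨q * v, mul_mem hqX hvX⟩) = 3 := by
      haveI : Fact (Nat.Prime 3) := ⟨Nat.prime_three⟩
      rw [orderOf_eq_prime_iff]
      refine ⟨?_, ?_⟩
      · rw [← map_pow, hψ]; exact hqv3
      · rw [Ne, hψ]
        intro h
        exact hqv (P.R_le_CV h)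
    rw [← MonoidHom.range_eq_top]
    apply Subgroup.eq_top_of_card_eq
    have h3 : 2 ∣ Nat.card ψ.range := by
      have := orderOf_dvd_natCard (⟨ψ ⟨q, hqX⟩, ⟨_, rfl⟩⟩ : ψ.range)
      rwa [← Subgroup.orderOf_coe, h1] at this
    have h4 : 3 ∣ Nat.card ψ.range := by
      have := orderOf_dvd_natCard (⟨ψ ⟨q * v, mul_mem hqX hvX⟩, ⟨_, rfl⟩⟩ : ψ.range)
      rwa [← Subgroup.orderOf_coe, h2] at this
    have h5 : Nat.card (Equiv.Perm (Fin 3)) = 6 := by
      rw [Nat.card_eq_fintype_card, Fintype.card_perm, Fintype.card_fin]; rfl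
    have h6 : Nat.card ψ.range ∣ 6 := by
      rw [← h5]; exact Subgroup.card_subgroup_dvd_card _
    have h7 : 6 ∣ Nat.card ψ.range := Nat.Coprime.mul_dvd_of_dvd_of_dvd (by norm_num : Nat.Coprime 2 3) h3 h4
    rw [h5]
    exact Nat.dvd_antisymm h6 h7
  -- conjugates of Q by elements moving z inside V
  have hQconj : ∀ x : G, (x * z * x⁻¹ = z ∨ x * z * x⁻¹ = s ∨ x * z * x⁻¹ = z * s) → ∀ y ∈ Q, x * y * x⁻¹ ∈ Pr.X Q Q' := by
    intro x hx y hy
    rcases hx with h | h | h
    · exact Subgroup.mem_sup_left (P.h.norm x (mul_inv_eq_iff_eq_mul.mp h) y hy)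
    · exact Subgroup.mem_sup_right (P.h.conj_mem g x h hy)
    · have h1 := P.h.conj_mem v x (by rw [h, hvz]) hy
      obtain ⟨u, hu, hu'⟩ := h1
      have hu2 : v * u * v⁻¹ = x * y * x⁻¹ := hu'
      rw [← hu2]
      exact mul_mem (mul_mem hvX (Subgroup.mem_sup_left hu)) (inv_mem hvX)
  have hCVle : Pr.CV z s ≤ Subgroup.normalizer ((Subgroup.zpowers z ⊔ Subgroup.zpowers s : Subgroup G) : Set G) := by
    rw [← hCV, ← hV']
    exact Subgroup.centralizer_le_normalizer _
  rw [hCV, hCz, hR', hX', hV']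
  have hNR := P.normal_R
  refine ⟨hRX, ?_, ⟨P.normal_R, ?_⟩, ?_, ?_, P.R_le_CV, ?_, hRX.symm⟩
  · -- O_2(X) = R
    apply le_antisymm
    · intro r hr
      refine ⟨⟨r, P.R_le_X hr⟩, ?_, rfl⟩
      have h1 : (Pr.R Q Q' z s).subgroupOf (Pr.X Q Q') ≤ pCore 2 (Pr.X Q Q') :=
        Solv.le_pCore P.normal_R (P.isPGroup_R.comap_of_injective _ (Subgroup.subtype_injective _))
      exact h1 hr
    · rintro _ ⟨x, hx, rfl⟩
      apply (hψ x).mp
      apply pCore_two_perm3
      exact Solv.map_pCore_le 2 ψ hsurj ⟨x, hx, rfl⟩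
  · exact ⟨(QuotientGroup.quotientMulEquivOfEq hker.symm).trans (QuotientGroup.quotientKerEquivOfSurjective ψ hsurj)⟩
  · apply le_antisymm
    · intro n hn
      obtain ⟨x, hx⟩ := hsurj (φ ⟨n, hn⟩)
      have h1 : (x : G)⁻¹ * n ∈ Pr.CV z s := by
        have h2 : φ ((Subgroup.inclusion hXN x)⁻¹ * ⟨n, hn⟩) = 1 := by
          rw [map_mul, map_inv]
          change (ψ x)⁻¹ * _ = 1
          rw [hx]; group
        exact (hφ _).mp h2
      have h3 : n = x * ((x : G)⁻¹ * n) := by group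
      rw [h3]
      exact Subgroup.mul_mem_sup x.2 h1
    · exact sup_le hXN hCVle
  · intro y hy x hx
    have hyz : y * z * y⁻¹ = z ∨ y * z * y⁻¹ = s ∨ y * z * y⁻¹ = z * s := by
      rw [mem_T_iff P]
      have h0 := (mem_T_iff P z).mp (Or.inl rfl)
      refine ⟨(Subgroup.mem_normalizer_iff.mp hy z).mp h0.1, fun h => hz1 ?_⟩
      rw [mul_inv_eq_one] at h
      exact mul_eq_left.mp h
    have hys : y * s * y⁻¹ = z ∨ y * s * y⁻¹ = s ∨ y * s * y⁻¹ = z * s := by
      rw [mem_T_iff P]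
      have h0 := (mem_T_iff P s).mp (Or.inr (Or.inl rfl))
      refine ⟨(Subgroup.mem_normalizer_iff.mp hy s).mp h0.1, fun h => hs1 ?_⟩
      rw [mul_inv_eq_one] at h
      exact mul_eq_left.mp h
    have hc : Pr.X Q Q' ≤ (Pr.X Q Q').comap (MulAut.conj y).toMonoidHom := by
      conv_lhs => rw [Pr.X]
      apply sup_le
      · intro u hu
        exact hQconj y hyz u hu
      · intro u hu
        rw [hQ'] at hu
        obtain ⟨u', hu', rfl⟩ := hu
        have h1 := hQconj (y * g) (by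
          have e1 : y * g * z * (y * g)⁻¹ = y * s * y⁻¹ := by rw [hs]; group
          rw [e1]; exact hys) u' hu'
        have e2 : y * g * u' * (y * g)⁻¹ = y * (g * u' * g⁻¹) * y⁻¹ := by group
        rw [e2] at h1
        exact h1
    exact hc hx
  · -- [x, c] ∈ R
    intro x hx c hc
    have hQc : ∀ q ∈ Q, q * c * q⁻¹ * c⁻¹ ∈ Pr.R Q Q' z s := by
      intro q hq
      apply Pr.A_le_R
      apply P.mem_A_of
      · have h1 := P.h.norm c (Pr.mem_CV.mp hc).1 _ (Q.inv_mem hq)
        have h2 := Q.mul_mem hq h1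
        have e1 : q * c * q⁻¹ * c⁻¹ = q * (c * q⁻¹ * c⁻¹) := by group
        rw [e1]; exact h2
      · exact mul_mem (P.conj_CV hq hc) (inv_mem hc)
    have hQ'c : ∀ q ∈ Q', q * c * q⁻¹ * c⁻¹ ∈ Pr.R Q Q' z s := by
      intro q hq
      apply Pr.B_le_R
      apply P.symm.mem_A_of
      · have h1 := P.h'.norm c (Pr.mem_CV.mp hc).2 _ (Q'.inv_mem hq)
        have h2 := Q'.mul_mem hq h1
        have e1 : q * c * q⁻¹ * c⁻¹ = q * (c * q⁻¹ * c⁻¹) := by group
        rw [e1]; exact h2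
      · rw [Pr.CV_symm] at hc
        exact mul_mem (P.symm.conj_CV hq hc) (inv_mem hc)
    have hX2 : Pr.X Q Q' = Subgroup.closure ((Q : Set G) ∪ (Q' : Set G)) := by
      rw [Pr.X, Subgroup.closure_union, Subgroup.closure_eq, Subgroup.closure_eq]
    have hx' := hx
    rw [hX2] at hx'
    have hstep : ∀ x y : G, x ∈ Pr.X Q Q' → x * c * x⁻¹ * c⁻¹ ∈ Pr.R Q Q' z s → y ∈ (Q : Set G) ∪ (Q' : Set G) →
        (x * y) * c * (x * y)⁻¹ * c⁻¹ ∈ Pr.R Q Q' z s := by
      intro x y hxX ih hy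
      have e1 : (x * y) * c * (x * y)⁻¹ * c⁻¹ = (x * (y * c * y⁻¹ * c⁻¹) * x⁻¹) * (x * c * x⁻¹ * c⁻¹) := by group
      rw [e1]
      refine mul_mem (P.conj_R hxX ?_) ih
      rcases hy with hy | hy
      · exact hQc y hy
      · exact hQ'c y hy
    clear hx
    induction hx' using Subgroup.closure_induction_right with
    | one => simp
    | mul_right x hx y hy ih => exact hstep x y (by rw [hX2]; exact hx) ih hy
    | mul_inv_cancel x hx y hy ih =>
      refine hstep x y⁻¹ (by rw [hX2]; exact hx) ih ?_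
      rcases hy with hy | hy
      · exact Or.inl (Q.inv_mem hy)
      · exact Or.inr (Q'.inv_mem hy)

end Cfsg.Agent.S5430
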