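import Cfsg.Statements.S5431
import Cfsg.Agent.H94.LargeX

set_option autoImplicit false
open Cfsg

namespace Cfsg.Agent.S5431

open Cfsg.Agent.H94 Cfsg.Agent.H90
open scoped commutatorElement

/-- Let Q be a large extraspecial 2-subgroup of the finite group G (extraspecial; centralizer equal to its centre; normal in the centralizer of its centre; normalizing no non-trivial subgroup of odd order) with centre generated by z, an involution, of width w ≥ 2 (order 2^(2w+1)); let g be an element outside the centralizer H of z with g z g⁻¹ in Q; write V for the subgroup generated by z and g z g⁻¹, X for the subgroup generated by Q and g Q g⁻¹, R for the subgroup generated by the centralizer of z in g Q g⁻¹ and the centralizer of g z g⁻¹ in Q, and E for the intersection of Q and g Q g⁻¹. Then V is the centre of R, E lies in the second centre of R, R is nilpotent of class at most 3, E and R/E are elementary abelian, R/E is the direct product of the images of the centralizer of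 g z g⁻¹ in Q and of the centralizer of z in g Q g⁻¹ (R is their product and they meet in E), and the commutator subgroup of X and E lies in V. -/
theorem result {G : Type*} [Group G] [Finite G] (Q : Subgroup G) (hQ : Cfsg.IsLargeExtraspecial Q) (z : G) (hz : ((Subgroup.center ↥Q).map Q.subtype) = Subgroup.zpowers z) (hz2 : orderOf z = 2) (w : ℕ) (hw : 2 ≤ w) (hcard : Nat.card ↥Q = 2 ^ (2 * w + 1)) (g : G) (hgH : g ∉ Subgroup.centralizer ({z} : Set G)) (hgQ : g * z * g⁻¹ ∈ Q) (V X R E : Subgroup G) (hV : V = Subgroup.closure ({z, g * z * g⁻¹} : Set G)) (hX : X = Q ⊔ (Q).map (MulAut.conj g).toMonoidHom) (hR : R = ((Q).map (MulAut.conj g).toMonoidHom ⊓ Subgroup.centralizer ({z} : Set G)) ⊔ (Q ⊓ Subgroup.centralizer ({g * z * g⁻¹} : Set G))) (hE : E = Q ⊓ (Q).map (MulAut.conj g).toMonoidHom) : (Subgroup.center ↥R).map R.subtype = V ∧ E ≤ (Subgroup.upperCentralSeries ↥R 2).map R.subtype ∧ Subgroup.upperCentralSeries ↥R 3 = ⊤ ∧ Cfsg.IsElementaryAbelian 2 E ∧ (∀ x ∈ R, ∀ y ∈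 R, x * y * x⁻¹ * y⁻¹ ∈ E ∧ x ^ 2 ∈ E) ∧ ((Q).map (MulAut.conj g).toMonoidHom ⊓ Subgroup.centralizer ({z} : Set G)) ⊓ (Q ⊓ Subgroup.centralizer ({g * z * g⁻¹} : Set G)) = E ∧ ⁅X, E⁆ ≤ V := by
  have P := Pr.mk' Q hQ z hz w hw hcard g hgH hgQ
  set Q' := Q.map (MulAut.conj g).toMonoidHom with hQ'
  set s := g * z * g⁻¹ with hs
  have hV' : V = Subgroup.zpowers z ⊔ Subgroup.zpowers s := by
    rw [hV, Set.insert_eq, Subgroup.closure_union, ← Subgroup.zpowers_eq_closure, ← Subgroup.zpowers_eq_closure]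
  have hR' : R = Pr.R Q Q' z s := by
    rw [hR, Pr.R, Pr.A, Pr.A, sup_comm]
  have hX' : X = Pr.X Q Q' := hX
  have hVE : V ≤ E := by
    rw [hV', hE, sup_le_iff, Subgroup.zpowers_le, Subgroup.zpowers_le]
    exact ⟨P.z_mem_E, P.s_mem_E⟩
  have hER : E ≤ R := by
    rw [hE, hR']
    intro e he
    exact Pr.A_le_R (P.E_le_A he)
  have hVcomm : ∀ v ∈ V, ∀ r ∈ R, v * r = r * v := by
    intro v hv r hr
    rw [hR'] at hr
    have h1 := Pr.mem_CV.mp (P.R_le_CV hr)
    rw [hV', P.mem_V] at hv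
    rcases hv with rfl | rfl | rfl | rfl
    · simp
    · exact h1.1.symm
    · exact h1.2.symm
    · rw [mul_assoc, ← h1.2, ← mul_assoc, ← h1.1, mul_assoc]
  have hcen : ∀ r : R, (r : G) ∈ V → r ∈ Subgroup.center R := by
    intro r hr
    rw [Subgroup.mem_center_iff]
    intro t
    ext
    exact (hVcomm r hr t t.2).symm
  have hE2 : ∀ r : R, (r : G) ∈ E → r ∈ Subgroup.upperCentralSeries R 2 := by
    intro r hr
    rw [Subgroup.mem_upperCentralSeries_succ_iff]
    intro y
    rw [Subgroup.upperCentralSeries_one]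
    apply hcen
    have hy := y.2
    rw [hE] at hr
    have hy' : (y : G) ∈ Pr.X Q Q' := by
      have h0 : (y : G) ∈ Pr.R Q Q' z s := by rw [← hR']; exact y.2
      refine (?_ : Pr.R Q Q' z s ≤ Pr.X Q Q') h0
      exact sup_le (le_trans inf_le_left le_sup_left) (le_trans inf_le_left le_sup_right)
    have h1 := P.comm_E_mem_V hy' hr
    rw [← hV'] at h1
    have h2 : ((⁅r, y⁆ : R) : G) = ((y : G) * r * (y : G)⁻¹ * (r : G)⁻¹)⁻¹ := by
      rw [commutatorElement_def]
      simp only [Subgroup.coe_mul, Subgroup.coe_inv]; group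
    rw [h2]
    exact inv_mem h1
  refine ⟨?_, ?_, ?_, ?_, ?_, ?_, ?_⟩
  · apply le_antisymm
    · rintro _ ⟨x, hx, rfl⟩
      have hxc : ∀ y : R, y * x = x * y := fun y => Subgroup.mem_center_iff.mp hx y
      have hxR : (x : G) ∈ Pr.R Q Q' z s := by rw [← hR']; exact x.2
      rw [hV']
      apply P.mem_V_of_comm (Pr.mem_CV.mp (P.R_le_CV hxR)).1
      intro a ha
      have haR : a ∈ R := by rw [hR']; exact Pr.A_le_R ha
      exact congrArg Subtype.val (hxc ⟨a, haR⟩).symm
    · intro v hv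
      exact ⟨⟨v, hER (hVE hv)⟩, hcen _ hv, rfl⟩
  · intro e he
    exact ⟨⟨e, hER he⟩, hE2 _ he, rfl⟩
  · rw [Subgroup.eq_top_iff']
    intro r
    rw [Subgroup.mem_upperCentralSeries_succ_iff]
    intro y
    apply hE2
    have h1 : (r : G) ∈ Pr.R Q Q' z s := by rw [← hR']; exact r.2
    have h2 : (y : G) ∈ Pr.R Q Q' z s := by rw [← hR']; exact y.2
    rw [hE]
    exact P.comm_R_mem_E h1 h2
  · refine ⟨⟨⟨fun a b => ?_⟩⟩, fun a ha => ?_⟩
    · ext
      have ha : (a : G) ∈ Q ⊓ Q' := hE ▸ a.2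
      have hb : (b : G) ∈ Q ⊓ Q' := hE ▸ b.2
      exact P.E_comm ha hb
    · rw [hE] at ha
      rw [pow_two]
      exact P.E_sq ha
  · intro x hx y hy
    rw [hR'] at hx hy
    rw [hE]
    exact ⟨P.comm_R_mem_E hx hy, P.sq_R_mem_E hx⟩
  · rw [hE]
    apply le_antisymm
    · exact fun x hx => ⟨hx.2.1, hx.1.1⟩
    · exact fun x hx => ⟨P.E_le_B hx, P.E_le_A hx⟩
  · rw [Subgroup.commutator_le]
    intro x hx e he
    rw [hE] at he
    rw [hX'] at hx
    rw [hV']
    exact P.comm_E_mem_V hx he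

end Cfsg.Agent.S5431
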