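import Cfsg.Statements.S5432
import Cfsg.Agent.H73.ExOut

set_option autoImplicit false
open Cfsg

namespace Cfsg.Agent.S5432

/-- Let E be an extraspecial 2-group of order 2^(2n+1), n ≥ 1. If E contains an elementary abelian subgroup of order 2^(n+1) (plus type), then its outer automorphism group is isomorphic to the full isometry group of the hyperbolic quadratic form in dimension 2n over the field with two elements; otherwise (minus type) it is isomorphic to the full isometry group of the elliptic quadratic form in dimension 2n over that field. -/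
theorem result {E : Type*} [Group E] [Finite E] (hE : Cfsg.IsExtraspecial 2 E) (n : ℕ) (hn : 1 ≤ n) (hcard : Nat.card E = 2 ^ (2 * n + 1)) : ((∃ A : Subgroup E, Cfsg.IsElementaryAbelian 2 A ∧ Nat.card ↥A = 2 ^ (n + 1)) → Nonempty (Cfsg.Out E ≃* Cfsg.isometryGroup (ZMod 2) (Cfsg.quadFormPlus n (ZMod 2)))) ∧ ((¬ ∃ A : Subgroup E, Cfsg.IsElementaryAbelian 2 A ∧ Nat.card ↥A = 2 ^ (n + 1)) → Nonempty (Cfsg.Out E ≃* Cfsg.isometryGroup (ZMod 2) (Cfsg.quadFormMinus (n - 1) (ZMod 2) 1 1))) := by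
  have h2 : Fact (Nat.Prime 2) := ⟨Nat.prime_two⟩
  have hG := Extra.ges_of_isExtraspecial hE
  constructor
  · rintro ⟨A, ⟨hA, hA2⟩, hAc⟩
    exact H73.ExOut.out_plus hE n hcard (H73.ExSp2.sq_of_rank hG hcard A hA hA2 hAc)
  · intro hno
    obtain ⟨m, rfl⟩ : ∃ m, n = m + 1 := ⟨n - 1, by omega⟩
    have hs : H73.ExSp2.sq E + 2 ^ (m + 1) = 2 ^ (2 * (m + 1)) := by
      rcases H73.ExSp2.sq_cases (m + 1) hG hcard with h | h
      · exfalso
        obtain ⟨A, hA, hA2, hAc⟩ := (H73.ExSp2.exists_rank (m + 1) hG hcard).1 h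
        exact hno ⟨A, ⟨hA, hA2⟩, le_antisymm (H73.ExSp2.rank_le hG hcard A hA) hAc⟩
      · exact h
    exact H73.ExOut.out_minus hE m hcard hs

end Cfsg.Agent.S5432
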