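import Cfsg.Statements.S5434
import Cfsg.Agent.Cop.Basic
import Cfsg.Agent.Extra.Basic

set_option autoImplicit false
open Cfsg

namespace Cfsg.Agent.S5434

open scoped commutatorElement

theorem extra_of {G : Type*} [Group G] [Finite G] {S Z : Subgroup G} (hZc : Nat.card Z = 2) (hZS : Z ≤ S)
    (hZ : ∀ x ∈ Z, ∀ y ∈ S, x * y = y * x) (hcen : ∀ x ∈ S, (∀ y ∈ S, x * y = y * x) → x ∈ Z)
    (hcomm : ∀ x ∈ S, ∀ y ∈ S, ⁅x, y⁆ ∈ Z) (hnc : ¬ ∀ x ∈ S, ∀ y ∈ S, x * y = y * x) :
    Cfsg.IsExtraspecial 2 ↥S := by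
  have hc : Subgroup.center S = Z.subgroupOf S := by
    ext x
    rw [Subgroup.mem_center_iff, Subgroup.mem_subgroupOf]
    constructor
    · intro h
      exact hcen x x.2 (fun y hy => (congrArg Subtype.val (h ⟨y, hy⟩)).symm)
    · intro h y
      exact Subtype.ext (hZ x h y y.2).symm
  rw [Cfsg.Agent.Extra.isExtraspecial_iff]
  refine ⟨⟨?_, ?_⟩, ?_⟩
  · rw [hc, Nat.card_congr (Subgroup.subgroupOfEquivOfLe hZS).toEquiv, hZc]
  · unfold Cfsg.Agent.Extra.ClassTwo
    rw [commutator_def, Subgroup.commutator_le]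
    intro x _ y _
    rw [hc, Subgroup.mem_subgroupOf]
    exact hcomm x x.2 y y.2
  · intro htop
    apply hnc
    intro x hx y hy
    have h1 : (⟨x, hx⟩ : S) ∈ Subgroup.center S := by rw [htop]; trivial
    exact (congrArg Subtype.val (Subgroup.mem_center_iff.mp h1 ⟨y, hy⟩)).symm

/-- Let Q be a large extraspecial 2-subgroup of the finite group G (extraspecial; centralizer equal to its centre; normal in the centralizer of its centre; normalizing no non-trivial subgroup of odd order), and A a non-trivial subgroup of odd order of the normalizer of Q. Then Q is the central product of the centralizer of A in Q and the commutator subgroup [Q, A] (they generate Q and commute elementwise), [Q, A] is extraspecial, and the centralizer of A in Q is either the centre of Q or extraspecial. -/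
theorem result {G : Type*} [Group G] [Finite G] (Q : Subgroup G) (hQ : Cfsg.IsLargeExtraspecial Q) (A : Subgroup G) (hA : A ≤ Subgroup.normalizer (Q : Set G)) (hAodd : Odd (Nat.card ↥A)) (hA1 : A ≠ ⊥) : (Q ⊓ Subgroup.centralizer (A : Set G)) ⊔ ⁅Q, A⁆ = Q ∧ (∀ x ∈ Q ⊓ Subgroup.centralizer (A : Set G), ∀ y ∈ ⁅Q, A⁆, x * y = y * x) ∧ Cfsg.IsExtraspecial 2 ↥⁅Q, A⁆ ∧ (Q ⊓ Subgroup.centralizer (A : Set G) = ((Subgroup.center ↥Q).map Q.subtype) ∨ Cfsg.IsExtraspecial 2 ↥(Q ⊓ Subgroup.centralizer (A : Set G))) := by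
  classical
  obtain ⟨hE, hCQ, -, -⟩ := hQ
  obtain ⟨Z, hZd⟩ : ∃ Z, Z = (Subgroup.center ↥Q).map Q.subtype := ⟨_, rfl⟩
  rw [← hZd] at hCQ ⊢
  have hZmem : ∀ x, x ∈ Z ↔ x ∈ Q ∧ ∀ y ∈ Q, x * y = y * x := by
    intro x
    rw [hZd]
    constructor
    · rintro ⟨y, hy, rfl⟩
      refine ⟨y.2, fun w hw => ?_⟩
      exact (congrArg Subtype.val (Subgroup.mem_center_iff.mp hy ⟨w, hw⟩)).symm
    · rintro ⟨h1, h2⟩
      refine ⟨⟨x, h1⟩, ?_, rfl⟩
      rw [SetLike.mem_coe, Subgroup.mem_center_iff]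
      intro w
      exact Subtype.ext (h2 w w.2).symm
  have hZc : Nat.card Z = 2 := by
    rw [hZd, Subgroup.card_map_of_injective Q.subtype_injective]
    exact hE.2
  have hZQ : Z ≤ Q := fun x hx => ((hZmem x).mp hx).1
  have hQp : IsPGroup 2 Q := hE.1.1
  -- two elements
  have hZ2 : ∀ x ∈ Z, ∀ y ∈ Z, x ≠ 1 → y ≠ 1 → x = y := by
    intro x hx y hy hx1 hy1
    by_contra hne
    have h1 : ({1, x, y} : Finset G) ⊆ (Set.toFinite (Z : Set G)).toFinset := by
      intro w hw
      simp only [Finset.mem_insert, Finset.mem_singleton] at hw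
      rw [Set.Finite.mem_toFinset, SetLike.mem_coe]
      rcases hw with rfl | rfl | rfl
      · exact one_mem _
      · exact hx
      · exact hy
    have h2 := Finset.card_le_card h1
    have h3 : (Set.toFinite (Z : Set G)).toFinset.card = 2 := by
      rw [← Set.ncard_eq_toFinset_card]
      exact hZc
    rw [h3] at h2
    have h4 : ({1, x, y} : Finset G).card = 3 := by
      rw [Finset.card_insert_of_notMem, Finset.card_pair hne]
      simp only [Finset.mem_insert, Finset.mem_singleton, not_or]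
      exact ⟨hx1.symm, hy1.symm⟩
    omega
  have hcomm : ∀ x ∈ Q, ∀ y ∈ Q, ⁅x, y⁆ ∈ Z := by
    intro x hx y hy
    have h1 : ⁅(⟨x, hx⟩ : Q), (⟨y, hy⟩ : Q)⁆ ∈ commutator Q :=
      Subgroup.commutator_mem_commutator (Subgroup.mem_top _) (Subgroup.mem_top _)
    rw [hE.1.2.2] at h1
    rw [hZd]
    exact ⟨_, h1, rfl⟩
  have hAZ : ∀ a ∈ A, ∀ x ∈ Z, a * x = x * a := by
    intro a ha x hx
    have h1 : a * x * a⁻¹ ∈ Z := by
      rw [hZmem]
      have hQ' := hA ha
      rw [Subgroup.mem_normalizer_iff] at hQ'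
      obtain ⟨hxQ, hxc⟩ := (hZmem x).mp hx
      refine ⟨(hQ' x).mp hxQ, ?_⟩
      intro y hy
      have h2 : a⁻¹ * y * a ∈ Q := by
        rw [hQ']
        have : a * (a⁻¹ * y * a) * a⁻¹ = y := by group
        rw [this]; exact hy
      have h3 := hxc _ h2
      calc a * x * a⁻¹ * y = a * (x * (a⁻¹ * y * a)) * a⁻¹ := by group
        _ = a * ((a⁻¹ * y * a) * x) * a⁻¹ := by rw [h3]
        _ = y * (a * x * a⁻¹) := by group
    by_cases hx1 : x = 1
    · rw [hx1, mul_one, one_mul]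
    · have h2 : a * x * a⁻¹ ≠ 1 := by
        intro h
        apply hx1
        calc x = a⁻¹ * (a * x * a⁻¹) * a := by group
          _ = 1 := by rw [h]; group
      have h3 := hZ2 _ h1 _ hx h2 hx1
      calc a * x = (a * x * a⁻¹) * a := by group
        _ = x * a := by rw [h3]
  have hcop : (Nat.card A).Coprime (Nat.card Q) := by
    obtain ⟨n, hn⟩ := IsPGroup.iff_card.mp hQp
    rw [hn]
    exact Nat.Coprime.pow_right n (Nat.coprime_two_right.mpr hAodd)
  haveI := hQp.isNilpotent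
  have hsol : Group.IsSolvable A ∨ Group.IsSolvable Q := Or.inr inferInstance
  have hsup := Cfsg.Agent.Cop.commutator_sup_centralizer hA hcop hsol
  have hcc := Cfsg.Agent.Cop.commutator_commutator_eq hA hcop hsol
  have hDQ : ⁅Q, A⁆ ≤ Q := Subgroup.le_normalizer_iff_commutator_le_left.1 hA
  have h2 : ∀ x ∈ Q ⊓ Subgroup.centralizer (A : Set G), ∀ y ∈ ⁅Q, A⁆, x * y = y * x := by
    intro x hx y hy
    have hle : ⁅Q, A⁆ ≤ Subgroup.centralizer ({x} : Set G) := by
      rw [Subgroup.commutator_le]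
      intro q hq a ha
      rw [Subgroup.mem_centralizer_singleton_iff]
      have hxa : a * x = x * a := Subgroup.mem_centralizer_iff.mp hx.2 a ha
      obtain ⟨ζ, hζ⟩ : ∃ ζ, ζ = ⁅x, q⁆ := ⟨_, rfl⟩
      have hζZ : ζ ∈ Z := by rw [hζ]; exact hcomm x hx.1 q hq
      have hζq := ((hZmem ζ).mp hζZ).2 q hq
      have hζa := hAZ a ha ζ hζZ
      have hxq : x * q = ζ * (q * x) := by rw [hζ, commutatorElement_def]; group
      have hxq' : x * q⁻¹ = ζ⁻¹ * (q⁻¹ * x) := by
        have h3 : x * q * (q⁻¹ * x⁻¹) = 1 := by group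
        calc x * q⁻¹ = q⁻¹ * (q * x) * q⁻¹ := by group
          _ = q⁻¹ * (ζ⁻¹ * (x * q)) * q⁻¹ := by rw [hxq]; group
          _ = q⁻¹ * ζ⁻¹ * x := by group
          _ = (ζ * q)⁻¹ * x := by group
          _ = (q * ζ)⁻¹ * x := by rw [hζq]
          _ = ζ⁻¹ * (q⁻¹ * x) := by group
      rw [commutatorElement_def]
      symm
      calc x * (q * a * q⁻¹ * a⁻¹) = (x * q) * a * q⁻¹ * a⁻¹ := by group
        _ = ζ * q * (x * a) * q⁻¹ * a⁻¹ := by rw [hxq]; group
        _ = ζ * q * a * (x * q⁻¹) * a⁻¹ := by rw [← hxa]; group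
        _ = (ζ * q) * a * ζ⁻¹ * q⁻¹ * (x * a⁻¹) := by rw [hxq']; group
        _ = q * (ζ * a) * ζ⁻¹ * q⁻¹ * (x * a⁻¹) := by rw [hζq]; group
        _ = q * a * q⁻¹ * (x * a⁻¹) := by rw [← hζa]; group
        _ = q * a * q⁻¹ * a⁻¹ * ((a * x) * a⁻¹) := by group
        _ = (q * a * q⁻¹ * a⁻¹) * x := by rw [hxa]; group
    have h3 := hle hy
    rw [Subgroup.mem_centralizer_singleton_iff] at h3
    exact h3.symm
  -- everything central
  have hcen : ∀ x ∈ Q, (∀ y ∈ Q ⊓ Subgroup.centralizer (A : Set G), x * y = y * x) →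
      (∀ y ∈ ⁅Q, A⁆, x * y = y * x) → x ∈ Z := by
    intro x hx hx1 hx2
    rw [hZmem]
    refine ⟨hx, ?_⟩
    intro y hy
    have hle : Q ≤ Subgroup.centralizer ({x} : Set G) := by
      conv_lhs => rw [← hsup]
      refine sup_le ?_ ?_
      · intro w hw
        rw [Subgroup.mem_centralizer_singleton_iff]
        exact (hx2 w hw).symm
      · intro w hw
        rw [Subgroup.mem_centralizer_singleton_iff]
        exact (hx1 w hw).symm
    exact (Subgroup.mem_centralizer_singleton_iff.mp (hle hy)).symm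
  -- D is non-abelian
  have hDnc : ¬ ∀ x ∈ ⁅Q, A⁆, ∀ y ∈ ⁅Q, A⁆, x * y = y * x := by
    intro hab
    have hDZ : ⁅Q, A⁆ ≤ Z := by
      intro x hx
      exact hcen x (hDQ hx) (fun y hy => (h2 y hy x hx).symm) (hab x hx)
    have hD1 : ⁅Q, A⁆ = ⊥ := by
      rw [← hcc, eq_bot_iff, Subgroup.commutator_le]
      intro x hx a ha
      rw [Subgroup.mem_bot, commutatorElement_eq_one_iff_mul_comm]
      exact (hAZ a ha x (hDZ hx)).symm
    have hAle : A ≤ Z := by
      rw [← hCQ]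
      have h3 : ⁅A, Q⁆ = ⊥ := by rw [Subgroup.commutator_comm]; exact hD1
      exact Subgroup.commutator_eq_bot_iff_le_centralizer.mp h3
    apply hA1
    rw [← Subgroup.card_eq_one]
    have h4 : Nat.card A ∣ 2 := by rw [← hZc]; exact Subgroup.card_dvd_of_le hAle
    rcases (Nat.dvd_prime Nat.prime_two).mp h4 with h5 | h5
    · exact h5
    · rw [h5] at hAodd
      exact absurd hAodd (by decide)
  have hZof : ∀ S : Subgroup G, S ≤ Q → (¬ ∀ x ∈ S, ∀ y ∈ S, x * y = y * x) → Z ≤ S := by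
    intro S hS hnc
    push Not at hnc
    obtain ⟨x, hx, y, hy, hxy⟩ := hnc
    have h3 : ⁅x, y⁆ ∈ Z := hcomm x (hS hx) y (hS hy)
    have h4 : ⁅x, y⁆ ∈ S := by
      rw [commutatorElement_def]
      exact mul_mem (mul_mem (mul_mem hx hy) (inv_mem hx)) (inv_mem hy)
    have h5 : ⁅x, y⁆ ≠ 1 := by
      rw [Ne, commutatorElement_eq_one_iff_mul_comm]; exact hxy
    intro w hw
    by_cases hw1 : w = 1
    · rw [hw1]; exact one_mem _
    · rw [hZ2 w hw _ h3 hw1 h5]; exact h4
  refine ⟨by rw [sup_comm]; exact hsup, h2, ?_, ?_⟩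
  · apply extra_of hZc (hZof _ hDQ hDnc) (fun x hx y hy => ((hZmem x).mp hx).2 y (hDQ hy))
    · intro x hx hxc
      exact hcen x (hDQ hx) (fun y hy => (h2 y hy x hx).symm) hxc
    · intro x hx y hy
      exact hcomm x (hDQ hx) y (hDQ hy)
    · exact hDnc
  · have hZC : Z ≤ Q ⊓ Subgroup.centralizer (A : Set G) := by
      intro x hx
      exact ⟨hZQ hx, Subgroup.mem_centralizer_iff.mpr (fun a ha => hAZ a ha x hx)⟩
    by_cases hab : ∀ x ∈ Q ⊓ Subgroup.centralizer (A : Set G), ∀ y ∈ Q ⊓ Subgroup.centralizer (A : Set G), x * y = y * x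
    · left
      apply le_antisymm _ hZC
      intro x hx
      exact hcen x hx.1 (hab x hx) (fun y hy => h2 x hx y hy)
    · right
      apply extra_of hZc hZC (fun x hx y hy => ((hZmem x).mp hx).2 y hy.1)
      · intro x hx hxc
        exact hcen x hx.1 hxc (fun y hy => h2 x hx y hy)
      · intro x hx y hy
        exact hcomm x hx.1 y hy.1
      · exact hab

end Cfsg.Agent.S5434
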