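import Cfsg.Statements.S5435
import Cfsg.Agent.H51.SmallFrat

set_option autoImplicit false
open Cfsg

namespace Cfsg.Agent.S5435

open scoped Pointwise commutatorElement

/-- Let L be a finite non-abelian simple group with an involution z whose centralizer R is a Sylow 2-subgroup of L whose Frattini subgroup is the subgroup generated by z. Then R is dihedral of order 8. -/
theorem result {L : Type*} [Group L] [Finite L] [IsSimpleGroup L] (hL : ¬ IsMulCommutative L) (z : L) (hz : orderOf z = 2) (R : Sylow 2 L) (hR : (R : Subgroup L) = Subgroup.centralizer ({z} : Set L)) (hΦ : (frattini ↥(R : Subgroup L)).map (R : Subgroup L).subtype = Subgroup.zpowers z) : Nonempty (↥(R : Subgroup L) ≃* DihedralGroup 4) := by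
  classical
  have hz1 : z ≠ 1 := by
    rintro rfl
    rw [orderOf_one] at hz
    omega
  have hzz : z * z = 1 := by
    have := pow_orderOf_eq_one z
    rwa [hz, pow_two] at this
  have hzp : ∀ a, a ∈ Subgroup.zpowers z → a = 1 ∨ a = z := by
    intro a ha
    obtain ⟨k, rfl⟩ := Subgroup.mem_zpowers_iff.mp ha
    have e2 : z ^ (2 : ℤ) = 1 := by rw [zpow_ofNat, pow_two, hzz]
    rcases Int.even_or_odd' k with ⟨m, hm | hm⟩
    · left
      rw [hm, zpow_mul, e2, one_zpow]
    · right
      rw [hm, zpow_add, zpow_mul, e2, one_zpow, one_mul, zpow_one]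
  have hmem : ∀ x : L, x ∈ (R : Subgroup L) ↔ x * z = z * x := by
    intro x
    rw [hR, Subgroup.mem_centralizer_singleton_iff]
  have hfr : ∀ x : (R : Subgroup L), x ∈ frattini ↥(R : Subgroup L) → (x : L) = 1 ∨ (x : L) = z := by
    intro x hx
    apply hzp
    rw [← hΦ]
    exact ⟨x, hx, rfl⟩
  have h : Cfsg.Agent.H51.SmallFrat.Hyp R z := by
    refine ⟨hz1, hzz, hmem, ?_, ?_, ?_⟩
    · intro x y hx hy
      have hx' := (hmem x).mpr hx
      have hy' := (hmem y).mpr hy
      have h1 : ⁅(⟨x, hx'⟩ : (R : Subgroup L)), (⟨y, hy'⟩ : (R : Subgroup L))⁆ ∈ frattini ↥(R : Subgroup L) := by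
        apply Cfsg.Agent.Solv.commutator_le_frattini_of_pGroup R.2
        exact Subgroup.commutator_mem_commutator (Subgroup.mem_top _) (Subgroup.mem_top _)
      have h2 : x * y * x⁻¹ * y⁻¹ = 1 ∨ x * y * x⁻¹ * y⁻¹ = z := hfr _ h1
      rcases h2 with h2 | h2
      · left
        calc x * y = (x * y * x⁻¹ * y⁻¹) * (y * x) := by group
          _ = y * x := by rw [h2, one_mul]
      · right
        calc x * y = (x * y * x⁻¹ * y⁻¹) * (y * x) := by group
          _ = z * (y * x) := by rw [h2]
    · intro x hx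
      have hx' := (hmem x).mpr hx
      have h1 := Cfsg.Agent.Solv.pow_mem_frattini_of_pGroup R.2 (⟨x, hx'⟩ : (R : Subgroup L))
      have h2 : x ^ 2 = 1 ∨ x ^ 2 = z := hfr _ h1
      rwa [pow_two] at h2
    · intro g hg
      have hgn : g ∈ Subgroup.normalizer ((R : Subgroup L) : Set L) := by
        have h1 : (MulAut.conj g • (R : Subgroup L)) ≤ (R : Subgroup L) := by
          rintro _ ⟨x, hx, rfl⟩
          exact hg x ((hmem x).mp hx)
        have h2 : (MulAut.conj g • (R : Subgroup L)) = (R : Subgroup L) :=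
          Subgroup.eq_of_le_of_card_ge h1 (Nat.card_congr (Subgroup.equivSMul (MulAut.conj g) _).toEquiv).le
        exact Sylow.smul_eq_iff_mem_normalizer.mp (Sylow.ext h2)
      have hzm : z ∈ (frattini ↥(R : Subgroup L)).map (R : Subgroup L).subtype := by
        rw [hΦ]; exact Subgroup.mem_zpowers z
      obtain ⟨z', hz', hz'z⟩ := hzm
      have hc : (frattini ↥(R : Subgroup L)).Characteristic := inferInstance
      have h1 : (Subgroup.normalizerMonoidHom (R : Subgroup L) ⟨g, hgn⟩) z' ∈ frattini ↥(R : Subgroup L) := by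
        have := Subgroup.characteristic_iff_map_eq.mp hc (Subgroup.normalizerMonoidHom (R : Subgroup L) ⟨g, hgn⟩)
        rw [← this]
        exact ⟨z', hz', rfl⟩
      have h2 := hfr _ h1
      have h3 : (((Subgroup.normalizerMonoidHom (R : Subgroup L) ⟨g, hgn⟩) z' : (R : Subgroup L)) : L) = g * z * g⁻¹ := by
        rw [← hz'z]; rfl
      rw [h3] at h2
      rw [hmem]
      rcases h2 with h2 | h2
      · exfalso
        apply hz1
        calc z = g⁻¹ * (g * z * g⁻¹) * g := by group
          _ = 1 := by rw [h2]; group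
      · calc g * z = (g * z * g⁻¹) * g := by group
          _ = z * g := by rw [h2]
  obtain ⟨h8, x, y, hx, hy, hxx, hyy, hxy⟩ := h.card_eight hL
  refine Cfsg.Agent.Fus.dihedral4_of_involutions h8 (x := ⟨x, hx⟩) (y := ⟨y, hy⟩) ?_ ?_ ?_
  · exact Subtype.ext (by rw [pow_two]; exact hxx)
  · exact Subtype.ext (by rw [pow_two]; exact hyy)
  · intro he
    exact hxy (congrArg Subtype.val he)

end Cfsg.Agent.S5435
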