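import Cfsg.Statements.S5437

set_option autoImplicit false
open Cfsg

namespace Cfsg.Agent.S5437

/-- Let I be a set of involutions of the finite group G closed under conjugation, and H a subgroup of G. The following are equivalent: (1) for every member x of I lying in H, the conjugates of x lying in H form a single H-class and the centralizer of x lies in H; (2) for every g outside H, no member of I lies in both H and g H g⁻¹; (3) every member of I lying in H fixes exactly one coset in the action of G on the cosets of H. -/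
theorem result {G : Type*} [Group G] [Finite G] (I : Set G) (hI : ∀ x ∈ I, orderOf x = 2) (hIc : ∀ g : G, ∀ x ∈ I, g * x * g⁻¹ ∈ I) (H : Subgroup G) : ((∀ x ∈ I, x ∈ H → (∀ g : G, g * x * g⁻¹ ∈ H → ∃ h ∈ H, h * x * h⁻¹ = g * x * g⁻¹) ∧ Subgroup.centralizer ({x} : Set G) ≤ H) ↔ (∀ g : G, g ∉ H → ∀ x ∈ I, ¬ (x ∈ H ∧ x ∈ (H : Subgroup G).map (MulAut.conj g).toMonoidHom))) ∧ ((∀ g : G, g ∉ H → ∀ x ∈ I, ¬ (x ∈ H ∧ x ∈ (H : Subgroup G).map (MulAut.conj g).toMonoidHom)) ↔ ∀ x ∈ I, x ∈ H → ∃! c : G ⧸ H, x • c = c) := by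
  have key : ∀ (g x : G), x ∈ (H : Subgroup G).map (MulAut.conj g).toMonoidHom ↔ g⁻¹ * x * g ∈ H := by
    intro g x
    constructor
    · rintro ⟨y, hy, rfl⟩
      simpa [mul_assoc] using hy
    · intro h
      exact ⟨g⁻¹ * x * g, h, by simp [mul_assoc]⟩
  have fixc : ∀ (g x : G), x • (g : G ⧸ H) = (g : G ⧸ H) ↔ g⁻¹ * x * g ∈ H := by
    intro g x
    rw [← QuotientGroup.mk_mul_of_mem g (one_mem H)]
    simp only [mul_one]
    change ((x * g : G) : G ⧸ H) = (g : G ⧸ H) ↔ _
    rw [eq_comm, QuotientGroup.eq, mul_assoc]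
  simp only [key]
  refine ⟨⟨fun h g hg x hx hxH => ?_, fun h x hx hxH => ⟨fun g hg => ?_, fun c hc => ?_⟩⟩,
    ⟨fun h x hx hxH => ?_, fun h g hg x hx hxH => ?_⟩⟩
  · obtain ⟨h1, h2⟩ := h x hx hxH.1
    obtain ⟨k, hk, hk'⟩ := h1 g⁻¹ (by simpa using hxH.2)
    apply hg
    have : g * k ∈ Subgroup.centralizer ({x} : Set G) := by
      rw [Subgroup.mem_centralizer_singleton_iff]
      have h3 : g * (k * x * k⁻¹) = g * (g⁻¹ * x * g⁻¹⁻¹) := by rw [hk']
      have : g * k * x * k⁻¹ = x * g := by
        simpa [mul_assoc] using h3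
      calc g * k * x = (g * k * x * k⁻¹) * k := by simp
        _ = x * (g * k) := by rw [this, mul_assoc]
    have h4 := h2 this
    have := H.mul_mem h4 (H.inv_mem hk)
    simpa using this
  · by_cases hgH : g ∈ H
    · exact ⟨g, hgH, rfl⟩
    · exfalso
      refine h g⁻¹ (fun hc => hgH (by simpa using H.inv_mem hc)) x hx ⟨hxH, by simpa using hg⟩
  · by_contra hcH
    rw [Subgroup.mem_centralizer_singleton_iff] at hc
    apply h c hcH x hx
    refine ⟨hxH, ?_⟩
    rw [mul_assoc, ← hc]
    simpa using hxH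
  · refine ⟨((1 : G) : G ⧸ H), ?_, ?_⟩
    · simp only
      rw [fixc]
      simpa using hxH
    · intro c hc
      induction c using QuotientGroup.induction_on with
      | H g =>
        rw [fixc] at hc
        rw [QuotientGroup.eq]
        by_contra hgc
        have hg : g ∉ H := by
          intro hg
          apply hgc
          simpa using hg
        exact h g hg x hx ⟨hxH, hc⟩
  · obtain ⟨c, hc, hc'⟩ := h x hx hxH.1
    have e1 := hc' ((1 : G) : G ⧸ H) (by
      simp only
      rw [fixc]
      simpa using hxH.1)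
    have e2 := hc' ((g : G) : G ⧸ H) (by
      simp only
      rw [fixc]
      exact hxH.2)
    rw [← e2] at e1
    rw [QuotientGroup.eq] at e1
    apply hg
    simpa using e1

end Cfsg.Agent.S5437
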