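import Cfsg.Statements.S5438
import Cfsg.Agent.H90.Basic

set_option autoImplicit false
open Cfsg

namespace Cfsg.Agent.S5438

open Cfsg.Agent.H90

/-- Let z be a 2-central involution of the finite group G (an involution central in some Sylow 2-subgroup) and H a subgroup containing z such that the coset H is the only coset of H fixed by z (in the action of G on the cosets of H). Then H has odd index in G, and for every 2-element x of H the conjugates of x lying in H form a single H-class. -/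
theorem result {G : Type*} [Group G] [Finite G] (z : G) (hz : Cfsg.IsTwoCentralInvolution z) (H : Subgroup G) (hzH : z ∈ H) (hfix : ∀ g : G, g⁻¹ * z * g ∈ H → g ∈ H) : Odd H.index ∧ ∀ x ∈ H, (∃ k : ℕ, orderOf x = 2 ^ k) → ∀ g : G, g * x * g⁻¹ ∈ H → ∃ h ∈ H, h * x * h⁻¹ = g * x * g⁻¹ := by
  have : Fact (Nat.Prime 2) := ⟨Nat.prime_two⟩
  obtain ⟨hz2, P, hzP, hcent⟩ := hz
  have hPH : (P : Subgroup G) ≤ H := by
    intro x hx
    apply hfix
    have := hcent x hx
    rw [mul_assoc, ← this]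
    simpa using hzH
  have h2 : ¬ 2 ∣ H.index := by
    have h1 : ¬ 2 ∣ (P : Subgroup G).index := P.not_dvd_index
    have h2 : H.index ∣ (P : Subgroup G).index := Subgroup.index_dvd_of_le hPH
    exact fun h => h1 (h.trans h2)
  have hodd : Odd H.index := by
    rw [← Nat.not_even_iff_odd, even_iff_two_dvd]
    exact h2
  refine ⟨hodd, ?_⟩
  -- for every coset `gH` fixed by a 2-element `x` there is a conjugate of `z` centralizing `x` and fixing just `gH`
  have key : ∀ x g : G, (∃ k : ℕ, orderOf x = 2 ^ k) → g⁻¹ * x * g ∈ H →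
      ∃ k : G, g⁻¹ * k ∈ H ∧ k * z * k⁻¹ * x = x * (k * z * k⁻¹) := by
    intro x g ⟨n, hn⟩ hxH
    obtain ⟨k, hk⟩ := exists_conj_mem_sylow (P.subtype hPH) (x := (⟨g⁻¹ * x * g, hxH⟩ : H)) (k := n) (by
      rw [← Subgroup.orderOf_coe, ← hn]
      exact orderOf_inv_conj_eq g x)
    refine ⟨g * k, by simp, ?_⟩
    rw [Sylow.coe_subtype, Subgroup.mem_subgroupOf] at hk
    have h := hcent _ hk
    push_cast at h
    have h3 : (g * (k : G)) * ((k : G)⁻¹ * (g⁻¹ * x * g) * k * z) * (g * (k : G))⁻¹ =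
      (g * (k : G)) * (z * ((k : G)⁻¹ * (g⁻¹ * x * g) * k)) * (g * (k : G))⁻¹ := by rw [h]
    have e1 : (g * (k : G)) * ((k : G)⁻¹ * (g⁻¹ * x * g) * k * z) * (g * (k : G))⁻¹ =
      x * (g * k * z * (g * k)⁻¹) := by group
    have e2 : (g * (k : G)) * (z * ((k : G)⁻¹ * (g⁻¹ * x * g) * k)) * (g * (k : G))⁻¹ =
      g * k * z * (g * k)⁻¹ * x := by group
    rw [← e1, ← e2, h3]
  intro x hx hk g hg
  obtain ⟨k₁, hk₁, hc₁⟩ := key x 1 hk (by simpa using hx)
  obtain ⟨k₂, hk₂, hc₂⟩ := key x g⁻¹ hk (by simpa using hg)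
  -- work in the centralizer of x
  let C := Subgroup.centralizer ({x} : Set G)
  have hz1C : k₁ * z * k₁⁻¹ ∈ C := by
    rw [Subgroup.mem_centralizer_singleton_iff]; exact hc₁
  have hz2C : k₂ * z * k₂⁻¹ ∈ C := by
    rw [Subgroup.mem_centralizer_singleton_iff]; exact hc₂
  obtain ⟨S₂, hS₂⟩ := exists_sylow_mem (p := 2) (x := (⟨k₂ * z * k₂⁻¹, hz2C⟩ : C)) (k := 1) (by
    rw [← Subgroup.orderOf_coe, pow_one, ← hz2]
    exact orderOf_conj_eq k₂ z)
  obtain ⟨c, hc⟩ := exists_conj_mem_sylow S₂ (x := (⟨k₁ * z * k₁⁻¹, hz1C⟩ : C)) (k := 1) (by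
    rw [← Subgroup.orderOf_coe, pow_one, ← hz2]
    exact orderOf_conj_eq k₁ z)
  obtain ⟨b, hb⟩ := exists_fixed_coset (p := 2) H h2 ((S₂ : Subgroup C).map C.subtype)
    (S₂.isPGroup'.map _)
  have hb2 := hb _ (Subgroup.mem_map_of_mem C.subtype hS₂)
  have hb1 := hb _ (Subgroup.mem_map_of_mem C.subtype hc)
  simp only [Subgroup.coe_subtype, Subgroup.coe_mul, Subgroup.coe_inv] at hb1 hb2
  have h5 : k₂⁻¹ * b ∈ H := by
    apply hfix
    convert hb2 using 1
    group
  have h6 : k₁⁻¹ * c * b ∈ H := by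
    apply hfix
    convert hb1 using 1
    group
  have h7 : g * b ∈ H := by
    have := H.mul_mem hk₂ h5
    simpa [mul_assoc] using this
  have h8 : k₁ ∈ H := by simpa using hk₁
  have h9 : (c : G) * b ∈ H := by
    have := H.mul_mem h8 h6
    simpa [mul_assoc] using this
  refine ⟨g * (c : G)⁻¹, ?_, ?_⟩
  · have := H.mul_mem h7 (H.inv_mem h9)
    simpa [mul_assoc] using this
  · have hcx : (c : G) * x = x * c := by
      have := c.2
      rw [Subgroup.mem_centralizer_singleton_iff] at this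
      exact this
    have : (c : G)⁻¹ * x * c = x := by rw [mul_assoc, ← hcx]; group
    calc g * (c : G)⁻¹ * x * (g * (c : G)⁻¹)⁻¹ = g * ((c : G)⁻¹ * x * c) * g⁻¹ := by group
      _ = g * x * g⁻¹ := by rw [this]

end Cfsg.Agent.S5438
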