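import Cfsg.Statements.S5439

set_option autoImplicit false
open Cfsg

namespace Cfsg.Agent.S5439

private lemma fixc {G : Type*} [Group G] (H : Subgroup G) (g x : G) :
    x • (g : G ⧸ H) = (g : G ⧸ H) ↔ g⁻¹ * x * g ∈ H := by
  change ((x * g : G) : G ⧸ H) = (g : G ⧸ H) ↔ _
  rw [eq_comm, QuotientGroup.eq, mul_assoc]

private lemma inv_of_sq {G : Type*} [Group G] {a : G} (h : a * a = 1) : a⁻¹ = a :=
  inv_eq_of_mul_eq_one_left h

/-- In a dihedral situation. -/
private lemma dihedral {G : Type*} [Group G] [Finite G] (a b : G) (ha : a * a = 1) (hb : b * b = 1)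
    (hab : ¬ IsConj a b) : ∃ t : G, t ≠ 1 ∧ t * a = a * t ∧ t * b = b * t ∧
      (IsConj a (t * a) ∨ IsConj b (t * a)) := by
  set r := a * b with hr
  have hai : a⁻¹ = a := inv_of_sq ha
  have hbi : b⁻¹ = b := inv_of_sq hb
  have hri : r⁻¹ = b * a := by rw [hr, mul_inv_rev, hai, hbi]
  have har : a * r * a⁻¹ = r⁻¹ := by
    rw [hri, hai, hr, ← mul_assoc, ha, one_mul]
  have hbr : b * r * b⁻¹ = r⁻¹ := by
    rw [hri, hbi, hr, mul_assoc, mul_assoc, hb, mul_one]
  have harz : ∀ j : ℤ, a * r ^ j = r ^ (-j) * a := by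
    intro j
    have : a * r ^ j * a⁻¹ = r ^ (-j) := by
      have := (conj_zpow (i := j) (a := a) (b := r)).symm
      rw [this, har, inv_zpow, zpow_neg]
    rw [← this]; group
  have hbrz : ∀ j : ℤ, b * r ^ j = r ^ (-j) * b := by
    intro j
    have : b * r ^ j * b⁻¹ = r ^ (-j) := by
      have := (conj_zpow (i := j) (a := b) (b := r)).symm
      rw [this, hbr, inv_zpow, zpow_neg]
    rw [← this]; group
  have hconja : ∀ j : ℤ, IsConj a (r ^ (2 * j) * a) := by
    intro j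
    rw [isConj_iff]
    refine ⟨r ^ j, ?_⟩
    rw [← zpow_neg, mul_assoc, harz, ← mul_assoc, ← zpow_add]
    congr 2; ring
  have hconjb : ∀ j : ℤ, IsConj b (r ^ (2 * j) * b) := by
    intro j
    rw [isConj_iff]
    refine ⟨r ^ j, ?_⟩
    rw [← zpow_neg, mul_assoc, hbrz, ← mul_assoc, ← zpow_add]
    congr 2; ring
  have hpos : 0 < orderOf r := orderOf_pos r
  have hrb : r * b = a := by rw [hr, mul_assoc, hb, mul_one]
  rcases Nat.even_or_odd' (orderOf r) with ⟨m, hm | hm⟩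
  · refine ⟨r ^ (m : ℤ), ?_, ?_, ?_, ?_⟩
    · intro h
      rw [zpow_natCast] at h
      have := orderOf_dvd_of_pow_eq_one h
      have := Nat.le_of_dvd (by omega) this
      omega
    · have h2 : r ^ (-(m : ℤ)) = r ^ (m : ℤ) := by
        have : r ^ (2 * m : ℕ) = 1 := by rw [← hm, pow_orderOf_eq_one]
        rw [zpow_neg, inv_eq_iff_mul_eq_one, ← zpow_add, ← this]
        rw [← zpow_natCast]; congr 1; push_cast; ring
      rw [harz, h2]
    · have h2 : r ^ (-(m : ℤ)) = r ^ (m : ℤ) := by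
        have : r ^ (2 * m : ℕ) = 1 := by rw [← hm, pow_orderOf_eq_one]
        rw [zpow_neg, inv_eq_iff_mul_eq_one, ← zpow_add, ← this]
        rw [← zpow_natCast]; congr 1; push_cast; ring
      rw [hbrz, h2]
    · rcases Nat.even_or_odd' m with ⟨j, hj | hj⟩
      · left
        have := hconja (j : ℤ)
        rw [hj]; push_cast; exact this
      · right
        have := hconjb ((j : ℤ) + 1)
        rw [hj]; push_cast
        rw [show r ^ (2 * (j : ℤ) + 1) * a = r ^ (2 * ((j : ℤ) + 1)) * b from ?_]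
        · exact this
        · rw [← hrb, ← mul_assoc, ← zpow_add_one]; congr 2
  · exfalso
    apply hab
    have := hconja (m : ℤ)
    have h1 : r ^ (2 * m + 1 : ℕ) = 1 := by rw [← hm, pow_orderOf_eq_one]
    have h2 : r ^ (2 * (m : ℤ)) = r⁻¹ := by
      rw [eq_inv_iff_mul_eq_one, ← zpow_add_one, ← h1]
      rw [← zpow_natCast]; congr 1
    rw [h2, hri, mul_assoc, ha, mul_one] at this
    exact this

theorem result {G : Type*} [Group G] [Finite G] (I J : Set G) (a₀ b₀ : G) (ha₀ : orderOf a₀ = 2) (hb₀ : orderOf b₀ = 2) (hI : I = {x | IsConj a₀ x}) (hJ : J = {x | IsConj b₀ x}) (hIJ : I ≠ J) (H : Subgroup G) (hfix : ∀ x ∈ I ∪ J, ∃! c : G ⧸ H, x • c = c) (hcent : ∀ a ∈ I, a ∈ H → ∀ b ∈ I ∪ J, b ∈ H → a ≠ b → a * b = b * a → Subgroup.centralizer ({a * b} : Set G) ≤ H) : H = ⊤ := by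
  have hcomm : ∀ x ∈ I ∪ J, x ∈ H → ∀ y : G, y * x = x * y → y ∈ H := by
    intro x hx hxH y hy
    obtain ⟨c, hc, hc'⟩ := hfix x hx
    have e1 := hc' ((1 : G) : G ⧸ H) (by
      simp only
      rw [fixc]
      simpa using hxH)
    have e2 := hc' ((y : G) : G ⧸ H) (by
      simp only
      rw [fixc, mul_assoc, ← hy]
      simpa using hxH)
    rw [← e2] at e1
    rw [QuotientGroup.eq] at e1
    simpa using e1
  have hconj : ∀ x ∈ I ∪ J, ∃ g : G, g⁻¹ * x * g ∈ H := by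
    intro x hx
    obtain ⟨c, hc, hc'⟩ := hfix x hx
    induction c using QuotientGroup.induction_on with
    | H g =>
      rw [fixc] at hc
      exact ⟨g, hc⟩
  have hsqI : ∀ x ∈ I, x * x = 1 := by
    intro x hx
    rw [hI] at hx
    obtain ⟨g, rfl⟩ := isConj_iff.mp hx
    have : a₀ * a₀ = 1 := by rw [← pow_two, ← ha₀, pow_orderOf_eq_one]
    have h2 : g * a₀ * g⁻¹ * (g * a₀ * g⁻¹) = g * (a₀ * a₀) * g⁻¹ := by group
    rw [h2, this]; simp
  have hsqJ : ∀ x ∈ J, x * x = 1 := by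
    intro x hx
    rw [hJ] at hx
    obtain ⟨g, rfl⟩ := isConj_iff.mp hx
    have : b₀ * b₀ = 1 := by rw [← pow_two, ← hb₀, pow_orderOf_eq_one]
    have h2 : g * b₀ * g⁻¹ * (g * b₀ * g⁻¹) = g * (b₀ * b₀) * g⁻¹ := by group
    rw [h2, this]; simp
  have hnc : ∀ a ∈ I, ∀ b ∈ J, ¬ IsConj a b := by
    intro a ha b hb hab
    apply hIJ
    rw [hI] at ha
    rw [hJ] at hb
    rw [hI, hJ]
    have h : IsConj a₀ b₀ := (ha.trans hab).trans hb.symm
    ext x
    exact ⟨fun hx => h.symm.trans hx, fun hx => h.trans hx⟩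
  have key : ∀ a ∈ I, a ∈ H → ∀ b ∈ J, b ∈ H := by
    intro a ha haH b hb
    obtain ⟨t, ht1, hta, htb, hc⟩ := dihedral a b (hsqI a ha) (hsqJ b hb) (hnc a ha b hb)
    have htH : t ∈ H := hcomm a (Or.inl ha) haH t hta
    have htaI : t * a ∈ I ∪ J := by
      rcases hc with hc | hc
      · left; rw [hI] at ha ⊢; exact ha.trans hc
      · right; rw [hJ] at hb ⊢; exact hb.trans hc
    have h1 := hcent a ha haH (t * a) htaI (H.mul_mem htH haH) (by
      intro h
      apply ht1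
      exact (mul_eq_right.mp h.symm)) (by
      rw [← mul_assoc, hta])
    have h2 : a * (t * a) = t := by
      rw [← mul_assoc, ← hta, mul_assoc, hsqI a ha, mul_one]
    rw [h2] at h1
    apply h1
    rw [Subgroup.mem_centralizer_singleton_iff]
    exact htb.symm
  have ha₀I : a₀ ∈ I := by rw [hI]; exact IsConj.refl _
  have hb₀J : b₀ ∈ J := by rw [hJ]; exact IsConj.refl _
  obtain ⟨g, hg⟩ := hconj a₀ (Or.inl ha₀I)
  have hgI : g⁻¹ * a₀ * g ∈ I := by
    rw [hI]
    change IsConj a₀ _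
    rw [isConj_iff]
    exact ⟨g⁻¹, by simp⟩
  have hJH : ∀ b ∈ J, b ∈ H := key _ hgI hg
  rw [eq_top_iff]
  intro x _
  obtain ⟨c, hc, hc'⟩ := hfix b₀ (Or.inr hb₀J)
  have e1 := hc' ((1 : G) : G ⧸ H) (by
    simp only
    rw [fixc]
    simpa using hJH b₀ hb₀J)
  have e2 := hc' ((x : G) : G ⧸ H) (by
    simp only
    rw [fixc]
    apply hJH
    rw [hJ]
    change IsConj b₀ _
    rw [isConj_iff]
    exact ⟨x⁻¹, by simp⟩)
  rw [← e2] at e1
  rw [QuotientGroup.eq] at e1
  simpa using e1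

end Cfsg.Agent.S5439
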