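import Cfsg.Statements.S5452
import Cfsg.Agent.UDbl.Cov

set_option autoImplicit false
open Cfsg

namespace Cfsg.Agent.S5452

/-- Let G be a finite group with an involution d whose centralizer C is quasisimple with C modulo the subgroup generated by d isomorphic to the projective special unitary group of dimension 6 over the field with four elements, and suppose some conjugate of d other than d commutes with d. Then every involution of C modulo the subgroup generated by d is the image of an involution of C, and d is not a square in G. -/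
theorem result {G : Type*} [Group G] [Finite G] (d : G) (hd : orderOf d = 2) (hq : Cfsg.IsQuasisimple ↥(Subgroup.centralizer ({d} : Set G))) [hzn : ((Subgroup.zpowers d).subgroupOf (Subgroup.centralizer ({d} : Set G))).Normal] (K : Type) [Field K] [Fintype K] (hK : Fintype.card K = 4) (e : ↥(Subgroup.centralizer ({d} : Set G)) ⧸ (Subgroup.zpowers d).subgroupOf (Subgroup.centralizer ({d} : Set G)) ≃* Cfsg.PSU 6 K 2) (hnwc : ∃ g : G, g * d * g⁻¹ ∈ Subgroup.centralizer ({d} : Set G) ∧ g * d * g⁻¹ ≠ d) : (∀ x : ↥(Subgroup.centralizer ({d} : Set G)) ⧸ (Subgroup.zpowers d).subgroupOf (Subgroup.centralizer ({d} : Set G)), orderOf x = 2 → ∃ y : ↥(Subgroup.centralizer ({d} : Set G)), orderOf y = 2 ∧ (QuotientGroup.mk y : ↥(Subgroup.centralizer ({d} : Set G)) ⧸ (Subgroup.zpowers d).subgroupOf (Subgroup.centralizer ({d} : Set G))) = x) ∧ ¬ ∃ g : G, g ^ 2 = d := by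
  have hF : Fintype.card K = 2 ^ 2 := by rw [hK]; norm_num
  have hdd : d * d = 1 := by
    have := pow_orderOf_eq_one d
    rwa [hd, sq] at this
  have hd1 : d ≠ 1 := by
    rintro rfl
    rw [orderOf_one] at hd
    omega
  have hmem : ∀ g : G, g ∈ Subgroup.zpowers d ↔ g = 1 ∨ g = d := by
    intro g
    constructor
    · rintro ⟨k, rfl⟩
      rcases Int.even_or_odd' k with ⟨m, rfl | rfl⟩
      · left
        show d ^ (2 * m) = 1
        rw [zpow_mul, zpow_ofNat, sq, hdd, one_zpow]
      · right
        show d ^ (2 * m + 1) = d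
        rw [zpow_add_one, zpow_mul, zpow_ofNat, sq, hdd, one_zpow, one_mul]
    · rintro (rfl | h)
      · exact one_mem _
      · rw [h]; exact Subgroup.mem_zpowers d
  obtain ⟨C, hC⟩ : ∃ C, C = Subgroup.centralizer ({d} : Set G) := ⟨_, rfl⟩
  have hdC : d ∈ Subgroup.centralizer ({d} : Set G) := by
    rw [Subgroup.mem_centralizer_iff]
    rintro _ rfl
    rfl
  let N := (Subgroup.zpowers d).subgroupOf (Subgroup.centralizer ({d} : Set G))
  have hN : ∀ y : ↥(Subgroup.centralizer ({d} : Set G)), y ∈ N ↔ (y = 1 ∨ y = ⟨d, hdC⟩) := by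
    intro y
    rw [Subgroup.mem_subgroupOf, hmem]
    constructor
    · rintro (h | h)
      · left; exact Subtype.ext h
      · right; exact Subtype.ext h
    · rintro (rfl | rfl)
      · left; rfl
      · right; rfl
  let φ : ↥(Subgroup.centralizer ({d} : Set G)) →* Cfsg.PSU 6 K 2 :=
    e.toMonoidHom.comp (QuotientGroup.mk' N)
  have hφ : ∀ y, φ y = e (QuotientGroup.mk y) := fun _ => rfl
  have hker : ∀ y, φ y = 1 ↔ y ∈ N := by
    intro y
    rw [hφ, ← map_one e, e.injective.eq_iff]
    exact QuotientGroup.eq_one_iff y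
  have D : UDbl.Dbl φ (⟨d, hdC⟩ : ↥(Subgroup.centralizer ({d} : Set G))) := by
    refine ⟨?_, ?_, ?_, ?_, ?_, ?_⟩
    · intro h
      apply Subtype.ext
      exact (Subgroup.mem_centralizer_iff.1 h.2 d rfl)
    · exact Subtype.ext hdd
    · intro h
      exact hd1 (congrArg Subtype.val h)
    · intro x
      obtain ⟨x', rfl⟩ := e.surjective x
      obtain ⟨y, rfl⟩ := QuotientGroup.mk_surjective x'
      exact ⟨y, rfl⟩
    · intro h hh
      exact (hN h).1 ((hker h).1 hh)
    · exact (hker _).2 ((hN _).2 (Or.inr rfl))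
  have key : ∀ x : ↥(Subgroup.centralizer ({d} : Set G)) ⧸ (Subgroup.zpowers d).subgroupOf (Subgroup.centralizer ({d} : Set G)), orderOf x = 2 → ∃ y : ↥(Subgroup.centralizer ({d} : Set G)), orderOf y = 2 ∧ (QuotientGroup.mk y : ↥(Subgroup.centralizer ({d} : Set G)) ⧸ (Subgroup.zpowers d).subgroupOf (Subgroup.centralizer ({d} : Set G))) = x := by
    intro x hx
    have hxx : e x * e x = 1 := by
      have h0 : x * x = 1 := by
        have := pow_orderOf_eq_one x
        rwa [hx, sq] at this
      rw [← map_mul, h0, map_one]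
    obtain ⟨y, hyy, hy⟩ := D.exists_lift hF hxx
    rw [hφ] at hy
    have hy' := e.injective hy
    refine ⟨y, ?_, hy'⟩
    apply orderOf_eq_prime
    · rw [sq, hyy]
    · rintro rfl
      rw [← hy'] at hx
      have : (QuotientGroup.mk (1 : ↥(Subgroup.centralizer ({d} : Set G))) : ↥(Subgroup.centralizer ({d} : Set G)) ⧸ (Subgroup.zpowers d).subgroupOf (Subgroup.centralizer ({d} : Set G))) = 1 := rfl
      rw [this, orderOf_one] at hx
      omega
  refine ⟨key, ?_⟩
  rintro ⟨g, hg⟩
  have hgC : g ∈ Subgroup.centralizer ({d} : Set G) := by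
    rw [Subgroup.mem_centralizer_iff]
    rintro _ rfl
    rw [← hg, ← pow_succ, ← pow_succ']
  obtain ⟨γ, hγ⟩ : ∃ γ : ↥(Subgroup.centralizer ({d} : Set G)), γ = ⟨g, hgC⟩ := ⟨_, rfl⟩
  have hγ2 : γ * γ = ⟨d, hdC⟩ := by
    rw [hγ]
    apply Subtype.ext
    show g * g = d
    rw [← sq, hg]
  have h1 : φ γ * φ γ = 1 := by rw [← map_mul, hγ2]; exact D.phz
  obtain ⟨y, hyy, hy⟩ := D.exists_lift hF h1
  obtain ⟨c, hc, hgc⟩ := D.exists_c hy.symm
  have h2 : γ * γ = 1 := by
    rw [hgc]
    calc y * c * (y * c) = y * (c * y) * c := by simp only [mul_assoc]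
      _ = y * (y * c) * c := by rw [D.cen' hc]
      _ = (y * y) * (c * c) := by simp only [mul_assoc]
      _ = 1 := by rw [hyy, D.sq' hc, one_mul]
  rw [hγ2] at h2
  exact D.ne h2

end Cfsg.Agent.S5452
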