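import Cfsg.Statements.S5454
import Cfsg.Agent.UTh.Thom

set_option autoImplicit false
open Cfsg

namespace Cfsg.Agent.S5454

/-- Let G be a finite group with an involution d whose centralizer C is quasisimple with C modulo the subgroup generated by d isomorphic to the projective special unitary group of dimension 6 over the field with four elements, and suppose some conjugate of d other than d commutes with d. Let S be a Sylow 2-subgroup of C and A the Thompson subgroup of S (generated by the elementary abelian subgroups of S of largest order), regarded as a subgroup of G. Then A is elementary abelian of order 2^10, exactly 22 conjugates of d lie in A, and the normalizer of A permutes them transitively. -/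
theorem result {G : Type*} [Group G] [Finite G] (d : G) (hd : orderOf d = 2) (hq : Cfsg.IsQuasisimple ↥(Subgroup.centralizer ({d} : Set G))) [hzn : ((Subgroup.zpowers d).subgroupOf (Subgroup.centralizer ({d} : Set G))).Normal] (K : Type) [Field K] [Fintype K] (hK : Fintype.card K = 4) (e : ↥(Subgroup.centralizer ({d} : Set G)) ⧸ (Subgroup.zpowers d).subgroupOf (Subgroup.centralizer ({d} : Set G)) ≃* Cfsg.PSU 6 K 2) (hnwc : ∃ g : G, g * d * g⁻¹ ∈ Subgroup.centralizer ({d} : Set G) ∧ g * d * g⁻¹ ≠ d) (S : Sylow 2 ↥(Subgroup.centralizer ({d} : Set G))) (A : Subgroup G) (hA : A = (Cfsg.thompsonSubgroupOf 2 (S : Subgroup ↥(Subgroup.centralizer ({d} : Set G)))).map (Subgroup.centralizer ({d} : Set G)).subtype) : Cfsg.IsElementaryAbelian 2 A ∧ Nat.card A = 2 ^ 10 ∧ Set.ncard {x : G | x ∈ A ∧ IsConj d x} = 22 ∧ ∀ x ∈ A, ∀ y ∈ A, IsConj d x → IsConj d y → ∃ n ∈ Subgroup.normalizer (A : Set G), n * x * n⁻¹ = y := by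
  have hF : Fintype.card K = 2 ^ 2 := by rw [hK]; norm_num
  have hdd : d * d = 1 := by
    have := pow_orderOf_eq_one d
    rwa [hd, sq] at this
  have hd1 : d ≠ 1 := by
    rintro rfl
    rw [orderOf_one] at hd
    omega
  have hmem : ∀ g : G, g ∈ Subgroup.zpowers d ↔ g = 1 ∨ g = d := by
    intro g
    constructor
    · rintro ⟨k, rfl⟩
      rcases Int.even_or_odd' k with ⟨m, rfl | rfl⟩
      · left
        show d ^ (2 * m) = 1
        rw [zpow_mul, zpow_ofNat, sq, hdd, one_zpow]
      · right
        show d ^ (2 * m + 1) = d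
        rw [zpow_add_one, zpow_mul, zpow_ofNat, sq, hdd, one_zpow, one_mul]
    · rintro (rfl | h)
      · exact one_mem _
      · rw [h]; exact Subgroup.mem_zpowers d
  let N := (Subgroup.zpowers d).subgroupOf (Subgroup.centralizer ({d} : Set G))
  have hN : ∀ y : ↥(Subgroup.centralizer ({d} : Set G)), y ∈ N ↔ (y = 1 ∨ y = UTh.zC d) := by
    intro y
    rw [Subgroup.mem_subgroupOf, hmem]
    constructor
    · rintro (h | h)
      · left; exact Subtype.ext h
      · right; exact Subtype.ext h
    · rintro (rfl | rfl)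
      · left; rfl
      · right; rfl
  let φ : ↥(Subgroup.centralizer ({d} : Set G)) →* Cfsg.PSU 6 K 2 :=
    e.toMonoidHom.comp (QuotientGroup.mk' N)
  have hφ : ∀ y, φ y = e (QuotientGroup.mk y) := fun _ => rfl
  have hker : ∀ y, φ y = 1 ↔ y ∈ N := by
    intro y
    rw [hφ, ← map_one e, e.injective.eq_iff]
    exact QuotientGroup.eq_one_iff y
  have D : UDbl.Dbl φ (UTh.zC d) := by
    refine ⟨?_, ?_, ?_, ?_, ?_, ?_⟩
    · intro h
      apply Subtype.ext
      exact (Subgroup.mem_centralizer_iff.1 h.2 d rfl)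
    · exact Subtype.ext hdd
    · intro h
      exact hd1 (congrArg Subtype.val h)
    · intro x
      obtain ⟨x', rfl⟩ := e.surjective x
      obtain ⟨y, rfl⟩ := QuotientGroup.mk_surjective x'
      exact ⟨y, rfl⟩
    · intro h hh
      exact (hN h).1 ((hker h).1 hh)
    · exact (hker _).2 ((hN _).2 (Or.inr rfl))
  obtain ⟨w, v, h, hth⟩ := UTh.thompson_eq hF D S
  have hA' : A = UTh.AG φ w := by rw [hA, hth]; rfl
  have hmm := UTh.mm_eq hF D h hnwc hq.1.commutator_eq_top
  subst hA'
  refine ⟨⟨⟨⟨fun a b => Subtype.ext (UTh.AG_comm hF D h a.2 b.2)⟩⟩, fun a ha => ?_⟩, UTh.card_AG hF D h, hmm, ?_⟩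
  · rw [sq]; exact UTh.AG_sq hF D h ha
  · intro x hx y hy hdx hdy
    obtain ⟨n, hn, hnx⟩ := UTh.trans_AG hF D h hx hdx
    obtain ⟨k, hk, hky⟩ := UTh.trans_AG hF D h hy hdy
    refine ⟨k * n⁻¹, mul_mem hk (inv_mem hn), ?_⟩
    rw [← hnx, ← hky]
    group

end Cfsg.Agent.S5454
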