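import Cfsg.Statements.S5455
import Cfsg.Agent.FTh.Main

set_option autoImplicit false
open Cfsg

namespace Cfsg.Agent.S5455

/-- Let G be a finite group with an involution d whose centralizer C is quasisimple, such that C modulo the subgroup generated by d is of type M(22) with respect to some conjugacy class of 3-transpositions generating it and also has an involution whose own centralizer is quasisimple with quotient by it isomorphic to the projective special unitary group of dimension 6 over the field with four elements and which is not weakly closed in that centralizer; and suppose some conjugate of d other than d commutes with d. Let S be a Sylow 2-subgroup of C and A the Thompson subgroup of S, regarded as a subgroup of G. Then A is elementary abelian of order 2^11, exactly 23 conjugates of d lie in A, and the normalizer of A permutes them transitively. -/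
theorem result {G : Type*} [Group G] [Finite G] (d : G) (hd : orderOf d = 2) (hq : Cfsg.IsQuasisimple ↥(Subgroup.centralizer ({d} : Set G))) [hzn : ((Subgroup.zpowers d).subgroupOf (Subgroup.centralizer ({d} : Set G))).Normal] (htype : ∃ E : Set (↥(Subgroup.centralizer ({d} : Set G)) ⧸ (Subgroup.zpowers d).subgroupOf (Subgroup.centralizer ({d} : Set G))), Cfsg.IsThreeTranspositionClass E ∧ Cfsg.IsOfTypeM22 _ E) (hinvol : ∃ d' : ↥(Subgroup.centralizer ({d} : Set G)) ⧸ (Subgroup.zpowers d).subgroupOf (Subgroup.centralizer ({d} : Set G)), orderOf d' = 2 ∧ Cfsg.IsQuasisimple ↥(Subgroup.centralizer ({d'} : Set _)) ∧ (∃ (K : Type) (_ : Field K) (_ : Fintype K), Fintype.card K = 4 ∧ ∃ _ : ((Subgroup.zpowers d').subgroupOf (Subgroup.centralizer ({d'} : Set _))).Normal, Nonempty (↥(Subgroup.centralizer ({d'} : Set _)) ⧸ (Subgroup.zpowers d').subgroupOf (Subgroup.centralizer ({d'} : Set _)) ≃* Cfsg.PSU 6 K 2)) ∧ ∃ g, g * d' * g⁻¹ ∈ Subgroup.centralizer ({d'} : Set _) ∧ g * d' * g⁻¹ ≠ d') (hnwc : ∃ g : G,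 g * d * g⁻¹ ∈ Subgroup.centralizer ({d} : Set G) ∧ g * d * g⁻¹ ≠ d) (S : Sylow 2 ↥(Subgroup.centralizer ({d} : Set G))) (A : Subgroup G) (hA : A = (Cfsg.thompsonSubgroupOf 2 (S : Subgroup ↥(Subgroup.centralizer ({d} : Set G)))).map (Subgroup.centralizer ({d} : Set G)).subtype) : Cfsg.IsElementaryAbelian 2 A ∧ Nat.card A = 2 ^ 11 ∧ Set.ncard {x : G | x ∈ A ∧ IsConj d x} = 23 ∧ ∀ x ∈ A, ∀ y ∈ A, IsConj d x → IsConj d y → ∃ n ∈ Subgroup.normalizer (A : Set G), n * x * n⁻¹ = y := by
  have hdd : d * d = 1 := by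
    have := pow_orderOf_eq_one d
    rwa [hd, sq] at this
  have hd1 : d ≠ 1 := by
    rintro rfl
    rw [orderOf_one] at hd
    omega
  have hmem : ∀ g : G, g ∈ Subgroup.zpowers d ↔ g = 1 ∨ g = d := by
    intro g
    constructor
    · rintro ⟨k, rfl⟩
      rcases Int.even_or_odd' k with ⟨m, rfl | rfl⟩
      · left
        show d ^ (2 * m) = 1
        rw [zpow_mul, zpow_ofNat, sq, hdd, one_zpow]
      · right
        show d ^ (2 * m + 1) = d
        rw [zpow_add_one, zpow_mul, zpow_ofNat, sq, hdd, one_zpow, one_mul]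
    · rintro (rfl | h)
      · exact one_mem _
      · rw [h]; exact Subgroup.mem_zpowers d
  let N := (Subgroup.zpowers d).subgroupOf (Subgroup.centralizer ({d} : Set G))
  have hN : ∀ y : ↥(Subgroup.centralizer ({d} : Set G)), y ∈ N ↔ (y = 1 ∨ y = UTh.zC d) := by
    intro y
    rw [Subgroup.mem_subgroupOf, hmem]
    constructor
    · rintro (h | h)
      · left; exact Subtype.ext h
      · right; exact Subtype.ext h
    · rintro (rfl | rfl)
      · left; rfl
      · right; rfl
  let φ : ↥(Subgroup.centralizer ({d} : Set G)) →* ↥(Subgroup.centralizer ({d} : Set G)) ⧸ N :=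
    QuotientGroup.mk' N
  have hker : ∀ y, φ y = 1 ↔ y ∈ N := by
    intro y
    exact QuotientGroup.eq_one_iff y
  have hcen : ∀ h : ↥(Subgroup.centralizer ({d} : Set G)), UTh.zC d * h = h * UTh.zC d := by
    intro h
    apply Subtype.ext
    exact (Subgroup.mem_centralizer_iff.1 h.2 d rfl)
  have D : UDbl.DC φ (UTh.zC d) := by
    refine ⟨hcen, ?_, ?_, ?_, ?_, ?_⟩
    · exact Subtype.ext hdd
    · intro h
      exact hd1 (congrArg Subtype.val h)
    · exact QuotientGroup.mk'_surjective N
    · intro h hh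
      exact (hN h).1 ((hker h).1 hh)
    · exact (hker _).2 ((hN _).2 (Or.inr rfl))
  obtain ⟨E, hE, h22⟩ := htype
  have hNc : N ≤ Subgroup.center _ := by
    intro y hy
    rcases (hN y).1 hy with rfl | rfl
    · exact one_mem _
    · rw [Subgroup.mem_center_iff]
      intro g
      exact (hcen g).symm
  have hE22 : Fi22.H22 E := UDbl.h22_of_quasi hq N hNc hE h22
  obtain ⟨f, hf⟩ := FTh.exists_num D hE22
  obtain ⟨E0, h0, hth⟩ := FTh.thompson_eq' D hE22 S
  have hA' : A = FTh.up (FTh.AA φ E0) := by rw [hA, hth]; rfl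
  have hmm := FTh.f_values D hE22 hf h0 hnwc hq.1.commutator_eq_top
  have SS := FTh.sys D hE22
  have hAF : FTh.AA φ E0 ∈ FTh.FF φ E := ⟨E0, h0, rfl⟩
  subst hA'
  refine ⟨⟨⟨⟨fun a b => Subtype.ext (FTh.up_comm SS hAF a.2 b.2)⟩⟩, fun a ha => ?_⟩, FTh.card_up SS hAF, hmm, ?_⟩
  · rw [sq]; exact FTh.up_sq SS hAF ha
  · intro x hx y hy hdx hdy
    obtain ⟨n, hn, hnx⟩ := FTh.trans_up SS hAF hx hdx
    obtain ⟨k, hk, hky⟩ := FTh.trans_up SS hAF hy hdy
    refine ⟨k * n⁻¹, mul_mem hk (inv_mem hn), ?_⟩
    rw [← hnx, ← hky]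
    group

end Cfsg.Agent.S5455
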