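import Cfsg.Statements.S5459

set_option autoImplicit false
open Cfsg

namespace Cfsg.Agent.S5459

open scoped commutatorElement

/-- In a group an involution `e`, `f` both inverting `z`, with `z ^ 4 = (e f) ^ 2`: then `z f z⁻¹` commutes with `e`. -/
theorem commute_of_pow_four {G : Type*} [Group G] {e f z : G} (he : e * e = 1) (hf : f * f = 1)
    (hez : e * z * e⁻¹ = z⁻¹) (hfz : f * z * f⁻¹ = z⁻¹) (h4 : z ^ 4 = (e * f) ^ 2) :
    e * (z * f * z⁻¹) = (z * f * z⁻¹) * e := by
  have he' : e⁻¹ = e := by rw [inv_eq_iff_mul_eq_one]; exact he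
  have hf' : f⁻¹ = f := by rw [inv_eq_iff_mul_eq_one]; exact hf
  have e1 : e * z = z⁻¹ * e := by rw [← hez]; group
  have f1 : f * z = z⁻¹ * f := by rw [← hfz]; group
  have e2 : e * z⁻¹ = z * e := by
    have : z * e = z * (e * z) * z⁻¹ := by group
    rw [this, e1]; group
  have f2 : f * z⁻¹ = z * f := by
    have : z * f = z * (f * z) * z⁻¹ := by group
    rw [this, f1]; group
  have h1 : z * f * z⁻¹ = z * z * f := by rw [mul_assoc, f2]; group
  rw [h1]
  -- e z z f = z⁻² e f ; z z f e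
  have h2 : e * (z * z * f) = z⁻¹ * z⁻¹ * (e * f) := by
    have e1' : ∀ w, e * (z * w) = z⁻¹ * (e * w) := fun w => by rw [← mul_assoc, e1, mul_assoc]
    simp only [mul_assoc, e1']
  rw [h2]
  have h3 : (e * f) ^ 2 * (f * e) = e * f := by
    rw [pow_two]
    calc e * f * (e * f) * (f * e) = e * f * (e * (f * f) * e) := by group
      _ = e * f := by rw [hf, mul_one, he, mul_one]
  have h5 : z * z * z * z * (f * e) = e * f := by
    have : z * z * z * z = z ^ 4 := by simp only [pow_succ, pow_zero, one_mul]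
    rw [this, h4, h3]
  calc z⁻¹ * z⁻¹ * (e * f) = z⁻¹ * z⁻¹ * (z * z * z * z * (f * e)) := by rw [h5]
    _ = z * z * f * e := by simp only [mul_assoc, inv_mul_cancel_left]


/-- Let G be a finite group with a quasisimple normal subgroup L and an involution d such that G is generated by L and d, the centre of L has odd order, and d inverts every element of the centre of L. If the commuting graph on the conjugacy class of the image of d in G modulo the centre of L is connected, then the commuting graph on the conjugacy class of d is connected. -/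
theorem result {G : Type*} [Group G] [Finite G] (L : Subgroup G) [L.Normal] (hL : Cfsg.IsQuasisimple ↥L) (d : G) (hd : orderOf d = 2) (hgen : L ⊔ Subgroup.zpowers d = ⊤) (hodd : Odd (Nat.card ↥(Subgroup.center ↥L))) (hinv : ∀ c ∈ (Subgroup.center ↥L).map L.subtype, d * c * d⁻¹ = c⁻¹) [hn : ((Subgroup.center ↥L).map L.subtype).Normal] (hconn : (Cfsg.commutingGraph (conjugatesOf (QuotientGroup.mk d : G ⧸ (Subgroup.center ↥L).map L.subtype))).Connected) : (Cfsg.commutingGraph (conjugatesOf d)).Connected := by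
  classical
  set Z : Subgroup G := (Subgroup.center ↥L).map L.subtype with hZ
  set D : Set G := conjugatesOf d with hD
  have hdD : d ∈ D := mem_conjugatesOf_self
  have hmem : ∀ e : G, e ∈ D ↔ ∃ g : G, g * d * g⁻¹ = e := by
    intro e
    rw [hD]; exact isConj_iff
  have hconjD : ∀ (g : G) (e : G), e ∈ D → g * e * g⁻¹ ∈ D := by
    intro g e he
    obtain ⟨h, rfl⟩ := (hmem e).1 he
    exact (hmem _).2 ⟨g * h, by group⟩
  have hdd : d * d = 1 := by
    rw [← pow_two, ← hd, pow_orderOf_eq_one]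
  have hsq : ∀ e ∈ D, e * e = 1 := by
    intro e he
    obtain ⟨g, rfl⟩ := (hmem e).1 he
    calc g * d * g⁻¹ * (g * d * g⁻¹) = g * (d * d) * g⁻¹ := by group
      _ = 1 := by rw [hdd]; group
  have hZL : Z ≤ L := by
    rw [hZ]; exact Subgroup.map_subtype_le _
  have hZcomm : ∀ z ∈ Z, ∀ x ∈ L, z * x = x * z := by
    rintro _ ⟨z, hz, rfl⟩ x hx
    have := (Subgroup.mem_center_iff.1 hz) ⟨x, hx⟩
    exact (congrArg Subtype.val this).symm
  have hinvD : ∀ e ∈ D, ∀ c ∈ Z, e * c * e⁻¹ = c⁻¹ := by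
    intro e he c hc
    obtain ⟨g, rfl⟩ := (hmem e).1 he
    have h1 : g⁻¹ * c * g ∈ Z := by
      have := hn.conj_mem c hc g⁻¹
      simpa using this
    have h2 := hinv _ h1
    calc g * d * g⁻¹ * c * (g * d * g⁻¹)⁻¹ = g * (d * (g⁻¹ * c * g) * d⁻¹) * g⁻¹ := by group
      _ = g * (g⁻¹ * c * g)⁻¹ * g⁻¹ := by rw [h2]
      _ = c⁻¹ := by group
  have hZcard : Nat.card Z = Nat.card (Subgroup.center ↥L) :=
    Subgroup.card_map_of_injective L.subtype_injective
  have hroot : ∀ w ∈ Z, ∃ z ∈ Z, z ^ 4 = w := by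
    intro w hw
    have hcop : (Nat.card Z).Coprime 4 := by
      rw [hZcard]
      exact Nat.Coprime.pow_right 2 (Nat.coprime_two_right.2 hodd)
    obtain ⟨z, hz⟩ := (powCoprime (G := Z) hcop).surjective ⟨w, hw⟩
    refine ⟨z, z.2, ?_⟩
    have : z ^ 4 = (⟨w, hw⟩ : Z) := hz
    have h2 := congrArg Subtype.val this
    simpa using h2
  have hroot2 : ∀ w ∈ Z, ∃ z ∈ Z, z * z = w := by
    intro w hw
    obtain ⟨z, hz, hzw⟩ := hroot w hw
    exact ⟨z * z, Z.mul_mem hz hz, by rw [← hzw]; simp only [pow_succ, pow_zero, one_mul, mul_assoc]⟩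
  -- the graph
  set Γ := Cfsg.commutingGraph D with hΓ
  have hadj : ∀ a b : D, Γ.Adj a b ↔ (a : G) ≠ b ∧ (a : G) * b = b * a := by
    intro a b
    rw [hΓ, Cfsg.commutingGraph, SimpleGraph.fromRel_adj]
    constructor
    · rintro ⟨h1, h2⟩
      refine ⟨fun h => h1 (Subtype.ext h), ?_⟩
      rcases h2 with h2 | h2
      · exact h2
      · exact h2.symm
    · rintro ⟨h1, h2⟩
      exact ⟨fun h => h1 (congrArg Subtype.val h), Or.inl h2⟩
  let cv : G → D → D := fun g v => ⟨g * v * g⁻¹, hconjD g v v.2⟩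
  have hcv : ∀ g (u v : D), Γ.Reachable u v → Γ.Reachable (cv g u) (cv g v) := by
    intro g u v h
    let f : Γ →g Γ :=
      { toFun := cv g
        map_rel' := by
          intro a b hab
          rw [hadj] at hab ⊢
          refine ⟨?_, ?_⟩
          · intro h
            apply hab.1
            have h1 : g * (a : G) * g⁻¹ = g * (b : G) * g⁻¹ := h
            calc (a : G) = g⁻¹ * (g * a * g⁻¹) * g := by group
              _ = g⁻¹ * (g * b * g⁻¹) * g := by rw [h1]
              _ = b := by group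
          · change g * (a : G) * g⁻¹ * (g * b * g⁻¹) = g * (b : G) * g⁻¹ * (g * a * g⁻¹)
            calc g * (a : G) * g⁻¹ * (g * b * g⁻¹) = g * (a * b) * g⁻¹ := by group
              _ = g * (b * a) * g⁻¹ := by rw [hab.2]
              _ = _ := by group }
    exact h.map f
  let v₀ : D := ⟨d, hdD⟩
  -- lifting of walks
  set q : G → G ⧸ Z := QuotientGroup.mk with hq
  have hlift : ∀ x : conjugatesOf (q d), (Cfsg.commutingGraph (conjugatesOf (q d))).Reachable ⟨q d, mem_conjugatesOf_self⟩ x →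
      ∀ f : D, q f = x → ∃ z ∈ Z, Γ.Reachable v₀ (cv z f) := by
    intro x hx
    rw [SimpleGraph.reachable_iff_reflTransGen] at hx
    induction hx with
    | refl =>
      intro f hf
      have h1 : (f : G) * d⁻¹ ∈ Z := by
        have h2 : q (f : G) = q d := hf
        have h3 := QuotientGroup.eq.1 h2.symm
        have := hn.conj_mem _ h3 d
        have e : d * (d⁻¹ * (f : G)) * d⁻¹ = f * d⁻¹ := by group
        rwa [e] at this
      obtain ⟨z, hz, hzz⟩ := hroot2 _ h1
      refine ⟨z⁻¹, Z.inv_mem hz, ?_⟩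
      have h4 : cv z⁻¹ f = v₀ := by
        apply Subtype.ext
        change z⁻¹ * (f : G) * z⁻¹⁻¹ = d
        have h5 : (f : G) = z * z * d := by rw [hzz]; group
        have h6 : d * z * d⁻¹ = z⁻¹ := hinv z hz
        have h7 : d * z = z⁻¹ * d := by rw [← h6]; group
        rw [h5]
        calc z⁻¹ * (z * z * d) * z⁻¹⁻¹ = z * (d * z) := by group
          _ = d := by rw [h7]; group
      rw [h4]
    | tail _ hadj' ih =>
      rename_i b c _
      intro f hf
      obtain ⟨g, hg⟩ : ∃ g : G, q (g * d * g⁻¹) = b := by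
        have hb : IsConj (q d) (b : G ⧸ Z) := b.2
        rw [isConj_iff] at hb
        obtain ⟨gb, hgb⟩ := hb
        obtain ⟨g, rfl⟩ := QuotientGroup.mk_surjective gb
        exact ⟨g, hgb⟩
      obtain ⟨z₁, hz₁, hr⟩ := ih ⟨g * d * g⁻¹, (hmem _).2 ⟨g, rfl⟩⟩ hg
      set e : D := cv z₁ ⟨g * d * g⁻¹, (hmem _).2 ⟨g, rfl⟩⟩ with he
      have hqe : q (e : G) = b := by
        have h1 : q (z₁ * (g * d * g⁻¹) * z₁⁻¹) = q z₁ * q (g * d * g⁻¹) * q z₁⁻¹ := rfl
        have h2 : q z₁ = 1 := (QuotientGroup.eq_one_iff z₁).2 hz₁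
        have h3 : q z₁⁻¹ = 1 := (QuotientGroup.eq_one_iff _).2 (Z.inv_mem hz₁)
        change q (z₁ * (g * d * g⁻¹) * z₁⁻¹) = b
        rw [h1, h2, h3, one_mul, mul_one, hg]
      have hbc : (b : G ⧸ Z) ≠ c ∧ (b : G ⧸ Z) * c = c * b := by
        rw [Cfsg.commutingGraph, SimpleGraph.fromRel_adj] at hadj'
        refine ⟨fun h => hadj'.1 (Subtype.ext h), ?_⟩
        rcases hadj'.2 with h2 | h2
        · exact h2
        · exact h2.symm
      have hw : ((e : G) * f) ^ 2 ∈ Z := by
        rw [← QuotientGroup.eq_one_iff]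
        have h1 : (q (((e : G) * f) ^ 2)) = (b * c) * (b * c) := by
          rw [← hqe, ← hf, pow_two]; rfl
        have hb2 : (b : G ⧸ Z) * b = 1 := by
          rw [← hqe]
          change q ((e : G) * e) = 1
          rw [hsq _ e.2]; rfl
        have hc2 : (c : G ⧸ Z) * c = 1 := by
          rw [← hf]
          change q ((f : G) * f) = 1
          rw [hsq _ f.2]; rfl
        change q (((e : G) * f) ^ 2) = 1
        rw [h1]
        calc (b : G ⧸ Z) * c * (b * c) = b * (c * b) * c := by group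
          _ = b * (b * c) * c := by rw [hbc.2]
          _ = (b * b) * (c * c) := by group
          _ = 1 := by rw [hb2, hc2, one_mul]
      obtain ⟨z, hz, hz4⟩ := hroot _ hw
      refine ⟨z, hz, hr.trans ?_⟩
      apply SimpleGraph.Adj.reachable
      rw [hadj]
      constructor
      · intro h
        apply hbc.1
        rw [← hqe, ← hf, h]
        have h1 : q (z * (f : G) * z⁻¹) = q z * q f * q z⁻¹ := rfl
        have h2 : q z = 1 := (QuotientGroup.eq_one_iff z).2 hz
        have h3 : q z⁻¹ = 1 := (QuotientGroup.eq_one_iff _).2 (Z.inv_mem hz)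
        change q (z * (f : G) * z⁻¹) = q f
        rw [h1, h2, h3, one_mul, mul_one]
      · exact commute_of_pow_four (hsq _ e.2) (hsq _ f.2) (hinvD _ e.2 z hz) (hinvD _ f.2 z hz) hz4
  -- the stabilizer of the component
  have hcv1 : ∀ v : D, cv 1 v = v := by
    intro v; apply Subtype.ext; change 1 * (v : G) * 1⁻¹ = v; group
  have hcvmul : ∀ g h (v : D), cv g (cv h v) = cv (g * h) v := by
    intro g h v; apply Subtype.ext
    change g * (h * (v : G) * h⁻¹) * g⁻¹ = (g * h) * v * (g * h)⁻¹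
    group
  let N : Subgroup G :=
    { carrier := {g | Γ.Reachable v₀ (cv g v₀)}
      one_mem' := by change Γ.Reachable v₀ (cv 1 v₀); rw [hcv1]
      mul_mem' := by
        intro a b ha hb
        change Γ.Reachable v₀ (cv (a * b) v₀)
        rw [← hcvmul]
        exact SimpleGraph.Reachable.trans ha (hcv a _ _ hb)
      inv_mem' := by
        intro a ha
        change Γ.Reachable v₀ (cv a⁻¹ v₀)
        have := hcv a⁻¹ _ _ ha
        rw [hcvmul, inv_mul_cancel, hcv1] at this
        exact this.symm }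
  have hNZ : ∀ g : G, ∃ z ∈ Z, z * g ∈ N := by
    intro g
    have hc := hconn.preconnected ⟨q d, mem_conjugatesOf_self⟩ ⟨q (g * d * g⁻¹), by
      exact isConj_iff.2 ⟨q g, rfl⟩⟩
    obtain ⟨z, hz, hr⟩ := hlift _ hc ⟨g * d * g⁻¹, (hmem _).2 ⟨g, rfl⟩⟩ rfl
    refine ⟨z, hz, ?_⟩
    change Γ.Reachable v₀ (cv (z * g) v₀)
    rw [← hcvmul]
    exact hr
  have hperf : ⁅L, L⁆ = L := Subgroup.isPerfect_iff.1 hL.1
  have hLN : L ≤ N := by
    rw [← hperf, Subgroup.commutator_le]
    intro x hx y hy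
    obtain ⟨z₁, hz₁, hn₁⟩ := hNZ x
    obtain ⟨z₂, hz₂, hn₂⟩ := hNZ y
    have hcomm : ⁅z₁ * x, z₂ * y⁆ = ⁅x, y⁆ := by
      have hx' : z₁ * x = x * z₁ := hZcomm _ hz₁ _ hx
      have c1 : ∀ w ∈ L, z₁ * w * z₁⁻¹ = w := fun w hw => by rw [hZcomm _ hz₁ _ hw]; group
      have c2 : ∀ w ∈ L, z₂ * w * z₂⁻¹ = w := fun w hw => by rw [hZcomm _ hz₂ _ hw]; group
      rw [commutatorElement_def, commutatorElement_def]
      have m1 : x * (z₂ * y) * x⁻¹ ∈ L := L.mul_mem (L.mul_mem hx (L.mul_mem (hZL hz₂) hy)) (L.inv_mem hx)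
      calc z₁ * x * (z₂ * y) * (z₁ * x)⁻¹ * (z₂ * y)⁻¹ = (z₁ * (x * (z₂ * y) * x⁻¹) * z₁⁻¹) * (z₂ * y)⁻¹ := by group
        _ = (x * (z₂ * y) * x⁻¹) * (z₂ * y)⁻¹ := by rw [c1 _ m1]
        _ = x * (z₂ * (y * x⁻¹ * y⁻¹) * z₂⁻¹) := by group
        _ = x * (y * x⁻¹ * y⁻¹) := by
          rw [c2 _ (L.mul_mem (L.mul_mem hy (L.inv_mem hx)) (L.inv_mem hy))]
        _ = x * y * x⁻¹ * y⁻¹ := by group
    rw [← hcomm, commutatorElement_def]
    exact N.mul_mem (N.mul_mem (N.mul_mem hn₁ hn₂) (N.inv_mem hn₁)) (N.inv_mem hn₂)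
  have hNtop : ∀ g : G, g ∈ N := by
    intro g
    obtain ⟨z, hz, hn'⟩ := hNZ g
    have : g = z⁻¹ * (z * g) := by group
    rw [this]
    exact N.mul_mem (N.inv_mem (hLN (hZL hz))) hn'
  have hreach : ∀ v : D, Γ.Reachable v₀ v := by
    intro v
    obtain ⟨g, hg⟩ := (hmem v).1 v.2
    have h1 : v = cv g v₀ := Subtype.ext hg.symm
    rw [h1]
    exact hNtop g
  haveI : Nonempty D := ⟨v₀⟩
  exact ⟨fun u v => (hreach u).symm.trans (hreach v)⟩

end Cfsg.Agent.S5459
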