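import Cfsg.Statements.S5517
import Cfsg.Agent.Fi22.Uniq
import Cfsg.Agent.S1685
import Cfsg.Agent.S1686

set_option autoImplicit false
open Cfsg

namespace Cfsg.Agent.S5517

/-- Let G be a finite group with trivial centre generated by a conjugation-invariant set D of 3-transpositions on which it acts primitively, such that for some d in D the subgroup generated by the members of D other than d commuting with d has central largest normal 2- and 3-subgroups, and suppose G with D is of type M(22). Then G has a subgroup L generated by the members of D it contains and isomorphic to Ω(7, 3) (the commutator subgroup of the isometry group of a non-degenerate 7-dimensional quadratic form over the field with three elements, modulo its centre), and every Sylow 3-subgroup of L is a Sylow 3-subgroup of G. -/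
theorem result {G : Type*} [Group G] [Finite G] {D : Set G} (hD : Cfsg.IsThreeTranspositionGroup D) (hprim : Cfsg.IsPrimitiveUnderConj D) (d₀ : G) (hd₀ : d₀ ∈ D) (h3 : Cfsg.pCore 3 ↥(Subgroup.closure {y : G | y ∈ D ∧ y ≠ d₀ ∧ Commute d₀ y}) ≤ Subgroup.center ↥(Subgroup.closure {y : G | y ∈ D ∧ y ≠ d₀ ∧ Commute d₀ y})) (h2 : Cfsg.pCore 2 ↥(Subgroup.closure {y : G | y ∈ D ∧ y ≠ d₀ ∧ Commute d₀ y}) ≤ Subgroup.center ↥(Subgroup.closure {y : G | y ∈ D ∧ y ≠ d₀ ∧ Commute d₀ y})) (h22 : Cfsg.IsOfTypeM22 G D) : ∃ L : Subgroup G, Cfsg.IsDSubgroup D L ∧ Nonempty (↥L ≃* Cfsg.POmega (ZMod 3) (Cfsg.quadFormOdd 3 (ZMod 3))) ∧ ∀ P : Sylow 3 ↥L, ∃ P' : Sylow 3 G, (P : Subgroup ↥L).map L.subtype = (P' : Subgroup G) := by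
  have H := Cfsg.Agent.Fi22.H22.of_primitive hD hprim h22
  obtain ⟨e, hgen, -⟩ := H.exists_iso
  set S : Set (FreeGroup Cfsg.Spor.Fi22.Gen) := {Cfsg.Spor.Fi22.b, Cfsg.Spor.Fi22.c, Cfsg.Spor.Fi22.d,
    Cfsg.Spor.Fi22.e, Cfsg.Spor.Fi22.f, Cfsg.Spor.Fi22.g, Cfsg.Spor.Fi22.h, Cfsg.Spor.Fi22.i} with hS
  have h0 : Nonempty (((Subgroup.closure S).map (PresentedGroup.mk (Cfsg.Spor.coxRelators Cfsg.Spor.Fi22.edges ∪
      {r | r ∈ Cfsg.Spor.Fi22.extra}))) ≃* Cfsg.POmega (ZMod 3) (Cfsg.quadFormOdd 3 (ZMod 3))) :=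
    Cfsg.Agent.S1686.result
  have h1 : ((Subgroup.closure S).map (PresentedGroup.mk (Cfsg.Spor.coxRelators Cfsg.Spor.Fi22.edges ∪
      {r | r ∈ Cfsg.Spor.Fi22.extra}))).index = 14080 := Cfsg.Agent.S1685.result
  set L₀ : Subgroup Cfsg.Spor.Fi22 := (Subgroup.closure S).map (PresentedGroup.mk
    (Cfsg.Spor.coxRelators Cfsg.Spor.Fi22.edges ∪ {r | r ∈ Cfsg.Spor.Fi22.extra})) with hL₀
  set L : Subgroup G := L₀.map (e.symm : Cfsg.Spor.Fi22 →* G) with hL
  have hidx : L.index = 14080 := by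
    rw [hL, ← h1]
    exact Subgroup.index_map_equiv L₀ e.symm
  refine ⟨L, ?_, ?_, ?_⟩
  · apply le_antisymm
    · rw [Subgroup.closure_le]
      exact fun x hx => hx.2
    · rw [hL, hL₀, MonoidHom.map_closure, MonoidHom.map_closure, Subgroup.closure_le]
      rintro _ ⟨_, ⟨s, hs, rfl⟩, rfl⟩
      apply Subgroup.subset_closure
      have hx : ∃ x : Cfsg.Spor.Fi22.Gen, PresentedGroup.mk (Cfsg.Spor.coxRelators Cfsg.Spor.Fi22.edges ∪
          {r | r ∈ Cfsg.Spor.Fi22.extra}) s = Cfsg.Agent.Fi22.gX x := by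
        simp only [hS, Set.mem_insert_iff, Set.mem_singleton_iff] at hs
        rcases hs with rfl | rfl | rfl | rfl | rfl | rfl | rfl | rfl
        exacts [⟨.b, rfl⟩, ⟨.c, rfl⟩, ⟨.d, rfl⟩, ⟨.e, rfl⟩, ⟨.f, rfl⟩, ⟨.g, rfl⟩, ⟨.h, rfl⟩, ⟨.i, rfl⟩]
      constructor
      · obtain ⟨x, hx⟩ := hx
        rw [hx]
        obtain ⟨y, hy, hyx⟩ := hgen x
        rw [← hyx]
        have : (e.symm : Cfsg.Spor.Fi22 →* G) (e y) = y := e.symm_apply_apply y
        rw [this]
        exact hy
      · exact Subgroup.subset_closure ⟨_, ⟨s, hs, rfl⟩, rfl⟩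
  · obtain ⟨f⟩ := h0
    exact ⟨(L₀.equivMapOfInjective _ e.symm.injective).symm.trans f⟩
  · have : Fact (Nat.Prime 3) := ⟨Nat.prime_three⟩
    intro P
    have hc := L.card_mul_index
    rw [hidx] at hc
    have hf : (Nat.card G).factorization 3 = (Nat.card L).factorization 3 := by
      rw [← hc, Nat.factorization_mul Nat.card_pos.ne' (by norm_num), Finsupp.add_apply]
      have : (14080 : ℕ).factorization 3 = 0 := Nat.factorization_eq_zero_of_not_dvd (by norm_num)
      rw [this, add_zero]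
    have hcard : Nat.card ((P : Subgroup L).map L.subtype) = 3 ^ (Nat.card G).factorization 3 := by
      rw [hf, ← P.card_eq_multiplicity]
      exact Nat.card_congr ((P : Subgroup L).equivMapOfInjective _ L.subtype_injective).symm.toEquiv
    exact ⟨Sylow.ofCard _ hcard, rfl⟩
end Cfsg.Agent.S5517
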