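import Cfsg.Statements.S5541

set_option autoImplicit false
open Cfsg

namespace Cfsg.Agent.S5541

theorem sq_eq_one_iff_of_side_cond {c : ℝ} (h : c ^ 2 = 1) : c = 1 ∨ c = -1 := by
  have : (c - 1) * (c + 1) = 0 := by ring_nf; linarith
  rcases mul_eq_zero.mp this with h | h
  · left; linarith
  · right; linarith

/-- Let ρ be a representation of a group H on a finite-dimensional real vector space U whose only ρ-invariant subspaces are the zero subspace and U, and suppose U carries a non-zero ρ-invariant symmetric bilinear form. Then the following are equivalent: (1) there is a non-zero ρ-equivariant commutative bilinear product on U of which every ρ-equivariant bilinear product is a scalar multiple; (2) there is a non-zero ρ-invariant trilinear form on U that is symmetric under all permutations of its arguments and of which every ρ-invariant trilinear form is a scalar multiple. -/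
theorem result {H : Type*} [Group H] {U : Type*} [AddCommGroup U] [Module ℝ U] [FiniteDimensional ℝ U] (ρ : Representation ℝ H U) (hirr : ∀ W : Submodule ℝ U, (∀ g : H, W.map (ρ g) ≤ W) → W = ⊥ ∨ W = ⊤) (B : LinearMap.BilinForm ℝ U) (hB0 : B ≠ 0) (hBs : ∀ u v, B u v = B v u) (hBi : ∀ (g : H) (u v : U), B (ρ g u) (ρ g v) = B u v) : (∃ m : U →ₗ[ℝ] U →ₗ[ℝ] U, m ≠ 0 ∧ (∀ u v, m u v = m v u) ∧ (∀ (g : H) (u v : U), m (ρ g u) (ρ g v) = ρ g (m u v)) ∧ ∀ m' : U →ₗ[ℝ] U →ₗ[ℝ] U, (∀ (g : H) (u v : U), m' (ρ g u) (ρ g v) = ρ g (m' u v)) → ∃ c : ℝ, m' = c • m) ↔ (∃ t : U →ₗ[ℝ] U →ₗ[ℝ] U →ₗ[ℝ] ℝ, t ≠ 0 ∧ (∀ u v w, t u v w = t v u w ∧ t u v w = t u w v) ∧ (∀ (g : H) (u v w : U), t (ρ g u) (ρ g v) (ρ g w) = t u v w) ∧ ∀ t' : U →ₗ[ℝ] U →ₗ[ℝ] U →ₗ[ℝ] ℝ, (∀ (g : H) (u v w : U), t' (ρ g u) (ρ g v) (ρ g w) = t' u v w) → ∃ c : ℝ, t' = c • t) := by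
  have hrr : ∀ (g : H) (v : U), ρ g (ρ g⁻¹ v) = v := by
    intro g v
    rw [← Module.End.mul_apply, ← map_mul]; simp
  -- the kernel of `B` is trivial
  have hker : LinearMap.ker B = ⊥ := by
    rcases hirr (LinearMap.ker B) (by
      intro g
      rintro _ ⟨u, hu, rfl⟩
      have hu' : B u = 0 := hu
      show B (ρ g u) = 0
      ext v
      have := hBi g u (ρ g⁻¹ v)
      rw [hrr] at this
      rw [this, hu']; simp) with h | h
    · exact h
    · exact absurd (LinearMap.ker_eq_top.mp h) hB0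
  have hinj : Function.Injective B := LinearMap.ker_eq_bot.mp hker
  have hsep : ∀ x y : U, (∀ w, B x w = B y w) → x = y := fun x y h => hinj (LinearMap.ext h)
  have hfr : Module.finrank ℝ U = Module.finrank ℝ (Module.Dual ℝ U) := (Subspace.dual_finrank_eq).symm
  let e : U ≃ₗ[ℝ] Module.Dual ℝ U := LinearEquiv.ofInjectiveOfFinrankEq B hinj hfr
  have he : ∀ u v, e u v = B u v := fun u v => rfl
  have hes : ∀ f v, B (e.symm f) v = f v := by
    intro f v
    rw [← he, LinearEquiv.apply_symm_apply]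
  let Φ : (U →ₗ[ℝ] U →ₗ[ℝ] U) → (U →ₗ[ℝ] U →ₗ[ℝ] U →ₗ[ℝ] ℝ) := fun m => m.compr₂ B
  have hΦ : ∀ m u v w, Φ m u v w = B (m u v) w := fun m u v w => rfl
  let Ψ : (U →ₗ[ℝ] U →ₗ[ℝ] U →ₗ[ℝ] ℝ) → (U →ₗ[ℝ] U →ₗ[ℝ] U) := fun t => t.compr₂ (e.symm : Module.Dual ℝ U →ₗ[ℝ] U)
  have hΨ : ∀ t u v w, B (Ψ t u v) w = t u v w := fun t u v w => hes _ _
  constructor
  · rintro ⟨m, hm0, hmc, hme, hmu⟩
    have hinvΦ : ∀ (g : H) (u v w : U), Φ m (ρ g u) (ρ g v) (ρ g w) = Φ m u v w := by
      intro g u v w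
      rw [hΦ, hΦ, hme, hBi]
    have huniq : ∀ t' : U →ₗ[ℝ] U →ₗ[ℝ] U →ₗ[ℝ] ℝ, (∀ (g : H) (u v w : U), t' (ρ g u) (ρ g v) (ρ g w) = t' u v w) → ∃ c : ℝ, t' = c • Φ m := by
      intro t' ht'
      obtain ⟨c, hc⟩ := hmu (Ψ t') (by
        intro g u v
        apply hsep
        intro w
        rw [hΨ, ← hrr g w, hBi, hΨ, ht'])
      refine ⟨c, ?_⟩
      ext u v w
      rw [← hΨ, hc]
      simp [hΦ]
    have hΦ0 : Φ m ≠ 0 := by
      intro h
      apply hm0
      ext u v
      apply hsep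
      intro w
      rw [← hΦ, h]; simp
    refine ⟨Φ m, hΦ0, ?_, hinvΦ, huniq⟩
    -- symmetry
    obtain ⟨c, hc⟩ := huniq (LinearMap.mk₂ ℝ (fun u v => (Φ m u).flip v) (by intros; ext; simp) (by intros; ext; simp) (by intros; ext; simp) (by intros; ext; simp)) (by
      intro g u v w
      simp only [LinearMap.mk₂_apply, LinearMap.flip_apply]
      exact hinvΦ g u w v)
    have hc' : ∀ u v w, Φ m u w v = c * Φ m u v w := by
      intro u v w
      have := congrArg (fun t => t u v w) hc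
      simpa using this
    have hs12 : ∀ u v w, Φ m u v w = Φ m v u w := by
      intro u v w
      rw [hΦ, hΦ, hmc]
    -- c ^ 2 = 1
    have hc2 : c ^ 2 = 1 := by
      by_contra hne
      apply hΦ0
      ext u v w
      have h1 := hc' u v w
      have h2 := hc' u w v
      have h3 : (c ^ 2 - 1) * Φ m u v w = 0 := by
        rw [h1] at h2
        linear_combination - h2
      rcases mul_eq_zero.mp h3 with h | h
      · exact absurd (by linarith) hne
      · simpa using h
    have hc1 : c = 1 := by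
      rcases sq_eq_one_iff_of_side_cond hc2 with h | h
      · exact h
      · exfalso
        apply hΦ0
        ext u v w
        have e1 : Φ m u w v = - Φ m u v w := by rw [hc' u v w, h]; ring
        have e2 : Φ m v w u = - Φ m v u w := by rw [hc' v u w, h]; ring
        have e3 : Φ m w u v = - Φ m w v u := by rw [hc' w v u, h]; ring
        have s1 := hs12 u v w
        have s2 := hs12 v w u
        have s3 := hs12 w u v
        show Φ m u v w = 0
        linarith
    intro u v w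
    refine ⟨hs12 u v w, ?_⟩
    have := hc' u v w
    rw [hc1] at this
    linarith
  · rintro ⟨t, ht0, hts, hti, htu⟩
    have hΨe : ∀ (g : H) (u v : U), Ψ t (ρ g u) (ρ g v) = ρ g (Ψ t u v) := by
      intro g u v
      apply hsep
      intro w
      rw [hΨ, ← hrr g w, hBi, hΨ, hti]
    refine ⟨Ψ t, ?_, ?_, hΨe, ?_⟩
    · intro h
      apply ht0
      ext u v w
      rw [← hΨ, h]; simp
    · intro u v
      apply hsep
      intro w
      rw [hΨ, hΨ, (hts u v w).1]
    · intro m' hm'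
      obtain ⟨c, hc⟩ := htu (Φ m') (by
        intro g u v w
        rw [hΦ, hΦ, hm', hBi])
      refine ⟨c, ?_⟩
      ext u v
      apply hsep
      intro w
      rw [← hΦ, hc]
      simp [hΨ]

end Cfsg.Agent.S5541
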