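import Cfsg.Statements.S5543
import Cfsg.Agent.H92.Majorana

set_option autoImplicit false
open Cfsg

namespace Cfsg.Agent.S5543

open Cfsg.Agent.H92.Maj

/-- Let V be a finite-dimensional real vector space with a commutative bilinear product and a positive-definite symmetric bilinear form that associates with the product and satisfies the Norton inequality (the Majorana setting of the definitions). Let X be a group of linear automorphisms of V in which every element squares to the identity, and suppose every non-identity element x of X is a Majorana involution with an axial vector a(x) of squared length 1, such that for any two distinct non-identity x, y the product a(x) ∘ a(y) equals (1/8)(a(x) + a(y) − a(xy)) (the dihedral subalgebra of type 2A whose third axis belongs to the involution xy). Then X has order at most 4. -/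
theorem result {V : Type*} [AddCommGroup V] [Module ℝ V] [FiniteDimensional ℝ V] (mul : V →ₗ[ℝ] V →ₗ[ℝ] V) (B : LinearMap.BilinForm ℝ V) (hV : Cfsg.Axial.IsMajoranaAmbient mul B) (X : Subgroup (V ≃ₗ[ℝ] V)) (hX : ∀ x ∈ X, x * x = 1) (ax : (V ≃ₗ[ℝ] V) → V) (hax : ∀ x ∈ X, x ≠ 1 → Cfsg.Axial.IsMajoranaPair mul B x (ax x)) (h1 : ∀ x ∈ X, x ≠ 1 → B (ax x) (ax x) = 1) (h2A : ∀ x ∈ X, ∀ y ∈ X, x ≠ 1 → y ≠ 1 → x ≠ y → mul (ax x) (ax y) = (1 / 8 : ℝ) • (ax x + ax y - ax (x * y))) : Nat.card ↥X ≤ 4 := by
  by_contra hcard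
  push_neg at hcard
  have hfin : Finite X := Nat.finite_of_card_ne_zero (by omega)
  have hcomm : ∀ x ∈ X, ∀ y ∈ X, x * y = y * x := by
    intro x hx y hy
    have h := hX (x * y) (X.mul_mem hx hy)
    calc x * y = x * (x * y * (x * y)) * y := by rw [h]; simp
      _ = (x * x) * (y * x) * (y * y) := by group
      _ = y * x := by rw [hX x hx, hX y hy]; simp
  -- pick three independent elements
  have hpick : ∀ S : Finset X, S.card ≤ 4 → ∃ x : X, x ∉ S := by
    intro S hS
    by_contra hall
    push_neg at hall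
    have : Nat.card X ≤ S.card := by
      rw [← Nat.card_eq_finsetCard S]
      exact Nat.card_le_card_of_injective (fun x : X => (⟨x, hall x⟩ : S)) (fun a b hab => by simpa using hab)
    omega
  classical
  obtain ⟨x, hx⟩ := hpick {1} (by simp)
  obtain ⟨y, hy⟩ := hpick {1, x} (Finset.card_le_two.trans (by norm_num))
  obtain ⟨z, hz⟩ := hpick {1, x, y, x * y} Finset.card_le_four
  simp only [Finset.mem_insert, Finset.mem_singleton, not_or] at hx hy hz
  obtain ⟨x, hxX⟩ := x
  obtain ⟨y, hyX⟩ := y
  obtain ⟨z, hzX⟩ := z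
  have hx1 : x ≠ 1 := fun h => hx (Subtype.ext h)
  have hy1 : y ≠ 1 := fun h => hy.1 (Subtype.ext h)
  have hyx : y ≠ x := fun h => hy.2 (Subtype.ext h)
  have hz1 : z ≠ 1 := fun h => hz.1 (Subtype.ext h)
  have hzx : z ≠ x := fun h => hz.2.1 (Subtype.ext h)
  have hzy : z ≠ y := fun h => hz.2.2.1 (Subtype.ext h)
  have hzxy : z ≠ x * y := fun h => hz.2.2.2 (Subtype.ext h)
  have xx := hX x hxX
  have yy := hX y hyX
  have zz := hX z hzX
  have hxy := hcomm x hxX y hyX
  have hxz := hcomm x hxX z hzX
  have hyz := hcomm y hyX z hzX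
  have xy1 : x * y ≠ 1 := by
    intro h; apply hyx
    calc y = (x * x) * y := by rw [xx, one_mul]
      _ = x * (x * y) := by group
      _ = x := by rw [h, mul_one]
  have xz1 : x * z ≠ 1 := by
    intro h; apply hzx
    calc z = (x * x) * z := by rw [xx, one_mul]
      _ = x * (x * z) := by group
      _ = x := by rw [h, mul_one]
  have yz1 : y * z ≠ 1 := by
    intro h; apply hzy
    calc z = (y * y) * z := by rw [yy, one_mul]
      _ = y * (y * z) := by group
      _ = y := by rw [h, mul_one]
  have xyz1 : x * y * z ≠ 1 := by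
    intro h; apply hzxy
    calc z = ((x * y) * (x * y)) * z := by rw [hX _ (X.mul_mem hxX hyX), one_mul]
      _ = (x * y) * (x * y * z) := by group
      _ = x * y := by rw [h, mul_one]
  have hXY := X.mul_mem hxX hyX
  have hXZ := X.mul_mem hxX hzX
  have hYZ := X.mul_mem hyX hzX
  have hXYZ := X.mul_mem hXY hzX
  -- cancellation helper
  have lc : ∀ u v w : V ≃ₗ[ℝ] V, u * v = u * w → v = w := fun u v w h => mul_left_cancel h
  -- products in the group
  have g1 : x * (x * y) = y := by rw [← mul_assoc, xx, one_mul]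
  have g2 : x * (x * z) = z := by rw [← mul_assoc, xx, one_mul]
  have g3 : x * (y * z) = x * y * z := by group
  have g4 : x * (x * y * z) = y * z := by rw [mul_assoc x y z, ← mul_assoc x x, xx, one_mul]
  have g5 : y * (x * z) = x * y * z := by rw [← mul_assoc, ← hxy]
  have g6 : (x * y) * z = x * y * z := rfl
  have g7 : (x * y) * (x * z) = y * z := by
    calc (x * y) * (x * z) = x * (y * x) * z := by group
      _ = (x * x) * y * z := by rw [← hxy]; group
      _ = y * z := by rw [xx, one_mul]
  have e1 : x ≠ x * y := by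
    intro h; apply hy1; apply lc x; rw [← h, mul_one]
  have e2 : x ≠ x * z := by
    intro h; apply hz1; apply lc x; rw [← h, mul_one]
  have e3 : x ≠ y * z := by
    intro h; apply xyz1; rw [← g3, ← h, xx]
  have e4 : x ≠ x * y * z := by
    intro h; apply yz1; apply lc x; rw [g3, ← h, mul_one]
  have e5 : y ≠ x * z := by
    intro h; apply xyz1; rw [← g5, ← h, yy]
  have e6 : x * y ≠ z := fun h => hzxy h.symm
  have e7 : x * y ≠ x * z := fun h => hzy (lc x _ _ h).symm
  have e8 : y * z ≠ x * y * z := by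
    intro h
    apply hx1
    have : x * (y * z) = 1 * (y * z) := by rw [g3, one_mul, ← h]
    exact mul_right_cancel this
  have e9 : y * z ≠ 1 := yz1
  -- the product β_y β_z
  have p := hax x hxX hx1
  have q1 : mul (ax x) (ax y - ax (x * y)) = (1 / 4 : ℝ) • (ax y - ax (x * y)) := by
    rw [map_sub, h2A x hxX y hyX hx1 hy1 hyx.symm, h2A x hxX (x * y) hXY hx1 xy1 e1, g1]
    module
  have q2 : mul (ax x) (ax z - ax (x * z)) = (1 / 4 : ℝ) • (ax z - ax (x * z)) := by
    rw [map_sub, h2A x hxX z hzX hx1 hz1 hzx.symm, h2A x hxX (x * z) hXZ hx1 xz1 e2, g2]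
    module
  have q3 : mul (ax x) (ax (y * z) - ax (x * y * z)) = (1 / 4 : ℝ) • (ax (y * z) - ax (x * y * z)) := by
    rw [map_sub, h2A x hxX (y * z) hYZ hx1 yz1 e3, h2A x hxX (x * y * z) hXYZ hx1 xyz1 e4, g3, g4]
    module
  obtain ⟨c, w, hw, hcw⟩ := fusqq p q1 q2
  have q4 : mul (ax y - ax (x * y)) (ax z - ax (x * z)) = (-(1 / 4) : ℝ) • (ax (y * z) - ax (x * y * z)) := by
    rw [map_sub, LinearMap.map_sub₂, LinearMap.map_sub₂, h2A y hyX z hzX hy1 hz1 hzy.symm,
      h2A (x * y) hXY z hzX xy1 hz1 e6, h2A y hyX (x * z) hXZ hy1 xz1 e5,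
      h2A (x * y) hXY (x * z) hXZ xy1 xz1 e7, g5, g7]
    module
  rw [q4] at hcw
  -- apply `mul (ax x)` twice
  have r1 := congrArg (mul (ax x)) hcw
  rw [map_smul, q3, map_add, map_smul, hw, idem p, add_zero] at r1
  have r2 := congrArg (mul (ax x)) r1
  rw [map_smul, map_smul, q3, map_smul, idem p, ← r1] at r2
  have r3 : ax (y * z) - ax (x * y * z) = 0 := by
    have : ((-(1 / 4) : ℝ) * (1 / 4) * (1 / 4) - (-(1 / 4)) * (1 / 4)) • (ax (y * z) - ax (x * y * z)) = 0 := by
      rw [sub_smul, mul_smul, mul_smul, mul_smul, r2, sub_self]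
    rcases smul_eq_zero.mp this with h | h
    · norm_num at h
    · exact h
  have r4 : ax (y * z) = ax (x * y * z) := sub_eq_zero.mp r3
  -- contradiction: a product of the two axes
  have r5 := h2A (y * z) hYZ (x * y * z) hXYZ yz1 xyz1 e8
  have r6 : (y * z) * (x * y * z) = x := by
    have : x * y * z = x * (y * z) := by group
    rw [this, ← hcomm (x * (y * z)) (X.mul_mem hxX hYZ) (y * z) hYZ, mul_assoc, hX _ hYZ, mul_one]
  rw [← r4, r6, idem (hax _ hYZ yz1)] at r5
  have r7 : ax x = (-6 : ℝ) • ax (y * z) := by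
    have : ax x = (2 : ℝ) • ax (y * z) - (8 : ℝ) • ((1 / 8 : ℝ) • (ax (y * z) + ax (y * z) - ax x)) := by module
    rw [this, ← r5]; module
  have r8 := h1 x hxX hx1
  have r9 := h1 _ hYZ yz1
  rw [r7] at r8
  simp only [map_smul, LinearMap.smul_apply, smul_eq_mul, r9] at r8
  norm_num at r8

end Cfsg.Agent.S5543
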