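import Cfsg.Statements.S5544
import Cfsg.Agent.H92.SakumaScalar

set_option autoImplicit false
open Cfsg

namespace Cfsg.Agent.S5544

open Cfsg.Axial Cfsg.Agent.H92.Maj Cfsg.Agent.H92.Sak

/-- The nine Norton–Sakuma parameter pairs. -/
theorem solve {l m : ℝ}
    (c1 : 8192 * l ^ 4 + 160 * l ^ 2 * m - 9088 * l ^ 3 + 139 / 4 * l * m + 720 * l ^ 2 + m ^ 2 / 2
      - 75 / 4 * l - 167 / 256 * m + 39 / 256 = 0)
    (c2 : -12079595520 * l ^ 5 - 47185920 * l ^ 3 * m + 12740198400 * l ^ 4 - 108380160 * l ^ 2 * m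
      - 491028480 * l ^ 3 + 1143360 * l * m - 16035840 * l ^ 2 + 884160 * l + 8775 * m - 8775 = 0) :
    (l = 1 ∧ m = 1) ∨ (l = 1 / 8 ∧ m = 1) ∨ (l = 0 ∧ m = 1) ∨ (l = 13 / 256 ∧ m = 13 / 256) ∨
    (l = 1 / 64 ∧ m = 1 / 64) ∨ (l = 1 / 64 ∧ m = 1 / 8) ∨ (l = 1 / 32 ∧ m = 0) ∨
    (l = 3 / 128 ∧ m = 3 / 128) ∨ (l = 5 / 256 ∧ m = 13 / 256) := by
  obtain ⟨x, hx⟩ : ∃ x : ℝ, x = 256 * l := ⟨_, rfl⟩
  obtain ⟨y, hy⟩ : ∃ y : ℝ, y = 256 * m := ⟨_, rfl⟩
  have hl : l = x / 256 := by rw [hx]; ring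
  have hm : m = y / 256 := by rw [hy]; ring
  have d1 : x ^ 4 + 5 * x ^ 2 * y - 284 * x ^ 3 + 278 * x * y + 5760 * x ^ 2 + 4 * y ^ 2
      - 38400 * x - 1336 * y + 79872 = 0 := by
    rw [hl, hm] at c1; linear_combination 524288 * c1
  have d2 : (x - 4) * (y * (x ^ 2 + 592 * x + 780) + (x ^ 4 - 266 * x ^ 3 + 1600 * x ^ 2 + 28672 * x - 199680)) = 0 := by
    rw [hl, hm] at c2; linear_combination (-(4096 / 45)) * c2
  rcases mul_eq_zero.mp d2 with h | h
  · have hx4 : x = 4 := by linarith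
    rw [hx4] at d1
    have d3 : (y - 4) * (y - 32) = 0 := by linear_combination (1 / 4) * d1
    rcases mul_eq_zero.mp d3 with h | h
    · right; right; right; right; left
      constructor
      · rw [hl, hx4]; norm_num
      · rw [hm, show y = 4 by linarith]; norm_num
    · right; right; right; right; right; left
      constructor
      · rw [hl, hx4]; norm_num
      · rw [hm, show y = 32 by linarith]; norm_num
  · have d3 : x * (x - 256) * (x - 32) * (x - 13) * (x - 8) * (x - 6) * (x - 5) = 0 := by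
      linear_combination (-(1 / 3136)) * ((x ^ 2 + 592 * x + 780) ^ 2 * d1
        - ((5 * x ^ 2 + 278 * x - 1336) * (x ^ 2 + 592 * x + 780)
          + 4 * (y * (x ^ 2 + 592 * x + 780) - (x ^ 4 - 266 * x ^ 3 + 1600 * x ^ 2 + 28672 * x - 199680))) * h)
    simp only [mul_eq_zero] at d3
    rcases d3 with (((((hx0 | hx0) | hx0) | hx0) | hx0) | hx0) | hx0
    · right; right; left
      rw [hx0] at h
      exact ⟨by rw [hl, hx0]; norm_num, by rw [hm]; linarith⟩
    · left
      have hx1 : x = 256 := by linarith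
      rw [hx1] at h
      exact ⟨by rw [hl, hx1]; norm_num, by rw [hm]; linarith⟩
    · right; left
      have hx1 : x = 32 := by linarith
      rw [hx1] at h
      exact ⟨by rw [hl, hx1]; norm_num, by rw [hm]; linarith⟩
    · right; right; right; left
      have hx1 : x = 13 := by linarith
      rw [hx1] at h
      exact ⟨by rw [hl, hx1], by rw [hm]; linarith⟩
    · right; right; right; right; right; right; left
      have hx1 : x = 8 := by linarith
      rw [hx1] at h
      exact ⟨by rw [hl, hx1]; norm_num, by rw [hm]; linarith⟩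
    · right; right; right; right; right; right; right; left
      have hx1 : x = 6 := by linarith
      rw [hx1] at h
      exact ⟨by rw [hl, hx1]; norm_num, by rw [hm]; linarith⟩
    · right; right; right; right; right; right; right; right
      have hx1 : x = 5 := by linarith
      rw [hx1] at h
      exact ⟨by rw [hl, hx1], by rw [hm]; linarith⟩

section
variable {V : Type*} [AddCommGroup V] [Module ℝ V] {mul : V →ₗ[ℝ] V →ₗ[ℝ] V} {B : LinearMap.BilinForm ℝ V}

theorem eq_of_ip (hV : IsMajoranaAmbient mul B) {x y : V} (hx : B x x = 1) (hy : B y y = 1)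
    (h : B x y = 1) : x = y := by
  have : B (x - y) (x - y) = 0 := by
    simp only [map_sub, LinearMap.sub_apply, hx, hy, h, form_symm hV y x]
    norm_num
  exact sub_eq_zero.mp (eq_zero_of_form hV this)

/-- periodicity of the axes. -/
theorem period (hV : IsMajoranaAmbient mul B) (D : DihSeq mul B) :
    D.a 1 = D.a 0 ∨ D.a 2 = D.a 0 ∨ D.a 3 = D.a 0 ∨ D.a 4 = D.a 0 ∨ D.a 3 = D.a (-2) ∨ D.a 4 = D.a (-2) := by
  obtain ⟨-, hP, hQ, hU, hW, c1, c2⟩ := scalars hV D rfl rfl rfl rfl rfl rfl rfl rfl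
  have key : ∀ i j : ℤ, B (D.a i) (D.a j) = 1 → D.a j = D.a i :=
    fun i j h => (eq_of_ip hV (D.norm i) (D.norm j) h).symm
  rcases solve c1 c2 with ⟨h1, h2⟩ | ⟨h1, h2⟩ | ⟨h1, h2⟩ | ⟨h1, h2⟩ | ⟨h1, h2⟩ | ⟨h1, h2⟩ | ⟨h1, h2⟩ |
    ⟨h1, h2⟩ | ⟨h1, h2⟩
  · left; exact key _ _ h1
  · right; left; exact key _ _ h2
  · right; left; exact key _ _ h2
  · right; right; left
    apply key; rw [hP, h1, h2]; norm_num
  · right; right; left
    apply key; rw [hP, h1, h2]; norm_num
  · right; right; right; left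
    apply key; rw [hQ, hP, h1, h2]; norm_num
  · right; right; right; left
    apply key; rw [hQ, hP, h1, h2]; norm_num
  · right; right; right; right; left
    apply key; rw [hU, hQ, hP, h1, h2]; norm_num
  · right; right; right; right; right
    apply key; rw [hW, hU, hQ, hP, h1, h2]; norm_num

/-- An axis determines its involution. -/
theorem unique_invol {μ μ' : V ≃ₗ[ℝ] V} {a : V} (h : IsMajoranaPair mul B μ a)
    (h' : IsMajoranaPair mul B μ' a) : μ = μ' := by
  ext v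
  obtain ⟨c, x, y, z, hx, hy, hz, hv⟩ := decomp h v
  rw [hv]
  simp only [map_add, map_smul, fix_self h, fix0 h hx, fixq h hy, negt h hz,
    fix_self h', fix0 h' hx, fixq h' hy, negt h' hz]

end

/-- Let V be a finite-dimensional real vector space with a commutative bilinear product and a positive-definite symmetric bilinear form that associates with the product and satisfies the Norton inequality (the Majorana setting of the definitions). Let μ₀ and μ₁ be Majorana involutions with axial vectors a₀ and a₁ of squared length 1, each involution having no other axial vector. Then the product μ₀μ₁ has order at most 6: some power (μ₀μ₁)^n with 1 ≤ n ≤ 6 is the identity (so the two involutions generate a dihedral group of order at most 12). This is the 6-transposition property of Majorana involutions. -/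
theorem result {V : Type*} [AddCommGroup V] [Module ℝ V] [FiniteDimensional ℝ V] (mul : V →ₗ[ℝ] V →ₗ[ℝ] V) (B : LinearMap.BilinForm ℝ V) (hV : Cfsg.Axial.IsMajoranaAmbient mul B) (μ₀ μ₁ : V ≃ₗ[ℝ] V) (a₀ a₁ : V) (h₀ : Cfsg.Axial.IsMajoranaPair mul B μ₀ a₀) (h₁ : Cfsg.Axial.IsMajoranaPair mul B μ₁ a₁) (hu₀ : ∀ a : V, Cfsg.Axial.IsMajoranaPair mul B μ₀ a → a = a₀) (hu₁ : ∀ a : V, Cfsg.Axial.IsMajoranaPair mul B μ₁ a → a = a₁) (hn₀ : B a₀ a₀ = 1) (hn₁ : B a₁ a₁ = 1) : ∃ n : ℕ, 1 ≤ n ∧ n ≤ 6 ∧ (μ₀ * μ₁) ^ n = 1 := by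
  have i0 : μ₀ * μ₀ = 1 := by ext v; exact invol h₀ v
  have i1 : μ₁ * μ₁ = 1 := by ext v; exact invol h₁ v
  have inv0 : μ₀⁻¹ = μ₀ := by rw [inv_eq_iff_mul_eq_one]; exact i0
  have inv1 : μ₁⁻¹ = μ₁ := by rw [inv_eq_iff_mul_eq_one]; exact i1
  set ρ := μ₁ * μ₀ with hρ
  have hρinv : ρ⁻¹ = μ₀ * μ₁ := by rw [hρ, mul_inv_rev, inv0, inv1]
  have hconj : ∀ n : ℤ, μ₀ * ρ ^ n = ρ ^ (-n) * μ₀ := by
    intro n
    have h1 : μ₀ * ρ * μ₀⁻¹ = ρ⁻¹ := by
      rw [hρinv, hρ]; group
    have h2 : μ₀ * ρ ^ n * μ₀⁻¹ = ρ ^ (-n) := by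
      rw [← conj_zpow, h1, inv_zpow']
    rw [← h2]; group
  have hρmul : ∀ u v, ρ (mul u v) = mul (ρ u) (ρ v) := by
    intro u v
    show μ₁ (μ₀ (mul u v)) = mul (μ₁ (μ₀ u)) (μ₁ (μ₀ v))
    rw [h₀.1, h₁.1]
  have hρB : ∀ u v, B (ρ u) (ρ v) = B u v := by
    intro u v
    show B (μ₁ (μ₀ u)) (μ₁ (μ₀ v)) = B u v
    rw [h₁.2.1, h₀.2.1]
  let W : Subgroup (V ≃ₗ[ℝ] V) :=
    { carrier := {g | (∀ u v, g (mul u v) = mul (g u) (g v)) ∧ ∀ u v, B (g u) (g v) = B u v}
      one_mem' := ⟨fun _ _ => rfl, fun _ _ => rfl⟩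
      mul_mem' := by
        rintro f g ⟨hf, hf'⟩ ⟨hg, hg'⟩
        refine ⟨fun u v => ?_, fun u v => ?_⟩
        · show f (g (mul u v)) = mul (f (g u)) (f (g v))
          rw [hg, hf]
        · show B (f (g u)) (f (g v)) = B u v
          rw [hf', hg']
      inv_mem' := by
        rintro f ⟨hf, hf'⟩
        have e1 : ∀ v, f (f⁻¹ v) = v := fun v => by
          show (f * f⁻¹) v = v
          simp
        refine ⟨fun u v => ?_, fun u v => ?_⟩
        · apply f.injective
          rw [hf, e1, e1, e1]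
        · rw [← hf', e1, e1] }
  have hW : ∀ n : ℤ, ρ ^ n ∈ W := fun n => W.zpow_mem ⟨hρmul, hρB⟩ n
  -- the sequence
  let e : ℤ → V := fun j => (ρ ^ (j / 2)) (if j % 2 = 0 then a₀ else a₁)
  have e_shift : ∀ i j : ℤ, (ρ ^ i) (e j) = e (j + 2 * i) := by
    intro i j
    show (ρ ^ i) ((ρ ^ (j / 2)) (if j % 2 = 0 then a₀ else a₁)) = (ρ ^ ((j + 2 * i) / 2)) (if (j + 2 * i) % 2 = 0 then a₀ else a₁)
    rw [show (j + 2 * i) % 2 = j % 2 by omega, show (j + 2 * i) / 2 = i + j / 2 by omega, zpow_add]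
    rfl
  have e0 : e 0 = a₀ := by simp [e]
  have e1 : e 1 = a₁ := by simp [e]
  have em : ∀ j : ℤ, μ₀ (e j) = e (-j) := by
    intro j
    rcases Int.even_or_odd' j with ⟨k, hk | hk⟩
    · have h2 : e j = (ρ ^ k) (e 0) := by rw [e_shift, hk]; ring_nf
      rw [h2]
      show (μ₀ * ρ ^ k) (e 0) = _
      rw [hconj, e0]
      show (ρ ^ (-k)) (μ₀ a₀) = _
      rw [fix_self h₀, ← e0, e_shift, hk]
      congr 1; ring
    · have h2 : e j = (ρ ^ k) (e 1) := by rw [e_shift, hk]; congr 1; ring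
      rw [h2]
      show (μ₀ * ρ ^ k) (e 1) = _
      rw [hconj, e1]
      have h3 : μ₀ a₁ = (ρ ^ (-1 : ℤ)) a₁ := by
        rw [zpow_neg_one, hρinv]
        show μ₀ a₁ = μ₀ (μ₁ a₁)
        rw [fix_self h₁]
      show (ρ ^ (-k)) (μ₀ a₁) = _
      rw [h3, ← e1, e_shift, e_shift, hk]
      congr 1; ring
  have hpair : ∀ i : ℤ, IsMajoranaPair mul B (ρ ^ i * μ₀) (e i) := by
    intro i
    rcases Int.even_or_odd' i with ⟨k, hk | hk⟩
    · have h2 := pair_conj h₀ (ρ ^ k) (hW k).1 (hW k).2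
      have h3 : ρ ^ k * μ₀ * (ρ ^ k)⁻¹ = ρ ^ i * μ₀ := by
        rw [← zpow_neg, mul_assoc, hconj, ← mul_assoc, ← zpow_add, hk]; congr 2; ring
      rw [h3, ← e0, e_shift] at h2
      rw [show i = 0 + 2 * k by rw [hk]; ring]
      rw [show i = 0 + 2 * k by rw [hk]; ring] at h2
      exact h2
    · have h2 := pair_conj h₁ (ρ ^ k) (hW k).1 (hW k).2
      have h4 : μ₁ = ρ ^ (1 : ℤ) * μ₀ := by
        rw [zpow_one, hρ, mul_assoc, i0, mul_one]
      have h3 : ρ ^ k * μ₁ * (ρ ^ k)⁻¹ = ρ ^ i * μ₀ := by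
        conv_lhs => rw [h4]
        rw [← zpow_neg, mul_assoc, mul_assoc, hconj, ← mul_assoc, ← mul_assoc, ← zpow_add, ← zpow_add, hk]
        congr 2; ring
      rw [h3, ← e1, e_shift] at h2
      rw [show i = 1 + 2 * k by rw [hk]; ring]
      rw [show i = 1 + 2 * k by rw [hk]; ring] at h2
      exact h2
  let D : DihSeq mul B :=
    { a := e
      t := fun i => ρ ^ i * μ₀
      pair := hpair
      norm := by
        intro i
        show B ((ρ ^ (i / 2)) (if i % 2 = 0 then a₀ else a₁)) ((ρ ^ (i / 2)) (if i % 2 = 0 then a₀ else a₁)) = 1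
        rw [(hW _).2]
        split_ifs
        · exact hn₀
        · exact hn₁
      refl := by
        intro i j
        show (ρ ^ i) (μ₀ (e j)) = _
        rw [em, e_shift]
        congr 1; ring }
  have fin : ∀ i j : ℤ, e i = e j → ρ ^ (i - j) = 1 := by
    intro i j hij
    have h1 := hpair i
    rw [hij] at h1
    have h2 := unique_invol h1 (hpair j)
    have h3 := mul_right_cancel h2
    rw [zpow_sub, h3, mul_inv_cancel]
  have fin' : ∀ n : ℕ, ρ ^ (n : ℤ) = 1 → (μ₀ * μ₁) ^ n = 1 := by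
    intro n hn
    rw [← hρinv, inv_pow]
    rw [zpow_natCast] at hn
    rw [hn, inv_one]
  rcases period hV D with h | h | h | h | h | h
  · exact ⟨1, by norm_num, by norm_num, fin' 1 (by simpa using fin 1 0 h)⟩
  · exact ⟨2, by norm_num, by norm_num, fin' 2 (by simpa using fin 2 0 h)⟩
  · exact ⟨3, by norm_num, by norm_num, fin' 3 (by simpa using fin 3 0 h)⟩
  · exact ⟨4, by norm_num, by norm_num, fin' 4 (by simpa using fin 4 0 h)⟩
  · exact ⟨5, by norm_num, by norm_num, fin' 5 (by simpa using fin 3 (-2) h)⟩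
  · exact ⟨6, by norm_num, by norm_num, fin' 6 (by simpa using fin 4 (-2) h)⟩

end Cfsg.Agent.S5544
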