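import Cfsg.Statements.S5545
import Cfsg.Agent.H92.Majorana

set_option autoImplicit false
open Cfsg

namespace Cfsg.Agent.S5545

open Cfsg.Agent.H92.Maj Cfsg.Axial

section
variable {V : Type*} [AddCommGroup V] [Module ℝ V] {mul : V →ₗ[ℝ] V →ₗ[ℝ] V} {B : LinearMap.BilinForm ℝ V}

/-- Basic consequences of `μ a₁ = a₁`. -/
theorem half (hV : IsMajoranaAmbient mul B) {μ : V ≃ₗ[ℝ] V} {a₀ a₁ : V} (h₀ : IsMajoranaPair mul B μ a₀)
    (hn₀ : B a₀ a₀ = 1) (hfix : μ a₁ = a₁) :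
    mul a₀ (a₁ + (3 * B a₀ a₁) • a₀ - (4 : ℝ) • mul a₀ a₁) = 0 ∧
    mul a₀ (mul a₀ a₁ - B a₀ a₁ • a₀) = (1 / 4 : ℝ) • (mul a₀ a₁ - B a₀ a₁ • a₀) := by
  obtain ⟨c, x, y, z, hx, hy, hz, hv⟩ := decomp h₀ a₁
  have hz0 : z = 0 := by
    have h1 : μ a₁ = c • a₀ + x + y - z := by
      rw [hv]
      simp only [map_add, map_smul, fix_self h₀, fix0 h₀ hx, fixq h₀ hy, negt h₀ hz]
      abel
    rw [hfix, hv] at h1
    have h2 : (2 : ℝ) • z = 0 := by
      have : (2 : ℝ) • z = (c • a₀ + x + y + z) - (c • a₀ + x + y - z) := by module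
      rw [this, ← h1, sub_self]
    rcases smul_eq_zero.mp h2 with h | h
    · norm_num at h
    · exact h
  have hc : B a₀ a₁ = c := by
    have o1 : B a₀ x = 0 := orth hV (show (1 : ℝ) ≠ 0 by norm_num) (by rw [idem h₀, one_smul]) (by rw [hx, zero_smul])
    have o2 : B a₀ y = 0 := orth hV (show (1 : ℝ) ≠ 1 / 4 by norm_num) (by rw [idem h₀, one_smul]) hy
    rw [hv, hz0]
    simp only [map_add, map_smul, smul_eq_mul, hn₀, o1, o2, map_zero]
    ring
  have h1 : mul a₀ a₁ = c • a₀ + (1 / 4 : ℝ) • y := by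
    rw [hv, hz0]
    simp only [map_add, map_smul, idem h₀, hx, hy, map_zero]
    abel
  have hy' : mul a₀ a₁ - c • a₀ = (1 / 4 : ℝ) • y := by rw [h1]; abel
  rw [hc]
  constructor
  · have : a₁ + (3 * c) • a₀ - (4 : ℝ) • mul a₀ a₁ = x := by
      rw [h1, hv, hz0]; module
    rw [this, hx]
  · rw [hy', map_smul, hy]

theorem alg (hV : IsMajoranaAmbient mul B) {a₀ a₁ : V} (l : ℝ)
    (i0 : mul a₀ a₀ = a₀) (i1 : mul a₁ a₁ = a₁)
    (h0 : mul a₀ (mul a₀ a₁ - l • a₀) = (1 / 4 : ℝ) • (mul a₀ a₁ - l • a₀))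
    (h1 : mul a₁ (mul a₀ a₁ - l • a₁) = (1 / 4 : ℝ) • (mul a₀ a₁ - l • a₁)) : 
    mul a₀ (mul a₀ a₁) = (3 * l / 4) • a₀ + (1 / 4 : ℝ) • mul a₀ a₁ ∧
    mul a₁ (mul a₀ a₁) = (3 * l / 4) • a₁ + (1 / 4 : ℝ) • mul a₀ a₁ := by
  rw [map_sub, map_smul, i0] at h0
  rw [map_sub, map_smul, i1] at h1
  constructor
  · have : mul a₀ (mul a₀ a₁) = (mul a₀ (mul a₀ a₁) - l • a₀) + l • a₀ := by abel
    rw [this, h0]; module
  · have : mul a₁ (mul a₀ a₁) = (mul a₁ (mul a₀ a₁) - l • a₁) + l • a₁ := by abel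
    rw [this, h1]; module

end

/-- Let V be a finite-dimensional real vector space with a commutative bilinear product and a positive-definite symmetric bilinear form that associates with the product and satisfies the Norton inequality (the Majorana setting of the definitions). Let μ₀, μ₁ be commuting Majorana involutions with distinct axial vectors a₀ ≠ a₁ of squared length 1, each involution having no other axial vector. Then either a₀ and a₁ are orthogonal with a₀ ∘ a₁ = 0 (type 2B), or their inner product is 1/8 and, with a₂ = a₀ + a₁ − 8 a₀ ∘ a₁, the vector a₂ is an idempotent and a₀ ∘ a₂ = (1/8)(a₀ + a₂ − a₁), a₁ ∘ a₂ = (1/8)(a₁ + a₂ − a₀) (type 2A: the three idempotents span a subalgebra with aᵢ ∘ aⱼ = (1/8)(aᵢ + aⱼ − aₖ)). -/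
theorem result {V : Type*} [AddCommGroup V] [Module ℝ V] [FiniteDimensional ℝ V] (mul : V →ₗ[ℝ] V →ₗ[ℝ] V) (B : LinearMap.BilinForm ℝ V) (hV : Cfsg.Axial.IsMajoranaAmbient mul B) (μ₀ μ₁ : V ≃ₗ[ℝ] V) (a₀ a₁ : V) (h₀ : Cfsg.Axial.IsMajoranaPair mul B μ₀ a₀) (h₁ : Cfsg.Axial.IsMajoranaPair mul B μ₁ a₁) (hu₀ : ∀ a : V, Cfsg.Axial.IsMajoranaPair mul B μ₀ a → a = a₀) (hu₁ : ∀ a : V, Cfsg.Axial.IsMajoranaPair mul B μ₁ a → a = a₁) (hn₀ : B a₀ a₀ = 1) (hn₁ : B a₁ a₁ = 1) (hc : μ₀ * μ₁ = μ₁ * μ₀) (hne : a₀ ≠ a₁) : (B a₀ a₁ = 0 ∧ mul a₀ a₁ = 0) ∨ (B a₀ a₁ = 1 / 8 ∧ mul (a₀ + a₁ - (8 : ℝ) • mul a₀ a₁) (a₀ + a₁ - (8 : ℝ) • mul a₀ a₁) = a₀ + a₁ - (8 : ℝ) • mul a₀ a₁ ∧ mul a₀ (a₀ + a₁ - (8 : ℝ) • mul a₀ a₁) = (1 / 8 : ℝ) • (a₀ + (a₀ + a₁ - (8 : ℝ) • mul a₀ a₁) - a₁) ∧ mul a₁ (a₀ + a₁ - (8 : ℝ) • mul a₀ a₁) = (1 / 8 : ℝ) • (a₁ + (a₀ + a₁ - (8 : ℝ) • mul a₀ a₁) - a₀)) := by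
  have hfix0 : μ₀ a₁ = a₁ := by
    apply hu₁
    have := pair_conj h₁ μ₀ h₀.1 h₀.2.1
    rwa [hc, mul_inv_cancel_right] at this
  have hfix1 : μ₁ a₀ = a₀ := by
    apply hu₀
    have := pair_conj h₀ μ₁ h₁.1 h₁.2.1
    rwa [← hc, mul_inv_cancel_right] at this
  obtain ⟨A0, B0⟩ := half hV h₀ hn₀ hfix0
  obtain ⟨A1, B1⟩ := half hV h₁ hn₁ hfix1
  rw [comm hV a₁ a₀, form_symm hV a₁ a₀] at A1 B1
  have i0 := idem h₀
  have i1 := idem h₁
  obtain ⟨S0, S1⟩ := alg hV (B a₀ a₁) i0 i1 B0 B1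
  set l := B a₀ a₁ with hl
  set s := mul a₀ a₁ with hs
  have c1 : mul a₁ a₀ = s := comm hV _ _
  have c2 : mul s a₀ = mul a₀ s := comm hV _ _
  have c3 : mul s a₁ = mul a₁ s := comm hV _ _
  -- the identity for `α`, `β`
  have key : ∀ (μ : V ≃ₗ[ℝ] V) (b₀ b₁ : V), IsMajoranaPair mul B μ b₀ → B b₀ b₁ = l → B b₁ b₁ = 1 →
      B b₀ b₀ = 1 → mul b₁ b₁ = b₁ → mul b₀ b₁ = s →
      mul b₀ (b₁ + (3 * l) • b₀ - (4 : ℝ) • s) = 0 →
      mul b₀ (s - l • b₀) = (1 / 4 : ℝ) • (s - l • b₀) →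
      (mul (b₁ + (3 * l) • b₀ - (4 : ℝ) • s) (s - l • b₀) = (1 / 2 - l / 4) • (s - l • b₀)) ∧
      (16 * B (s - l • b₀) (s - l • b₀) = 4 * (l - l ^ 2)) := by
    intro μ b₀ b₁ hb hlb hb1 hb0 ib1 hsb P Q
    set α := b₁ + (3 * l) • b₀ - (4 : ℝ) • s with hα
    set β := s - l • b₀ with hβ
    have hb1' : b₁ = l • b₀ + α + (4 : ℝ) • β := by
      rw [hα, hβ]; module
    have ib0 := idem hb
    have F00 := fus00 hb P P
    have F0q := fus0q hb P Q
    obtain ⟨c, w, hw, hcw⟩ := fusqq hb Q Q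
    -- square of b₁
    have hsq : (l ^ 2) • b₀ + mul α α + (16 : ℝ) • mul β β + (2 * l) • β + (8 : ℝ) • mul α β = l • b₀ + α + (4 : ℝ) • β := by
      have e : mul b₁ b₁ = (l ^ 2) • b₀ + mul α α + (16 : ℝ) • mul β β + (2 * l) • β + (8 : ℝ) • mul α β := by
        have cαβ : mul β α = mul α β := comm hV _ _
        have cαb : mul α b₀ = 0 := by rw [comm hV, P]
        have cβb : mul β b₀ = (1 / 4 : ℝ) • β := by rw [comm hV, Q]
        rw [hb1']
        simp only [map_add, map_smul, LinearMap.add_apply, LinearMap.smul_apply, ib0, P, Q, cαβ, cαb, cβb]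
        module
      rw [← e, ib1]; exact hb1'
    -- apply mul b₀ once and twice to separate eigencomponents
    have m1 := congrArg (mul b₀) hsq
    simp only [map_add, map_smul, ib0, P, Q, F00, F0q, hcw, hw, add_zero] at m1
    have m2 := congrArg (mul b₀) m1
    simp only [map_add, map_smul, ib0, Q, F0q, add_zero, map_zero, smul_zero] at m2
    constructor
    · linear_combination (norm := module) (2 / 3 : ℝ) • m1 - (2 / 3 : ℝ) • m2
    · have o1 : B b₀ α = 0 := orth hV (show (1 : ℝ) ≠ 0 by norm_num) (by rw [ib0, one_smul]) (by rw [P, zero_smul])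
      have o2 : B b₀ β = 0 := orth hV (show (1 : ℝ) ≠ 1 / 4 by norm_num) (by rw [ib0, one_smul]) Q
      have o3 : B b₀ (mul α α) = 0 := by rw [form_assoc hV, P]; simp
      have o4 : B b₀ (mul α β) = 0 := by rw [form_assoc hV, P]; simp
      have o5 : B b₀ (mul β β) = (1 / 4) * B β β := by rw [form_assoc hV, Q]; simp
      have m3 := congrArg (fun v => B b₀ v) hsq
      simp only [map_add, map_smul, smul_eq_mul, o1, o2, o3, o4, o5, hb0] at m3
      linarith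
  obtain ⟨K1, K2⟩ := key μ₀ a₀ a₁ h₀ rfl hn₁ hn₀ i1 rfl A0 B0
  obtain ⟨K3, K4⟩ := key μ₁ a₁ a₀ h₁ (form_symm hV _ _) hn₀ hn₁ i0 c1 A1 B1
  have E1 : (16 : ℝ) • mul s s = (3 * l) • a₁ + (4 * l - 1) • s + (8 * l ^ 2 + 2 * l) • a₀ := by
    simp only [map_sub, map_add, map_smul, LinearMap.add_apply, LinearMap.sub_apply, LinearMap.smul_apply,
      i0, c1, c2, c3, S0, S1, ← hs] at K1
    linear_combination (norm := module) (-4 : ℝ) • K1
  have E2 : (16 : ℝ) • mul s s = (3 * l) • a₀ + (4 * l - 1) • s + (8 * l ^ 2 + 2 * l) • a₁ := by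
    simp only [map_sub, map_add, map_smul, LinearMap.add_apply, LinearMap.sub_apply, LinearMap.smul_apply,
      i1, c1, c2, c3, S0, S1, ← hs] at K3
    linear_combination (norm := module) (-4 : ℝ) • K3
  have E3 : (l - 8 * l ^ 2) • (a₁ - a₀) = 0 := by
    linear_combination (norm := module) E2 - E1
  rcases smul_eq_zero.mp E3 with h | h
  · have h' : l * (1 - 8 * l) = 0 := by linear_combination h
    rcases mul_eq_zero.mp h' with h | h
    · left
      refine ⟨h, ?_⟩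
      rw [h] at K2
      have : s - (0 : ℝ) • a₀ = 0 := eq_zero_of_form hV (by nlinarith)
      simpa using this
    · right
      have hl8 : l = 1 / 8 := by linarith
      rw [hl8] at E1 S0 S1
      refine ⟨hl8, ?_, ?_, ?_⟩
      · simp only [map_sub, map_add, map_smul, LinearMap.add_apply, LinearMap.sub_apply, LinearMap.smul_apply,
          i0, i1, c1, c2, c3, S0, S1, ← hs]
        linear_combination (norm := module) (4 : ℝ) • E1
      · simp only [map_sub, map_add, map_smul, i0, S0, ← hs]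
        module
      · simp only [map_sub, map_add, map_smul, i1, S1, c1]
        module
  · exact absurd (sub_eq_zero.mp h).symm hne

end Cfsg.Agent.S5545
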