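import Cfsg.Statements.S5546
import Cfsg.Agent.Leech.Base

set_option autoImplicit false
open Cfsg

namespace Cfsg.Agent.S5546

open Cfsg.Agent.Leech

instance fact13 : Fact (Nat.Prime 13) := ⟨by norm_num⟩

/-- reduction modulo 13 -/
def red : leechLattice →+ (GolayPt → ZMod 13) where
  toFun v := fun i => ((v : GolayPt → ℤ) i : ZMod 13)
  map_zero' := by ext i; simp
  map_add' x y := by ext i; simp

theorem red_apply (v : leechLattice) (i : GolayPt) : red v i = ((v : GolayPt → ℤ) i : ZMod 13) := rfl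

theorem mem_of_four {x : GolayPt → ℤ} (h : ∀ i, (4 : ℤ) ∣ x i) (hs : (8 : ℤ) ∣ ∑ i, x i) : x ∈ leechLattice := by
  rw [mem_iff]; left
  refine ⟨0, golayCode.zero_mem, fun i => ?_, ?_⟩
  · rw [lift_zero]; have := h i; unfold Int.ModEq; omega
  · unfold Int.ModEq; omega

/-- the lattice vector `8 e_i` -/
def e8 (i : GolayPt) : leechLattice := ⟨Pi.single i 8, mem_of_four (fun j => by
    by_cases h : j = i
    · subst h; simp
    · rw [Pi.single_eq_of_ne h]; exact dvd_zero _) (by simp)⟩

theorem e8_apply (i j : GolayPt) : ((e8 i : leechLattice) : GolayPt → ℤ) j = if j = i then 8 else 0 := by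
  show (Pi.single i 8 : GolayPt → ℤ) j = _
  rw [Pi.single_apply]

/-- `4 e_i + 4 s e_j` for `i ≠ j` -/
def e4 (i j : GolayPt) (s : ℤ) (hs : s = 1 ∨ s = -1) : leechLattice :=
  ⟨Pi.single i 4 + Pi.single j (4 * s), mem_of_four (fun k => by
    rw [Pi.add_apply]
    apply dvd_add
    · by_cases h : k = i
      · subst h; simp
      · rw [Pi.single_eq_of_ne h]; exact dvd_zero _
    · by_cases h : k = j
      · subst h; simp
      · rw [Pi.single_eq_of_ne h]; exact dvd_zero _) (by
    simp only [Pi.add_apply, Finset.sum_add_distrib, Finset.sum_pi_single', Finset.mem_univ, if_true]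
    rcases hs with rfl | rfl <;> norm_num)⟩

theorem eight_smul (v : leechLattice) : (8 : ℤ) • v = ∑ i, ((v : GolayPt → ℤ) i) • e8 i := by
  apply Subtype.ext
  ext j
  rw [AddSubgroup.val_finsetSum, Finset.sum_apply]
  simp only [AddSubgroup.coe_zsmul, Pi.smul_apply, e8_apply, smul_eq_mul]
  simp [mul_comm]

section
variable (g : Equiv.Perm leechLattice) (hg : g ∈ Co0)

/-- an element of `Co0` as an additive map -/
def toHom : leechLattice →+ leechLattice where
  toFun := g
  map_zero' := by
    have := hg.1 0 0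
    simpa using this
  map_add' := hg.1

theorem toHom_apply (v : leechLattice) : toHom g hg v = g v := rfl

/-- the linear map modulo 13 -/
def T : (GolayPt → ZMod 13) →ₗ[ZMod 13] (GolayPt → ZMod 13) where
  toFun x := ∑ i, x i • ((8 : ZMod 13)⁻¹ • red (g (e8 i)))
  map_add' x y := by simp [add_smul, Finset.sum_add_distrib]
  map_smul' c x := by simp [mul_smul, Finset.smul_sum]

theorem eight_ne : (8 : ZMod 13) ≠ 0 := by decide

include hg in
theorem T_red (v : leechLattice) : T g (red v) = red (g v) := by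
  have h1 : red (toHom g hg ((8 : ℤ) • v)) = red (toHom g hg (∑ i, ((v : GolayPt → ℤ) i) • e8 i)) := by
    rw [eight_smul]
  rw [map_zsmul, map_zsmul, map_sum, map_sum] at h1
  have h2 : (8 : ZMod 13) • red (g v) = ∑ i, (((v : GolayPt → ℤ) i : ℤ) : ZMod 13) • red (g (e8 i)) := by
    have h3 : (8 : ℤ) • red (toHom g hg v) = (8 : ZMod 13) • red (g v) := by
      ext i; simp [toHom_apply]
    rw [← h3, h1]
    apply Finset.sum_congr rfl
    intro i _
    rw [map_zsmul, map_zsmul, toHom_apply]
    ext j; simp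
  show ∑ i, red v i • ((8 : ZMod 13)⁻¹ • red (g (e8 i))) = red (g v)
  have h4 : red (g v) = (8 : ZMod 13)⁻¹ • ((8 : ZMod 13) • red (g v)) := by
    rw [smul_smul, inv_mul_cancel₀ eight_ne, one_smul]
  rw [h4, h2, Finset.smul_sum]
  apply Finset.sum_congr rfl
  intro i _
  rw [smul_comm, red_apply]

end

theorem red_zsmul_e8 (k : ℤ) (b j : GolayPt) : red (k • e8 b) j = (k : ZMod 13) * (if j = b then 8 else 0) := by
  rw [map_zsmul, Pi.smul_apply, red_apply, e8_apply, zsmul_eq_mul]
  split_ifs <;> simp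

theorem red_surjective : Function.Surjective red := by
  intro x
  refine ⟨∑ i, (((8 : ZMod 13)⁻¹ * x i).val : ℤ) • e8 i, ?_⟩
  ext j
  rw [map_sum, Finset.sum_apply, Finset.sum_eq_single j]
  · rw [red_zsmul_e8, if_pos rfl]
    push_cast
    rw [ZMod.natCast_zmod_val, mul_comm, ← mul_assoc, mul_inv_cancel₀ eight_ne, one_mul]
  · intro b _ hb
    rw [red_zsmul_e8, if_neg (Ne.symm hb), mul_zero]
  · intro h; exact absurd (Finset.mem_univ _) h

theorem T_mul {g h : Equiv.Perm leechLattice} (hg : g ∈ Co0) (hh : h ∈ Co0) : T (g * h) = T g ∘ₗ T h := by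
  ext1 i
  apply LinearMap.ext
  intro c
  obtain ⟨v, hv⟩ := red_surjective (LinearMap.single (ZMod 13) (fun _ => ZMod 13) i c)
  simp only [LinearMap.comp_apply]
  rw [← hv, T_red _ (Co0.mul_mem hg hh), T_red _ hh, T_red _ hg]
  rfl

theorem T_one : T 1 = LinearMap.id := by
  ext1 i
  apply LinearMap.ext
  intro c
  obtain ⟨v, hv⟩ := red_surjective (LinearMap.single (ZMod 13) (fun _ => ZMod 13) i c)
  simp only [LinearMap.comp_apply]
  rw [← hv, T_red _ Co0.one_mem]
  rfl

/-- the hyperplane -/
def W : Submodule (ZMod 13) (GolayPt → ZMod 13) where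
  carrier := {x | x none + x (some 0) = 0}
  zero_mem' := by simp
  add_mem' := by
    intro a b ha hb
    simp only [Set.mem_ofPred_eq, Pi.add_apply] at *
    linear_combination ha + hb
  smul_mem' := by
    intro c a ha
    simp only [Set.mem_ofPred_eq, Pi.smul_apply, smul_eq_mul] at *
    linear_combination c * ha

theorem mem_W (x : GolayPt → ZMod 13) : x ∈ W ↔ x none + x (some 0) = 0 := Iff.rfl

theorem finrank_W : Module.finrank (ZMod 13) W = 23 := by
  let f : (GolayPt → ZMod 13) →ₗ[ZMod 13] ZMod 13 :=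
    { toFun := fun x => x none + x (some 0)
      map_add' := by intro x y; simp only [Pi.add_apply]; ring
      map_smul' := by intro c x; simp only [Pi.smul_apply, smul_eq_mul, RingHom.id_apply]; ring }
  have hW : W = LinearMap.ker f := by ext x; rfl
  have hf : LinearMap.range f = ⊤ := by
    rw [LinearMap.range_eq_top]
    intro c
    refine ⟨Pi.single none c, ?_⟩
    show (Pi.single none c : GolayPt → ZMod 13) none + (Pi.single none c : GolayPt → ZMod 13) (some 0) = c
    simp
  have h := LinearMap.finrank_range_add_finrank_ker f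
  rw [hf, ← hW, finrank_top, Module.finrank_self, Module.finrank_pi] at h
  have h2 : Fintype.card GolayPt = 24 := by decide
  rw [h2] at h
  omega

theorem sqNorm_toHom {g : Equiv.Perm leechLattice} (hg : g ∈ Co0) (v : leechLattice) :
    sqNorm ((g v : leechLattice) : GolayPt → ℤ) = sqNorm (v : GolayPt → ℤ) := hg.2 v

theorem dot_toHom {g : Equiv.Perm leechLattice} (hg : g ∈ Co0) (v w : leechLattice) :
    dotInt ((g v : leechLattice) : GolayPt → ℤ) (g w : leechLattice) = dotInt (v : GolayPt → ℤ) (w : GolayPt → ℤ) := by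
  have h1 := hg.2 (v + w)
  rw [hg.1 v w, AddSubgroup.coe_add, AddSubgroup.coe_add, sqNorm_add, sqNorm_add, hg.2, hg.2] at h1
  omega

/-- the form modulo 13 -/
theorem dot_red (v w : leechLattice) : ∑ i, red v i * red w i = (dotInt (v : GolayPt → ℤ) (w : GolayPt → ℤ) : ZMod 13) := by
  unfold dotInt
  push_cast
  rfl

theorem T_dot {g : Equiv.Perm leechLattice} (hg : g ∈ Co0) (x y : GolayPt → ZMod 13) :
    ∑ i, T g x i * T g y i = ∑ i, x i * y i := by
  obtain ⟨v, rfl⟩ := red_surjective x
  obtain ⟨w, rfl⟩ := red_surjective y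
  rw [T_red g hg, T_red g hg, dot_red, dot_red, dot_toHom hg]

theorem red_U : red Spor.leechU = fun p => if p = none ∨ p = some 0 then 4 else 0 := by
  ext p
  rw [red_apply]
  show ((Spor.vecU p : ℤ) : ZMod 13) = _
  unfold Spor.vecU
  split_ifs <;> simp

theorem dot_U (x : GolayPt → ZMod 13) : ∑ i, red Spor.leechU i * x i = 4 * (x none + x (some 0)) := by
  rw [red_U, Fintype.sum_option]
  simp only [true_or, if_true, reduceCtorEq, Option.some.injEq, false_or, ite_mul, zero_mul,
    Finset.sum_ite_eq', Finset.mem_univ]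
  ring

theorem four_ne : (4 : ZMod 13) ≠ 0 := by decide

theorem T_U {g : Equiv.Perm leechLattice} (hg : g ∈ Spor.Co2) : T g (red Spor.leechU) = red Spor.leechU := by
  rw [T_red g hg.1]
  have : g Spor.leechU = Spor.leechU := hg.2
  rw [this]

theorem T_W {g : Equiv.Perm leechLattice} (hg : g ∈ Spor.Co2) {x : GolayPt → ZMod 13} (hx : x ∈ W) :
    T g x ∈ W := by
  have h1 := T_dot hg.1 (red Spor.leechU) x
  rw [T_U hg, dot_U, dot_U] at h1
  rw [mem_W] at *
  rw [hx] at h1
  have := mul_left_cancel₀ four_ne h1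
  exact this

/-- the monoid homomorphism to endomorphisms of the hyperplane -/
def φ : ↥Spor.Co2 →* Module.End (ZMod 13) W where
  toFun g := (T g.1).restrict (fun x hx => T_W g.2 hx)
  map_one' := by
    ext x : 2
    show T 1 x.1 = x.1
    rw [T_one]; rfl
  map_mul' g h := by
    ext x : 2
    show T (g.1 * h.1) x.1 = T g.1 (T h.1 x.1)
    rw [T_mul g.2.1 h.2.1]; rfl

theorem φ_apply (g : ↥Spor.Co2) (x : W) : ((φ g x : W) : GolayPt → ZMod 13) = T g.1 x := rfl

/-- from the hyperplane to the whole space -/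
theorem T_eq_of_W {g h : Equiv.Perm leechLattice} (hg : g ∈ Spor.Co2) (hh : h ∈ Spor.Co2)
    (H : ∀ x ∈ W, T g x = T h x) : T g = T h := by
  apply LinearMap.ext
  intro x
  -- x = c u + w
  obtain ⟨c, hc⟩ : ∃ c : ZMod 13, c * 8 = x none + x (some 0) :=
    ⟨(x none + x (some 0)) * 8⁻¹, by rw [mul_assoc, inv_mul_cancel₀ eight_ne, mul_one]⟩
  have hw : x - c • red Spor.leechU ∈ W := by
    rw [mem_W, red_U]
    simp only [Pi.sub_apply, Pi.smul_apply, smul_eq_mul, true_or, or_true, if_true]
    linear_combination -hc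
  have h1 := H _ hw
  rw [map_sub, map_sub, map_smul, map_smul, T_U hg, T_U hh] at h1
  exact sub_left_injective h1

theorem small_zero {x : GolayPt → ℤ} (h13 : ∀ i, (13 : ℤ) ∣ x i) (hn : sqNorm x ≤ 128) : x = 0 := by
  ext i
  by_contra hi
  obtain ⟨k, hk⟩ := h13 i
  have hk0 : k ≠ 0 := by rintro rfl; exact hi (by simpa using hk)
  have h1 : x i ^ 2 ≤ sqNorm x := Finset.single_le_sum (f := fun i => x i ^ 2) (fun j _ => sq_nonneg (x j)) (Finset.mem_univ i)
  have h2 : 1 ≤ k ^ 2 := by
    have : 0 < k ^ 2 := by positivity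
    omega
  rw [hk] at h1
  nlinarith

theorem eq_of_short {g h : Equiv.Perm leechLattice} (hg : g ∈ Co0) (hh : h ∈ Co0) (H : T g = T h)
    (v : leechLattice) (hv : sqNorm (v : GolayPt → ℤ) ≤ 32) : g v = h v := by
  have h1 : red (g v) = red (h v) := by rw [← T_red g hg, ← T_red h hh, H]
  have h2 : ∀ i, (13 : ℤ) ∣ (((g v : leechLattice) : GolayPt → ℤ) - ((h v : leechLattice) : GolayPt → ℤ)) i := by
    intro i
    have := congrFun h1 i
    rw [red_apply, red_apply, ZMod.intCast_eq_intCast_iff_dvd_sub] at this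
    rw [Pi.sub_apply, ← neg_sub, dvd_neg]
    exact_mod_cast this
  have h3 : sqNorm (((g v : leechLattice) : GolayPt → ℤ) - ((h v : leechLattice) : GolayPt → ℤ)) ≤ 128 := by
    have e1 := sqNorm_sub ((g v : leechLattice) : GolayPt → ℤ) ((h v : leechLattice) : GolayPt → ℤ)
    have e2 := sqNorm_add ((g v : leechLattice) : GolayPt → ℤ) ((h v : leechLattice) : GolayPt → ℤ)
    have e3 := sqNorm_nonneg (((g v : leechLattice) : GolayPt → ℤ) + ((h v : leechLattice) : GolayPt → ℤ))
    have e4 := sqNorm_toHom hg v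
    have e5 := sqNorm_toHom hh v
    omega
  have h4 := small_zero h2 h3
  exact Subtype.ext (sub_eq_zero.mp h4)

theorem sqNorm_e4 {i j : GolayPt} (hij : i ≠ j) (s : ℤ) (hs : s = 1 ∨ s = -1) :
    sqNorm ((e4 i j s hs : leechLattice) : GolayPt → ℤ) ≤ 32 := by
  have : sqNorm ((e4 i j s hs : leechLattice) : GolayPt → ℤ) = ∑ k, ((Pi.single i 16 : GolayPt → ℤ) k + (Pi.single j 16 : GolayPt → ℤ) k) := by
    unfold sqNorm
    apply Finset.sum_congr rfl
    intro k _
    show ((Pi.single i 4 : GolayPt → ℤ) k + (Pi.single j (4 * s) : GolayPt → ℤ) k) ^ 2 = _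
    by_cases hi : k = i
    · subst hi
      rw [Pi.single_eq_same, Pi.single_eq_same, Pi.single_eq_of_ne hij, Pi.single_eq_of_ne hij]; norm_num
    · rw [Pi.single_eq_of_ne hi, Pi.single_eq_of_ne hi]
      by_cases hj : k = j
      · subst hj
        rw [Pi.single_eq_same, Pi.single_eq_same]
        rcases hs with rfl | rfl <;> norm_num
      · rw [Pi.single_eq_of_ne hj, Pi.single_eq_of_ne hj]; norm_num
  rw [this, Finset.sum_add_distrib]
  simp

theorem eq_of_T {g h : Equiv.Perm leechLattice} (hg : g ∈ Co0) (hh : h ∈ Co0) (H : T g = T h) : g = h := by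
  have key : ∀ i, g (e8 i) = h (e8 i) := by
    intro i
    obtain ⟨j, hj⟩ : ∃ j : GolayPt, i ≠ j := by
      by_cases hi : i = none
      · exact ⟨some 0, by rw [hi]; simp⟩
      · exact ⟨none, hi⟩
    have h1 : e8 i = e4 i j 1 (Or.inl rfl) + e4 i j (-1) (Or.inr rfl) := by
      apply Subtype.ext
      ext k
      show (Pi.single i 8 : GolayPt → ℤ) k = ((Pi.single i 4 : GolayPt → ℤ) k + (Pi.single j (4 * 1) : GolayPt → ℤ) k) + ((Pi.single i 4 : GolayPt → ℤ) k + (Pi.single j (4 * (-1)) : GolayPt → ℤ) k)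
      simp only [Pi.single_apply]
      split_ifs <;> norm_num
    rw [h1, hg.1, hh.1, eq_of_short hg hh H _ (sqNorm_e4 hj _ _), eq_of_short hg hh H _ (sqNorm_e4 hj _ _)]
  ext1 v
  have h2 : (8 : ℤ) • g v = (8 : ℤ) • h v := by
    have e1 : (8 : ℤ) • g v = toHom g hg ((8 : ℤ) • v) := by rw [map_zsmul]; rfl
    have e2 : (8 : ℤ) • h v = toHom h hh ((8 : ℤ) • v) := by rw [map_zsmul]; rfl
    rw [e1, e2, eight_smul, map_sum, map_sum]
    apply Finset.sum_congr rfl
    intro i _
    rw [map_zsmul, map_zsmul, toHom_apply, toHom_apply, key]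
  apply Subtype.ext
  ext k
  have h3 := congrFun (congrArg Subtype.val h2) k
  simpa using h3

/-- The second Conway group (the stabilizer in the Leech lattice automorphism group of the short vector fixed in the definitions) is isomorphic to a subgroup of the general linear group of degree 23 over the field with 13 elements: there is an injective homomorphism into it. -/
theorem result : ∃ f : ↥Cfsg.Spor.Co2 →* GL (Fin 23) (ZMod 13), Function.Injective f := by
  let b := Module.finBasisOfFinrankEq (ZMod 13) W finrank_W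
  let e : Module.End (ZMod 13) W ≃* Matrix (Fin 23) (Fin 23) (ZMod 13) := (LinearMap.toMatrixAlgEquiv b).toMulEquiv
  refine ⟨(Units.map e.toMonoidHom).comp φ.toHomUnits, ?_⟩
  have h1 : Function.Injective (Units.map e.toMonoidHom) := Units.map_injective e.injective
  have h2 : Function.Injective (φ.toHomUnits) := by
    intro g h hgh
    have h3 : φ g = φ h := by
      rw [← MonoidHom.coe_toHomUnits φ g, ← MonoidHom.coe_toHomUnits φ h, hgh]
    apply Subtype.ext
    apply eq_of_T g.2.1 h.2.1
    apply T_eq_of_W g.2 h.2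
    intro x hx
    have h4 := φ_apply g ⟨x, hx⟩
    have h5 := φ_apply h ⟨x, hx⟩
    rw [h3, h5] at h4
    exact h4.symm
  exact h1.comp h2

end Cfsg.Agent.S5546
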