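import Cfsg.Statements.S5547
import Cfsg.Agent.HH.Fi22Mat
import Cfsg.Agent.CosetEnum.Fi22.Main

set_option autoImplicit false
open Cfsg

namespace Cfsg.Agent.S5547

open Cfsg.Agent.HH.PM Cfsg.Agent.HH.F78 Cfsg.Spor

/-- index of a generator -/
def ix : Cfsg.Spor.Fi22.Gen → ℕ
  | .a => 0 | .b => 1 | .c => 2 | .d => 3 | .e => 4 | .f => 5 | .g => 6 | .h => 7 | .i => 8

lemma spec1 {ws : List ℕ} (h : ws ∈ W1) (h' : ws.all (fun i => Nat.blt i T.length) = true) : wpr 78 13 T ws = 1 :=
  chkW_spec (c := 5042) (w := 16) (K := 4096) (by norm_num) (by norm_num) (by norm_num) (fun x hx => by omega) (by norm_num)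
    (by norm_num) valid_T chk_W1 h h'

lemma spec2 {ws : List ℕ} (h : ws ∈ W2) (h' : ws.all (fun i => Nat.blt i T.length) = true) : wpr 78 13 T ws = 1 :=
  chkW_spec (c := 5042) (w := 16) (K := 4096) (by norm_num) (by norm_num) (by norm_num) (fun x hx => by omega) (by norm_num)
    (by norm_num) valid_T chk_W2 h h'

lemma sq (x : Cfsg.Spor.Fi22.Gen) : spm 78 13 (T.getD (ix x) []) * spm 78 13 (T.getD (ix x) []) = 1 := by
  have h : wpr 78 13 T [ix x, ix x] = 1 := by
    apply spec1
    · cases x <;> decide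
    · cases x <;> decide
  unfold wpr at h
  rw [List.map_cons, List.map_cons, List.map_nil, List.prod_cons, List.prod_cons, List.prod_nil, mul_one] at h
  exact h

/-- the images of the generators -/
def U (x : Cfsg.Spor.Fi22.Gen) : GL (Fin 78) (ZMod 13) :=
  ⟨spm 78 13 (T.getD (ix x) []), spm 78 13 (T.getD (ix x) []), sq x, sq x⟩

lemma U_word (L : List Cfsg.Spor.Fi22.Gen) : (((L.map U).prod : GL (Fin 78) (ZMod 13)) : Matrix (Fin 78) (Fin 78) (ZMod 13)) =
    wpr 78 13 T (L.map ix) := by
  induction L with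
  | nil => rfl
  | cons x L ih =>
    rw [List.map_cons, List.prod_cons, Units.val_mul, ih]
    unfold wpr
    rw [List.map_cons, List.map_cons, List.prod_cons]
    rfl

lemma U_pow (L : List Cfsg.Spor.Fi22.Gen) (k : ℕ) : (L.map U).prod ^ k = (((List.replicate k L).flatten).map U).prod := by
  induction k with
  | zero => simp
  | succ k ih => rw [pow_succ', ih, List.replicate_succ, List.flatten_cons, List.map_append, List.prod_append]

lemma U_rel1 (L : List Cfsg.Spor.Fi22.Gen) (k : ℕ) (h : ((List.replicate k L).flatten).map ix ∈ W1)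
    (h' : (((List.replicate k L).flatten).map ix).all (fun i => Nat.blt i T.length) = true) : (L.map U).prod ^ k = 1 := by
  rw [U_pow]
  apply Units.ext
  rw [U_word, spec1 h h', Units.val_one]

lemma U_rel2 (L : List Cfsg.Spor.Fi22.Gen) (k : ℕ) (h : ((List.replicate k L).flatten).map ix ∈ W2)
    (h' : (((List.replicate k L).flatten).map ix).all (fun i => Nat.blt i T.length) = true) : (L.map U).prod ^ k = 1 := by
  rw [U_pow]
  apply Units.ext
  rw [U_word, spec2 h h', Units.val_one]

lemma rels : ∀ r ∈ (coxRelators Cfsg.Spor.Fi22.edges ∪ {r | r ∈ Cfsg.Spor.Fi22.extra}), FreeGroup.lift U r = 1 := by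
  rintro r (⟨x, _, y, _, rfl⟩ | h)
  · rw [map_pow, map_mul, FreeGroup.lift_apply_of, FreeGroup.lift_apply_of]
    have h1 := U_rel1 [x, y] (coxLabel Cfsg.Spor.Fi22.edges x y) (by cases x <;> cases y <;> decide)
      (by cases x <;> cases y <;> decide)
    rw [List.map_cons, List.map_cons, List.map_nil, List.prod_cons, List.prod_cons, List.prod_nil, mul_one] at h1
    exact h1
  · have hm : r ∈ Cfsg.Spor.Fi22.extra := h
    unfold Cfsg.Spor.Fi22.extra at hm
    simp only [List.mem_cons, List.not_mem_nil, or_false] at hm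
    rcases hm with rfl | rfl | rfl
    · have h1 := U_rel2 [.d, .c, .b, .d, .e, .f, .d, .h, .i] 10 (by decide) (by decide)
      simpa [mul_assoc] using h1
    · have h1 := U_rel2 [.a, .b, .c, .d, .e, .f, .h] 9 (by decide) (by decide)
      simpa [mul_assoc] using h1
    · have h1 := U_rel2 [.b, .c, .d, .e, .f, .g, .h] 9 (by decide) (by decide)
      simpa [mul_assoc] using h1

/-- The Fischer group Fi₂₂ (the finitely presented 3-transposition group of the definitions) is isomorphic to a subgroup of the general linear group of degree 78 over the field with 13 elements: there is an injective homomorphism into it. -/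
theorem result : ∃ f : Cfsg.Spor.Fi22 →* GL (Fin 78) (ZMod 13), Function.Injective f := by
  let φ : Cfsg.Spor.Fi22 →* GL (Fin 78) (ZMod 13) := PresentedGroup.toGroup rels
  refine ⟨φ, ?_⟩
  haveI : IsSimpleGroup Cfsg.Spor.Fi22 := Cfsg.Agent.CosetEnum.Fi22.fi22_simple
  rcases (MonoidHom.normal_ker φ).eq_bot_or_eq_top with h | h
  · exact (MonoidHom.ker_eq_bot_iff φ).1 h
  · exfalso
    have h1 : φ (PresentedGroup.of Cfsg.Spor.Fi22.Gen.a) = 1 := by
      rw [← MonoidHom.mem_ker, h]; trivial
    have h2 : φ (PresentedGroup.of Cfsg.Spor.Fi22.Gen.a) = U Cfsg.Spor.Fi22.Gen.a := PresentedGroup.toGroup.of rels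
    rw [h2] at h1
    have h3 := congrArg (fun g : GL (Fin 78) (ZMod 13) => (g : Matrix (Fin 78) (Fin 78) (ZMod 13))) h1
    have h4 : spm 78 13 (T.getD (ix Cfsg.Spor.Fi22.Gen.a) []) = 1 := h3
    have h5 := congrFun (congrFun h4 2) 2
    rw [Matrix.one_apply_eq] at h5
    revert h5
    decide

end Cfsg.Agent.S5547
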