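import Cfsg.Statements.S5548
import Cfsg.Agent.M24X.Perm24

set_option autoImplicit false
open Cfsg

namespace Cfsg.Agent.S5548

open MulAction Cfsg.Agent.Golay Cfsg.Agent.Golay.Coset Cfsg.Agent.Golay.Orb Cfsg.Agent.M24X
open scoped Pointwise

theorem even_card_iff_sum (v : Cfsg.GolayPt → ZMod 2) : Even (support₂ v).card ↔ ∑ p, v p = 0 := by
  have h : ∑ p, v p = ((support₂ v).card : ZMod 2) := by
    rw [← Finset.sum_filter_add_sum_filter_not Finset.univ (fun p => v p ≠ 0)]
    have h1 : ∑ p ∈ Finset.univ.filter (fun p => ¬ v p ≠ 0), v p = 0 := by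
      apply Finset.sum_eq_zero
      intro p hp
      rw [Finset.mem_filter, not_not] at hp
      exact hp.2
    have h2 : ∑ p ∈ Finset.univ.filter (fun p => v p ≠ 0), v p = ∑ p ∈ Finset.univ.filter (fun p => v p ≠ 0), 1 := by
      apply Finset.sum_congr rfl
      intro p hp
      rw [Finset.mem_filter] at hp
      exact zmod2_ne_zero hp.2
    rw [h1, h2, add_zero, Finset.sum_const, nsmul_eq_mul, mul_one]
    rfl
  rw [h, ZMod.natCast_eq_zero_iff_even]



/-- For the automorphism group of the length-24 binary Golay code of the definitions (the Mathieu group of degree 24) acting on binary words of length 24 by permuting coordinates, the only invariant subspaces of the space of all words are: zero, the span of the all-ones word, the code itself, the even-weight words, and the whole space. (So the permutation module has a unique composition series.) -/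
theorem result (W : Submodule (ZMod 2) (Cfsg.GolayPt → ZMod 2)) (hW : ∀ σ ∈ Cfsg.M24, ∀ w ∈ W, (fun p => w (σ.symm p)) ∈ W) : W = ⊥ ∨ W = Submodule.span (ZMod 2) {fun _ => (1 : ZMod 2)} ∨ W = Cfsg.golayCode ∨ (W : Set (Cfsg.GolayPt → ZMod 2)) = {w | ∑ p, w p = 0} ∨ W = ⊤ := by
  have hfam : InvFam (fun s : Finset Cfsg.GolayPt => wordOf s ∈ W) := by
    refine ⟨?_, ?_, ?_⟩
    · have : wordOf (∅ : Finset Cfsg.GolayPt) = 0 := by
        funext p; simp [wordOf]
      change wordOf ∅ ∈ W
      rw [this]; exact W.zero_mem
    · intro s t hs ht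
      change wordOf (symmDiff s t) ∈ W
      rw [wordOf_symmDiff]; exact W.add_mem hs ht
    · intro σ hσ s hs
      change wordOf (σ • s) ∈ W
      rw [← pact_wordOf]
      exact hW σ hσ _ hs
  have hmem : ∀ w, w ∈ W ↔ wordOf (support₂ w) ∈ W := fun w => by rw [wordOf_support₂]
  by_cases hc : ∃ w ∈ W, w ∉ Cfsg.golayCode
  · obtain ⟨w, hw, hwc⟩ := hc
    have heven := hfam.of_not_code (v := support₂ w) ((hmem w).1 hw) (fun h => hwc (by
      rw [← wordOf_support₂ w, wordOf_mem]; exact h))
    by_cases hodd : ∃ v ∈ W, ¬ Even (support₂ v).card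
    · right; right; right; right
      obtain ⟨v, hv, hvo⟩ := hodd
      rw [eq_top_iff]
      intro u _
      by_cases hu : Even (support₂ u).card
      · exact (hmem u).2 (heven _ hu)
      · have h1 : Even (support₂ (u + v)).card := by
          rw [support₂_add]
          have h2 := card_symmDiff_add (support₂ u) (support₂ v)
          rw [Nat.not_even_iff_odd] at hu hvo
          obtain ⟨a, ha⟩ := hu
          obtain ⟨b, hb⟩ := hvo
          rw [Nat.even_iff]
          omega
        have h3 : u + v ∈ W := (hmem _).2 (heven _ h1)
        have h4 : u = (u + v) - v := by rw [add_sub_cancel_right]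
        rw [h4]
        exact W.sub_mem h3 hv
    · right; right; right; left
      push Not at hodd
      ext v
      rw [SetLike.mem_coe, Set.mem_ofPred_eq, ← even_card_iff_sum]
      constructor
      · exact fun hv => hodd v hv
      · intro hv
        exact (hmem v).2 (heven _ hv)
  · push Not at hc
    by_cases hn : ∃ w ∈ W, support₂ w ≠ ∅ ∧ support₂ w ≠ Finset.univ
    · right; right; left
      obtain ⟨w, hw, h1, h2⟩ := hn
      have h3 := hfam.of_code (s := support₂ w) ⟨w, hc w hw, rfl⟩ h1 h2 ((hmem w).1 hw)
      apply le_antisymm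
      · exact fun v hv => hc v hv
      · intro v hv
        exact (hmem v).2 (h3 _ ⟨v, hv, rfl⟩)
    · push Not at hn
      have hone : ∀ v : Cfsg.GolayPt → ZMod 2, support₂ v = Finset.univ → v = fun _ => (1 : ZMod 2) := by
        intro v hv
        rw [← wordOf_support₂ v, hv]
        funext p; simp [wordOf]
      have hzero : ∀ v : Cfsg.GolayPt → ZMod 2, support₂ v = ∅ → v = 0 := by
        intro v hv
        rw [← wordOf_support₂ v, hv]
        funext p; simp [wordOf]
      by_cases h1 : (fun _ => (1 : ZMod 2)) ∈ W
      · right; left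
        apply le_antisymm
        · intro v hv
          rw [Submodule.mem_span_singleton]
          by_cases h2 : support₂ v = ∅
          · exact ⟨0, by rw [hzero v h2, zero_smul]⟩
          · exact ⟨1, by rw [hone v (hn v hv (Finset.nonempty_iff_ne_empty.2 h2)), one_smul]⟩
        · rw [Submodule.span_singleton_le_iff_mem]; exact h1
      · left
        rw [eq_bot_iff]
        intro v hv
        rw [Submodule.mem_bot]
        apply hzero
        by_contra h2
        have h3 := hone v (hn v hv (Finset.nonempty_iff_ne_empty.2 h2))
        rw [h3] at hv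
        exact h1 hv

end Cfsg.Agent.S5548
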