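import Cfsg.Statements.S5550
import Cfsg.Agent.M24X.Cocode
import Cfsg.Agent.M24X.DodPair

set_option autoImplicit false
open Cfsg

namespace Cfsg.Agent.S5550

open MulAction Cfsg.Agent.Golay Cfsg.Agent.Golay.Coset Cfsg.Agent.Golay.Orb Cfsg.Agent.M24X
open scoped Pointwise

theorem smul_near {σ : Equiv.Perm Cfsg.GolayPt} (hσ : σ ∈ Cfsg.M24) (s : Finset Cfsg.GolayPt) :
    σ • near s = near (σ • s) := by
  have key : ∀ {σ : Equiv.Perm Cfsg.GolayPt}, σ ∈ Cfsg.M24 → ∀ s t, t ∈ near s → σ • t ∈ near (σ • s) := by
    intro σ hσ s t ht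
    rw [mem_near] at ht ⊢
    refine ⟨by rw [Finset.card_smul_finset]; exact ht.1, ?_⟩
    rw [← Finset.smul_finset_symmDiff]
    exact smul_codeSets hσ ht.2
  ext t
  rw [Finset.mem_smul_finset]
  constructor
  · rintro ⟨u, hu, rfl⟩
    exact key hσ s u hu
  · intro ht
    refine ⟨σ⁻¹ • t, ?_, smul_inv_smul _ _⟩
    have := key (Cfsg.M24.inv_mem hσ) _ _ ht
    rwa [inv_smul_smul] at this

theorem near_congr {s t : Finset Cfsg.GolayPt} (h : symmDiff s t ∈ codeSets) : near s = near t := by
  have key : ∀ {s t : Finset Cfsg.GolayPt}, symmDiff s t ∈ codeSets → ∀ r, r ∈ near s → r ∈ near t := by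
    intro s t h r hr
    rw [mem_near] at hr ⊢
    refine ⟨hr.1, ?_⟩
    have h1 := symmDiff_mem_supports (symmDiff_comm s t ▸ h) hr.2
    rwa [symmDiff_assoc, symmDiff_symmDiff_cancel_left] at h1
  ext r
  exact ⟨key h r, key (symmDiff_comm s t ▸ h) r⟩

theorem card_stab_code {s : Finset Cfsg.GolayPt} (hs : s ∈ codeSets) :
    Nat.card (stabilizer Cfsg.M24 s) = 244823040 ∨ Nat.card (stabilizer Cfsg.M24 s) = 322560 ∨
      Nat.card (stabilizer Cfsg.M24 s) = 95040 := by
  have htop : ∀ s : Finset Cfsg.GolayPt, (∀ g : Cfsg.M24, g • s = s) → Nat.card (stabilizer Cfsg.M24 s) = 244823040 := by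
    intro s h
    have : stabilizer Cfsg.M24 s = ⊤ := by rw [eq_top_iff]; intro g _; exact h g
    rw [this, Subgroup.card_top, card_M24]
  rcases card_cases hs with h | h | h | h | h
  · left
    rw [Finset.card_eq_zero] at h
    apply htop
    intro g; rw [h]; rfl
  · right; left
    exact Cfsg.Agent.Golay.Orb.card_stabilizer_octad (mem_octads_of_card hs h)
  · right; right
    exact card_stabilizer_dodecad ⟨hs, h⟩
  · right; left
    have h1 : sᶜ ∈ octads := by
      refine ⟨compl_mem_supports hs, ?_⟩
      rw [Finset.card_compl, h]; rfl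
    have h2 : stabilizer Cfsg.M24 s = stabilizer Cfsg.M24 sᶜ := by
      ext g
      change (g : Equiv.Perm Cfsg.GolayPt) • s = s ↔ (g : Equiv.Perm Cfsg.GolayPt) • sᶜ = sᶜ
      rw [smul_compl, compl_inj_iff]
    rw [h2]
    exact Cfsg.Agent.Golay.Orb.card_stabilizer_octad h1
  · left
    have h3 : s = Finset.univ := by
      rw [← Finset.card_eq_iff_eq_univ, h]; rfl
    apply htop
    intro g
    rw [h3, Finset.smul_finset_univ]

theorem card_stab_near {s : Finset Cfsg.GolayPt} (hs : s ∉ codeSets) :
    Nat.card (stabilizer Cfsg.M24 (near s)) = 10200960 ∨ Nat.card (stabilizer Cfsg.M24 (near s)) = 887040 ∨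
      Nat.card (stabilizer Cfsg.M24 (near s)) = 120960 ∨ Nat.card (stabilizer Cfsg.M24 (near s)) = 138240 := by
  rcases near_cases s with ⟨t, ht, h3⟩ | ⟨t, ht, h4⟩
  · have h1 : stabilizer Cfsg.M24 (near s) = stabilizer Cfsg.M24 t := by
      ext g
      rw [ht, mem_stabilizer_iff, mem_stabilizer_iff, Finset.smul_finset_singleton, Finset.singleton_inj]
    rw [h1]
    have h0 : t.card ≠ 0 := by
      intro h0
      rw [Finset.card_eq_zero] at h0
      have h2 : t ∈ near s := by rw [ht]; simp
      rw [mem_near, h0] at h2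
      apply hs
      have := h2.2
      rwa [show symmDiff s ∅ = s from symmDiff_bot s] at this
    have hk : ∀ k, k ≤ 5 → t.card = k → ∀ m, (24).choose k * m = 244823040 → 0 < (24).choose k →
        Nat.card (stabilizer Cfsg.M24 t) = m := by
      intro k hk htk m hm hpos
      exact card_stab_of_orb (isOrb_subsets hk) (x := t) htk (ncard_subsets k) hm hpos
    rcases (by omega : t.card = 1 ∨ t.card = 2 ∨ t.card = 3) with h | h | h
    · left; exact hk 1 (by norm_num) h _ (by decide) (by decide)
    · right; left; exact hk 2 (by norm_num) h _ (by decide) (by decide)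
    · right; right; left; exact hk 3 (by norm_num) h _ (by decide) (by decide)
  · right; right; right
    rw [ht]
    exact card_sext_stab (sextetOf_mem h4)



/-- Let u be a word of the length-24 binary Golay code of the definitions (possibly zero or all-ones) and w any binary word of length 24 outside the code. Then some automorphism of the code (a coordinate permutation preserving it) fixes u but moves w to a word not congruent to w modulo the code: the stabilizer of a codeword fixes no non-zero element of the quotient of the space of all words by the code. -/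
theorem result (u : (Cfsg.GolayPt → ZMod 2)) (hu : u ∈ Cfsg.golayCode) (w : (Cfsg.GolayPt → ZMod 2)) (hw : w ∉ Cfsg.golayCode) : ∃ σ ∈ Cfsg.M24, (fun p => u (σ.symm p)) = u ∧ (fun p => w (σ.symm p)) - w ∉ Cfsg.golayCode := by
  by_contra hcon
  push Not at hcon
  -- supports
  have hs : support₂ u ∈ codeSets := ⟨u, hu, rfl⟩
  have hle : MulAction.stabilizer Cfsg.M24 (support₂ u) ≤ MulAction.stabilizer Cfsg.M24 (near (support₂ w)) := by
    intro g hg
    have h1 : (g : Equiv.Perm Cfsg.GolayPt) • support₂ u = support₂ u := hg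
    have h2 : pact g u = u := by
      rw [← wordOf_support₂ u, pact_wordOf, h1]
    have h3 := hcon g g.2 h2
    have h4 : pact (g : Equiv.Perm Cfsg.GolayPt) w - w ∈ Cfsg.golayCode := h3
    rw [sub_mem_iff] at h4
    have h5 : support₂ (pact (g : Equiv.Perm Cfsg.GolayPt) w) = (g : Equiv.Perm Cfsg.GolayPt) • support₂ w := by
      rw [← wordOf_support₂ w, pact_wordOf, support₂_wordOf, support₂_wordOf]
    rw [h5] at h4
    rw [MulAction.mem_stabilizer_iff]
    change (g : Equiv.Perm Cfsg.GolayPt) • near (support₂ w) = near (support₂ w)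
    rw [smul_near g.2, near_congr h4]
  have hdvd := Subgroup.card_dvd_of_le hle
  have hH : Nat.card (MulAction.stabilizer Cfsg.M24 (support₂ u)) = 244823040 ∨
      Nat.card (MulAction.stabilizer Cfsg.M24 (support₂ u)) = 322560 ∨
      Nat.card (MulAction.stabilizer Cfsg.M24 (support₂ u)) = 95040 := card_stab_code hs
  have hK : Nat.card (MulAction.stabilizer Cfsg.M24 (near (support₂ w))) = 10200960 ∨
      Nat.card (MulAction.stabilizer Cfsg.M24 (near (support₂ w))) = 887040 ∨
      Nat.card (MulAction.stabilizer Cfsg.M24 (near (support₂ w))) = 120960 ∨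
      Nat.card (MulAction.stabilizer Cfsg.M24 (near (support₂ w))) = 138240 := by
    apply card_stab_near
    intro h
    exact hw (by rw [← wordOf_support₂ w, wordOf_mem]; exact h)
  rcases hH with h1 | h1 | h1 <;> rcases hK with h2 | h2 | h2 | h2 <;> rw [h1, h2] at hdvd <;> revert hdvd <;> decide

end Cfsg.Agent.S5550
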