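import Cfsg.Statements.S5552
import Cfsg.Agent.Leech.CrossStab

set_option autoImplicit false
open Cfsg

namespace Cfsg.Agent.S5552

/-- explicit vectors -/
def v1 : GolayPt → ℤ := fun p => if p = none then 4 else if p = some 0 then 4 else 0
def w1 : GolayPt → ℤ := fun p => if p = some 0 then -4 else if p = some 1 then 4 else 0
def u1 : GolayPt → ℤ := fun p => if (8394986 : ℕ).testBit (Golay.idx p) then -2 else 0
def u2 : GolayPt → ℤ := fun p => if p = some 2 then 4 else if p = some 3 then 4 else 0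

def V : leechLattice := ⟨v1, Leech.mem_of_test (by decide +kernel)⟩
def W : leechLattice := ⟨w1, Leech.mem_of_test (by decide +kernel)⟩
def U : leechLattice := ⟨u1, Leech.mem_of_test (by decide +kernel)⟩
def U2 : leechLattice := ⟨u2, Leech.mem_of_test (by decide +kernel)⟩

theorem norms : sqNorm v1 = 32 ∧ sqNorm w1 = 32 ∧ sqNorm u1 = 32 ∧ sqNorm u2 = 32 ∧ sqNorm (v1 + w1) = 32 ∧
    sqNorm (u1 + v1) = 48 ∧ sqNorm (u1 + w1) = 48 ∧ sqNorm (u1 + v1 + w1) = 32 ∧
    sqNorm (u2 + v1) = 64 ∧ sqNorm (u2 + w1) = 64 ∧ sqNorm (u2 + v1 + w1) = 64 := by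
  decide +kernel

theorem norm_mod {x y : leechLattice} {z : leechLattice} (h : x = y + (z + z)) :
    ((sqNorm (x : GolayPt → ℤ) / 16 : ℤ) : ZMod 2) = ((sqNorm (y : GolayPt → ℤ) / 16 : ℤ) : ZMod 2) := by
  have h1 := Leech.sqNorm_add (y : GolayPt → ℤ) ((z + z : leechLattice) : GolayPt → ℤ)
  have h2 : ((z + z : leechLattice) : GolayPt → ℤ) = (2 : ℤ) • (z : GolayPt → ℤ) := by
    rw [AddSubgroup.coe_add, two_smul]
  have h3 : dotInt (y : GolayPt → ℤ) ((2 : ℤ) • (z : GolayPt → ℤ)) = 2 * dotInt (y : GolayPt → ℤ) z := by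
    unfold dotInt
    rw [Finset.mul_sum]
    exact Finset.sum_congr rfl (fun i _ => by simp only [Pi.smul_apply, smul_eq_mul]; ring)
  rw [h2, Leech.sqNorm_smul, h3] at h1
  obtain ⟨k, hk⟩ := Leech.eight_dvd_dotInt y.2 z.2
  obtain ⟨l, hl⟩ := Leech.sixteen_dvd_sqNorm z.2
  obtain ⟨m, hm⟩ := Leech.sixteen_dvd_sqNorm y.2
  have h4 : sqNorm (x : GolayPt → ℤ) = sqNorm (y : GolayPt → ℤ) + 32 * (k + 2 * l) := by
    rw [h, AddSubgroup.coe_add, h2, h1, hk, hl]; ring
  rw [h4, (ZMod.intCast_eq_intCast_iff _ _ 2)]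
  unfold Int.ModEq
  push_cast
  omega

/-- On the Leech lattice of the definitions, let Q be a function to the field with two elements that is constant on cosets of twice the lattice, is a quadratic form there (Q(u+v+w) + Q(u) + Q(v) + Q(w) = Q(u+v) + Q(u+w) + Q(v+w) for all u, v, w), is invariant under every lattice automorphism, and is not identically zero. Then Q(v) is the squared length of v divided by 16, reduced modulo 2, for every lattice vector v (squared lengths of lattice vectors are multiples of 16). -/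
theorem result (Q : ↥Cfsg.leechLattice → ZMod 2) (hcoset : ∀ v w : ↥Cfsg.leechLattice, Q (v + (w + w)) = Q v) (hquad : ∀ u v w : ↥Cfsg.leechLattice, Q (u + v + w) + Q u + Q v + Q w = Q (u + v) + Q (u + w) + Q (v + w)) (hinv : ∀ (g : ↥Cfsg.Co0) (v : ↥Cfsg.leechLattice), Q (g • v) = Q v) (hne : ∃ v : ↥Cfsg.leechLattice, Q v ≠ 0) (v : ↥Cfsg.leechLattice) : Q v = ((Cfsg.sqNorm (v : Cfsg.GolayPt → ℤ) / 16 : ℤ) : ZMod 2) := by
  have htwo : ∀ t : ZMod 2, t + t = 0 := by decide
  have h0 : Q 0 = 0 := by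
    have := hquad 0 0 0
    simp only [add_zero] at this
    revert this
    generalize Q 0 = t
    revert t; decide
  have q32 : ∀ x y : leechLattice, sqNorm (x : GolayPt → ℤ) = 32 → sqNorm (y : GolayPt → ℤ) = 32 → Q x = Q y := by
    intro x y hx hy
    obtain ⟨g, hg⟩ := Leech.trans_32 x y hx hy
    rw [← hg, hinv]
  have q48 : ∀ x y : leechLattice, sqNorm (x : GolayPt → ℤ) = 48 → sqNorm (y : GolayPt → ℤ) = 48 → Q x = Q y := by
    intro x y hx hy
    obtain ⟨g, hg⟩ := Leech.trans_48 x y hx hy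
    rw [← hg, hinv]
  have q64 : ∀ x y : leechLattice, sqNorm (x : GolayPt → ℤ) = 64 → sqNorm (y : GolayPt → ℤ) = 64 → Q x = Q y := by
    intro x y hx hy
    obtain ⟨g, hg⟩ := Leech.trans_64 x y hx hy
    rw [← hg, hinv]
  obtain ⟨n1, n2, n3, n4, n5, n6, n7, n8, n9, n10, n11⟩ := norms
  have ha : Q V = 0 := by
    have h := hquad U V W
    rw [q32 (U + V + W) V n8 n1, q32 U V n3 n1, q32 W V n2 n1, q48 (U + W) (U + V) n7 n6,
      q32 (V + W) V n5 n1] at h
    revert h
    generalize Q V = s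
    generalize Q (U + V) = t
    revert s t; decide
  have hc : Q (U2 + V) = 0 := by
    have h := hquad U2 V W
    rw [q64 (U2 + V + W) (U2 + V) n11 n9, q32 U2 V n4 n1, q32 W V n2 n1, q64 (U2 + W) (U2 + V) n10 n9,
      q32 (V + W) V n5 n1, ha] at h
    revert h
    generalize Q (U2 + V) = t
    revert t; decide
  -- small representative
  have hrep : ∀ x : leechLattice, ∃ y z : leechLattice, sqNorm (y : GolayPt → ℤ) ≤ 64 ∧ x = y + (z + z) := by
    intro x
    obtain ⟨y, hy, hn, z, hz, h⟩ := Leech.mod_two_rep x x.2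
    refine ⟨⟨y, hy⟩, ⟨z, hz⟩, hn, ?_⟩
    apply Subtype.ext
    rw [AddSubgroup.coe_add, AddSubgroup.coe_add, ← two_smul ℕ, ← h]
    simp
  have hcases : ∀ y : leechLattice, sqNorm (y : GolayPt → ℤ) ≤ 64 → y = 0 ∨ sqNorm (y : GolayPt → ℤ) = 32 ∨
      sqNorm (y : GolayPt → ℤ) = 48 ∨ sqNorm (y : GolayPt → ℤ) = 64 := by
    intro y hn
    by_cases h : y = 0
    · exact Or.inl h
    · right
      have h1 := Leech.min_norm y.2 (fun h' => h (Subtype.ext h'))
      obtain ⟨k, hk⟩ := Leech.sixteen_dvd_sqNorm y.2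
      omega
  have hb : Q (U + V) = 1 := by
    by_contra hne1
    have h1 : Q (U + V) = 0 := by
      revert hne1; generalize Q (U + V) = t; revert t; decide
    obtain ⟨x, hx⟩ := hne
    obtain ⟨y, z, hn, hxy⟩ := hrep x
    rw [hxy, hcoset] at hx
    apply hx
    rcases hcases y hn with h | h | h | h
    · rw [h, h0]
    · rw [q32 y V h n1, ha]
    · rw [q48 y (U + V) h n6, h1]
    · rw [q64 y (U2 + V) h n9, hc]
  obtain ⟨y, z, hn, hxy⟩ := hrep v
  rw [norm_mod hxy, hxy, hcoset]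
  rcases hcases y hn with h | h | h | h
  · rw [h, h0]; simp [sqNorm]
  · rw [q32 y V h n1, ha, h]; decide
  · rw [q48 y (U + V) h n6, hb, h]; decide
  · rw [q64 y (U2 + V) h n9, hc, h]; decide

end Cfsg.Agent.S5552
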