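import Cfsg.Statements.S5553
import Cfsg.Agent.Leech.Index

set_option autoImplicit false
open Cfsg

namespace Cfsg.Agent.S5553

open Cfsg.Agent.Leech

/-- All coordinates even and congruent modulo four. -/
def IsA (x : GolayPt → ℤ) : Prop :=
  ((∀ i, x i ≡ 0 [ZMOD 4]) ∨ (∀ i, x i ≡ 2 [ZMOD 4])) ∧ ∑ i, x i ≡ 0 [ZMOD 8]

/-- The sublattice. -/
def subA : AddSubgroup (GolayPt → ℤ) where
  carrier := {x | IsA x}
  zero_mem' := ⟨Or.inl fun i => by simp, by simp⟩
  add_mem' := by
    rintro x y ⟨hx, hx'⟩ ⟨hy, hy'⟩
    refine ⟨?_, ?_⟩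
    · rcases hx with hx | hx <;> rcases hy with hy | hy
      · left; intro i; have := (hx i).add (hy i); simpa using this
      · right; intro i; have := (hx i).add (hy i); simpa using this
      · right; intro i; have := (hx i).add (hy i); simpa using this
      · left; intro i; have := (hx i).add (hy i)
        simp only [Pi.add_apply]
        unfold Int.ModEq at *; omega
    · simp only [Pi.add_apply, Finset.sum_add_distrib]
      simpa using hx'.add hy'
  neg_mem' := by
    rintro x ⟨hx, hx'⟩
    refine ⟨?_, ?_⟩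
    · rcases hx with hx | hx
      · left; intro i; have := hx i; simp only [Pi.neg_apply]; unfold Int.ModEq at *; omega
      · right; intro i; have := hx i; simp only [Pi.neg_apply]; unfold Int.ModEq at *; omega
    · simp only [Pi.neg_apply, Finset.sum_neg_distrib]
      unfold Int.ModEq at *; omega

theorem mem_subA (x : GolayPt → ℤ) : x ∈ subA ↔ IsA x := Iff.rfl

theorem subA_le_even : subA ≤ evenSub := by
  intro x hx
  rw [mem_evenSub_iff]
  obtain ⟨h | h, h'⟩ := hx
  · exact ⟨0, golayCode.zero_mem, fun i => by rw [lift_zero]; simpa using h i, h'⟩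
  · exact ⟨1, one_mem_code, fun i => by rw [lift_one]; simpa using h i, h'⟩

theorem card_pt : (Finset.univ : Finset GolayPt).card = 24 := by decide

theorem norm_subA {x : GolayPt → ℤ} (hx : x ∈ subA) : (32 : ℤ) ∣ sqNorm x := by
  obtain ⟨h | h, h'⟩ := hx
  · -- x = 4 y
    have h1 : ∀ i, ∃ y, x i = 4 * y := fun i => by
      have := h i; exact ⟨x i / 4, by unfold Int.ModEq at this; omega⟩
    choose y hy using h1
    have h2 : sqNorm x = 16 * ∑ i, y i ^ 2 := by
      unfold sqNorm; rw [Finset.mul_sum]; apply Finset.sum_congr rfl; intro i _; rw [hy]; ring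
    have h3 : ∑ i, x i = 4 * ∑ i, y i := by
      rw [Finset.mul_sum]; exact Finset.sum_congr rfl fun i _ => hy i
    have h4 : ∑ i, y i ^ 2 ≡ ∑ i, y i [ZMOD 2] := by
      apply Int.ModEq.sum; intro i _
      rcases Int.emod_two_eq_zero_or_one (y i) with h | h <;> simp [Int.ModEq, pow_two, Int.mul_emod, h]
    rw [h2]
    unfold Int.ModEq at *
    omega
  · have h1 : ∀ i, ∃ y, x i = 4 * y + 2 := fun i => by
      have := h i; exact ⟨x i / 4, by unfold Int.ModEq at this; omega⟩
    choose y hy using h1
    have h2 : sqNorm x = 16 * ∑ i, (y i ^ 2 + y i) + 96 := by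
      unfold sqNorm
      have : (96 : ℤ) = ∑ i : GolayPt, 4 := by
        rw [Finset.sum_const, card_pt]; norm_num
      rw [Finset.mul_sum, this, ← Finset.sum_add_distrib]
      apply Finset.sum_congr rfl; intro i _; rw [hy]; ring
    have h4 : ∑ i, (y i ^ 2 + y i) ≡ ∑ i : GolayPt, 0 [ZMOD 2] := by
      apply Int.ModEq.sum; intro i _
      rcases Int.emod_two_eq_zero_or_one (y i) with h | h <;> simp [Int.ModEq, pow_two, Int.add_emod, Int.mul_emod, h]
    rw [h2]
    simp only [Finset.sum_const_zero] at h4
    unfold Int.ModEq at *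
    omega

/-- the repetition code -/
def rep : AddSubgroup (GolayPt → ZMod 2) := AddSubgroup.zmultiples (1 : GolayPt → ZMod 2)

theorem mem_rep (c : GolayPt → ZMod 2) : c ∈ rep ↔ c = 0 ∨ c = 1 := by
  unfold rep
  rw [AddSubgroup.mem_zmultiples_iff]
  constructor
  · rintro ⟨k, rfl⟩
    rcases Int.even_or_odd' k with ⟨m, h | h⟩
    · left; ext i
      rw [h]
      simp only [Pi.smul_apply, Pi.one_apply, Pi.zero_apply, zsmul_eq_mul, mul_one]
      push_cast
      have : (2 : ZMod 2) = 0 := by decide
      rw [this, zero_mul]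
    · right; ext i
      rw [h]
      simp only [Pi.smul_apply, Pi.one_apply, zsmul_eq_mul, mul_one]
      push_cast
      have : (2 : ZMod 2) = 0 := by decide
      rw [this, zero_mul, zero_add]
  · rintro (rfl | rfl)
    · exact ⟨0, by simp⟩
    · exact ⟨1, by simp⟩

theorem card_rep : Nat.card rep = 2 := by
  unfold rep
  rw [Nat.card_zmultiples]
  have h : (2 : ℕ) • (1 : GolayPt → ZMod 2) = 0 := by
    ext i; simp; decide
  have h1 : addOrderOf (1 : GolayPt → ZMod 2) ∣ 2 := addOrderOf_dvd_of_nsmul_eq_zero h
  rcases (Nat.dvd_prime Nat.prime_two).1 h1 with h2 | h2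
  · rw [AddMonoid.addOrderOf_eq_one_iff] at h2
    exact absurd h2 one_ne_zero
  · exact h2

theorem rep_index : rep.index = 2 ^ 23 := by
  have h := rep.card_mul_index
  rw [card_rep] at h
  have h2 : Nat.card (GolayPt → ZMod 2) = 2 ^ 24 := by
    rw [Nat.card_pi]
    simp
  rw [h2] at h
  have : (2 : ℕ) ^ 24 = 2 * 2 ^ 23 := by norm_num
  rw [this] at h
  exact Nat.eq_of_mul_eq_mul_left (by norm_num) h

/-- vectors with all coordinates of the same parity. -/
def parVecs : AddSubgroup (GolayPt → ℤ) := rep.comap red2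

theorem parVecs_index : parVecs.index = 2 ^ 23 := by
  unfold parVecs
  rw [AddSubgroup.index_comap_of_surjective _ red2_surjective]
  exact rep_index

theorem par_even {x : GolayPt → ℤ} (hx : x ∈ parVecs) : (2 : ℤ) ∣ coordSum x := by
  have h : red2 x ∈ rep := hx
  have h1 := (red2_eq_iff x (red2 x)).1 rfl
  have h3 : ∑ i, x i ≡ ∑ i, lift (red2 x) i [ZMOD 2] := Int.ModEq.sum (fun i _ => h1 i)
  show (2 : ℤ) ∣ ∑ i, x i
  have h4 : ∑ i, lift (red2 x) i ≡ 0 [ZMOD 2] := by
    rcases (mem_rep _).1 h with h | h
    · rw [h]; simp [lift_zero]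
    · rw [h]; simp only [lift_one, Finset.sum_const, card_pt]; decide
  have := h3.trans h4
  unfold Int.ModEq at this
  omega

/-- the half of `parVecs` with sum divisible by four. -/
def parHalf : AddSubgroup (GolayPt → ℤ) :=
  parVecs ⊓ (AddSubgroup.zmultiples (4 : ℤ)).comap coordSum

theorem parHalf_relIndex : parHalf.relIndex parVecs = 2 := by
  let f : parVecs →+ ZMod 2 :=
    { toFun := fun x => ((coordSum x.1 / 2 : ℤ) : ZMod 2)
      map_zero' := by simp
      map_add' := by
        intro x y
        have h1 := par_even x.2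
        rw [AddSubgroup.coe_add, map_add, Int.add_ediv_of_dvd_left h1]
        push_cast; rfl }
  have hker : f.ker = parHalf.addSubgroupOf parVecs := by
    ext x
    rw [AddMonoidHom.mem_ker, AddSubgroup.mem_addSubgroupOf]
    have h1 := par_even x.2
    have h2 : f x = ((coordSum x.1 / 2 : ℤ) : ZMod 2) := rfl
    rw [h2, ZMod.intCast_zmod_eq_zero_iff_dvd]
    constructor
    · intro h
      refine ⟨x.2, ?_⟩
      show coordSum x.1 ∈ AddSubgroup.zmultiples (4 : ℤ)
      rw [Int.mem_zmultiples_iff]
      push_cast at h; omega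
    · rintro ⟨-, h⟩
      have h3 : coordSum x.1 ∈ AddSubgroup.zmultiples (4 : ℤ) := h
      rw [Int.mem_zmultiples_iff] at h3
      push_cast; omega
  have hsurj : Function.Surjective f := by
    intro z
    have hz : z = 0 ∨ z = 1 := by revert z; decide
    rcases hz with rfl | rfl
    · exact ⟨0, map_zero f⟩
    · refine ⟨⟨Pi.single none 2, ?_⟩, ?_⟩
      · show red2 (Pi.single none 2) ∈ rep
        have : red2 (Pi.single none 2) = 0 := by
          ext i
          simp only [red2, AddMonoidHom.coe_mk, ZeroHom.coe_mk, Pi.zero_apply]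
          by_cases h : i = none
          · subst h; simp; decide
          · rw [Pi.single_eq_of_ne h]; simp
        rw [this]; exact rep.zero_mem
      · show ((coordSum (Pi.single none 2) / 2 : ℤ) : ZMod 2) = 1
        have : coordSum (Pi.single none 2) = 2 := by
          show ∑ i, (Pi.single none 2 : GolayPt → ℤ) i = 2
          simp
        rw [this]; decide
  unfold AddSubgroup.relIndex
  rw [← hker, AddSubgroup.index_ker, AddMonoidHom.range_eq_top.2 hsurj]
  simp

theorem parHalf_index : parHalf.index = 2 ^ 24 := by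
  have hle : parHalf ≤ parVecs := inf_le_left
  have h := AddSubgroup.relIndex_mul_index hle
  rw [parHalf_relIndex, parVecs_index] at h
  rw [← h]; norm_num

theorem subA_eq : subA = parHalf.map dbl := by
  ext x
  constructor
  · rintro ⟨h, hs⟩
    have h2 : ∀ i, ∃ k, x i = 2 * k := by
      intro i
      rcases h with h | h
      · have := h i; exact ⟨x i / 2, by unfold Int.ModEq at this; omega⟩
      · have := h i; exact ⟨x i / 2, by unfold Int.ModEq at this; omega⟩
    choose a ha using h2
    have hx : x = dbl a := by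
      ext i
      show x i = (2 : ℤ) • a i
      rw [ha i]; simp
    refine ⟨a, ⟨?_, ?_⟩, hx.symm⟩
    · show red2 a ∈ rep
      rw [mem_rep]
      rcases h with h | h
      · left; rw [red2_eq_iff]; intro i
        have := h i; rw [ha i] at this; rw [lift_zero]; unfold Int.ModEq at *; omega
      · right; rw [red2_eq_iff]; intro i
        have := h i; rw [ha i] at this; rw [lift_one]; unfold Int.ModEq at *; omega
    · show coordSum a ∈ AddSubgroup.zmultiples (4 : ℤ)
      rw [Int.mem_zmultiples_iff]
      show (4 : ℤ) ∣ ∑ i, a i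
      have h2 : ∑ i, x i = 2 * ∑ i, a i := by
        rw [Finset.mul_sum]; exact Finset.sum_congr rfl (fun i _ => ha i)
      unfold Int.ModEq at hs; omega
  · rintro ⟨a, ⟨ha, hs⟩, rfl⟩
    have ha' : red2 a ∈ rep := ha
    have hs' : coordSum a ∈ AddSubgroup.zmultiples (4 : ℤ) := hs
    rw [Int.mem_zmultiples_iff] at hs'
    refine ⟨?_, ?_⟩
    · rcases (mem_rep _).1 ha' with h | h
      · left; intro i
        have := (red2_eq_iff a _).1 h i
        rw [lift_zero] at this
        show (2 : ℤ) • a i ≡ _ [ZMOD 4]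
        rw [smul_eq_mul]
        unfold Int.ModEq at *; omega
      · right; intro i
        have := (red2_eq_iff a _).1 h i
        rw [lift_one] at this
        show (2 : ℤ) • a i ≡ _ [ZMOD 4]
        rw [smul_eq_mul]
        unfold Int.ModEq at *; omega
    · show ∑ i, (2 : ℤ) • a i ≡ 0 [ZMOD 8]
      rw [← Finset.smul_sum, smul_eq_mul]
      have : coordSum a = ∑ i, a i := rfl
      rw [this] at hs'
      unfold Int.ModEq; omega

theorem subA_index : subA.index = 2 ^ 48 := by
  rw [subA_eq]
  rw [AddSubgroup.index_map, (AddMonoidHom.ker_eq_bot_iff dbl).2 dbl_injective, sup_bot_eq,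
    parHalf_index, dbl_range_index]
  norm_num

/-- The Leech lattice of the definitions has an additive subgroup A containing twice the lattice, of index 2^12 in the lattice, all of whose vectors have squared length divisible by 32: the invariant quadratic form 'squared length over 16 modulo 2' on the lattice modulo twice the lattice (a 24-dimensional space over the field with two elements) vanishes on a 12-dimensional subspace, so it is of plus type. -/
theorem result : ∃ A : AddSubgroup (Cfsg.GolayPt → ℤ), A ≤ Cfsg.leechLattice ∧ (∀ v ∈ Cfsg.leechLattice, (2 : ℤ) • v ∈ A) ∧ (A.addSubgroupOf Cfsg.leechLattice).index = 2 ^ 12 ∧ ∀ v ∈ A, (32 : ℤ) ∣ Cfsg.sqNorm v := by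
  have hle : subA ≤ leechLattice := subA_le_even.trans evenSub_le
  refine ⟨subA, hle, ?_, ?_, fun v hv => norm_subA hv⟩
  · intro v hv
    rcases (mem_iff v).1 hv with ⟨c, hc, h4, hs⟩ | ⟨c, hc, h4, hs⟩
    · refine ⟨Or.inl fun i => ?_, ?_⟩
      · have := h4 i
        show (2 : ℤ) • v i ≡ _ [ZMOD 4]
        rw [smul_eq_mul]; unfold Int.ModEq at *; omega
      · show ∑ i, (2 : ℤ) • v i ≡ 0 [ZMOD 8]
        rw [← Finset.smul_sum, smul_eq_mul]; unfold Int.ModEq at *; omega
    · refine ⟨Or.inr fun i => ?_, ?_⟩
      · have := h4 i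
        show (2 : ℤ) • v i ≡ _ [ZMOD 4]
        rw [smul_eq_mul]; unfold Int.ModEq at *; omega
      · show ∑ i, (2 : ℤ) • v i ≡ 0 [ZMOD 8]
        rw [← Finset.smul_sum, smul_eq_mul]; unfold Int.ModEq at *; omega
  · have h := AddSubgroup.relIndex_mul_index hle
    rw [leech_index, subA_index] at h
    have : (2 : ℕ) ^ 48 = 2 ^ 12 * 2 ^ 36 := by norm_num
    rw [this] at h
    exact Nat.eq_of_mul_eq_mul_right (by norm_num) h

end Cfsg.Agent.S5553
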