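import Cfsg.Statements.S5588
import Cfsg.Agent.Y5.Main2

set_option autoImplicit false
open Cfsg

namespace Cfsg.Agent.S5588

open Cfsg.Spor Cfsg.Agent.Y5

/-- the generators in the order of the letters -/
def gens : List Bimonster.Gen :=
  [.a, .b1, .c1, .d1, .e1, .f1, .b2, .c2, .d2, .e2, .f2, .b3, .c3, .d3, .e3, .f3]

/-- the Coxeter relations give a system -/
lemma sys {G : Type*} [Group G] (of : Bimonster.Gen → G)
    (h : ∀ x y, (of x * of y) ^ coxLabel Bimonster.edges x y = 1) :
    Sys (fun n => (gens.map of).getD n 1) := by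
  have hsq : ∀ x, of x * of x = 1 := by
    intro x
    have h1 := h x x
    have h2 : coxLabel Bimonster.edges x x = 1 := by simp [coxLabel]
    rwa [h2, pow_one] at h1
  have hg : ∀ i : Fin 16, (gens.map of).getD i 1 = of (gens.getD i .a) := by
    intro i; fin_cases i <;> rfl
  have hg' : ∀ i : ℕ, ¬ i < 16 → (gens.map of).getD i 1 = 1 := by
    intro i hi
    rw [List.getD_eq_default]
    rw [List.length_map]
    have : gens.length = 16 := rfl
    omega
  have d2 : ∀ i j : Fin 16, i ≠ j → adj i j = false →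
      coxLabel Bimonster.edges (gens.getD i .a) (gens.getD j .a) = 2 := by decide +kernel
  have d3 : ∀ i j : Fin 16, adj i j = true →
      coxLabel Bimonster.edges (gens.getD i .a) (gens.getD j .a) = 3 := by decide +kernel
  have hinv : ∀ x, (of x)⁻¹ = of x := fun x => inv_eq_of_mul_eq_one_left (hsq x)
  refine ⟨?_, ?_, ?_⟩
  · intro i
    by_cases hi : i < 16
    · have := hg ⟨i, hi⟩
      simp only at this
      rw [this]; exact hsq _
    · simp only [hg' i hi, mul_one]
  · intro i j hij
    by_cases hi : i < 16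
    · by_cases hj : j < 16
      · have h1 := hg ⟨i, hi⟩
        have h2 := hg ⟨j, hj⟩
        simp only at h1 h2 ⊢
        rw [h1, h2]
        by_cases hne : i = j
        · subst hne; rfl
        · have h3 := d2 ⟨i, hi⟩ ⟨j, hj⟩ (by simpa [Fin.ext_iff] using hne) hij
          have h4 := h (gens.getD i .a) (gens.getD j .a)
          simp only at h3
          rw [h3, pow_two] at h4
          have h5 := eq_inv_of_mul_eq_one_left h4
          rw [h5, mul_inv_rev, hinv, hinv]
      · simp only [hg' j hj, mul_one, one_mul]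
    · simp only [hg' i hi, mul_one, one_mul]
  · intro i j hij
    obtain ⟨hi, hj⟩ := adj_lt hij
    have h1 := hg ⟨i, hi⟩
    have h2 := hg ⟨j, hj⟩
    simp only at h1 h2 ⊢
    rw [h1, h2]
    have h3 := d3 ⟨i, hi⟩ ⟨j, hj⟩ hij
    have h4 := h (gens.getD i .a) (gens.getD j .a)
    simp only at h3
    rw [h3] at h4
    set x := of (gens.getD i .a)
    set y := of (gens.getD j .a)
    have h5 : (x * y * x) * (y * x * y) = 1 := by rw [← h4]; simp only [pow_succ, pow_zero]; group
    have h6 := eq_inv_of_mul_eq_one_left h5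
    have hx : x⁻¹ = x := hinv _
    have hy : y⁻¹ = y := hinv _
    rw [h6, mul_inv_rev, mul_inv_rev, hx, hy, mul_assoc]

/-- In the group presented by the sixteen involutions of the Y₅₅₅ Coxeter diagram subject only to the Coxeter relations and the single spider relation (a b₁ c₁ a b₂ c₂ a b₃ c₃)^10 = 1, each of the further relators used in the definitions' presentation of the Bimonster (each end node equals the ninth power of the Coxeter element of a sub-diagram of type E₇) already holds. Equivalently, the Y₅₅₅ diagram with the spider relation alone presents the Bimonster. -/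
theorem result :
    ∀ r ∈ Cfsg.Spor.Bimonster.extra,
      (PresentedGroup.mk (Cfsg.Spor.coxRelators Cfsg.Spor.Bimonster.edges ∪ {r' | r' ∈ [(Cfsg.Spor.Bimonster.a * Cfsg.Spor.Bimonster.b1 * Cfsg.Spor.Bimonster.c1 * Cfsg.Spor.Bimonster.a * Cfsg.Spor.Bimonster.b2 * Cfsg.Spor.Bimonster.c2 * Cfsg.Spor.Bimonster.a * Cfsg.Spor.Bimonster.b3 * Cfsg.Spor.Bimonster.c3) ^ 10]}) r) = 1 := by
  set R : Set (FreeGroup Bimonster.Gen) := (Cfsg.Spor.coxRelators Cfsg.Spor.Bimonster.edges ∪ {r' | r' ∈ [(Cfsg.Spor.Bimonster.a * Cfsg.Spor.Bimonster.b1 * Cfsg.Spor.Bimonster.c1 * Cfsg.Spor.Bimonster.a * Cfsg.Spor.Bimonster.b2 * Cfsg.Spor.Bimonster.c2 * Cfsg.Spor.Bimonster.a * Cfsg.Spor.Bimonster.b3 * Cfsg.Spor.Bimonster.c3) ^ 10]}) with hR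
  have hrel : ∀ r ∈ R, PresentedGroup.mk R r = 1 := fun r hr => PresentedGroup.one_of_mem hr
  have hnode : ∀ x : Bimonster.Gen, x ∈ coxNodes Bimonster.edges := by
    intro x; cases x <;> decide
  have hcox : ∀ x y : Bimonster.Gen,
      (PresentedGroup.mk R (FreeGroup.of x) * PresentedGroup.mk R (FreeGroup.of y)) ^
        coxLabel Bimonster.edges x y = 1 := by
    intro x y
    rw [← map_mul, ← map_pow]
    exact hrel _ (Or.inl ⟨x, hnode x, y, hnode y, rfl⟩)
  have hS := sys (fun x => PresentedGroup.mk R (FreeGroup.of x)) hcox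
  set g : ℕ → PresentedGroup R :=
    fun n => (gens.map fun x => PresentedGroup.mk R (FreeGroup.of x)).getD n 1 with hg
  have hsp : ev g wS ^ 10 = 1 := by
    have h1 := hrel _ (Or.inr (List.mem_singleton.mpr rfl))
    rw [map_pow] at h1
    rw [← h1]
    congr 1
  have hZ : wZ = (List.replicate 9 [0, 1, 6, 11, 2, 7, 3]).flatten := by decide
  have A1 := arm hS hsp
  have A2 := arm hS.s23 (spider_s23 hS hsp)
  have A3 := arm hS.s12 (spider_s12 hS hsp)
  have A4 := arm hS.s12.s23 (spider_s23 hS.s12 (spider_s12 hS hsp))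
  have A5 := arm hS.s23.s12 (spider_s12 hS.s23 (spider_s23 hS hsp))
  have A6 := arm hS.s12.s23.s12 (spider_s12 hS.s12.s23 (spider_s23 hS.s12 (spider_s12 hS hsp)))
  rw [hZ, ev_rep] at A1 A2 A3 A4 A5 A6
  have fin : ∀ {x y : PresentedGroup R}, x = y → x * y⁻¹ = 1 := fun h => by
    rw [h, mul_inv_cancel]
  intro r hr
  unfold Bimonster.extra at hr
  simp only [List.mem_cons, List.not_mem_nil, or_false] at hr
  rcases hr with rfl | rfl | rfl | rfl | rfl | rfl | rfl
  · exact hrel _ (Or.inr (List.mem_singleton.mpr rfl))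
  all_goals rw [map_mul, map_inv, map_pow]; apply fin
  · refine Eq.trans ?_ (A1.trans ?_)
    · rfl
    · congr 1
  · refine Eq.trans ?_ (A2.trans ?_)
    · rfl
    · congr 1
  · refine Eq.trans ?_ (A3.trans ?_)
    · rfl
    · congr 1
  · refine Eq.trans ?_ (A4.trans ?_)
    · rfl
    · congr 1
  · refine Eq.trans ?_ (A5.trans ?_)
    · rfl
    · congr 1
  · refine Eq.trans ?_ (A6.trans ?_)
    · rfl
    · congr 1

end Cfsg.Agent.S5588
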