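import Cfsg.Statements.S5594
import Cfsg.Agent.Leech.CrossStab
import Cfsg.Agent.Golay.M12

set_option autoImplicit false
open Cfsg

namespace Cfsg.Agent.S5594

open MulAction Cfsg.Agent.Golay Cfsg.Agent.Leech
open scoped Pointwise


/-- The automorphism group of the Leech lattice contains the negation map, and the subgroup of order 2 it generates has no complement: the automorphism group is a non-split extension of its quotient by that subgroup (it is not the direct product of a group of order 2 with the first Conway group). -/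
theorem result :
    ∃ n : ↥Cfsg.Co0, (∀ v : ↥Cfsg.leechLattice, ((n • v : ↥Cfsg.leechLattice) : Cfsg.GolayPt → ℤ) = -(v : Cfsg.GolayPt → ℤ)) ∧
    ∀ K : Subgroup ↥Cfsg.Co0, ¬ (Subgroup.zpowers n).IsComplement' K := by
  classical
  obtain ⟨hc0, -⟩ := d0_mem
  obtain ⟨c, hc, hcs⟩ := hc0
  obtain ⟨σ, hσ, hT⟩ := exists_mem_M24 (n := 0x5883388a1c8f5140b46cd317aed7) (by decide +kernel)
  have hmem : ∀ i, i ∈ d0 ↔ lift c i = 1 := by
    intro i
    rw [← hcs]
    unfold lift Cfsg.support₂
    rw [Finset.mem_filter]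
    have : ∀ z : ZMod 2, z ≠ 0 ↔ ((z.val : ℕ) : ℤ) = 1 := by decide
    rw [this]
    simp
  have hσσ : ∀ i, σ (σ i) = i := by
    intro i
    apply idx_injective
    rw [hT, hT]
    have key : ∀ k < 24, papp 0x5883388a1c8f5140b46cd317aed7 (papp 0x5883388a1c8f5140b46cd317aed7 k) = k := by
      decide +kernel
    exact key _ (idx_lt i)
  have hsymm : ∀ i, σ.symm i = σ i := fun i => by
    rw [Equiv.symm_apply_eq, hσσ]
  have hsw : ∀ i, (σ i ∈ d0) ↔ ¬ (i ∈ d0) := by
    intro i
    unfold d0
    rw [mem_ofMask, mem_ofMask, hT]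
    have key : ∀ k < 24, (Nat.testBit 340831 (papp 0x5883388a1c8f5140b46cd317aed7 k) = true ↔
      ¬ Nat.testBit 340831 k = true) := by
      decide +kernel
    exact key _ (idx_lt i)
  have hsgn : ∀ i, (1 - 2 * lift c i) * (1 - 2 * lift c (σ i)) = -1 := by
    intro i
    have h1 := hsw i
    rw [hmem, hmem] at h1
    rcases lift_zero_or_one c i with h | h <;> rcases lift_zero_or_one c (σ i) with h' | h' <;>
      rw [h, h'] at h1 ⊢ <;> simp at h1 ⊢
  let g : Co0 := flipElt c hc * permElt σ hσ
  have hgx : ∀ (x : leechLattice) (i : GolayPt), ((g • x : leechLattice) : GolayPt → ℤ) i =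
      (1 - 2 * lift c i) * (x : GolayPt → ℤ) (σ.symm i) := fun x i => rfl
  have hgg : g * g = negElt := by
    apply Subtype.ext
    apply Equiv.ext
    intro x
    apply Subtype.ext
    funext i
    show ((g • (g • x) : leechLattice) : GolayPt → ℤ) i = ((-x : leechLattice) : GolayPt → ℤ) i
    rw [hgx, hgx, hsymm, hsymm, hσσ, ← mul_assoc, hsgn]
    simp
  refine ⟨negElt, fun v => rfl, fun K hK => ?_⟩
  have hn1 : negElt ≠ 1 := negElt_ne_one
  have hnn : negElt ^ 2 = 1 := by
    rw [pow_two]
    apply Subtype.ext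
    apply Equiv.ext
    intro x
    exact neg_neg x
  have hord : Nat.card (Subgroup.zpowers negElt) = 2 := by
    rw [Nat.card_zpowers]
    exact orderOf_eq_prime hnn hn1
  have hidx : K.index = 2 := by rw [hK.index_eq_card, hord]
  have h1 : g ^ 2 ∈ K := Subgroup.sq_mem_of_index_two hidx g
  rw [pow_two, hgg] at h1
  have h2 := hK.disjoint
  rw [Subgroup.disjoint_def] at h2
  exact hn1 (h2 (Subgroup.mem_zpowers _) h1)

end Cfsg.Agent.S5594
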