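import Cfsg.Statements.S5599
import Cfsg.Agent.Golay.OrbInv
import Cfsg.Prelude.Def_Spor_Mathieu


set_option autoImplicit false
open scoped Pointwise
open Cfsg

namespace Cfsg.Agent.S5599

open Cfsg.Agent.Golay Cfsg.Agent.Golay.Orb MulAction

theorem map4 {a b c d a' b' c' d' : Cfsg.GolayPt} (h : Function.Injective ![a, b, c, d])
    (h' : Function.Injective ![a', b', c', d']) :
    ∃ σ ∈ Cfsg.M24, σ a = a' ∧ σ b = b' ∧ σ c = c' ∧ σ d = d' := by
  have := M24_transitive_k 4 (by norm_num)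
  rw [isMultiplyPretransitive_iff] at this
  obtain ⟨σ, hσ⟩ := this (x := ⟨_, h⟩) (y := ⟨_, h'⟩)
  have h0 := congrArg (fun e : Fin 4 ↪ Cfsg.GolayPt => e 0) hσ
  have h1 := congrArg (fun e : Fin 4 ↪ Cfsg.GolayPt => e 1) hσ
  have h2 := congrArg (fun e : Fin 4 ↪ Cfsg.GolayPt => e 2) hσ
  have h3 := congrArg (fun e : Fin 4 ↪ Cfsg.GolayPt => e 3) hσ
  exact ⟨σ, σ.2, h0, h1, h2, h3⟩

theorem inj4 {a b c d : Cfsg.GolayPt} (h1 : a ≠ b) (h2 : a ≠ c) (h3 : a ≠ d) (h4 : b ≠ c) (h5 : b ≠ d)
    (h6 : c ≠ d) : Function.Injective ![a, b, c, d] := by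
  intro i j hij
  fin_cases i <;> fin_cases j <;> simp_all

theorem mem_M22 {x : Equiv.Perm Cfsg.GolayPt} : x ∈ Cfsg.Spor.M22 ↔
    x ∈ Cfsg.M24 ∧ x none = none ∧ x (some 0) = some 0 := by
  constructor
  · rintro ⟨⟨h1, h2⟩, h3⟩; exact ⟨h1, h2, h3⟩
  · rintro ⟨h1, h2, h3⟩; exact ⟨⟨h1, h2⟩, h3⟩


/-- In the automorphism group of the length-24 code, the two-point Mathieu group (permutations of the code's group fixing the extra point and the residue 0) has index 2 in the setwise stabiliser of that pair of points, and an element of the code's group interchanging the two points normalises the two-point group and induces on it, by conjugation, an automorphism that is not inner. -/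
theorem result (g : Equiv.Perm Cfsg.GolayPt) (hg : g ∈ Cfsg.M24) (h₁ : g none = some 0) (h₂ : g (some 0) = none) : Cfsg.Spor.M22.relIndex (Cfsg.M24 ⊓ MulAction.stabilizer (Equiv.Perm Cfsg.GolayPt) ({none, some 0} : Finset Cfsg.GolayPt)) = 2 ∧ (∀ x ∈ Cfsg.Spor.M22, g * x * g⁻¹ ∈ Cfsg.Spor.M22) ∧ ¬ ∃ h ∈ Cfsg.Spor.M22, ∀ x ∈ Cfsg.Spor.M22, g * x * g⁻¹ = h * x * h⁻¹ := by
  have hne : (none : Cfsg.GolayPt) ≠ some 0 := by decide
  have hstab : ∀ x : Equiv.Perm Cfsg.GolayPt,
      x ∈ MulAction.stabilizer (Equiv.Perm Cfsg.GolayPt) ({none, some 0} : Finset Cfsg.GolayPt) ↔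
      (x none = none ∧ x (some 0) = some 0) ∨ (x none = some 0 ∧ x (some 0) = none) := by
    intro x
    rw [mem_stabilizer_iff]
    constructor
    · intro h
      have h1 : x none ∈ ({none, some 0} : Finset Cfsg.GolayPt) := by
        rw [← h]; exact apply_mem_smul.2 (by simp)
      have h2 : x (some 0) ∈ ({none, some 0} : Finset Cfsg.GolayPt) := by
        rw [← h]; exact apply_mem_smul.2 (by simp)
      rw [Finset.mem_insert, Finset.mem_singleton] at h1 h2
      rcases h1 with h1 | h1 <;> rcases h2 with h2 | h2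
      · exact absurd (x.injective (h1.trans h2.symm)) hne
      · exact Or.inl ⟨h1, h2⟩
      · exact Or.inr ⟨h1, h2⟩
      · exact absurd (x.injective (h1.trans h2.symm)) hne
    · intro h
      apply Finset.eq_of_subset_of_card_le
      · intro p hp
        rw [Finset.mem_smul_finset] at hp
        obtain ⟨q, hq, rfl⟩ := hp
        rw [Finset.mem_insert, Finset.mem_singleton] at hq ⊢
        change x q = none ∨ x q = some 0
        rcases hq with rfl | rfl <;> rcases h with h | h
        · exact Or.inl h.1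
        · exact Or.inr h.1
        · exact Or.inr h.2
        · exact Or.inl h.2
      · rw [Finset.card_smul_finset]
  refine ⟨?_, ?_, ?_⟩
  · set K := Cfsg.M24 ⊓ MulAction.stabilizer (Equiv.Perm Cfsg.GolayPt) ({none, some 0} : Finset Cfsg.GolayPt) with hK
    have hle : Cfsg.Spor.M22 ≤ K := by
      intro x hx
      rw [mem_M22] at hx
      exact ⟨hx.1, (hstab x).2 (Or.inl hx.2)⟩
    have hgK : g ∈ K := ⟨hg, (hstab g).2 (Or.inr ⟨h₁, h₂⟩)⟩
    have heq : (K ⊓ stabilizer (Equiv.Perm Cfsg.GolayPt) (none : Cfsg.GolayPt) : Subgroup _) = Cfsg.Spor.M22 := by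
      ext x
      rw [mem_M22, Subgroup.mem_inf, mem_stabilizer_iff]
      constructor
      · rintro ⟨⟨h1, h2⟩, h3⟩
        have h3' : x none = none := h3
        rcases (hstab x).1 h2 with h | h
        · exact ⟨h1, h⟩
        · exact absurd (h3'.symm.trans h.1) hne
      · rintro ⟨h1, h2⟩
        exact ⟨⟨h1, (hstab x).2 (Or.inl h2)⟩, h2.1⟩
    have horb : (orbit K (none : Cfsg.GolayPt)).ncard = 2 := by
      have : orbit K (none : Cfsg.GolayPt) = {none, some 0} := by
        apply PermChain.orbit_eq_of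
        · intro x hx
          rcases (hstab x).1 hx.2 with h | h
          · left; exact h.1
          · right; exact h.1
        · rintro y (rfl | rfl)
          · exact ⟨1, K.one_mem, rfl⟩
          · exact ⟨g, hgK, h₁⟩
      rw [this, Set.ncard_pair hne]
    have h3 := PermChain.card_eq_orbit_mul K (none : Cfsg.GolayPt)
    rw [heq, horb] at h3
    have h4 := (Cfsg.Spor.M22.subgroupOf K).index_mul_card
    rw [Nat.card_congr (Subgroup.subgroupOfEquivOfLe hle).toEquiv, h3] at h4
    exact Nat.eq_of_mul_eq_mul_right Nat.card_pos h4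
  · intro x hx
    rw [mem_M22] at hx ⊢
    refine ⟨Cfsg.M24.mul_mem (Cfsg.M24.mul_mem hg hx.1) (Cfsg.M24.inv_mem hg), ?_, ?_⟩
    · simp only [Equiv.Perm.mul_apply]
      rw [← h₂]
      simp [hx.2.2]
    · simp only [Equiv.Perm.mul_apply]
      rw [← h₁]
      simp [hx.2.1]
  · rintro ⟨h, hh, hc⟩
    rw [mem_M22] at hh
    -- `c = h⁻¹ g` commutes with `M22`
    have hcM : h⁻¹ * g ∈ Cfsg.M24 := Cfsg.M24.mul_mem (Cfsg.M24.inv_mem hh.1) hg
    have hcomm : ∀ x ∈ Cfsg.Spor.M22, ∀ p, (h⁻¹ * g) (x p) = x ((h⁻¹ * g) p) := by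
      intro x hx p
      have h1 := hc x hx
      have h2 : (h⁻¹ * g) * x = x * (h⁻¹ * g) := by
        have e1 : (h⁻¹ * g) * x = h⁻¹ * (g * x * g⁻¹) * g := by group
        rw [e1, h1]; group
      exact congrArg (fun e : Equiv.Perm Cfsg.GolayPt => e p) h2
    have c1 : (h⁻¹ * g) none = some 0 := by
      rw [Equiv.Perm.mul_apply, h₁, Equiv.Perm.inv_eq_iff_eq, hh.2.2]
    have c2 : (h⁻¹ * g) (some 0) = none := by
      rw [Equiv.Perm.mul_apply, h₂, Equiv.Perm.inv_eq_iff_eq, hh.2.1]
    generalize h⁻¹ * g = c at hcM hcomm c1 c2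
    obtain ⟨p, hp1, hp2, hp3⟩ := exists_second_cycle hcM (c := none) (by rw [c1]; exact hne.symm)
    rw [c1] at hp2
    have hq1 : c p ≠ none := by
      intro e
      exact hp2 (c.injective (e.trans c2.symm))
    have hq2 : c p ≠ some 0 := by
      intro e
      exact hp1 (c.injective (e.trans c1.symm))
    obtain ⟨r, hr⟩ : ∃ r, r ∉ ({none, some 0, p, c p} : Finset Cfsg.GolayPt) := by
      by_contra hcon
      push Not at hcon
      have h1 : (Finset.univ : Finset Cfsg.GolayPt).card ≤ ({none, some 0, p, c p} : Finset Cfsg.GolayPt).card :=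
        Finset.card_le_card (fun x _ => hcon x)
      rw [Finset.card_univ, card_golayPt] at h1
      have h2 : ({none, some 0, p, c p} : Finset Cfsg.GolayPt).card ≤ 4 := Finset.card_le_four
      omega
    simp only [Finset.mem_insert, Finset.mem_singleton, not_or] at hr
    obtain ⟨x, hx, x1, x2, x3, x4⟩ := map4 (inj4 hne hp1.symm hq1.symm hp2.symm hq2.symm hp3.symm)
      (inj4 hne hp1.symm (Ne.symm hr.1) hp2.symm (Ne.symm hr.2.1) (Ne.symm hr.2.2.1))
    have h5 := hcomm x (mem_M22.2 ⟨hx, x1, x2⟩) p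
    rw [x3, x4] at h5
    exact hr.2.2.2 h5.symm

end Cfsg.Agent.S5599
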