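import Cfsg.Statements.S5600
import Cfsg.Agent.Golay.Orb16


set_option autoImplicit false
open scoped Pointwise
open Cfsg

namespace Cfsg.Agent.S5600

open Cfsg.Agent.Golay Cfsg.Agent.Golay.Orb MulAction

theorem card_in {E : Finset Cfsg.GolayPt} {x : Fin 6 → Cfsg.GolayPt} (hx2 : ∀ i, x i ∈ E)
    (hx3 : ∀ p ∈ E, ∃ i, x i = p) {b : Fin 6 → Cfsg.GolayPt} {τ : Equiv.Perm Cfsg.GolayPt} (hτ : τ ∈ Cfsg.M24)
    (h : ∀ i, τ (b i) = x i) {K : Subgroup (Equiv.Perm Cfsg.GolayPt)}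
    (hK : ∀ σ, σ ∈ K ↔ σ ∈ Cfsg.M24 ∧ ∀ i, σ (b i) = b i) :
    Nat.card {g : Equiv.Perm Cfsg.GolayPt // g ∈ Cfsg.M24 ∧ ∀ p ∈ E, g p = p} = Nat.card K := by
  refine Nat.card_congr (Equiv.ofBijective
    (fun g => (⟨τ⁻¹ * g.1 * τ, (hK _).2 ⟨Cfsg.M24.mul_mem (Cfsg.M24.mul_mem (Cfsg.M24.inv_mem hτ) g.2.1) hτ, ?_⟩⟩ : K))
    ⟨?_, ?_⟩)
  · intro i
    simp only [Equiv.Perm.mul_apply]
    rw [h, g.2.2 _ (hx2 i), ← h]
    simp
  · intro g g' hgg
    have h1 : τ⁻¹ * g.1 * τ = τ⁻¹ * g'.1 * τ := congrArg Subtype.val hgg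
    apply Subtype.ext
    exact mul_left_cancel (mul_right_cancel h1)
  · rintro ⟨k, hk⟩
    rw [hK] at hk
    refine ⟨⟨τ * k * τ⁻¹, Cfsg.M24.mul_mem (Cfsg.M24.mul_mem hτ hk.1) (Cfsg.M24.inv_mem hτ), ?_⟩, ?_⟩
    · intro p hp
      obtain ⟨i, rfl⟩ := hx3 p hp
      simp only [Equiv.Perm.mul_apply]
      rw [← h i]
      simp [hk.2 i]
    · apply Subtype.ext
      change τ⁻¹ * (τ * k * τ⁻¹) * τ = k
      group

/-- Restriction of the set stabiliser to the set. -/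
noncomputable def restr (E : Finset Cfsg.GolayPt) : stabilizer Cfsg.M24 E →* Equiv.Perm ↥E where
  toFun g := ((g : Cfsg.M24) : Equiv.Perm Cfsg.GolayPt).subtypePerm (fun x => by
    have h : ((g : Cfsg.M24) : Equiv.Perm Cfsg.GolayPt) • E = E := g.2
    generalize ((g : Cfsg.M24) : Equiv.Perm Cfsg.GolayPt) = γ at h
    conv_lhs => rw [← h]
    exact apply_mem_smul)
  map_one' := by ext x; rfl
  map_mul' a b := by ext x; rfl

theorem restr_apply (E : Finset Cfsg.GolayPt) (g : stabilizer Cfsg.M24 E) (p : ↥E) :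
    ((restr E g p : ↥E) : Cfsg.GolayPt) = ((g : Cfsg.M24) : Equiv.Perm Cfsg.GolayPt) p := rfl

theorem tuple_perm {E : Finset Cfsg.GolayPt} (hE : E.card = 6) (σ : Equiv.Perm ↥E) :
    ∃ g ∈ Cfsg.M24, ∀ p : ↥E, g p = σ p := by
  obtain ⟨x, hx1, hx2, hx3⟩ := exists_tuple hE
  let y : Fin 6 → Cfsg.GolayPt := fun i => (σ ⟨x i, hx2 i⟩ : ↥E)
  have hy1 : Function.Injective y := by
    intro i j hij
    have := σ.injective (Subtype.ext hij)
    exact hx1 (congrArg Subtype.val this)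
  have hy2 : ∀ i, y i ∈ E := fun i => (σ ⟨x i, hx2 i⟩).2
  have hy3 : ∀ p ∈ E, ∃ i, y i = p := by
    intro p hp
    obtain ⟨i, hi⟩ := hx3 (σ.symm ⟨p, hp⟩ : ↥E) (σ.symm ⟨p, hp⟩).2
    refine ⟨i, ?_⟩
    have : (⟨x i, hx2 i⟩ : ↥E) = σ.symm ⟨p, hp⟩ := Subtype.ext hi
    change ((σ ⟨x i, hx2 i⟩ : ↥E) : Cfsg.GolayPt) = p
    rw [this, Equiv.apply_symm_apply]
  have key : ∀ z : Fin 6 → Cfsg.GolayPt, (∀ i, z i ∈ E) → (∀ p ∈ E, ∃ i, z i = p) →
      ((∃ o ∈ Cfsg.octads, ∀ i, z i ∈ o) ↔ ∃ o ∈ Cfsg.octads, E ⊆ o) := by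
    intro z hz1 hz2
    constructor
    · rintro ⟨o, ho, h⟩
      refine ⟨o, ho, fun p hp => ?_⟩
      obtain ⟨i, rfl⟩ := hz2 p hp
      exact h i
    · rintro ⟨o, ho, h⟩
      exact ⟨o, ho, fun i => h (hz1 i)⟩
  have hex : ∃ g ∈ Cfsg.M24, ∀ i, g (x i) = y i := by
    by_cases hc : ∃ o ∈ Cfsg.octads, E ⊆ o
    · exact six_in x y hx1 hy1 ((key x hx2 hx3).2 hc) ((key y hy2 hy3).2 hc)
    · exact six_out x y hx1 hy1 (fun h => hc ((key x hx2 hx3).1 h)) (fun h => hc ((key y hy2 hy3).1 h))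
  obtain ⟨g, hg, h⟩ := hex
  refine ⟨g, hg, ?_⟩
  rintro ⟨p, hp⟩
  obtain ⟨i, rfl⟩ := hx3 p hp
  exact h i


/-- Although the group of the length-24 code is only 5-transitive on the 24 points, it induces the full symmetric group on every 6-element subset: every permutation of a 6-set E is the restriction of an element of the group mapping E to itself. The pointwise stabiliser of E has order 16 when E lies in an octad and order 3 otherwise; in the latter case the setwise stabiliser of E has order 2160. -/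
theorem result (E : Finset Cfsg.GolayPt) (hE : E.card = 6) : (∀ σ : Equiv.Perm ↥E, ∃ g ∈ Cfsg.M24, ∀ p : ↥E, g p = σ p) ∧ ((∃ o ∈ Cfsg.octads, E ⊆ o) → Nat.card {g : Equiv.Perm Cfsg.GolayPt // g ∈ Cfsg.M24 ∧ ∀ p ∈ E, g p = p} = 16) ∧ ((¬ ∃ o ∈ Cfsg.octads, E ⊆ o) → Nat.card {g : Equiv.Perm Cfsg.GolayPt // g ∈ Cfsg.M24 ∧ ∀ p ∈ E, g p = p} = 3 ∧ Nat.card ↥(MulAction.stabilizer Cfsg.M24 E) = 2160) := by
  refine ⟨tuple_perm hE, ?_, ?_⟩
  · rintro ⟨o, ho, hEo⟩
    obtain ⟨x, hx1, hx2, hx3⟩ := exists_tuple hE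
    obtain ⟨τ, hτ, h⟩ := six_in_base x hx1 ⟨o, ho, fun i => hEo (hx2 i)⟩
    rw [card_in hx2 hx3 hτ h (K := KIn) (fun σ => mem_KIn), card_KIn]
  · intro hno
    obtain ⟨x, hx1, hx2, hx3⟩ := exists_tuple hE
    obtain ⟨τ, hτ, h⟩ := six_out_base x hx1 (by
      rintro ⟨o, ho, h⟩
      apply hno
      refine ⟨o, ho, fun p hp => ?_⟩
      obtain ⟨i, rfl⟩ := hx3 p hp
      exact h i)
    have h3 : Nat.card {g : Equiv.Perm Cfsg.GolayPt // g ∈ Cfsg.M24 ∧ ∀ p ∈ E, g p = p} = 3 := by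
      rw [card_in hx2 hx3 hτ h (K := KOut) (fun σ => mem_KOut), card_KOut]
    refine ⟨h3, ?_⟩
    have hsurj : Function.Surjective (restr E) := by
      intro σ
      obtain ⟨g, hg, hgσ⟩ := tuple_perm hE σ
      have hgE : g • E = E := by
        apply Finset.eq_of_subset_of_card_le
        · intro p hp
          rw [Finset.mem_smul_finset] at hp
          obtain ⟨q, hq, rfl⟩ := hp
          have := hgσ ⟨q, hq⟩
          change g q ∈ E
          rw [this]
          exact (σ ⟨q, hq⟩).2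
        · rw [Finset.card_smul_finset]
      refine ⟨⟨⟨g, hg⟩, hgE⟩, ?_⟩
      refine Equiv.ext fun p => Subtype.ext ?_
      rw [restr_apply]
      exact hgσ p
    have hker : Nat.card (restr E).ker = 3 := by
      rw [← h3]
      refine Nat.card_congr (Equiv.ofBijective
        (fun g => (⟨((g : stabilizer Cfsg.M24 E) : Cfsg.M24), ((g : stabilizer Cfsg.M24 E) : Cfsg.M24).2, ?_⟩ :
          {g : Equiv.Perm Cfsg.GolayPt // g ∈ Cfsg.M24 ∧ ∀ p ∈ E, g p = p})) ⟨?_, ?_⟩)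
      · intro p hp
        have h1 : restr E g = 1 := g.2
        have h2 := restr_apply E g ⟨p, hp⟩
        rw [h1] at h2
        exact h2.symm
      · intro a b hab
        have h1 := congrArg Subtype.val hab
        exact Subtype.ext (Subtype.ext (Subtype.ext h1))
      · rintro ⟨g, hg, hgE⟩
        have hgE' : g • E = E := by
          apply Finset.eq_of_subset_of_card_le
          · intro p hp
            rw [Finset.mem_smul_finset] at hp
            obtain ⟨q, hq, rfl⟩ := hp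
            change g q ∈ E
            rw [hgE q hq]
            exact hq
          · rw [Finset.card_smul_finset]
        refine ⟨⟨⟨⟨g, hg⟩, hgE'⟩, ?_⟩, rfl⟩
        rw [MonoidHom.mem_ker]
        refine Equiv.ext fun p => Subtype.ext ?_
        rw [restr_apply]
        exact hgE p p.2
    have h1 := Subgroup.card_eq_card_quotient_mul_card_subgroup (restr E).ker
    rw [hker, Nat.card_congr (QuotientGroup.quotientKerEquivOfSurjective (restr E) hsurj).toEquiv,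
      Nat.card_perm, Nat.card_eq_fintype_card (α := ↥E), Fintype.card_coe, hE] at h1
    rw [h1]
    decide

end Cfsg.Agent.S5600
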