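import Cfsg.Statements.S5602
import Cfsg.Agent.Golay.OrbFix
import Cfsg.Agent.Golay.OrbThree


set_option autoImplicit false
open scoped Pointwise
open Cfsg

namespace Cfsg.Agent.S5602

open Cfsg.Agent.Golay Cfsg.Agent.Golay.Orb


/-- An element of order 3 of the group of the length-24 code having exactly 6 fixed points maps to themselves exactly 21 octads, exactly 15 trios, exactly 16 sextets and exactly 20 dodecads. -/
theorem result (g : Equiv.Perm Cfsg.GolayPt) (hg : g ∈ Cfsg.M24) (h₃ : orderOf g = 3) (h₆ : (Finset.univ.filter fun p => g p = p).card = 6) : {o : Finset Cfsg.GolayPt | o ∈ Cfsg.octads ∧ g • o = o}.ncard = 21 ∧ {T : Finset (Finset Cfsg.GolayPt) | T ∈ Cfsg.trios ∧ g • T = T}.ncard = 15 ∧ {S : Finset (Finset Cfsg.GolayPt) | S ∈ Cfsg.sextets ∧ g • S = S}.ncard = 16 ∧ {d : Finset Cfsg.GolayPt | d ∈ Cfsg.dodecads ∧ g • d = d}.ncard = 20 := by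
  obtain ⟨k, hk, hT⟩ := three_fix6 hg h₃ (by rw [h₆]; norm_num)
  have hM : k * g * k⁻¹ ∈ Cfsg.M24 := Cfsg.M24.mul_mem (Cfsg.M24.mul_mem hk hg) (Cfsg.M24.inv_mem hk)
  refine ⟨?_, ?_, ?_, ?_⟩
  · rw [ncard_fix_conj (F := Cfsg.octads) (fun x => smul_mem_octads hk)]
    exact ncard_fix_octads hT (by decide +kernel)
  · rw [ncard_fix_conj (F := Cfsg.trios) (fun x => smul_mem_trios_iff hk)]
    exact ncard_fix_trios hM hT (by decide +kernel)
  · rw [ncard_fix_conj (F := Cfsg.sextets) (fun x => smul_mem_sextets_iff hk)]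
    exact ncard_fix_sextets hM hT (by decide +kernel)
  · rw [ncard_fix_conj (F := Cfsg.dodecads) (fun x => smul_mem_dodecads hk)]
    exact ncard_fix_dodecads hT (by decide +kernel)

end Cfsg.Agent.S5602
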