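import Cfsg.Statements.S5608
import Cfsg.Agent.Golay.OrbCent0


set_option autoImplicit false
open scoped Pointwise
open Cfsg

namespace Cfsg.Agent.S5608

open Cfsg.Agent.Golay Cfsg.Agent.Golay.Orb MulAction
open scoped Pointwise

/-- Elements of order 3 in `C0` have no fixed point. -/
theorem three_C0 {x : Equiv.Perm Cfsg.GolayPt} (hx : x ∈ C0) (h3 : orderOf x = 3) :
    (Finset.univ.filter fun p => x p = p).card = 0 := by
  have : Fact (Nat.Prime 3) := ⟨Nat.prime_three⟩
  obtain ⟨z, hz, hzT⟩ := tab3c_inSub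
  have hz3 : orderOf z = 3 := by
    apply orderOf_eq_prime
    · have h4 := isTable_pmul hzT (isTable_pmul hzT hzT)
      have h5 : pmul tab3c (pmul tab3c tab3c) = idTab := by decide +kernel
      rw [h5] at h4
      rw [pow_succ', pow_two, isTable_unique h4 isTable_one]
    · intro h
      rw [h] at hzT
      have := isTable_inj hzT isTable_one (by decide +kernel) (by norm_num)
      exact absurd this (by decide +kernel)
  -- Sylow 3-subgroups of `C0` have order 3
  have hcard : Nat.card C0 = 7680 := card_C0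
  let zz : C0 := ⟨z, hz⟩
  let xx : C0 := ⟨x, hx⟩
  have hzz : orderOf zz = 3 := by rw [← hz3]; exact (Subgroup.orderOf_coe zz).symm
  have hxx : orderOf xx = 3 := by rw [← h3]; exact (Subgroup.orderOf_coe xx).symm
  have syl : ∀ y : C0, orderOf y = 3 → ∃ P : Sylow 3 C0, (P : Subgroup C0) = Subgroup.zpowers y := by
    intro y hy
    have hp : IsPGroup 3 (Subgroup.zpowers y) := IsPGroup.of_card (n := 1) (by rw [Nat.card_zpowers, hy]; rfl)
    have hi : ¬ 3 ∣ (Subgroup.zpowers y).index := by
      have h1 := (Subgroup.zpowers y).card_mul_index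
      rw [Nat.card_zpowers, hy, hcard] at h1
      omega
    exact ⟨hp.toSylow hi, rfl⟩
  obtain ⟨P, hP⟩ := syl xx hxx
  obtain ⟨Q, hQ⟩ := syl zz hzz
  obtain ⟨g, hg⟩ := MulAction.exists_smul_eq C0 P Q
  have h4 : g * xx * g⁻¹ ∈ (Q : Subgroup C0) := by
    rw [← hg]
    have h5 : xx ∈ (P : Subgroup C0) := by rw [hP]; exact Subgroup.mem_zpowers xx
    rw [Sylow.coe_subgroup_smul]
    exact Subgroup.smul_mem_pointwise_smul xx (MulAut.conj g) _ h5
  rw [hQ] at h4
  -- `g x g⁻¹` is a power of `z`, nontrivial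
  obtain ⟨m, hm, hmz⟩ := (Subgroup.mem_zpowers_iff.1 h4 |> fun ⟨k, hk⟩ => (⟨(k % 3).toNat, by omega, by
    rw [← zpow_natCast, Int.toNat_of_nonneg (Int.emod_nonneg _ (by norm_num)), ← hk]
    have := zpow_mod_orderOf zz k
    rw [hzz] at this
    exact this⟩ : ∃ m : ℕ, m < 3 ∧ zz ^ m = g * xx * g⁻¹))
  have hne : g * xx * g⁻¹ ≠ 1 := by
    intro h
    rw [mul_inv_eq_one] at h
    have : xx = 1 := mul_left_cancel (h.trans (mul_one g).symm)
    rw [this, orderOf_one] at hxx
    omega
  rw [← fixCount_conj (g : Equiv.Perm Cfsg.GolayPt) x]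
  have hval : (g : Equiv.Perm Cfsg.GolayPt) * x * (g : Equiv.Perm Cfsg.GolayPt)⁻¹ = z ^ m := by
    have := congrArg Subtype.val hmz
    exact this.symm
  rw [hval]
  interval_cases m
  · exfalso; apply hne; rw [← hmz, pow_zero]
  · rw [pow_one, fixCount_spec hzT, fixCount_tab3c]
  · rw [pow_two, fixCount_spec (isTable_pmul hzT hzT)]
    decide +kernel

theorem two_case {x s : Equiv.Perm Cfsg.GolayPt} (hs : IsTable tab8 s) (hc : x * s = s * x) (h3 : x ^ 3 = 1) :
    (Finset.univ.filter fun p => x p = p).card ≠ 0 := by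
  intro h0
  have hF : (Finset.univ.filter fun p => s p = p).card = 8 := by rw [fixCount_spec hs, fixCount_tab8]
  -- `x` acts on the 8 fixed points of `s` without fixed points: 3 divides 8
  have hx1 : ∀ p, s p = p → s (x p) = x p := by
    intro p hp
    have := congrArg (fun e : Equiv.Perm Cfsg.GolayPt => e p) hc
    simp only [Equiv.Perm.mul_apply] at this
    rw [← this, hp]
  have hfix : ∀ p, x p ≠ p := by
    intro p hp
    rw [Finset.card_eq_zero, Finset.filter_eq_empty_iff] at h0
    exact h0 (Finset.mem_univ p) hp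
  have : Fact (Nat.Prime 3) := ⟨Nat.prime_three⟩
  let f : Function.End {p : Cfsg.GolayPt // s p = p} := fun p => ⟨x p, hx1 p p.2⟩
  have hf : f ^ 3 ^ 1 = 1 := by
    rw [pow_one, pow_three]
    funext p
    apply Subtype.ext
    change x (x (x p)) = p
    have := congrArg (fun e : Equiv.Perm Cfsg.GolayPt => e (p : Cfsg.GolayPt)) h3
    simpa [pow_three] using this
  have h4 := Equiv.Perm.card_fixedPoints_modEq hf
  have h5 : IsEmpty (Function.fixedPoints f) := by
    constructor
    rintro ⟨p, hp⟩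
    exact hfix p (congrArg Subtype.val hp)
  have h6 : Fintype.card (Function.fixedPoints f) = 0 := Fintype.card_eq_zero
  rw [h6, Fintype.card_subtype, hF] at h4
  exact absurd h4 (by decide)

theorem comm_conj {x s g : Equiv.Perm Cfsg.GolayPt} (h : x * s = s * x) :
    (g * x * g⁻¹) * (g * s * g⁻¹) = (g * s * g⁻¹) * (g * x * g⁻¹) := by
  have e1 : g * x * g⁻¹ * (g * s * g⁻¹) = g * (x * s) * g⁻¹ := by group
  have e2 : g * s * g⁻¹ * (g * x * g⁻¹) = g * (s * x) * g⁻¹ := by group
  rw [e1, e2, h]


/-- If an element of order 3 and an involution of the group of the length-24 code commute, then either the element of order 3 has exactly 6 fixed points and the involution exactly 8, or both are fixed-point-free. -/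
theorem result (x s : Equiv.Perm Cfsg.GolayPt) (hx : x ∈ Cfsg.M24) (hs : s ∈ Cfsg.M24) (h₃ : orderOf x = 3) (h₂ : orderOf s = 2) (hc : Commute x s) : ((Finset.univ.filter fun p => x p = p).card = 6 ∧ (Finset.univ.filter fun p => s p = p).card = 8) ∨ ((Finset.univ.filter fun p => x p = p).card = 0 ∧ (Finset.univ.filter fun p => s p = p).card = 0) := by
  have hc' : x * s = s * x := hc
  have hx3 : x ^ 3 = 1 := by rw [← h₃, pow_orderOf_eq_one]
  have hx1 : x ≠ 1 := by rintro rfl; rw [orderOf_one] at h₃; omega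
  by_cases h8 : (Finset.univ.filter fun p => s p = p).card = 8
  · left
    refine ⟨?_, h8⟩
    obtain ⟨g, hg, hT⟩ := inv_fix8 hs h₂ (by rw [h8]; norm_num)
    have h1 := two_case hT (comm_conj (g := g) hc') (by
      have : (g * x * g⁻¹) ^ 3 = g * x ^ 3 * g⁻¹ := by simp [conj_pow]
      rw [this, hx3]; group)
    rw [fixCount_conj] at h1
    obtain ⟨k, hk, hkT⟩ := three_fix6 hx h₃ h1
    rw [← fixCount_conj k x, fixCount_spec hkT, fixCount_tab36]
  · right
    obtain ⟨g, hg, hT⟩ := inv_fix0 hs h₂ h8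
    have hgs : g * s * g⁻¹ = τ0 := isTable_unique hT τ0_tab
    constructor
    · have h1 : g * x * g⁻¹ ∈ C0 := by
        rw [mem_C0]
        refine ⟨Cfsg.M24.mul_mem (Cfsg.M24.mul_mem hg hx) (Cfsg.M24.inv_mem hg), ?_⟩
        rw [← hgs]
        exact comm_conj hc'
      have h2 : orderOf (g * x * g⁻¹) = 3 := by
        rw [← h₃]
        exact (MulAut.conj g).orderOf_eq x
      rw [← fixCount_conj g x]
      exact three_C0 h1 h2
    · rw [← fixCount_conj g s, fixCount_spec hT, fixCount_tab0]

end Cfsg.Agent.S5608
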