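import Cfsg.Statements.S5609
import Cfsg.Agent.Golay.OrbOct


set_option autoImplicit false
open scoped Pointwise
open Cfsg

namespace Cfsg.Agent.S5609

open Cfsg.Agent.Golay Cfsg.Agent.Golay.Orb MulAction

abbrev OG := Cfsg.blockGraph Cfsg.octads

theorem ne_of_inter {a b : Finset Cfsg.GolayPt} (ha : a ∈ Cfsg.octads) {k : ℕ} (hk : k < 8)
    (h : (a ∩ b).card = k) : a ≠ b := by
  rintro rfl
  rw [Finset.inter_self, card_octad ha] at h
  omega

theorem adj_iff {a b : Finset Cfsg.GolayPt} (ha : a ∈ Cfsg.octads) (hb : b ∈ Cfsg.octads) :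
    OG.Adj ⟨a, ha⟩ ⟨b, hb⟩ ↔ (a ∩ b).card = 0 := by
  unfold OG Cfsg.blockGraph
  rw [SimpleGraph.fromRel_adj]
  simp only [Finset.card_eq_zero, ← Finset.disjoint_iff_inter_eq_empty]
  constructor
  · rintro ⟨_, h | h⟩
    · exact h
    · exact h.symm
  · intro h
    refine ⟨?_, Or.inl h⟩
    intro he
    have he' : a = b := congrArg Subtype.val he
    exact ne_of_inter ha (k := 0) (by norm_num)
      (by rw [Finset.card_eq_zero, ← Finset.disjoint_iff_inter_eq_empty]; exact h) he'

theorem four {a b : Finset Cfsg.GolayPt} (ha : a ∈ Cfsg.octads) (hb : b ∈ Cfsg.octads)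
    (h : (a ∩ b).card = 4) : ∃ c ∈ Cfsg.octads, (a ∩ c).card = 0 ∧ (c ∩ b).card = 0 := by
  have h1 : ofMask 5279 ∈ Cfsg.octads := by
    rw [mem_octads_iff, maskOf_ofMask (by decide)]; decide +kernel
  have h2 : ofMask 4038912 ∈ Cfsg.octads := by
    rw [mem_octads_iff, maskOf_ofMask (by decide)]; decide +kernel
  have h3 : (O₀ ∩ ofMask 5279).card = 4 := by
    rw [← ofMask_and, card_ofMask]; decide +kernel
  obtain ⟨g, hg, h4, h5⟩ := oct_pair_trans O₀_mem h1 ha hb (by rw [h3, h])
  refine ⟨g • ofMask 4038912, (smul_mem_octads hg).2 h2, ?_, ?_⟩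
  · rw [← h4, card_inter_smul, ← ofMask_and, card_ofMask]; decide +kernel
  · rw [← h5, card_inter_smul, ← ofMask_and, card_ofMask]; decide +kernel

theorem two {a b : Finset Cfsg.GolayPt} (ha : a ∈ Cfsg.octads) (hb : b ∈ Cfsg.octads)
    (h : (a ∩ b).card = 2) : ∃ c ∈ Cfsg.octads, ∃ d ∈ Cfsg.octads, (a ∩ c).card = 0 ∧ (c ∩ d).card = 0 ∧
      (d ∩ b).card = 0 := by
  have h1 : ofMask 15777 ∈ Cfsg.octads := by
    rw [mem_octads_iff, maskOf_ofMask (by decide)]; decide +kernel
  have h2 : ofMask 337856 ∈ Cfsg.octads := by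
    rw [mem_octads_iff, maskOf_ofMask (by decide)]; decide +kernel
  have h2' : ofMask 6832158 ∈ Cfsg.octads := by
    rw [mem_octads_iff, maskOf_ofMask (by decide)]; decide +kernel
  have h3 : (O₀ ∩ ofMask 15777).card = 2 := by
    rw [← ofMask_and, card_ofMask]; decide +kernel
  obtain ⟨g, hg, h4, h5⟩ := oct_pair_trans O₀_mem h1 ha hb (by rw [h3, h])
  refine ⟨g • ofMask 337856, (smul_mem_octads hg).2 h2, g • ofMask 6832158, (smul_mem_octads hg).2 h2', ?_, ?_, ?_⟩
  · rw [← h4, card_inter_smul, ← ofMask_and, card_ofMask]; decide +kernel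
  · rw [card_inter_smul, ← ofMask_and, card_ofMask]; decide +kernel
  · rw [← h5, card_inter_smul, ← ofMask_and, card_ofMask]; decide +kernel

/-- No octad is disjoint from two octads meeting in two points. -/
theorem no_common {a b c : Finset Cfsg.GolayPt} (ha : a ∈ Cfsg.octads) (hb : b ∈ Cfsg.octads)
    (hc : c ∈ Cfsg.octads) (h : (a ∩ b).card = 2) (h1 : (a ∩ c).card = 0) (h2 : (c ∩ b).card = 0) : False := by
  have hac : Disjoint a c := by
    rw [Finset.disjoint_iff_inter_eq_empty]; exact Finset.card_eq_zero.1 h1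
  have hcb : Disjoint c b := by
    rw [Finset.disjoint_iff_inter_eq_empty]; exact Finset.card_eq_zero.1 h2
  have he := third_octad ha hc hac
  have hs : b = (a ∩ b) ∪ ((a ∪ c)ᶜ ∩ b) := by
    ext p
    simp only [Finset.mem_union, Finset.mem_inter, Finset.mem_compl, not_or]
    have : p ∈ c → p ∉ b := fun h3 => Finset.disjoint_left.1 hcb h3
    tauto
  have hd : Disjoint (a ∩ b) ((a ∪ c)ᶜ ∩ b) := by
    rw [Finset.disjoint_left]
    intro p hp hp'
    simp only [Finset.mem_inter, Finset.mem_compl, Finset.mem_union, not_or] at hp hp'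
    exact hp'.1.1 hp.1
  have hcard := congrArg Finset.card hs
  rw [Finset.card_union_of_disjoint hd, card_octad hb, h] at hcard
  by_cases hne : (a ∪ c)ᶜ = b
  · have : (a ∩ b).card = 0 := by
      rw [← hne, Finset.card_eq_zero]
      ext p
      simp only [Finset.mem_inter, Finset.mem_compl, Finset.mem_union, Finset.notMem_empty]
      tauto
    omega
  · have := octad_inter_cases he hb hne
    omega


/-- In the graph on the 759 octads of the length-24 code in which two octads are adjacent when they are disjoint, the graph is connected (of diameter 3) and two distinct octads are at distance 1, 2 or 3 exactly when they meet in 0, 4 or 2 points respectively. -/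
theorem result (o o' : Finset Cfsg.GolayPt) (ho : o ∈ Cfsg.octads) (ho' : o' ∈ Cfsg.octads) (hne : o ≠ o') : (Cfsg.blockGraph Cfsg.octads).Connected ∧ ((Cfsg.blockGraph Cfsg.octads).dist ⟨o, ho⟩ ⟨o', ho'⟩ = 1 ↔ (o ∩ o').card = 0) ∧ ((Cfsg.blockGraph Cfsg.octads).dist ⟨o, ho⟩ ⟨o', ho'⟩ = 2 ↔ (o ∩ o').card = 4) ∧ ((Cfsg.blockGraph Cfsg.octads).dist ⟨o, ho⟩ ⟨o', ho'⟩ = 3 ↔ (o ∩ o').card = 2) := by
  have key : ∀ a b : Cfsg.octads, (OG.Reachable a b) := by
    rintro ⟨a, ha⟩ ⟨b, hb⟩
    by_cases hab : a = b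
    · subst hab; exact SimpleGraph.Reachable.refl _
    · rcases octad_inter_cases ha hb hab with h | h | h
      · exact ((adj_iff ha hb).2 h).reachable
      · obtain ⟨c, hc, d, hd, h1, h2, h3⟩ := two ha hb h
        exact (((adj_iff ha hc).2 h1).reachable.trans ((adj_iff hc hd).2 h2).reachable).trans
          ((adj_iff hd hb).2 h3).reachable
      · obtain ⟨c, hc, h1, h2⟩ := four ha hb h
        exact ((adj_iff ha hc).2 h1).reachable.trans ((adj_iff hc hb).2 h2).reachable
  have hconn : OG.Connected := by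
    have : Nonempty Cfsg.octads := ⟨⟨o, ho⟩⟩
    exact SimpleGraph.Connected.mk key
  have h1 : OG.dist ⟨o, ho⟩ ⟨o', ho'⟩ = 1 ↔ (o ∩ o').card = 0 := by
    rw [SimpleGraph.dist_eq_one_iff_adj, adj_iff]
  have h0 : OG.dist ⟨o, ho⟩ ⟨o', ho'⟩ ≠ 0 := by
    intro h
    have := (hconn.dist_eq_zero_iff).1 h
    exact hne (congrArg Subtype.val this)
  have h4 : (o ∩ o').card = 4 → OG.dist ⟨o, ho⟩ ⟨o', ho'⟩ = 2 := by
    intro h
    obtain ⟨c, hc, e1, e2⟩ := four ho ho' h
    have hw := SimpleGraph.dist_le (SimpleGraph.Walk.cons ((adj_iff ho hc).2 e1)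
      (SimpleGraph.Walk.cons ((adj_iff hc ho').2 e2) SimpleGraph.Walk.nil))
    simp only [SimpleGraph.Walk.length_cons, SimpleGraph.Walk.length_nil] at hw
    have h2 : OG.dist ⟨o, ho⟩ ⟨o', ho'⟩ ≠ 1 := fun e => by
      rw [h1] at e; omega
    omega
  have h3 : (o ∩ o').card = 2 → OG.dist ⟨o, ho⟩ ⟨o', ho'⟩ = 3 := by
    intro h
    obtain ⟨c, hc, d, hd, e1, e2, e3⟩ := two ho ho' h
    have hw := SimpleGraph.dist_le (SimpleGraph.Walk.cons ((adj_iff ho hc).2 e1)
      (SimpleGraph.Walk.cons ((adj_iff hc hd).2 e2)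
        (SimpleGraph.Walk.cons ((adj_iff hd ho').2 e3) SimpleGraph.Walk.nil)))
    simp only [SimpleGraph.Walk.length_cons, SimpleGraph.Walk.length_nil] at hw
    have h2 : OG.dist ⟨o, ho⟩ ⟨o', ho'⟩ ≠ 1 := fun e => by
      rw [h1] at e; omega
    have h2' : OG.dist ⟨o, ho⟩ ⟨o', ho'⟩ ≠ 2 := by
      intro e
      obtain ⟨p, hp⟩ := (hconn ⟨o, ho⟩ ⟨o', ho'⟩).exists_walk_length_eq_dist
      rw [e] at hp
      cases p with
      | nil => simp at hp
      | cons hadj q =>
        rename_i v
        cases q with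
        | nil => simp at hp
        | cons hadj' r =>
          cases r with
          | nil =>
            obtain ⟨c, hc⟩ := v
            exact no_common ho ho' hc h ((adj_iff ho hc).1 hadj) ((adj_iff hc ho').1 hadj')
          | cons _ _ =>
            simp only [SimpleGraph.Walk.length_cons] at hp
            omega
    omega
  refine ⟨hconn, h1, ?_, ?_⟩
  · constructor
    · intro h
      rcases octad_inter_cases ho ho' hne with e | e | e
      · exact absurd (h.symm.trans (h1.2 e)) (by decide)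
      · exact absurd (h.symm.trans (h3 e)) (by decide)
      · exact e
    · exact h4
  · constructor
    · intro h
      rcases octad_inter_cases ho ho' hne with e | e | e
      · exact absurd (h.symm.trans (h1.2 e)) (by decide)
      · exact e
      · exact absurd (h.symm.trans (h4 e)) (by decide)
    · exact h3

end Cfsg.Agent.S5609
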