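import Cfsg.Statements.S5613
import Cfsg.Agent.Golay.OrbOct


set_option autoImplicit false
open scoped Pointwise
open Cfsg

namespace Cfsg.Agent.S5613

open Cfsg.Agent.Golay Cfsg.Agent.Golay.Orb

theorem main {o o' : Finset Cfsg.GolayPt} (ho : o ∈ Cfsg.octads) (ho' : o' ∈ Cfsg.octads) {k n m : ℕ}
    (hk : (o ∩ o').card = k) (hn : {x | x ∈ Cfsg.octads ∧ (o ∩ x).card = k}.ncard = n) (hm : n * m = 322560)
    (hn0 : 0 < n) :
    Nat.card ↥(MulAction.stabilizer Cfsg.M24 o ⊓ MulAction.stabilizer Cfsg.M24 o') = m := by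
  have h := PermChain.card_eq_orbit_mul (MulAction.stabilizer Cfsg.M24 o) o'
  rw [orbit_octad ho ho', card_stabilizer_octad ho, hk, hn, ← hm] at h
  exact (Nat.eq_of_mul_eq_mul_left hn0 h).symm


/-- In the group of the length-24 code, the joint stabiliser of two octads has order 10752, 1152 or 720 according as the octads meet in 0, 4 or 2 points. -/
theorem result (o o' : Finset Cfsg.GolayPt) (ho : o ∈ Cfsg.octads) (ho' : o' ∈ Cfsg.octads) : ((o ∩ o').card = 0 → Nat.card ↥(MulAction.stabilizer Cfsg.M24 o ⊓ MulAction.stabilizer Cfsg.M24 o') = 10752) ∧ ((o ∩ o').card = 4 → Nat.card ↥(MulAction.stabilizer Cfsg.M24 o ⊓ MulAction.stabilizer Cfsg.M24 o') = 1152) ∧ ((o ∩ o').card = 2 → Nat.card ↥(MulAction.stabilizer Cfsg.M24 o ⊓ MulAction.stabilizer Cfsg.M24 o') = 720) := by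
  refine ⟨fun h => ?_, fun h => ?_, fun h => ?_⟩
  · exact main ho ho' h (ncard_octads_inter 0 30 (card_octads_inter_zero ho)) (by norm_num) (by norm_num)
  · exact main ho ho' h (ncard_octads_inter 4 280 (card_octads_inter_four ho)) (by norm_num) (by norm_num)
  · exact main ho ho' h (ncard_octads_inter 2 448 (card_octads_inter_two ho)) (by norm_num) (by norm_num)

end Cfsg.Agent.S5613
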