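import Cfsg.Statements.S5618
import Cfsg.Agent.M24X.Res

set_option autoImplicit false
open scoped Pointwise
open Cfsg

namespace Cfsg.Agent.S5618

open MulAction Cfsg.Agent.Golay Cfsg.Agent.Golay.Orb Cfsg.Agent.M24X
open scoped Pointwise


/-- For a dodecad d of the length-24 code and a hexad C on it (a 6-point intersection of d with an octad): the joint stabiliser of d and C in the code's group is isomorphic to the symmetric group of degree 6, and it acts faithfully both on the six points of C and on the six points of d outside C. -/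
theorem result (d : Finset Cfsg.GolayPt) (hd : d ∈ Cfsg.dodecads) (C : Finset Cfsg.GolayPt) (hC : C ∈ Cfsg.hexadsOn d) : Nonempty (↥(MulAction.stabilizer Cfsg.M24 d ⊓ MulAction.stabilizer Cfsg.M24 C) ≃* Equiv.Perm (Fin 6)) ∧ (∀ g ∈ MulAction.stabilizer Cfsg.M24 d ⊓ MulAction.stabilizer Cfsg.M24 C, (∀ p ∈ C, ((g : ↥Cfsg.M24) : Equiv.Perm Cfsg.GolayPt) p = p) → g = 1) ∧ ∀ g ∈ MulAction.stabilizer Cfsg.M24 d ⊓ MulAction.stabilizer Cfsg.M24 C, (∀ p ∈ d \ C, ((g : ↥Cfsg.M24) : Equiv.Perm Cfsg.GolayPt) p = p) → g = 1 := by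
  have hC' := hC
  obtain ⟨h6, o, ho, hod⟩ := hC'
  have hCd : C ⊆ d := by rw [← hod]; exact Finset.inter_subset_right
  have hst : ∀ g ∈ MulAction.stabilizer Cfsg.M24 d ⊓ MulAction.stabilizer Cfsg.M24 C, g • C = C :=
    fun g hg => hg.2
  have h1 : ∀ g ∈ MulAction.stabilizer Cfsg.M24 d ⊓ MulAction.stabilizer Cfsg.M24 C,
      (∀ p ∈ C, ((g : ↥Cfsg.M24) : Equiv.Perm Cfsg.GolayPt) p = p) → g = 1 := by
    intro g hg h
    exact dod_faithful hd hCd (by omega) hg.1 h
  refine ⟨perm_equiv h6 (resH _ C hst) ⟨resH_injective hst h1, hexad_stab_surj hd hC hst⟩, h1, ?_⟩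
  intro g hg h
  refine dod_faithful hd (s := d \ C) Finset.sdiff_subset ?_ hg.1 h
  have := Finset.card_sdiff_add_card_eq_card hCd
  rw [card_dodecad hd] at this
  omega

end Cfsg.Agent.S5618
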