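import Cfsg.Statements.S5620
import Cfsg.Agent.M24X.Fix
import Cfsg.Agent.M24X.DodPair

set_option autoImplicit false
open scoped Pointwise
open Cfsg

namespace Cfsg.Agent.S5620

open MulAction Cfsg.Agent.Golay Cfsg.Agent.Golay.Orb Cfsg.Agent.M24X
open scoped Pointwise

theorem sq_mem : Cfsg.Spor.squareDodecad ∈ dodecads := by
  constructor
  · exact ⟨qrWord 0, Submodule.subset_span (Or.inl ⟨0, rfl⟩), rfl⟩
  · decide

theorem zero_mem_sq : (some 0 : Cfsg.GolayPt) ∈ Cfsg.Spor.squareDodecad := by decide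

theorem none_mem_compl : (none : Cfsg.GolayPt) ∈ Cfsg.Spor.squareDodecadᶜ := by decide

theorem inj3 {a b c : Cfsg.GolayPt} (h1 : a ≠ b) (h2 : a ≠ c) (h3 : b ≠ c) :
    Function.Injective (![a, b, c] : Fin 3 → Cfsg.GolayPt) := by
  intro i j h
  fin_cases i <;> fin_cases j <;> simp_all

theorem compl_dodecad {d : Finset Cfsg.GolayPt} (hd : d ∈ dodecads) : dᶜ ∈ dodecads := by
  constructor
  · exact compl_mem_supports hd.1
  · rw [Finset.card_compl, card_dodecad hd]; rfl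

theorem conj_main : ∃ g ∈ Cfsg.M24, g • Cfsg.Spor.squareDodecad = Finset.univ \ Cfsg.Spor.squareDodecad ∧
    MulAut.conj g • Cfsg.Spor.M11 = Cfsg.Spor.M12 ⊓ MulAction.stabilizer (Equiv.Perm Cfsg.GolayPt) (none : Cfsg.GolayPt) := by
  have hcD : Cfsg.Spor.squareDodecadᶜ ∈ dodecads := compl_dodecad sq_mem
  obtain ⟨g₁, hg₁, h1⟩ := M24_dodecad_transitive sq_mem hcD
  have h2 : g₁ (some 0) ∈ Cfsg.Spor.squareDodecadᶜ := by
    rw [← h1]; exact Finset.smul_mem_smul_finset zero_mem_sq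
  obtain ⟨h, hh, h3⟩ := exists_stab_map_point hcD h2 none_mem_compl
  have h4 : (h : Equiv.Perm Cfsg.GolayPt) • Cfsg.Spor.squareDodecadᶜ = Cfsg.Spor.squareDodecadᶜ := hh
  have h5 : (h : Equiv.Perm Cfsg.GolayPt) (g₁ (some 0)) = none := h3
  have hgD : ((h : Equiv.Perm Cfsg.GolayPt) * g₁) • Cfsg.Spor.squareDodecad = Cfsg.Spor.squareDodecadᶜ := by
    rw [mul_smul, h1, h4]
  have hg0 : ((h : Equiv.Perm Cfsg.GolayPt) * g₁) • (some 0 : Cfsg.GolayPt) = none := h5
  refine ⟨(h : Equiv.Perm Cfsg.GolayPt) * g₁, M24.mul_mem h.2 hg₁, ?_, ?_⟩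
  · rw [hgD, Finset.compl_eq_univ_sdiff]
  · have hgm : (h : Equiv.Perm Cfsg.GolayPt) * g₁ ∈ Cfsg.M24 := M24.mul_mem h.2 hg₁
    generalize (h : Equiv.Perm Cfsg.GolayPt) * g₁ = g at hgD hg0 hgm
    ext x
    rw [Subgroup.mem_pointwise_smul_iff_inv_smul_mem]
    have h6 : (MulAut.conj g)⁻¹ • x = g⁻¹ * x * g := by
      rw [← map_inv]
      change MulAut.conj g⁻¹ x = _
      rw [MulAut.conj_apply, inv_inv]
    rw [h6]
    have e1 : g⁻¹ * x * g ∈ Cfsg.M24 ↔ x ∈ Cfsg.M24 := by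
      constructor
      · intro h7
        have : x = g * (g⁻¹ * x * g) * g⁻¹ := by group
        rw [this]
        exact M24.mul_mem (M24.mul_mem hgm h7) (M24.inv_mem hgm)
      · intro h7
        exact M24.mul_mem (M24.mul_mem (M24.inv_mem hgm) h7) hgm
    have e2 : (g⁻¹ * x * g) • Cfsg.Spor.squareDodecad = Cfsg.Spor.squareDodecad ↔
        x • Cfsg.Spor.squareDodecad = Cfsg.Spor.squareDodecad := by
      rw [mul_smul, mul_smul, hgD, inv_smul_eq_iff, hgD, smul_compl, compl_inj_iff]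
    have e3 : (g⁻¹ * x * g) • (some 0 : Cfsg.GolayPt) = some 0 ↔ x • (none : Cfsg.GolayPt) = none := by
      rw [mul_smul, mul_smul, hg0, inv_smul_eq_iff, hg0]
    exact and_congr (and_congr e1 e2) e3



/-- Inside the stabiliser of the dodecad of squares (a Mathieu group of degree 12), the stabiliser of the residue 0 (a point of the dodecad) and the stabiliser of the extra point (a point outside the dodecad) are isomorphic but not conjugate; conjugation by a suitable element of the code's group that maps the dodecad of squares onto its complement carries the first onto the second. -/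
theorem result : Nonempty (↥(Cfsg.Spor.M12 ⊓ MulAction.stabilizer (Equiv.Perm Cfsg.GolayPt) (none : Cfsg.GolayPt)) ≃* ↥Cfsg.Spor.M11) ∧ (¬ ∃ k ∈ Cfsg.Spor.M12, MulAut.conj k • Cfsg.Spor.M11 = Cfsg.Spor.M12 ⊓ MulAction.stabilizer (Equiv.Perm Cfsg.GolayPt) (none : Cfsg.GolayPt)) ∧ ∃ g ∈ Cfsg.M24, g • Cfsg.Spor.squareDodecad = Finset.univ \ Cfsg.Spor.squareDodecad ∧ MulAut.conj g • Cfsg.Spor.M11 = Cfsg.Spor.M12 ⊓ MulAction.stabilizer (Equiv.Perm Cfsg.GolayPt) (none : Cfsg.GolayPt) := by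
  obtain ⟨g, hg, hgD, hgM⟩ := conj_main
  refine ⟨?_, ?_, g, hg, hgD, hgM⟩
  · rw [← hgM]
    exact ⟨(Subgroup.equivSMul (MulAut.conj g) Cfsg.Spor.M11).symm⟩
  · rintro ⟨k, hk, hkM⟩
    -- the point `k 0`
    have hkD : k • Cfsg.Spor.squareDodecad = Cfsg.Spor.squareDodecad := hk.2
    have h0 : (some 0 : Cfsg.GolayPt) ∈ Cfsg.Spor.squareDodecad := zero_mem_sq
    have hk0 : k (some 0) ∈ Cfsg.Spor.squareDodecad := (mem_iff_of_stab hkD _).2 h0
    have hcard : (Cfsg.Spor.squareDodecad.erase (k (some 0))).card = 11 := by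
      rw [Finset.card_erase_of_mem hk0, card_dodecad sq_mem]
    obtain ⟨x, hxs, hx⟩ := exists_fam (s := Cfsg.Spor.squareDodecad.erase (k (some 0))) (k := 2) (by omega)
    have hx0 := Finset.mem_erase.1 (hxs 0)
    have hx1 := Finset.mem_erase.1 (hxs 1)
    have hne : x 0 ≠ x 1 := fun h => absurd (hx h) (by decide)
    have hcD : Cfsg.Spor.squareDodecadᶜ ∈ dodecads := compl_dodecad sq_mem
    have hnone : (none : Cfsg.GolayPt) ∈ Cfsg.Spor.squareDodecadᶜ := none_mem_compl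
    obtain ⟨g, hg, hgx⟩ := M11_map hcD hnone ![k (some 0), x 0, x 1] ![x 0, k (some 0), x 1]
      (by
        intro i; rw [Finset.mem_compl, not_not]
        fin_cases i
        · exact hk0
        · exact hx0.2
        · exact hx1.2)
      (by
        intro i; rw [Finset.mem_compl, not_not]
        fin_cases i
        · exact hx0.2
        · exact hk0
        · exact hx1.2)
      (by
        apply inj3 hx0.1.symm hx1.1.symm hne)
      (by
        apply inj3 hx0.1 hne hx1.1.symm)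
    have hgm : (g : Equiv.Perm Cfsg.GolayPt) ∈ Cfsg.Spor.M12 ⊓
        MulAction.stabilizer (Equiv.Perm Cfsg.GolayPt) (none : Cfsg.GolayPt) := by
      refine ⟨⟨g.2, ?_⟩, hg.2⟩
      have h1 : (g : Equiv.Perm Cfsg.GolayPt) • Cfsg.Spor.squareDodecadᶜ = Cfsg.Spor.squareDodecadᶜ := hg.1
      rw [smul_compl, compl_inj_iff] at h1
      exact h1
    rw [← hkM, Subgroup.mem_pointwise_smul_iff_inv_smul_mem] at hgm
    have h2 : ((MulAut.conj k)⁻¹ • (g : Equiv.Perm Cfsg.GolayPt)) (some 0) = some 0 := hgm.2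
    have h3 : (MulAut.conj k)⁻¹ • (g : Equiv.Perm Cfsg.GolayPt) = k⁻¹ * g * k := by
      rw [← map_inv]
      change MulAut.conj k⁻¹ (g : Equiv.Perm Cfsg.GolayPt) = _
      rw [MulAut.conj_apply, inv_inv]
    rw [h3, Equiv.Perm.mul_apply, Equiv.Perm.mul_apply, Equiv.Perm.inv_eq_iff_eq] at h2
    have h4 : (g : Equiv.Perm Cfsg.GolayPt) (k (some 0)) = x 0 := hgx 0
    rw [h4] at h2
    exact hx0.1 h2

end Cfsg.Agent.S5620
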