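import Cfsg.Statements.S5623
import Cfsg.Agent.H93.AbsGolay

set_option autoImplicit false
open Cfsg

namespace Cfsg.Agent.S5623

/-- Let C be a self-dual binary code of length 24 with minimum weight at least 8 (a 12-dimensional subspace of the 24-dimensional space over the field with two elements, any two of whose words have dot product zero, with no non-zero word of weight below 8 — an abstract extended binary Golay code). Then every coset w + C of C in the ambient space contains either exactly one word of weight at most 4, which then has weight at most 3, or exactly six words of weight at most 4, all of weight exactly 4 and with pairwise disjoint supports (a sextet). -/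
theorem result (C : Submodule (ZMod 2) (Fin 24 → ZMod 2)) (hdim : Module.finrank (ZMod 2) C = 12) (horth : ∀ v ∈ C, ∀ w ∈ C, ∑ i, v i * w i = 0) (hmin : ∀ w ∈ C, w ≠ 0 → 8 ≤ hammingNorm w) (w : Fin 24 → ZMod 2) : (∃ u : Fin 24 → ZMod 2, {u : Fin 24 → ZMod 2 | u - w ∈ C ∧ hammingNorm u ≤ 4} = {u} ∧ hammingNorm u ≤ 3) ∨ ({u : Fin 24 → ZMod 2 | u - w ∈ C ∧ hammingNorm u ≤ 4}.ncard = 6 ∧ ∀ u ∈ {u : Fin 24 → ZMod 2 | u - w ∈ C ∧ hammingNorm u ≤ 4}, hammingNorm u = 4 ∧ ∀ u' ∈ {u : Fin 24 → ZMod 2 | u - w ∈ C ∧ hammingNorm u ≤ 4}, u ≠ u' → Disjoint (Finset.univ.filter fun i => u i ≠ 0) (Finset.univ.filter fun i => u' i ≠ 0)) := by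
  classical
  have h : Cfsg.Agent.H93.IsAG C := ⟨by simp, hdim, horth, hmin⟩
  have hsub : ∀ u u' : Fin 24 → ZMod 2, u - w ∈ C → u' - w ∈ C → u - u' ∈ C := by
    intro u u' hu hu'
    have := C.sub_mem hu hu'
    simpa using this
  by_cases hex : ∃ u : Fin 24 → ZMod 2, u - w ∈ C ∧ hammingNorm u ≤ 3
  · left
    obtain ⟨u, hu, hu3⟩ := hex
    refine ⟨u, ?_, hu3⟩
    ext v
    simp only [Set.mem_ofPred_eq, Set.mem_singleton_iff]
    constructor
    · rintro ⟨hv, hv4⟩
      exact h.eq_of_small (hsub v u hv hu) (by omega)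
    · rintro rfl
      exact ⟨hu, by omega⟩
  · right
    push Not at hex
    have h6 := h.six w (fun u hu => hex u hu)
    have hset : {u : Fin 24 → ZMod 2 | u - w ∈ C ∧ hammingNorm u ≤ 4} =
        ((Finset.univ.filter fun u : Fin 24 → ZMod 2 => u - w ∈ C ∧ hammingNorm u = 4 : Finset (Fin 24 → ZMod 2)) :
          Set (Fin 24 → ZMod 2)) := by
      ext u
      simp only [Set.mem_ofPred_eq, Finset.coe_filter, Finset.mem_univ, true_and]
      constructor
      · rintro ⟨h1, h2⟩
        exact ⟨h1, by have := hex u h1; omega⟩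
      · rintro ⟨h1, h2⟩
        exact ⟨h1, h2.le⟩
    constructor
    · rw [hset, Set.ncard_coe_finset, h6]
    · rintro u ⟨hu, hu4⟩
      have hu4' : hammingNorm u = 4 := by have := hex u hu; omega
      refine ⟨hu4', ?_⟩
      rintro u' ⟨hu', hu4''⟩ hne
      have hu4'' : hammingNorm u' = 4 := by have := hex u' hu'; omega
      exact h.disjoint_of_four (hsub u u' hu hu') hu4' hu4'' hne

end Cfsg.Agent.S5623
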