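import Cfsg.Statements.S5625
import Cfsg.Agent.H93.Steiner

set_option autoImplicit false
open Cfsg

namespace Cfsg.Agent.S5625

/-- In any Steiner system S(5, 8, 24) and for any set Y of three points, the blocks meeting Y in exactly 3, 2, 1 and 0 points number 21, 168, 360 and 210 respectively (so there are 759 blocks in all). -/
theorem result (α : Type*) [Fintype α] [DecidableEq α] (hα : Fintype.card α = 24) (B : Set (Finset α)) (hB : Cfsg.IsSteinerSystem 5 8 B) (Y : Finset α) (hY : Y.card = 3) : {b : Finset α | b ∈ B ∧ (b ∩ Y).card = 3}.ncard = 21 ∧ {b : Finset α | b ∈ B ∧ (b ∩ Y).card = 2}.ncard = 168 ∧ {b : Finset α | b ∈ B ∧ (b ∩ Y).card = 1}.ncard = 360 ∧ {b : Finset α | b ∈ B ∧ (b ∩ Y).card = 0}.ncard = 210 := by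
  classical
  obtain ⟨_, _, h3, h2, h1, h0⟩ := Cfsg.Agent.H93.sN_5_8_24 hα hB
  obtain ⟨p, q, r, hpq, hpr, hqr, rfl⟩ := Finset.card_eq_three.1 hY
  set Bf : Finset (Finset α) := Finset.univ.filter (fun b : Finset α => b ∈ B) with hBf
  let i : α → Finset α → ℤ := fun x b => if x ∈ b then 1 else 0
  have hN : ∀ S : Finset α, (Cfsg.Agent.H93.sN B S : ℤ) = ∑ b ∈ Bf, if S ⊆ b then 1 else 0 := by
    intro S
    rw [Cfsg.Agent.H93.sN, Finset.sum_boole, hBf, Finset.filter_filter]
  have hcard : ∀ j : ℕ, ({b : Finset α | b ∈ B ∧ (b ∩ {p, q, r}).card = j}.ncard : ℤ) =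
      ∑ b ∈ Bf, if (b ∩ {p, q, r}).card = j then 1 else 0 := by
    intro j
    rw [Finset.sum_boole, hBf, Finset.filter_filter, ← Set.ncard_coe_finset]
    norm_num
  have hc : ∀ b : Finset α, ((b ∩ {p, q, r}).card : ℤ) = i p b + i q b + i r b := by
    intro b
    have : b ∩ {p, q, r} = ({p, q, r} : Finset α).filter (fun x => x ∈ b) := by
      ext x; simp only [Finset.mem_inter, Finset.mem_filter]; tauto
    rw [this, Finset.card_filter]
    rw [Finset.sum_insert (by simp [hpq, hpr]), Finset.sum_insert (by simp [hqr]), Finset.sum_singleton]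
    simp only [i]
    push_cast
    ring
  have e0 : (Cfsg.Agent.H93.sN B ∅ : ℤ) = ∑ b ∈ Bf, 1 := by
    rw [hN]; simp
  have e1 : ∀ x, (Cfsg.Agent.H93.sN B {x} : ℤ) = ∑ b ∈ Bf, i x b := by
    intro x; rw [hN]; simp [i]
  have e2 : ∀ x y, (Cfsg.Agent.H93.sN B {x, y} : ℤ) = ∑ b ∈ Bf, i x b * i y b := by
    intro x y; rw [hN]
    refine Finset.sum_congr rfl fun b _ => ?_
    simp only [i, Finset.insert_subset_iff, Finset.singleton_subset_iff]
    by_cases hx : x ∈ b <;> by_cases hy : y ∈ b <;> simp [hx, hy]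
  have e3 : (Cfsg.Agent.H93.sN B {p, q, r} : ℤ) = ∑ b ∈ Bf, i p b * i q b * i r b := by
    rw [hN]
    refine Finset.sum_congr rfl fun b _ => ?_
    simp only [i, Finset.insert_subset_iff, Finset.singleton_subset_iff]
    by_cases hx : p ∈ b <;> by_cases hy : q ∈ b <;> by_cases hz : r ∈ b <;> simp [hx, hy, hz]
  rw [h0 ∅ rfl] at e0
  have e1p := e1 p
  have e1q := e1 q
  have e1r := e1 r
  rw [h1 _ (Finset.card_singleton _)] at e1p e1q e1r
  have e2a := e2 p q
  have e2b := e2 p r
  have e2c := e2 q r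
  rw [h2 _ (Finset.card_pair hpq)] at e2a
  rw [h2 _ (Finset.card_pair hpr)] at e2b
  rw [h2 _ (Finset.card_pair hqr)] at e2c
  rw [h3 _ hY] at e3
  have f3 : ∀ b : Finset α, (if (b ∩ {p, q, r}).card = 3 then (1:ℤ) else 0) = i p b * i q b * i r b := by
    intro b
    have := hc b
    simp only [i] at this ⊢
    by_cases hx : p ∈ b <;> by_cases hy : q ∈ b <;> by_cases hz : r ∈ b <;> simp [hx, hy, hz] at this ⊢ <;> omega
  have f2 : ∀ b : Finset α, (if (b ∩ {p, q, r}).card = 2 then (1:ℤ) else 0) =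
      i p b * i q b + i p b * i r b + i q b * i r b - 3 * (i p b * i q b * i r b) := by
    intro b
    have := hc b
    simp only [i] at this ⊢
    by_cases hx : p ∈ b <;> by_cases hy : q ∈ b <;> by_cases hz : r ∈ b <;> simp [hx, hy, hz] at this ⊢ <;> omega
  have f1 : ∀ b : Finset α, (if (b ∩ {p, q, r}).card = 1 then (1:ℤ) else 0) =
      i p b + i q b + i r b - 2 * (i p b * i q b) - 2 * (i p b * i r b) - 2 * (i q b * i r b) + 3 * (i p b * i q b * i r b) := by
    intro b
    have := hc b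
    simp only [i] at this ⊢
    by_cases hx : p ∈ b <;> by_cases hy : q ∈ b <;> by_cases hz : r ∈ b <;> simp [hx, hy, hz] at this ⊢ <;> omega
  have f0 : ∀ b : Finset α, (if (b ∩ {p, q, r}).card = 0 then (1:ℤ) else 0) =
      1 - i p b - i q b - i r b + (i p b * i q b) + (i p b * i r b) + (i q b * i r b) - (i p b * i q b * i r b) := by
    intro b
    have := hc b
    simp only [i] at this ⊢
    by_cases hx : p ∈ b <;> by_cases hy : q ∈ b <;> by_cases hz : r ∈ b <;> simp [hx, hy, hz] at this ⊢ <;> omega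
  refine ⟨?_, ?_, ?_, ?_⟩
  · have := hcard 3
    rw [Finset.sum_congr rfl (fun b _ => f3 b), ← e3] at this
    exact_mod_cast this
  · have := hcard 2
    rw [Finset.sum_congr rfl (fun b _ => f2 b), Finset.sum_sub_distrib, Finset.sum_add_distrib, Finset.sum_add_distrib,
      ← Finset.mul_sum, ← e3, ← e2a, ← e2b, ← e2c] at this
    norm_num at this
    exact_mod_cast this
  · have := hcard 1
    rw [Finset.sum_congr rfl (fun b _ => f1 b)] at this
    simp only [Finset.sum_sub_distrib, Finset.sum_add_distrib, ← Finset.mul_sum, ← e3, ← e2a, ← e2b, ← e2c, ← e1p, ← e1q, ← e1r] at this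
    norm_num at this
    exact_mod_cast this
  · have := hcard 0
    rw [Finset.sum_congr rfl (fun b _ => f0 b)] at this
    simp only [Finset.sum_sub_distrib, Finset.sum_add_distrib, ← e3, ← e2a, ← e2b, ← e2c, ← e1p, ← e1q, ← e1r, ← e0] at this
    have h' : ({b : Finset α | b ∈ B ∧ (b ∩ {p, q, r}).card = 0}.ncard : ℤ) = 210 := by
      rw [this]; norm_num
    exact_mod_cast h'

end Cfsg.Agent.S5625
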