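import Cfsg.Statements.S5626
import Cfsg.Agent.H93.Plane4Model

set_option autoImplicit false
open Cfsg

namespace Cfsg.Agent.S5626

/-- Uniqueness of the projective plane of order 4: any two Steiner systems S(2, 5, 21) (21 points, lines of 5 points, two points on exactly one line) are isomorphic. -/
theorem result {α β : Type*} [Fintype α] [DecidableEq α] [Fintype β] [DecidableEq β] (hα : Fintype.card α = 21) (hβ : Fintype.card β = 21) {L : Set (Finset α)} {L' : Set (Finset β)} (hL : Cfsg.IsSteinerSystem 2 5 L) (hL' : Cfsg.IsSteinerSystem 2 5 L') : Cfsg.SetSystemIso L L' := by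
  classical
  have h : Cfsg.Agent.H93.IsPl L := ⟨hα, hL⟩
  have h' : Cfsg.Agent.H93.IsPl L' := ⟨hβ, hL'⟩
  obtain ⟨v, H⟩ := Cfsg.Agent.H93.exists_hyp h
  obtain ⟨v', H'⟩ := Cfsg.Agent.H93.exists_hyp h'
  refine ⟨H.E.symm.trans H'.E, ?_⟩
  have h1 : (fun b : Finset α => b.image (H.E.symm.trans H'.E)) '' L =
      (fun b : Finset α => b.image (H.E.symm.trans H'.E)) '' ((fun b : Finset (Fin 6 ⊕ Fin 15) => b.image H.E) '' Cfsg.Agent.H93.IsHyp.modelLines) := by
    rw [H.lines_img]
  have h2 := H'.lines_img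
  rw [h1, Set.image_image]
  refine Eq.trans ?_ h2
  congr 1
  funext b
  rw [Finset.image_image]
  congr 1
  funext x
  simp

end Cfsg.Agent.S5626
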