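import Cfsg.Statements.S5628
import Cfsg.Agent.H93.Plane4Model

set_option autoImplicit false
open Cfsg

namespace Cfsg.Agent.S5628

open scoped Pointwise in
theorem mem_aut_iff {α : Type*} [DecidableEq α] (L : Set (Finset α)) (g : Equiv.Perm α) :
    g ∈ Cfsg.setSystemAut L ↔ (fun l : Finset α => l.image g) '' L = L := by
  rfl

/-- In a projective plane of order 4 (a Steiner system S(2, 5, 21)), every permutation of the six points of a hyperoval (a 6-set met by no line in more than two points) is the restriction of exactly one automorphism of the plane. In particular the stabiliser of a hyperoval in the automorphism group is isomorphic to the symmetric group of degree 6 acting faithfully on the hyperoval. -/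
theorem result {α : Type*} [Fintype α] [DecidableEq α] (hα : Fintype.card α = 21) (L : Set (Finset α)) (hL : Cfsg.IsSteinerSystem 2 5 L) (H : Finset α) (hH : (H.card = 6 ∧ ∀ l ∈ L, (l ∩ H).card ≤ 2)) (σ : Equiv.Perm ↥H) : ∃! g : Equiv.Perm α, g ∈ Cfsg.setSystemAut L ∧ ∀ p : ↥H, g p = σ p := by

  classical
  have h : Cfsg.Agent.H93.IsPl L := ⟨hα, hL⟩
  obtain ⟨hc, hI⟩ := hH
  let e : Fin 6 ≃ H := (Finset.equivFinOfCardEq hc).symm
  have hyp : ∀ f : Fin 6 ≃ H, Cfsg.Agent.H93.IsHyp h (fun i => (f i : α)) := by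
    intro f
    refine ⟨fun i j hij => f.injective (Subtype.ext hij), ?_⟩
    have : (Finset.univ.image fun i => (f i : α)) = H := by
      ext x
      simp only [Finset.mem_image, Finset.mem_univ, true_and]
      constructor
      · rintro ⟨i, rfl⟩; exact (f i).2
      · intro hx
        exact ⟨f.symm ⟨x, hx⟩, by simp⟩
    rw [this]; exact hI
  have A := hyp e
  have B := hyp (e.trans σ)
  refine ⟨A.E.symm.trans B.E, ⟨?_, ?_⟩, ?_⟩
  · rw [mem_aut_iff]
    have h1 : (fun b : Finset α => b.image (A.E.symm.trans B.E)) '' L =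
        (fun b : Finset α => b.image (A.E.symm.trans B.E)) '' ((fun b : Finset (Fin 6 ⊕ Fin 15) => b.image A.E) '' Cfsg.Agent.H93.IsHyp.modelLines) := by
      rw [A.lines_img]
    rw [h1, Set.image_image]
    refine Eq.trans ?_ B.lines_img
    congr 1
    funext b
    rw [Finset.image_image]
    congr 1
    funext x
    simp
  · intro p
    have h1 : (p : α) = A.E (Sum.inl (e.symm p)) := by
      rw [Cfsg.Agent.H93.IsHyp.E_inl]; simp
    rw [h1, Equiv.trans_apply, Equiv.symm_apply_apply, Cfsg.Agent.H93.IsHyp.E_inl]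
    simp
  · rintro g ⟨hg, hgσ⟩
    rw [mem_aut_iff] at hg
    have hg' : ∀ l ∈ L, l.image g ∈ L := by
      intro l hl
      have : (fun l : Finset α => l.image g) l ∈ (fun l : Finset α => l.image g) '' L := Set.mem_image_of_mem _ hl
      rw [hg] at this
      exact this
    have hgv : ∀ i, g (e i : α) = ((e.trans σ) i : α) := fun i => hgσ (e i)
    have hgln : ∀ i j, i ≠ j → ∀ x, x ∈ h.ln (e i : α) (e j) → g x ∈ h.ln ((e.trans σ) i : α) ((e.trans σ) j) := by
      intro i j hij x hx
      have h1 := hg' _ (h.ln_mem (A.ne hij))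
      have h2 : (h.ln (e i : α) (e j)).image g = h.ln ((e.trans σ) i : α) ((e.trans σ) j) := by
        apply h.eq_ln (B.ne hij) h1
        · rw [← hgv]; exact Finset.mem_image_of_mem _ (h.left_mem (A.ne hij))
        · rw [← hgv]; exact Finset.mem_image_of_mem _ (h.right_mem (A.ne hij))
      rw [← h2]
      exact Finset.mem_image_of_mem _ hx
    ext x
    obtain ⟨y, rfl⟩ := A.E.surjective x
    rw [Equiv.trans_apply, Equiv.symm_apply_apply]
    rcases y with i | s
    · rw [Cfsg.Agent.H93.IsHyp.E_inl, Cfsg.Agent.H93.IsHyp.E_inl]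
      exact hgv i
    · rw [Cfsg.Agent.H93.IsHyp.E_inr, Cfsg.Agent.H93.IsHyp.E_inr]
      have hA0 := A.P_mem s 0
      have hA1 := A.P_mem s (Cfsg.Agent.H93.bb s)
      have hB0 := B.P_mem s 0
      have hB1 := B.P_mem s (Cfsg.Agent.H93.bb s)
      have n0 := (Cfsg.Agent.H93.tau_ne s 0).symm
      have n1 := (Cfsg.Agent.H93.tau_ne s (Cfsg.Agent.H93.bb s)).symm
      refine h.pt_eq (h.ln_mem (B.ne n0)) (h.ln_mem (B.ne n1)) ?_ (hgln _ _ n0 _ hA0) hB0 (hgln _ _ n1 _ hA1) hB1
      intro heq
      have := h.left_mem (B.ne n1)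
      rw [← heq, B.mem_ln_iff n0] at this
      rcases this with g1 | g1
      · exact Cfsg.Agent.H93.bb_ne0 s g1
      · exact Cfsg.Agent.H93.bb_ne1 s g1

end Cfsg.Agent.S5628
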