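import Cfsg.Statements.S5631
import Cfsg.Agent.H93.Transv
import Cfsg.Agent.H93.TransvGen

set_option autoImplicit false
open Cfsg

namespace Cfsg.Agent.S5631

open Cfsg.Agent.H93 Matrix in
theorem aux {F : Type*} [Field F] [Fintype F] (n : ℕ) (hn : 2 ≤ n) (W : Submodule F (Fin n → F))
    (hW0 : W ≠ ⊥) (hW1 : W ≠ ⊤) :
    Cfsg.Geo.IsMaximalIn (Cfsg.Geo.specialLinear (Fin n) F)
      (Cfsg.Geo.subspaceStabilizer W ⊓ Cfsg.Geo.specialLinear (Fin n) F) := by
  haveI : Nontrivial (Fin n) := Fin.nontrivial_iff_two_le.2 hn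
  refine ⟨stab_lt_sl W hW0 hW1, fun M hHM hMS => ?_⟩
  by_cases hMH : M = Cfsg.Geo.subspaceStabilizer W ⊓ Cfsg.Geo.specialLinear (Fin n) F
  · exact Or.inl hMH
  right
  refine le_antisymm hMS ?_
  -- an element of M moving W
  obtain ⟨g, hgM, hgH⟩ := SetLike.exists_of_lt (lt_of_le_of_ne hHM (Ne.symm hMH))
  have hgW : g ∉ Cfsg.Geo.subspaceStabilizer W := fun h => hgH ⟨h, hMS hgM⟩
  obtain ⟨w, hwW, hgw⟩ : ∃ w ∈ W, (g : Matrix (Fin n) (Fin n) F) *ᵥ w ∉ W := by
    by_contra hcon
    push Not at hcon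
    apply hgW
    rw [mem_stab_iff]
    intro v
    refine ⟨fun hv => hcon v hv, fun hv => ?_⟩
    -- W.map g = W
    have hinj : Function.Injective (Matrix.mulVecLin (g : Matrix (Fin n) (Fin n) F)) := by
      intro x y hxy
      have := congrArg (fun z => ((g⁻¹ : GL (Fin n) F) : Matrix (Fin n) (Fin n) F) *ᵥ z) hxy
      simpa [Matrix.mulVec_mulVec, ← Units.val_mul] using this
    have hle : W.map (Matrix.mulVecLin (g : Matrix (Fin n) (Fin n) F)) ≤ W := by
      rintro _ ⟨x, hx, rfl⟩
      exact hcon x hx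
    have heq : W.map (Matrix.mulVecLin (g : Matrix (Fin n) (Fin n) F)) = W := by
      apply Submodule.eq_of_le_of_finrank_eq hle
      exact (Submodule.equivMapOfInjective _ hinj W).finrank_eq.symm
    rw [← heq] at hv
    obtain ⟨x, hx, hxv⟩ := hv
    have : x = v := hinj hxv
    exact this ▸ hx
  let P : (Fin n → F) → Prop := fun v => ∀ (φ : Fin n → F) (h : φ ⬝ᵥ v = 0), tv v φ h ∈ M
  have hPW : ∀ v ∈ W, P v := fun v hv φ h =>
    hHM ⟨tv_mem_stab_of_center W v φ h hv, tv_mem_sl v φ h⟩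
  have hPM : ∀ m ∈ M, ∀ v, P v → P ((m : Matrix (Fin n) (Fin n) F) *ᵥ v) := by
    intro m hm v hv φ h
    have h1 : (φ ᵥ* (m : Matrix (Fin n) (Fin n) F)) ⬝ᵥ v = 0 := by
      rw [← Matrix.dotProduct_mulVec, h]
    obtain ⟨h2, h3⟩ := conj_tv m v (φ ᵥ* (m : Matrix (Fin n) (Fin n) F)) h1
    have h4 : tv ((m : Matrix (Fin n) (Fin n) F) *ᵥ v) φ h = m * tv v (φ ᵥ* (m : Matrix (Fin n) (Fin n) F)) h1 * m⁻¹ := by
      rw [h3]
      apply Units.ext
      rw [tv_coe, tv_coe, Matrix.vecMul_vecMul, ← Units.val_mul, mul_inv_cancel, Units.val_one, Matrix.vecMul_one]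
    rw [h4]
    exact M.mul_mem (M.mul_mem hm (hv _ h1)) (M.inv_mem hm)
  have hPsmul : ∀ (c : F) (v : Fin n → F), c ≠ 0 → P v → P (c • v) := by
    intro c v hc hv φ h
    have h1 : (c • φ) ⬝ᵥ v = 0 := by
      rw [smul_dotProduct, ← dotProduct_smul, h]
    have h2 : tv (c • v) φ h = tv v (c • φ) h1 := by
      apply Units.ext
      apply ext_mulVec
      intro x
      rw [tv_coe, tv_coe, tvM_mulVec, tvM_mulVec, smul_dotProduct, smul_smul, smul_eq_mul, mul_comm]
    rw [h2]
    exact hv _ h1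
  have hv1 := hPM g hgM w (hPW w hwW)
  set v1 := (g : Matrix (Fin n) (Fin n) F) *ᵥ w with hv1def
  -- reach any vector outside W
  have hreach : ∀ v : Fin n → F, (∃ ψ : Fin n → F, (∀ x ∈ W, ψ ⬝ᵥ x = 0) ∧ ψ ⬝ᵥ v1 = 1 ∧ ψ ⬝ᵥ (v - v1) = 0) → P v := by
    rintro v ⟨ψ, hψW, hψ1, hψ0⟩
    have hmem : tv (v - v1) ψ hψ0 ∈ M :=
      hHM ⟨tv_mem_stab_of_axis W _ ψ hψ0 hψW, tv_mem_sl _ ψ hψ0⟩
    have := hPM _ hmem v1 hv1
    rw [tv_coe, tvM_mulVec, hψ1, one_smul] at this
    simpa using this
  have hout : ∀ v, v ∉ W → P v := by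
    intro v hvW
    by_cases hc : v1 ∈ W ⊔ Submodule.span F {v - v1}
    · obtain ⟨x, hx, y, hy, hxy⟩ := Submodule.mem_sup.1 hc
      obtain ⟨c, rfl⟩ := Submodule.mem_span_singleton.1 hy
      have hc1 : 1 + c ≠ 0 := by
        intro h0
        have hcm : c = -1 := by linear_combination h0
        rw [hcm] at hxy
        apply hvW
        have : v = x := by
          have h5 : x - v + v1 = v1 := by
            have : x + (-1 : F) • (v - v1) = x - v + v1 := by
              rw [neg_one_smul]; abel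
            rw [← this, hxy]
          have h6 : x - v = 0 := by
            have := add_right_cancel (h5.trans (zero_add v1).symm)
            exact this
          exact (sub_eq_zero.1 h6).symm
        rw [this]; exact hx
      have hc0 : c ≠ 0 := by
        rintro rfl
        rw [zero_smul, add_zero] at hxy
        exact hgw (hxy ▸ hx)
      obtain ⟨ψ, hψW, hψ1⟩ := exists_vec_sep W v1 hgw
      -- v' = (c/(1+c)) v , v' - v1 ∈ W
      have hv' : (c / (1 + c)) • v - v1 ∈ W := by
        have h7 : (1 + c) • v1 = x + c • v := by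
          ext i
          have := congrFun hxy i
          simp only [Pi.add_apply, Pi.smul_apply, Pi.sub_apply, smul_eq_mul] at this ⊢
          linear_combination -this
        have h8 : (c / (1 + c)) • v - v1 = -((1 + c)⁻¹ • x) := by
          have h9 : v1 = (1 + c)⁻¹ • x + (c / (1 + c)) • v := by
            have := congrArg (fun z => (1 + c)⁻¹ • z) h7
            simp only [smul_smul, inv_mul_cancel₀ hc1, one_smul, smul_add] at this
            rw [this]
            congr 2
            field_simp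
          nth_rewrite 1 [h9]
          abel
        rw [h8]
        exact W.neg_mem (W.smul_mem _ hx)
      have hP' := hreach ((c / (1 + c)) • v) ⟨ψ, hψW, hψ1, hψW _ hv'⟩
      have := hPsmul ((1 + c) / c) _ (div_ne_zero hc1 hc0) hP'
      rw [smul_smul] at this
      have h10 : (1 + c) / c * (c / (1 + c)) = 1 := by field_simp
      rwa [h10, one_smul] at this
    · obtain ⟨ψ, hψW, hψ1⟩ := exists_vec_sep _ v1 hc
      refine hreach v ⟨ψ, fun x hx => hψW x (Submodule.mem_sup_left hx), hψ1,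
        hψW _ (Submodule.mem_sup_right (Submodule.mem_span_singleton_self _))⟩
  apply sl_le_of_tv_mem
  intro v φ h
  by_cases hv : v ∈ W
  · exact hPW v hv φ h
  · exact hout v hv φ h

/-- For a finite field F and n ≥ 13, the stabiliser in SL_n(F) of any proper non-zero subspace W of F^n is a maximal subgroup of SL_n(F). Here SL_n(F) is the kernel of the determinant inside GL_n(F) and the stabiliser is the set of elements of determinant one mapping W onto itself. -/
theorem result {F : Type*} [Field F] [Fintype F] (n : ℕ) (hn : 13 ≤ n) (W : Submodule F (Fin n → F)) (hW0 : W ≠ ⊥) (hW1 : W ≠ ⊤) : Cfsg.Geo.IsMaximalIn (Cfsg.Geo.specialLinear (Fin n) F) (Cfsg.Geo.subspaceStabilizer W ⊓ Cfsg.Geo.specialLinear (Fin n) F) := by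

  exact aux n (by omega) W hW0 hW1

end Cfsg.Agent.S5631
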