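import Cfsg.Statements.S5632
import Cfsg.Agent.H93.Transv

set_option autoImplicit false
open Cfsg

namespace Cfsg.Agent.S5632

/-- For a finite field F and subspaces 0 < W < U of F^n with dim W + dim U = n, the elements of SL_n(F) stabilising both W and U form a subgroup that is not maximal in SL_n(F): some subgroup lies strictly between it and SL_n(F). -/
theorem result {F : Type*} [Field F] [Fintype F] (n : ℕ) (W U : Submodule F (Fin n → F)) (hW0 : W ≠ ⊥) (hWU : W < U) (hdim : Module.finrank F W + Module.finrank F U = n) : ∃ K : Subgroup (Matrix.GeneralLinearGroup (Fin n) F), Cfsg.Geo.subspaceStabilizer W ⊓ Cfsg.Geo.subspaceStabilizer U ⊓ Cfsg.Geo.specialLinear (Fin n) F < K ∧ K < Cfsg.Geo.specialLinear (Fin n) F := by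
  have hn : Module.finrank F (Fin n → F) = n := by simp
  have hW1 : W ≠ ⊤ := fun h => by
    rw [h] at hWU
    exact not_top_lt hWU
  have hU1 : U ≠ ⊤ := by
    intro h
    rw [h, finrank_top, hn] at hdim
    have : Module.finrank F W = 0 := by omega
    exact hW0 (Submodule.finrank_eq_zero.1 this)
  refine ⟨Cfsg.Geo.subspaceStabilizer W ⊓ Cfsg.Geo.specialLinear (Fin n) F, ?_, Cfsg.Agent.H93.stab_lt_sl W hW0 hW1⟩
  refine lt_of_le_of_ne (fun g hg => ⟨hg.1.1, hg.2⟩) ?_
  intro heq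
  obtain ⟨v, hv⟩ : ∃ v, v ∉ U := by
    by_contra hcon
    push Not at hcon
    exact hU1 (eq_top_iff.2 fun x _ => hcon x)
  obtain ⟨u, huU, huW⟩ := SetLike.exists_of_lt hWU
  have hu : u ∉ W ⊔ Submodule.span F {v} := by
    intro hmem
    obtain ⟨w, hw, y, hy, hwy⟩ := Submodule.mem_sup.1 hmem
    obtain ⟨c, rfl⟩ := Submodule.mem_span_singleton.1 hy
    by_cases hc : c = 0
    · subst hc
      rw [zero_smul, add_zero] at hwy
      exact huW (hwy ▸ hw)
    · apply hv
      have hcv : c • v ∈ U := by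
        have : c • v = u - w := by rw [← hwy]; abel
        rw [this]
        exact U.sub_mem huU (hWU.le hw)
      have := U.smul_mem c⁻¹ hcv
      rwa [smul_smul, inv_mul_cancel₀ hc, one_smul] at this
  obtain ⟨φ, hφ1, hφ2⟩ := Cfsg.Agent.H93.exists_vec_sep _ u hu
  have h0 : φ ⬝ᵥ v = 0 := hφ1 v (Submodule.mem_sup_right (Submodule.mem_span_singleton_self v))
  have hmem : Cfsg.Agent.H93.tv v φ h0 ∈ Cfsg.Geo.subspaceStabilizer W ⊓ Cfsg.Geo.specialLinear (Fin n) F :=
    ⟨Cfsg.Agent.H93.tv_mem_stab_of_axis W v φ h0 (fun w hw => hφ1 w (Submodule.mem_sup_left hw)),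
      Cfsg.Agent.H93.tv_mem_sl v φ h0⟩
  rw [← heq] at hmem
  exact Cfsg.Agent.H93.tv_not_mem_stab U v φ h0 hv u huU (by rw [hφ2]; exact one_ne_zero) hmem.1.2

end Cfsg.Agent.S5632
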