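import Cfsg.Statements.S5633
import Cfsg.Agent.H93.Transv

set_option autoImplicit false
open Cfsg

namespace Cfsg.Agent.S5633

/-- For a finite field F and complementary non-zero subspaces W ⊕ U = F^n with dim W < dim U, the elements of SL_n(F) stabilising both W and U form a subgroup that is not maximal in SL_n(F): some subgroup lies strictly between it and SL_n(F). -/
theorem result {F : Type*} [Field F] [Fintype F] (n : ℕ) (W U : Submodule F (Fin n → F)) (hW0 : W ≠ ⊥) (hWU : W ⊓ U = ⊥) (hWU' : W ⊔ U = ⊤) (hdim : Module.finrank F W < Module.finrank F U) : ∃ K : Subgroup (Matrix.GeneralLinearGroup (Fin n) F), Cfsg.Geo.subspaceStabilizer W ⊓ Cfsg.Geo.subspaceStabilizer U ⊓ Cfsg.Geo.specialLinear (Fin n) F < K ∧ K < Cfsg.Geo.specialLinear (Fin n) F := by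
  have hU0 : U ≠ ⊥ := by
    rintro rfl
    simp at hdim
  have hW1 : W ≠ ⊤ := by
    rintro rfl
    rw [top_inf_eq] at hWU
    exact hU0 hWU
  have hU1 : U ≠ ⊤ := by
    rintro rfl
    rw [inf_top_eq] at hWU
    exact hW0 hWU
  refine ⟨Cfsg.Geo.subspaceStabilizer W ⊓ Cfsg.Geo.specialLinear (Fin n) F, ?_, Cfsg.Agent.H93.stab_lt_sl W hW0 hW1⟩
  refine lt_of_le_of_ne (fun g hg => ⟨hg.1.1, hg.2⟩) ?_
  intro heq
  obtain ⟨w, hw, hw0⟩ := (Submodule.ne_bot_iff W).1 hW0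
  obtain ⟨u, hu, hu0⟩ := (Submodule.ne_bot_iff U).1 hU0
  have hwU : w ∉ U := by
    intro h
    apply hw0
    have : w ∈ W ⊓ U := ⟨hw, h⟩
    rw [hWU] at this
    exact (Submodule.mem_bot F).1 this
  have huw : u ∉ Submodule.span F {w} := by
    intro hmem
    obtain ⟨c, hc⟩ := Submodule.mem_span_singleton.1 hmem
    apply hu0
    have : u ∈ W ⊓ U := ⟨hc ▸ W.smul_mem _ hw, hu⟩
    rw [hWU] at this
    exact (Submodule.mem_bot F).1 this
  obtain ⟨φ, hφ1, hφ2⟩ := Cfsg.Agent.H93.exists_vec_sep _ u huw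
  have h0 : φ ⬝ᵥ w = 0 := hφ1 w (Submodule.mem_span_singleton_self w)
  have hmem : Cfsg.Agent.H93.tv w φ h0 ∈ Cfsg.Geo.subspaceStabilizer W ⊓ Cfsg.Geo.specialLinear (Fin n) F :=
    ⟨Cfsg.Agent.H93.tv_mem_stab_of_center W w φ h0 hw,
      Cfsg.Agent.H93.tv_mem_sl w φ h0⟩
  rw [← heq] at hmem
  exact Cfsg.Agent.H93.tv_not_mem_stab U w φ h0 hwU u hu (by rw [hφ2]; exact one_ne_zero) hmem.1.2

end Cfsg.Agent.S5633
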