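import Cfsg.Statements.S5635
import Cfsg.Agent.H98.DecMax


set_option autoImplicit false
set_option linter.style.haveILetI false
open Cfsg

namespace Cfsg.Agent.S5635


open Matrix Cfsg.Geo Cfsg.Agent.GeoMax Cfsg.Agent.H98 Cfsg.Agent.H98.Blk
open scoped MatrixGroups

section gen

variable {ι : Type} [Fintype ι] [DecidableEq ι] {F : Type*} [Field F] {t : ℕ} {β : ι → Fin t}

open Classical in
/-- number of non-zero blocks, in `F` -/
noncomputable def Q (β : ι → Fin t) (x : ι → F) : F := ∑ j : Fin t, if Blk.cmp β j x = 0 then 0 else 1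

lemma cmp_add (j : Fin t) (x y : ι → F) : Blk.cmp β j (x + y) = Blk.cmp β j x + Blk.cmp β j y := by
  ext a; by_cases h : β a = j <;> simp [Blk.cmp, h]

lemma sum_cmp (x : ι → F) : ∑ j : Fin t, Blk.cmp β j x = x := by
  ext a
  simp [Finset.sum_apply, Blk.cmp]

lemma cmp_sum (j : Fin t) (f : Fin t → ι → F) : Blk.cmp β j (∑ k, f k) = ∑ k, Blk.cmp β j (f k) := by
  ext a
  by_cases h : β a = j <;> simp [Blk.cmp, h, Finset.sum_apply]

lemma Q_stab {g : GL ι F} (hg : g ∈ decompositionStabilizer (blk β F)) (x : ι → F) :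
    Q β ((g : Matrix ι ι F) *ᵥ x) = Q β x := by
  classical
  obtain ⟨σ, hσ⟩ := hg
  have hSp : ∀ j y, Sp β j y → Sp β (σ j) ((g : Matrix ι ι F) *ᵥ y) := by
    intro j y hy
    have : (g : Matrix ι ι F) *ᵥ y ∈ (blk β F j).map (Matrix.toLin' (g : Matrix ι ι F)) := ⟨y, hy, by simp⟩
    rw [hσ j] at this
    exact this
  have key : ∀ j, Blk.cmp β (σ j) ((g : Matrix ι ι F) *ᵥ x) = (g : Matrix ι ι F) *ᵥ (Blk.cmp β j x) := by
    intro j
    conv_lhs => rw [← sum_cmp (β := β) x]
    rw [Matrix.mulVec_sum, cmp_sum, Finset.sum_eq_single j]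
    · exact cmp_of_Sp (hSp j _ (cmp_Sp j x))
    · intro k _ hk
      exact cmp_of_Sp_ne (fun h => hk (σ.injective h)) (hSp k _ (cmp_Sp k x))
    · intro h; exact absurd (Finset.mem_univ _) h
  unfold Q
  rw [← Equiv.sum_comp σ]
  refine Finset.sum_congr rfl fun j _ => ?_
  rw [key]
  by_cases h : Blk.cmp β j x = 0
  · simp [h]
  · rw [if_neg h, if_neg]
    intro h'
    apply h
    apply gl_mulVec_injective g
    simpa using h'

/-- the elements of `SL` preserving `Q` -/
def KQ (β : ι → Fin t) : Subgroup (GL ι F) where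
  carrier := {g | g ∈ specialLinear ι F ∧ ∀ x, Q β ((g : Matrix ι ι F) *ᵥ x) = Q β x}
  mul_mem' {a b} ha hb := ⟨mul_mem ha.1 hb.1, fun x => by
    rw [Units.val_mul, ← Matrix.mulVec_mulVec, ha.2, hb.2]⟩
  one_mem' := ⟨one_mem _, fun x => by simp⟩
  inv_mem' {a} ha := ⟨inv_mem ha.1, fun x => by
    rw [← ha.2 (((a⁻¹ : GL ι F) : Matrix ι ι F) *ᵥ x), Matrix.mulVec_mulVec, ← Units.val_mul, mul_inv_cancel,
      Units.val_one, Matrix.one_mulVec]⟩

lemma cmp_single (j : Fin t) (a : ι) (c : F) : Blk.cmp β j (Pi.single a c) = if β a = j then Pi.single a c else 0 := by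
  split_ifs with h
  · subst h; exact cmp_of_Sp (Sp.single a c)
  · exact cmp_of_Sp_ne h (Sp.single a c)

lemma Q_single (a : ι) : Q β (Pi.single a (1 : F)) = 1 := by
  classical
  unfold Q
  rw [Finset.sum_eq_single (β a)]
  · rw [cmp_single, if_pos rfl, if_neg]
    intro h
    have := congrFun h a
    simp at this
  · intro j _ hj
    rw [cmp_single, if_neg (Ne.symm hj), if_pos rfl]
  · intro h; exact absurd (Finset.mem_univ _) h

lemma Q_two {a b : ι} (hab : β a ≠ β b) : Q β ((Pi.single a 1 : ι → F) + (Pi.single b 1 : ι → F)) = (2 : F) := by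
  classical
  have h1 : Q β ((Pi.single a 1 : ι → F) + (Pi.single b 1 : ι → F)) = ∑ j : Fin t, (((if β a = j then 1 else 0) + (if β b = j then 1 else 0)) : F) := by
    unfold Q
    refine Finset.sum_congr rfl fun j _ => ?_
    rw [cmp_add, cmp_single, cmp_single]
    by_cases h : β a = j
    · have h' : β b ≠ j := fun h2 => hab (h.trans h2.symm)
      simp [h, h']
    · by_cases h' : β b = j
      · simp [h, h']
      · simp [h, h']
  rw [h1, Finset.sum_add_distrib]
  simp
  norm_num

lemma KQ_lt {a b : ι} (hab : β a ≠ β b) : (KQ β : Subgroup (GL ι F)) < specialLinear ι F := by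
  refine lt_of_le_of_ne (fun g hg => hg.1) ?_
  intro heq
  have hne : a ≠ b := fun h => hab (by rw [h])
  have h0 : (Pi.single a 1 : ι → F) ⬝ᵥ Pi.single b 1 = 0 := by simp [hne]
  have h1 := tvec_det (Pi.single b (1 : F)) (Pi.single a (1 : F)) h0
  rw [← heq] at h1
  have h2 := h1.2 (Pi.single a 1)
  rw [tvec_mulVec, Q_single] at h2
  have h3 : ((Pi.single a 1 : ι → F) ⬝ᵥ Pi.single a 1) • (Pi.single b (1 : F) : ι → F) = Pi.single b 1 := by simp
  rw [h3, Q_two hab] at h2
  have : (1 : F) = 0 := by linear_combination h2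
  exact one_ne_zero this

/-- the abstract reduction -/
lemma main_of {m : ℕ} (hm : 0 < m) (hc : ∀ j, Fintype.card {a // β a = j} = m) {a b : ι} (hab : β a ≠ β b)
    {g : GL ι F} (hg : g ∈ specialLinear ι F) (hQ : ∀ x, Q β ((g : Matrix ι ι F) *ᵥ x) = Q β x)
    {s t₀ t₁ : ι} (ht : β t₀ ≠ β t₁)
    (h0 : ((g : Matrix ι ι F) *ᵥ (Pi.single s 1)) t₀ ≠ 0) (h1 : ((g : Matrix ι ι F) *ᵥ (Pi.single s 1)) t₁ ≠ 0) :
    decompositionStabilizer (blk β F) ⊓ specialLinear ι F < KQ β ∧ (KQ β : Subgroup (GL ι F)) < specialLinear ι F := by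
  refine ⟨lt_of_le_of_ne (fun x hx => ⟨(Subgroup.mem_inf.1 hx).2, fun y => Q_stab (Subgroup.mem_inf.1 hx).1 y⟩) ?_,
    KQ_lt hab⟩
  intro heq
  have h2 : g ∈ (KQ β : Subgroup (GL ι F)) := ⟨hg, hQ⟩
  rw [← heq] at h2
  obtain ⟨l, hl⟩ := (mem_stab_iff hm hc).1 (Subgroup.mem_inf.1 h2).1 (β s)
  have h3 := hl _ (Sp.single s 1)
  by_cases h4 : β t₀ = l
  · exact h1 (h3 t₁ (fun h => ht (h4.trans h.symm)))
  · exact h0 (h3 t₀ h4)

end gen

section one

variable {ι : Type} [Fintype ι] [DecidableEq ι] {F : Type*} [Field F] [Fintype F] {t : ℕ} {β : ι → Fin t}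

lemma Q_one (hb : Function.Bijective β) (x : ι → F) : Q β x = ∑ a, x a ^ (Fintype.card F - 1) := by
  classical
  unfold Q
  rw [← (Equiv.ofBijective β hb).sum_comp]
  refine Finset.sum_congr rfl fun a _ => ?_
  have h1 : Blk.cmp β (Equiv.ofBijective β hb a) x = Pi.single a (x a) := by
    ext b
    by_cases h : b = a
    · subst h; simp [Blk.cmp]
    · have : β b ≠ β a := fun h' => h (hb.1 h')
      simp [Blk.cmp, this, h]
  rw [h1]
  by_cases hx : x a = 0
  · have h2 : Fintype.card F - 1 ≠ 0 := by have := Fintype.one_lt_card (α := F); omega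
    simp [hx, zero_pow h2]
  · rw [if_neg, FiniteField.pow_card_sub_one_eq_one _ hx]
    intro h
    have := congrFun h a
    simp at this
    exact hx this

/-- the change function -/
lemma change (hq : Fintype.card F ≤ 4) {p : ℕ} (hp : CharP F p) (T : Finset ι) (hT : T.card = p) (x : ι → F) (c : F) :
    ∑ a ∈ T, ((x a + c) ^ (Fintype.card F - 1) - x a ^ (Fintype.card F - 1)) =
      if Fintype.card F = 3 then 2 * c * ∑ a ∈ T, x a else
      if Fintype.card F = 4 then c * (∑ a ∈ T, x a) ^ 2 + c ^ 2 * ∑ a ∈ T, x a else 0 := by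
  have h1 : 1 < Fintype.card F := Fintype.one_lt_card
  have hTc : (T.card : F) = 0 := by rw [hT]; exact CharP.cast_eq_zero F p
  have hcases : Fintype.card F = 2 ∨ Fintype.card F = 3 ∨ Fintype.card F = 4 := by omega
  rcases hcases with h | h | h
  · rw [h]
    simp [hTc]
  · rw [h]
    simp only [if_true]
    have : ∀ a ∈ T, (x a + c) ^ (3 - 1) - x a ^ (3 - 1) = 2 * c * x a + c ^ 2 := by
      intro a _; norm_num; ring
    rw [Finset.sum_congr rfl this, Finset.sum_add_distrib, ← Finset.mul_sum]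
    simp [hTc]
  · have hp2 : CharP F 2 := by
      have hcast : ((4 : ℕ) : F) = 0 := by rw [← h]; exact FiniteField.cast_card_eq_zero F
      have h2 : (2 : F) = 0 := by
        have : (2 : F) * 2 = 0 := by
          have : ((4 : ℕ) : F) = 2 * 2 := by norm_num
          rw [← this]; exact hcast
        rcases mul_eq_zero.1 this with h' | h' <;> exact h'
      exact CharTwo.of_one_ne_zero_of_two_eq_zero one_ne_zero h2
    rw [h]
    have e0 : ¬ ((4 : ℕ) = 3) := by norm_num
    simp only [if_true, e0, if_false]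
    have : ∀ a ∈ T, (x a + c) ^ (4 - 1) - x a ^ (4 - 1) = c * x a ^ 2 + c ^ 2 * x a + c ^ 3 := by
      intro a _
      have h2 : (2 : F) = 0 := CharTwo.two_eq_zero
      norm_num
      linear_combination (c * x a ^ 2 + c ^ 2 * x a) * h2
    rw [Finset.sum_congr rfl this, Finset.sum_add_distrib, Finset.sum_add_distrib, ← Finset.mul_sum, ← Finset.mul_sum,
      CharTwo.sum_sq]
    simp [hTc]

/-- indicator of a finset -/
def ind (F : Type*) [Field F] (S : Finset ι) : ι → F := fun a => if a ∈ S then 1 else 0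

lemma ind_dot (S : Finset ι) (x : ι → F) : ind F S ⬝ᵥ x = ∑ a ∈ S, x a := by
  simp [ind, dotProduct]

lemma ind_dot_ind {S T : Finset ι} (h : Disjoint S T) : ind F S ⬝ᵥ ind F T = 0 := by
  rw [ind_dot]
  refine Finset.sum_eq_zero fun a ha => ?_
  simp [ind, Finset.disjoint_left.1 h ha]

lemma ind_dot_self {p : ℕ} (hp : CharP F p) {S : Finset ι} (h : S.card = p) : ind F S ⬝ᵥ ind F S = 0 := by
  rw [ind_dot]
  have : ∀ a ∈ S, ind F S a = 1 := fun a ha => by simp [ind, ha]
  rw [Finset.sum_congr rfl this]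
  simp [h]

theorem one_case (hb : Function.Bijective β) (hq : Fintype.card F ≤ 4) {p : ℕ} (hp : CharP F p) (hp2 : 2 ≤ p)
    (hn : 2 * p ≤ Fintype.card ι) :
    ∃ K : Subgroup (GL ι F), decompositionStabilizer (blk β F) ⊓ specialLinear ι F < K ∧ K < specialLinear ι F := by
  classical
  obtain ⟨U, -, hU⟩ := Finset.exists_subset_card_eq (s := (Finset.univ : Finset ι)) (n := 2 * p) (by simpa using hn)
  obtain ⟨S, hSU, hS⟩ := Finset.exists_subset_card_eq (s := U) (n := p) (by omega)
  set T := U \ S with hTdef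
  have hT : T.card = p := by rw [hTdef, Finset.card_sdiff_of_subset hSU]; omega
  have hST : Disjoint S T := Finset.disjoint_sdiff
  obtain ⟨s, hs⟩ : S.Nonempty := by rw [← Finset.card_pos]; omega
  obtain ⟨t₀, ht₀, t₁, ht₁, hne⟩ := Finset.one_lt_card.1 (show 1 < T.card by omega)
  -- the element
  have d1 : ind F S ⬝ᵥ ind F T = 0 := ind_dot_ind hST
  have d2 : ind F T ⬝ᵥ (-(ind F S)) = 0 := by rw [dotProduct_neg, ind_dot_ind hST.symm, neg_zero]
  let g : GL ι F := tvec (ind F T) (ind F S) d1 * tvec (-(ind F S)) (ind F T) d2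
  have hgx : ∀ x : ι → F, (g : Matrix ι ι F) *ᵥ x = x + (∑ a ∈ S, x a) • ind F T - (∑ a ∈ T, x a) • ind F S := by
    intro x
    change ((tvec (ind F T) (ind F S) d1 * tvec (-(ind F S)) (ind F T) d2 : GL ι F) : Matrix ι ι F) *ᵥ x = _
    rw [Units.val_mul, ← Matrix.mulVec_mulVec, tvec_mulVec, tvec_mulVec, dotProduct_add, dotProduct_smul, dotProduct_neg,
      ind_dot_self hp hS, ind_dot, ind_dot]
    simp only [neg_zero, smul_zero, add_zero, smul_neg]
    abel
  have hβ := hb.1
  refine ⟨_, main_of (m := 1) (β := β) one_pos ?_ (a := t₀) (b := t₁) (fun h => hne (hβ h)) (g := g)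
    (mul_mem (tvec_det _ _ _) (tvec_det _ _ _)) ?_ (s := s) (fun h => hne (hβ h)) ?_ ?_⟩
  · intro j
    obtain ⟨a, ha⟩ := hb.2 j
    rw [Fintype.card_eq_one_iff]
    exact ⟨⟨a, ha⟩, fun b => Subtype.ext (hβ (b.2.trans ha.symm))⟩
  · intro x
    rw [Q_one hb, Q_one hb, hgx]
    set A := ∑ a ∈ S, x a with hA
    set B := ∑ a ∈ T, x a with hB
    rw [← sub_eq_zero, ← Finset.sum_sub_distrib]
    have h1 : ∀ a, (x + A • ind F T - B • ind F S) a ^ (Fintype.card F - 1) - x a ^ (Fintype.card F - 1) =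
        (if a ∈ T then ((x a + A) ^ (Fintype.card F - 1) - x a ^ (Fintype.card F - 1)) else 0) +
        (if a ∈ S then ((x a + (-B)) ^ (Fintype.card F - 1) - x a ^ (Fintype.card F - 1)) else 0) := by
      intro a
      by_cases h1 : a ∈ T
      · have h2 : a ∉ S := Finset.disjoint_right.1 hST h1
        simp [ind, h1, h2]
      · by_cases h2 : a ∈ S
        · simp [ind, h1, h2, sub_eq_add_neg]
        · simp [ind, h1, h2]
    rw [Finset.sum_congr rfl (fun a _ => h1 a), Finset.sum_add_distrib, Finset.sum_ite_mem, Finset.sum_ite_mem,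
      Finset.univ_inter, Finset.univ_inter, change hq hp T hT, change hq hp S hS, ← hA, ← hB]
    by_cases h3 : Fintype.card F = 3
    · simp only [h3, if_true]; ring
    · by_cases h4 : Fintype.card F = 4
      · have hcast : ((4 : ℕ) : F) = 0 := by rw [← h4]; exact FiniteField.cast_card_eq_zero F
        have h2 : (2 : F) = 0 := by
          have : (2 : F) * 2 = 0 := by
            have : ((4 : ℕ) : F) = 2 * 2 := by norm_num
            rw [← this]; exact hcast
          rcases mul_eq_zero.1 this with h' | h' <;> exact h'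
        have e0 : ¬ ((4 : ℕ) = 3) := by norm_num
        simp only [h4, if_true, e0, if_false]
        linear_combination (A * B ^ 2) * h2
      · simp only [h3, h4, if_false]; ring
  · rw [hgx]
    have e1 : ∑ a ∈ S, (Pi.single s 1 : ι → F) a = 1 := by
      rw [Finset.sum_eq_single s]
      · simp
      · intro b _ hb'; simp [hb']
      · intro h; exact absurd hs h
    have e2 : ∑ a ∈ T, (Pi.single s 1 : ι → F) a = 0 := by
      refine Finset.sum_eq_zero fun a ha => ?_
      have : a ≠ s := by rintro rfl; exact Finset.disjoint_left.1 hST hs ha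
      simp [this]
    rw [e1, e2]
    have : t₀ ≠ s := by rintro rfl; exact Finset.disjoint_left.1 hST hs ht₀
    simp [ind, this, ht₀]
  · rw [hgx]
    have e1 : ∑ a ∈ S, (Pi.single s 1 : ι → F) a = 1 := by
      rw [Finset.sum_eq_single s]
      · simp
      · intro b _ hb'; simp [hb']
      · intro h; exact absurd hs h
    have e2 : ∑ a ∈ T, (Pi.single s 1 : ι → F) a = 0 := by
      refine Finset.sum_eq_zero fun a ha => ?_
      have : a ≠ s := by rintro rfl; exact Finset.disjoint_left.1 hST hs ha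
      simp [this]
    rw [e1, e2]
    have : t₁ ≠ s := by rintro rfl; exact Finset.disjoint_left.1 hST hs ht₁
    simp [ind, this, ht₁]

end one

section two

variable {ι : Type} [Fintype ι] [DecidableEq ι] {F : Type*} [Field F] [Fintype F] {t : ℕ} {β : ι → Fin t}

lemma val_of_card_two (hq : Fintype.card F = 2) (c : F) : c = 0 ∨ c = 1 := by
  by_cases h : c = 0
  · exact Or.inl h
  · right
    have := FiniteField.pow_card_sub_one_eq_one c h
    rw [hq] at this
    simpa using this

lemma Q_pair (hq : Fintype.card F = 2) {f f' : Fin t → ι} (hf : ∀ j, β (f j) = j) (hf' : ∀ j, β (f' j) = j)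
    (hc : ∀ a, a = f (β a) ∨ a = f' (β a)) (x : ι → F) :
    Q β x = ∑ j, (x (f j) * (1 + x (f' j)) + x (f' j)) := by
  classical
  unfold Q
  refine Finset.sum_congr rfl fun j _ => ?_
  have h2 : (1 : F) + 1 = 0 := by
    have hcast : ((2 : ℕ) : F) = 0 := by rw [← hq]; exact FiniteField.cast_card_eq_zero F
    have : ((2 : ℕ) : F) = 1 + 1 := by norm_num
    rw [← this]; exact hcast
  have h1 : Blk.cmp β j x = 0 ↔ x (f j) = 0 ∧ x (f' j) = 0 := by
    constructor
    · intro h
      have h3 := congrFun h (f j)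
      have h4 := congrFun h (f' j)
      simp [Blk.cmp, hf, hf'] at h3 h4
      exact ⟨h3, h4⟩
    · rintro ⟨h3, h4⟩
      ext a
      by_cases ha : β a = j
      · subst ha
        simp only [Blk.cmp, if_true, Pi.zero_apply]
        rcases hc a with h | h
        · rw [h]; exact h3
        · rw [h]; exact h4
      · simp [Blk.cmp, ha]
  rcases val_of_card_two hq (x (f j)) with h3 | h3 <;> rcases val_of_card_two hq (x (f' j)) with h4 | h4
  · simp [h1, h3, h4]
  · simp [h1, h3, h4]
  · simp [h1, h3, h4]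
  · simp [h1, h3, h4, h2]

theorem two_case (hq : Fintype.card F = 2) (hc : ∀ j, Fintype.card {a // β a = j} = 2) (ht : 4 ≤ t) :
    ∃ K : Subgroup (GL ι F), decompositionStabilizer (blk β F) ⊓ specialLinear ι F < K ∧ K < specialLinear ι F := by
  classical
  have hpair : ∀ j, ∃ p : ι × ι, p.1 ≠ p.2 ∧ β p.1 = j ∧ β p.2 = j ∧ ∀ a, β a = j → a = p.1 ∨ a = p.2 := by
    intro j
    have := hc j
    rw [Fintype.card_subtype, Finset.card_eq_two] at this
    obtain ⟨a, b, hab, h⟩ := this
    have h' : ∀ c, β c = j ↔ c = a ∨ c = b := by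
      intro c
      have := congrArg (fun S => c ∈ S) h
      simpa using this
    exact ⟨(a, b), hab, (h' a).2 (Or.inl rfl), (h' b).2 (Or.inr rfl), fun c hc' => (h' c).1 hc'⟩
  choose p hp1 hp2 hp3 hp4 using hpair
  let f : Fin t → ι := fun j => (p j).1
  let f' : Fin t → ι := fun j => (p j).2
  have hf : ∀ j, β (f j) = j := hp2
  have hf' : ∀ j, β (f' j) = j := hp3
  have hcov : ∀ a, a = f (β a) ∨ a = f' (β a) := fun a => hp4 _ a rfl
  have hff : Function.Injective f := fun i j h => by rw [← hf i, ← hf j, h]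
  have hff' : Function.Injective f' := fun i j h => by rw [← hf' i, ← hf' j, h]
  have hne : ∀ i j, f i ≠ f' j := by
    intro i j h
    have : i = j := by rw [← hf i, ← hf' j, h]
    subst this
    exact hp1 i h
  have h2 : (1 : F) + 1 = 0 := by
    have hcast : ((2 : ℕ) : F) = 0 := by rw [← hq]; exact FiniteField.cast_card_eq_zero F
    have : ((2 : ℕ) : F) = 1 + 1 := by norm_num
    rw [← this]; exact hcast
  let j0 : Fin t := ⟨0, by omega⟩
  let j1 : Fin t := ⟨1, by omega⟩
  let j2 : Fin t := ⟨2, by omega⟩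
  let j3 : Fin t := ⟨3, by omega⟩
  have n01 : j0 ≠ j1 := by simp [j0, j1]
  have n02 : j0 ≠ j2 := by simp [j0, j2]
  have n03 : j0 ≠ j3 := by simp [j0, j3]
  have n12 : j1 ≠ j2 := by simp [j1, j2]
  have n13 : j1 ≠ j3 := by simp [j1, j3]
  have n23 : j2 ≠ j3 := by simp [j2, j3]
  let u : ι → F := Pi.single (f j0) 1 + Pi.single (f j1) 1
  let v : ι → F := Pi.single (f j2) 1 + Pi.single (f j3) 1
  let u' : ι → F := Pi.single (f' j0) 1 + Pi.single (f' j1) 1
  let v' : ι → F := Pi.single (f' j2) 1 + Pi.single (f' j3) 1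
  have du : ∀ x : ι → F, u' ⬝ᵥ x = x (f' j0) + x (f' j1) := by intro x; simp [u', add_dotProduct]
  have dv : ∀ x : ι → F, v' ⬝ᵥ x = x (f' j2) + x (f' j3) := by intro x; simp [v', add_dotProduct]
  have u0 : ∀ j, u (f' j) = 0 := by
    intro j; simp [u, Pi.single_apply, (hne _ _).symm]
  have v0 : ∀ j, v (f' j) = 0 := by
    intro j; simp [v, Pi.single_apply, (hne _ _).symm]
  have d1 : u' ⬝ᵥ v = 0 := by rw [du, v0, v0, add_zero]
  have d2 : v' ⬝ᵥ u = 0 := by rw [dv, u0, u0, add_zero]
  have d3 : u' ⬝ᵥ u = 0 := by rw [du, u0, u0, add_zero]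
  let g : GL ι F := tvec v u' d1 * tvec u v' d2
  have hgx : ∀ x : ι → F, (g : Matrix ι ι F) *ᵥ x =
      x + (x (f' j0) + x (f' j1)) • v + (x (f' j2) + x (f' j3)) • u := by
    intro x
    change ((tvec v u' d1 * tvec u v' d2 : GL ι F) : Matrix ι ι F) *ᵥ x = _
    rw [Units.val_mul, ← Matrix.mulVec_mulVec, tvec_mulVec, tvec_mulVec, dotProduct_add, dotProduct_smul, d3, dv, du]
    simp only [smul_zero, add_zero]
    abel
  refine ⟨_, main_of (m := 2) (β := β) two_pos hc (a := f j0) (b := f j1) (by rw [hf, hf]; exact n01) (g := g)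
    (mul_mem (tvec_det _ _ _) (tvec_det _ _ _)) ?_ (s := f' j0) (t₀ := f j2) (t₁ := f j3)
    (by rw [hf, hf]; exact n23) ?_ ?_⟩
  · intro x
    rw [Q_pair hq hf hf' hcov, Q_pair hq hf hf' hcov, hgx]
    set A := x (f' j0) + x (f' j1) with hA
    set B := x (f' j2) + x (f' j3) with hB
    have e' : ∀ j, (x + A • v + B • u) (f' j) = x (f' j) := by
      intro j; simp [u0, v0]
    have e : ∀ j, (x + A • v + B • u) (f j) = x (f j) +
        (A * ((if j = j2 then 1 else 0) + (if j = j3 then 1 else 0)) +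
         B * ((if j = j0 then 1 else 0) + (if j = j1 then 1 else 0))) := by
      intro j
      simp only [Pi.add_apply, Pi.smul_apply, smul_eq_mul, u, v, Pi.single_apply, hff.eq_iff]
      ring
    rw [← sub_eq_zero, ← Finset.sum_sub_distrib]
    have h5 : ∀ j, ((x + A • v + B • u) (f j) * (1 + (x + A • v + B • u) (f' j)) + (x + A • v + B • u) (f' j)) -
        (x (f j) * (1 + x (f' j)) + x (f' j)) =
        (if j = j2 then A * (1 + x (f' j)) else 0) + (if j = j3 then A * (1 + x (f' j)) else 0) +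
        ((if j = j0 then B * (1 + x (f' j)) else 0) + (if j = j1 then B * (1 + x (f' j)) else 0)) := by
      intro j
      rw [e, e']
      split_ifs <;> ring
    rw [Finset.sum_congr rfl (fun j _ => h5 j), Finset.sum_add_distrib, Finset.sum_add_distrib, Finset.sum_add_distrib]
    simp only [Finset.sum_ite_eq', Finset.mem_univ, if_true]
    have h6 : A * (1 + x (f' j2)) + A * (1 + x (f' j3)) + (B * (1 + x (f' j0)) + B * (1 + x (f' j1))) =
        (1 + 1) * (A + B) + (1 + 1) * (A * B) := by
      rw [hA, hB]; ring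
    rw [h6, h2]; ring
  · rw [hgx]
    simp [u, v, Pi.single_apply, hff.eq_iff, hff'.eq_iff, hne, n01.symm, n02.symm, n12.symm, n23, n02, n03, n12, n13,
      n03.symm, n13.symm, n01]
  · rw [hgx]
    simp [u, v, Pi.single_apply, hff.eq_iff, hff'.eq_iff, hne, n01.symm, n02.symm, n12.symm, n23, n02, n03, n12, n13,
      n03.symm, n13.symm, n01, n23.symm]

end two

/-- For a finite field F with q elements and n ≥ 13, let D be a decomposition of F^n into t ≥ 2 independent subspaces of equal dimension m spanning F^n, where m = 1 and q ≤ 4, or m = 2 and q = 2. Then the elements of SL_n(F) permuting the members of D form a subgroup that is not maximal: some subgroup lies strictly between it and SL_n(F). -/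
theorem result {F : Type*} [Field F] [Fintype F] (n : ℕ) (hn : 13 ≤ n) {t : ℕ} (m : ℕ) (D : Fin t → Submodule F (Fin n → F)) (hD : Cfsg.Geo.IsMDecomposition m D) (h : (m = 1 ∧ Fintype.card F ≤ 4) ∨ (m = 2 ∧ Fintype.card F = 2)) : ∃ K : Subgroup (Matrix.GeneralLinearGroup (Fin n) F), Cfsg.Geo.decompositionStabilizer D ⊓ Cfsg.Geo.specialLinear (Fin n) F < K ∧ K < Cfsg.Geo.specialLinear (Fin n) F := by

  classical
  obtain ⟨β, P, hc, hDP⟩ := exists_std hD
  have hsum : n = t * m := by
    have e1 : Fintype.card (Fin n) = ∑ j, Fintype.card {a // β a = j} := by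
      rw [← Fintype.card_sigma]
      exact Fintype.card_congr (Equiv.sigmaFiberEquiv β).symm
    simp only [hc, Fintype.card_fin, Finset.sum_const, Finset.card_univ, smul_eq_mul] at e1
    exact e1
  have key : ∃ K : Subgroup (GL (Fin n) F),
      decompositionStabilizer (blk β F) ⊓ specialLinear (Fin n) F < K ∧ K < specialLinear (Fin n) F := by
    rcases h with ⟨h1, h4⟩ | ⟨h1, h2⟩
    · subst h1
      obtain ⟨p, hp⟩ := CharP.exists F
      have hpp : p.Prime := CharP.char_is_prime F p
      have hple : p ≤ 4 := by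
        obtain ⟨k, hk1, hk2⟩ := FiniteField.card F p
        have : p ^ 1 ≤ p ^ (k : ℕ) := Nat.pow_le_pow_right hpp.pos k.pos
        rw [pow_one] at this
        omega
      refine one_case ?_ h4 hp hpp.two_le (by rw [Fintype.card_fin]; omega)
      constructor
      · intro a b hab
        have := Fintype.card_le_one_iff.1 (hc (β b)).le ⟨a, hab⟩ ⟨b, rfl⟩
        exact congrArg Subtype.val this
      · intro j
        have : 0 < Fintype.card {a // β a = j} := by rw [hc]; exact one_pos
        obtain ⟨⟨a, ha⟩⟩ := Fintype.card_pos_iff.1 this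
        exact ⟨a, ha⟩
    · subst h1
      exact two_case h2 hc (by omega)
  obtain ⟨K, hK1, hK2⟩ := key
  have hinj : Function.Injective (MulAut.conj P).toMonoidHom := (MulAut.conj P).injective
  refine ⟨K.map (MulAut.conj P).toMonoidHom, ?_, ?_⟩
  · rw [conj_stab P hDP]
    have h3 := (Subgroup.map_lt_map_iff_of_injective hinj).2 hK1
    rw [Subgroup.map_inf _ _ _ hinj, Subf.map_conj_specialLinear] at h3
    exact h3
  · have h3 := (Subgroup.map_lt_map_iff_of_injective hinj).2 hK2
    rw [Subf.map_conj_specialLinear] at h3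
    exact h3


end Cfsg.Agent.S5635
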