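import Cfsg.Statements.S5637
import Cfsg.Agent.Asch.TMaxThm
import Cfsg.Agent.AschCases.ProperSL

set_option autoImplicit false
open Cfsg

namespace Cfsg.Agent.S5637

open Cfsg.Geo Cfsg.Agent.Asch.TMax Matrix

open scoped MatrixGroups Kronecker

/-- coordinates in the tensor product -/
def rho {F : Type*} [Field F] {n n₁ n₂ : ℕ} (e : Fin n ≃ Fin n₁ × Fin n₂) (P : GL (Fin n) F) :
    GL (Fin n) F ≃* GL (Fin n₁ × Fin n₂) F := (MulAut.conj P⁻¹).trans (glReindex e)

lemma rho_symm_mem {F : Type*} [Field F] {n n₁ n₂ : ℕ} (e : Fin n ≃ Fin n₁ × Fin n₂) (P : GL (Fin n) F)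
    (k : GL (Fin n₁ × Fin n₂) F) (hk : k ∈ kroneckerSubgroup n₁ n₂ F) : (rho e P).symm k ∈ tensorProductSubgroup n₁ n₂ e P := by
  refine ⟨glReindex e.symm k, ⟨k, hk, rfl⟩, ?_⟩
  have h : (MulAut.conj P).toMonoidHom (glReindex e.symm k) = P * glReindex e.symm k * P⁻¹ := rfl
  rw [h]
  have h2 : (rho e P).symm k = (MulAut.conj P⁻¹).symm ((glReindex e).symm k) := rfl
  rw [h2, MulAut.conj_symm_apply, inv_inv]
  rfl

lemma rho_mem {F : Type*} [Field F] {n n₁ n₂ : ℕ} (e : Fin n ≃ Fin n₁ × Fin n₂) (P : GL (Fin n) F)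
    (g : GL (Fin n) F) (hk : rho e P g ∈ kroneckerSubgroup n₁ n₂ F) : g ∈ tensorProductSubgroup n₁ n₂ e P := by
  have := rho_symm_mem e P _ hk
  rwa [MulEquiv.symm_apply_apply] at this

lemma rho_det {F : Type*} [Field F] {n n₁ n₂ : ℕ} (e : Fin n ≃ Fin n₁ × Fin n₂) (P : GL (Fin n) F)
    (g : GL (Fin n) F) : GeneralLinearGroup.det (rho e P g) = GeneralLinearGroup.det g := by
  have h1 : GeneralLinearGroup.det (MulAut.conj P⁻¹ g) = GeneralLinearGroup.det g := by
    rw [MulAut.conj_apply, map_mul, map_mul, map_inv (GeneralLinearGroup.det : GL (Fin n) F →* Fˣ) P⁻¹,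
      mul_right_comm, mul_inv_cancel, one_mul]
  rw [← h1]
  apply Units.ext
  change (Matrix.reindex e e ((MulAut.conj P⁻¹ g : GL (Fin n) F) : Matrix (Fin n) (Fin n) F)).det = _
  rw [Matrix.det_reindex_self]
  rfl

/-- For a finite field F with q elements and n = n₁ n₂ ≥ 13 with 2 ≤ n₁ < n₂, excluding n₁ = q = 2, the stabiliser in SL_n(F) of a tensor decomposition F^n ≅ F^(n₁) ⊗ F^(n₂) (the conjugate by any P of the Kronecker-product subgroup transported along any bijection Fin n ≃ Fin n₁ × Fin n₂, intersected with SL_n(F)) is a maximal subgroup of SL_n(F). -/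
theorem result {F : Type*} [Field F] [Fintype F] (n : ℕ) (hn : 13 ≤ n) (n₁ n₂ : ℕ) (h1 : 2 ≤ n₁) (h12 : n₁ < n₂) (hex : ¬ (n₁ = 2 ∧ Fintype.card F = 2)) (e : Fin n ≃ Fin n₁ × Fin n₂) (P : Matrix.GeneralLinearGroup (Fin n) F) : Cfsg.Geo.IsMaximalIn (Cfsg.Geo.specialLinear (Fin n) F) (Cfsg.Geo.tensorProductSubgroup n₁ n₂ e P ⊓ Cfsg.Geo.specialLinear (Fin n) F) := by
  classical
  refine ⟨lt_of_le_of_ne inf_le_right fun h => ?_, fun M hM1 hM2 => ?_⟩
  · exact Cfsg.Agent.AschCases.sl_not_le_tensorProductSubgroup h1 (by omega) e P (inf_eq_right.1 h)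
  · have hq : 3 ≤ n₁ ∨ ∃ c : F, c ≠ 0 ∧ c ≠ 1 := by
      by_cases h3 : 3 ≤ n₁
      · exact Or.inl h3
      · right
        have h2 : n₁ = 2 := by omega
        have hF : Fintype.card F ≠ 2 := fun h => hex ⟨h2, h⟩
        have hF2 : 1 < Fintype.card F := Fintype.one_lt_card
        have : ∃ c : F, c ∉ ({0, 1} : Finset F) := by
          by_contra hcon
          push Not at hcon
          have h4 : Fintype.card F ≤ ({0, 1} : Finset F).card := by
            rw [← Finset.card_univ]
            exact Finset.card_le_card fun x _ => hcon x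
          have h5 := Finset.card_le_two (a := (0 : F)) (b := 1)
          omega
        obtain ⟨c, hc⟩ := this
        rw [Finset.mem_insert, Finset.mem_singleton, not_or] at hc
        exact ⟨c, hc⟩
    have hmem : ∀ k : GL (Fin n₁ × Fin n₂) F, k ∈ kroneckerSubgroup n₁ n₂ F → GeneralLinearGroup.det k = 1 →
        k ∈ M.map (rho e P).toMonoidHom := by
      intro k hk hdet
      refine ⟨(rho e P).symm k, hM1 ⟨rho_symm_mem e P k hk, ?_⟩, (rho e P).apply_symm_apply k⟩
      change GeneralLinearGroup.det ((rho e P).symm k) = 1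
      rw [← rho_det e P, MulEquiv.apply_symm_apply, hdet]
    have hS : HasSL (M.map (rho e P).toMonoidHom) := by
      constructor
      · intro A hA
        have hd : (A ⊗ₖ (1 : Matrix (Fin n₂) (Fin n₂) F)).det = 1 := by rw [det_kronecker, hA, det_one, one_pow, one_pow, one_mul]
        have hk : GeneralLinearGroup.mkOfDetNeZero (A ⊗ₖ (1 : Matrix (Fin n₂) (Fin n₂) F)) (by rw [hd]; exact one_ne_zero) ∈
            kroneckerSubgroup n₁ n₂ F := mem_kron_of_eq (by omega) (by omega) rfl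
        exact ⟨_, hmem _ hk (Units.ext hd), rfl⟩
      · intro B hB
        have hd : ((1 : Matrix (Fin n₁) (Fin n₁) F) ⊗ₖ B).det = 1 := by rw [det_kronecker, hB, det_one, one_pow, one_pow, one_mul]
        have hk : GeneralLinearGroup.mkOfDetNeZero ((1 : Matrix (Fin n₁) (Fin n₁) F) ⊗ₖ B) (by rw [hd]; exact one_ne_zero) ∈
            kroneckerSubgroup n₁ n₂ F := mem_kron_of_eq (by omega) (by omega) rfl
        exact ⟨_, hmem _ hk (Units.ext hd), rfl⟩
    rcases tensor_overgroup h1 h12 hq hS with h | h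
    · right
      refine le_antisymm hM2 fun g hg => ?_
      have hg' : GeneralLinearGroup.det g = 1 := hg
      have h2 : rho e P g ∈ specialLinear (Fin n₁ × Fin n₂) F := by
        change GeneralLinearGroup.det (rho e P g) = 1
        rw [rho_det, hg']
      obtain ⟨g', hg'M, hg'e⟩ := h h2
      have : g' = g := (rho e P).injective hg'e
      rwa [← this]
    · left
      refine le_antisymm (le_inf (fun g hg => ?_) hM2) hM1
      exact rho_mem e P g (h ⟨g, hg, rfl⟩)

end Cfsg.Agent.S5637
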