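import Cfsg.Statements.S5638


set_option autoImplicit false
set_option linter.style.haveILetI false
open Cfsg

namespace Cfsg.Agent.S5638


open Matrix Cfsg.Geo
open scoped MatrixGroups Kronecker

/-- the elements conjugating `x` to `x` or `x⁻¹` -/
def invNorm {G : Type*} [Group G] (x : G) : Subgroup G where
  carrier := {g | g * x * g⁻¹ = x ∨ g * x * g⁻¹ = x⁻¹}
  mul_mem' {a b} ha hb := by
    have h : a * b * x * (a * b)⁻¹ = a * (b * x * b⁻¹) * a⁻¹ := by group
    have h' : a * x⁻¹ * a⁻¹ = (a * x * a⁻¹)⁻¹ := by group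
    change a * b * x * (a * b)⁻¹ = x ∨ a * b * x * (a * b)⁻¹ = x⁻¹
    rw [h]
    rcases ha with ha | ha <;> rcases hb with hb | hb <;> rw [hb]
    · rw [ha]; exact Or.inl rfl
    · rw [h', ha]; exact Or.inr rfl
    · rw [ha]; exact Or.inr rfl
    · rw [h', ha, inv_inv]; exact Or.inl rfl
  one_mem' := by left; simp
  inv_mem' {a} ha := by
    change a⁻¹ * x * a⁻¹⁻¹ = x ∨ a⁻¹ * x * a⁻¹⁻¹ = x⁻¹
    rcases ha with ha | ha
    · left
      rw [inv_inv]
      calc a⁻¹ * x * a = a⁻¹ * (a * x * a⁻¹) * a := by rw [ha]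
        _ = x := by group
    · right
      rw [inv_inv]
      have h2 : x = (a * x * a⁻¹)⁻¹ := by rw [ha, inv_inv]
      calc a⁻¹ * x * a = a⁻¹ * (a * x * a⁻¹)⁻¹ * a := by rw [← h2]
        _ = x⁻¹ := by group

section

variable {F : Type*} [Field F] [Fintype F]

lemma val_of_card_two (hq : Fintype.card F = 2) (c : F) : c = 0 ∨ c = 1 := by
  by_cases h : c = 0
  · exact Or.inl h
  · right
    have := FiniteField.pow_card_sub_one_eq_one c h
    rw [hq] at this
    simpa using this

lemma two0 (hq : Fintype.card F = 2) : (1 : F) + 1 = 0 := by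
  have hcast : ((2 : ℕ) : F) = 0 := by rw [← hq]; exact FiniteField.cast_card_eq_zero F
  have : ((2 : ℕ) : F) = 1 + 1 := by norm_num
  rw [← this]; exact hcast

/-- element of order three -/
def W (F : Type*) [Field F] : Matrix (Fin 2) (Fin 2) F := !![0, 1; 1, 1]
def W' (F : Type*) [Field F] : Matrix (Fin 2) (Fin 2) F := !![1, 1; 1, 0]

lemma WW' (hq : Fintype.card F = 2) : W F * W' F = 1 := by
  have h2 := two0 hq
  ext i j
  fin_cases i <;> fin_cases j <;> simp [W, W', Matrix.mul_apply, Fin.sum_univ_two, h2]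

lemma W'W (hq : Fintype.card F = 2) : W' F * W F = 1 := by
  have h2 := two0 hq
  ext i j
  fin_cases i <;> fin_cases j <;> simp [W, W', Matrix.mul_apply, Fin.sum_univ_two, h2]

lemma norm_W (hq : Fintype.card F = 2) (a : Matrix (Fin 2) (Fin 2) F) (ha : a.det ≠ 0) :
    a * W F = W F * a ∨ a * W F = W' F * a := by
  have h2 := two0 hq
  have hdet : a.det = a 0 0 * a 1 1 - a 0 1 * a 1 0 := Matrix.det_fin_two a
  rw [hdet] at ha
  have key : ∀ i j, (a * W F) i j = a i 0 * W F 0 j + a i 1 * W F 1 j := by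
    intro i j; simp [Matrix.mul_apply, Fin.sum_univ_two]
  have key1 : ∀ i j, (W F * a) i j = W F i 0 * a 0 j + W F i 1 * a 1 j := by
    intro i j; simp [Matrix.mul_apply, Fin.sum_univ_two]
  have key2 : ∀ i j, (W' F * a) i j = W' F i 0 * a 0 j + W' F i 1 * a 1 j := by
    intro i j; simp [Matrix.mul_apply, Fin.sum_univ_two]
  have hW : W F 0 0 = 0 ∧ W F 0 1 = 1 ∧ W F 1 0 = 1 ∧ W F 1 1 = 1 := by simp [W]
  have hW' : W' F 0 0 = 1 ∧ W' F 0 1 = 1 ∧ W' F 1 0 = 1 ∧ W' F 1 1 = 0 := by simp [W']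
  obtain ⟨w1, w2, w3, w4⟩ := hW
  obtain ⟨v1, v2, v3, v4⟩ := hW'
  rw [← Matrix.ext_iff, ← Matrix.ext_iff]
  simp only [Fin.forall_fin_two, key, key1, key2, w1, w2, w3, w4, v1, v2, v3, v4]
  rcases val_of_card_two hq (a 0 0) with h3 | h3 <;> rcases val_of_card_two hq (a 0 1) with h4 | h4 <;>
    rcases val_of_card_two hq (a 1 0) with h5 | h5 <;> rcases val_of_card_two hq (a 1 1) with h6 | h6 <;>
    simp [h3, h4, h5, h6, h2] at ha ⊢

variable {n : ℕ}

/-- the element `W ⊗ 1` -/
def Om (hq : Fintype.card F = 2) (n : ℕ) : GL (Fin 2 × Fin n) F where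
  val := W F ⊗ₖ (1 : Matrix (Fin n) (Fin n) F)
  inv := W' F ⊗ₖ (1 : Matrix (Fin n) (Fin n) F)
  val_inv := by rw [← Matrix.mul_kronecker_mul, WW' hq, one_mul, Matrix.one_kronecker_one]
  inv_val := by rw [← Matrix.mul_kronecker_mul, W'W hq, one_mul, Matrix.one_kronecker_one]

/-- `1 + A ⊗ E₀₁` -/
def el (hq : Fintype.card F = 2) {i j : Fin n} (hij : i ≠ j) (A : Matrix (Fin 2) (Fin 2) F) : GL (Fin 2 × Fin n) F where
  val := 1 + A ⊗ₖ (Matrix.single i j (1 : F))
  inv := 1 + A ⊗ₖ (Matrix.single i j (1 : F))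
  val_inv := by
    have h0 : (A ⊗ₖ (Matrix.single i j (1 : F))) * (A ⊗ₖ (Matrix.single i j (1 : F))) = 0 := by
      rw [← Matrix.mul_kronecker_mul, Matrix.single_mul_single_of_ne _ _ _ _ hij.symm, Matrix.kronecker_zero]
    rw [add_mul, mul_add, mul_add, h0, mul_one, one_mul, mul_one, add_zero, add_assoc]
    have h1 : (A ⊗ₖ (Matrix.single i j (1 : F))) + (A ⊗ₖ (Matrix.single i j (1 : F))) = 0 := by
      have : (A ⊗ₖ (Matrix.single i j (1 : F))) + (A ⊗ₖ (Matrix.single i j (1 : F))) =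
        ((1 : F) + 1) • (A ⊗ₖ (Matrix.single i j (1 : F))) := by rw [add_smul, one_smul]
      rw [this, two0 hq, zero_smul]
    rw [h1, add_zero]
  inv_val := by
    have h0 : (A ⊗ₖ (Matrix.single i j (1 : F))) * (A ⊗ₖ (Matrix.single i j (1 : F))) = 0 := by
      rw [← Matrix.mul_kronecker_mul, Matrix.single_mul_single_of_ne _ _ _ _ hij.symm, Matrix.kronecker_zero]
    rw [add_mul, mul_add, mul_add, h0, mul_one, one_mul, mul_one, add_zero, add_assoc]
    have h1 : (A ⊗ₖ (Matrix.single i j (1 : F))) + (A ⊗ₖ (Matrix.single i j (1 : F))) = 0 := by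
      have : (A ⊗ₖ (Matrix.single i j (1 : F))) + (A ⊗ₖ (Matrix.single i j (1 : F))) =
        ((1 : F) + 1) • (A ⊗ₖ (Matrix.single i j (1 : F))) := by rw [add_smul, one_smul]
      rw [this, two0 hq, zero_smul]
    rw [h1, add_zero]

lemma el_apply (hq : Fintype.card F = 2) {i j : Fin n} (hij : i ≠ j) (A : Matrix (Fin 2) (Fin 2) F)
    (a b : Fin 2) (c d : Fin n) : (el hq hij A : Matrix (Fin 2 × Fin n) (Fin 2 × Fin n) F) (a, c) (b, d) =
      (if a = b ∧ c = d then 1 else 0) + A a b * (if i = c ∧ j = d then 1 else 0) := by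
  change (1 + A ⊗ₖ (Matrix.single i j (1 : F))) (a, c) (b, d) = _
  rw [Matrix.add_apply, Matrix.kroneckerMap_apply, Matrix.one_apply, Matrix.single_apply]
  simp [Prod.ext_iff]

lemma kron_lt (hq : Fintype.card F = 2) {i j : Fin n} (hij : i ≠ j) :
    kroneckerSubgroup 2 n F < invNorm (Om hq n) ∧ invNorm (Om (F := F) hq n) < ⊤ := by
  constructor
  · refine lt_of_le_of_ne ?_ ?_
    · rintro g ⟨a, b, hg⟩
      have hdet : (a : Matrix (Fin 2) (Fin 2) F).det ≠ 0 := by
        have := (Matrix.isUnit_iff_isUnit_det _).1 a.isUnit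
        exact this.ne_zero
      rcases norm_W hq (a : Matrix (Fin 2) (Fin 2) F) hdet with h | h
      · left
        rw [mul_inv_eq_iff_eq_mul]
        apply Units.ext
        rw [Units.val_mul, Units.val_mul, hg]
        change (a : Matrix (Fin 2) (Fin 2) F) ⊗ₖ (b : Matrix (Fin n) (Fin n) F) * (W F ⊗ₖ (1 : Matrix (Fin n) (Fin n) F)) =
          (W F ⊗ₖ (1 : Matrix (Fin n) (Fin n) F)) * ((a : Matrix (Fin 2) (Fin 2) F) ⊗ₖ (b : Matrix (Fin n) (Fin n) F))
        rw [← Matrix.mul_kronecker_mul, ← Matrix.mul_kronecker_mul, h, one_mul, mul_one]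
      · right
        rw [mul_inv_eq_iff_eq_mul]
        apply Units.ext
        rw [Units.val_mul, Units.val_mul, hg]
        change (a : Matrix (Fin 2) (Fin 2) F) ⊗ₖ (b : Matrix (Fin n) (Fin n) F) * (W F ⊗ₖ (1 : Matrix (Fin n) (Fin n) F)) =
          (W' F ⊗ₖ (1 : Matrix (Fin n) (Fin n) F)) * ((a : Matrix (Fin 2) (Fin 2) F) ⊗ₖ (b : Matrix (Fin n) (Fin n) F))
        rw [← Matrix.mul_kronecker_mul, ← Matrix.mul_kronecker_mul, h, one_mul, mul_one]
    · intro heq
      have h1 : el hq hij (W F) ∈ invNorm (Om hq n) := by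
        left
        rw [mul_inv_eq_iff_eq_mul]
        apply Units.ext
        rw [Units.val_mul, Units.val_mul]
        change (1 + W F ⊗ₖ (Matrix.single i j (1 : F))) * (W F ⊗ₖ (1 : Matrix (Fin n) (Fin n) F)) =
          (W F ⊗ₖ (1 : Matrix (Fin n) (Fin n) F)) * (1 + W F ⊗ₖ (Matrix.single i j (1 : F)))
        rw [add_mul, mul_add, one_mul, mul_one, ← Matrix.mul_kronecker_mul, ← Matrix.mul_kronecker_mul, one_mul, mul_one]
      rw [← heq] at h1
      obtain ⟨a, b, hg⟩ := h1
      have hv : ∀ x y c d, (if x = y ∧ c = d then (1 : F) else 0) + W F x y * (if i = c ∧ j = d then 1 else 0) =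
          (a : Matrix (Fin 2) (Fin 2) F) x y * (b : Matrix (Fin n) (Fin n) F) c d := by
        intro x y c d
        rw [← el_apply hq hij, hg, Matrix.kroneckerMap_apply]
      have e1 := hv 0 0 i i
      have e2 := hv 0 1 i i
      have e3 := hv 0 1 i j
      have hji : j ≠ i := hij.symm
      simp [W, hij, hji] at e1 e2 e3
      -- e1 : 1 = a00 b_ii ; e2 : 0 = a01 * b_ii ; e3 : 1 = a01 b_ij
      have hb : (b : Matrix (Fin n) (Fin n) F) i i ≠ 0 := by
        intro h; rw [h, mul_zero] at e1; exact one_ne_zero e1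
      have ha : (a : Matrix (Fin 2) (Fin 2) F) 0 1 = 0 := by
        rcases e2 with h | h
        · exact h
        · exact absurd h hb
      rw [ha, zero_mul] at e3
      exact one_ne_zero e3
  · refine lt_top_iff_ne_top.2 fun heq => ?_
    have hji : j ≠ i := hij.symm
    let A : Matrix (Fin 2) (Fin 2) F := !![1, 0; 0, 0]
    have h1 : el hq hij A ∈ invNorm (Om hq n) := by rw [heq]; trivial
    rcases h1 with h1 | h1
    · rw [mul_inv_eq_iff_eq_mul] at h1
      have h2 := congrArg (fun z : GL (Fin 2 × Fin n) F => (z : Matrix (Fin 2 × Fin n) (Fin 2 × Fin n) F)) h1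
      simp only [Units.val_mul] at h2
      change (1 + A ⊗ₖ (Matrix.single i j (1 : F))) * (W F ⊗ₖ (1 : Matrix (Fin n) (Fin n) F)) =
          (W F ⊗ₖ (1 : Matrix (Fin n) (Fin n) F)) * (1 + A ⊗ₖ (Matrix.single i j (1 : F))) at h2
      rw [add_mul, mul_add, one_mul, mul_one, ← Matrix.mul_kronecker_mul, ← Matrix.mul_kronecker_mul, one_mul, mul_one] at h2
      have h3 := add_left_cancel h2
      have h4 := congrFun (congrFun h3 (0, i)) (1, j)
      rw [Matrix.kroneckerMap_apply, Matrix.kroneckerMap_apply] at h4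
      simp [A, W, Matrix.mul_apply, Fin.sum_univ_two] at h4
    · rw [mul_inv_eq_iff_eq_mul] at h1
      have h2 := congrArg (fun z : GL (Fin 2 × Fin n) F => (z : Matrix (Fin 2 × Fin n) (Fin 2 × Fin n) F)) h1
      simp only [Units.val_mul] at h2
      change (1 + A ⊗ₖ (Matrix.single i j (1 : F))) * (W F ⊗ₖ (1 : Matrix (Fin n) (Fin n) F)) =
          (W' F ⊗ₖ (1 : Matrix (Fin n) (Fin n) F)) * (1 + A ⊗ₖ (Matrix.single i j (1 : F))) at h2
      rw [add_mul, mul_add, one_mul, mul_one, ← Matrix.mul_kronecker_mul, ← Matrix.mul_kronecker_mul, one_mul, mul_one] at h2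
      have h4 := congrFun (congrFun h2 (0, i)) (0, i)
      rw [Matrix.add_apply, Matrix.add_apply, Matrix.kroneckerMap_apply, Matrix.kroneckerMap_apply,
        Matrix.kroneckerMap_apply, Matrix.kroneckerMap_apply] at h4
      simp [A, W, W', Matrix.mul_apply, Fin.sum_univ_two, hji] at h4

end

/-- Over the field with 2 elements, for n = 2 n₂ ≥ 13, the stabiliser in SL_n of a tensor decomposition with factors of dimensions 2 and n₂ (the conjugate by any P of the Kronecker-product subgroup transported along any bijection Fin n ≃ Fin 2 × Fin n₂, intersected with SL_n) is not a maximal subgroup: some subgroup lies strictly between it and SL_n. -/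
theorem result {F : Type*} [Field F] [Fintype F] (n : ℕ) (hn : 13 ≤ n) (hq : Fintype.card F = 2) (n₂ : ℕ) (e : Fin n ≃ Fin 2 × Fin n₂) (P : Matrix.GeneralLinearGroup (Fin n) F) : ∃ K : Subgroup (Matrix.GeneralLinearGroup (Fin n) F), Cfsg.Geo.tensorProductSubgroup 2 n₂ e P ⊓ Cfsg.Geo.specialLinear (Fin n) F < K ∧ K < Cfsg.Geo.specialLinear (Fin n) F := by

  classical
  have hcard : n = 2 * n₂ := by
    have := Fintype.card_congr e
    simpa using this
  have hn2 : 2 ≤ n₂ := by omega
  have hij : (⟨0, by omega⟩ : Fin n₂) ≠ ⟨1, by omega⟩ := by simp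
  obtain ⟨h1, h2⟩ := kron_lt hq hij
  have hu : ∀ c : Fˣ, c = 1 := by
    intro c
    apply Units.ext
    rcases val_of_card_two hq (c : F) with h | h
    · exact absurd h c.ne_zero
    · rw [h]; rfl
  have hSL : specialLinear (Fin n) F = ⊤ := by
    rw [eq_top_iff]
    intro g _
    exact hu _
  rw [hSL]
  have i1 : Function.Injective (glReindex (F := F) e.symm).toMonoidHom := (glReindex e.symm).injective
  have i2 : Function.Injective (MulAut.conj P).toMonoidHom := (MulAut.conj P).injective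
  refine ⟨((invNorm (Om hq n₂)).map (glReindex e.symm).toMonoidHom).map (MulAut.conj P).toMonoidHom, ?_, ?_⟩
  · rw [inf_top_eq]
    exact (Subgroup.map_lt_map_iff_of_injective i2).2 ((Subgroup.map_lt_map_iff_of_injective i1).2 h1)
  · have h3 := (Subgroup.map_lt_map_iff_of_injective i2).2 ((Subgroup.map_lt_map_iff_of_injective i1).2 h2)
    have s1 : Function.Surjective (glReindex (F := F) e.symm).toMonoidHom := (glReindex e.symm).surjective
    have s2 : Function.Surjective (MulAut.conj P).toMonoidHom := (MulAut.conj P).surjective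
    rw [Subgroup.map_top_of_surjective _ s1, Subgroup.map_top_of_surjective _ s2] at h3
    exact h3


end Cfsg.Agent.S5638
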