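import Cfsg.Statements.S5642
import Cfsg.Agent.GeoMax.Symp

set_option autoImplicit false
open Cfsg

namespace Cfsg.Agent.S5642

open Matrix Cfsg.Geo Cfsg.Agent.GeoMax Cfsg.Agent.GeoMax.Symp
open scoped MatrixGroups

section
variable {ι : Type} [Fintype ι] [DecidableEq ι] {F : Type*} [Field F]
variable {f : (ι → F) → (ι → F) → F}

/-- a non-similarity moves some axis -/
lemma exists_axis (hf : IsSymplecticForm f) {g : GL ι F} (hg : g ∉ similarityGroup f) :
    ∃ v : ι → F, v ≠ 0 ∧ ∀ c : F, formVec f (((g⁻¹ : GL ι F) : Matrix ι ι F) *ᵥ v) ᵥ* ((g⁻¹ : GL ι F) : Matrix ι ι F) ≠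
      c • formVec f v := by
  by_contra hcon
  push Not at hcon
  let L : (ι → F) →ₗ[F] (ι → F) :=
    (formEquiv hf).symm.toLinearMap ∘ₗ
      (Matrix.vecMulLinear ((g⁻¹ : GL ι F) : Matrix ι ι F)) ∘ₗ (formEquiv hf).toLinearMap ∘ₗ
      (Matrix.mulVecLin ((g⁻¹ : GL ι F) : Matrix ι ι F))
  have hL : ∀ x v, f x (L v) = f (((g⁻¹ : GL ι F) : Matrix ι ι F) *ᵥ x) (((g⁻¹ : GL ι F) : Matrix ι ι F) *ᵥ v) := by
    intro x v
    have : L v = (formEquiv hf).symm (formVec f (((g⁻¹ : GL ι F) : Matrix ι ι F) *ᵥ v) ᵥ* ((g⁻¹ : GL ι F) : Matrix ι ι F)) := rfl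
    rw [this, f_formEquiv_symm hf, ← Matrix.dotProduct_mulVec, formVec_dotProduct (linLeft hf)]
  have hLv : ∀ v, ∃ c : F, L v = c • v := by
    intro v
    by_cases hv : v = 0
    · exact ⟨0, by rw [hv, map_zero, smul_zero]⟩
    obtain ⟨c, hc⟩ := hcon v hv
    refine ⟨c, ?_⟩
    have : L v = (formEquiv hf).symm (formVec f (((g⁻¹ : GL ι F) : Matrix ι ι F) *ᵥ v) ᵥ* ((g⁻¹ : GL ι F) : Matrix ι ι F)) := rfl
    rw [this, hc, map_smul, ← formEquiv_apply hf, LinearEquiv.symm_apply_apply]
  obtain ⟨a, ha⟩ := LinearMap.exists_eq_smul_id_of_forall_notLinearIndependent (f := L) (by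
    intro v hli
    obtain ⟨c, hc⟩ := hLv v
    rw [hc] at hli
    rw [LinearIndependent.pair_iff] at hli
    have := hli c (-1) (by simp)
    simp at this)
  have key : ∀ x v, f (((g⁻¹ : GL ι F) : Matrix ι ι F) *ᵥ x) (((g⁻¹ : GL ι F) : Matrix ι ι F) *ᵥ v) = a * f x v := by
    intro x v
    rw [← hL, ha]
    simp [smul_right hf]
  by_cases ha0 : a = 0
  · -- then f = 0, so the space is trivial; everything is a similarity
    apply hg
    refine ⟨1, fun u v => ?_⟩
    have h1 := key ((g : Matrix ι ι F) *ᵥ ((g : Matrix ι ι F) *ᵥ u)) ((g : Matrix ι ι F) *ᵥ ((g : Matrix ι ι F) *ᵥ v))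
    have h2 := key ((g : Matrix ι ι F) *ᵥ u) ((g : Matrix ι ι F) *ᵥ v)
    simp only [Matrix.mulVec_mulVec, ← Units.val_mul] at h1 h2
    simp only [inv_mul_cancel_left, inv_mul_cancel, Units.val_one, Matrix.one_mulVec, ha0, zero_mul] at h1 h2
    rw [h1, h2]; simp
  · apply hg
    have : (g⁻¹ : GL ι F) ∈ similarityGroup f := ⟨Units.mk0 a ha0, fun u v => by
      rw [key]; rfl⟩
    simpa using (similarityGroup f).inv_mem this

end

/-- For a finite field F and n ≥ 13, let f be a non-degenerate symplectic form on F^n (so n is even). Then the elements of SL_n(F) that are similarities of f (f(gu, gv) = c f(u, v) for a non-zero scalar c depending on g) form a maximal subgroup of SL_n(F). -/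
theorem result {F : Type*} [Field F] [Fintype F] (n : ℕ) (hn : 13 ≤ n) (f : (Fin n → F) → (Fin n → F) → F) (hf : Cfsg.Geo.IsSymplecticForm f) : Cfsg.Geo.IsMaximalIn (Cfsg.Geo.specialLinear (Fin n) F) (Cfsg.Geo.similarityGroup f ⊓ Cfsg.Geo.specialLinear (Fin n) F) := by
  have : Nontrivial (Fin n) := Fin.nontrivial_iff_two_le.2 (by omega)
  have hcard : 3 ≤ Fintype.card (Fin n) := by simp; omega
  have hne : ∃ v : Fin n → F, v ≠ 0 := ⟨Pi.single ⟨0, by omega⟩ 1, by simp⟩
  -- a vector orthogonal to `v` and independent of it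
  have hperp : ∀ v : Fin n → F, ∃ u : Fin n → F, f u v = 0 ∧ ∀ c : F, u ≠ c • v := by
    intro v
    obtain ⟨u, hu, huc⟩ := exists_dot_eq_zero_not_smul hcard (formVec f v) v
    exact ⟨u, by rwa [formVec_dotProduct (linLeft hf)] at hu, huc⟩
  constructor
  · refine lt_of_le_of_ne inf_le_right ?_
    intro heq
    obtain ⟨v, hv⟩ := hne
    obtain ⟨u, hu, huc⟩ := hperp v
    have h0 : formVec f u ⬝ᵥ v = 0 := by
      rw [formVec_dotProduct (linLeft hf), skew hf, hu, neg_zero]
    have hmem : tvec v (formVec f u) h0 ∈ similarityGroup f := by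
      have : tvec v (formVec f u) h0 ∈ similarityGroup f ⊓ specialLinear (Fin n) F := by
        rw [heq]; exact tvec_det _ _ _
      exact this.1
    obtain ⟨c, hc⟩ := hmem
    simp only [tvec_mulVec, formVec_dotProduct (linLeft hf)] at hc
    obtain ⟨x, hx⟩ := exists_ne_zero hf hv
    have h1 := hc x v
    rw [skew hf v u, hu, neg_zero, zero_smul, add_zero, add_left hf, smul_left hf, self hf, mul_zero, add_zero] at h1
    have hx' : f x v ≠ 0 := by rw [skew hf]; exact neg_ne_zero.2 hx
    have hc1 : (c : F) = 1 := by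
      have : (1 - (c : F)) * f x v = 0 := by linear_combination h1
      rcases mul_eq_zero.1 this with h | h
      · linear_combination -h
      · exact absurd h hx'
    refine huc ((f x u) / (f x v)) ?_
    rw [← sub_eq_zero]
    apply eq_zero_of_forall hf
    intro y
    have h2 := hc x y
    rw [hc1, one_mul, add_left hf, add_right hf, add_right hf, smul_left hf, smul_right hf, smul_left hf,
      smul_right hf, self hf] at h2
    rw [sub_left hf, smul_left hf, skew hf u y]
    have h3 : f y u * f x v = -(f x u * f v y) := by linear_combination h2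
    field_simp
    linear_combination -h3
  · intro M hHM hMS
    by_cases hMH : M = similarityGroup f ⊓ specialLinear (Fin n) F
    · exact Or.inl hMH
    right
    refine le_antisymm hMS ?_
    -- transvections of the form
    have hiso : ∀ g ∈ isoGL f, g ∈ similarityGroup f := fun g hg => ⟨1, fun u v => by
      rw [mem_isoGL.1 hg]; simp⟩
    have htr : ∀ v c, tr hf v c ∈ M := fun v c => hHM ⟨hiso _ (tr_mem_iso hf v c), tvec_det _ _ _⟩
    -- an element outside
    obtain ⟨g, hgM, hg⟩ : ∃ g ∈ M, g ∉ similarityGroup f := by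
      by_contra hcon
      push Not at hcon
      exact hMH (le_antisymm (fun g hg => ⟨hcon g hg, hMS hg⟩) hHM)
    obtain ⟨v₀, hv₀, hax⟩ := exists_axis hf hg
    obtain ⟨u₀, hu₀⟩ := exists_formVec_eq hf
      (formVec f (((g⁻¹ : GL (Fin n) F) : Matrix _ _ F) *ᵥ v₀) ᵥ* ((g⁻¹ : GL (Fin n) F) : Matrix _ _ F))
    rw [← hu₀] at hax
    have hTu₀ : ∀ c : F, HasT M v₀ (c • formVec f u₀) := by
      intro c
      have h1 := ((tr_mem_iff hf M (((g⁻¹ : GL (Fin n) F) : Matrix _ _ F) *ᵥ v₀) c).1 (htr _ _)).conj hgM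
      rw [Matrix.mulVec_mulVec, ← Units.val_mul, mul_inv_cancel, Units.val_one, Matrix.one_mulVec,
        Matrix.smul_vecMul, ← hu₀] at h1
      exact h1
    have hu₀v₀ : f v₀ u₀ = 0 := by
      have := (hTu₀ 1).1
      rwa [one_smul, formVec_dotProduct (linLeft hf)] at this
    have hTv₀ : ∀ c : F, HasT M v₀ (c • formVec f v₀) := fun c => (tr_mem_iff hf M v₀ c).1 (htr _ _)
    -- all transvections with centre `v₀`
    have hstepA : ∀ u, HasT M v₀ (formVec f u) → ∀ a, f a v₀ = 0 → f u a ≠ 0 → ∀ c : F, HasT M v₀ (c • formVec f a) := by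
      intro u hu a ha hua c
      have h1 := hasT_conj_formVec hf (tr_mem_iso hf a (c * (f u a)⁻¹)) (htr _ _) hu
      rw [tr_mulVec, tr_mulVec, skew hf v₀, ha, neg_zero, mul_zero, zero_smul, add_zero, inv_mul_cancel_right₀ hua,
        formVec_add hf, formVec_smul hf] at h1
      have := h1.sub_right hu
      rwa [add_sub_cancel_left] at this
    obtain ⟨b, hbv, hub⟩ : ∃ b, f b v₀ = 0 ∧ f u₀ b ≠ 0 := by
      by_contra hcon
      push Not at hcon
      -- then formVec u₀ is a multiple of formVec v₀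
      obtain ⟨z, hz⟩ := exists_ne_zero hf hv₀
      apply hax (f z u₀ / f z v₀)
      rw [← formVec_smul hf]
      congr 1
      rw [← sub_eq_zero]
      apply eq_zero_of_forall hf
      intro y
      have hz' : f z v₀ ≠ 0 := by rw [skew hf]; exact neg_ne_zero.2 hz
      have := hcon (y - (f y v₀ / f z v₀) • z) (by
        rw [sub_left hf, smul_left hf]; field_simp; ring)
      rw [sub_right hf, smul_right hf] at this
      rw [sub_left hf, smul_left hf]
      rw [skew hf u₀ z, ] at this
      rw [skew hf v₀ y]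
      field_simp
      field_simp at this
      linear_combination this
    have hall : ∀ a, f a v₀ = 0 → ∀ c : F, HasT M v₀ (c • formVec f a) := by
      intro a ha c
      have hu1 : HasT M v₀ (formVec f u₀) := by simpa using hTu₀ 1
      by_cases hua : f u₀ a = 0
      · have hb := hstepA u₀ hu1 b hbv hub c
        have hab := hstepA u₀ hu1 (a + b) (by rw [add_left hf, ha, hbv, add_zero])
          (by rw [add_right hf, hua, zero_add]; exact hub) c
        have := hab.sub_right hb
        rwa [formVec_add hf, smul_add, add_sub_cancel_right] at this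
      · exact hstepA u₀ hu1 a ha hua c
    -- all centres
    have hallv : ∀ v, v ≠ 0 → ∀ a, f a v = 0 → HasT M v (formVec f a) := by
      refine vec_induction hf (P := fun v => ∀ a, f a v = 0 → HasT M v (formVec f a)) hv₀ ?_ ?_
      · intro a ha; simpa using hall a ha 1
      · intro v b c hP a ha
        have hmem := tr_mem_iso hf b c
        have h1 : f (((((tr hf b c)⁻¹ : GL (Fin n) F)) : Matrix _ _ F) *ᵥ a) v = 0 := by
          have h2 := mem_isoGL.1 hmem (((((tr hf b c)⁻¹ : GL (Fin n) F)) : Matrix _ _ F) *ᵥ a) v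
          rw [Matrix.mulVec_mulVec, ← Units.val_mul, mul_inv_cancel, Units.val_one, Matrix.one_mulVec, ha] at h2
          exact h2.symm
        have h3 := hasT_conj_formVec hf hmem (htr b c) (hP _ h1)
        rwa [gl_mulVec_inv] at h3
    apply specialLinear_le_of_hasT
    intro v w hw
    by_cases hv : v = 0
    · rw [hv]; exact HasT.zero_left M w
    obtain ⟨a, rfl⟩ := exists_formVec_eq hf w
    refine hallv v hv a ?_
    rw [formVec_dotProduct (linLeft hf)] at hw
    rw [skew hf, hw, neg_zero]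

end Cfsg.Agent.S5642
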