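import Cfsg.Statements.S5647
import Cfsg.Agent.GeoMax.Swap

set_option autoImplicit false
open Cfsg

namespace Cfsg.Agent.S5647

open Matrix Cfsg.Geo Cfsg.Agent.GeoMax Cfsg.Agent.GeoMax.Symp Cfsg.Agent.GeoMax.SDec
open scoped MatrixGroups

variable {ι : Type} [Fintype ι] [DecidableEq ι] {F : Type*} [Field F] [Fintype F]
variable {f : (ι → F) → (ι → F) → F} {t k : ℕ} {D : Fin t → Submodule F (ι → F)}

/-- the support type `S` consists of transvection centres -/
def SM (hf : IsSymplecticForm f) (D : Fin t → Submodule F (ι → F)) (M : Subgroup (GL ι F)) (S : Finset (Fin t)) : Prop :=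
  ∀ c : Fin t → (ι → F), (∀ i, c i ∈ D i) → (∀ i, c i ≠ 0 ↔ i ∈ S) → TS hf M (∑ i, c i)

lemma sum_update (c : Fin t → (ι → F)) (i : Fin t) (a : ι → F) :
    ∑ j, Function.update c i a j = a + ∑ j ∈ Finset.univ.erase i, c j := by
  rw [← Finset.add_sum_erase _ _ (Finset.mem_univ i), Function.update_self]
  congr 1
  refine Finset.sum_congr rfl fun j hj => ?_
  rw [Function.update_of_ne (Finset.ne_of_mem_erase hj)]

lemma change_one (hf : IsSymplecticForm f) (hD : IsNondegenerateMDecomposition f k D) {M : Subgroup (GL ι F)}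
    (hT : ∀ i, ∀ v ∈ D i, TS hf M v) {c : Fin t → (ι → F)} (hc : ∀ i, c i ∈ D i) {i : Fin t} (hci : c i ≠ 0)
    (h : TS hf M (∑ j, c j)) {a : ι → F} (ha : a ∈ D i) (ha0 : a ≠ 0) :
    TS hf M (∑ j, Function.update c i a j) := by
  have hupd : ∀ y ∈ D i, ∀ j, Function.update c i y j ∈ D j := by
    intro y hy j
    by_cases hj : j = i
    · subst hj; rw [Function.update_self]; exact hy
    · rw [Function.update_of_ne hj]; exact hc j
  refine vec_induction_on hf (hD.nondegenerate i) (P := fun a => TS hf M (∑ j, Function.update c i a j)) (hc i) hci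
    ?_ ?_ a ha ha0
  · rw [Function.update_eq_self]; exact h
  · intro v hv y hy d hP
    have := hP.conj (tr_mem_iso hf y d) (hT i y hy d)
    rw [tr_mulVec, f_comp_left hf hD (hupd v hv) hy, Function.update_self] at this
    rw [sum_update] at this ⊢
    rw [tr_mulVec]
    convert this using 1
    abel

lemma change (hf : IsSymplecticForm f) (hD : IsNondegenerateMDecomposition f k D) {M : Subgroup (GL ι F)}
    (hT : ∀ i, ∀ v ∈ D i, TS hf M v) {c : Fin t → (ι → F)} (hc : ∀ i, c i ∈ D i)
    (h : TS hf M (∑ j, c j)) {c' : Fin t → (ι → F)} (hc' : ∀ i, c' i ∈ D i) (hcc' : ∀ i, c i ≠ 0 ↔ c' i ≠ 0) :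
    TS hf M (∑ j, c' j) := by
  classical
  have key : ∀ s : Finset (Fin t), TS hf M (∑ j, s.piecewise c' c j) := by
    intro s
    induction s using Finset.induction_on with
    | empty => simpa using h
    | insert a s ha ih =>
      rw [Finset.piecewise_insert]
      by_cases hca : c' a = 0
      · have hca' : c a = 0 := by
          by_contra hne
          exact (hcc' a).1 hne hca
        have : Function.update (s.piecewise c' c) a (c' a) = s.piecewise c' c := by
          rw [hca]
          have h1 : s.piecewise c' c a = 0 := by rw [Finset.piecewise_eq_of_notMem _ _ _ ha]; exact hca'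
          rw [← h1, Function.update_eq_self]
        rw [this]; exact ih
      · refine change_one hf hD hT ?_ ?_ ih (hc' a) hca
        · intro i
          by_cases hi : i ∈ s
          · rw [Finset.piecewise_eq_of_mem _ _ _ hi]; exact hc' i
          · rw [Finset.piecewise_eq_of_notMem _ _ _ hi]; exact hc i
        · rw [Finset.piecewise_eq_of_notMem _ _ _ ha]; exact (hcc' a).2 hca
  have := key Finset.univ
  rwa [Finset.piecewise_univ] at this

lemma SM_of (hf : IsSymplecticForm f) (hD : IsNondegenerateMDecomposition f k D) {M : Subgroup (GL ι F)}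
    (hT : ∀ i, ∀ v ∈ D i, TS hf M v) {c : Fin t → (ι → F)} (hc : ∀ i, c i ∈ D i)
    (h : TS hf M (∑ j, c j)) {S : Finset (Fin t)} (hS : ∀ i, c i ≠ 0 ↔ i ∈ S) : SM hf D M S := by
  intro c' hc' hS'
  exact change hf hD hT hc h hc' fun i => (hS i).trans (hS' i).symm

/-- a hyperbolic pair in each member -/
lemma exists_pair (hf : IsSymplecticForm f) (hD : IsNondegenerateMDecomposition f k D) (i : Fin t) :
    ∃ a ∈ D i, ∃ b ∈ D i, f a b = 1 := by
  refine exists_hyp hf (hD.nondegenerate i) ?_
  intro h
  have h1 := hD.decomp.finrank_eq i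
  have h2 := hD.decomp.pos
  rw [h, finrank_bot] at h1
  omega

/-- an orthogonal pair with non-zero sum -/
lemma exists_orth_pair (hf : IsSymplecticForm f) (hD : IsNondegenerateMDecomposition f k D)
    (hex : ¬ (k = 2 ∧ Fintype.card F = 2)) (i : Fin t) :
    ∃ a ∈ D i, ∃ b ∈ D i, a ≠ 0 ∧ b ≠ 0 ∧ a + b ≠ 0 ∧ f a b = 0 := by
  classical
  obtain ⟨a, ha, b, hb, hab⟩ := exists_pair hf hD i
  have ha0 : a ≠ 0 := by rintro rfl; rw [zero_left hf] at hab; exact zero_ne_one hab
  by_cases hq : Fintype.card F = 2
  · -- then `k ≥ 3`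
    have hk : k ≠ 2 := fun h => hex ⟨h, hq⟩
    obtain ⟨A₁, hA₁, hA₁n, hfr, hA₁p, -⟩ := peel hf (hD.nondegenerate i) ha hb hab
    rw [hD.decomp.finrank_eq i] at hfr
    have hA₁0 : A₁ ≠ ⊥ := by
      intro h
      rw [h, finrank_bot] at hfr
      omega
    obtain ⟨x, hx, hx0⟩ := Submodule.exists_mem_ne_zero_of_ne_bot hA₁0
    refine ⟨a, ha, x, hA₁ hx, ha0, hx0, ?_, ?_⟩
    · intro h
      have h1 : f (a + x) b = 0 := by rw [h, zero_left hf]
      rw [add_left hf, hab, (hA₁p x hx).2] at h1
      simp at h1
    · rw [skew hf, (hA₁p x hx).1, neg_zero]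
  · -- a scalar different from `0` and `-1`
    obtain ⟨c, hc0, hc1⟩ : ∃ c : F, c ≠ 0 ∧ c ≠ -1 := by
      by_contra hcon
      push Not at hcon
      have h1 : (Finset.univ : Finset F) ⊆ {0, -1} := by
        intro c _
        rw [Finset.mem_insert, Finset.mem_singleton]
        by_cases hc : c = 0
        · exact Or.inl hc
        · exact Or.inr (hcon c hc)
      have h2 := Finset.card_le_card h1
      have h3 : ({0, -1} : Finset F).card ≤ 2 := Finset.card_le_two
      rw [Finset.card_univ] at h2
      have h4 := Fintype.one_lt_card (α := F)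
      omega
    refine ⟨a, ha, c • a, (D i).smul_mem _ ha, ha0, smul_ne_zero hc0 ha0, ?_, ?_⟩
    · intro h
      have h1 : (1 + c) • a = 0 := by rw [add_smul, one_smul]; exact h
      rcases smul_eq_zero.1 h1 with h2 | h2
      · exact hc1 (by linear_combination h2)
      · exact ha0 h2
    · rw [smul_right hf, self hf, mul_zero]

lemma SM_closure (hf : IsSymplecticForm f) (hD : IsNondegenerateMDecomposition f k D)
    (hex : ¬ (k = 2 ∧ Fintype.card F = 2)) {M : Subgroup (GL ι F)}
    (hT : ∀ i, ∀ v ∈ D i, TS hf M v) {S S' R : Finset (Fin t)} (hS : SM hf D M S) (hS' : SM hf D M S')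
    {i₀ : Fin t} (hi₀ : i₀ ∈ S) (hi₀' : i₀ ∈ S') (hR : R ⊆ S ∩ S') (hi₀R : i₀ ∉ R) :
    SM hf D M ((S ∪ S') \ R) := by
  classical
  have hchoice : ∀ i, ∃ p : (ι → F) × (ι → F), p.1 ∈ D i ∧ p.2 ∈ D i ∧ (p.1 ≠ 0 ↔ i ∈ S) ∧ (p.2 ≠ 0 ↔ i ∈ S') ∧
      (p.1 + p.2 ≠ 0 ↔ i ∈ (S ∪ S') \ R) ∧ (f p.1 p.2 = if i = i₀ then 1 else 0) := by
    intro i
    obtain ⟨a, ha, b, hb, hab⟩ := exists_pair hf hD i
    have ha0 : a ≠ 0 := by rintro rfl; rw [zero_left hf] at hab; exact zero_ne_one hab
    have hb0 : b ≠ 0 := by rintro rfl; rw [zero_right hf] at hab; exact zero_ne_one hab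
    by_cases hi : i = i₀
    · subst hi
      refine ⟨(a, b), ha, hb, ?_, ?_, ?_, ?_⟩
      · simp [ha0, hi₀]
      · simp [hb0, hi₀']
      · simp only [Finset.mem_sdiff, Finset.mem_union, hi₀, hi₀', hi₀R, or_self, not_false_eq_true, and_self, iff_true]
        intro h
        have h1 : f (a + b) b = 0 := by rw [h, zero_left hf]
        rw [add_left hf, hab, self hf] at h1
        simp at h1
      · simp [hab]
    · by_cases hiS : i ∈ S
      · by_cases hiS' : i ∈ S'
        · by_cases hiR : i ∈ R
          · refine ⟨(a, -a), ha, (D i).neg_mem ha, ?_, ?_, ?_, ?_⟩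
            · simp [ha0, hiS]
            · simp [ha0, hiS']
            · simp [hiR]
            · simp [hi, neg_right hf, self hf]
          · obtain ⟨x, hx, y, hy, hx0, hy0, hxy, hfxy⟩ := exists_orth_pair hf hD hex i
            refine ⟨(x, y), hx, hy, ?_, ?_, ?_, ?_⟩
            · simp [hx0, hiS]
            · simp [hy0, hiS']
            · simp [hiR, hiS, hxy]
            · simp [hi, hfxy]
        · have hiR : i ∉ R := fun h => hiS' (Finset.mem_inter.1 (hR h)).2
          refine ⟨(a, 0), ha, (D i).zero_mem, ?_, ?_, ?_, ?_⟩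
          · simp [ha0, hiS]
          · simp [hiS']
          · simp [hiR, hiS, ha0]
          · simp [hi, zero_right hf]
      · have hiR : i ∉ R := fun h => hiS (Finset.mem_inter.1 (hR h)).1
        by_cases hiS' : i ∈ S'
        · refine ⟨(0, a), (D i).zero_mem, ha, ?_, ?_, ?_, ?_⟩
          · simp [hiS]
          · simp [ha0, hiS']
          · simp [hiR, hiS', ha0]
          · simp [hi, zero_left hf]
        · refine ⟨(0, 0), (D i).zero_mem, (D i).zero_mem, ?_, ?_, ?_, ?_⟩
          · simp [hiS]
          · simp [hiS']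
          · simp [hiS, hiS']
          · simp [hi, zero_left hf]
  choose p hp1 hp2 hpS hpS' hpR hpf using hchoice
  have h1 := hS (fun i => (p i).1) hp1 hpS
  have h2 := hS' (fun i => (p i).2) hp2 hpS'
  have h3 : f (∑ i, (p i).1) (∑ i, (p i).2) ≠ 0 := by
    rw [f_comp hf hD hp1 hp2]
    simp only [hpf]
    simp
  have h4 := h1.add' h2 h3
  rw [← Finset.sum_add_distrib] at h4
  exact SM_of hf hD hT (c := fun i => (p i).1 + (p i).2) (fun i => (D i).add_mem (hp1 i) (hp2 i)) h4 hpR

theorem main (hf : IsSymplecticForm f) (hD : IsNondegenerateMDecomposition f k D)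
    (hex : ¬ (k = 2 ∧ Fintype.card F = 2)) : IsMaximalIn (isoGL f) (decompositionStabilizer D ⊓ isoGL f) := by
  classical
  -- transvections with centres in the members lie in `H`
  have hstab : ∀ i, ∀ v ∈ D i, ∀ c, tr hf v c ∈ decompositionStabilizer D ⊓ isoGL f := by
    intro i v hv c
    refine ⟨⟨1, fun j => ?_⟩, tr_mem_iso hf v c⟩
    rw [Equiv.Perm.one_apply]
    have hle : (D j).map (Matrix.toLin' (tr hf v c : Matrix ι ι F)) ≤ D j := by
      rintro _ ⟨w, hw, rfl⟩
      rw [Matrix.toLin'_apply, tr_mulVec]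
      by_cases hij : j = i
      · subst hij; exact (D j).add_mem hw ((D j).smul_mem _ hv)
      · rw [hD.orthogonal j i hij w hw v hv]; simpa using hw
    refine Submodule.eq_of_le_of_finrank_eq hle ?_
    have hinj : Function.Injective (Matrix.toLin' (tr hf v c : Matrix ι ι F)) := by
      intro x y h
      exact gl_mulVec_injective (tr hf v c) (by simpa using h)
    exact (Submodule.equivMapOfInjective _ hinj (D j)).finrank_eq.symm
  have hne : ∀ i, ∃ v ∈ D i, v ≠ 0 := by
    intro i
    obtain ⟨a, ha, b, hb, hab⟩ := exists_pair hf hD i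
    exact ⟨a, ha, by rintro rfl; rw [zero_left hf] at hab; exact zero_ne_one hab⟩
  have ht2 := hD.decomp.two_le
  have hdisj : ∀ i j, i ≠ j → ∀ x, x ∈ D i → x ∈ D j → x = 0 := by
    intro i j hij x hxi hxj
    by_contra hx0
    obtain ⟨-, z, hz, hxz⟩ := hD.nondegenerate i x hxi hx0
    exact hxz (hD.orthogonal j i hij.symm x hxj z hz)
  constructor
  · refine lt_of_le_of_ne inf_le_right ?_
    intro heq
    let i0 : Fin t := ⟨0, by omega⟩
    let i1 : Fin t := ⟨1, by omega⟩
    have h01 : i0 ≠ i1 := by simp [i0, i1]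
    obtain ⟨a, ha, b, hb, hab⟩ := exists_pair hf hD i0
    obtain ⟨x, hx, y, hy, hxy⟩ := exists_pair hf hD i1
    have hmem : tr hf (a + x) 1 ∈ decompositionStabilizer D ⊓ isoGL f := by
      rw [heq]; exact tr_mem_iso hf _ _
    obtain ⟨⟨σ, hσ⟩, -⟩ := hmem
    have h1 := (stab_mem hσ (i := i0) (w := b)).2 hb
    rw [tr_mulVec, one_mul, add_right hf, skew hf b a, hab, hD.orthogonal i0 i1 h01 b hb x hx, add_zero] at h1
    -- `b - (a + x)` pairs non-trivially with `a ∈ D i0` and `y ∈ D i1`
    obtain ⟨j, hj, hjne⟩ : ∃ j, (j = i0 ∨ j = i1) ∧ j ≠ σ i0 := by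
      by_cases h : i0 = σ i0
      · exact ⟨i1, Or.inr rfl, by rw [← h]; exact h01.symm⟩
      · exact ⟨i0, Or.inl rfl, h⟩
    rcases hj with rfl | rfl
    · have h2 := hD.orthogonal _ _ hjne.symm _ h1 a ha
      rw [add_left hf, smul_left hf, add_left hf, self hf, skew hf b a, hab,
        hD.orthogonal i1 i0 h01.symm x hx a ha] at h2
      simp at h2
    · have h2 := hD.orthogonal _ _ hjne.symm _ h1 y hy
      rw [add_left hf, smul_left hf, add_left hf, hD.orthogonal i0 i1 h01 b hb y hy,
        hD.orthogonal i0 i1 h01 a ha y hy, hxy] at h2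
      simp at h2
  · intro M hHM hMI
    by_cases hMH : M = decompositionStabilizer D ⊓ isoGL f
    · exact Or.inl hMH
    right
    refine le_antisymm hMI ?_
    have hT : ∀ i, ∀ v ∈ D i, TS hf M v := fun i v hv c => hHM (hstab i v hv c)
    obtain ⟨g, hgM, hg⟩ : ∃ g ∈ M, g ∉ decompositionStabilizer D := by
      by_contra hcon
      push Not at hcon
      exact hMH (le_antisymm (fun g hg => ⟨hcon g hg, hMI hg⟩) hHM)
    have hgI := hMI hgM
    have hginj : Function.Injective (Matrix.toLin' (g : Matrix ι ι F)) := by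
      intro x y h
      exact gl_mulVec_injective g (by simpa using h)
    -- some member is not mapped to a member
    obtain ⟨i, hi⟩ : ∃ i, ∀ j, (D i).map (Matrix.toLin' (g : Matrix ι ι F)) ≠ D j := by
      by_contra hcon
      push Not at hcon
      choose τ hτ using hcon
      apply hg
      have hτinj : Function.Injective τ := by
        intro i j hij
        by_contra hne'
        have h1 : (D i).map (Matrix.toLin' (g : Matrix ι ι F)) = (D j).map (Matrix.toLin' (g : Matrix ι ι F)) := by
          rw [hτ, hτ, hij]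
        have h2 := Submodule.map_injective_of_injective hginj h1
        obtain ⟨v, hv, hv0⟩ := hne i
        exact hv0 (hdisj i j hne' v hv (h2 ▸ hv))
      refine ⟨Equiv.ofBijective τ (Finite.injective_iff_bijective.1 hτinj), fun i => hτ i⟩
    -- a vector of `g D i` with at least two components
    obtain ⟨c, hc, hcT, i₀, j₀, hi₀, hj₀, hij₀⟩ : ∃ c : Fin t → (ι → F), (∀ i, c i ∈ D i) ∧ TS hf M (∑ i, c i) ∧
        ∃ i₀ j₀, c i₀ ≠ 0 ∧ c j₀ ≠ 0 ∧ i₀ ≠ j₀ := by
      by_contra hcon
      push Not at hcon
      obtain ⟨v, hv, hv0⟩ := hne i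
      have hall : ∀ w ∈ D i, ∀ c : Fin t → (ι → F), (∀ i, c i ∈ D i) → (g : Matrix ι ι F) *ᵥ w = ∑ i, c i →
          ∀ i₀ j₀, c i₀ ≠ 0 → c j₀ ≠ 0 → i₀ = j₀ := by
        intro w hw c hc hwc i₀ j₀ hi₀ hj₀
        refine hcon c hc ?_ i₀ j₀ hi₀ hj₀
        rw [← hwc]
        exact (hT i w hw).conj hgI hgM
      obtain ⟨c, hc, hvc⟩ := exists_comp hD.decomp ((g : Matrix ι ι F) *ᵥ v)
      obtain ⟨j, hj⟩ : ∃ j, c j ≠ 0 := by
        by_contra hcon'
        push Not at hcon'
        rw [Finset.sum_eq_zero fun i _ => hcon' i] at hvc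
        exact hv0 (gl_mulVec_injective g (by simpa using hvc))
      apply hi j
      have hle : (D i).map (Matrix.toLin' (g : Matrix ι ι F)) ≤ D j := by
        rintro _ ⟨w, hw, rfl⟩
        rw [Matrix.toLin'_apply]
        obtain ⟨d, hd, hwd⟩ := exists_comp hD.decomp ((g : Matrix ι ι F) *ᵥ w)
        have hd' : ∀ l, l ≠ j → d l = 0 := by
          intro l hl
          by_contra hdl
          -- look at `v + w`
          have h1 := hall w hw d hd hwd
          have hcl : ∀ l, l ≠ j → c l = 0 := by
            intro l hl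
            by_contra hcl
            exact hl (hall v hv c hc hvc l j hcl hj)
          have hdj : d j = 0 := by
            by_contra hdj
            exact hl (h1 l j hdl hdj)
          have h2 := hall (v + w) ((D i).add_mem hv hw) (fun i => c i + d i) (fun i => (D i).add_mem (hc i) (hd i))
            (by rw [Matrix.mulVec_add, hvc, hwd, Finset.sum_add_distrib]) l j
            (by rw [hcl l hl, zero_add]; exact hdl) (by rw [hdj, add_zero]; exact hj)
          exact hl h2
        rw [hwd, Finset.sum_eq_single j]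
        · exact hd j
        · intro l _ hl; exact hd' l hl
        · simp
      refine Submodule.eq_of_le_of_finrank_eq hle ?_
      rw [hD.decomp.finrank_eq j, ← hD.decomp.finrank_eq i]
      exact (Submodule.equivMapOfInjective _ hginj (D i)).finrank_eq.symm
    -- support
    have hS₀ : SM hf D M (Finset.univ.filter fun i => c i ≠ 0) :=
      SM_of hf hD hT hc hcT (by intro i; simp)
    have hpair₀ : SM hf D M {i₀, j₀} := by
      have := SM_closure hf hD hex hT (i₀ := i₀) (R := (Finset.univ.filter fun i => c i ≠ 0) \ {i₀, j₀}) hS₀ hS₀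
        (by simp [hi₀]) (by simp [hi₀]) (by rw [Finset.inter_self]; exact Finset.sdiff_subset) (by simp)
      convert this using 1
      ext i
      simp only [Finset.mem_insert, Finset.mem_singleton, Finset.mem_sdiff, Finset.mem_union, Finset.mem_filter,
        Finset.mem_univ, true_and, or_self, not_and, not_not]
      constructor
      · rintro (rfl | rfl)
        · exact ⟨hi₀, fun _ => Or.inl rfl⟩
        · exact ⟨hj₀, fun _ => Or.inr rfl⟩
      · rintro ⟨h1, h2⟩; exact h2 h1
    have hpair : ∀ j, j ≠ i₀ → SM hf D M {i₀, j} := by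
      intro j hj
      by_cases hjj : j = j₀
      · rw [hjj]; exact hpair₀
      obtain ⟨s, hsI, hsA, hsB, hs⟩ := exists_swap hf k (D j₀) (D j) (hD.decomp.finrank_eq _) (hD.decomp.finrank_eq _)
        (hD.nondegenerate _) (hD.nondegenerate _) (hD.orthogonal j₀ j (Ne.symm hjj))
      have hfix : ∀ l, l ≠ j₀ → l ≠ j → ∀ x ∈ D l, (s : Matrix ι ι F) *ᵥ x = x := fun l h1 h2 x hx =>
        hs x (hD.orthogonal l j₀ h1 x hx) (hD.orthogonal l j h2 x hx)
      have hsinj : Function.Injective (Matrix.toLin' (s : Matrix ι ι F)) := by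
        intro x y h
        exact gl_mulVec_injective s (by simpa using h)
      have hsH : s ∈ decompositionStabilizer D := by
        refine ⟨Equiv.swap j₀ j, fun l => ?_⟩
        have hle : (D l).map (Matrix.toLin' (s : Matrix ι ι F)) ≤ D (Equiv.swap j₀ j l) := by
          rintro _ ⟨w, hw, rfl⟩
          rw [Matrix.toLin'_apply]
          by_cases h1 : l = j₀
          · subst h1; rw [Equiv.swap_apply_left]; exact hsA w hw
          · by_cases h2 : l = j
            · subst h2; rw [Equiv.swap_apply_right]; exact hsB w hw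
            · rw [Equiv.swap_apply_of_ne_of_ne h1 h2, hfix l h1 h2 w hw]; exact hw
        refine Submodule.eq_of_le_of_finrank_eq hle ?_
        rw [hD.decomp.finrank_eq, ← hD.decomp.finrank_eq l]
        exact (Submodule.equivMapOfInjective _ hsinj (D l)).finrank_eq.symm
      have hsM : s ∈ M := hHM ⟨hsH, hsI⟩
      -- apply `s` to `a + b` with `a ∈ D i₀`, `b ∈ D j₀`
      obtain ⟨a, ha, ha0⟩ := hne i₀
      obtain ⟨b, hb, hb0⟩ := hne j₀
      let e : Fin t → (ι → F) := fun l => if l = i₀ then a else if l = j₀ then b else 0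
      have he : ∀ l, e l ∈ D l := by
        intro l
        simp only [e]
        split_ifs with h1 h2
        · rw [h1]; exact ha
        · rw [h2]; exact hb
        · exact (D l).zero_mem
      have heS : ∀ l, e l ≠ 0 ↔ l ∈ ({i₀, j₀} : Finset (Fin t)) := by
        intro l
        simp only [e, Finset.mem_insert, Finset.mem_singleton]
        split_ifs with h1 h2
        · simp [h1, ha0]
        · simp [h2, hb0]
        · simp [h1, h2]
      have hsum : ∑ l, e l = a + b := by
        rw [Finset.sum_eq_add i₀ j₀ hij₀]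
        · simp [e, hij₀.symm]
        · intro l _ hl; simp [e, hl.1, hl.2]
        · simp
        · simp
      have h1 := hpair₀ e he heS
      rw [hsum] at h1
      have h2 := h1.conj hsI hsM
      rw [Matrix.mulVec_add, hfix i₀ hij₀ hj.symm a ha] at h2
      let e' : Fin t → (ι → F) := fun l => if l = i₀ then a else if l = j then (s : Matrix ι ι F) *ᵥ b else 0
      have he' : ∀ l, e' l ∈ D l := by
        intro l
        simp only [e']
        split_ifs with h1 h2
        · rw [h1]; exact ha
        · rw [h2]; exact hsA b hb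
        · exact (D l).zero_mem
      have hsb0 : (s : Matrix ι ι F) *ᵥ b ≠ 0 := by
        intro h
        exact hb0 (gl_mulVec_injective s (by simpa using h))
      have heS' : ∀ l, e' l ≠ 0 ↔ l ∈ ({i₀, j} : Finset (Fin t)) := by
        intro l
        simp only [e', Finset.mem_insert, Finset.mem_singleton]
        split_ifs with h1 h2
        · simp [h1, ha0]
        · simp [h2, hsb0]
        · simp [h1, h2]
      have hsum' : ∑ l, e' l = a + (s : Matrix ι ι F) *ᵥ b := by
        rw [Finset.sum_eq_add i₀ j hj.symm]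
        · simp [e', hj]
        · intro l _ hl; simp [e', hl.1, hl.2]
        · simp
        · simp
      exact SM_of hf hD hT he' (by rw [hsum']; exact h2) heS'
    -- all supports
    have hsing : ∀ i, SM hf D M {i} := by
      intro i c hc hcS
      have : ∑ j, c j = c i := by
        rw [Finset.sum_eq_single i]
        · intro j _ hj
          by_contra hne'
          have := (hcS j).1 hne'
          rw [Finset.mem_singleton] at this
          exact hj this
        · simp
      rw [this]; exact hT i _ (hc i)
    have hins : ∀ S : Finset (Fin t), i₀ ∉ S → SM hf D M (insert i₀ S) := by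
      intro S
      induction S using Finset.induction_on with
      | empty => intro _; simpa using hsing i₀
      | insert j S hjS ih =>
        intro hi
        rw [Finset.mem_insert, not_or] at hi
        have h1 := ih hi.2
        have h2 := SM_closure hf hD hex hT (i₀ := i₀) (R := ∅) h1 (hpair j (Ne.symm hi.1)) (by simp) (by simp) (by simp)
          (by simp)
        convert h2 using 1
        ext l
        simp only [Finset.mem_insert, Finset.mem_union, Finset.mem_sdiff, Finset.mem_singleton, Finset.notMem_empty,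
          not_false_eq_true, and_true]
        tauto
    have hall : ∀ S : Finset (Fin t), S.Nonempty → SM hf D M S := by
      intro S hS
      by_cases hi : i₀ ∈ S
      · have := hins (S.erase i₀) (by simp)
        rwa [Finset.insert_erase hi] at this
      · obtain ⟨i₁, hi₁⟩ := hS
        have hne' : i₁ ≠ i₀ := by rintro rfl; exact hi hi₁
        have h1 := hins S hi
        have h2 := SM_closure hf hD hex hT (i₀ := i₁) (R := {i₀}) h1 (hpair i₁ hne') (by simp [hi₁]) (by simp)
          (by simp) (by simp [hne'])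
        convert h2 using 1
        ext l
        simp only [Finset.mem_insert, Finset.mem_union, Finset.mem_sdiff, Finset.mem_singleton]
        constructor
        · intro h
          refine ⟨Or.inl (Or.inr h), ?_⟩
          rintro rfl; exact hi h
        · rintro ⟨(h | h) | (h | h), h'⟩
          · exact absurd h h'
          · exact h
          · exact absurd h h'
          · rw [h]; exact hi₁
    refine iso_le_of_TS hf M fun v => ?_
    obtain ⟨c, hc, rfl⟩ := exists_comp hD.decomp v
    by_cases h0 : ∀ i, c i = 0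
    · rw [Finset.sum_eq_zero fun i _ => h0 i]; exact TS.zero hf M
    · push Not at h0
      obtain ⟨i, hi⟩ := h0
      exact hall (Finset.univ.filter fun i => c i ≠ 0) ⟨i, by simp [hi]⟩ c hc (by intro i; simp)

/-- For a finite field F with q elements and m ≥ 7, let D be a decomposition of F^(2m) into t ≥ 2 pairwise orthogonal subspaces of equal dimension k on each of which the standard alternating form is non-degenerate, spanning F^(2m). Unless k = 2 and q = 2, the elements of Sp_2m(F) permuting the members of D form a maximal subgroup of Sp_2m(F). -/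
theorem result {F : Type*} [Field F] [Fintype F] (m : ℕ) (hm : 7 ≤ m) {t : ℕ} (k : ℕ) (D : Fin t → Submodule F (Fin m ⊕ Fin m → F)) (hD : Cfsg.Geo.IsNondegenerateMDecomposition (Cfsg.sympForm m F) k D) (hex : ¬ (k = 2 ∧ Fintype.card F = 2)) : Cfsg.Geo.IsMaximalIn (Cfsg.spGL m F) (Cfsg.Geo.decompositionStabilizer D ⊓ Cfsg.spGL m F) := by
  exact main (Symp.std m F) hD hex

end Cfsg.Agent.S5647
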