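import Cfsg.Statements.S5648
import Cfsg.Agent.GeoMax.Decomp

set_option autoImplicit false
open Cfsg

namespace Cfsg.Agent.S5648

open Matrix Cfsg.Geo Cfsg.Agent.GeoMax Cfsg.Agent.GeoMax.Symp Cfsg.Agent.GeoMax.SDec
open scoped MatrixGroups

variable {ι : Type} [Fintype ι] [DecidableEq ι] {F : Type*} [Field F] [Fintype F]
variable {f : (ι → F) → (ι → F) → F} {t : ℕ} {D : Fin t → Submodule F (ι → F)}

lemma plane_one (hf : IsSymplecticForm f) (hD : IsNondegenerateMDecomposition f 2 D) (hq : Fintype.card F = 2)
    {i : Fin t} {a b : ι → F} (ha : a ∈ D i) (hb : b ∈ D i) (ha0 : a ≠ 0) (hb0 : b ≠ 0) (hab : a ≠ b) :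
    f a b = 1 := by
  rcases eq_zero_or_one_of_card_two hq (f a b) with h | h
  swap
  · exact h
  exfalso
  have hli : LinearIndependent F ![a, b] := by
    rw [LinearIndependent.pair_iff]
    intro s r hsr
    rcases eq_zero_or_one_of_card_two hq s with hs | hs <;> rcases eq_zero_or_one_of_card_two hq r with hr | hr
    · exact ⟨hs, hr⟩
    · rw [hs, hr] at hsr; simp at hsr; exact absurd hsr hb0
    · rw [hs, hr] at hsr; simp at hsr; exact absurd hsr ha0
    · rw [hs, hr] at hsr
      simp only [one_smul] at hsr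
      have h2 := two_eq_zero_of_card_two hq
      exact absurd (by
        have h3 : a + b - (2 : F) • b = a - b := by module
        rw [hsr, h2, zero_smul, sub_zero] at h3
        exact (sub_eq_zero.1 h3.symm)) hab
  have hspan : D i = Submodule.span F (Set.range ![a, b]) := by
    symm
    apply Submodule.eq_of_le_of_finrank_eq
    · rw [Submodule.span_le]
      rintro _ ⟨j, rfl⟩
      fin_cases j
      · exact ha
      · exact hb
    · rw [finrank_span_eq_card hli, hD.decomp.finrank_eq]; rfl
  obtain ⟨-, w, hw, haw⟩ := hD.nondegenerate i a ha ha0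
  rw [hspan] at hw
  have hw' : w ∈ Submodule.span F ({a, b} : Set (ι → F)) := by
    convert hw using 2
    ext x; simp [or_comm, eq_comm]
  obtain ⟨s, r, rfl⟩ := Submodule.mem_span_pair.1 hw'
  rw [add_right hf, smul_right hf, smul_right hf, self hf, h] at haw
  simp at haw

lemma wtQ_quad (hf : IsSymplecticForm f) (hD : IsNondegenerateMDecomposition f 2 D) (hq : Fintype.card F = 2) :
    IsNondegenerateQuadraticForm (wtQ f D) ∧ ∀ u v, QuadraticMap.polar (wtQ f D) u v = f u v := by
  classical
  have hpol : ∀ u v, QuadraticMap.polar (wtQ f D) u v = f u v := by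
    intro u v
    obtain ⟨c, hc, rfl⟩ := exists_comp hD.decomp u
    obtain ⟨d, hd, rfl⟩ := exists_comp hD.decomp v
    rw [QuadraticMap.polar, ← Finset.sum_add_distrib, wtQ_sum hf hD hc, wtQ_sum hf hD hd,
      wtQ_sum hf hD (c := fun i => c i + d i) (fun i => (D i).add_mem (hc i) (hd i)), f_comp hf hD hc hd,
      ← Finset.sum_sub_distrib, ← Finset.sum_sub_distrib]
    refine Finset.sum_congr rfl fun i _ => ?_
    have h2 := two_eq_zero_of_card_two hq
    by_cases hci : c i = 0
    · rw [hci, zero_left hf, zero_add]; split_ifs <;> simp_all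
    by_cases hdi : d i = 0
    · rw [hdi, zero_right hf, add_zero]; split_ifs <;> simp_all
    by_cases hcd : c i = d i
    · have : c i + d i = 0 := by
        rw [← hcd]
        have : c i + c i = (2 : F) • c i := by module
        rw [this, h2, zero_smul]
      rw [if_pos this, if_neg hci, if_neg hdi, hcd, self hf]
      linear_combination -h2
    · have : c i + d i ≠ 0 := by
        intro h
        apply hcd
        have h3 : c i - d i = (c i + d i) - (2 : F) • d i := by module
        rw [h, h2, zero_smul, sub_zero] at h3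
        exact sub_eq_zero.1 h3
      rw [if_neg this, if_neg hci, if_neg hdi, plane_one hf hD hq (hc i) (hd i) hci hdi hcd]
      linear_combination -h2
  refine ⟨⟨?_, ?_, ?_⟩, hpol⟩
  · intro c v
    rcases eq_zero_or_one_of_card_two hq c with h | h
    · rw [h, zero_smul, wtQ_zero hf]; ring
    · rw [h, one_smul]; ring
  · have : QuadraticMap.polar (wtQ f D) = f := funext fun u => funext fun v => hpol u v
    rw [this]; exact hf.bilinear
  · have : QuadraticMap.polar (wtQ f D) = f := funext fun u => funext fun v => hpol u v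
    rw [this]; exact hf.nondegenerate

theorem not_maximal (hf : IsSymplecticForm f) (hD : IsNondegenerateMDecomposition f 2 D) (hq : Fintype.card F = 2)
    (h5 : 5 ≤ Fintype.card ι) :
    decompositionStabilizer D ⊓ isoGL f < quadSimilarityGroup (wtQ f D) ⊓ isoGL f ∧
      quadSimilarityGroup (wtQ f D) ⊓ isoGL f < isoGL f := by
  classical
  obtain ⟨hQ, hpol⟩ := wtQ_quad hf hD hq
  have h2 := two_eq_zero_of_card_two hq
  have hmax := QEven.maximal hf hQ hpol h2 h5
  refine ⟨?_, hmax.1⟩
  have hne : ∃ v : ι → F, v ≠ 0 := by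
    have : Nonempty ι := Fintype.card_pos_iff.1 (by omega)
    exact ⟨Pi.single (Classical.arbitrary ι) 1, by simp⟩
  have ht : 3 ≤ t := by
    have := card_le hD.decomp
    omega
  rw [SetLike.lt_iff_le_and_exists]
  constructor
  · rintro g ⟨hg, hgI⟩
    exact ⟨(QEven.sim_iff hf hQ hpol h2 hgI hne).2 (wtQ_stab hf hg hgI), hgI⟩
  · -- vectors
    have hv : ∀ i, ∃ v ∈ D i, v ≠ 0 := by
      intro i
      apply Submodule.exists_mem_ne_zero_of_ne_bot
      intro h
      have := hD.decomp.finrank_eq i
      rw [h, finrank_bot] at this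
      omega
    choose v hvD hv0 using hv
    let i0 : Fin t := ⟨0, by omega⟩
    let i1 : Fin t := ⟨1, by omega⟩
    let i2 : Fin t := ⟨2, by omega⟩
    let c : Fin t → (ι → F) := fun i => if i = i0 ∨ i = i1 ∨ i = i2 then v i else 0
    have hc : ∀ i, c i ∈ D i := by
      intro i
      simp only [c]
      split_ifs
      · exact hvD i
      · exact (D i).zero_mem
    have hQc : wtQ f D (∑ i, c i) = 1 := by
      rw [wtQ_sum hf hD hc]
      have : ∀ i, (if c i = 0 then (0 : F) else 1) = if i ∈ ({i0, i1, i2} : Finset (Fin t)) then 1 else 0 := by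
        intro i
        simp only [c, Finset.mem_insert, Finset.mem_singleton]
        by_cases h : i = i0 ∨ i = i1 ∨ i = i2
        · simp [h, hv0]
        · simp [h]
      simp only [this]
      rw [Finset.sum_ite_mem, Finset.univ_inter, Finset.sum_const, Finset.card_insert_of_notMem,
        Finset.card_insert_of_notMem, Finset.card_singleton]
      · simp only [nsmul_eq_mul]; push_cast; linear_combination h2
      · simp [i1, i2]
      · simp [i0, i1, i2]
    refine ⟨tr hf (∑ i, c i) (wtQ f D (∑ i, c i))⁻¹, ⟨(QEven.sim_iff hf hQ hpol h2 (tr_mem_iso hf _ _) hne).2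
      fun x => QEven.tr_preserves hf hQ hpol (by rw [hQc]; exact one_ne_zero) x h2, tr_mem_iso hf _ _⟩, ?_⟩
    rintro ⟨⟨σ, hσ⟩, -⟩
    obtain ⟨-, w, hw, hvw⟩ := hD.nondegenerate i0 (v i0) (hvD i0) (hv0 i0)
    have hc0 : c i0 = v i0 := by simp [c]
    have hc1 : c i1 = v i1 := by simp [c]
    have hc2 : c i2 = v i2 := by simp [c]
    have hmem := (stab_mem hσ (i := i0) (w := w)).2 hw
    rw [tr_mulVec, hQc, inv_one, one_mul, skew hf, f_comp_left hf hD hc hw, hc0] at hmem
    have h1 : f (v i0) w = 1 := (eq_zero_or_one_of_card_two hq _).resolve_left hvw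
    rw [h1] at hmem
    -- the vector `w - ∑ c` has components at `i1` and `i2`
    obtain ⟨j, hj, hjne⟩ : ∃ j, (j = i1 ∨ j = i2) ∧ j ≠ σ i0 := by
      by_cases h : i1 = σ i0
      · refine ⟨i2, Or.inr rfl, ?_⟩
        rw [← h]; simp [i1, i2]
      · exact ⟨i1, Or.inl rfl, h⟩
    have hj0 : j ≠ i0 := by rcases hj with rfl | rfl <;> simp [i0, i1, i2]
    have hcj : c j = v j := by rcases hj with rfl | rfl <;> assumption
    obtain ⟨-, z, hz, hvz⟩ := hD.nondegenerate j (v j) (hvD j) (hv0 j)
    have h3 := hD.orthogonal _ _ hjne.symm _ hmem _ hz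
    rw [add_left hf, smul_left hf, f_comp_left hf hD hc hz, hcj,
      hD.orthogonal i0 j hj0.symm w hw z hz] at h3
    apply hvz
    linear_combination -h3

/-- Over the field with 2 elements and for m ≥ 7, let D be a decomposition of F^(2m) into t pairwise orthogonal non-degenerate 2-dimensional subspaces for the standard alternating form (t = m ≥ 2). Then the elements of Sp_2m(2) permuting the members of D form a subgroup that is not maximal: some subgroup lies strictly between it and Sp_2m(2). -/
theorem result {F : Type*} [Field F] [Fintype F] (m : ℕ) (hm : 7 ≤ m) (hq : Fintype.card F = 2) {t : ℕ} (D : Fin t → Submodule F (Fin m ⊕ Fin m → F)) (hD : Cfsg.Geo.IsNondegenerateMDecomposition (Cfsg.sympForm m F) 2 D) : ∃ K : Subgroup (Matrix.GeneralLinearGroup (Fin m ⊕ Fin m) F), Cfsg.Geo.decompositionStabilizer D ⊓ Cfsg.spGL m F < K ∧ K < Cfsg.spGL m F := by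
  obtain ⟨h1, h2⟩ := not_maximal (Symp.std m F) hD hq (by rw [Fintype.card_sum, Fintype.card_fin]; omega)
  exact ⟨_, h1, h2⟩

end Cfsg.Agent.S5648
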