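import Cfsg.Statements.S5650
import Cfsg.Agent.GeoMax.SubSpFin
import Cfsg.Agent.GeoMax.Transport

set_option autoImplicit false
open Cfsg

namespace Cfsg.Agent.S5650

open Matrix
open scoped MatrixGroups
open Cfsg.Geo Cfsg.Agent.GeoMax Cfsg.Agent.GeoMax.Symp

section
variable {ι : Type} [Fintype ι] [DecidableEq ι] {F : Type*} [Field F]
variable {f : (ι → F) → (ι → F) → F}

/-- membership in the subfield group for `P = 1` -/
lemma normV_of_mem {F₀ : Subfield F} {A : GL ι F}
    (hA : A ∈ (Matrix.GeneralLinearGroup.map (F₀.subtype : F₀ →+* F)).range ⊔ scalars ι F) : NormV F₀ A := by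
  obtain ⟨a, ⟨B, rfl⟩, c, hc, rfl⟩ := Subgroup.mem_sup_of_normal_right.1 hA
  obtain ⟨l, hl⟩ := (mem_scalars_iff _).1 hc
  refine ⟨l, l.ne_zero, fun y => ⟨(B : Matrix ι ι F₀) *ᵥ y, ?_⟩⟩
  rw [Units.val_mul, hl, Matrix.mul_smul, Matrix.mul_one, Matrix.smul_mulVec]
  congr 1
  ext i
  simp [Matrix.mulVec, dotProduct, emb]

lemma mem_of_normV {F₀ : Subfield F} {A : GL ι F} (hA : NormV F₀ A) :
    A ∈ (Matrix.GeneralLinearGroup.map (F₀.subtype : F₀ →+* F)).range ⊔ scalars ι F := by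
  obtain ⟨l, hl, h⟩ := hA
  choose φ hφ using fun j : ι => h (Pi.single j 1)
  -- the matrix over the subfield
  set B : Matrix ι ι F₀ := fun i j => φ j i with hB
  have hmat : (A : Matrix ι ι F) = l • B.map (F₀.subtype : F₀ →+* F) := by
    ext i j
    have := congrFun (hφ j) i
    rw [emb_single, Matrix.mulVec_single_one] at this
    exact this
  have hdet : B.det ≠ 0 := by
    intro h0
    have h1 : (A : Matrix ι ι F).det ≠ 0 := A.isUnit.map Matrix.detMonoidHom |>.ne_zero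
    apply h1
    rw [hmat, Matrix.det_smul]
    have : (B.map (F₀.subtype : F₀ →+* F)).det = F₀.subtype B.det := (RingHom.map_det _ _).symm
    rw [this, h0, map_zero, mul_zero]
  set B' : GL ι F₀ := Matrix.GeneralLinearGroup.mkOfDetNeZero B hdet with hB'
  rw [Subgroup.mem_sup_of_normal_right]
  refine ⟨Matrix.GeneralLinearGroup.map (F₀.subtype : F₀ →+* F) B', ⟨B', rfl⟩,
    Units.map (Matrix.scalar ι : F →+* Matrix ι ι F).toMonoidHom (Units.mk0 l hl), ⟨_, rfl⟩, ?_⟩
  apply Units.ext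
  rw [Units.val_mul, hmat]
  ext i j
  simp [hB', Matrix.GeneralLinearGroup.mkOfDetNeZero, mul_comm]

/-- maximality for a form which is rational over the subfield -/
theorem maximal_rational [Fintype F] (hf : IsSymplecticForm f) {F₀ : Subfield F} (hF : Rational F₀ f)
    (hι : 10 < Fintype.card ι) {r : ℕ} (hr : r.Prime) (hcard : Fintype.card F = Nat.card F₀ ^ r) :
    IsMaximalIn (isoGL f) (((Matrix.GeneralLinearGroup.map (F₀.subtype : F₀ →+* F)).range ⊔ scalars ι F) ⊓ isoGL f) := by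
  have hne : Nonempty ι := Fintype.card_pos_iff.1 (by omega)
  have hH : ∀ (v : ι → F₀) (a : F₀), tr hf (emb F₀ v) a ∈
      ((Matrix.GeneralLinearGroup.map (F₀.subtype : F₀ →+* F)).range ⊔ scalars ι F) ⊓ isoGL f := by
    intro v a
    refine ⟨mem_of_normV ⟨1, one_ne_zero, fun y => ?_⟩, tr_mem_iso hf _ _⟩
    obtain ⟨y₁, h1⟩ := ratM_tr hf hF v a y
    exact ⟨y₁, by rw [h1, one_smul]⟩
  have hfin := finrank_eq_of_card hcard
  constructor
  · refine lt_of_le_of_ne inf_le_right ?_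
    intro heq
    obtain ⟨c, hc⟩ : ∃ c : F, c ∉ F₀ := by
      by_contra hcon
      push Not at hcon
      have h1 : Function.Surjective (algebraMap F₀ F) := fun c => ⟨⟨c, hcon c⟩, rfl⟩
      have h2 : Module.finrank F₀ F = 1 := by
        rw [finrank_eq_one_iff']
        exact ⟨1, one_ne_zero, fun w => ⟨⟨w, hcon w⟩, by rw [Subfield.smul_def]; simp⟩⟩
      rw [h2] at hfin
      exact hr.one_lt.ne hfin
    obtain ⟨e, e', hee, -, -⟩ := exists_hyp_rat hf hF [] (by simp; omega)
    have hmem : tr hf (emb F₀ e) c ∈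
        ((Matrix.GeneralLinearGroup.map (F₀.subtype : F₀ →+* F)).range ⊔ scalars ι F) ⊓ isoGL f := by
      rw [heq]; exact tr_mem_iso hf _ _
    obtain ⟨l, hl, hn⟩ := normV_of_mem hmem.1
    obtain ⟨y₁, h1⟩ := hn e
    obtain ⟨y₂, h2⟩ := hn e'
    rw [tr_mulVec, self hf, mul_zero, zero_smul, add_zero] at h1
    rw [tr_mulVec, skew hf, hee] at h2
    -- `f e e' = 1 = l f y₁ e'`, hence `l ∈ F₀`
    have h3 : l * f (emb F₀ y₁) (emb F₀ e') = 1 := by rw [← smul_left hf, ← h1, hee]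
    have h4 : f (emb F₀ y₁) (emb F₀ e') ≠ 0 := by
      intro h; rw [h, mul_zero] at h3; exact zero_ne_one h3
    have h5 : l ∈ F₀ := by
      rw [eq_inv_of_mul_eq_one_left h3]
      exact F₀.inv_mem (f_emb_mem hF _ _)
    -- apply `f · e'`
    have h6 := congrArg (fun v => f v (emb F₀ e')) h2
    simp only [add_left hf, smul_left hf, self hf, hee] at h6
    apply hc
    have h7 : c = -(l * f (emb F₀ y₂) (emb F₀ e')) := by linear_combination -h6
    rw [h7]
    exact F₀.neg_mem (F₀.mul_mem h5 (f_emb_mem hF _ _))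
  · intro M hHM hMI
    have hR : RatTr hf F₀ M := fun v a => hHM (hH v a)
    rcases D_cases hF (by omega) hMI hR hr hcard with hD | hD
    · right
      exact le_antisymm hMI (iso_le_of_D_all hF (by omega) hMI hR hD)
    · left
      refine le_antisymm (fun g hg => ⟨mem_of_normV ?_, hMI hg⟩) hHM
      exact le_normV hF hι hMI hR hD hr hfin hg

end

lemma conj_form {ι : Type} [Fintype ι] [DecidableEq ι] {F : Type*} [Field F] {f : (ι → F) → (ι → F) → F}
    (hf : IsSymplecticForm f) (P : GL ι F) {ζ : F} (hζ : ζ ≠ 0) :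
    IsSymplecticForm (fun u v => ζ * f ((P : Matrix ι ι F) *ᵥ u) ((P : Matrix ι ι F) *ᵥ v)) where
  bilinear :=
    { add_left := fun x y v => by rw [Matrix.mulVec_add, add_left hf, mul_add]
      smul_left := fun c x v => by rw [Matrix.mulVec_smul, smul_left hf]; ring
      add_right := fun v x y => by rw [Matrix.mulVec_add, add_right hf, mul_add]
      smul_right := fun c v x => by rw [Matrix.mulVec_smul, smul_right hf]; ring }
  skew := fun v w => by rw [skew hf]; ring
  alternating := fun v => by rw [self hf, mul_zero]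
  nondegenerate := by
    intro v hv
    have hPv : (P : Matrix ι ι F) *ᵥ v ≠ 0 := by
      intro h
      apply hv
      exact gl_mulVec_injective P (by simpa using h)
    obtain ⟨z, hz⟩ := exists_ne_zero hf hPv
    have h1 : ζ * f ((P : Matrix ι ι F) *ᵥ v) ((P : Matrix ι ι F) *ᵥ (((P⁻¹ : GL ι F) : Matrix ι ι F) *ᵥ z)) ≠ 0 := by
      rw [gl_mulVec_inv]; exact mul_ne_zero hζ hz
    refine ⟨⟨((P⁻¹ : GL ι F) : Matrix ι ι F) *ᵥ z, ?_⟩, ⟨_, h1⟩⟩
    change ζ * f ((P : Matrix ι ι F) *ᵥ (((P⁻¹ : GL ι F) : Matrix ι ι F) *ᵥ z)) ((P : Matrix ι ι F) *ᵥ v) ≠ 0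
    rw [skew hf, mul_neg]
    exact neg_ne_zero.2 h1

/-- For a finite field F, a subfield F₀ with |F| = |F₀| ^ r for a prime r, and m ≥ 7, let P be an invertible matrix and ζ a non-zero scalar such that ζ times the standard alternating form takes values in F₀ on the F₀-span of the columns of P. Then the elements of Sp_2m(F) lying in the subfield group of P (the conjugate by P of the product of GL_2m(F₀) with the scalars) form a maximal subgroup of Sp_2m(F). -/
theorem result {F : Type*} [Field F] [Fintype F] (m : ℕ) (hm : 7 ≤ m) (F₀ : Subfield F) (r : ℕ) (hr : r.Prime) (hcard : Fintype.card F = Nat.card F₀ ^ r) (P : Matrix.GeneralLinearGroup (Fin m ⊕ Fin m) F) (ζ : F) (hζ : ζ ≠ 0) (hP : Cfsg.Geo.IsFormRationalStructure (Cfsg.sympForm m F) F₀ ζ P) : Cfsg.Geo.IsMaximalIn (Cfsg.spGL m F) (Cfsg.Geo.subfieldSubgroup F₀ P ⊓ Cfsg.spGL m F) := by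
  have hf := std m F
  have hf' := conj_form hf P hζ
  have hF : Rational F₀ (fun u v => ζ * Cfsg.sympForm m F ((P : Matrix (Fin m ⊕ Fin m) (Fin m ⊕ Fin m) F) *ᵥ u) ((P : Matrix (Fin m ⊕ Fin m) (Fin m ⊕ Fin m) F) *ᵥ v)) :=
    hP
  have hmain := maximal_rational hf' hF (by simp; omega) hr hcard
  have h1 := isMaximalIn_map (MulAut.conj P) hmain
  have e1 : (isoGL (fun u v => ζ * Cfsg.sympForm m F ((P : Matrix (Fin m ⊕ Fin m) (Fin m ⊕ Fin m) F) *ᵥ u) ((P : Matrix (Fin m ⊕ Fin m) (Fin m ⊕ Fin m) F) *ᵥ v))).map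
      (MulAut.conj P).toMonoidHom = Cfsg.spGL m F := by
    ext g
    constructor
    · rintro ⟨h, hh, rfl⟩
      rw [spGL_eq, mem_isoGL]
      intro u v
      have h2 := mem_isoGL.1 hh (((P⁻¹ : GL _ F) : Matrix _ _ F) *ᵥ u) (((P⁻¹ : GL _ F) : Matrix _ _ F) *ᵥ v)
      simp only [gl_mulVec_inv] at h2
      have h3 := mul_left_cancel₀ hζ h2
      change Cfsg.sympForm m F (((P * h * P⁻¹ : GL _ F) : Matrix _ _ F) *ᵥ u) (((P * h * P⁻¹ : GL _ F) : Matrix _ _ F) *ᵥ v) = _
      rw [gl_mul_mulVec, gl_mul_mulVec, gl_mul_mulVec, gl_mul_mulVec, h3]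
    · intro hg
      rw [spGL_eq, mem_isoGL] at hg
      refine ⟨P⁻¹ * g * P, ?_, ?_⟩
      · change P⁻¹ * g * P ∈ isoGL _
        rw [mem_isoGL]
        intro u v
        rw [gl_mul_mulVec, gl_mul_mulVec, gl_mul_mulVec, gl_mul_mulVec, gl_mulVec_inv, gl_mulVec_inv, hg]
      · change P * (P⁻¹ * g * P) * P⁻¹ = g
        group
  rw [Subgroup.map_inf _ _ _ (MulAut.conj P).injective, e1] at h1
  exact h1

end Cfsg.Agent.S5650
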