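import Cfsg.Statements.S5660
import Cfsg.Agent.GeoMax.UniStd
import Cfsg.Agent.GeoMax.SympPair
import Cfsg.Agent.S5650

set_option autoImplicit false
open Cfsg

namespace Cfsg.Agent.S5660

open Matrix
open scoped MatrixGroups
open Cfsg.Geo Cfsg.Agent.GeoMax Cfsg.Agent.GeoMax.Symp Cfsg.Agent.GeoMax.Un

section
set_option linter.unusedSectionVars false
variable {F : Type*} [Field F] [Fintype F] {n q : ℕ}

lemma card_sub (hF : Fintype.card F = q ^ 2) {F₀ : Subfield F} (hcard : Fintype.card F = Nat.card F₀ ^ 2) :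
    Nat.card F₀ = q := by
  rw [hF] at hcard
  exact (Nat.pow_left_injective (by norm_num) hcard).symm

lemma pow_q_of_mem (hF : Fintype.card F = q ^ 2) {F₀ : Subfield F} (hcard : Fintype.card F = Nat.card F₀ ^ 2)
    {a : F} (ha : a ∈ F₀) : a ^ q = a := by
  have : Fintype F₀ := Fintype.ofFinite _
  have h1 := FiniteField.pow_card (⟨a, ha⟩ : F₀)
  rw [← Nat.card_eq_fintype_card, card_sub hF hcard] at h1
  exact congrArg (fun c : F₀ => (c : F)) h1

lemma mem_of_pow_q (hF : Fintype.card F = q ^ 2) {F₀ : Subfield F} (hcard : Fintype.card F = Nat.card F₀ ^ 2)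
    {a : F} (ha : a ^ q = a) : a ∈ F₀ := by
  have h1 : (F₀ : Set F) ⊆ {c | c ^ q = c} := fun c hc => pow_q_of_mem hF hcard hc
  have h2 : (F₀ : Set F) = {c | c ^ q = c} := by
    apply Set.eq_of_subset_of_ncard_le h1
    have e1 : Set.ncard {c : F | c ^ q = c} = q := by
      rw [← Nat.card_coe_set_eq]; exact Uni.card_fixed hF
    have e2 : Set.ncard (F₀ : Set F) = q := by
      rw [← Nat.card_coe_set_eq]; exact card_sub hF hcard
    rw [e1, e2]
  have h3 : a ∈ {c : F | c ^ q = c} := ha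
  rw [← h2] at h3
  exact h3

/-- every element of `F` is `a + θ b` -/
lemma exists_coord {F₀ : Subfield F} (hcard : Fintype.card F = Nat.card F₀ ^ 2) {θ : F} (hθ : θ ∉ F₀) (c : F) :
    ∃ a b : F₀, c = a + θ * b := by
  let φ : F₀ × F₀ → F := fun p => p.1 + θ * p.2
  have hinj : Function.Injective φ := by
    rintro ⟨a, b⟩ ⟨a', b'⟩ h
    have h1 : (a : F) + θ * b = a' + θ * b' := h
    by_cases hb : b = b'
    · subst hb
      have : (a : F) = a' := by linear_combination h1
      rw [Subtype.ext this]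
    · exfalso
      apply hθ
      have hb' : ((b : F) - b') ≠ 0 := by
        intro h0; exact hb (Subtype.ext (sub_eq_zero.1 h0))
      have : θ = ((a' - a : F₀) : F) / ((b - b' : F₀) : F) := by
        push_cast
        rw [eq_div_iff hb']; linear_combination h1
      rw [this]
      exact F₀.div_mem (SetLike.coe_mem _) (SetLike.coe_mem _)
  have : Fintype F₀ := Fintype.ofFinite _
  have hbij : Function.Bijective φ := by
    rw [Fintype.bijective_iff_injective_and_card]
    refine ⟨hinj, ?_⟩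
    rw [Fintype.card_prod, hcard, Nat.card_eq_fintype_card]; ring
  obtain ⟨⟨a, b⟩, h⟩ := hbij.2 c
  exact ⟨a, b, h.symm⟩

/-- vector over the rational structure -/
def E (F₀ : Subfield F) (P : GL (Fin n) F) (x : Fin n → F₀) : Fin n → F := (P : Matrix (Fin n) (Fin n) F) *ᵥ emb F₀ x

variable {F₀ : Subfield F} {P : GL (Fin n) F} {ζ : F}

lemma E_add (x y : Fin n → F₀) : E F₀ P (x + y) = E F₀ P x + E F₀ P y := by
  rw [E, emb_add, Matrix.mulVec_add]; rfl
lemma E_smul (c : F₀) (x : Fin n → F₀) : E F₀ P (c • x) = (c : F) • E F₀ P x := by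
  rw [E, emb_smul, Matrix.mulVec_smul]; rfl
lemma E_eq_zero {x : Fin n → F₀} : E F₀ P x = 0 ↔ x = 0 := by
  rw [← emb_eq_zero (F₀ := F₀)]
  constructor
  · intro h
    exact gl_mulVec_injective P (by simpa [E] using h)
  · intro h; rw [E, h, Matrix.mulVec_zero]

/-- the alternating form over `F₀` -/
def ff (P : GL (Fin n) F) (hP : IsFormRationalStructure (Cfsg.hermForm n F q) F₀ ζ P) (x y : Fin n → F₀) : F₀ :=
  ⟨ζ * Cfsg.hermForm n F q (E F₀ P x) (E F₀ P y), hP _ _ (fun i => (x i).2) (fun i => (y i).2)⟩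

@[simp] lemma ff_coe (hP : IsFormRationalStructure (Cfsg.hermForm n F q) F₀ ζ P) (x y : Fin n → F₀) :
    ((ff P hP x y : F₀) : F) = ζ * Cfsg.hermForm n F q (E F₀ P x) (E F₀ P y) := rfl

lemma exists_E {θ : F} (hcard : Fintype.card F = Nat.card F₀ ^ 2) (hθ : θ ∉ F₀) (x : Fin n → F) :
    ∃ a b : Fin n → F₀, x = E F₀ P a + θ • E F₀ P b := by
  choose a b hab using fun i => exists_coord hcard hθ ((((P⁻¹ : GL (Fin n) F) : Matrix (Fin n) (Fin n) F) *ᵥ x) i)
  refine ⟨a, b, ?_⟩
  have : ((P⁻¹ : GL (Fin n) F) : Matrix (Fin n) (Fin n) F) *ᵥ x = emb F₀ a + θ • emb F₀ b := by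
    ext i; rw [hab]; rfl
  rw [E, E, ← Matrix.mulVec_smul, ← Matrix.mulVec_add, ← this, gl_mulVec_inv]

section
variable (hF : Fintype.card F = q ^ 2) (hcard : Fintype.card F = Nat.card F₀ ^ 2) (hζ0 : ζ ≠ 0) (hζ : ζ + ζ ^ q = 0)
  (hP : IsFormRationalStructure (Cfsg.hermForm n F q) F₀ ζ P)
  (halt : ∀ u : Fin n → F, (∀ i, u i ∈ F₀) → Cfsg.hermForm n F q (Matrix.mulVec (P : Matrix (Fin n) (Fin n) F) u)
    (Matrix.mulVec (P : Matrix (Fin n) (Fin n) F) u) = 0)

include halt in
lemma herm_self (x : Fin n → F₀) : Cfsg.hermForm n F q (E F₀ P x) (E F₀ P x) = 0 := halt _ (fun i => (x i).2)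

include hF hcard hζ0 hζ hP in
lemma herm_skew (x y : Fin n → F₀) : Cfsg.hermForm n F q (E F₀ P y) (E F₀ P x) =
    - Cfsg.hermForm n F q (E F₀ P x) (E F₀ P y) := by
  have h1 : (ζ * Cfsg.hermForm n F q (E F₀ P x) (E F₀ P y)) ^ q = ζ * Cfsg.hermForm n F q (E F₀ P x) (E F₀ P y) :=
    pow_q_of_mem hF hcard (hP _ _ (fun i => (x i).2) (fun i => (y i).2))
  rw [mul_pow, Uni.hermForm_symm hF] at h1
  have h2 : ζ ^ q = -ζ := by linear_combination hζ
  rw [h2] at h1
  have h3 : ζ * (Cfsg.hermForm n F q (E F₀ P y) (E F₀ P x) + Cfsg.hermForm n F q (E F₀ P x) (E F₀ P y)) = 0 := by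
    linear_combination -h1
  have h4 := (mul_eq_zero.1 h3).resolve_left hζ0
  linear_combination h4

include hF hcard hζ0 hζ halt in
theorem ff_symp : IsSymplecticForm (ff P hP) where
  bilinear :=
    { add_left := fun x y v => by
        apply Subtype.ext; push_cast; rw [ff_coe, ff_coe, ff_coe, E_add, Uni.hermForm_add_left, mul_add]
      smul_left := fun c x v => by
        apply Subtype.ext; push_cast; rw [ff_coe, ff_coe, E_smul, Uni.hermForm_smul_left]; ring
      add_right := fun v x y => by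
        apply Subtype.ext; push_cast; rw [ff_coe, ff_coe, ff_coe, E_add, Uni.hermForm_add_right hF, mul_add]
      smul_right := fun c v x => by
        apply Subtype.ext; push_cast
        rw [ff_coe, ff_coe, E_smul, Uni.hermForm_smul_right, pow_q_of_mem hF hcard c.2]; ring }
  skew := fun v w => by
    apply Subtype.ext; push_cast
    rw [ff_coe, ff_coe, herm_skew hF hcard hζ0 hζ hP w v]; ring
  alternating := fun v => by
    apply Subtype.ext; push_cast; rw [ff_coe, herm_self halt, mul_zero]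
  nondegenerate := by
    intro v hv
    have h2 : ∃ x, ff P hP v x ≠ 0 := by
      by_contra hcon
      push Not at hcon
      apply hv
      rw [← E_eq_zero (P := P)]
      have h3 : ∀ x : Fin n → F₀, Cfsg.hermForm n F q (E F₀ P v) (E F₀ P x) = 0 := by
        intro x
        have := congrArg (fun c : F₀ => (c : F)) (hcon x)
        simp only [ff_coe] at this
        exact (mul_eq_zero.1 this).resolve_left hζ0
      obtain ⟨θ, hθ⟩ : ∃ θ : F, θ ∉ F₀ := by
        obtain ⟨θ, hθ⟩ := Uni.exists_pow_q_ne hF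
        exact ⟨θ, fun h => hθ (pow_q_of_mem hF hcard h)⟩
      apply Uni.hermForm_nondeg hF
      intro y
      obtain ⟨a, b, rfl⟩ := exists_E (P := P) hcard hθ y
      rw [Uni.hermForm_add_right hF, Uni.hermForm_smul_right, h3, h3]; ring
    obtain ⟨x, hx⟩ := h2
    refine ⟨⟨x, ?_⟩, ⟨x, hx⟩⟩
    intro h
    apply hx
    have h4 := congrArg (fun c : F₀ => (c : F)) h
    simp only [ff_coe] at h4
    apply Subtype.ext
    rw [ff_coe, herm_skew hF hcard hζ0 hζ hP x v, mul_neg, h4]; simp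

lemma mem_sub_iff {g : GL (Fin n) F} : g ∈ subfieldSubgroup F₀ P ↔
    ∃ l : F, l ≠ 0 ∧ ∀ y : Fin n → F₀, ∃ y₁ : Fin n → F₀, (g : Matrix (Fin n) (Fin n) F) *ᵥ E F₀ P y = l • E F₀ P y₁ := by
  constructor
  · rintro ⟨A, hA, rfl⟩
    obtain ⟨l, hl, h⟩ := S5650.normV_of_mem hA
    refine ⟨l, hl, fun y => ?_⟩
    obtain ⟨y₁, h1⟩ := h y
    refine ⟨y₁, ?_⟩
    change ((P * A * P⁻¹ : GL (Fin n) F) : Matrix (Fin n) (Fin n) F) *ᵥ _ = _
    rw [gl_mul_mulVec, gl_mul_mulVec, E, gl_inv_mulVec, h1, Matrix.mulVec_smul]; rfl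
  · rintro ⟨l, hl, h⟩
    refine ⟨P⁻¹ * g * P, S5650.mem_of_normV ⟨l, hl, fun y => ?_⟩, ?_⟩
    · obtain ⟨y₁, h1⟩ := h y
      refine ⟨y₁, ?_⟩
      rw [gl_mul_mulVec, gl_mul_mulVec]
      change ((P⁻¹ : GL (Fin n) F) : Matrix (Fin n) (Fin n) F) *ᵥ ((g : Matrix (Fin n) (Fin n) F) *ᵥ E F₀ P y) = _
      rw [h1, Matrix.mulVec_smul, E, gl_inv_mulVec]
    · change P * (P⁻¹ * g * P) * P⁻¹ = g
      group

include hF hcard hζ0 hζ hP halt in
/-- the unitary transvections with rational centre preserve the structure -/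
lemma UT_E (v : Fin n → F₀) : UT q (subfieldSubgroup F₀ P ⊓ (Cfsg.GU n F q ⊓ specialLinear (Fin n) F)) (E F₀ P v) := by
  intro c hc
  have hv0 : (c • cv q (E F₀ P v)) ⬝ᵥ (E F₀ P v) = 0 := by
    rw [smul_dotProduct, cv_dotProduct, herm_self halt, smul_zero]
  rw [hasT_iff]
  refine ⟨hv0, Subgroup.mem_inf.2 ⟨?_, tvec_mem hF hv0 hc⟩⟩
  rw [mem_sub_iff]
  have hζ' : ζ ^ q = -ζ := by linear_combination hζ
  have hc' : c / ζ ∈ F₀ := by
    apply mem_of_pow_q hF hcard
    rw [div_pow, hc, hζ', neg_div_neg_eq]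
  refine ⟨1, one_ne_zero, fun y => ⟨y + ((⟨c / ζ, hc'⟩ : F₀) * ff P hP y v) • v, ?_⟩⟩
  rw [tvec_mulVec, smul_dotProduct, cv_dotProduct, one_smul, E_add, E_smul]
  congr 2
  push_cast
  rw [ff_coe, smul_eq_mul]
  field_simp

include hF hcard hζ0 hζ hP halt in
theorem maximal (hn : 13 ≤ n) : IsMaximalIn (Cfsg.GU n F q ⊓ specialLinear (Fin n) F)
    (subfieldSubgroup F₀ P ⊓ (Cfsg.GU n F q ⊓ specialLinear (Fin n) F)) := by
  have hf := ff_symp hF hcard hζ0 hζ hP halt
  obtain ⟨θ, hθq⟩ := Uni.exists_pow_q_ne hF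
  have hθ : θ ∉ F₀ := fun h => hθq (pow_q_of_mem hF hcard h)
  have hUT := UT_E hF hcard hζ0 hζ hP halt
  have hζ' : ζ ^ q = -ζ := by linear_combination hζ
  -- the hermitian form on `a + θ b`
  have hherm : ∀ a b : Fin n → F₀, Cfsg.hermForm n F q (E F₀ P a + θ • E F₀ P b) (E F₀ P a + θ • E F₀ P b) =
      (θ ^ q - θ) * Cfsg.hermForm n F q (E F₀ P a) (E F₀ P b) := by
    intro a b
    rw [Uni.hermForm_add_left, Uni.hermForm_add_right hF, Uni.hermForm_add_right hF, Uni.hermForm_smul_left,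
      Uni.hermForm_smul_left, Uni.hermForm_smul_right, Uni.hermForm_smul_right, herm_self halt, herm_self halt,
      herm_skew hF hcard hζ0 hζ hP a b]
    ring
  have hiso : ∀ a b : Fin n → F₀, Cfsg.hermForm n F q (E F₀ P a + θ • E F₀ P b) (E F₀ P a + θ • E F₀ P b) = 0 ↔
      ff P hP a b = 0 := by
    intro a b
    rw [hherm, mul_eq_zero, or_iff_right (sub_ne_zero.2 hθq)]
    constructor
    · intro h; apply Subtype.ext; rw [ff_coe, h, mul_zero]; rfl
    · intro h
      have := congrArg (fun c : F₀ => (c : F)) h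
      simp only [ff_coe] at this
      exact (mul_eq_zero.1 this).resolve_left hζ0
  -- dependent pairs
  have hdep : ∀ a b : Fin n → F₀, (a = 0 ∨ b ∈ Submodule.span F₀ {a}) →
      ∃ (l : F) (w : Fin n → F₀), E F₀ P a + θ • E F₀ P b = l • E F₀ P w := by
    rintro a b (rfl | h)
    · exact ⟨θ, b, by rw [(E_eq_zero (P := P)).2 rfl, zero_add]⟩
    · obtain ⟨c, rfl⟩ := Submodule.mem_span_singleton.1 h
      exact ⟨1 + θ * c, a, by rw [E_smul]; module⟩
  -- the key step
  have key : ∀ M : Subgroup (GL (Fin n) F), subfieldSubgroup F₀ P ⊓ (Cfsg.GU n F q ⊓ specialLinear (Fin n) F) ≤ M →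
      M ≤ Cfsg.GU n F q ⊓ specialLinear (Fin n) F →
      ∀ a b : Fin n → F₀, a ≠ 0 → b ∉ Submodule.span F₀ {a} → ff P hP a b = 0 →
        UT q M (E F₀ P a + θ • E F₀ P b) → Cfsg.GU n F q ⊓ specialLinear (Fin n) F ≤ M := by
    intro M hHM hMI a b ha hb hab hPr
    have hUTM : ∀ v : Fin n → F₀, UT q M (E F₀ P v) := fun v c hc => (hUT v c hc).mono hHM
    refine su_le hF (by omega) M fun v hv => ?_
    obtain ⟨a', b', rfl⟩ := exists_E (P := P) hcard hθ v
    by_cases hd : a' = 0 ∨ b' ∈ Submodule.span F₀ {a'}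
    · obtain ⟨l, w, h⟩ := hdep a' b' hd
      rw [h]; exact (hUTM w).smul hF l
    push Not at hd
    rw [hiso] at hv
    refine pair_induction hf (by simp; omega) (P := fun a b => UT q M (E F₀ P a + θ • E F₀ P b)) ?_ ha hb hab hPr
      hd.1 hd.2 hv
    intro x y z t hxy
    obtain ⟨hz0, hz⟩ := (hasT_iff _ _ _).1 (hUTM z (t * ζ) (by rw [mul_pow, hζ', pow_q_of_mem hF hcard t.2]; ring))
    have h1 := hxy.conj (hMI hz).1 hz
    have h2 : ∀ w : Fin n → F₀, (tvec (E F₀ P z) (((t : F) * ζ) • cv q (E F₀ P z)) hz0 : Matrix (Fin n) (Fin n) F) *ᵥ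
        E F₀ P w = E F₀ P ((tr hf z t : Matrix (Fin n) (Fin n) F₀) *ᵥ w) := by
      intro w
      rw [tvec_mulVec, smul_dotProduct, cv_dotProduct, tr_mulVec, E_add, E_smul]
      congr 2
      push_cast
      rw [ff_coe, smul_eq_mul]; ring
    rw [Matrix.mulVec_add, Matrix.mulVec_smul, h2, h2] at h1
    exact h1
  constructor
  · refine lt_of_le_of_ne inf_le_right ?_
    intro heq
    -- an isotropic vector off the structure
    obtain ⟨a, ha, -⟩ := exists_perp_notMem hf [] [] (by simp; omega)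
    have ha0 : a ≠ 0 := by rintro rfl; exact ha (Submodule.zero_mem _)
    obtain ⟨b, hb, hab⟩ := exists_perp_notMem hf [a] [a] (by simp; omega)
    have hb' : b ∉ Submodule.span F₀ {a} := by simpa using hb
    have hab' : ff P hP a b = 0 := by
      have := hab a (by simp)
      rw [Symp.skew hf, this, neg_zero]
    -- the transvection with centre `a + θ b`
    set u := E F₀ P a + θ • E F₀ P b with hu
    have huu : Cfsg.hermForm n F q u u = 0 := (hiso a b).2 hab'
    have hu0 : (ζ • cv q u) ⬝ᵥ u = 0 := by rw [smul_dotProduct, cv_dotProduct, huu, smul_zero]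
    have hmem := tvec_mem hF hu0 hζ'
    rw [← heq] at hmem
    obtain ⟨l, hl, h⟩ := mem_sub_iff.1 hmem.1
    -- a rational vector `y` with `f a y = 0`, `f b y = 1`: then `τ y = y + c θ (..) u`
    obtain ⟨y, hy, hby⟩ := exists_perp_ne hf hb'
    have hay := hy a (Submodule.mem_span_singleton_self a)
    have hyu : Cfsg.hermForm n F q (E F₀ P y) u ≠ 0 := by
      rw [hu, Uni.hermForm_add_right hF, Uni.hermForm_smul_right]
      have h1 : Cfsg.hermForm n F q (E F₀ P y) (E F₀ P a) = 0 := by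
        have := congrArg (fun c : F₀ => (c : F)) hay
        simp only [ff_coe] at this
        rw [herm_skew hF hcard hζ0 hζ hP a y, (mul_eq_zero.1 this).resolve_left hζ0, neg_zero]
      have h2 : Cfsg.hermForm n F q (E F₀ P y) (E F₀ P b) ≠ 0 := by
        intro h0
        apply hby
        apply Subtype.ext
        rw [ff_coe, herm_skew hF hcard hζ0 hζ hP y b, h0]; simp
      rw [h1, zero_add]
      refine mul_ne_zero (pow_ne_zero _ ?_) h2
      rintro rfl
      exact hθ F₀.zero_mem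
    -- a vector orthogonal to `a`, `b`, `y`
    obtain ⟨z, hz, hzp⟩ := exists_perp_notMem hf [a, b] [] (by simp; omega)
    have hz0 : z ≠ 0 := by rintro rfl; exact hz (Submodule.zero_mem _)
    have hherm0 : ∀ w, ff P hP z w = 0 → Cfsg.hermForm n F q (E F₀ P z) (E F₀ P w) = 0 := by
      intro w hw
      have := congrArg (fun c : F₀ => (c : F)) hw
      simp only [ff_coe] at this
      exact (mul_eq_zero.1 this).resolve_left hζ0
    have hzu : Cfsg.hermForm n F q (E F₀ P z) u = 0 := by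
      rw [hu, Uni.hermForm_add_right hF, Uni.hermForm_smul_right, hherm0 a (hzp a (by simp)),
        hherm0 b (hzp b (by simp))]; ring
    obtain ⟨z₁, hz₁⟩ := h z
    rw [tvec_mulVec, smul_dotProduct, cv_dotProduct, hzu, smul_zero, zero_smul, add_zero] at hz₁
    -- `l ∈ F₀`
    have hlF : l ∈ F₀ := by
      obtain ⟨i, hi⟩ := Function.ne_iff.1 hz0
      have h1 : emb F₀ z = l • emb F₀ z₁ := by
        apply gl_mulVec_injective P
        change (P : Matrix (Fin n) (Fin n) F) *ᵥ emb F₀ z = (P : Matrix (Fin n) (Fin n) F) *ᵥ (l • emb F₀ z₁)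
        rw [Matrix.mulVec_smul]; exact hz₁
      have h2 := congrFun h1 i
      simp only [emb_apply, Pi.smul_apply, smul_eq_mul] at h2
      have h3 : (z₁ i : F) ≠ 0 := by
        intro h0
        rw [h0, mul_zero] at h2
        apply hi
        rw [Pi.zero_apply]
        exact Subtype.ext h2
      have h4 : l = ((z i / z₁ i : F₀) : F) := by
        push_cast; rw [eq_div_iff h3, ← h2]
      rw [h4]; exact SetLike.coe_mem _
    obtain ⟨y₁, hy₁⟩ := h y
    rw [tvec_mulVec, smul_dotProduct, cv_dotProduct] at hy₁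
    set κ := ζ • Cfsg.hermForm n F q (E F₀ P y) u with hκ
    have hκ0 : κ ≠ 0 := by rw [hκ, smul_eq_mul]; exact mul_ne_zero hζ0 hyu
    -- so `κ • u` is rational
    have h5 : κ • u = E F₀ P ((⟨l, hlF⟩ : F₀) • y₁ - y) := by
      have e : E F₀ P ((⟨l, hlF⟩ : F₀) • y₁ - y) = l • E F₀ P y₁ - E F₀ P y := by
        rw [sub_eq_add_neg, E_add, E_smul]
        have : E F₀ P (-y) = - E F₀ P y := by rw [E, emb_neg, Matrix.mulVec_neg]; rfl
        rw [this, ← sub_eq_add_neg]
      rw [e, ← hy₁]; abel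
    -- contradiction with the independence of `a`, `b`
    set w := (⟨l, hlF⟩ : F₀) • y₁ - y with hw
    obtain ⟨c, d, hcd⟩ := exists_coord hcard hθ κ⁻¹
    have h6 : u = (c : F) • E F₀ P w + (θ * d) • E F₀ P w := by
      rw [← add_smul, ← hcd, ← h5, smul_smul, inv_mul_cancel₀ hκ0, one_smul]
    have h7 : E F₀ P (a - c • w) + θ • E F₀ P (b - d • w) = 0 := by
      have e1 : ∀ (x : Fin n → F₀) (t : F₀), E F₀ P (x - t • w) = E F₀ P x - (t : F) • E F₀ P w := by
        intro x t
        have : E F₀ P (-(t • w)) = - ((t : F) • E F₀ P w) := by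
          rw [← E_smul, E, emb_neg, Matrix.mulVec_neg]; rfl
        rw [sub_eq_add_neg, E_add, this, ← sub_eq_add_neg]
      rw [e1, e1]
      have : E F₀ P a - (c : F) • E F₀ P w + θ • (E F₀ P b - (d : F) • E F₀ P w) = u - ((c : F) • E F₀ P w + (θ * d) • E F₀ P w) := by
        rw [hu]; module
      rw [this, ← h6, sub_self]
    have h8 : ∀ x y : Fin n → F₀, E F₀ P x + θ • E F₀ P y = 0 → x = 0 ∧ y = 0 := by
      intro x y h
      have h1 : emb F₀ x + θ • emb F₀ y = 0 := by
        apply gl_mulVec_injective P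
        change (P : Matrix (Fin n) (Fin n) F) *ᵥ (emb F₀ x + θ • emb F₀ y) = (P : Matrix (Fin n) (Fin n) F) *ᵥ 0
        rw [Matrix.mulVec_add, Matrix.mulVec_smul, Matrix.mulVec_zero]; exact h
      have h2 : y = 0 := by
        by_contra hy0
        obtain ⟨i, hi⟩ := Function.ne_iff.1 hy0
        have h3 := congrFun h1 i
        simp only [emb_apply, Pi.add_apply, Pi.smul_apply, smul_eq_mul, Pi.zero_apply] at h3
        have h4 : (y i : F) ≠ 0 := by
          intro h0; exact hi (Subtype.ext h0)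
        apply hθ
        have : θ = ((-(x i) / y i : F₀) : F) := by
          push_cast; rw [eq_div_iff h4]; linear_combination h3
        rw [this]; exact SetLike.coe_mem _
      refine ⟨?_, h2⟩
      rw [h2, emb_zero, smul_zero, add_zero] at h1
      exact emb_eq_zero.1 h1
    obtain ⟨h9, h10⟩ := h8 _ _ h7
    rw [sub_eq_zero] at h9 h10
    have hc0 : c ≠ 0 := by
      rintro rfl; rw [zero_smul] at h9; exact ha0 h9
    apply hb'
    rw [Submodule.mem_span_singleton]
    exact ⟨d * c⁻¹, by rw [h9, smul_smul, mul_assoc, inv_mul_cancel₀ hc0, mul_one, h10]⟩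
  · intro M hHM hMI
    by_cases hcase : ∀ g ∈ M, ∀ x : Fin n → F₀, ∃ l : F, ∃ x₁ : Fin n → F₀,
        (g : Matrix (Fin n) (Fin n) F) *ᵥ E F₀ P x = l • E F₀ P x₁
    · left
      refine le_antisymm (fun g hg => ?_) hHM
      refine Subgroup.mem_inf.2 ⟨?_, hMI hg⟩
      rw [mem_sub_iff]
      -- the multipliers agree
      obtain ⟨y₀, hy₀, -⟩ := exists_perp_notMem hf [] [] (by simp; omega)
      have hy₀0 : y₀ ≠ 0 := by rintro rfl; exact hy₀ (Submodule.zero_mem _)
      have hne : ∀ x : Fin n → F₀, x ≠ 0 → ∀ (l : F) (x₁ : Fin n → F₀),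
          (g : Matrix (Fin n) (Fin n) F) *ᵥ E F₀ P x = l • E F₀ P x₁ → l ≠ 0 := by
        rintro x hx l x₁ h rfl
        rw [zero_smul] at h
        apply hx
        rw [← E_eq_zero (P := P)]
        exact gl_mulVec_injective g (by simpa using h)
      obtain ⟨l₀, y₀', hy₀'⟩ := hcase g hg y₀
      have hl₀ := hne y₀ hy₀0 l₀ y₀' hy₀'
      refine ⟨l₀, hl₀, fun y => ?_⟩
      by_cases hy : y = 0
      · refine ⟨0, ?_⟩
        rw [hy, (E_eq_zero (P := P)).2 rfl, Matrix.mulVec_zero, smul_zero]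
      obtain ⟨l, y', hy'⟩ := hcase g hg y
      obtain ⟨z, hz1, hz2⟩ := exists_common hf hy hy₀0
      obtain ⟨μ, z', hz'⟩ := hcase g hg z
      have hz0 : z ≠ 0 := by rintro rfl; exact hz1 (Symp.zero_right hf _)
      have hμ := hne z hz0 μ z' hz'
      have kk : ∀ (a a' : Fin n → F₀) (k : F), (g : Matrix (Fin n) (Fin n) F) *ᵥ E F₀ P a = k • E F₀ P a' →
          ff P hP a z ≠ 0 → k * μ ^ q ∈ F₀ := by
        intro a a' k hk hne'
        have h1 := mem_GU.1 (hMI hg).1 (E F₀ P a) (E F₀ P z)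
        rw [hk, hz', Uni.hermForm_smul_left, Uni.hermForm_smul_right] at h1
        have h2 : (ff P hP a z : F) = k * μ ^ q * ff P hP a' z' := by
          rw [ff_coe, ff_coe, ← h1]; ring
        have h3 : (ff P hP a' z' : F) ≠ 0 := by
          intro h0
          rw [h0, mul_zero] at h2
          exact hne' (Subtype.ext h2)
        have h4 : k * μ ^ q = ((ff P hP a z / ff P hP a' z' : F₀) : F) := by
          push_cast; rw [eq_div_iff h3, ← h2]
        rw [h4]; exact SetLike.coe_mem _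
      have k1 := kk y y' l hy' hz1
      have k2 := kk y₀ y₀' l₀ hy₀' hz2
      have h3 : l / l₀ ∈ F₀ := by
        have := F₀.div_mem k1 k2
        rwa [mul_div_mul_right _ _ (pow_ne_zero _ hμ)] at this
      refine ⟨(⟨l / l₀, h3⟩ : F₀) • y', ?_⟩
      rw [hy', E_smul, smul_smul]
      congr 1
      field_simp
    · right
      push Not at hcase
      obtain ⟨g, hg, x, hx⟩ := hcase
      refine le_antisymm hMI ?_
      obtain ⟨a, b, hab⟩ := exists_E (P := P) hcard hθ ((g : Matrix (Fin n) (Fin n) F) *ᵥ E F₀ P x)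
      have hd : ¬ (a = 0 ∨ b ∈ Submodule.span F₀ {a}) := by
        intro hd
        obtain ⟨l, w, h⟩ := hdep a b hd
        exact hx l w (by rw [hab, h])
      push Not at hd
      have hiso' : Cfsg.hermForm n F q (E F₀ P a + θ • E F₀ P b) (E F₀ P a + θ • E F₀ P b) = 0 := by
        rw [← hab, mem_GU.1 (hMI hg).1, herm_self halt]
      refine key M hHM hMI a b hd.1 hd.2 ((hiso a b).1 hiso') ?_
      rw [← hab]
      exact UT.conj (fun c hc => (hUT x c hc).mono hHM) (hMI hg).1 hg

end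
end

/-- Let F be the field with q² elements, n ≥ 13 even, and F₀ the subfield with q elements. Let ζ be a non-zero element with ζ + ζ^q = 0 and P an invertible matrix such that ζ times the standard unitary form takes values in F₀ on the F₀-span of the columns of P and the form vanishes on every pair (u, u) of that span (so ζ times the form restricts to a non-degenerate alternating form there). Then the elements of SU_n(q) lying in the subfield group of P form a maximal subgroup of SU_n(q). -/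
theorem result {F : Type*} [Field F] [Fintype F] (n q : ℕ) (hF : Fintype.card F = q ^ 2) (hn : 13 ≤ n) (heven : Even n) (F₀ : Subfield F) (hcard : Fintype.card F = Nat.card F₀ ^ 2) (ζ : F) (hζ0 : ζ ≠ 0) (hζ : ζ + ζ ^ q = 0) (P : Matrix.GeneralLinearGroup (Fin n) F) (hP : Cfsg.Geo.IsFormRationalStructure (Cfsg.hermForm n F q) F₀ ζ P) (halt : ∀ u : Fin n → F, (∀ i, u i ∈ F₀) → Cfsg.hermForm n F q (Matrix.mulVec (P : Matrix (Fin n) (Fin n) F) u) (Matrix.mulVec (P : Matrix (Fin n) (Fin n) F) u) = 0) : Cfsg.Geo.IsMaximalIn (Cfsg.GU n F q ⊓ Cfsg.Geo.specialLinear (Fin n) F) (Cfsg.Geo.subfieldSubgroup F₀ P ⊓ (Cfsg.GU n F q ⊓ Cfsg.Geo.specialLinear (Fin n) F)) :=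
  maximal hF hcard hζ0 hζ hP halt hn

end Cfsg.Agent.S5660
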