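import Cfsg.Statements.S5664
import Cfsg.Agent.H98.SpM

set_option autoImplicit false
open Cfsg

namespace Cfsg.Agent.S5664


/-- For a finite field F and m ≥ 7, let K be a subfield of the algebra of 2m × 2m matrices over F containing the scalars, of prime degree r over F, whose elements k are self-adjoint for the standard alternating form f on F^(2m) (f(k u, v) = f(u, k v)) and satisfy f(k v, v) = 0 for all v. Then the elements of Sp_2m(F) normalising K form a maximal subgroup of Sp_2m(F). -/
theorem result {F : Type*} [Field F] [Fintype F] (m : ℕ) (hm : 7 ≤ m) (r : ℕ) (hr : r.Prime) (K : Subalgebra F (Matrix (Fin m ⊕ Fin m) (Fin m ⊕ Fin m) F)) (hK : Cfsg.Geo.IsFieldSubalgebra r K) (hsa : Cfsg.Geo.IsSelfAdjointFor (Cfsg.sympForm m F) K) (halt : ∀ k ∈ K, ∀ v : (Fin m ⊕ Fin m → F), Cfsg.sympForm m F (Matrix.mulVec k v) v = 0) : Cfsg.Geo.IsMaximalIn (Cfsg.spGL m F) (Cfsg.Geo.subalgebraNormalizer K ⊓ Cfsg.spGL m F) := by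
  have hcard : Fintype.card (Fin m ⊕ Fin m) = 2 * m := by
    simp only [Fintype.card_sum, Fintype.card_fin]
    ring
  have hne : Nonempty (Fin m ⊕ Fin m) := ⟨Sum.inl ⟨0, by omega⟩⟩
  have hdvd := AschCases.dvd_card_of_isFieldSubalgebra hK
  rw [hcard] at hdvd
  obtain ⟨d, hd⟩ := hdvd
  have hc : H98.Sp.Cond (Nat.card F) r d := by
    have hd1 : d ≠ 0 := by
      rintro rfl
      omega
    have hd2 : d ≠ 1 := by
      rintro rfl
      rw [mul_one] at hd
      have h2 : 2 ∣ r := ⟨m, hd.symm⟩
      have := (Nat.prime_dvd_prime_iff_eq Nat.prime_two hr).1 h2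
      omega
    have hd3 : d ≠ 3 := by
      rintro rfl
      have h2 : 2 ∣ r * 3 := ⟨m, hd.symm⟩
      rcases (Nat.Prime.dvd_mul Nat.prime_two).1 h2 with h | h
      · have := (Nat.prime_dvd_prime_iff_eq Nat.prime_two hr).1 h
        omega
      · omega
    by_cases h2 : d = 2
    · right
      refine ⟨h2, H98.Sp.num_of_five Finite.one_lt_card ?_⟩
      subst h2
      omega
    · left
      refine ⟨by omega, fun h => ?_⟩
      subst h
      omega
  have key := H98.Sp.sp_maximal (GeoMax.Symp.std m F) K hK hsa halt hr (d := d) (by rw [hcard, hd]) hc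
  exact key

end Cfsg.Agent.S5664
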