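import Cfsg.Statements.S5666
import Cfsg.Agent.TenMax.SpAsm

set_option autoImplicit false
open Cfsg

namespace Cfsg.Agent.S5666

/-- For a finite field F of odd order q and m ≥ 7, suppose the standard alternating form on F^(2m) is similar, through a change of basis P and a bijection of index sets e, to the tensor product of a non-degenerate symplectic form f₁ on F^(n₁) and a non-degenerate symmetric bilinear form f₂ on F^(n₂) with n₂ ≥ 3. Unless q = 3 and n₂ = 3, the elements of Sp_2m(F) in the stabiliser of this tensor decomposition (the conjugate by P of the Kronecker-product subgroup transported along e) form a maximal subgroup of Sp_2m(F). -/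
theorem result {F : Type*} [Field F] [Fintype F] (m : ℕ) (hm : 7 ≤ m) (hodd : Odd (Fintype.card F)) (n₁ n₂ : ℕ) (hn₂ : 3 ≤ n₂) (hex : ¬ (Fintype.card F = 3 ∧ n₂ = 3)) (e : (Fin m ⊕ Fin m) ≃ Fin n₁ × Fin n₂) (P : Matrix.GeneralLinearGroup (Fin m ⊕ Fin m) F) (f₁ : (Fin n₁ → F) → (Fin n₁ → F) → F) (f₂ : (Fin n₂ → F) → (Fin n₂ → F) → F) (hf₁ : Cfsg.Geo.IsSymplecticForm f₁) (hf₂ : Cfsg.Geo.IsSymmetricForm f₂) (hT : Cfsg.Geo.IsTensorFormStructure id (Cfsg.sympForm m F) f₁ f₂ e P) : Cfsg.Geo.IsMaximalIn (Cfsg.spGL m F) (Cfsg.Geo.tensorProductSubgroup n₁ n₂ e P ⊓ Cfsg.spGL m F) := by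
  have h2 : (2 : F) ≠ 0 := Cfsg.Agent.GeoMax.Ort.two_ne_zero_of_odd hodd
  have hq : 4 ≤ n₂ ∨ 5 ≤ Fintype.card F := by
    rcases Nat.lt_or_ge 3 n₂ with h | h
    · exact Or.inl h
    · right
      have h3 : n₂ = 3 := by omega
      have h1 : 1 < Fintype.card F := Fintype.one_lt_card
      have h4 : Fintype.card F ≠ 3 := fun h4 => hex ⟨h4, h3⟩
      obtain ⟨k, hk⟩ := hodd
      omega
  have heven : Even n₁ := by
    have := Cfsg.Agent.Asch.even_card_of_isSymplecticForm hf₁
    rwa [Fintype.card_fin] at this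
  exact Cfsg.Agent.TenMax.isMaximalIn_tensor_sp h2 hm hn₂ hq e P hf₁ hf₂ heven hT

end Cfsg.Agent.S5666
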