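import Cfsg.Statements.S5667
import Cfsg.Agent.OMax.Tens33
import Cfsg.Agent.ClGeo.Symp

set_option autoImplicit false
open Cfsg

namespace Cfsg.Agent.S5667

open OMax ClGeo
open scoped Matrix

/-- The transvection as an element of the symplectic group in `GL`. -/
theorem exists_tv {F : Type*} [Field F] (m : ℕ) (w : Fin m ⊕ Fin m → F) :
    ∃ g ∈ Cfsg.spGL m F, (∀ x, (g : Matrix (Fin m ⊕ Fin m) (Fin m ⊕ Fin m) F) *ᵥ x =
        x + (Cfsg.sympForm m F x w) • w) ∧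
      (∀ x, ((g⁻¹ : Matrix.GeneralLinearGroup (Fin m ⊕ Fin m) F) :
        Matrix (Fin m ⊕ Fin m) (Fin m ⊕ Fin m) F) *ᵥ x = x + (-(Cfsg.sympForm m F x w)) • w) := by
  refine ⟨⟨Cfsg.sympTransvection m w 1, Cfsg.sympTransvection m w (-1), ?_, ?_⟩, ?_, ?_, ?_⟩
  · rw [sympTransvection_mul, add_neg_cancel, sympTransvection_zero]
  · rw [sympTransvection_mul, neg_add_cancel, sympTransvection_zero]
  · exact fun u v => sympForm_mulVec m (sympTransvection_mem m w 1) u v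
  · intro x
    have := sympTransvection_mulVec m w 1 x
    rwa [one_mul] at this
  · intro x
    have := sympTransvection_mulVec m w (-1) x
    rw [neg_one_mul] at this
    exact this

/-- Over the field with 3 elements and for m ≥ 7, suppose the standard alternating form on F^(2m) is similar, through P and e, to the tensor product of a non-degenerate symplectic form f₁ on F^(n₁) and a non-degenerate symmetric bilinear form f₂ on F^3. Then the elements of Sp_2m(3) in the stabiliser of this tensor decomposition form a subgroup that is not maximal: some subgroup lies strictly between it and Sp_2m(3). -/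
theorem result {F : Type*} [Field F] [Fintype F] (m : ℕ) (hm : 7 ≤ m) (hq : Fintype.card F = 3) (n₁ : ℕ) (e : (Fin m ⊕ Fin m) ≃ Fin n₁ × Fin 3) (P : Matrix.GeneralLinearGroup (Fin m ⊕ Fin m) F) (f₁ : (Fin n₁ → F) → (Fin n₁ → F) → F) (f₂ : (Fin 3 → F) → (Fin 3 → F) → F) (hf₁ : Cfsg.Geo.IsSymplecticForm f₁) (hf₂ : Cfsg.Geo.IsSymmetricForm f₂) (hT : Cfsg.Geo.IsTensorFormStructure id (Cfsg.sympForm m F) f₁ f₂ e P) : ∃ K : Subgroup (Matrix.GeneralLinearGroup (Fin m ⊕ Fin m) F), Cfsg.Geo.tensorProductSubgroup n₁ 3 e P ⊓ Cfsg.spGL m F < K ∧ K < Cfsg.spGL m F := by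
  classical
  have hcard : 2 * m = n₁ * 3 := by
    have := Fintype.card_congr e
    simp at this; omega
  have hn0 : 0 < n₁ := by omega
  obtain ⟨c, hc, hform⟩ := tens_form hf₁.bilinear hf₂.bilinear hT
  set τ : (Fin 3 → F) → (Fin n₁ → F) → (Fin m ⊕ Fin m → F) := fun x y => tvc e P (ptens y x) with hτdef
  have hτ : Tau τ := (tau_std e P).swap
  have hΦ : ∀ x y x' y', Cfsg.sympForm m F (τ x y) (τ x' y') = c * (f₂ x x' * f₁ y y') := by
    intro x y x' y'
    have := hform y x y' x'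
    rw [mul_comm (f₂ x x')]; exact this
  obtain ⟨u, ε, hu⟩ := exists_fr3 hq hf₂
  -- nonzero vectors
  obtain ⟨a, ha⟩ : ∃ a : Fin n₁ → F, a ≠ 0 :=
    ⟨Pi.single ⟨0, hn0⟩ 1, fun h => one_ne_zero (α := F) (by simpa using congrFun h ⟨0, hn0⟩)⟩
  obtain ⟨⟨y, hy⟩, -⟩ := hf₁.nondegenerate a ha
  have hτ0 : ∀ {x : Fin 3 → F} {y : Fin n₁ → F}, x ≠ 0 → y ≠ 0 → τ x y ≠ 0 := by
    intro x y hx hy h
    have e0 : τ x y = τ 0 y := by
      rw [h, ← zero_smul F (0 : Fin 3 → F), hτ.smul_left, zero_smul]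
    obtain ⟨ν, h1, h2⟩ := hτ.inj 0 y x y e0.symm hx hy
    have hν : ν = 0 := (smul_eq_zero.1 h1.symm).resolve_right hx
    rw [hν, zero_smul] at h2
    exact hy h2
  have hu0 := hu.ne_zero hf₂.bilinear 0
  set K : Subgroup (Matrix.GeneralLinearGroup (Fin m ⊕ Fin m) F) :=
    Cfsg.stabilizing (Cfsg.glToMat (Fin m ⊕ Fin m) F) (TS τ u) with hK
  refine ⟨K ⊓ Cfsg.spGL m F, lt_of_le_of_ne ?_ ?_, lt_of_le_of_ne inf_le_right ?_⟩
  · -- inclusion
    have hfw : ∀ g : Matrix.GeneralLinearGroup (Fin m ⊕ Fin m) F,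
        g ∈ Cfsg.Geo.tensorProductSubgroup n₁ 3 e P → g ∈ Cfsg.spGL m F → ∀ v ∈ TS τ u,
        (g : Matrix (Fin m ⊕ Fin m) (Fin m ⊕ Fin m) F) *ᵥ v ∈ TS τ u := by
      intro g hg hg' v hv
      obtain ⟨A, B, hAB⟩ := tens_act hg
      exact pres_TS (Φ := Cfsg.sympForm m F) hq hτ hf₂ hu hc hΦ ⟨y, a, hy⟩
        (g := fun v => (g : Matrix (Fin m ⊕ Fin m) (Fin m ⊕ Fin m) F) *ᵥ v)
        (fun a b => hg' a b) (A := (B : Matrix (Fin 3) (Fin 3) F))
        (B := fun y => (A : Matrix (Fin n₁) (Fin n₁) F) *ᵥ y) (fun x y => hAB y x) hv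
    rintro g ⟨hg, hg'⟩
    refine ⟨fun v => ⟨hfw g hg hg' v, fun h => ?_⟩, hg'⟩
    have h1 := hfw g⁻¹ (inv_mem hg) (inv_mem hg') _ h
    change ((g⁻¹ : Matrix.GeneralLinearGroup (Fin m ⊕ Fin m) F) :
        Matrix (Fin m ⊕ Fin m) (Fin m ⊕ Fin m) F) *ᵥ
        ((g : Matrix (Fin m ⊕ Fin m) (Fin m ⊕ Fin m) F) *ᵥ v) ∈ TS τ u at h1
    rwa [Matrix.mulVec_mulVec, ← Units.val_mul, inv_mul_cancel, Units.val_one,
      Matrix.one_mulVec] at h1
  · -- a transvection inside the first subspace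
    intro heq
    obtain ⟨g, hg, hg1, hg2⟩ := exists_tv m (τ (u 0) a)
    have hstep : ∀ (s : F) (k : Fin 3) (z : Fin n₁ → F),
        ∃ z', τ (u k) z + (s * Cfsg.sympForm m F (τ (u k) z) (τ (u 0) a)) • τ (u 0) a =
          τ (u k) z' := by
      intro s k z
      by_cases hk : k = 0
      · subst hk
        exact ⟨z + (s * Cfsg.sympForm m F (τ (u 0) z) (τ (u 0) a)) • a, by
          rw [hτ.add_right, hτ.smul_right]⟩
      · exact ⟨z, by rw [hΦ, hu.orth k 0 hk, zero_mul, mul_zero, mul_zero, zero_smul, add_zero]⟩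
    have hgK : g ∈ K := by
      intro v
      constructor
      · rintro ⟨k, z, rfl⟩
        obtain ⟨z', hz'⟩ := hstep 1 k z
        rw [one_mul] at hz'
        exact ⟨k, z', (hg1 _).trans hz'⟩
      · rintro ⟨k, z, hz⟩
        obtain ⟨z', hz'⟩ := hstep (-1) k z
        rw [neg_one_mul] at hz'
        refine ⟨k, z', ?_⟩
        rw [← hz', ← hg2, ← hz]
        change v = ((g⁻¹ : Matrix.GeneralLinearGroup (Fin m ⊕ Fin m) F) :
          Matrix (Fin m ⊕ Fin m) (Fin m ⊕ Fin m) F) *ᵥ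
          ((g : Matrix (Fin m ⊕ Fin m) (Fin m ⊕ Fin m) F) *ᵥ v)
        rw [Matrix.mulVec_mulVec, ← Units.val_mul, inv_mul_cancel, Units.val_one,
          Matrix.one_mulVec]
    have h1 : g ∈ K ⊓ Cfsg.spGL m F := ⟨hgK, hg⟩
    rw [← heq] at h1
    obtain ⟨A, B, hAB⟩ := tens_act h1.1
    have h2 := rigid (g := fun v => (g : Matrix (Fin m ⊕ Fin m) (Fin m ⊕ Fin m) F) *ᵥ v) hτ
      hf₂.bilinear hu (A := fun x => (B : Matrix (Fin 3) (Fin 3) F) *ᵥ x)
      (B := fun y => (A : Matrix (Fin n₁) (Fin n₁) F) *ᵥ y) (fun x y => hAB y x)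
      (fun z => by
        change (g : Matrix (Fin m ⊕ Fin m) (Fin m ⊕ Fin m) F) *ᵥ τ (u 1) z = _
        rw [hg1, hΦ, hu.orth 1 0 (by decide), zero_mul, mul_zero, zero_smul, add_zero]) ha
      (by
        change (g : Matrix (Fin m ⊕ Fin m) (Fin m ⊕ Fin m) F) *ᵥ τ (u 0) a = _
        rw [hg1, sympForm_self, zero_smul, add_zero]) y
    change (g : Matrix (Fin m ⊕ Fin m) (Fin m ⊕ Fin m) F) *ᵥ τ (u 0) y = _ at h2
    rw [hg1, hΦ, hu.self, add_eq_left, smul_eq_zero] at h2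
    rcases h2 with h2 | h2
    · exact mul_ne_zero hc (mul_ne_zero hu.eps hy) h2
    · exact hτ0 hu0 ha h2
  · -- a transvection moving the union
    intro heq
    obtain ⟨g, hg, hg1, -⟩ := exists_tv m (τ (u 0) a + τ (u 1) a)
    rw [← heq] at hg
    have h1 := (hg.1 (τ (u 0) y)).1 ⟨0, y, rfl⟩
    change (g : Matrix (Fin m ⊕ Fin m) (Fin m ⊕ Fin m) F) *ᵥ τ (u 0) y ∈ TS τ u at h1
    have hs : Cfsg.sympForm m F (τ (u 0) y) (τ (u 0) a + τ (u 1) a) = c * (ε * f₁ y a) := by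
      rw [sympForm_add_right, hΦ, hΦ, hu.self, hu.orth 0 1 (by decide)]; ring
    have hs0 : c * (ε * f₁ y a) ≠ 0 := mul_ne_zero hc (mul_ne_zero hu.eps hy)
    rw [hg1, hs] at h1
    set s := c * (ε * f₁ y a)
    have h2 : τ (u 0) y + s • (τ (u 0) a + τ (u 1) a) = τ (u 0) (y + s • a) + τ (u 1) (s • a) := by
      rw [hτ.add_right, hτ.smul_right, hτ.smul_right, smul_add, add_assoc]
    rw [h2] at h1
    refine add_not_mem_TS (Φ := Cfsg.sympForm m F) hu hc hΦ (fun a b d => sympForm_add_left m a b d)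
      (fun z hz => (hf₁.nondegenerate z hz).2) ?_ (smul_ne_zero hs0 ha) h1
    intro h3
    apply hy
    have h4 : y = (-s) • a := by rw [neg_smul]; exact eq_neg_of_add_eq_zero_left h3
    rw [h4, hf₁.bilinear.smul_left, hf₁.alternating, mul_zero]

end Cfsg.Agent.S5667
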