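import Cfsg.Statements.S5675
import Cfsg.Agent.GeoMax.ONDGlue

set_option autoImplicit false
open Cfsg

namespace Cfsg.Agent.S5675

/-- Let F be a finite field of odd order q, m ≥ 6, Q the standard quadratic form on F^(2m+1) and Ω the commutator subgroup of its isometry group. Let W be a non-zero subspace of even dimension on which the polar form of Q is non-degenerate; exclude the case q = 3, dim W = 2 with Q vanishing on some line of W (a plus-type plane). Then the elements of Ω stabilising W (equivalently, stabilising its orthogonal complement, of odd dimension) form a maximal subgroup of Ω. -/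
theorem result {F : Type*} [Field F] [Fintype F] (hodd : Odd (Fintype.card F)) (m : ℕ) (hm : 6 ≤ m) (W : Submodule F (Unit ⊕ (Fin m ⊕ Fin m) → F)) (hW0 : W ≠ ⊥) (hev : Even (Module.finrank F W)) (hW : Cfsg.Geo.IsNondegenerateOn (QuadraticMap.polar (Cfsg.quadFormOdd m F)) W) (hex : ¬ (Fintype.card F = 3 ∧ Module.finrank F W = 2 ∧ Cfsg.Geo.IsPlusTypeOn (Cfsg.quadFormOdd m F) W)) : Cfsg.Geo.IsMaximalIn (Cfsg.Geo.omegaGL (Cfsg.quadFormOdd m F)) (Cfsg.Geo.subspaceStabilizer W ⊓ Cfsg.Geo.omegaGL (Cfsg.quadFormOdd m F)) := by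
  classical
  have h2 : (2 : F) ≠ 0 := Cfsg.Agent.GeoMax.Ort.two_ne_zero_of_odd hodd
  have hfr : Module.finrank F (Unit ⊕ (Fin m ⊕ Fin m) → F) = 2 * m + 1 := by
    rw [Module.finrank_fintype_fun_eq_card]; simp; omega
  have hnd := Cfsg.Agent.Orth.qfOdd_nondegenerate m F h2
  have hdim := Cfsg.Agent.Orth.finrank_perp hnd W
  refine Cfsg.Agent.GeoMax.Ort.isMaximalIn_omegaGL (Cfsg.Agent.Orth.qfOdd m F)
    (Cfsg.Agent.GeoMax.Ort.mem_stabO_iff_emGL _ W) ?_
  have hWp : W ⊓ Cfsg.Agent.Orth.perp (Cfsg.Agent.Orth.qfOdd m F) W = ⊥ :=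
    Cfsg.Agent.GeoMax.Ort.inf_perp_of_geo hW
  obtain ⟨k, hk⟩ := hev
  refine Cfsg.Agent.GeoMax.Ort.nd_maximal hnd hWp (by omega) hW0 ?_ (fun h => by omega) ?_ (fun h => by omega)
  · rintro rfl
    rw [finrank_top] at hk
    omega
  · rintro hd ⟨s, hs, hs0, hq⟩
    by_contra hcon
    rw [Nat.card_eq_fintype_card] at hcon
    have h1 : 1 < Fintype.card F := Fintype.one_lt_card
    obtain ⟨j, hj⟩ := hodd
    refine hex ⟨by omega, hd, Submodule.span F {s}, ?_, ?_, ?_⟩
    · rw [Submodule.span_singleton_le_iff_mem]; exact hs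
    · intro w hw
      obtain ⟨c, rfl⟩ := Submodule.mem_span_singleton.1 hw
      have := Cfsg.Agent.Orth.qsmul (Cfsg.Agent.Orth.qfOdd m F) c s
      rw [hq, mul_zero] at this
      exact this
    · rw [finrank_span_singleton hs0, hd]

end Cfsg.Agent.S5675
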