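import Cfsg.Statements.S5676
import Cfsg.Agent.OMax.PlaneQ3

set_option autoImplicit false
open Cfsg

namespace Cfsg.Agent.S5676

/-- Let F be the field with 3 elements, m ≥ 6, Q the standard quadratic form on F^(2m+1) and Ω the commutator subgroup of its isometry group. Let W be a 2-dimensional subspace on which the polar form is non-degenerate and which contains a line on which Q vanishes. Then the elements of Ω stabilising W form a subgroup that is not maximal: some subgroup lies strictly between it and Ω. -/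
theorem result {F : Type*} [Field F] [Fintype F] (hq : Fintype.card F = 3) (m : ℕ) (hm : 6 ≤ m) (W : Submodule F (Unit ⊕ (Fin m ⊕ Fin m) → F)) (hdim : Module.finrank F W = 2) (hW : Cfsg.Geo.IsNondegenerateOn (QuadraticMap.polar (Cfsg.quadFormOdd m F)) W) (hplus : Cfsg.Geo.IsPlusTypeOn (Cfsg.quadFormOdd m F) W) : ∃ K : Subgroup (Matrix.GeneralLinearGroup (Unit ⊕ (Fin m ⊕ Fin m)) F), Cfsg.Geo.subspaceStabilizer W ⊓ Cfsg.Geo.omegaGL (Cfsg.quadFormOdd m F) < K ∧ K < Cfsg.Geo.omegaGL (Cfsg.quadFormOdd m F) := by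
  classical
  have h2 : (2 : F) ≠ 0 := Orth.two_ne_zero_of_odd (by rw [hq]; decide)
  have hQ : (QuadraticMap.polarBilin (Orth.qfOdd m F)).Nondegenerate :=
    Orth.qfOdd_nondegenerate m F h2
  have hfr : Module.finrank F (Unit ⊕ (Fin m ⊕ Fin m) → F) = 2 * m + 1 := by
    rw [Module.finrank_fintype_fun_eq_card]
    simp; ring
  obtain ⟨U, hUW, hU0, hUd⟩ := hplus
  have hU1 : Module.finrank F U = 1 := by omega
  obtain ⟨e, he0, -⟩ := finrank_eq_one_iff'.1 hU1
  refine OMax.plane_not_maximal hq (Orth.qfOdd m F) hQ (by rw [hfr]; omega) W ?_ hdim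
    (e := (e : Unit ⊕ (Fin m ⊕ Fin m) → F)) (hUW e.2) (fun h => he0 (Subtype.ext h)) (hU0 e e.2)
  rw [eq_bot_iff]
  rintro x ⟨hx, hxp⟩
  by_contra hx0
  obtain ⟨⟨y, hy, hyx⟩, -⟩ := hW x hx (fun h => hx0 (by rw [h]; rfl))
  exact hyx (hxp y hy)

end Cfsg.Agent.S5676
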