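import Cfsg.Statements.S5677
import Cfsg.Agent.OMax.Max
import Cfsg.Agent.Orth.Arith

set_option autoImplicit false
open Cfsg

namespace Cfsg.Agent.S5677

/-- Let F be a finite field of odd order q, m ≥ 6, Q the standard quadratic form on F^(2m+1) and Ω the commutator subgroup of its isometry group. Let D be a decomposition of F^(2m+1) into t ≥ 2 pairwise orthogonal, pairwise Q-isometric subspaces of equal dimension k > 1 on which the polar form is non-degenerate. Unless q = 3 and k = 3, the elements of Ω permuting the members of D form a maximal subgroup of Ω. -/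
theorem result {F : Type*} [Field F] [Fintype F] (hodd : Odd (Fintype.card F)) (m : ℕ) (hm : 6 ≤ m) {t : ℕ} (k : ℕ) (hk : 1 < k) (D : Fin t → Submodule F (Unit ⊕ (Fin m ⊕ Fin m) → F)) (hD : Cfsg.Geo.IsOrthogonalMDecomposition (Cfsg.quadFormOdd m F) k D) (hex : ¬ (Fintype.card F = 3 ∧ k = 3)) : Cfsg.Geo.IsMaximalIn (Cfsg.Geo.omegaGL (Cfsg.quadFormOdd m F)) (Cfsg.Geo.decompositionStabilizer D ⊓ Cfsg.Geo.omegaGL (Cfsg.quadFormOdd m F)) := by
  classical
  have h2 : (2 : F) ≠ 0 := Orth.two_ne_zero_of_odd hodd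
  have hQ : (QuadraticMap.polarBilin (Orth.qfOdd m F)).Nondegenerate :=
    Orth.qfOdd_nondegenerate m F h2
  have hD' : Cfsg.Geo.IsOrthogonalMDecomposition (⇑(Orth.qfOdd m F)) k D := hD
  have hcard : t * k = 2 * m + 1 := by
    rw [OMax.mul_eq_finrank hD.decomp.decomp]
    simp; ring
  have hfr : Module.finrank F (Unit ⊕ (Fin m ⊕ Fin m) → F) = 2 * m + 1 := by
    rw [Module.finrank_fintype_fun_eq_card]
    simp; ring
  have hkodd : Odd k := by
    have : Odd (t * k) := by rw [hcard]; exact ⟨m, rfl⟩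
    exact (Nat.odd_mul.1 this).2
  have hk3 : 3 ≤ k := by
    obtain ⟨a, ha⟩ := hkodd
    omega
  have hq : 4 ≤ k ∨ 5 ≤ Nat.card F := by
    by_cases h4 : 4 ≤ k
    · exact Or.inl h4
    · right
      have hk3' : k = 3 := by omega
      rw [Nat.card_eq_fintype_card]
      have h1 : 1 < Fintype.card F := Fintype.one_lt_card
      obtain ⟨a, ha⟩ := hodd
      have h3 : Fintype.card F ≠ 3 := fun h => hex ⟨h, hk3'⟩
      omega
  have ht : 2 ≤ t := hD.decomp.decomp.two_le
  have hF : OMax.IsFrame (Orth.qfOdd m F) k D := OMax.isFrame_of_decomp hD'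
  refine OMax.isMaximalIn_of_abstract (Orth.qfOdd m F) (Cfsg.Geo.decompositionStabilizer D)
    (fun g => ∃ σ : Equiv.Perm (Fin t), ∀ i, OMax.act g (D i) = D (σ i))
    (OMax.mem_decompStab_iff _ D) ?_ ?_
  · exact OMax.not_preserved hQ (by rw [hfr]; omega) hF hk3 ht
  · intro M _ hHM hM
    exact OMax.frame_maximal ⟨hQ, h2, by rw [hfr]; omega, hk3, hq, hF, hHM⟩
      (OMax.isom_of_decomp hD') hM

end Cfsg.Agent.S5677
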