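import Cfsg.Statements.S5680
import Cfsg.Agent.H98.OrO

set_option autoImplicit false
open Cfsg

namespace Cfsg.Agent.S5680


/-- Let F be a finite field of odd order, m ≥ 6, Q the standard quadratic form on F^(2m+1) and Ω the commutator subgroup of its isometry group. Let K be a subfield of the algebra of (2m+1) × (2m+1) matrices over F containing the scalars, of prime degree r over F with r ≠ 2m + 1, whose elements are self-adjoint for the polar form of Q. Then the elements of Ω normalising K form a maximal subgroup of Ω. -/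
theorem result {F : Type*} [Field F] [Fintype F] (hodd : Odd (Fintype.card F)) (m : ℕ) (hm : 6 ≤ m) (r : ℕ) (hr : r.Prime) (hrn : 2 * m + 1 ≠ r) (K : Subalgebra F (Matrix (Unit ⊕ (Fin m ⊕ Fin m)) (Unit ⊕ (Fin m ⊕ Fin m)) F)) (hK : Cfsg.Geo.IsFieldSubalgebra r K) (hsa : Cfsg.Geo.IsSelfAdjointFor (QuadraticMap.polar (Cfsg.quadFormOdd m F)) K) : Cfsg.Geo.IsMaximalIn (Cfsg.Geo.omegaGL (Cfsg.quadFormOdd m F)) (Cfsg.Geo.subalgebraNormalizer K ⊓ Cfsg.Geo.omegaGL (Cfsg.quadFormOdd m F)) := by
  have h2 := GeoMax.Ort.two_ne_zero_of_odd hodd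
  have hcard : Fintype.card (Unit ⊕ (Fin m ⊕ Fin m)) = 2 * m + 1 := by
    simp only [Fintype.card_sum, Fintype.card_unit, Fintype.card_fin]
    ring
  have hdvd := AschCases.dvd_card_of_isFieldSubalgebra hK
  rw [hcard] at hdvd
  obtain ⟨d, hd⟩ := hdvd
  have hr2 : r ≠ 2 := by
    rintro rfl
    omega
  have hd3 : 3 ≤ d := by
    by_contra hcon
    push Not at hcon
    interval_cases d
    · omega
    · omega
    · omega
  have hnr : 3 * r ≤ 2 * m + 1 := by
    rw [hd, mul_comm]
    exact Nat.mul_le_mul_left r hd3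
  have key := H98.Or.or_maximal (Q := Orth.qfOdd m F) (Orth.qfOdd_nondegenerate m F h2) K hK hsa h2 hr
    (by rw [hcard]; omega) (by rw [hcard]; exact hnr) (fun h => absurd h hr2)
  exact key

end Cfsg.Agent.S5680
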