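import Cfsg.Statements.S5682
import Cfsg.Agent.OMax.Tens33
import Cfsg.Agent.Orth.Arith

set_option autoImplicit false
open Cfsg

namespace Cfsg.Agent.S5682

open OMax Orth QuadraticMap
open scoped Matrix

/-- Let F be the field with 3 elements, m ≥ 6, Q the standard quadratic form on F^(2m+1) and Ω the commutator subgroup of its isometry group. Suppose the polar form of Q is similar, through P and e, to the tensor product of non-degenerate symmetric bilinear forms f₁ on F^3 and f₂ on F^(n₂) with 3 < n₂. Then the elements of Ω in the stabiliser of this tensor decomposition form a subgroup that is not maximal: some subgroup lies strictly between it and Ω. -/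
theorem result {F : Type*} [Field F] [Fintype F] (hq : Fintype.card F = 3) (m : ℕ) (hm : 6 ≤ m) (n₂ : ℕ) (h2 : 3 < n₂) (e : (Unit ⊕ (Fin m ⊕ Fin m)) ≃ Fin 3 × Fin n₂) (P : Matrix.GeneralLinearGroup (Unit ⊕ (Fin m ⊕ Fin m)) F) (f₁ : (Fin 3 → F) → (Fin 3 → F) → F) (f₂ : (Fin n₂ → F) → (Fin n₂ → F) → F) (hf₁ : Cfsg.Geo.IsSymmetricForm f₁) (hf₂ : Cfsg.Geo.IsSymmetricForm f₂) (hT : Cfsg.Geo.IsTensorFormStructure id (QuadraticMap.polar (Cfsg.quadFormOdd m F)) f₁ f₂ e P) : ∃ K : Subgroup (Matrix.GeneralLinearGroup (Unit ⊕ (Fin m ⊕ Fin m)) F), Cfsg.Geo.tensorProductSubgroup 3 n₂ e P ⊓ Cfsg.Geo.omegaGL (Cfsg.quadFormOdd m F) < K ∧ K < Cfsg.Geo.omegaGL (Cfsg.quadFormOdd m F) := by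
  classical
  have h2' : (2 : F) ≠ 0 := Orth.two_ne_zero_of_odd (by rw [hq]; decide)
  have hQ : (QuadraticMap.polarBilin (Orth.qfOdd m F)).Nondegenerate :=
    Orth.qfOdd_nondegenerate m F h2'
  have hfr : Module.finrank F (Unit ⊕ (Fin m ⊕ Fin m) → F) = 2 * m + 1 := by
    rw [Module.finrank_fintype_fun_eq_card]
    simp; ring
  obtain ⟨Q, hQdef⟩ : ∃ Q, Q = Orth.qfOdd m F := ⟨_, rfl⟩
  rw [← hQdef] at hQ
  have hT' : Cfsg.Geo.IsTensorFormStructure id (QuadraticMap.polar Q) f₁ f₂ e P := by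
    rw [hQdef]; exact hT
  have hgoal : ∃ K : Subgroup (Matrix.GeneralLinearGroup (Unit ⊕ (Fin m ⊕ Fin m)) F),
      Cfsg.Geo.tensorProductSubgroup 3 n₂ e P ⊓ Cfsg.Geo.omegaGL ⇑Q < K ∧
        K < Cfsg.Geo.omegaGL ⇑Q := by
    clear hT
    obtain ⟨c, hc, hform⟩ := tens_form hf₁.bilinear hf₂.bilinear hT'
    set τ : (Fin 3 → F) → (Fin n₂ → F) → (Unit ⊕ (Fin m ⊕ Fin m) → F) :=
      fun x y => tvc e P (ptens x y) with hτdef
    have hτ : Tau τ := tau_std e P
    have hΦ : ∀ x y x' y', polar Q (τ x y) (τ x' y') = c * (f₁ x x' * f₂ y y') := hform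
    obtain ⟨u, ε, hu⟩ := exists_fr3 hq hf₁
    have hτ0 : ∀ {x : Fin 3 → F} {y : Fin n₂ → F}, x ≠ 0 → y ≠ 0 → τ x y ≠ 0 := by
      intro x y hx hy h
      have e0 : τ x y = τ 0 y := by
        rw [h, ← zero_smul F (0 : Fin 3 → F), hτ.smul_left, zero_smul]
      obtain ⟨ν, h1, h2⟩ := hτ.inj 0 y x y e0.symm hx hy
      have hν : ν = 0 := (smul_eq_zero.1 h1.symm).resolve_right hx
      rw [hν, zero_smul] at h2
      exact hy h2
    have hu0 := hu.ne_zero hf₁.bilinear 0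
    have hq2 : ∀ k y, 2 * Q (τ (u k) y) = c * (ε * f₂ y y) := by
      intro k y
      rw [← pself, hΦ, hu.self]
    -- the second factor
    set q₂ := qOfBil hf₂.bilinear with hq₂def
    have hpol : ∀ x y, polar q₂ x y = 2 * f₂ x y := qOfBil_polar hf₂.bilinear hf₂.symm
    have hE : (⊤ : Submodule F (Fin n₂ → F)) ⊓ perp q₂ ⊤ = ⊥ := by
      rw [eq_bot_iff]
      rintro x ⟨-, hx⟩
      by_contra hx0
      obtain ⟨⟨y, hy⟩, -⟩ := hf₂.nondegenerate x (fun h => hx0 (by rw [h]; rfl))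
      have : polar q₂ y x = 0 := hx y trivial
      rw [hpol] at this
      exact hy ((mul_eq_zero.1 this).resolve_left h2')
    have hd : 3 ≤ Module.finrank F (⊤ : Submodule F (Fin n₂ → F)) := by
      rw [finrank_top, Module.finrank_fin_fun]; omega
    obtain ⟨a, -, ha0, hqa⟩ := sub_singular (Q := q₂) hE hd
    obtain ⟨b, -, hab, hqb⟩ := sub_nonsing_perp (Q := q₂) hE hd (e := a) trivial
    have hfa : f₂ a a = 0 := hqa
    have hfb : f₂ b b ≠ 0 := hqb
    have hfab : f₂ a b = 0 := by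
      rw [hpol] at hab; exact (mul_eq_zero.1 hab).resolve_left h2'
    have hb0 : b ≠ 0 := by
      intro h
      apply hfb
      have := hf₂.bilinear.smul_left 0 0 0
      rw [h]; simpa using this
    obtain ⟨⟨y, hy⟩, -⟩ := hf₂.nondegenerate a ha0
    have hqA : Q (τ (u 0) a) = 0 := by
      have := hq2 0 a
      rw [hfa, mul_zero, mul_zero] at this
      exact (mul_eq_zero.1 this).resolve_left h2'
    set K : Subgroup (Matrix.GeneralLinearGroup (Unit ⊕ (Fin m ⊕ Fin m)) F) :=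
      Cfsg.stabilizing (Cfsg.glToMat (Unit ⊕ (Fin m ⊕ Fin m)) F) (TS τ u) with hK
    have hKmem : ∀ g : ↥(Cfsg.isometryGroup F ⇑Q),
        (g : Matrix.GeneralLinearGroup (Unit ⊕ (Fin m ⊕ Fin m)) F) ∈ K ↔
        ∀ v, v ∈ TS τ u ↔ (bridge Q g :
          (Unit ⊕ (Fin m ⊕ Fin m) → F) ≃ₗ[F] (Unit ⊕ (Fin m ⊕ Fin m) → F)) v ∈ TS τ u :=
      fun g => Iff.rfl
    refine ⟨K ⊓ Cfsg.Geo.omegaGL ⇑Q, lt_of_le_of_ne ?_ ?_, lt_of_le_of_ne inf_le_right ?_⟩
    · -- inclusion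
      rintro g ⟨hgD, hgΩ⟩
      refine ⟨?_, hgΩ⟩
      have hgI : g ∈ Cfsg.isometryGroup F ⇑Q := omegaGL_le Q hgΩ
      have hfw : ∀ g' : ↥(Cfsg.isometryGroup F ⇑Q),
          (g' : Matrix.GeneralLinearGroup (Unit ⊕ (Fin m ⊕ Fin m)) F) ∈
            Cfsg.Geo.tensorProductSubgroup 3 n₂ e P → ∀ v ∈ TS τ u, (bridge Q g' :
          (Unit ⊕ (Fin m ⊕ Fin m) → F) ≃ₗ[F] (Unit ⊕ (Fin m ⊕ Fin m) → F)) v ∈ TS τ u := by
        intro g' hg' v hv
        obtain ⟨A, B, hAB⟩ := tens_act hg'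
        exact pres_TS (Φ := polar Q) hq hτ hf₁ hu hc hΦ ⟨b, b, hfb⟩
          (g := fun v => (bridge Q g' :
            (Unit ⊕ (Fin m ⊕ Fin m) → F) ≃ₗ[F] (Unit ⊕ (Fin m ⊕ Fin m) → F)) v)
          (fun a b => OGrp_polar _ a b) (A := (A : Matrix (Fin 3) (Fin 3) F))
          (B := fun y => (B : Matrix (Fin n₂) (Fin n₂) F) *ᵥ y) (fun x y => hAB x y) hv
      refine (hKmem ⟨g, hgI⟩).2 fun v => ⟨hfw ⟨g, hgI⟩ hgD v, fun h => ?_⟩
      have h1 := hfw (⟨g, hgI⟩ : ↥(Cfsg.isometryGroup F ⇑Q))⁻¹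
        ((Cfsg.Geo.tensorProductSubgroup 3 n₂ e P).inv_mem hgD) _ h
      rwa [map_inv, coe_inv_apply_self] at h1
    · -- a Siegel element inside the first subspace
      intro heq
      have hAB0 : ∀ z, polar Q (τ (u 0) a) (τ (u 0) z) = c * (ε * f₂ a z) := by
        intro z; rw [hΦ, hu.self]
      have hABb : polar Q (τ (u 0) a) (τ (u 0) b) = 0 := by rw [hAB0, hfab]; ring
      set E := eich Q (τ (u 0) a) (τ (u 0) b) hqA hABb with hEdef
      have hEΩ : E ∈ commutator (OGrp Q) := eich_mem_comm hQ (by omega) hqA hABb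
      have hABnb : polar Q (τ (u 0) a) (-τ (u 0) b) = 0 := by rw [polar_neg_right, hABb, neg_zero]
      have hEinv : E⁻¹ = eich Q (τ (u 0) a) (-τ (u 0) b) hqA hABnb := by
        rw [inv_eq_iff_mul_eq_one, hEdef, eich_mul]
        refine OGrp_ext fun x => ?_
        rw [eich_apply, coe_one_apply, add_neg_cancel]; simp
      have hstep : ∀ (z : Fin n₂ → F) (hz : polar Q (τ (u 0) a) (τ (u 0) z) = 0),
          ∀ v ∈ TS τ u, (eich Q (τ (u 0) a) (τ (u 0) z) hqA hz :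
            (Unit ⊕ (Fin m ⊕ Fin m) → F) ≃ₗ[F] (Unit ⊕ (Fin m ⊕ Fin m) → F)) v ∈ TS τ u := by
        rintro z hz v ⟨k, y, rfl⟩
        by_cases hk : k = 0
        · subst hk
          rw [eich_apply]
          refine ⟨0, y + polar Q (τ (u 0) y) (τ (u 0) z) • a - polar Q (τ (u 0) y) (τ (u 0) a) • z -
            (Q (τ (u 0) z) * polar Q (τ (u 0) y) (τ (u 0) a)) • a, ?_⟩
          simp only [sub_eq_add_neg, ← neg_smul, hτ.add_right, hτ.smul_right]
        · rw [eich_fix hqA hz (by rw [hΦ, hu.orth k 0 hk]; ring)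
            (by rw [hΦ, hu.orth k 0 hk]; ring)]
          exact ⟨k, y, rfl⟩
      have hneg : -τ (u 0) b = τ (u 0) (-b) := by
        rw [← neg_one_smul F (τ (u 0) b), ← neg_one_smul F b, hτ.smul_right]
      have hEinv' : ∀ v ∈ TS τ u, ((E⁻¹ : OGrp Q) :
            (Unit ⊕ (Fin m ⊕ Fin m) → F) ≃ₗ[F] (Unit ⊕ (Fin m ⊕ Fin m) → F)) v ∈ TS τ u := by
        have hABnb' : polar Q (τ (u 0) a) (τ (u 0) (-b)) = 0 := by rw [← hneg]; exact hABnb
        intro v hv
        have h1 := hstep (-b) hABnb' v hv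
        rw [hEinv]
        rw [eich_apply] at h1 ⊢
        rw [hneg]; exact h1
      have hbg : bridge Q ((bridge Q).symm E) = E := MulEquiv.apply_symm_apply _ _
      have h1 : (((bridge Q).symm E : ↥(Cfsg.isometryGroup F ⇑Q)) :
          Matrix.GeneralLinearGroup (Unit ⊕ (Fin m ⊕ Fin m)) F) ∈ K ⊓ Cfsg.Geo.omegaGL ⇑Q := by
        refine ⟨(hKmem _).2 fun v => ⟨fun hv => ?_, fun hv => ?_⟩, ?_⟩
        · rw [hbg]; exact hstep b hABb v hv
        · rw [hbg] at hv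
          have := hEinv' _ hv
          rwa [coe_inv_apply_self] at this
        · change _ ∈ Cfsg.Geo.omegaGL ⇑Q
          rw [mem_omegaGL_iff, hbg]; exact hEΩ
      rw [← heq] at h1
      obtain ⟨A, B, hAB⟩ := tens_act h1.1
      have hact : ∀ v, (((bridge Q).symm E : ↥(Cfsg.isometryGroup F ⇑Q)) :
          Matrix.GeneralLinearGroup (Unit ⊕ (Fin m ⊕ Fin m)) F).val *ᵥ v =
          (E : (Unit ⊕ (Fin m ⊕ Fin m) → F) ≃ₗ[F] (Unit ⊕ (Fin m ⊕ Fin m) → F)) v := by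
        intro v
        have := congrArg (fun g : OGrp Q =>
          (g : (Unit ⊕ (Fin m ⊕ Fin m) → F) ≃ₗ[F] (Unit ⊕ (Fin m ⊕ Fin m) → F)) v) hbg
        exact this
      have h2 := rigid (g := fun v =>
          (E : (Unit ⊕ (Fin m ⊕ Fin m) → F) ≃ₗ[F] (Unit ⊕ (Fin m ⊕ Fin m) → F)) v) hτ
        hf₁.bilinear hu (A := fun x => (A : Matrix (Fin 3) (Fin 3) F) *ᵥ x)
        (B := fun y => (B : Matrix (Fin n₂) (Fin n₂) F) *ᵥ y)
        (fun x y => (hact _).symm.trans (hAB x y))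
        (fun z => by
          change (E : (Unit ⊕ (Fin m ⊕ Fin m) → F) ≃ₗ[F] (Unit ⊕ (Fin m ⊕ Fin m) → F))
            (τ (u 1) z) = _
          rw [hEdef, eich_fix hqA hABb (by rw [hΦ, hu.orth 1 0 (by decide)]; ring)
            (by rw [hΦ, hu.orth 1 0 (by decide)]; ring)]) ha0
        (by
          change (E : (Unit ⊕ (Fin m ⊕ Fin m) → F) ≃ₗ[F] (Unit ⊕ (Fin m ⊕ Fin m) → F))
            (τ (u 0) a) = _
          rw [hEdef, eich_fix hqA hABb (by rw [pself, hqA, mul_zero]) hABb]) b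
      change (E : (Unit ⊕ (Fin m ⊕ Fin m) → F) ≃ₗ[F] (Unit ⊕ (Fin m ⊕ Fin m) → F))
        (τ (u 0) b) = _ at h2
      have hba : polar Q (τ (u 0) b) (τ (u 0) a) = 0 := by rw [pc, hABb]
      rw [hEdef, eich_apply, hba, hΦ, hu.self] at h2
      simp only [zero_smul, mul_zero, sub_zero, add_eq_left, smul_eq_zero] at h2
      rcases h2 with h2 | h2
      · exact mul_ne_zero hc (mul_ne_zero hu.eps hfb) h2
      · exact hτ0 hu0 ha0 h2
    · -- a Siegel element moving the union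
      intro heq
      have hAB1 : polar Q (τ (u 0) a) (τ (u 1) b) = 0 := by
        rw [hΦ, hu.orth 0 1 (by decide)]; ring
      set E := eich Q (τ (u 0) a) (τ (u 1) b) hqA hAB1 with hEdef
      have hEΩ : E ∈ commutator (OGrp Q) := eich_mem_comm hQ (by omega) hqA hAB1
      have hbg : bridge Q ((bridge Q).symm E) = E := MulEquiv.apply_symm_apply _ _
      have h1 : (((bridge Q).symm E : ↥(Cfsg.isometryGroup F ⇑Q)) :
          Matrix.GeneralLinearGroup (Unit ⊕ (Fin m ⊕ Fin m)) F) ∈ Cfsg.Geo.omegaGL ⇑Q := by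
        rw [mem_omegaGL_iff, hbg]; exact hEΩ
      rw [← heq] at h1
      have h3 := ((hKmem _).1 h1.1 (τ (u 0) y)).1 ⟨0, y, rfl⟩
      rw [hbg, hEdef, eich_apply] at h3
      have e1 : polar Q (τ (u 0) y) (τ (u 1) b) = 0 := by
        rw [hΦ, hu.orth 0 1 (by decide)]; ring
      have e2 : polar Q (τ (u 0) y) (τ (u 0) a) = c * (ε * f₂ y a) := by rw [hΦ, hu.self]
      have e20 : c * (ε * f₂ y a) ≠ 0 := mul_ne_zero hc (mul_ne_zero hu.eps hy)
      rw [e1, e2] at h3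
      set s := c * (ε * f₂ y a)
      have e3 : τ (u 0) y + (0 : F) • τ (u 0) a - s • τ (u 1) b - (Q (τ (u 1) b) * s) • τ (u 0) a =
          τ (u 0) (y + (-(Q (τ (u 1) b) * s)) • a) + τ (u 1) ((-s) • b) := by
        rw [hτ.add_right, hτ.smul_right, hτ.smul_right, neg_smul, neg_smul, zero_smul]
        abel
      rw [e3] at h3
      refine add_not_mem_TS (Φ := polar Q) hu hc hΦ (fun a b d => pal Q a b d)
        (fun z hz => (hf₂.nondegenerate z hz).2) ?_ (smul_ne_zero (neg_ne_zero.2 e20) hb0) h3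
      intro h5
      apply hy
      have h6 : y = (Q (τ (u 1) b) * s) • a := by
        rw [neg_smul, ← sub_eq_add_neg, sub_eq_zero] at h5; exact h5
      rw [h6, hf₂.bilinear.smul_left, hfa, mul_zero]
  rw [hQdef] at hgoal
  exact hgoal

end Cfsg.Agent.S5682
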