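import Cfsg.Statements.S5687
import Cfsg.Agent.GeoMax.OTransport

set_option autoImplicit false
open Cfsg

namespace Cfsg.Agent.S5687

/-- Let F be a finite field with q elements, n ≥ 13 even, Q a non-degenerate quadratic form on F^n of minus type (no subspace of dimension n/2 is totally singular), and Ω the commutator subgroup of the isometry group of Q, viewed inside GL_n(F). The elements of Ω stabilising a non-zero subspace on which Q vanishes form a maximal subgroup of Ω. -/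
theorem result {F : Type*} [Field F] [Fintype F] {n : ℕ} (hn : 13 ≤ n) (heven : Even n) (Q : (Fin n → F) → F) (hQ : Cfsg.Geo.IsNondegenerateQuadraticForm Q) (hminus : ¬ Cfsg.Geo.IsPlusTypeOn Q ⊤) (W : Submodule F (Fin n → F)) (hW0 : W ≠ ⊥) (hW : Cfsg.Geo.IsTotallySingularQuad Q W) : Cfsg.Geo.IsMaximalIn (Cfsg.Geo.omegaGL Q) (Cfsg.Geo.subspaceStabilizer W ⊓ Cfsg.Geo.omegaGL Q) := by
  have hfr : Module.finrank F (Fin n → F) = n := by
    rw [Module.finrank_fintype_fun_eq_card]; simp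
  refine Cfsg.Agent.GeoMax.Ort.isMaximalIn_omegaGL (Cfsg.Agent.GeoMax.Ort.toQF hQ)
    (Cfsg.Agent.GeoMax.Ort.mem_stabO_iff_emGL _ W) ?_
  refine Cfsg.Agent.GeoMax.Ort.parabolic_maximal (Cfsg.Agent.GeoMax.Ort.toQF_nondeg hQ) (by omega) W hW0 hW ?_
  intro h s hs hsq
  by_contra hsW
  apply hminus
  refine ⟨W ⊔ Submodule.span F {s}, le_top, ?_, ?_⟩
  · intro x hx
    obtain ⟨w', hw', y, hy, rfl⟩ := Submodule.mem_sup.1 hx
    obtain ⟨c, rfl⟩ := Submodule.mem_span_singleton.1 hy
    have e1 : QuadraticMap.polar (Cfsg.Agent.GeoMax.Ort.toQF hQ) w' s = 0 := hs w' hw'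
    have e2 := Cfsg.Agent.Orth.qadd (Cfsg.Agent.GeoMax.Ort.toQF hQ) w' (c • s)
    rw [Cfsg.Agent.Orth.qsmul, Cfsg.Agent.Orth.psr, e1, hsq] at e2
    have e3 : (Cfsg.Agent.GeoMax.Ort.toQF hQ) w' = 0 := hW w' hw'
    rw [e3] at e2
    have e4 : Q (w' + c • s) = (Cfsg.Agent.GeoMax.Ort.toQF hQ) (w' + c • s) := rfl
    rw [e4, e2]; ring
  · have hs0 : s ≠ 0 := by rintro rfl; exact hsW W.zero_mem
    have h1 : W ⊓ Submodule.span F {s} = ⊥ := by
      rw [eq_bot_iff]
      rintro x ⟨hx, hx'⟩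
      obtain ⟨c, rfl⟩ := Submodule.mem_span_singleton.1 hx'
      by_cases hc : c = 0
      · rw [hc, zero_smul]; exact Submodule.zero_mem _
      · exfalso; apply hsW
        have := W.smul_mem c⁻¹ hx
        rwa [smul_smul, inv_mul_cancel₀ hc, one_smul] at this
    have h2 := Submodule.finrank_sup_add_finrank_inf_eq W (Submodule.span F {s})
    rw [h1, finrank_bot, finrank_span_singleton hs0] at h2
    rw [finrank_top]
    omega

end Cfsg.Agent.S5687
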