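import Cfsg.Statements.S5697
import Cfsg.Agent.GeoMax.OGLMain

set_option autoImplicit false
open Cfsg

namespace Cfsg.Agent.S5697

/-- Let F be a finite field with q elements, n ≥ 13 even, Q a non-degenerate quadratic form on F^n of plus type (some subspace of dimension n/2 is totally singular), and Ω the commutator subgroup of the isometry group of Q, viewed inside GL_n(F). Suppose n/2 is even and let D be a decomposition of F^n into two complementary subspaces of dimension n/2 on each of which Q vanishes. Then the elements of Ω preserving or interchanging the two subspaces form a maximal subgroup of Ω. -/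
theorem result {F : Type*} [Field F] [Fintype F] {n : ℕ} (hn : 13 ≤ n) (heven : Even n) (Q : (Fin n → F) → F) (hQ : Cfsg.Geo.IsNondegenerateQuadraticForm Q) (hplus : Cfsg.Geo.IsPlusTypeOn Q ⊤) (k : ℕ) (hk : 2 * k = n) (hke : Even k) (D : Fin 2 → Submodule F (Fin n → F)) (hD : Cfsg.Geo.IsMDecomposition k D) (hts : ∀ i, Cfsg.Geo.IsTotallySingularQuad Q (D i)) : Cfsg.Geo.IsMaximalIn (Cfsg.Geo.omegaGL Q) (Cfsg.Geo.decompositionStabilizer D ⊓ Cfsg.Geo.omegaGL Q) := by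
  have hfr : Module.finrank F (Fin n → F) = n := by
    rw [Module.finrank_fintype_fun_eq_card]; simp
  have hnd := Cfsg.Agent.GeoMax.Ort.toQF_nondeg hQ
  have hd0 := hD.finrank_eq 0
  have hd1 := hD.finrank_eq 1
  have hcompl : IsCompl (D 0) (D 1) := by
    constructor
    · exact hD.indep.pairwiseDisjoint (by decide)
    · rw [codisjoint_iff, ← hD.iSup_eq_top]
      apply le_antisymm
      · exact sup_le (le_iSup D 0) (le_iSup D 1)
      · refine iSup_le fun i => ?_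
        fin_cases i
        · exact le_sup_left
        · exact le_sup_right
  have hN : 7 ≤ Module.finrank F (Fin n → F) := by omega
  have ts : ∀ i, ∀ x ∈ D i, Cfsg.Agent.GeoMax.Ort.toQF hQ x = 0 := fun i x hx => hts i x hx
  have pD : ∀ i, ∀ x ∈ D i, ∀ y ∈ D i, QuadraticMap.polar (Cfsg.Agent.GeoMax.Ort.toQF hQ) x y = 0 :=
    fun i x hx y hy => Cfsg.Agent.Orth.TS.polar (ts i) hx hy
  have hdual : ∀ i j, D i ⊔ D j = ⊤ → ∀ a ∈ D i, a ≠ 0 → ∃ b ∈ D j, QuadraticMap.polar (Cfsg.Agent.GeoMax.Ort.toQF hQ) a b ≠ 0 := by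
    intro i j hij a ha ha0
    obtain ⟨z, hz⟩ := Cfsg.Agent.GeoMax.Ort.exists_polar_ne hnd ha0
    have hzt : z ∈ D i ⊔ D j := by rw [hij]; trivial
    obtain ⟨x, hx, y, hy, rfl⟩ := Submodule.mem_sup.1 hzt
    refine ⟨y, hy, ?_⟩
    rwa [Cfsg.Agent.Orth.pal, pD i x hx a ha, zero_add, Cfsg.Agent.Orth.pc] at hz
  have hd01 := hdual 0 1 hcompl.sup_eq_top
  have hd10 := hdual 1 0 (by rw [sup_comm]; exact hcompl.sup_eq_top)
  have htl : ∀ (g : Cfsg.Agent.Orth.OGrp (Cfsg.Agent.GeoMax.Ort.toQF hQ)) (W : Submodule F (Fin n → F)),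
      W.map (Matrix.toLin' (Cfsg.Agent.GeoMax.Ort.emGL (Cfsg.Agent.GeoMax.Ort.toQF hQ) g : Matrix (Fin n) (Fin n) F)) =
      W.map ((g : (Fin n → F) ≃ₗ[F] (Fin n → F)) : (Fin n → F) →ₗ[F] (Fin n → F)) := by
    intro g W
    congr 1
    ext1 i
    ext1
    rw [LinearMap.comp_apply, LinearMap.comp_apply, Matrix.toLin'_apply, Cfsg.Agent.GeoMax.Ort.emGL_mulVec]
    rfl
  let H' : Subgroup (Cfsg.Agent.Orth.OGrp (Cfsg.Agent.GeoMax.Ort.toQF hQ)) :=
    (Cfsg.Geo.decompositionStabilizer D).comap (Cfsg.Agent.GeoMax.Ort.emGL (Cfsg.Agent.GeoMax.Ort.toQF hQ))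
  have hmemH : ∀ g : Cfsg.Agent.Orth.OGrp (Cfsg.Agent.GeoMax.Ort.toQF hQ),
      ((∀ x ∈ D 0, (g : (Fin n → F) ≃ₗ[F] (Fin n → F)) x ∈ D 0) ∧ (∀ x ∈ D 1, (g : (Fin n → F) ≃ₗ[F] (Fin n → F)) x ∈ D 1)) ∨
      ((∀ x ∈ D 0, (g : (Fin n → F) ≃ₗ[F] (Fin n → F)) x ∈ D 1) ∧ (∀ x ∈ D 1, (g : (Fin n → F) ≃ₗ[F] (Fin n → F)) x ∈ D 0)) →
      g ∈ H' := by
    intro g hg
    have hmap : ∀ i j, (∀ x ∈ D i, (g : (Fin n → F) ≃ₗ[F] (Fin n → F)) x ∈ D j) →
        (D i).map (Matrix.toLin' (Cfsg.Agent.GeoMax.Ort.emGL (Cfsg.Agent.GeoMax.Ort.toQF hQ) g : Matrix (Fin n) (Fin n) F)) = D j := by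
      intro i j h
      rw [htl]
      refine Submodule.eq_of_le_of_finrank_eq ?_ ?_
      · rintro _ ⟨x, hx, rfl⟩
        exact h x hx
      · rw [LinearEquiv.finrank_map_eq, hD.finrank_eq, hD.finrank_eq]
    rcases hg with ⟨h1, h3⟩ | ⟨h1, h3⟩
    · refine ⟨1, fun i => ?_⟩
      rw [Equiv.Perm.one_apply]
      fin_cases i
      · exact hmap 0 0 h1
      · exact hmap 1 1 h3
    · refine ⟨Equiv.swap 0 1, fun i => ?_⟩
      fin_cases i
      · exact (hmap 0 1 h1).trans (by simp)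
      · exact (hmap 1 0 h3).trans (by simp)
  refine Cfsg.Agent.GeoMax.Ort.isMaximalIn_omegaGL (Cfsg.Agent.GeoMax.Ort.toQF hQ) (H' := H') (fun g => Iff.rfl) ?_
  constructor
  · refine lt_of_le_of_ne inf_le_right ?_
    intro heq
    obtain ⟨a1, ha1, ha10⟩ := Submodule.exists_mem_ne_zero_of_ne_bot (p := D 0) (by
      intro h; rw [h, finrank_bot] at hd0; omega)
    obtain ⟨b1, hb1, hab1⟩ := hd01 a1 ha1 ha10
    obtain ⟨a2, ha2, ha20, ha2b⟩ := Cfsg.Agent.GeoMax.Ort.exists_perp_list hnd (Y := D 0) [b1] (by simp; omega)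
    replace ha2b := ha2b b1 (by simp)
    have hmem : Cfsg.Agent.Orth.eich (Cfsg.Agent.GeoMax.Ort.toQF hQ) a1 a2 (ts 0 a1 ha1) (pD 0 a1 ha1 a2 ha2) ∈
        H' ⊓ commutator (Cfsg.Agent.Orth.OGrp (Cfsg.Agent.GeoMax.Ort.toQF hQ)) := by
      rw [heq]
      exact Cfsg.Agent.GeoMax.Ort.eich_mem_commutator hnd hN _ _
    obtain ⟨σ, hσ⟩ := hmem.1
    have h1 := hσ 1
    rw [htl] at h1
    have h0 := hσ 0
    rw [htl] at h0
    have hc1 : ((Cfsg.Agent.Orth.eich (Cfsg.Agent.GeoMax.Ort.toQF hQ) a1 a2 (ts 0 a1 ha1) (pD 0 a1 ha1 a2 ha2) :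
        Cfsg.Agent.Orth.OGrp (Cfsg.Agent.GeoMax.Ort.toQF hQ)) : (Fin n → F) ≃ₗ[F] (Fin n → F)) a1 ∈ D (σ 0) := by
      rw [← h0]; exact ⟨a1, ha1, rfl⟩
    have hc2 : ((Cfsg.Agent.Orth.eich (Cfsg.Agent.GeoMax.Ort.toQF hQ) a1 a2 (ts 0 a1 ha1) (pD 0 a1 ha1 a2 ha2) :
        Cfsg.Agent.Orth.OGrp (Cfsg.Agent.GeoMax.Ort.toQF hQ)) : (Fin n → F) ≃ₗ[F] (Fin n → F)) b1 ∈ D (σ 1) := by
      rw [← h1]; exact ⟨b1, hb1, rfl⟩
    rw [Cfsg.Agent.Orth.eich_apply, pD 0 a1 ha1 a2 ha2, pD 0 a1 ha1 a1 ha1, zero_smul, zero_smul, mul_zero, zero_smul, add_zero,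
      sub_zero, sub_zero] at hc1
    have hσ0 : σ 0 = 0 := by
      rcases (show σ 0 = 0 ∨ σ 0 = 1 by omega) with h | h
      · exact h
      · rw [h] at hc1
        exact absurd ((Submodule.disjoint_def.1 hcompl.disjoint) a1 ha1 hc1) ha10
    have hσ1 : σ 1 = 1 := by
      rcases (show σ 1 = 0 ∨ σ 1 = 1 by omega) with h | h
      · exact absurd (σ.injective (h.trans hσ0.symm)) (by decide)
      · exact h
    rw [hσ1, Cfsg.Agent.Orth.eich_apply, Cfsg.Agent.Orth.pc _ b1 a2, ha2b, ts 0 a2 ha2, zero_smul, add_zero, zero_mul, zero_smul,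
      sub_zero] at hc2
    have h3 := (D 1).sub_mem hb1 hc2
    rw [sub_sub_cancel] at h3
    have h4 := (Submodule.disjoint_def.1 hcompl.disjoint) _ ((D 0).smul_mem _ ha2) h3
    rcases smul_eq_zero.1 h4 with h | h
    · exact hab1 (by rw [Cfsg.Agent.Orth.pc]; exact h)
    · exact ha20 h
  · intro M hHM hMI
    have hgood : Cfsg.Agent.GeoMax.Ort.GoodP (Cfsg.Agent.GeoMax.Ort.toQF hQ) M (D 0) (D 1) := by
      refine ⟨ts 0, ts 1, hcompl.sup_eq_top, fun x hx x' hx' h0 => ⟨ts 0 x hx, h0, hHM ⟨hmemH _ (Or.inl ⟨?_, ?_⟩),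
        Cfsg.Agent.GeoMax.Ort.eich_mem_commutator hnd hN _ _⟩⟩⟩
      · intro y hy
        rw [Cfsg.Agent.Orth.eich_apply, pD 0 y hy x hx, zero_smul, sub_zero, mul_zero, zero_smul, sub_zero]
        exact (D 0).add_mem hy ((D 0).smul_mem _ hx)
      · intro y hy
        rw [Cfsg.Agent.Orth.eich_apply, pD 1 y hy x' hx', zero_smul, add_zero, ts 1 x' hx', zero_mul, zero_smul, sub_zero]
        exact (D 1).sub_mem hy ((D 1).smul_mem _ hx')
    obtain ⟨j, hj⟩ := hke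
    obtain ⟨s, hsI, hs0, hs1, -⟩ := Cfsg.Agent.GeoMax.Ort.exists_swap hnd hN j (D 0) (D 1) (by omega) (by omega) (ts 0) (ts 1)
      hd01 hd10
    have hsM : s ∈ M := hHM ⟨hmemH s (Or.inr ⟨hs0, hs1⟩), hsI⟩
    rcases hgood.dichotomy hnd hcompl (by omega) (by omega) hsM hs0 hs1 with h | h
    · exact Or.inr (le_antisymm hMI h)
    · exact Or.inl (le_antisymm (fun g hg => ⟨hmemH g (h g hg), hMI hg⟩) hHM)

end Cfsg.Agent.S5697
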