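import Cfsg.Statements.S5704
import Cfsg.Agent.Asch.TMaxSpOmega
import Cfsg.Agent.Asch.Linear
import Cfsg.Agent.AschCases.OrthNot.Four

set_option autoImplicit false
open Cfsg

namespace Cfsg.Agent.S5704

open Cfsg.Geo Cfsg.Agent.Asch.TMax Matrix Module

open Cfsg.Agent.AschCases (tp kron_tp tmap tmap_apply form_tp)

open Cfsg.Agent.GeoMax (isoGL)

open Cfsg.Agent.GeoMax.Ort (emGL emGL_mulVec toQF toQF_nondeg omegaGL_eq)

open Cfsg.Agent.Orth (OGrp OGrp_polar)

open QuadraticMap (polar polarBilin)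

open scoped MatrixGroups Kronecker

lemma symp_smul {ι : Type} {F : Type*} [Field F] {f : (ι → F) → (ι → F) → F} (hf : IsSymplecticForm f)
    {c : F} (hc : c ≠ 0) : IsSymplecticForm (fun x y => c * f x y) where
  bilinear := ⟨fun x y z => by simp only [hf.bilinear.add_left, mul_add], fun d x y => by simp only [hf.bilinear.smul_left]; ring,
    fun x y z => by simp only [hf.bilinear.add_right, mul_add], fun d x y => by simp only [hf.bilinear.smul_right]; ring⟩
  skew x y := by rw [hf.skew x y]; ring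
  alternating x := by rw [hf.alternating, mul_zero]
  nondegenerate x hx := by
    obtain ⟨⟨y, hy⟩, ⟨z, hz⟩⟩ := hf.nondegenerate x hx
    exact ⟨⟨y, mul_ne_zero hc hy⟩, ⟨z, mul_ne_zero hc hz⟩⟩

lemma qtens_btens {F : Type*} [Field F] {a b : ℕ} {f₁ : (Fin a → F) → (Fin a → F) → F} {f₂ : (Fin b → F) → (Fin b → F) → F}
    {Q : QuadraticForm F (Fin a × Fin b → F)} (hQ : QTens f₁ f₂ Q) : BTens f₁ f₂ (polar Q) where
  add_left x y z := QuadraticMap.polar_add_left Q x y z
  add_right x y z := QuadraticMap.polar_add_right Q x y z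
  smul_left c x y := by rw [QuadraticMap.polar_smul_left, smul_eq_mul]
  smul_right c x y := by rw [QuadraticMap.polar_smul_right, smul_eq_mul]
  tp := hQ.pol


/-- Let F be a finite field with q elements, n ≥ 13 even, Q a non-degenerate quadratic form on F^n of plus type (some subspace of dimension n/2 is totally singular), and Ω the commutator subgroup of the isometry group of Q, viewed inside GL_n(F). Suppose that, through a change of basis P and a bijection of index sets e, the polar form of Q is similar to the tensor product of non-degenerate symplectic forms f₁ on F^(n₁) and f₂ on F^(n₂) with n₁ < n₂, and Q vanishes on the images of all pure tensors. Unless q = 2 and n₁ = 2, the elements of Ω in the stabiliser of this tensor decomposition form a maximal subgroup of Ω. -/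
theorem result {F : Type*} [Field F] [Fintype F] {n : ℕ} (hn : 13 ≤ n) (heven : Even n) (Q : (Fin n → F) → F) (hQ : Cfsg.Geo.IsNondegenerateQuadraticForm Q) (hplus : Cfsg.Geo.IsPlusTypeOn Q ⊤) (n₁ n₂ : ℕ) (h12 : n₁ < n₂) (hex : ¬ (Fintype.card F = 2 ∧ n₁ = 2)) (e : (Fin n) ≃ Fin n₁ × Fin n₂) (P : Matrix.GeneralLinearGroup (Fin n) F) (f₁ : (Fin n₁ → F) → (Fin n₁ → F) → F) (f₂ : (Fin n₂ → F) → (Fin n₂ → F) → F) (hf₁ : Cfsg.Geo.IsSymplecticForm f₁) (hf₂ : Cfsg.Geo.IsSymplecticForm f₂) (hT : Cfsg.Geo.IsTensorFormStructure id (QuadraticMap.polar Q) f₁ f₂ e P) (hpure : (∀ (x₁ : Fin n₁ → F) (x₂ : Fin n₂ → F), Q (Matrix.mulVec (P : Matrix (Fin n) (Fin n) F) ((fun a : Fin n₁ × Fin n₂ => x₁ a.1 * x₂ a.2) ∘ e)) = 0)) : Cfsg.Geo.IsMaximalIn (Cfsg.Geo.omegaGL Q) (Cfsg.Geo.tensorProductSubgroup n₁ n₂ e P ⊓ Cfsg.Geo.omegaGL Q) := by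
  classical
  have hcard : n = n₁ * n₂ := by
    have := Fintype.card_congr e
    rwa [Fintype.card_prod, Fintype.card_fin, Fintype.card_fin, Fintype.card_fin] at this
  have he1 : Even n₁ := by
    have := Asch.even_card_of_isSymplecticForm hf₁
    rwa [Fintype.card_fin] at this
  have he2 : Even n₂ := by
    have := Asch.even_card_of_isSymplecticForm hf₂
    rwa [Fintype.card_fin] at this
  have h1 : 2 ≤ n₁ := by
    rcases Nat.eq_zero_or_pos n₁ with h | h
    · rw [h, zero_mul] at hcard; omega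
    · obtain ⟨k, hk⟩ := he1; omega
  have hb : 5 < n₂ := by
    by_contra hcon
    obtain ⟨k, hk⟩ := he2
    obtain ⟨l, hl⟩ := he1
    have h3 : n₂ ≤ 4 := by omega
    have h4 : n₁ ≤ 2 := by omega
    have h5 : n₁ * n₂ ≤ 2 * 4 := Nat.mul_le_mul h4 h3
    omega
  have hq : 3 ≤ n₁ ∨ ∃ c : F, c ≠ 0 ∧ c ≠ 1 := by
    by_cases h3 : 3 ≤ n₁
    · exact Or.inl h3
    · right
      have h2 : n₁ = 2 := by omega
      have hF : Fintype.card F ≠ 2 := fun h => hex ⟨h, h2⟩
      have hF2 : 1 < Fintype.card F := Fintype.one_lt_card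
      have : ∃ c : F, c ∉ ({0, 1} : Finset F) := by
        by_contra hcon
        push Not at hcon
        have h4 : Fintype.card F ≤ ({0, 1} : Finset F).card := by
          rw [← Finset.card_univ]
          exact Finset.card_le_card fun x _ => hcon x
        have h5 := Finset.card_le_two (a := (0 : F)) (b := 1)
        omega
      obtain ⟨c, hc⟩ := this
      rw [Finset.mem_insert, Finset.mem_singleton, not_or] at hc
      exact ⟨c, hc⟩
  have hnd := toQF_nondeg hQ
  refine ⟨lt_of_le_of_ne inf_le_right fun h => ?_, fun M hM1 hM2 => ?_⟩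
  · exact Cfsg.Agent.AschCases.OrthNot.not_le_tensor_sympl hnd (by rw [Fintype.card_fin]; omega) h1 (by omega) e P hf₁ hf₂ hT hpure (inf_eq_right.1 h)
  -- coordinates
  obtain ⟨c, hc0, hc⟩ := form_tp (σ := RingEquiv.refl F) (Asch.isSesq_of_bilinear hf₁.bilinear) (Asch.isSesq_of_bilinear hf₂.bilinear) hT
  set f₁' : (Fin n₁ → F) → (Fin n₁ → F) → F := fun x y => c * f₁ x y with hf₁'
  have h₁ : IsSymplecticForm f₁' := symp_smul hf₁ hc0
  set Q' : QuadraticForm F (Fin n₁ × Fin n₂ → F) := (toQF hQ).comp (tmap e P).toLinearMap with hQ'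
  have hQ'x : ∀ x, Q' x = toQF hQ (tmap e P x) := fun x => rfl
  have hpolx : ∀ x y, polar Q' x y = polar Q (tmap e P x) (tmap e P y) := by
    intro x y
    rw [polar, hQ'x, hQ'x, hQ'x, map_add]
    rfl
  have hQT : QTens f₁' f₂ Q' := by
    constructor
    · intro u w; exact hpure u w
    · intro u w u' w'
      rw [hpolx, hc, hf₁']
      ring
  have hB := qtens_btens hQT
  have hnd' : (polarBilin Q').Nondegenerate := by
    constructor
    · intro x hx
      apply hB.left_ext h₁ hf₂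
      intro z
      rw [hB.zero_left]; exact hx z
    · intro x hx
      apply hB.right_ext h₁ hf₂
      intro z
      rw [hB.zero_right]; exact hx z
  have hcomm : ∀ g, g ∈ omegaGL Q ↔ rhoG e P g ∈ (commutator (OGrp Q')).map (emGL Q') := by
    intro g
    rw [← mem_omega_iff_rhoG e P hQ'x, ← omegaGL_eq]
    rfl
  set S := M.map (rhoG e P).toMonoidHom with hS
  have hSΩ : S ≤ (commutator (OGrp Q')).map (emGL Q') := by
    rintro _ ⟨g, hg, rfl⟩
    exact (hcomm g).1 (hM2 hg)
  have hiso : ∀ g ∈ S, ∀ x y, polar Q' (g.1 *ᵥ x) (g.1 *ᵥ y) = polar Q' x y := by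
    intro g hg x y
    obtain ⟨h, _, rfl⟩ := hSΩ hg
    rw [emGL_mulVec, emGL_mulVec, OGrp_polar]
  have hΩ := hasSp_omega h₁ hf₂ hQT hnd' (by omega)
  have hmem : ∀ k, k ∈ (commutator (OGrp Q')).map (emGL Q') → k ∈ kroneckerSubgroup n₁ n₂ F → k ∈ S := by
    intro k hk hkk
    refine ⟨(rhoG e P).symm k, hM1 ⟨rhoG_symm_mem e P k hkk, ?_⟩, (rhoG e P).apply_symm_apply k⟩
    refine (hcomm _).2 ?_
    rw [MulEquiv.apply_symm_apply]
    exact hk
  have hSp : HasSp f₁' f₂ S := by
    constructor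
    · intro g hg
      obtain ⟨k, hk, hkg⟩ := hΩ.left g hg
      exact ⟨k, hmem k hk (mem_kron_of_eq (by omega) (by omega) hkg), hkg⟩
    · intro g hg
      obtain ⟨k, hk, hkg⟩ := hΩ.right g hg
      exact ⟨k, hmem k hk (mem_kron_of_eq (by omega) (by omega) hkg), hkg⟩
  rcases sp_overgroup h₁ hf₂ hB h1 h12 hb hq hSp hiso with hfull | hle
  · right
    refine le_antisymm hM2 fun g hg => ?_
    obtain ⟨h, hh, hhe⟩ := (hcomm g).1 hg
    have h3 := omega_le_of_full h₁ hf₂ hQT hfull hnd' (by omega) (by omega) (by omega) hh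
    rw [Subgroup.mem_comap, hhe] at h3
    obtain ⟨g', hg', hg'e⟩ := h3
    have : g' = g := (rhoG e P).injective hg'e
    rwa [← this]
  · left
    refine le_antisymm (le_inf (fun g hg => ?_) hM2) hM1
    exact rhoG_mem e P g (hle ⟨g, hg, rfl⟩)

end Cfsg.Agent.S5704
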