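import Cfsg.Statements.S5709
import Cfsg.Agent.TenMax.Swap
import Cfsg.Agent.GeoMax.OBasic
-- import your own Cfsg.Agent.* helpers here

set_option autoImplicit false
open Cfsg

namespace Cfsg.Agent.S5709

/-- Let F be a finite field with q elements, n ≥ 13 even, Q a non-degenerate quadratic form on F^n of minus type (no subspace of dimension n/2 is totally singular), and Ω the commutator subgroup of the isometry group of Q, viewed inside GL_n(F). Suppose q is odd and that, through a change of basis P and a bijection of index sets e, the polar form of Q is similar to the tensor product of non-degenerate symmetric bilinear forms f₁ on F^(n₁), n₁ odd and at least 3, and f₂ on F^(n₂), n₂ even and at least 4 with no totally isotropic subspace of dimension n₂/2 (minus type). Unless q = 3 and n₁ = 3, the elements of Ω in the stabiliser of this tensor decomposition form a maximal subgroup of Ω. -/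
theorem result {F : Type*} [Field F] [Fintype F] {n : ℕ} (hn : 13 ≤ n) (heven : Even n) (Q : (Fin n → F) → F) (hQ : Cfsg.Geo.IsNondegenerateQuadraticForm Q) (hminus : ¬ Cfsg.Geo.IsPlusTypeOn Q ⊤) (hodd : Odd (Fintype.card F)) (n₁ n₂ : ℕ) (h1 : 3 ≤ n₁) (h1o : Odd n₁) (h2 : 4 ≤ n₂) (h2e : Even n₂) (hex : ¬ (Fintype.card F = 3 ∧ n₁ = 3)) (e : (Fin n) ≃ Fin n₁ × Fin n₂) (P : Matrix.GeneralLinearGroup (Fin n) F) (f₁ : (Fin n₁ → F) → (Fin n₁ → F) → F) (f₂ : (Fin n₂ → F) → (Fin n₂ → F) → F) (hf₁ : Cfsg.Geo.IsSymmetricForm f₁) (hf₂ : Cfsg.Geo.IsSymmetricForm f₂) (hf₂m : ¬ Cfsg.Geo.IsPlusTypeOn (fun v : Fin n₂ → F => f₂ v v) ⊤) (hT : Cfsg.Geo.IsTensorFormStructure id (QuadraticMap.polar Q) f₁ f₂ e P) : Cfsg.Geo.IsMaximalIn (Cfsg.Geo.omegaGL Q) (Cfsg.Geo.tensorProductSubgroup n₁ n₂ e P ⊓ Cfsg.Geo.omegaGL Q) := by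
  have h2F : (2 : F) ≠ 0 := Cfsg.Agent.GeoMax.Ort.two_ne_zero_of_odd hodd
  have hcard : n = n₁ * n₂ := by
    have := Fintype.card_congr e
    rwa [Fintype.card_prod, Fintype.card_fin, Fintype.card_fin, Fintype.card_fin] at this
  have hnd := Cfsg.Agent.GeoMax.Ort.toQF_nondeg hQ
  have hq : 4 ≤ n₁ ∨ 5 ≤ Fintype.card F := by
    by_cases h4 : 4 ≤ n₁
    · exact Or.inl h4
    · right
      have h3 : Fintype.card F ≠ 3 := fun h => hex ⟨h, by omega⟩
      have h1 : 1 < Fintype.card F := Fintype.one_lt_card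
      obtain ⟨a, ha⟩ := hodd
      omega
  obtain ⟨k₁, hk₁⟩ := h1o
  obtain ⟨k₂, hk₂⟩ := h2e
  rcases Nat.lt_or_ge n₁ n₂ with h12 | h12
  · have h6 : 5 ≤ n₂ := by
      by_contra hcon
      have e1 : n₁ = 3 := by omega
      have e2 : n₂ = 4 := by omega
      rw [e1, e2] at hcard
      omega
    exact Cfsg.Agent.TenMax.isMaximalIn_tensor_orth (Q := Cfsg.Agent.GeoMax.Ort.toQF hQ) h2F hnd h1 h12 h6 hq
      (fun h => by omega) e P hf₁ hf₂ hT
  · rw [Cfsg.Agent.TenMax.tensorProductSubgroup_comm]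
    refine Cfsg.Agent.TenMax.isMaximalIn_tensor_orth (Q := Cfsg.Agent.GeoMax.Ort.toQF hQ) h2F hnd (n₁ := n₂) (n₂ := n₁) (by omega)
      (by omega) (by omega) (Or.inl h2) ?_ (e.trans (Equiv.prodComm _ _)) P hf₂ hf₁
      (Cfsg.Agent.TenMax.isTensorFormStructure_comm hT)
    intro hn4 u v hu huu hvv hvu
    by_contra hne
    apply hf₂m
    refine ⟨Submodule.span F {u, v}, le_top, ?_, ?_⟩
    · intro w hw
      obtain ⟨a, b, rfl⟩ := Submodule.mem_span_pair.1 hw
      show f₂ (a • u + b • v) (a • u + b • v) = 0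
      simp only [hf₂.bilinear.add_left, hf₂.bilinear.add_right, hf₂.bilinear.smul_left, hf₂.bilinear.smul_right, huu, hvv, hvu,
        hf₂.symm u v]
      ring
    · have hli : LinearIndependent F ![u, v] := by
        rw [LinearIndependent.pair_iff' hu]
        intro a ha
        exact hne (Submodule.mem_span_singleton.2 ⟨a, ha⟩)
      have h3 : Module.finrank F (Submodule.span F {u, v}) = 2 := by
        have h4 := finrank_span_eq_card hli
        rw [Fintype.card_fin] at h4
        have h5 : Set.range ![u, v] = {u, v} := by simp [Set.pair_comm]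
        rwa [h5] at h4
      rw [h3, finrank_top, Module.finrank_fin_fun, hn4]

end Cfsg.Agent.S5709
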