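import Cfsg.Statements.S5876
import Cfsg.Agent.H71.PrimLin

set_option autoImplicit false
open Cfsg

namespace Cfsg.Agent.S5876

/-- Fixed-point spaces in primitive soluble linear groups. Let F be a finite field and G a soluble subgroup of GL_n(F) that acts irreducibly on F^n and primitively (G preserves no decomposition of F^n into two or more independent subspaces of equal dimension). Then every non-identity element g of G has fixed-point space {v : g v = v} of dimension at most 3n/4. -/
theorem result {F : Type*} [Field F] [Fintype F] {n : ℕ} (G : Subgroup (Matrix.GeneralLinearGroup (Fin n) F)) (hsol : IsSolvable G) (hirr : Cfsg.Geo.ActsIrreducibly (Cfsg.Geo.matrixSet G)) (hprim : ∀ (m t : ℕ) (D : Fin t → Submodule F (Fin n → F)), 2 ≤ t → Cfsg.Geo.IsMDecomposition m D → ¬ G ≤ Cfsg.Geo.decompositionStabilizer D) (g : Matrix.GeneralLinearGroup (Fin n) F) (hg : g ∈ G) (hg1 : g ≠ 1) :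
    4 * Module.finrank F (Module.End.eigenspace (Matrix.toLin' (g : Matrix (Fin n) (Fin n) F)) 1) ≤ 3 * n := by
  classical
  obtain ⟨r, hr⟩ := CharP.exists F
  haveI : Fact r.Prime := ⟨CharP.char_is_prime F r⟩
  have hn : n ≠ 0 := by
    rintro rfl
    exact hg1 (Subsingleton.elim _ _)
  haveI : Nonempty (Fin n) := ⟨⟨0, Nat.pos_of_ne_zero hn⟩⟩
  haveI : Nontrivial (Fin n → F) := inferInstance
  let ρ : G →* Module.End F (Fin n → F) :=
    { toFun := fun g => Matrix.toLin' ((g : Matrix.GeneralLinearGroup (Fin n) F) : Matrix (Fin n) (Fin n) F)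
      map_one' := by simp; rfl
      map_mul' := fun a b => by
        rw [Subgroup.coe_mul, Units.val_mul, Matrix.toLin'_mul]; rfl }
  have hρ : ∀ g : G, ρ g = Matrix.toLin' ((g : Matrix.GeneralLinearGroup (Fin n) F) : Matrix (Fin n) (Fin n) F) :=
    fun _ => rfl
  have hfaith : Function.Injective ρ := by
    intro a b hab
    rw [hρ, hρ] at hab
    exact Subtype.ext (Units.ext (Matrix.toLin'.injective hab))
  have hirr' : H71.PrimLin.IrrS ρ := by
    intro W hW
    apply hirr
    rintro _ ⟨a, ha, rfl⟩
    exact hW ⟨a, ha⟩
  have hprim' : H71.PrimLin.PrimS ρ := by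
    intro W hW hind
    by_contra hWt
    let S := {U : Submodule F (Fin n → F) // ∃ g : G, U = W.map (ρ g)}
    haveI : Finite (Submodule F (Fin n → F)) := inferInstance
    haveI : Finite S := inferInstance
    have hinv : ∀ (x : G) (U : S), ∃ g : G, (U : Submodule F (Fin n → F)).map (ρ x) = W.map (ρ g) := by
      rintro x ⟨U, g, rfl⟩
      refine ⟨x * g, ?_⟩
      rw [map_mul, ← Submodule.map_comp]; rfl
    let σ : G → S → S := fun x U => ⟨_, hinv x U⟩
    have hσi : ∀ x, Function.Injective (σ x) := by
      intro x U U' h
      apply Subtype.ext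
      have h1 : (U : Submodule F (Fin n → F)).map (ρ x) = (U' : Submodule F (Fin n → F)).map (ρ x) :=
        congrArg Subtype.val h
      exact Submodule.map_injective_of_injective (H71.PrimLin.rho_injective x) h1
    obtain ⟨t, ⟨e⟩⟩ := Finite.exists_equiv_fin S
    let D : Fin t → Submodule F (Fin n → F) := fun i => (e.symm i : S)
    have hsup : iSup D = ⨆ U : S, (U : Submodule F (Fin n → F)) :=
      e.symm.iSup_comp (g := fun U : S => (U : Submodule F (Fin n → F)))
    have htop : iSup D = ⊤ := by
      rw [hsup]
      rcases hirr' (⨆ U : S, (U : Submodule F (Fin n → F))) (by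
        intro x
        rw [Submodule.map_iSup]
        apply iSup_le
        intro U
        exact le_iSup (fun U : S => (U : Submodule F (Fin n → F))) (σ x U)) with h | h
      · exfalso
        apply hW
        rw [eq_bot_iff, ← h]
        have h1 : W = W.map (ρ 1) := by rw [map_one]; exact (Submodule.map_id W).symm
        exact le_iSup (fun U : S => (U : Submodule F (Fin n → F))) ⟨W, 1, h1⟩
      · exact h
    have ht2 : 2 ≤ t := by
      by_contra hlt
      have h1 : Subsingleton S := by
        have : Subsingleton (Fin t) := by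
          have : t ≤ 1 := by omega
          exact Fin.subsingleton_iff_le_one.mpr this
        exact e.subsingleton
      have h2 : ∀ g : G, W.map (ρ g) = W := by
        intro g
        have h3 : W = W.map (ρ 1) := by rw [map_one]; exact (Submodule.map_id W).symm
        exact congrArg Subtype.val (Subsingleton.elim (⟨W.map (ρ g), g, rfl⟩ : S) ⟨W, 1, h3⟩)
      rcases hirr' W (fun g => (h2 g).le) with h | h
      · exact hW h
      · exact hWt h
    have hWpos : 0 < Module.finrank F W := by
      rw [Module.finrank_pos_iff]
      exact (Submodule.nontrivial_iff_ne_bot).mpr hW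
    refine hprim (Module.finrank F W) t D ht2 ⟨ht2, hWpos, ?_, ?_, htop⟩ ?_
    · intro i
      obtain ⟨g, hg⟩ := (e.symm i).2
      change Module.finrank F ((e.symm i : S) : Submodule F (Fin n → F)) = _
      rw [hg]
      exact (Submodule.equivMapOfInjective (ρ g) (H71.PrimLin.rho_injective g) _).finrank_eq.symm
    · exact hind.comp e.symm.injective
    · intro x hx
      refine ⟨(e.symm.trans (Equiv.ofBijective (σ ⟨x, hx⟩)
        (Finite.injective_iff_bijective.mp (hσi _)))).trans e, fun i => ?_⟩
      change ((e.symm i : S) : Submodule F (Fin n → F)).map (ρ ⟨x, hx⟩) =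
        ((e.symm (e (σ ⟨x, hx⟩ (e.symm i))) : S) : Submodule F (Fin n → F))
      rw [Equiv.symm_apply_apply]
  have h1 := H71.PrimLin.four_mul_finrank_le (r := r) hsol hirr' hfaith hprim' (g := ⟨g, hg⟩)
    (fun h => hg1 (congrArg Subtype.val h))
  rw [H71.PrimLin.fixS_zpowers, Module.finrank_fin_fun] at h1
  exact h1

end Cfsg.Agent.S5876
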