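import Cfsg.Statements.S5877

set_option autoImplicit false
open Cfsg

namespace Cfsg.Agent.S5877

open Module Module.End
open scoped commutatorElement

section lin

variable {F V : Type*} [Field F] [AddCommGroup V] [Module F V] [FiniteDimensional F V]

lemma ind' (f : Module.End F V) (U : Submodule F V) (s : Finset F) :
    ∑ μ ∈ s, finrank F (U ⊓ f.eigenspace μ : Submodule F V) ≤ finrank F U := by
  classical
  have key : ∀ s : Finset F, ∑ μ ∈ s, finrank F (U ⊓ f.eigenspace μ : Submodule F V) =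
      finrank F (⨆ μ ∈ s, (U ⊓ f.eigenspace μ) : Submodule F V) := by
    intro s
    induction s using Finset.induction_on with
    | empty =>
      have h0 : (⨆ μ ∈ (∅ : Finset F), (U ⊓ f.eigenspace μ)) = ⊥ :=
        le_antisymm (iSup₂_le fun μ hμ => absurd hμ (Finset.notMem_empty _)) bot_le
      rw [h0, finrank_bot, Finset.sum_empty]
    | insert a s ha ih =>
      rw [Finset.sum_insert ha, ih, Finset.iSup_insert]
      have h1 := Submodule.finrank_sup_add_finrank_inf_eq (U ⊓ f.eigenspace a)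
        (⨆ μ ∈ s, (U ⊓ f.eigenspace μ) : Submodule F V)
      have h2 : (U ⊓ f.eigenspace a) ⊓ (⨆ μ ∈ s, (U ⊓ f.eigenspace μ)) = ⊥ := by
        rw [← disjoint_iff]
        refine (f.eigenspaces_iSupIndep a).mono inf_le_right ?_
        refine iSup₂_le fun μ hμ => ?_
        refine inf_le_right.trans ?_
        have hne : μ ≠ a := by rintro rfl; exact ha hμ
        exact le_iSup₂_of_le μ hne le_rfl
      rw [h2, finrank_bot, add_zero] at h1
      rw [h1]
  rw [key]
  apply Submodule.finrank_mono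
  exact iSup₂_le fun μ _ => inf_le_left

lemma ind (f : Module.End F V) (U : Submodule F V) (s : Finset ℕ) (μ : ℕ → F)
    (hμ : Set.InjOn μ s) :
    ∑ k ∈ s, finrank F (U ⊓ f.eigenspace (μ k) : Submodule F V) ≤ finrank F U := by
  classical
  have := ind' f U (s.image μ)
  rwa [Finset.sum_image (fun x hx y hy h => hμ hx hy h)] at this

lemma finrank_biSup_le (s : Finset ℕ) (P : ℕ → Submodule F V) :
    finrank F (⨆ k ∈ s, P k : Submodule F V) ≤ ∑ k ∈ s, finrank F (P k) := by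
  classical
  induction s using Finset.induction_on with
  | empty => simp
  | insert a s ha ih =>
    rw [Finset.sum_insert ha, Finset.iSup_insert]
    exact (Submodule.finrank_add_le_finrank_add_finrank _ _).trans (Nat.add_le_add_left ih _)

lemma dec (y : Module.End F V) (r : ℕ) (hr : r.Prime) (ω : F) (hω : IsPrimitiveRoot ω r)
    (hy : y ^ r = 1) (W : Submodule F V) (hW : ∀ w ∈ W, y w ∈ W) :
    finrank F W ≤ ∑ k ∈ Finset.range r, finrank F (W ⊓ y.eigenspace (ω ^ k) : Submodule F V) := by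
  have hr0 : (r : F) ≠ 0 := by
    intro h0
    haveI : NeZero r := ⟨hr.ne_zero⟩
    exact (hω.neZero').1 h0
  have hω0 : ω ≠ 0 := hω.ne_zero hr.ne_zero
  refine le_trans ?_ (finrank_biSup_le (Finset.range r) (fun k => W ⊓ y.eigenspace (ω ^ k)))
  apply Submodule.finrank_mono
  intro w hw
  have hyj : ∀ j : ℕ, (y ^ j) w ∈ W := by
    intro j
    induction j with
    | zero => simpa using hw
    | succ j ih => rw [pow_succ', Module.End.mul_apply]; exact hW _ ih
  -- the projections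
  have hP : ∀ k ∈ Finset.range r, (∑ j ∈ Finset.range r, ((ω ^ k)⁻¹ ^ j) • (y ^ j) w) ∈
      W ⊓ y.eigenspace (ω ^ k) := by
    intro k hk
    refine ⟨Submodule.sum_mem _ fun j _ => W.smul_mem _ (hyj j), ?_⟩
    rw [SetLike.mem_coe, Module.End.mem_eigenspace_iff, map_sum, Finset.smul_sum]
    have e1 : ∀ j ∈ Finset.range r, y (((ω ^ k)⁻¹ ^ j) • (y ^ j) w) =
        ω ^ k • (((ω ^ k)⁻¹ ^ (j + 1)) • (y ^ (j + 1)) w) := by
      intro j _
      rw [map_smul, smul_smul, pow_succ' y j, Module.End.mul_apply, pow_succ' (ω ^ k)⁻¹ j,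
        ← mul_assoc, mul_inv_cancel₀ (pow_ne_zero _ hω0), one_mul]
    rw [Finset.sum_congr rfl e1, ← Finset.smul_sum, ← Finset.smul_sum]
    congr 1
    have h1 := Finset.sum_range_succ (fun j => ((ω ^ k)⁻¹ ^ j) • (y ^ j) w) r
    have h2 := Finset.sum_range_succ' (fun j => ((ω ^ k)⁻¹ ^ j) • (y ^ j) w) r
    rw [h1] at h2
    have h3 : ((ω ^ k)⁻¹ ^ r) • (y ^ r) w = ((ω ^ k)⁻¹ ^ 0) • (y ^ 0) w := by
      rw [hy, inv_pow, ← pow_mul, mul_comm k r, pow_mul, hω.pow_eq_one, one_pow, pow_zero,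
        pow_zero, inv_one]
    rw [h3] at h2
    exact (add_right_cancel h2).symm
  have hsum : w = ∑ k ∈ Finset.range r, ((r : F)⁻¹) •
      (∑ j ∈ Finset.range r, ((ω ^ k)⁻¹ ^ j) • (y ^ j) w) := by
    rw [← Finset.smul_sum, Finset.sum_comm]
    have h1 : ∀ j ∈ Finset.range r, ∑ k ∈ Finset.range r, ((ω ^ k)⁻¹ ^ j) • (y ^ j) w =
        if j = 0 then (r : F) • w else 0 := by
      intro j hj
      rw [← Finset.sum_smul]
      split_ifs with h0
      · subst h0; simp
      · have h2 : ∑ k ∈ Finset.range r, (ω ^ k)⁻¹ ^ j = 0 := by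
          have h3 : ∀ k ∈ Finset.range r, (ω ^ k)⁻¹ ^ j = ((ω⁻¹) ^ j) ^ k := by
            intro k _
            rw [← inv_pow, ← pow_mul, ← pow_mul, mul_comm]
          rw [Finset.sum_congr rfl h3]
          have h4 : (ω⁻¹ ^ j) ≠ 1 := by
            intro h5
            rw [inv_pow, inv_eq_one] at h5
            have := Nat.le_of_dvd (Nat.pos_of_ne_zero h0) ((hω.pow_eq_one_iff_dvd j).1 h5)
            rw [Finset.mem_range] at hj
            omega
          have h5 := geom_sum_mul (ω⁻¹ ^ j) r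
          rw [← pow_mul, mul_comm j r, pow_mul, inv_pow ω r, hω.pow_eq_one, inv_one, one_pow,
            sub_self] at h5
          exact (mul_eq_zero.1 h5).resolve_right (sub_ne_zero.2 h4)
        rw [h2, zero_smul]
    rw [Finset.sum_congr rfl h1, Finset.sum_ite_eq' (Finset.range r) 0,
      if_pos (Finset.mem_range.2 hr.pos), smul_smul, inv_mul_cancel₀ hr0, one_smul]
  rw [hsum]
  refine Submodule.sum_mem _ fun k hk => ?_
  apply Submodule.smul_mem
  exact Submodule.mem_iSup_of_mem k (Submodule.mem_iSup_of_mem hk (hP k hk))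

end lin

section rep

variable {F V : Type*} [Field F] [AddCommGroup V] [Module F V] [FiniteDimensional F V]
variable {Γ : Type*} [Group Γ] (ρ : Γ →* Module.End F V)

lemma rho_inj (a : Γ) : Function.Injective (ρ a) := by
  intro v w h
  have h1 : ρ a⁻¹ (ρ a v) = ρ a⁻¹ (ρ a w) := by rw [h]
  rw [← Module.End.mul_apply, ← Module.End.mul_apply, ← map_mul, inv_mul_cancel, map_one] at h1
  exact h1

lemma fr_le (b : Γ) (P Q : Submodule F V) (h : ∀ v ∈ P, ρ b v ∈ Q) :
    finrank F P ≤ finrank F Q := by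
  have := LinearMap.finrank_le_finrank_of_injective (f := (ρ b).restrict h) (by
    intro v w hvw
    apply Subtype.ext
    exact rho_inj ρ b (congrArg Subtype.val hvw))
  exact this

/-- scalar elements -/
def IsSc (a : Γ) : Prop := ∃ z : F, ρ a = z • (1 : Module.End F V)

variable {ρ}

lemma eig_zero (g : Γ) : finrank F ((ρ g).eigenspace 0) = 0 := by
  have : (ρ g).eigenspace 0 = ⊥ := by
    rw [eq_bot_iff]
    intro v hv
    rw [Module.End.mem_eigenspace_iff, zero_smul] at hv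
    exact rho_inj ρ g (by rw [hv, map_zero])
  rw [this, finrank_bot]

lemma prim {r : ℕ} (hr : r.Prime) {z : F} (hz : z ^ r = 1) (h1 : z ≠ 1) : IsPrimitiveRoot z r := by
  haveI : Fact r.Prime := ⟨hr⟩
  have := orderOf_eq_prime hz h1
  rw [← this]
  exact IsPrimitiveRoot.orderOf z

/-- translates of eigenspaces -/
lemma trans (g h : Γ) (c : F) :
    2 * finrank F ((ρ g).eigenspace c) ≤ finrank F V +
      finrank F ((ρ g).eigenspace c ⊓ (ρ (g⁻¹ * h * g * h⁻¹)).eigenspace 1 : Submodule F V) := by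
  have h1 := Submodule.finrank_sup_add_finrank_inf_eq ((ρ g).eigenspace c)
    (((ρ g).eigenspace c).map (ρ h))
  have h2 : finrank F (((ρ g).eigenspace c).map (ρ h)) = finrank F ((ρ g).eigenspace c) :=
    (Submodule.equivMapOfInjective (ρ h) (rho_inj ρ h) _).finrank_eq.symm
  have h3 : finrank F (((ρ g).eigenspace c) ⊓ ((ρ g).eigenspace c).map (ρ h) : Submodule F V) ≤
      finrank F ((ρ g).eigenspace c ⊓ (ρ (g⁻¹ * h * g * h⁻¹)).eigenspace 1 : Submodule F V) := by
    rcases eq_or_ne c 0 with rfl | hc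
    · have := Submodule.finrank_mono (inf_le_left : ((ρ g).eigenspace 0) ⊓
        ((ρ g).eigenspace 0).map (ρ h) ≤ (ρ g).eigenspace 0)
      rw [eig_zero] at this
      omega
    apply Submodule.finrank_mono
    refine le_inf inf_le_left ?_
    rintro v ⟨hv1, w, hw, rfl⟩
    rw [SetLike.mem_coe, Module.End.mem_eigenspace_iff] at hv1 hw
    rw [Module.End.mem_eigenspace_iff, one_smul, ← Module.End.mul_apply, ← map_mul]
    have e1 : g⁻¹ * h * g * h⁻¹ * h = g⁻¹ * (h * g) := by group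
    rw [e1, map_mul, map_mul, Module.End.mul_apply, Module.End.mul_apply, hw, map_smul, map_smul]
    have h4 : ρ g⁻¹ (ρ g (ρ h w)) = ρ h w := by
      rw [← Module.End.mul_apply, ← map_mul, inv_mul_cancel, map_one]; rfl
    rw [hv1, map_smul] at h4
    exact h4
  have h4 : finrank F (((ρ g).eigenspace c) ⊔ ((ρ g).eigenspace c).map (ρ h) : Submodule F V) ≤
      finrank F V := Submodule.finrank_le _
  omega

lemma case_sc (g h : Γ) (c : F) (hs : IsSc ρ (g⁻¹ * h * g * h⁻¹))
    (hne : ρ (g⁻¹ * h * g * h⁻¹) ≠ 1) : 2 * finrank F ((ρ g).eigenspace c) ≤ finrank F V := by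
  have h1 := trans (ρ := ρ) g h c
  have h2 : (ρ (g⁻¹ * h * g * h⁻¹)).eigenspace 1 = ⊥ := by
    obtain ⟨z, hz⟩ := hs
    rw [eq_bot_iff]
    intro v hv
    rw [Module.End.mem_eigenspace_iff, hz, one_smul] at hv
    have hz1 : z ≠ 1 := by
      rintro rfl; apply hne; rw [hz, one_smul]
    have : (z - 1) • v = 0 := by
      rw [sub_smul, one_smul]
      have : z • v = v := hv
      rw [this, sub_self]
    exact (smul_eq_zero.1 this).resolve_left (sub_ne_zero.2 hz1)
  rw [h2, inf_bot_eq, finrank_bot] at h1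
  omega

variable (ρ) in
/-- the hypotheses on `M`. -/
structure Good (M : Subgroup Γ) (r : ℕ) : Prop where
  prime : r.Prime
  comm : ∀ a ∈ M, ∀ b ∈ M, ∃ z : F, z ^ r = 1 ∧ ρ a * ρ b = z • (ρ b * ρ a)
  cent : ∀ f : Module.End F V, (∀ a ∈ M, f * ρ a = ρ a * f) → ∃ z : F, f = z • 1

variable {M : Subgroup Γ} {r : ℕ}

lemma Good.exists_noncomm (hM : Good ρ M r) {y : Γ} (hy : y ∈ M) (hns : ¬ IsSc ρ y) :
    ∃ b ∈ M, ∃ z : F, IsPrimitiveRoot z r ∧ ρ y * ρ b = z • (ρ b * ρ y) := by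
  have : ∃ b ∈ M, ρ y * ρ b ≠ ρ b * ρ y := by
    by_contra hcon
    push Not at hcon
    exact hns (hM.cent _ hcon)
  obtain ⟨b, hb, hne⟩ := this
  obtain ⟨z, hz, hz2⟩ := hM.comm y hy b hb
  refine ⟨b, hb, z, prim hM.prime hz ?_, hz2⟩
  rintro rfl
  rw [one_smul] at hz2
  exact hne hz2

lemma Good.eig_le (hM : Good ρ M r) {y : Γ} (hy : y ∈ M) (hns : ¬ IsSc ρ y) (l : F) :
    r * finrank F ((ρ y).eigenspace l) ≤ finrank F V := by
  rcases eq_or_ne l 0 with rfl | hl
  · rw [eig_zero]; simp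
  obtain ⟨b, hb, z, hz, hyb⟩ := hM.exists_noncomm hy hns
  have h1 : ∀ k : ℕ, ∀ v ∈ (ρ y).eigenspace l, ρ (b ^ k) v ∈ (ρ y).eigenspace (l * z ^ k) := by
    intro k
    induction k with
    | zero => intro v hv; simpa using hv
    | succ k ih =>
      intro v hv
      have h2 := ih v hv
      rw [Module.End.mem_eigenspace_iff] at h2 ⊢
      rw [pow_succ' b, map_mul, Module.End.mul_apply, ← Module.End.mul_apply, hyb,
        LinearMap.smul_apply, Module.End.mul_apply, h2, map_smul, smul_smul]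
      congr 1
      rw [pow_succ]; ring
  have h2 := ind (ρ y) ⊤ (Finset.range r) (fun k => l * z ^ k) (by
    intro i hi j hj hij
    exact hz.pow_inj (by simpa using hi) (by simpa using hj) (mul_left_cancel₀ hl hij))
  rw [finrank_top] at h2
  refine le_trans ?_ h2
  have h3 : ∑ k ∈ Finset.range r, finrank F (⊤ ⊓ (ρ y).eigenspace (l * z ^ k) : Submodule F V) =
      ∑ k ∈ Finset.range r, finrank F ((ρ y).eigenspace (l * z ^ k)) :=
    Finset.sum_congr rfl (fun k _ => by rw [top_inf_eq])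
  rw [h3]
  calc r * finrank F ((ρ y).eigenspace l)
      = ∑ k ∈ Finset.range r, finrank F ((ρ y).eigenspace l) := by
        rw [Finset.sum_const, Finset.card_range, smul_eq_mul]
    _ ≤ _ := Finset.sum_le_sum fun k _ => fr_le ρ (b ^ k) _ _ (h1 k)


lemma Good.pow_sc (hM : Good ρ M r) {a : Γ} (ha : a ∈ M) : IsSc ρ (a ^ r) := by
  apply hM.cent
  intro b hb
  obtain ⟨z, hz, hab⟩ := hM.comm a ha b hb
  have key : ∀ k : ℕ, ρ (a ^ k) * ρ b = z ^ k • (ρ b * ρ (a ^ k)) := by
    intro k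
    induction k with
    | zero => simp
    | succ k ih =>
      rw [pow_succ' a, map_mul, mul_assoc, ih, mul_smul_comm, ← mul_assoc, hab, smul_mul_assoc,
        smul_smul, mul_assoc, pow_succ]
  rw [key r, hz, one_smul]

/-! ### the coprime case -/

lemma sc_comm {a : Γ} (ha : IsSc ρ a) (b : Γ) : ρ a * ρ b = ρ b * ρ a := by
  obtain ⟨z, hz⟩ := ha
  rw [hz, smul_one_mul, mul_smul_one]

variable (ρ) in
/-- scalar elements as a subgroup -/
def Zc : Subgroup Γ where
  carrier := {a | ∀ f : Module.End F V, f * ρ a = ρ a * f}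
  one_mem' := by intro f; simp
  mul_mem' := by
    intro a b ha hb f
    rw [map_mul, ← mul_assoc, ha f, mul_assoc, hb f, mul_assoc]
  inv_mem' := by
    intro a ha f
    have h1 := ha (ρ a⁻¹ * f * ρ a⁻¹)
    have h2 : ρ a * ρ a⁻¹ = 1 := by rw [← map_mul, mul_inv_cancel, map_one]
    have h3 : ρ a⁻¹ * ρ a = 1 := by rw [← map_mul, inv_mul_cancel, map_one]
    rw [mul_assoc, h3, mul_one, ← mul_assoc, ← mul_assoc, h2, one_mul] at h1
    exact h1.symm

instance : (Zc ρ).Normal := ⟨by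
  intro a ha g f
  have h2 : ρ g * ρ g⁻¹ = 1 := by rw [← map_mul, mul_inv_cancel, map_one]
  have h1 := ha (ρ g)
  rw [map_mul, map_mul, h1, mul_assoc (ρ a), h2, mul_one]
  exact ha f⟩

lemma mem_Zc_of_sc {a : Γ} (ha : IsSc ρ a) : a ∈ Zc ρ := by
  obtain ⟨z, hz⟩ := ha
  intro f
  rw [hz, smul_one_mul, mul_smul_one]

lemma Good.sc_of_mem (hM : Good ρ M r) {a : Γ} (ha : a ∈ Zc ρ) : IsSc ρ a :=
  hM.cent _ fun b _ => (ha (ρ b)).symm

lemma sc_mul {a b : Γ} (ha : IsSc ρ a) (hb : IsSc ρ b) : IsSc ρ (a * b) := by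
  obtain ⟨z, hz⟩ := ha
  obtain ⟨w, hw⟩ := hb
  exact ⟨z * w, by rw [map_mul, hz, hw, smul_one_mul, smul_smul]⟩

/-- conjugation powers -/
lemma conj_pow {Q : Type*} [Group Q] (h s u : Q) (h1 : Commute h s) (h2 : h * u * h⁻¹ = s * u)
    (k : ℕ) : h ^ k * u * (h ^ k)⁻¹ = s ^ k * u := by
  induction k with
  | zero => simp
  | succ k ih =>
    have e1 : h ^ (k + 1) * u * (h ^ (k + 1))⁻¹ = h * (h ^ k * u * (h ^ k)⁻¹) * h⁻¹ := by
      rw [pow_succ']; group
    rw [e1, ih]
    have e2 : h * (s ^ k * u) * h⁻¹ = (h * s ^ k * h⁻¹) * (h * u * h⁻¹) := by group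
    rw [e2, h2, (h1.pow_right k).eq, mul_inv_cancel_right, pow_succ]
    group

lemma eq_one_of_pow {Q : Type*} [Group Q] (s : Q) {m n : ℕ} (hmn : m.Coprime n) (h1 : s ^ m = 1)
    (h2 : s ^ n = 1) : s = 1 := by
  have := Nat.dvd_gcd (orderOf_dvd_of_pow_eq_one h1) (orderOf_dvd_of_pow_eq_one h2)
  rw [hmn.gcd_eq_one, Nat.dvd_one, orderOf_eq_one_iff] at this
  exact this

/-- the commutator as an operator -/
lemma Good.bet (hM : Good ρ M r) {a b : Γ} (ha : a ∈ M) (hb : b ∈ M) :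
    a * b * a⁻¹ * b⁻¹ ∈ Zc ρ := by
  obtain ⟨z, hz, h⟩ := hM.comm a ha b hb
  apply mem_Zc_of_sc
  refine ⟨z, ?_⟩
  have h1 : ρ (a * b * a⁻¹ * b⁻¹) * ρ (b * a) = ρ (a * b) := by
    rw [← map_mul]; congr 1; group
  have h2 : ρ (a * b * a⁻¹ * b⁻¹) * ρ (b * a) * ρ (b * a)⁻¹ = ρ (a * b * a⁻¹ * b⁻¹) := by
    rw [mul_assoc, ← map_mul ρ (b * a), mul_inv_cancel, map_one, mul_one]
  rw [← h2, h1, map_mul ρ a b, h, ← map_mul, smul_mul_assoc, ← map_mul, mul_inv_cancel, map_one]

/-- commutator -/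
def bt (a b : Γ) : Γ := a * b * a⁻¹ * b⁻¹

lemma bt_mul_left (a a' b : Γ) (h : ∀ c, Commute (bt a' b) c) : bt (a * a') b = bt a b * bt a' b := by
  have e1 : bt (a * a') b = a * bt a' b * (b * a⁻¹ * b⁻¹) := by unfold bt; group
  rw [e1, ← (h a).eq, mul_assoc, (h _).eq]
  unfold bt; group

lemma bt_mul_right (a b b' : Γ) (h : ∀ c, Commute (bt a b') c) :
    bt a (b * b') = bt a b * bt a b' := by
  have e1 : bt a (b * b') = bt a b * (b * bt a b' * b⁻¹) := by unfold bt; group
  rw [e1, ← (h b).eq, mul_inv_cancel_right]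

lemma bt_conj (g a b : Γ) : bt (g * a * g⁻¹) (g * b * g⁻¹) = g * bt a b * g⁻¹ := by
  unfold bt; group

lemma bt_swap (a b : Γ) : bt a b * bt b a = 1 := by unfold bt; group

lemma bt_eq_one {a b : Γ} : bt a b = 1 ↔ a * b = b * a := by
  unfold bt
  rw [mul_inv_eq_one, mul_inv_eq_iff_eq_mul]

lemma bt_central (z w a b : Γ) (hz : ∀ c, Commute z c) (hw : ∀ c, Commute w c) :
    bt (z * a) (w * b) = bt a b := by
  have e1 : bt (z * a) (w * b) = z * (a * w) * (b * a⁻¹) * z⁻¹ * (b⁻¹ * w⁻¹) := by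
    unfold bt; group
  rw [e1, ← (hw a).eq]
  have hz' : ∀ c, z⁻¹ * c = c * z⁻¹ := fun c => ((hz c).inv_left).eq
  have hw' : ∀ c, w⁻¹ * c = c * w⁻¹ := fun c => ((hw c).inv_left).eq
  calc z * (w * a) * (b * a⁻¹) * z⁻¹ * (b⁻¹ * w⁻¹)
      = z * (w * (a * b * a⁻¹ * (z⁻¹ * (b⁻¹ * w⁻¹)))) := by group
    _ = z * (w * (a * b * a⁻¹ * (b⁻¹ * w⁻¹ * z⁻¹))) := by rw [hz']
    _ = z * (w * bt a b * w⁻¹) * z⁻¹ := by unfold bt; group
    _ = bt a b := by rw [(hw _).eq, mul_inv_cancel_right, (hz _).eq, mul_inv_cancel_right]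

theorem coprimeCase (hinj : Function.Injective ρ) (hM : Good ρ M r) (g : Γ)
    (hg : ∀ a ∈ M, g * a * g⁻¹ ∈ M) (hg' : ∀ a ∈ M, g⁻¹ * a * g ∈ M) (n : ℕ) (hn : Odd n)
    (hcop : n.Coprime r) (hgn : g ^ n = 1)
    (H : ∀ x ∈ M, Commute (g⁻¹ * x * g * x⁻¹) (g * (g⁻¹ * x * g * x⁻¹) * g⁻¹)) :
    ∀ x ∈ M, g⁻¹ * x * g * x⁻¹ ∈ Zc ρ := by
  have hZ : ∀ a ∈ Zc ρ, ∀ c, Commute a c := by
    intro a ha c
    apply hinj
    rw [map_mul, map_mul]
    exact (ha (ρ c)).symm
  have hcen : ∀ a ∈ M, ∀ b ∈ M, ∀ c, Commute (bt a b) c := fun a ha b hb =>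
    hZ _ (hM.bet ha hb)
  have hD : ∀ x ∈ M, g⁻¹ * x * g * x⁻¹ ∈ M := fun x hx => mul_mem (hg' x hx) (inv_mem hx)
  have hTinv : ∀ a ∈ M, ∀ b ∈ M, bt a (g * b * g⁻¹) = bt (g⁻¹ * a * g) b := by
    intro a ha b hb
    have h1 := bt_conj g (g⁻¹ * a * g) b
    have e1 : g * (g⁻¹ * a * g) * g⁻¹ = a := by group
    rw [e1] at h1
    rw [h1, ← (hcen _ (hg' a ha) b hb g).eq, mul_inv_cancel_right]
  -- step 1
  have s1 : ∀ x ∈ M, ∀ x' ∈ M, bt (g⁻¹ * x * g * x⁻¹) (g * (g⁻¹ * x' * g * x'⁻¹) * g⁻¹) *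
      bt (g⁻¹ * x' * g * x'⁻¹) (g * (g⁻¹ * x * g * x⁻¹) * g⁻¹) = 1 := by
    intro x hx x' hx'
    have hH := bt_eq_one.2 (H (x * x') (mul_mem hx hx')).eq
    have e1 : g⁻¹ * (x * x') * g * (x * x')⁻¹ = (g⁻¹ * x * g * x⁻¹) *
        bt x (g⁻¹ * x' * g * x'⁻¹) * (g⁻¹ * x' * g * x'⁻¹) := by unfold bt; group
    set z := bt x (g⁻¹ * x' * g * x'⁻¹) with hz
    have hzc : ∀ c, Commute z c := hcen x hx _ (hD x' hx')
    rw [e1, ← (hzc _).eq, mul_assoc z] at hH
    have e2 : g * (z * (g⁻¹ * x * g * x⁻¹ * (g⁻¹ * x' * g * x'⁻¹))) * g⁻¹ =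
        z * ((g * (g⁻¹ * x * g * x⁻¹) * g⁻¹) * (g * (g⁻¹ * x' * g * x'⁻¹) * g⁻¹)) := by
      rw [← mul_assoc g z, ← (hzc g).eq]; group
    rw [e2, bt_central z z _ _ hzc hzc] at hH
    have m1 := hD x hx
    have m2 := hD x' hx'
    have m3 := hg _ m1
    have m4 := hg _ m2
    rw [bt_mul_left _ _ _ (hcen _ m2 _ (mul_mem m3 m4)), bt_mul_right _ _ _ (hcen _ m1 _ m4),
      bt_mul_right _ _ _ (hcen _ m2 _ m4), bt_eq_one.2 (H x hx).eq, bt_eq_one.2 (H x' hx').eq,
      one_mul, mul_one] at hH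
    exact hH
  -- step 2
  have s2 : ∀ x ∈ M, ∀ x' ∈ M, bt (g⁻¹ * x * g * x⁻¹) (g * (g⁻¹ * x' * g * x'⁻¹) * g⁻¹) =
      bt (g⁻¹ * x * g * x⁻¹) (g⁻¹ * (g⁻¹ * x' * g * x'⁻¹) * g) := by
    intro x hx x' hx'
    have h1 := s1 x hx x' hx'
    rw [hTinv _ (hD x' hx') _ (hD x hx)] at h1
    have h2 := bt_swap (g⁻¹ * x * g * x⁻¹) (g⁻¹ * (g⁻¹ * x' * g * x'⁻¹) * g)
    exact mul_right_cancel (h1.trans h2.symm)
  intro x' hx'
  set w := g⁻¹ * x' * g * x'⁻¹ with hw
  have mw : w ∈ M := hD x' hx'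
  set u := g⁻¹ * w * g with hu
  have mu : u ∈ M := hg' _ mw
  set s := (g * w * g⁻¹) * u⁻¹ with hs
  have ms : s ∈ M := mul_mem (hg _ mw) (inv_mem mu)
  have hsu : g * w * g⁻¹ = s * u := by rw [hs, inv_mul_cancel_right]
  have s3 : ∀ x ∈ M, bt (g⁻¹ * x * g * x⁻¹) s = 1 := by
    intro x hx
    have h1 := s2 x hx x' hx'
    rw [← hw, ← hu, hsu, bt_mul_right _ _ _ (hcen _ (hD x hx) _ mu)] at h1
    exact mul_eq_right.1 h1
  set q := (g * s * g⁻¹) * s⁻¹ with hq
  have mq : q ∈ M := mul_mem (hg _ ms) (inv_mem ms)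
  have hqs : g * s * g⁻¹ = q * s := by rw [hq, inv_mul_cancel_right]
  have s4 : ∀ x ∈ M, bt x q = 1 := by
    intro x hx
    have h1 := hTinv x hx s ms
    have e1 : g⁻¹ * x * g = (g⁻¹ * x * g * x⁻¹) * x := by rw [inv_mul_cancel_right]
    rw [e1, bt_mul_left _ _ _ (hcen _ hx _ ms), s3 x hx, one_mul, hqs,
      bt_mul_right _ _ _ (hcen _ hx _ ms)] at h1
    exact mul_eq_right.1 h1
  have hqZ : q ∈ Zc ρ := by
    apply mem_Zc_of_sc
    apply hM.cent
    intro a ha
    have := bt_eq_one.1 (s4 a ha)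
    rw [← map_mul, ← map_mul, this]
  -- pass to the quotient
  have hone : ∀ {a : Γ}, QuotientGroup.mk' (Zc ρ) a = 1 ↔ a ∈ Zc ρ := fun {a} =>
    QuotientGroup.eq_one_iff a
  have k1 : Commute (QuotientGroup.mk' (Zc ρ) g) (QuotientGroup.mk' (Zc ρ) s) := by
    have h1 : QuotientGroup.mk' (Zc ρ) g * QuotientGroup.mk' (Zc ρ) s *
        (QuotientGroup.mk' (Zc ρ) g)⁻¹ = QuotientGroup.mk' (Zc ρ) s := by
      rw [← map_mul, ← map_inv, ← map_mul, hqs, map_mul, hone.2 hqZ, one_mul]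
    rw [mul_inv_eq_iff_eq_mul] at h1
    exact h1
  have hpow : ∀ a ∈ M, (QuotientGroup.mk' (Zc ρ) a) ^ r = 1 := by
    intro a ha
    rw [← map_pow, hone]
    exact mem_Zc_of_sc (hM.pow_sc ha)
  have hgn' : (QuotientGroup.mk' (Zc ρ) g) ^ n = 1 := by rw [← map_pow, hgn, map_one]
  have k2 : (QuotientGroup.mk' (Zc ρ) g) ^ 2 * QuotientGroup.mk' (Zc ρ) u *
      ((QuotientGroup.mk' (Zc ρ) g) ^ 2)⁻¹ = QuotientGroup.mk' (Zc ρ) s *
        QuotientGroup.mk' (Zc ρ) u := by
    rw [← map_mul (QuotientGroup.mk' (Zc ρ)) s u, ← hsu, ← map_pow, ← map_inv, ← map_mul,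
      ← map_mul, hu]
    congr 1
    rw [pow_two]; group
  have k3 : QuotientGroup.mk' (Zc ρ) s = 1 := by
    apply eq_one_of_pow _ hcop _ (hpow s ms)
    have h1 := conj_pow _ _ _ (k1.pow_left 2) k2 n
    rw [← pow_mul, mul_comm 2 n, pow_mul, hgn', one_pow, one_mul, inv_one, mul_one] at h1
    exact (mul_eq_right.1 h1.symm)
  have k4 : Commute (QuotientGroup.mk' (Zc ρ) g) (QuotientGroup.mk' (Zc ρ) u) := by
    rw [k3, one_mul, mul_inv_eq_iff_eq_mul] at k2
    have h1 : Commute ((QuotientGroup.mk' (Zc ρ) g) ^ 2) (QuotientGroup.mk' (Zc ρ) u) := k2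
    obtain ⟨m, hm⟩ := hn
    have h2 := h1.pow_left (m + 1)
    have h3 : ((QuotientGroup.mk' (Zc ρ) g) ^ 2) ^ (m + 1) = QuotientGroup.mk' (Zc ρ) g := by
      rw [← pow_mul, show 2 * (m + 1) = n + 1 by omega, pow_succ, hgn', one_mul]
    rwa [h3] at h2
  have k5 : Commute (QuotientGroup.mk' (Zc ρ) g) (QuotientGroup.mk' (Zc ρ) w) := by
    have e1 : w = g * u * g⁻¹ := by rw [hu]; group
    rw [e1, map_mul, map_mul, map_inv, k4.eq, mul_inv_cancel_right]
    exact k4
  have k6 : QuotientGroup.mk' (Zc ρ) w = 1 := by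
    apply eq_one_of_pow _ hcop _ (hpow w mw)
    have h2 : (QuotientGroup.mk' (Zc ρ) g)⁻¹ * QuotientGroup.mk' (Zc ρ) x' *
        (QuotientGroup.mk' (Zc ρ) g)⁻¹⁻¹ = QuotientGroup.mk' (Zc ρ) w *
        QuotientGroup.mk' (Zc ρ) x' := by
      rw [inv_inv, ← map_inv, ← map_mul, ← map_mul, ← map_mul, hw, inv_mul_cancel_right]
    have h1 := conj_pow _ _ _ k5.inv_left h2 n
    rw [inv_pow, hgn', inv_one, one_mul, inv_one, mul_one] at h1
    exact (mul_eq_right.1 h1.symm)
  exact hone.1 k6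

/-! ### the case of a unipotent action -/

/-- triangular numbers -/
def tri (k : ℕ) : ℕ := ∑ j ∈ Finset.range (k + 1), j

lemma tri_succ (k : ℕ) : tri (k + 1) = tri k + (k + 1) := by
  unfold tri; rw [Finset.sum_range_succ]

lemma two_tri (k : ℕ) : 2 * tri k = k * (k + 1) := by
  induction k with
  | zero => rfl
  | succ k ih => rw [tri_succ, mul_add, ih]; ring

lemma step (g x y : Γ) (ε μ c : F) (hε : ε ≠ 0) (h1 : g * x = x * y * g)
    (h2 : ρ x * ρ y = ε • (ρ y * ρ x)) (v : V)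
    (hv : v ∈ (ρ y).eigenspace (ε * μ) ⊓ (ρ g).eigenspace c) :
    ρ x v ∈ (ρ y).eigenspace μ ⊓ (ρ g).eigenspace (c * (ε * μ)) := by
  obtain ⟨hv1, hv2⟩ := hv
  rw [SetLike.mem_coe, Module.End.mem_eigenspace_iff] at hv1 hv2
  refine ⟨?_, ?_⟩
  · rw [SetLike.mem_coe, Module.End.mem_eigenspace_iff]
    have e1 := congrArg (fun f : Module.End F V => f v) h2
    simp only [Module.End.mul_apply, LinearMap.smul_apply, hv1, map_smul] at e1
    rw [mul_smul] at e1
    exact (smul_right_injective V hε e1).symm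
  · rw [SetLike.mem_coe, Module.End.mem_eigenspace_iff]
    have e1 : ρ g (ρ x v) = ρ x (ρ y (ρ g v)) := by
      rw [← Module.End.mul_apply, ← map_mul, h1, map_mul, map_mul]; rfl
    rw [e1, hv2, map_smul, hv1, map_smul, map_smul, smul_smul]

lemma countF (hM : Good ρ M r) (h5 : 5 ≤ r) (g x y : Γ) (hy : y ∈ M) (hns : ¬ IsSc ρ y) (c ε : F)
    (hε : ε ^ r = 1) (h1 : g * x = x * y * g) (h2 : ρ x * ρ y = ε • (ρ y * ρ x))
    (h3 : ρ g * ρ y = ρ y * ρ g) (hyr : (ρ y) ^ r = 1) :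
    2 * finrank F ((ρ g).eigenspace c) ≤ finrank F V := by
  rcases eq_or_ne c 0 with rfl | hc
  · rw [eig_zero]; simp
  have hr := hM.prime
  have hε0 : ε ≠ 0 := by
    rintro rfl
    rw [zero_pow hr.ne_zero] at hε
    exact zero_ne_one hε
  have hWinv : ∀ w ∈ (ρ g).eigenspace c, ρ y w ∈ (ρ g).eigenspace c := by
    intro w hw
    rw [Module.End.mem_eigenspace_iff] at hw ⊢
    rw [← Module.End.mul_apply, h3, Module.End.mul_apply, hw, map_smul]
  have hE := hM.eig_le hy hns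
  rcases eq_or_ne ε 1 with rfl | hε1
  · obtain ⟨b, hb, ω, hω, -⟩ := hM.exists_noncomm hy hns
    have hd := dec (ρ y) r hr ω hω hyr ((ρ g).eigenspace c) hWinv
    have hk : ∀ (μ : F) (k : ℕ), ∀ v ∈ (ρ g).eigenspace c ⊓ (ρ y).eigenspace μ,
        ρ (x ^ k) v ∈ (ρ y).eigenspace μ ⊓ (ρ g).eigenspace (c * μ ^ k) := by
      intro μ k
      induction k with
      | zero => intro v hv; simpa [and_comm] using hv
      | succ k ih =>
        intro v hv
        have := step g x y 1 μ (c * μ ^ k) one_ne_zero h1 h2 (ρ (x ^ k) v)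
          (by rw [one_mul]; exact ih v hv)
        rw [one_mul, mul_assoc, ← pow_succ, ← Module.End.mul_apply, ← map_mul, ← pow_succ'] at this
        exact this
    have hdi : ∀ i ∈ Finset.range r, i ≠ 0 →
        r * finrank F ((ρ g).eigenspace c ⊓ (ρ y).eigenspace (ω ^ i) : Submodule F V) ≤
          finrank F ((ρ y).eigenspace (ω ^ i)) := by
      intro i hi hi0
      rw [Finset.mem_range] at hi
      have hωi : IsPrimitiveRoot (ω ^ i) r := by
        apply hω.pow_of_coprime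
        exact ((Nat.Prime.coprime_iff_not_dvd hr).2 (fun h => by
          have := Nat.le_of_dvd (Nat.pos_of_ne_zero hi0) h; omega)).symm
      have h4 := ind (ρ g) ((ρ y).eigenspace (ω ^ i)) (Finset.range r)
        (fun k => c * (ω ^ i) ^ k) (by
          intro a ha b hb hab
          exact hωi.pow_inj (by simpa using ha) (by simpa using hb) (mul_left_cancel₀ hc hab))
      refine le_trans ?_ h4
      calc r * finrank F ((ρ g).eigenspace c ⊓ (ρ y).eigenspace (ω ^ i) : Submodule F V)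
          = ∑ k ∈ Finset.range r,
            finrank F ((ρ g).eigenspace c ⊓ (ρ y).eigenspace (ω ^ i) : Submodule F V) := by
            rw [Finset.sum_const, Finset.card_range, smul_eq_mul]
        _ ≤ _ := Finset.sum_le_sum fun k _ => fr_le ρ (x ^ k) _ _ (hk (ω ^ i) k)
    obtain ⟨m, rfl⟩ : ∃ m, r = m + 1 := ⟨r - 1, by omega⟩
    rw [Finset.sum_range_succ'] at hd
    have h6 : finrank F ((ρ g).eigenspace c ⊓ (ρ y).eigenspace (ω ^ 0) : Submodule F V) ≤
        finrank F ((ρ y).eigenspace (ω ^ 0)) := Submodule.finrank_mono inf_le_right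
    have h7 := hE (ω ^ 0)
    have h8 : (m + 1) * ((m + 1) * ∑ k ∈ Finset.range m,
        finrank F ((ρ g).eigenspace c ⊓ (ρ y).eigenspace (ω ^ (k + 1)) : Submodule F V)) ≤
        m * finrank F V := by
      rw [Finset.mul_sum, Finset.mul_sum]
      calc _ ≤ ∑ k ∈ Finset.range m, finrank F V := by
            apply Finset.sum_le_sum
            intro k hk
            have := hdi (k + 1) (by simp at hk ⊢; omega) (by omega)
            exact (Nat.mul_le_mul_left _ this).trans (hE _)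
        _ = m * finrank F V := by rw [Finset.sum_const, Finset.card_range, smul_eq_mul]
    have h9 : (m + 1) * ((m + 1) * finrank F ((ρ g).eigenspace c)) ≤ (2 * m + 1) * finrank F V := by
      calc _ ≤ (m + 1) * ((m + 1) * (∑ k ∈ Finset.range m,
              finrank F ((ρ g).eigenspace c ⊓ (ρ y).eigenspace (ω ^ (k + 1)) : Submodule F V) +
              finrank F ((ρ g).eigenspace c ⊓ (ρ y).eigenspace (ω ^ 0) : Submodule F V))) := by
            gcongr
        _ = (m + 1) * ((m + 1) * ∑ k ∈ Finset.range m,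
              finrank F ((ρ g).eigenspace c ⊓ (ρ y).eigenspace (ω ^ (k + 1)) : Submodule F V)) +
              (m + 1) * ((m + 1) *
              finrank F ((ρ g).eigenspace c ⊓ (ρ y).eigenspace (ω ^ 0) : Submodule F V)) := by ring
        _ ≤ m * finrank F V + (m + 1) * finrank F V := by
            apply Nat.add_le_add h8
            apply Nat.mul_le_mul_left
            exact (Nat.mul_le_mul_left _ h6).trans h7
        _ = (2 * m + 1) * finrank F V := by ring
    by_contra hcon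
    push Not at hcon
    have h10 : (m + 1) * ((m + 1) * (finrank F V + 1)) ≤
        (m + 1) * ((m + 1) * (2 * finrank F ((ρ g).eigenspace c))) := by gcongr; omega
    have h11 : 2 * (2 * m + 1) ≤ (m + 1) * (m + 1) := by nlinarith
    have h12 : (m + 1) * ((m + 1) * (finrank F V + 1)) ≤ (m + 1) * (m + 1) * finrank F V := by
      calc _ ≤ 2 * ((m + 1) * ((m + 1) * finrank F ((ρ g).eigenspace c))) := by
            refine h10.trans (le_of_eq ?_); ring
        _ ≤ 2 * ((2 * m + 1) * finrank F V) := Nat.mul_le_mul_left _ h9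
        _ = 2 * (2 * m + 1) * finrank F V := by ring
        _ ≤ _ := Nat.mul_le_mul_right _ h11
    have h13 : (m + 1) * ((m + 1) * (finrank F V + 1)) = (m + 1) * (m + 1) * finrank F V +
      (m + 1) * (m + 1) := by ring
    have h14 : 0 < (m + 1) * (m + 1) := by positivity
    omega
  · have hω := prim hr hε hε1
    have hd := dec (ρ y) r hr ε hω hyr ((ρ g).eigenspace c) hWinv
    have hmain : ∀ (k : ℕ) (c' : F),
        finrank F ((ρ y).eigenspace (ε ^ k) ⊓ (ρ g).eigenspace c' : Submodule F V) ≤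
          finrank F ((ρ y).eigenspace 1 ⊓ (ρ g).eigenspace (c' * ε ^ tri k) : Submodule F V) := by
      intro k
      induction k with
      | zero =>
        intro c'
        have : tri 0 = 0 := rfl
        rw [this, pow_zero, mul_one]
      | succ k ih =>
        intro c'
        have h4 := fr_le ρ x ((ρ y).eigenspace (ε ^ (k + 1)) ⊓ (ρ g).eigenspace c')
          ((ρ y).eigenspace (ε ^ k) ⊓ (ρ g).eigenspace (c' * ε ^ (k + 1))) (by
            intro v hv
            have := step g x y ε (ε ^ k) c' hε0 h1 h2 v (by rw [← pow_succ']; exact hv)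
            rwa [← pow_succ'] at this)
        refine h4.trans ((ih _).trans ?_)
        rw [tri_succ, mul_assoc, ← pow_add, add_comm (k + 1)]
    set fk : ℕ → ℕ := fun k => finrank F ((ρ y).eigenspace 1 ⊓
      (ρ g).eigenspace (c * ε ^ tri k) : Submodule F V) with hfk
    have hd2 : finrank F ((ρ g).eigenspace c) ≤ ∑ k ∈ Finset.range r, fk k := by
      refine hd.trans (Finset.sum_le_sum fun k _ => ?_)
      have := hmain k c
      rwa [inf_comm] at this
    have hodd : Odd r := hr.odd_of_ne_two (by omega)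
    obtain ⟨m, hm⟩ := hodd
    have hsym : ∀ k < m, fk (m + 1 + k) = fk (m - 1 - k) := by
      intro k hk
      have h4 : tri (m + 1 + k) = tri (m - 1 - k) + r * (k + 1) := by
        have e1 := two_tri (m + 1 + k)
        have e2 := two_tri (m - 1 - k)
        obtain ⟨l, hl⟩ : ∃ l, m = l + 1 + k := ⟨m - 1 - k, by omega⟩
        have e3 : m - 1 - k = l := by omega
        rw [e3] at e2 ⊢
        subst hl
        rw [hm]
        have : 2 * tri (l + 1 + k + 1 + k) = 2 * (tri l + (2 * (l + 1 + k) + 1) * (k + 1)) := by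
          rw [mul_add, e1, e2]; ring
        omega
      simp only [hfk]
      rw [h4, pow_add, pow_mul, hε, one_pow, mul_one]
    have hsum : ∑ k ∈ Finset.range r, fk k ≤ 2 * ∑ k ∈ Finset.range (m + 1), fk k := by
      have e1 : r = (m + 1) + m := by omega
      rw [e1, Finset.sum_range_add, two_mul]
      apply Nat.add_le_add_left
      have e2 : ∑ k ∈ Finset.range m, fk (m + 1 + k) = ∑ k ∈ Finset.range m, fk (m - 1 - k) :=
        Finset.sum_congr rfl fun k hk => hsym k (Finset.mem_range.1 hk)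
      rw [e2, Finset.sum_range_reflect, Finset.sum_range_succ]
      exact Nat.le_add_right _ _
    have hfin : ∑ k ∈ Finset.range (m + 1), fk k ≤ finrank F ((ρ y).eigenspace 1) := by
      apply ind (ρ g) ((ρ y).eigenspace 1) (Finset.range (m + 1)) (fun k => c * ε ^ tri k)
      intro a ha b hb hab
      have ha' : a ≤ m := by have := Finset.mem_coe.1 ha; rw [Finset.mem_range] at this; omega
      have hb' : b ≤ m := by have := Finset.mem_coe.1 hb; rw [Finset.mem_range] at this; omega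
      have h4 : ε ^ tri a = ε ^ tri b := mul_left_cancel₀ hc hab
      have key : ∀ a b : ℕ, a < b → b ≤ m → ε ^ tri a = ε ^ tri b → False := by
        intro a b hab hb h4
        have h5 : r ∣ tri b - tri a := by
          rw [← hω.pow_eq_one_iff_dvd]
          have h6 : tri a ≤ tri b := by
            have e1 := two_tri a
            have e2 := two_tri b
            have : a * (a + 1) ≤ b * (b + 1) := Nat.mul_le_mul hab.le (by omega)
            omega
          have h7 : ε ^ tri b = ε ^ tri a * ε ^ (tri b - tri a) := by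
            rw [← pow_add, Nat.add_sub_cancel' h6]
          rw [← h4] at h7
          exact (mul_right_eq_self₀.1 h7.symm).resolve_right (pow_ne_zero _ hε0)
        have h8 : r ∣ (b - a) * (a + b + 1) := by
          have h9 : 2 * (tri b - tri a) = (b - a) * (a + b + 1) := by
            rw [Nat.mul_sub, two_tri, two_tri]
            obtain ⟨d, rfl⟩ := Nat.exists_eq_add_of_lt hab
            have : a + d + 1 - a = d + 1 := by omega
            rw [this]
            apply Nat.sub_eq_of_eq_add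
            ring
          rw [← h9]
          exact Dvd.dvd.mul_left h5 2
        rcases (hr.dvd_mul).1 h8 with h9 | h9
        · have := Nat.le_of_dvd (by omega) h9; omega
        · have := Nat.le_of_dvd (by omega) h9; omega
      rcases lt_trichotomy a b with h | h | h
      · exact (key a b h hb' h4).elim
      · exact h
      · exact (key b a h ha' h4.symm).elim
    have h10 := hE 1
    have h11 : r * finrank F ((ρ g).eigenspace c) ≤ 2 * finrank F V := by
      calc _ ≤ r * (2 * finrank F ((ρ y).eigenspace 1)) := by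
            apply Nat.mul_le_mul_left; omega
        _ = 2 * (r * finrank F ((ρ y).eigenspace 1)) := by ring
        _ ≤ _ := Nat.mul_le_mul_left _ h10
    nlinarith

/-- powers of a product -/
lemma pow_pow_eq {R : Type*} [Ring R] [Algebra F R] (X Y : R) (ε : F)
    (h : X * Y = ε • (Y * X)) (k : ℕ) :
    X ^ k * Y ^ k = ε ^ (∑ j ∈ Finset.range k, j) • (X * Y) ^ k := by
  have h1 : ∀ k : ℕ, (X * Y) ^ k * Y = ε ^ k • (Y * (X * Y) ^ k) := by
    intro k
    induction k with
    | zero => simp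
    | succ k ih =>
      have e : X * Y * Y = ε • (Y * (X * Y)) := by
        have := congrArg (· * Y) h
        simp only [smul_mul_assoc] at this
        rw [this, mul_assoc]
      rw [pow_succ, mul_assoc, e, mul_smul_comm, ← mul_assoc, ih, smul_mul_assoc, smul_smul,
        mul_assoc, ← pow_succ, ← pow_succ']
  induction k with
  | zero => simp
  | succ k ih =>
    rw [pow_succ' X, pow_succ Y, mul_assoc, ← mul_assoc (X ^ k), ih, smul_mul_assoc, h1,
      Finset.sum_range_succ, pow_add, mul_smul_comm, mul_smul_comm, smul_smul, ← mul_assoc,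
      ← pow_succ']

theorem unipCase [Finite Γ] (hinj : Function.Injective ρ) (hM : Good ρ M r) (h5 : 5 ≤ r) (g : Γ)
    (hg : ∀ a ∈ M, g * a * g⁻¹ ∈ M) (hg' : ∀ a ∈ M, g⁻¹ * a * g ∈ M)
    (hgr : g ^ r = 1) (h : Γ) (hh : h ∈ M) (hns : ¬ IsSc ρ (g⁻¹ * h * g * h⁻¹)) (c : F) :
    2 * finrank F ((ρ g).eigenspace c) ≤ finrank F V := by
  have hr := hM.prime
  haveI : Fact r.Prime := ⟨hr⟩
  have hone : ∀ {a : Γ}, QuotientGroup.mk' (Zc ρ) a = 1 ↔ a ∈ Zc ρ := fun {a} =>
    QuotientGroup.eq_one_iff a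
  -- the r-group
  let Mb : Subgroup (Γ ⧸ Zc ρ) := M.map (QuotientGroup.mk' (Zc ρ))
  let gb : Γ ⧸ Zc ρ := QuotientGroup.mk' (Zc ρ) g
  have p1 : IsPGroup r Mb := by
    rintro ⟨_, a, ha, rfl⟩
    refine ⟨1, Subtype.ext ?_⟩
    show (QuotientGroup.mk' (Zc ρ) a) ^ r ^ 1 = 1
    rw [pow_one, ← map_pow, hone]
    exact mem_Zc_of_sc (hM.pow_sc ha)
  have p2 : IsPGroup r (Subgroup.zpowers gb) := by
    rintro ⟨a, k, rfl⟩
    refine ⟨1, Subtype.ext ?_⟩
    show (gb ^ k) ^ r ^ 1 = 1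
    have hgb : gb ^ r = 1 := by
      show (QuotientGroup.mk' (Zc ρ) g) ^ r = 1
      rw [← map_pow, hgr, map_one]
    rw [pow_one, ← zpow_natCast, ← zpow_mul, mul_comm, zpow_mul, zpow_natCast, hgb, one_zpow]
  have p3 : Subgroup.zpowers gb ≤ Subgroup.normalizer (Mb : Set (Γ ⧸ Zc ρ)) := by
    rw [Subgroup.zpowers_le, Subgroup.mem_normalizer_iff]
    intro a
    constructor
    · rintro ⟨b, hb, rfl⟩
      exact ⟨g * b * g⁻¹, hg b hb, by rw [map_mul, map_mul, map_inv]⟩
    · rintro ⟨b, hb, hab⟩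
      refine ⟨g⁻¹ * b * g, hg' b hb, ?_⟩
      rw [map_mul, map_mul, map_inv, hab]
      show gb⁻¹ * (gb * a * gb⁻¹) * gb = a
      group
  have p4 := IsPGroup.to_sup_of_normal_right' p2 p1 p3
  set Pb : Subgroup (Γ ⧸ Zc ρ) := Subgroup.zpowers gb ⊔ Mb with hPb
  have hgP : gb ∈ Pb := Subgroup.mem_sup_left (Subgroup.mem_zpowers gb)
  have hMP : Mb ≤ Pb := le_sup_right
  have hnil : Group.IsNilpotent Pb := p4.isNilpotent
  -- a good element
  have hex : ∃ x ∈ M, ¬ Commute gb (QuotientGroup.mk' (Zc ρ) x) ∧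
      Commute gb (QuotientGroup.mk' (Zc ρ) (x⁻¹ * g * x * g⁻¹)) := by
    have hS : ∃ i : ℕ, ∃ x : Γ, ∃ hx : x ∈ M, (⟨QuotientGroup.mk' (Zc ρ) x, hMP ⟨x, hx, rfl⟩⟩ : Pb) ∈
        Subgroup.upperCentralSeries Pb i ∧ ¬ Commute gb (QuotientGroup.mk' (Zc ρ) x) := by
      obtain ⟨n, hn⟩ := hnil.nilpotent'
      refine ⟨n, h, hh, by rw [hn]; trivial, ?_⟩
      intro hc
      apply hns
      apply hM.sc_of_mem
      rw [← hone, map_mul, map_mul, map_mul, map_inv, map_inv]
      have : gb⁻¹ * QuotientGroup.mk' (Zc ρ) h * gb = QuotientGroup.mk' (Zc ρ) h := by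
        rw [mul_assoc, ← hc.eq]; group
      show gb⁻¹ * QuotientGroup.mk' (Zc ρ) h * gb * _ = 1
      rw [this, mul_inv_cancel]
    classical
    obtain ⟨x, hx, hx1, hx2⟩ := Nat.find_spec hS
    have hmin := fun m (hm : m < Nat.find hS) => Nat.find_min hS hm
    refine ⟨x, hx, hx2, ?_⟩
    by_contra hcon
    rcases hj : Nat.find hS with _ | j
    · rw [hj] at hx1
      rw [Subgroup.upperCentralSeries_zero, Subgroup.mem_bot] at hx1
      apply hx2
      have := congrArg Subtype.val hx1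
      rw [show QuotientGroup.mk' (Zc ρ) x = 1 from this]
      exact Commute.one_right _
    · rw [hj] at hx1
      apply hmin j (by omega)
      refine ⟨x⁻¹ * g * x * g⁻¹, ?_, ?_, hcon⟩
      · have := mul_mem (inv_mem hx) (hg x hx)
        rwa [← mul_assoc, ← mul_assoc] at this
      · have h1 := (inv_mem hx1)
        rw [Subgroup.mem_upperCentralSeries_succ_iff] at h1
        have h2 := h1 ⟨gb, hgP⟩
        rw [commutatorElement_def] at h2
        have e0 : QuotientGroup.mk' (Zc ρ) (x⁻¹ * g * x * g⁻¹) = (QuotientGroup.mk' (Zc ρ) x)⁻¹ *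
            gb * (QuotientGroup.mk' (Zc ρ) x) * gb⁻¹ := by
          rw [map_mul, map_mul, map_mul, map_inv, map_inv]
        have e1 : (⟨QuotientGroup.mk' (Zc ρ) x, hMP ⟨x, hx, rfl⟩⟩ : Pb)⁻¹ * ⟨gb, hgP⟩ *
            (⟨QuotientGroup.mk' (Zc ρ) x, hMP ⟨x, hx, rfl⟩⟩ : Pb)⁻¹⁻¹ * (⟨gb, hgP⟩ : Pb)⁻¹ =
            ⟨QuotientGroup.mk' (Zc ρ) (x⁻¹ * g * x * g⁻¹), hMP ⟨x⁻¹ * g * x * g⁻¹, by
              have := mul_mem (inv_mem hx) (hg x hx)
              rwa [← mul_assoc, ← mul_assoc] at this, rfl⟩⟩ := by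
          apply Subtype.ext
          show (QuotientGroup.mk' (Zc ρ) x)⁻¹ * gb * (QuotientGroup.mk' (Zc ρ) x)⁻¹⁻¹ * gb⁻¹ = _
          rw [inv_inv]
          exact e0.symm
        rw [e1] at h2
        exact h2
  obtain ⟨x, hx, hx1, hx2⟩ := hex
  set y := x⁻¹ * g * x * g⁻¹ with hy
  have hyM : y ∈ M := by
    have := mul_mem (inv_mem hx) (hg x hx)
    rwa [← mul_assoc, ← mul_assoc] at this
  have hyns : ¬ IsSc ρ y := by
    intro hs
    apply hx1
    have h1 := hone.2 (mem_Zc_of_sc hs)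
    have e1 : g * x = x * y * g := by rw [hy]; group
    have h2 := congrArg (QuotientGroup.mk' (Zc ρ)) e1
    rw [map_mul, map_mul, map_mul, h1, mul_one] at h2
    exact h2
  have hsc : g⁻¹ * y * g * y⁻¹ ∈ Zc ρ := by
    rw [← hone]
    have e1 : QuotientGroup.mk' (Zc ρ) (g⁻¹ * y * g * y⁻¹) = gb⁻¹ * QuotientGroup.mk' (Zc ρ) y *
        gb * (QuotientGroup.mk' (Zc ρ) y)⁻¹ := by
      rw [map_mul, map_mul, map_mul, map_inv, map_inv]
    rw [e1, mul_assoc gb⁻¹, ← hx2.eq]; group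
  by_cases hcase : ρ (g⁻¹ * y * g * y⁻¹) = 1
  · have hgy : g * y = y * g := by
      have h1 : g⁻¹ * y * g * y⁻¹ = 1 := hinj (by rw [hcase, map_one])
      have h2 : y * g = g * (g⁻¹ * y * g * y⁻¹) * y := by group
      rw [h2, h1, mul_one]
    have h1 : g * x = x * y * g := by rw [hy]; group
    obtain ⟨ε, hε, hxy⟩ := hM.comm x hx y hyM
    refine countF hM h5 g x y hyM hyns c ε hε h1 hxy (by rw [← map_mul, hgy, map_mul]) ?_
    -- y ^ r = 1
    have h2 := pow_pow_eq (ρ x) (ρ y) ε hxy r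
    have h3 : ε ^ (∑ j ∈ Finset.range r, j) = 1 := by
      have hodd : Odd r := hr.odd_of_ne_two (by omega)
      obtain ⟨m, hm⟩ := hodd
      have h4 : ∑ j ∈ Finset.range r, j = r * m := by
        have := Finset.sum_range_id_mul_two r
        have h6 : r - 1 = 2 * m := by omega
        rw [h6] at this
        have h7 : r * (2 * m) = (r * m) * 2 := by ring
        rw [h7] at this
        omega
      rw [h4, pow_mul, hε, one_pow]
    rw [h3, one_smul] at h2
    have h4 : x * y = g * x * g⁻¹ := by rw [hy]; group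
    have h5' : (ρ x * ρ y) ^ r = ρ (x ^ r) := by
      rw [← map_mul, ← map_pow, h4, _root_.conj_pow]
      obtain ⟨z, hz⟩ := hM.pow_sc hx
      rw [map_mul, map_mul, hz, mul_smul_one, smul_mul_assoc, ← map_mul, mul_inv_cancel, map_one]
    rw [h5', map_pow] at h2
    have h6 : ρ (x⁻¹) ^ r * ((ρ x) ^ r * (ρ y) ^ r) = ρ (x⁻¹) ^ r * (ρ x) ^ r := by rw [h2]
    have h7 : ρ (x⁻¹) ^ r * (ρ x) ^ r = 1 := by
      rw [← map_pow, ← map_pow, ← map_mul, inv_pow, inv_mul_cancel, map_one]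
    rw [← mul_assoc, h7, one_mul] at h6
    exact h6
  · exact case_sc g y c (hM.sc_of_mem hsc) hcase

lemma case_noncomm (hinj : Function.Injective ρ) (hM : Good ρ M r) (g x : Γ)
    (h1 : g⁻¹ * x * g * x⁻¹ ∈ M) (h2 : g * (g⁻¹ * x * g * x⁻¹) * g⁻¹ ∈ M)
    (hnc : ¬ Commute (g⁻¹ * x * g * x⁻¹) (g * (g⁻¹ * x * g * x⁻¹) * g⁻¹)) (c : F) :
    2 * finrank F ((ρ g).eigenspace c) ≤ finrank F V := by
  rcases eq_or_ne c 0 with rfl | hc
  · rw [eig_zero]; simp
  have h3 := trans (ρ := ρ) g x c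
  have h4 : (ρ g).eigenspace c ⊓ (ρ (g⁻¹ * x * g * x⁻¹)).eigenspace 1 = ⊥ := by
    rw [eq_bot_iff]
    rintro v ⟨hv1, hv2⟩
    rw [SetLike.mem_coe, Module.End.mem_eigenspace_iff] at hv1 hv2
    rw [one_smul] at hv2
    set D := g⁻¹ * x * g * x⁻¹ with hD
    obtain ⟨z, hz, hzD⟩ := hM.comm _ h1 _ h2
    have hz1 : z ≠ 1 := by
      rintro rfl
      apply hnc
      rw [one_smul, ← map_mul, ← map_mul] at hzD
      exact hinj hzD
    have h5 : ρ (g⁻¹) v = c⁻¹ • v := by
      have h6 : ρ g⁻¹ (ρ g v) = v := by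
        rw [← Module.End.mul_apply, ← map_mul, inv_mul_cancel, map_one]; rfl
      rw [hv1, map_smul] at h6
      rw [← h6, smul_smul, inv_mul_cancel₀ hc, one_smul, h6]
    have h7 : ρ (g * D * g⁻¹) v = v := by
      rw [map_mul, map_mul, Module.End.mul_apply, Module.End.mul_apply, h5, map_smul, map_smul,
        hv2, hv1, smul_smul, inv_mul_cancel₀ hc, one_smul]
    have h8 := congrArg (fun f : Module.End F V => f v) hzD
    simp only [Module.End.mul_apply, LinearMap.smul_apply, h7, hv2] at h8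
    have : (z - 1) • v = 0 := by rw [sub_smul, one_smul, ← h8, sub_self]
    exact (smul_eq_zero.1 this).resolve_left (sub_ne_zero.2 hz1)
  rw [h4, finrank_bot] at h3
  omega

lemma Good.dvd (hM : Good ρ M r) {y : Γ} (hy : y ∈ M) (hns : ¬ IsSc ρ y) : r ∣ finrank F V := by
  obtain ⟨b, hb, z, hz, h⟩ := hM.exists_noncomm hy hns
  have h1 := congrArg LinearMap.det h
  rw [LinearMap.det_smul, map_mul, map_mul, mul_comm (LinearMap.det (ρ b))] at h1
  have hdet : ∀ a : Γ, LinearMap.det (ρ a) ≠ 0 := by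
    intro a h0
    have h2 : LinearMap.det (ρ (a * a⁻¹)) = 1 := by rw [mul_inv_cancel, map_one, map_one]
    rw [map_mul, map_mul, h0, zero_mul] at h2
    exact zero_ne_one h2
  rw [← hz.pow_eq_one_iff_dvd]
  exact (mul_eq_right₀ (mul_ne_zero (hdet y) (hdet b))).1 h1.symm

theorem main [Finite Γ] (hinj : Function.Injective ρ) (hM : Good ρ M r) (g : Γ)
    (hg : ∀ a ∈ M, g * a * g⁻¹ ∈ M) (hg' : ∀ a ∈ M, g⁻¹ * a * g ∈ M) (p : ℕ) (hp : p.Prime)
    (hgp : g ^ p = 1) (hgns : ¬ IsSc ρ g) (c : F) :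
    (p = 2 → 4 * finrank F ((ρ g).eigenspace c) ≤ 3 * finrank F V) ∧
    (p = 3 → 3 * finrank F ((ρ g).eigenspace c) ≤ 2 * finrank F V) ∧
    (3 < p → 2 * finrank F ((ρ g).eigenspace c) ≤ finrank F V) ∧
    (p = 3 → ¬ 3 ∣ finrank F V → 2 * finrank F ((ρ g).eigenspace c) ≤ finrank F V) := by
  have hD : ∀ x ∈ M, g⁻¹ * x * g * x⁻¹ ∈ M := fun x hx => mul_mem (hg' x hx) (inv_mem hx)
  by_cases hall : ∀ h ∈ M, IsSc ρ (g⁻¹ * h * g * h⁻¹)
  · have h1 : ∃ h ∈ M, ρ g * ρ h ≠ ρ h * ρ g := by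
      by_contra hcon
      push Not at hcon
      exact hgns (hM.cent _ hcon)
    obtain ⟨h, hh, hne⟩ := h1
    have h2 : 2 * finrank F ((ρ g).eigenspace c) ≤ finrank F V := by
      refine case_sc g h c (hall h hh) ?_
      intro h3
      apply hne
      have h4 : g⁻¹ * h * g * h⁻¹ = 1 := hinj (by rw [h3, map_one])
      have h5 : h * g = g * (g⁻¹ * h * g * h⁻¹) * h := by group
      rw [← map_mul, ← map_mul, h5, h4, mul_one]
    refine ⟨fun _ => by omega, fun _ => by omega, fun _ => h2, fun _ _ => h2⟩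
  · push Not at hall
    obtain ⟨h, hh, hns⟩ := hall
    have h1 := trans (ρ := ρ) g h c
    have h2 : finrank F ((ρ g).eigenspace c ⊓ (ρ (g⁻¹ * h * g * h⁻¹)).eigenspace 1 :
        Submodule F V) ≤ finrank F ((ρ (g⁻¹ * h * g * h⁻¹)).eigenspace 1) :=
      Submodule.finrank_mono inf_le_right
    have h3 := hM.eig_le (hD h hh) hns 1
    have hr2 := hM.prime.two_le
    have hcop : p ≠ r → p ≠ 2 → 2 * finrank F ((ρ g).eigenspace c) ≤ finrank F V := by
      intro hpr hp2
      have h4 : ∃ x ∈ M, ¬ Commute (g⁻¹ * x * g * x⁻¹) (g * (g⁻¹ * x * g * x⁻¹) * g⁻¹) := by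
        by_contra hcon
        push Not at hcon
        exact hns (hM.sc_of_mem (coprimeCase hinj hM g hg hg' p (hp.odd_of_ne_two hp2)
          ((Nat.coprime_primes hp hM.prime).2 hpr) hgp hcon h hh))
      obtain ⟨x, hx, hnc⟩ := h4
      exact case_noncomm hinj hM g x (hD x hx) (hg _ (hD x hx)) hnc c
    refine ⟨fun hp2 => ?_, fun hp3 => ?_, fun hp3 => ?_, fun hp3 hn3 => ?_⟩
    · have h4 : 2 * finrank F ((ρ (g⁻¹ * h * g * h⁻¹)).eigenspace 1) ≤ finrank F V :=
        (Nat.mul_le_mul_right _ hr2).trans h3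
      omega
    · by_cases hpr : p = r
      · rw [← hpr, hp3] at h3
        omega
      · have := hcop hpr (by omega)
        omega
    · by_cases hpr : p = r
      · have h5 : 5 ≤ r := by
          rw [← hpr]
          by_contra hlt
          have : p = 4 := by omega
          rw [this] at hp
          exact absurd hp (by norm_num)
        exact unipCase hinj hM h5 g hg hg' (by rw [← hpr]; exact hgp) h hh hns c
      · exact hcop hpr (by omega)
    · apply hcop _ (by omega)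
      rintro rfl
      exact hn3 (hp3 ▸ hM.dvd (hD h hh) hns)

end rep

/-- Eigenspaces of elements normalising an absolutely irreducible extraspecial group. Let F be a finite field, r a prime, and R ≤ GL_n(F) an absolutely irreducible extraspecial r-group (an r-group whose centre equals its derived subgroup and has order r) of exponent r or 4. Let g ∈ GL_n(F) normalise the product of R with the scalar matrices, have prime order ϖ and not be scalar, and let W be the eigenspace of g for any c ∈ F (W may be the zero subspace). Then dim W ≤ 3n/4 if ϖ = 2, dim W ≤ 2n/3 if ϖ = 3, and dim W ≤ n/2 if ϖ > 3; moreover if ϖ = 3 and 3 does not divide n then dim W ≤ n/2. -/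
theorem result {F : Type*} [Field F] [Fintype F] {n r ϖ : ℕ} (R : Subgroup (Matrix.GeneralLinearGroup (Fin n) F)) (hr : r.Prime) (hR : IsPGroup r R) (hZ : Nat.card (Subgroup.center R) = r) (hext : commutator R = Subgroup.center R) (hexp : Monoid.exponent R = r ∨ Monoid.exponent R = 4) (hirr : Cfsg.Geo.ActsAbsolutelyIrreducibly (Cfsg.Geo.matrixSet R)) (g : Matrix.GeneralLinearGroup (Fin n) F) (hg : g ∈ Cfsg.Geo.subgroupNormalizer (R ⊔ Cfsg.Geo.scalars (Fin n) F)) (hϖ : ϖ.Prime) (hord : orderOf g = ϖ) (hns : g ∉ Cfsg.Geo.scalars (Fin n) F) (c : F) :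
    (ϖ = 2 → 4 * Module.finrank F (Module.End.eigenspace (Matrix.toLin' (g : Matrix (Fin n) (Fin n) F)) c) ≤ 3 * n) ∧
    (ϖ = 3 → 3 * Module.finrank F (Module.End.eigenspace (Matrix.toLin' (g : Matrix (Fin n) (Fin n) F)) c) ≤ 2 * n) ∧
    (3 < ϖ → 2 * Module.finrank F (Module.End.eigenspace (Matrix.toLin' (g : Matrix (Fin n) (Fin n) F)) c) ≤ n) ∧
    (ϖ = 3 → ¬ 3 ∣ n → 2 * Module.finrank F (Module.End.eigenspace (Matrix.toLin' (g : Matrix (Fin n) (Fin n) F)) c) ≤ n) := by
  classical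
  rcases Nat.eq_zero_or_pos n with rfl | hn
  · have h0 : Module.finrank F (Module.End.eigenspace
        (Matrix.toLin' (g : Matrix (Fin 0) (Fin 0) F)) c) = 0 := by
      have := Submodule.finrank_le (Module.End.eigenspace
        (Matrix.toLin' (g : Matrix (Fin 0) (Fin 0) F)) c)
      rw [Module.finrank_fin_fun] at this
      omega
    rw [h0]
    simp
  let ρ : Matrix.GeneralLinearGroup (Fin n) F →* Module.End F (Fin n → F) :=
    { toFun := fun a => Matrix.toLin' (a : Matrix (Fin n) (Fin n) F)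
      map_one' := Matrix.toLin'_one
      map_mul' := fun a b => Matrix.toLin'_mul _ _ }
  have hρ : ∀ a, ρ a = Matrix.toLin' (a : Matrix (Fin n) (Fin n) F) := fun a => rfl
  have hinj : Function.Injective ρ := by
    intro a b hab
    exact Units.ext (Matrix.toLin'.injective hab)
  have hnt : Nontrivial (Fin n → F) := by
    haveI : Nonempty (Fin n) := ⟨⟨0, hn⟩⟩
    infer_instance
  have hscal : ∀ a : Matrix.GeneralLinearGroup (Fin n) F, a ∈ Cfsg.Geo.scalars (Fin n) F ↔
      IsSc ρ a := by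
    intro a
    rw [Cfsg.Geo.mem_scalars_iff]
    constructor
    · rintro ⟨z, hz⟩
      refine ⟨z, ?_⟩
      rw [hρ, hz, map_smul, Matrix.toLin'_one]; rfl
    · rintro ⟨z, hz⟩
      have hz0 : z ≠ 0 := by
        rintro rfl
        obtain ⟨v, hv⟩ := exists_ne (0 : Fin n → F)
        apply hv
        apply rho_inj ρ a
        rw [hz, map_zero, zero_smul]; rfl
      refine ⟨Units.mk0 z hz0, ?_⟩
      apply Matrix.toLin'.injective
      rw [map_smul, Matrix.toLin'_one]
      exact hz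
  have hcentR : ∀ f : Module.End F (Fin n → F), (∀ a ∈ R, f * ρ a = ρ a * f) →
      ∃ z : F, f = z • (1 : Module.End F (Fin n → F)) := by
    intro f hf
    obtain ⟨z, hz⟩ := hirr.2 (LinearMap.toMatrix' f) (by
      rintro _ ⟨a, ha, rfl⟩
      have h1 := hf a ha
      apply Matrix.toLin'.injective
      rw [Matrix.toLin'_mul, Matrix.toLin'_mul, Matrix.toLin'_toMatrix']
      exact h1)
    refine ⟨z, ?_⟩
    have h2 := congrArg Matrix.toLin' hz
    rw [Matrix.toLin'_toMatrix', map_smul, Matrix.toLin'_one] at h2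
    exact h2
  have hcommR : ∀ a ∈ R, ∀ b ∈ R, ∃ z : F, z ^ r = 1 ∧ ρ a * ρ b = z • (ρ b * ρ a) := by
    intro a ha b hb
    have h1 : ⁅(⟨a, ha⟩ : R), (⟨b, hb⟩ : R)⁆ ∈ Subgroup.center R := by
      rw [← hext]
      exact Subgroup.commutator_mem_commutator (Subgroup.mem_top _) (Subgroup.mem_top _)
    set k := ⁅(⟨a, ha⟩ : R), (⟨b, hb⟩ : R)⁆ with hk
    obtain ⟨z, hz⟩ := hcentR (ρ (k : Matrix.GeneralLinearGroup (Fin n) F)) (by
      intro d hd
      have h2 := Subgroup.mem_center_iff.1 h1 ⟨d, hd⟩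
      have h3 := congrArg Subtype.val h2
      rw [← map_mul, ← map_mul]
      exact congrArg ρ h3.symm)
    refine ⟨z, ?_, ?_⟩
    · have h2 : (⟨k, h1⟩ : Subgroup.center R) ^ r = 1 := by
        rw [← hZ]; exact pow_card_eq_one'
      have h3 : (k : Matrix.GeneralLinearGroup (Fin n) F) ^ r = 1 :=
        congrArg (fun t : Subgroup.center R => ((t : R) : Matrix.GeneralLinearGroup (Fin n) F)) h2
      have h4 : (ρ (k : Matrix.GeneralLinearGroup (Fin n) F)) ^ r = 1 := by
        rw [← map_pow, h3, map_one]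
      rw [hz, smul_pow, one_pow] at h4
      obtain ⟨v, hv⟩ := exists_ne (0 : Fin n → F)
      have h5 : (z ^ r) • v = (1 : F) • v := by
        have := congrArg (fun t : Module.End F (Fin n → F) => t v) h4
        rw [one_smul]
        exact this
      exact smul_left_injective F hv h5
    · have h2 : a * b = (k : Matrix.GeneralLinearGroup (Fin n) F) * (b * a) := by
        rw [hk]
        show a * b = (a * b * a⁻¹ * b⁻¹) * (b * a)
        group
      rw [← map_mul, h2, map_mul, hz, smul_one_mul, ← map_mul]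
  have hsup : ∀ a ∈ R ⊔ Cfsg.Geo.scalars (Fin n) F, ∃ a' ∈ R, ∃ z : F, ρ a = z • ρ a' := by
    intro a ha
    rw [← SetLike.mem_coe, Subgroup.mul_normal] at ha
    obtain ⟨a', ha', s, hs, rfl⟩ := ha
    obtain ⟨z, hz⟩ := (hscal s).1 hs
    refine ⟨a', ha', z, ?_⟩
    rw [map_mul, hz, mul_smul_one]
  have hgood : Good ρ (R ⊔ Cfsg.Geo.scalars (Fin n) F) r := by
    refine ⟨hr, ?_, ?_⟩
    · intro a ha b hb
      obtain ⟨a', ha', z, hz⟩ := hsup a ha
      obtain ⟨b', hb', w, hw⟩ := hsup b hb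
      obtain ⟨t, ht, h⟩ := hcommR a' ha' b' hb'
      refine ⟨t, ht, ?_⟩
      rw [hz, hw, smul_mul_smul_comm, h, smul_mul_smul_comm, smul_smul, smul_smul, mul_comm w z,
        mul_comm t]
    · intro f hf
      exact hcentR f fun a ha => hf a (Subgroup.mem_sup_left ha)
  have hg1 : ∀ a ∈ R ⊔ Cfsg.Geo.scalars (Fin n) F, g * a * g⁻¹ ∈ R ⊔ Cfsg.Geo.scalars (Fin n) F :=
    fun a ha => (Subgroup.mem_normalizer_iff.1 hg a).1 ha
  have hg2 : ∀ a ∈ R ⊔ Cfsg.Geo.scalars (Fin n) F, g⁻¹ * a * g ∈ R ⊔ Cfsg.Geo.scalars (Fin n) F := by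
    intro a ha
    apply (Subgroup.mem_normalizer_iff.1 hg _).2
    have : g * (g⁻¹ * a * g) * g⁻¹ = a := by group
    rwa [this]
  have := main hinj hgood g hg1 hg2 ϖ hϖ (by rw [← hord]; exact pow_orderOf_eq_one g)
    (fun h => hns ((hscal g).2 h)) c
  rw [Module.finrank_fin_fun] at this
  exact this

end Cfsg.Agent.S5877
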