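import Cfsg.Statements.S5941
import Cfsg.Agent.Dk.MaxSub
-- import your own Cfsg.Agent.* helpers here

set_option autoImplicit false
open Cfsg

namespace Cfsg.Agent.S5941

/-- Let K and F be finite fields of odd characteristic with #F = (#K)². Then PSL_2(F) has a maximal subgroup isomorphic to PGL_2(K). -/
theorem result {F K : Type*} [Field F] [Fintype F] [Field K] [Fintype K] (q : ℕ) (hK : Fintype.card K = q) (hF : Fintype.card F = q ^ 2) (hq : Odd q) : ∃ H : Subgroup (Matrix.ProjectiveSpecialLinearGroup (Fin 2) F), IsCoatom H ∧ Nonempty (H ≃* Matrix.ProjGenLinGroup (Fin 2) K) := by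
  have hq0 : 0 < q := by rw [← hK]; exact Fintype.card_pos
  obtain ⟨K0, hK0, ⟨e⟩⟩ := Dk.exists_subfield (F := F) (K := K) (r := 2) (by norm_num) (by rw [hK, hF])
  rw [hK] at hK0
  have hF' : Nat.card F = Nat.card K0 ^ 2 := by rw [hK0, ← hF, Nat.card_eq_fintype_card]
  have hle : Dk.PGLs K0 ≤ Dk.PSLr F := Dk.PGLs_le_of_even hF'.symm (by norm_num)
  exact ⟨(Dk.PGLs K0).comap (Dk.toP F), Dk.max_pgl hF' (by rw [hK0]; exact hq),
    Dk.pgl_equiv_of_im (Dk.im_comap_of_le hle) e⟩

end Cfsg.Agent.S5941
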