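import Cfsg.Statements.S5943
import Cfsg.Agent.Dk.MaxSub
-- import your own Cfsg.Agent.* helpers here

set_option autoImplicit false
open Cfsg

namespace Cfsg.Agent.S5943

/-- Let K and F be finite fields of characteristic 2 with #K = q > 2 and #F = q^r for a prime r. Then PSL_2(F) has a maximal subgroup isomorphic to PSL_2(K) (which equals PGL_2(K) in characteristic 2). -/
theorem result {F K : Type*} [Field F] [Fintype F] [Field K] [Fintype K] (q r : ℕ) (hK : Fintype.card K = q) (hF : Fintype.card F = q ^ r) (hq : Even q) (hq2 : q ≠ 2) (hr : r.Prime) : ∃ H : Subgroup (Matrix.ProjectiveSpecialLinearGroup (Fin 2) F), IsCoatom H ∧ Nonempty (H ≃* Matrix.ProjectiveSpecialLinearGroup (Fin 2) K) := by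
  obtain ⟨K0, hK0, ⟨e⟩⟩ := Dk.exists_subfield (F := F) (K := K) (r := r) hr.one_le (by rw [hK, hF])
  rw [hK] at hK0
  have hF' : Nat.card F = Nat.card K0 ^ r := by rw [hK0, ← hF, Nat.card_eq_fintype_card]
  exact ⟨(Dk.PSLs K0).comap (Dk.toP F), Dk.max_psl_even hr hF' (by rw [hK0]; exact hq)
    (by rw [hK0]; exact hq2), Dk.psl_equiv_of_im (Dk.im_comap_of_le (Dk.PSLs_le_PSLr K0)) e⟩

end Cfsg.Agent.S5943
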