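import Cfsg.Statements.S5949
import Cfsg.Agent.H99.PrimeSL

set_option autoImplicit false
open scoped MatrixGroups
open Cfsg

namespace Cfsg.Agent.S5949

/-- Elements of prime order of PSL_n(q) with no fixed `m`-space. Here `T = PSL_n(F)` for a field `F` with `q = p^f` elements (`n ≥ 2`, `(n, q) ≠ (2, 2), (2, 3)`); an element of `T` of prime order `r` is represented by a matrix `x` of determinant 1 with `x^r` scalar and `x` not scalar; `i` denotes the multiplicative order of `q` modulo `r` (when `r ≠ p`), and `(a)_r` the `r`-part of `a`. Let `1 ≤ m ≤ n/2` and let `r` be a prime dividing the number of `m`-dimensional subspaces of `F^n`. Then every element of `T` of order `r` fixes some `m`-dimensional subspace (the action on `m`-spaces is `r`-elusive) if and only if `r ≠ p` and either (i) `i = 1` and (`r ∣ m`, or `(q−1)_r ≥ (n)_r` where in addition `q ≡ 1 (mod 4)` is required when `r = 2` and `n` is even), or (ii) `2 ≤ i ≤ m` and `n mod i ≥ m mod i`. -/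
theorem result {F : Type*} [Field F] [Fintype F] {p : ℕ} [Fact p.Prime] [CharP F p] {q : ℕ} (hq : Fintype.card F = q)
    (n m : ℕ) (hn : 2 ≤ n) (hT : (n, q) ≠ (2, 2) ∧ (n, q) ≠ (2, 3)) (hm : 1 ≤ m) (hmn : 2 * m ≤ n)
    (r : ℕ) [Fact r.Prime] (hrΩ : r ∣ Nat.card {W : Submodule F (Fin n → F) // Module.finrank F ↥W = m}) :
    (∀ x : Matrix.SpecialLinearGroup (Fin n) F,
      (∃ c : F, ((x ^ r : Matrix.SpecialLinearGroup (Fin n) F) : Matrix (Fin n) (Fin n) F) = c • (1 : Matrix (Fin n) (Fin n) F)) →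
      (∀ c : F, (x : Matrix (Fin n) (Fin n) F) ≠ c • (1 : Matrix (Fin n) (Fin n) F)) →
      ∃ W : Submodule F (Fin n → F), Module.finrank F ↥W = m ∧ W.map (Matrix.toLin' (x : Matrix (Fin n) (Fin n) F)) ≤ W) ↔
    (r ≠ p ∧
      ((orderOf (q : ZMod r) = 1 ∧ (r ∣ m ∨ (padicValNat r n ≤ padicValNat r (q - 1) ∧ (r = 2 → Even n → q % 4 = 1)))) ∨
       (2 ≤ orderOf (q : ZMod r) ∧ orderOf (q : ZMod r) ≤ m ∧ m % orderOf (q : ZMod r) ≤ n % orderOf (q : ZMod r)))) := by
  subst hq
  have hr : r.Prime := Fact.out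
  have hfn : Module.finrank F (Fin n → F) = n := by simp
  have hq2 : 2 ≤ Fintype.card F := Fintype.one_lt_card
  have hcount := H99.card_subspaces_mul (F := F) (V := Fin n → F) m (by rw [hfn]; omega)
  rw [hfn, Nat.card_eq_fintype_card (α := F)] at hcount
  have hrp : r ≠ p := by
    rintro rfl
    have h1 : r ∣ H99.qfac (Fintype.card F) n := by
      rw [← hcount]
      exact hrΩ.mul_right _
    obtain ⟨e, he⟩ := FiniteField.card F r
    exact H99.not_dvd_qfac (by omega) hr (by rw [he.2]; exact dvd_pow_self _ e.2.ne') h1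
  have hrq : ¬ r ∣ Fintype.card F := H99.prime_not_dvd_card hrp
  constructor
  · intro H
    refine ⟨hrp, ?_⟩
    have hi0 := H99.orderOf_pos_of_not_dvd hrq
    rcases Nat.lt_or_ge 1 (orderOf ((Fintype.card F : ℕ) : ZMod r)) with h2 | h2
    · right
      have hnd : ¬ r ∣ Fintype.card F - 1 := by
        rw [H99.dvd_sub_one_iff_orderOf]
        omega
      obtain ⟨j, hj, hjd⟩ := H99.exists_dvd_of_dvd_mul hq2 hr (n := n) (m := m) (N := Nat.card {W : Submodule F (Fin n → F) // Module.finrank F ↥W = m})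
        (by omega) ⟨H99.qfac (Fintype.card F) m, by rw [← hcount]; ring⟩ hrΩ
      rw [H99.dvd_pow_sub_one_iff (by omega)] at hjd
      set i := orderOf ((Fintype.card F : ℕ) : ZMod r) with hi
      have hin : i ≤ n := (Nat.le_of_dvd (by omega) hjd).trans (Nat.sub_le _ _)
      have ha0 : 0 < n / i := Nat.div_pos hin hi0
      obtain ⟨x, hx1, hx2, hx3, hx4⟩ := H99.sl_exists_order (n := n) (by omega) hrp hnd (n / i) ha0 (Nat.div_mul_le_self _ _)
      obtain ⟨W, hW1, hW2⟩ := H x ⟨1, hx1⟩ hx2
      have h3 := H99.finrank_modEq_fixed_sub hrp _ hx3 W (fun v hv => hW2 ⟨v, hv, rfl⟩)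
      rw [hW1, ← hi] at h3
      rw [← hi] at hx4
      have h4 : Module.finrank F (W ⊓ LinearMap.ker (Matrix.toLin' (x : Matrix (Fin n) (Fin n) F) - 1) : Submodule F (Fin n → F)) ≤ n % i := by
        have h5 := Submodule.finrank_mono (inf_le_right : W ⊓ LinearMap.ker (Matrix.toLin' (x : Matrix (Fin n) (Fin n) F) - 1) ≤ _)
        have h6 := Nat.div_add_mod' n i
        omega
      have h5 : m % i ≤ n % i := by
        rw [h3]
        exact (Nat.mod_le _ _).trans h4
      refine ⟨h2, ?_, h5⟩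
      by_contra hcon
      push Not at hcon
      rw [Nat.mod_eq_of_lt hcon] at h5
      obtain ⟨c, hc⟩ := hjd
      have h6 : n = j + i * c := by omega
      rw [h6, Nat.add_mul_mod_self_left] at h5
      have := Nat.mod_le j i
      omega
    · left
      have hi1 : orderOf ((Fintype.card F : ℕ) : ZMod r) = 1 := by omega
      refine ⟨hi1, ?_⟩
      by_contra hcon
      push Not at hcon
      obtain ⟨hrm, hC⟩ := hcon
      obtain ⟨hrn, z, hz0, hznp, hz⟩ := H99.exists_nonpower_of_not_cond (F := F) (n := n) (r := r) (by omega)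
        (H99.dvd_sub_one_iff_orderOf.mpr hi1) (fun h => by
          obtain ⟨h3, h4, h5⟩ := hC h.1
          exact h5 (h.2 h3 h4))
      obtain ⟨x, hx1, hx2, hx3⟩ := H99.sl_exists_nonpower (n := n) z hznp hrn hz
      obtain ⟨W, hW1, hW2⟩ := H x ⟨z, hx1⟩ (hx2 (by omega))
      have := hx3 W hW2
      rw [hW1] at this
      exact hrm this
  · rintro ⟨-, h⟩ x ⟨c, hc⟩ -
    obtain ⟨a, k, P, ha, D, A, -, hA⟩ := H99.sl_exists_family (t := 1) (n := n) (by omega) hrp x c hc (fun _ => m)
      (by simp; omega) (by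
        simp only [Finset.univ_unique, Finset.sum_const, Finset.card_singleton, one_smul]
        rcases h with ⟨h1, -⟩ | ⟨-, -, h1⟩
        · rw [h1, Nat.mod_one, Nat.mod_one]
        · exact h1) (by
        intro hd
        rcases h with ⟨h1, h2⟩ | ⟨h1, -⟩
        · exact h2.imp (fun h _ => h) id
        · rw [H99.dvd_sub_one_iff_orderOf] at hd
          omega)
    exact ⟨D.sub (A 0 : Set (Fin k)), hA 0, H99.map_le_of_sub ha D _⟩

end Cfsg.Agent.S5949
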