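import Cfsg.Statements.S5950
import Cfsg.Agent.H99.PrimeSL
import Cfsg.Agent.H99.PairCount
import Cfsg.Agent.H99.Jordan

set_option autoImplicit false
open scoped MatrixGroups
open Cfsg

namespace Cfsg.Agent.S5950

open Polynomial

section
variable {F : Type*} [Field F] [Fintype F] {p : ℕ} [Fact p.Prime] [CharP F p] {n : ℕ}

/-- elements of order `p` are scalars times unipotents -/
theorem unip_structure (hn : 0 < n) (x : Matrix.SpecialLinearGroup (Fin n) F) (c : F)
    (hx : ((x ^ p : Matrix.SpecialLinearGroup (Fin n) F) : Matrix (Fin n) (Fin n) F) = c • (1 : Matrix (Fin n) (Fin n) F)) :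
    ∃ w : F, w ≠ 0 ∧ (w⁻¹ • Matrix.toLin' (x : Matrix (Fin n) (Fin n) F) - 1) ^ p = 0 := by
  have hp : p.Prime := Fact.out
  rw [Matrix.SpecialLinearGroup.coe_pow] at hx
  have hc0 : c ≠ 0 := by
    rintro rfl
    have h1 := congrArg Matrix.det hx
    have : Nonempty (Fin n) := ⟨⟨0, hn⟩⟩
    rw [Matrix.det_pow, x.det_coe, one_pow, zero_smul, Matrix.det_zero] at h1
    exact one_ne_zero h1
  have hf := H99.toLin_pow_eq hx
  obtain ⟨w, hw⟩ := (frobeniusEquiv F p).surjective c
  rw [frobeniusEquiv_apply] at hw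
  have hw' : w ^ p = c := hw
  have hw0 : w ≠ 0 := by
    rintro rfl
    rw [zero_pow hp.ne_zero] at hw'
    exact hc0 hw'.symm
  refine ⟨w, hw0, ?_⟩
  have : Nonempty (Fin n) := ⟨⟨0, hn⟩⟩
  have : CharP (Module.End F (Fin n → F)) p := charP_of_injective_algebraMap (algebraMap F (Module.End F (Fin n → F))).injective p
  have h1 := sub_pow_char_of_commute p (Commute.one_right (w⁻¹ • Matrix.toLin' (x : Matrix (Fin n) (Fin n) F) : Module.End F (Fin n → F)))
  change (w⁻¹ • Matrix.toLin' (x : Matrix (Fin n) (Fin n) F) - (1 : Module.End F (Fin n → F))) ^ p = 0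
  rw [h1, one_pow, _root_.smul_pow, sub_eq_zero]
  have h2 : (Matrix.toLin' (x : Matrix (Fin n) (Fin n) F) : Module.End F (Fin n → F)) ^ p = c • (1 : Module.End F (Fin n → F)) := hf
  rw [h2, smul_smul, inv_pow, hw', inv_mul_cancel₀ hc0, one_smul]

lemma inv_of_N {f : (Fin n → F) →ₗ[F] (Fin n → F)} {w : F} (hw : w ≠ 0) {U : Submodule F (Fin n → F)}
    (h : ∀ v ∈ U, (w⁻¹ • f - 1) v ∈ U) : U.map f ≤ U := by
  rintro _ ⟨v, hv, rfl⟩
  have h1 := U.add_mem (h v hv) hv
  rw [LinearMap.sub_apply, Module.End.one_apply, sub_add_cancel, LinearMap.smul_apply] at h1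
  have h2 := U.smul_mem w h1
  rwa [smul_smul, mul_inv_cancel₀ hw, one_smul] at h2

lemma N_of_inv {f : (Fin n → F) →ₗ[F] (Fin n → F)} {U : Submodule F (Fin n → F)}
    (h : U.map f ≤ U) : ∀ v ∈ U, (f - 1) v ∈ U := by
  intro v hv
  rw [LinearMap.sub_apply, Module.End.one_apply]
  exact U.sub_mem (h ⟨v, hv, rfl⟩) hv

/-- pairs fixed by unipotent elements -/
theorem unip_pair {m : ℕ} {k : ℕ} (e : Fin k → ℕ) (he : ∀ j, 0 < e j ∧ e j ≤ p) (hsum : ∑ j, e j = n) (hbig : ∃ j, 2 ≤ e j)
    (hn : 0 < n)
    (H : ∀ x : Matrix.SpecialLinearGroup (Fin n) F,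
      (∃ c : F, ((x ^ p : Matrix.SpecialLinearGroup (Fin n) F) : Matrix (Fin n) (Fin n) F) = c • (1 : Matrix (Fin n) (Fin n) F)) →
      (∀ c : F, (x : Matrix (Fin n) (Fin n) F) ≠ c • (1 : Matrix (Fin n) (Fin n) F)) →
      ∃ U W : Submodule F (Fin n → F), IsCompl U W ∧ Module.finrank F ↥U = m ∧
        U.map (Matrix.toLin' (x : Matrix (Fin n) (Fin n) F)) ≤ U ∧ W.map (Matrix.toLin' (x : Matrix (Fin n) (Fin n) F)) ≤ W) :
    ∃ ν : Multiset ℕ, ν ≤ (Finset.univ : Finset (Fin k)).val.map e ∧ ν.sum = m := by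
  have hp : p.Prime := Fact.out
  have hfn : Module.finrank F (Fin n → F) = n := by simp
  obtain ⟨f, hf1, hf2, ⟨D⟩⟩ := H99.exists_unipotent (F := F) (p := p) (V := Fin n → F) e (fun j => (he j).2) (by rw [hfn, hsum])
  obtain ⟨x, hx1, hx2⟩ := H99.exists_sl_of_endo (r := p) f hf2 1 (by rw [hf1, one_smul])
  obtain ⟨U, W, hUW, hU1, hU2, hW2⟩ := H x ⟨1, hx2⟩ (by
    intro c hc
    -- then `f = c`, so `f - 1` is a nilpotent scalar
    have h1 : f = c • (1 : (Fin n → F) →ₗ[F] (Fin n → F)) := by
      rw [← hx1, hc]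
      ext v
      simp
    have h2 : c ^ p = 1 := by
      rw [h1, _root_.smul_pow, one_pow] at hf1
      have h3 := congrArg (fun g : (Fin n → F) →ₗ[F] (Fin n → F) => g (fun _ => 1) ⟨0, hn⟩) hf1
      simpa using h3
    have h3 : (c - 1) ^ p = 0 := by
      rw [sub_pow_char _ _ (p := p), h2, one_pow, sub_self]
    have h4 : c = 1 := sub_eq_zero.mp ((pow_eq_zero_iff hp.ne_zero).mp h3)
    have h5 : f - 1 = 0 := by rw [h1, h4, one_smul, sub_self]
    obtain ⟨j, hj⟩ := hbig
    have h6 := H99.jordan_finrank_range D 1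
    rw [h5, pow_one, LinearMap.range_zero, finrank_bot] at h6
    have h7 := Finset.sum_eq_zero_iff.mp h6.symm j (Finset.mem_univ j)
    omega)
  rw [hx1] at hU2 hW2
  have hN : (f - 1) ^ p = 0 := by
    have h1 := D.aeval_eq_zero (X ^ p) (fun j => pow_dvd_pow _ (he j).2)
    rwa [map_pow, aeval_X] at h1
  have hU3 := N_of_inv hU2
  have hW3 := N_of_inv hW2
  have hpow : ∀ (U : Submodule F (Fin n → F)) (hU : ∀ v ∈ U, (f - 1) v ∈ U), ((f - 1).restrict hU) ^ p = 0 := by
    intro U hU
    have h1 := H99.restrict_pow_eq (f - 1) U hU 0 p (by rw [hN, zero_smul])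
    rwa [zero_smul] at h1
  obtain ⟨b, e₁, he₁, ⟨D₁⟩⟩ := H99.exists_jordan ((f - 1).restrict hU3) p (hpow U hU3)
  obtain ⟨c, e₂, he₂, ⟨D₂⟩⟩ := H99.exists_jordan ((f - 1).restrict hW3) p (hpow W hW3)
  have htype := H99.jordan_type_add hUW hU3 hW3 (fun j => (he j).1) (fun j => (he₁ j).1) (fun j => (he₂ j).1) D D₁ D₂
  refine ⟨(Finset.univ : Finset (Fin b)).val.map e₁, ?_, ?_⟩
  · rw [htype]
    exact Multiset.le_add_right _ _
  · change ∑ j, e₁ j = m
    rw [← hU1, D₁.finrank_eq]
    simp

end

/-- Elements of prime order of PSL_n(q) fixing no decomposition `F^n = U ⊕ W` with `dim U = m`. Here `T = PSL_n(F)` for a field `F` with `q = p^f` elements (`n ≥ 2`, `(n, q) ≠ (2, 2), (2, 3)`); an element of `T` of prime order `r` is represented by a matrix `x` of determinant 1 with `x^r` scalar and `x` not scalar; `i` denotes the multiplicative order of `q` modulo `r` (when `r ≠ p`), and `(a)_r` the `r`-part of `a`. Let `n ≥ 3`, `1 ≤ m < n/2`, and let `r` be a prime dividing the number of such decompositions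 (unordered pairs `{U, W}` of complementary subspaces with `dim U = m`; since `m ≠ n − m` these are the ordered pairs with `dim U = m`). Then every element of `T` of order `r` fixes such a pair (fixes both `U` and `W` for some complementary `U, W` with `dim U = m`) if and only if one of: (i) `r = p > 2` and every partition of `n` into parts of size at most `p` contains, as a sub-multiset, a partition of `m`; (ii) `r = p = 2` and `n` is odd or `m` is even; (iii) `r ≠ p`, `i = 1`, and `r ∣ m` or `(q−1)_r ≥ (n)_r` (with `q ≡ 1 (mod 4)` required when `r = 2` and `n` is even); (iv) `r ≠ p`, `2 ≤ i ≤ m` and `n mod i ≥ m mod i`. -/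
theorem result {F : Type*} [Field F] [Fintype F] {p : ℕ} [Fact p.Prime] [CharP F p] {q : ℕ} (hq : Fintype.card F = q)
    (n m : ℕ) (hn : 3 ≤ n) (hm : 1 ≤ m) (hmn : 2 * m < n)
    (r : ℕ) [Fact r.Prime]
    (hrΩ : r ∣ Nat.card {P : Submodule F (Fin n → F) × Submodule F (Fin n → F) // IsCompl P.1 P.2 ∧ Module.finrank F ↥P.1 = m}) :
    (∀ x : Matrix.SpecialLinearGroup (Fin n) F,
      (∃ c : F, ((x ^ r : Matrix.SpecialLinearGroup (Fin n) F) : Matrix (Fin n) (Fin n) F) = c • (1 : Matrix (Fin n) (Fin n) F)) →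
      (∀ c : F, (x : Matrix (Fin n) (Fin n) F) ≠ c • (1 : Matrix (Fin n) (Fin n) F)) →
      ∃ U W : Submodule F (Fin n → F), IsCompl U W ∧ Module.finrank F ↥U = m ∧
        U.map (Matrix.toLin' (x : Matrix (Fin n) (Fin n) F)) ≤ U ∧ W.map (Matrix.toLin' (x : Matrix (Fin n) (Fin n) F)) ≤ W) ↔
    ((r = p ∧ 2 < p ∧ (∀ μ : Multiset ℕ, (∀ a ∈ μ, 0 < a ∧ a ≤ p) → μ.sum = n → ∃ ν : Multiset ℕ, ν ≤ μ ∧ ν.sum = m)) ∨
     (r = p ∧ p = 2 ∧ (Odd n ∨ Even m)) ∨
     (r ≠ p ∧
      ((orderOf (q : ZMod r) = 1 ∧ (r ∣ m ∨ (padicValNat r n ≤ padicValNat r (q - 1) ∧ (r = 2 → Even n → q % 4 = 1)))) ∨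
       (2 ≤ orderOf (q : ZMod r) ∧ orderOf (q : ZMod r) ≤ m ∧ m % orderOf (q : ZMod r) ≤ n % orderOf (q : ZMod r))))) := by
  subst hq
  have hr : r.Prime := Fact.out
  have hp : p.Prime := Fact.out
  have hfn : Module.finrank F (Fin n → F) = n := by simp
  have hq2 : 2 ≤ Fintype.card F := Fintype.one_lt_card
  by_cases hrp : r = p
  · subst hrp
    constructor
    · intro H
      rcases Nat.lt_or_ge 2 r with h2 | h2
      · left
        refine ⟨rfl, h2, ?_⟩
        intro μ hμ1 hμ2
        by_cases hbig : ∃ a ∈ μ, 2 ≤ a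
        · obtain ⟨l, rfl⟩ := Quot.exists_rep μ
          obtain ⟨ν, hν1, hν2⟩ := unip_pair (m := m) (n := n) (k := l.length) (fun j => l.get j)
            (fun j => hμ1 _ (List.get_mem l j)) (by
              have h3 : (Multiset.ofList l).sum = n := hμ2
              rw [Multiset.sum_coe] at h3
              rw [← h3, ← List.sum_ofFn, List.ofFn_get]) (by
              obtain ⟨a, ha, ha2⟩ := hbig
              obtain ⟨j, hj⟩ := List.get_of_mem (show a ∈ l from ha)
              exact ⟨j, by rw [hj]; exact ha2⟩) (by omega) H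
          refine ⟨ν, ?_, hν2⟩
          have h4 : (Finset.univ : Finset (Fin l.length)).val.map (fun j => l.get j) = Multiset.ofList l := by
            rw [Fin.univ_val_map, List.ofFn_get]
          rw [h4] at hν1
          exact hν1
        · push Not at hbig
          have h1 : ∀ a ∈ μ, a = 1 := fun a ha => by
            have := hbig a ha
            have := (hμ1 a ha).1
            omega
          have h3 := Multiset.eq_replicate_card.mpr h1
          have h5 : Multiset.card μ = n := by
            rw [← hμ2, h3]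
            simp
          refine ⟨Multiset.replicate m 1, ?_, by simp⟩
          rw [h3, Multiset.replicate_le_replicate]
          omega
      · right; left
        have hr2 : r = 2 := le_antisymm h2 hr.two_le
        refine ⟨rfl, hr2, ?_⟩
        by_contra hcon
        push Not at hcon
        obtain ⟨h3, h4⟩ := hcon
        rw [Nat.not_odd_iff_even] at h3
        rw [Nat.not_even_iff_odd] at h4
        obtain ⟨k, hk⟩ := h3
        obtain ⟨ν, hν1, hν2⟩ := unip_pair (m := m) (n := n) (k := k) (fun _ => 2) (fun j => ⟨by norm_num, by omega⟩) (by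
          rw [Finset.sum_const, Finset.card_univ, Fintype.card_fin, smul_eq_mul]
          omega) ⟨⟨0, by omega⟩, le_rfl⟩ (by omega) H
        have h5 : ∀ a ∈ ν, 2 ∣ a := by
          intro a ha
          have := Multiset.mem_of_le hν1 ha
          obtain ⟨j, _, rfl⟩ := Multiset.mem_map.mp this
          exact dvd_rfl
        have h6 := Multiset.dvd_sum h5
        rw [hν2] at h6
        rw [Nat.odd_iff] at h4
        omega
    · intro h x ⟨c, hc⟩ _
      obtain ⟨w, hw0, hw⟩ := unip_structure (by omega) x c hc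
      obtain ⟨k, e, he, ⟨D⟩⟩ := H99.exists_jordan _ r hw
      have hsum : ∑ j, e j = n := by
        have := D.finrank_eq
        rw [hfn] at this
        simpa using this.symm
      have key : (∃ A : Finset (Fin k), ∑ j ∈ A, e j = m) := by
        rcases h with ⟨-, h2, h⟩ | ⟨-, h2, h⟩ | ⟨h, -⟩
        · obtain ⟨ν, hν1, hν2⟩ := h ((Finset.univ : Finset (Fin k)).val.map e) (by
            intro a ha
            obtain ⟨j, _, rfl⟩ := Multiset.mem_map.mp ha
            exact he j) hsum
          obtain ⟨A, hA⟩ := H99.exists_finset_of_le_map e ν hν1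
          exact ⟨A, by rw [← hν2, ← hA]; rfl⟩
        · obtain ⟨A, -, hA⟩ := H99.exists_disjoint_sums e 2 (by norm_num) (fun j => by have := he j; omega) (t := 1) (fun _ => m)
            (by rw [hsum]; simp; omega) (by
              rw [hsum]
              simp only [Finset.univ_unique, Finset.sum_const, Finset.card_singleton, one_smul]
              rcases h with h | h
              · rw [Nat.odd_iff] at h
                omega
              · rw [Nat.even_iff] at h
                omega)
          exact ⟨A 0, hA 0⟩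
        · exact absurd rfl h
      obtain ⟨A, hA⟩ := key
      refine ⟨D.sub (A : Set (Fin k)), D.sub (A : Set (Fin k))ᶜ, D.isCompl_sub _, ?_, ?_, ?_⟩
      · rw [D.finrank_sub, ← hA]
        simp
      · exact inv_of_N hw0 (fun v hv => D.apply_mem_sub _ hv)
      · exact inv_of_N hw0 (fun v hv => D.apply_mem_sub _ hv)
  · have hrq : ¬ r ∣ Fintype.card F := H99.prime_not_dvd_card hrp
    have hrΩ' : r ∣ Nat.card {W : Submodule F (Fin n → F) // Module.finrank F ↥W = m} := by
      rw [H99.card_pairs, Nat.card_eq_fintype_card (α := F)] at hrΩ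
      rcases hr.dvd_mul.mp hrΩ with h | h
      · exact h
      · exact absurd (hr.dvd_of_dvd_pow h) hrq
    have hcount := H99.card_subspaces_mul (F := F) (V := Fin n → F) m (by rw [hfn]; omega)
    rw [hfn, Nat.card_eq_fintype_card (α := F)] at hcount
    constructor
    · intro H
      right; right
      refine ⟨hrp, ?_⟩
      have hi0 := H99.orderOf_pos_of_not_dvd hrq
      rcases Nat.lt_or_ge 1 (orderOf ((Fintype.card F : ℕ) : ZMod r)) with h2 | h2
      · right
        have hnd : ¬ r ∣ Fintype.card F - 1 := by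
          rw [H99.dvd_sub_one_iff_orderOf]
          omega
        obtain ⟨j, hj, hjd⟩ := H99.exists_dvd_of_dvd_mul hq2 hr (n := n) (m := m) (N := Nat.card {W : Submodule F (Fin n → F) // Module.finrank F ↥W = m})
          (by omega) ⟨H99.qfac (Fintype.card F) m, by rw [← hcount]; ring⟩ hrΩ'
        rw [H99.dvd_pow_sub_one_iff (by omega)] at hjd
        set i := orderOf ((Fintype.card F : ℕ) : ZMod r) with hi
        have hin : i ≤ n := (Nat.le_of_dvd (by omega) hjd).trans (Nat.sub_le _ _)
        have ha0 : 0 < n / i := Nat.div_pos hin hi0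
        obtain ⟨x, hx1, hx2, hx3, hx4⟩ := H99.sl_exists_order (n := n) (by omega) hrp hnd (n / i) ha0 (Nat.div_mul_le_self _ _)
        obtain ⟨W, W', hWW, hW1, hW2, -⟩ := H x ⟨1, hx1⟩ hx2
        have h3 := H99.finrank_modEq_fixed_sub hrp _ hx3 W (fun v hv => hW2 ⟨v, hv, rfl⟩)
        rw [hW1, ← hi] at h3
        rw [← hi] at hx4
        have h4 : Module.finrank F (W ⊓ LinearMap.ker (Matrix.toLin' (x : Matrix (Fin n) (Fin n) F) - 1) : Submodule F (Fin n → F)) ≤ n % i := by
          have h5 := Submodule.finrank_mono (inf_le_right : W ⊓ LinearMap.ker (Matrix.toLin' (x : Matrix (Fin n) (Fin n) F) - 1) ≤ _)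
          have h6 := Nat.div_add_mod' n i
          omega
        have h5 : m % i ≤ n % i := by
          rw [h3]
          exact (Nat.mod_le _ _).trans h4
        refine ⟨h2, ?_, h5⟩
        by_contra hcon
        push Not at hcon
        rw [Nat.mod_eq_of_lt hcon] at h5
        obtain ⟨c, hc⟩ := hjd
        have h6 : n = j + i * c := by omega
        rw [h6, Nat.add_mul_mod_self_left] at h5
        have := Nat.mod_le j i
        omega
      · left
        have hi1 : orderOf ((Fintype.card F : ℕ) : ZMod r) = 1 := by omega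
        refine ⟨hi1, ?_⟩
        by_contra hcon
        push Not at hcon
        obtain ⟨hrm, hC⟩ := hcon
        obtain ⟨hrn, z, hz0, hznp, hz⟩ := H99.exists_nonpower_of_not_cond (F := F) (n := n) (r := r) (by omega)
          (H99.dvd_sub_one_iff_orderOf.mpr hi1) (fun h => by
            obtain ⟨h3, h4, h5⟩ := hC h.1
            exact h5 (h.2 h3 h4))
        obtain ⟨x, hx1, hx2, hx3⟩ := H99.sl_exists_nonpower (n := n) z hznp hrn hz
        obtain ⟨W, W', hWW, hW1, hW2, -⟩ := H x ⟨z, hx1⟩ (hx2 (by omega))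
        have := hx3 W hW2
        rw [hW1] at this
        exact hrm this
    · intro h x ⟨c, hc⟩ _
      have h' := h.resolve_left (fun h => hrp h.1)
      have h'' := h'.resolve_left (fun h => hrp h.1)
      obtain ⟨-, h⟩ := h''
      obtain ⟨a, k, P, ha, D, A, -, hA⟩ := H99.sl_exists_family (t := 1) (n := n) (by omega) hrp x c hc (fun _ => m)
        (by simp; omega) (by
          simp only [Finset.univ_unique, Finset.sum_const, Finset.card_singleton, one_smul]
          rcases h with ⟨h1, -⟩ | ⟨-, -, h1⟩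
          · rw [h1, Nat.mod_one, Nat.mod_one]
          · exact h1) (by
          intro hd
          rcases h with ⟨h1, h2⟩ | ⟨h1, -⟩
          · exact h2.imp (fun h _ => h) id
          · rw [H99.dvd_sub_one_iff_orderOf] at hd
            omega)
      exact ⟨D.sub (A 0 : Set (Fin k)), D.sub (A 0 : Set (Fin k))ᶜ, D.isCompl_sub _, hA 0, H99.map_le_of_sub ha D _,
        H99.map_le_of_sub ha D _⟩

end Cfsg.Agent.S5950
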