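import Cfsg.Statements.S5952
import Cfsg.Agent.H99.Basic

set_option autoImplicit false
open Cfsg

namespace Cfsg.Agent.S5952

open Cfsg.Agent.H99


/-- Which dimensions of invariant subspaces a semisimple linear map has. Let `V` be a finite-dimensional vector space over a field `F` and `f` an invertible semisimple linear map of `V`. Suppose `V` is the internal direct sum of the fixed space `C_V(f)` (the eigenspace for 1) and subspaces `U_1, …, U_s`, each `f`-invariant of dimension `a ≥ 1` on which `f` acts irreducibly (no `f`-invariant subspaces other than 0 and `U_j`). Let `0 < m < dim V` and `ℓ = m mod a`. Then `f` leaves some `m`-dimensional subspace invariant if and only if `dim C_V(f) ≥ m`, or `a ≤ m` and `dim C_V(f) ≥ ℓ`. -/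
theorem result {F V : Type*} [Field F] [AddCommGroup V] [Module F V]
    [FiniteDimensional F V] (f : V →ₗ[F] V) (hf : Function.Bijective f) (hss : Module.End.IsSemisimple f)
    {s a : ℕ} (ha : 1 ≤ a) (U : Fin s → Submodule F V)
    (hUinv : ∀ j, (U j).map f ≤ U j) (hUdim : ∀ j, Module.finrank F ↥(U j) = a)
    (hUirr : ∀ j, ∀ W : Submodule F V, W ≤ U j → W.map f ≤ W → W = ⊥ ∨ W = U j)
    (hdec : DirectSum.IsInternal (fun o : Option (Fin s) => o.elim (Module.End.eigenspace f 1) U))
    (m : ℕ) (hm : 0 < m) (hmV : m < Module.finrank F V) :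
    (∃ W : Submodule F V, Module.finrank F ↥W = m ∧ W.map f ≤ W) ↔
    (m ≤ Module.finrank F ↥(Module.End.eigenspace f 1) ∨
      (a ≤ m ∧ m % a ≤ Module.finrank F ↥(Module.End.eigenspace f 1))) := by
  classical
  set C := Module.End.eigenspace f 1 with hC
  have hind := hdec.submodule_iSupIndep
  have htop := hdec.submodule_iSup_eq_top
  have hsub : ∀ C' : Submodule F V, C' ≤ C → C'.map f ≤ C' := by
    rintro C' hC' _ ⟨x, hx, rfl⟩
    have := Module.End.mem_eigenspace_iff.mp (hC' hx)
    rw [this, one_smul]; exact hx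
  have hdisj : ∀ (C' : Submodule F V), C' ≤ C → ∀ (S : Finset (Fin s)) (j : Fin s), j ∉ S →
      Disjoint (U j) (C' ⊔ ⨆ i ∈ S, U i) := by
    intro C' hC' S j hj
    have h1 := hind (some j)
    refine h1.mono le_rfl ?_
    refine sup_le ?_ ?_
    · refine hC'.trans ?_
      exact le_iSup₂_of_le (f := fun (o : Option (Fin s)) (_ : o ≠ some j) =>
        o.elim (Module.End.eigenspace f 1) U) none (by simp) le_rfl
    · refine iSup₂_le fun i hi => ?_
      exact le_iSup₂_of_le (f := fun (o : Option (Fin s)) (_ : o ≠ some j) =>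
        o.elim (Module.End.eigenspace f 1) U) (some i) (by
          intro h; rw [Option.some.injEq] at h; exact hj (h ▸ hi)) le_rfl
  have hTinv : ∀ (C' : Submodule F V), C' ≤ C → ∀ (S : Finset (Fin s)),
      (C' ⊔ ⨆ i ∈ S, U i).map f ≤ C' ⊔ ⨆ i ∈ S, U i := by
    intro C' hC' S
    refine map_sup_le f (hsub C' hC') ?_
    rw [Submodule.map_iSup]
    refine iSup_mono fun i => ?_
    rw [Submodule.map_iSup]
    exact iSup_mono fun _ => hUinv i
  have hdim : ∀ (C' : Submodule F V), C' ≤ C → ∀ (S : Finset (Fin s)),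
      Module.finrank F ↥(C' ⊔ ⨆ i ∈ S, U i) = Module.finrank F C' + S.card * a := by
    intro C' hC' S
    induction S using Finset.induction_on with
    | empty =>
      rw [show (⨆ i ∈ (∅ : Finset (Fin s)), U i) = ⊥ by simp, sup_bot_eq]; simp
    | insert j S hj ih =>
      have h1 := Submodule.finrank_sup_add_finrank_inf_eq (U j) (C' ⊔ ⨆ i ∈ S, U i)
      rw [disjoint_iff.mp (hdisj C' hC' S j hj), finrank_bot, hUdim, ih] at h1
      rw [Finset.iSup_insert, Finset.card_insert_of_notMem hj, ← sup_assoc, sup_comm C' (U j), sup_assoc]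
      rw [add_mul]
      omega
  have htop' : C ⊔ ⨆ i ∈ (Finset.univ : Finset (Fin s)), U i = ⊤ := by
    rw [← htop, iSup_option]
    simp [hC]
  have hn : Module.finrank F V = Module.finrank F C + s * a := by
    have := hdim C le_rfl Finset.univ
    rw [htop', finrank_top] at this
    simpa using this
  constructor
  · rintro ⟨W, hWm, hWf⟩
    have hchain : ∀ S : Finset (Fin s), ∃ k : ℕ,
        Module.finrank F ↥(W ⊓ (C ⊔ ⨆ i ∈ S, U i)) = Module.finrank F ↥(W ⊓ C) + k * a := by
      intro S
      induction S using Finset.induction_on with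
      | empty =>
        refine ⟨0, ?_⟩
        rw [show (⨆ i ∈ (∅ : Finset (Fin s)), U i) = ⊥ by simp, sup_bot_eq]; simp
      | insert j S hj ih =>
        obtain ⟨k, hk⟩ := ih
        obtain ⟨e, he⟩ := finrank_inf_sup_step f W (C ⊔ ⨆ i ∈ S, U i) (U j) a hWf (hTinv C le_rfl S) (hUinv j) (hUdim j)
          (hUirr j) (hdisj C le_rfl S j hj)
        refine ⟨k + e, ?_⟩
        rw [Finset.iSup_insert, ← sup_assoc, sup_comm C (U j), sup_assoc, he, hk]
        ring
    obtain ⟨k, hk⟩ := hchain Finset.univ
    rw [htop', inf_top_eq, hWm] at hk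
    have hle : Module.finrank F ↥(W ⊓ C) ≤ Module.finrank F C := Submodule.finrank_mono inf_le_right
    rcases Nat.eq_zero_or_pos k with h0 | h0
    · left; subst h0; omega
    · right
      constructor
      · have : a ≤ k * a := Nat.le_mul_of_pos_left a h0
        omega
      · rw [hk, Nat.add_mul_mod_self_right]
        exact (Nat.mod_le _ _).trans hle
  · intro h
    -- choose k and ℓ'
    have hk : ∃ k l : ℕ, k ≤ s ∧ l ≤ Module.finrank F C ∧ m = l + k * a := by
      rcases h with h | ⟨h1, h2⟩
      · exact ⟨0, m, Nat.zero_le _, h, by simp⟩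
      · rcases le_or_gt (m / a) s with h3 | h3
        · exact ⟨m / a, m % a, h3, h2, by rw [mul_comm]; exact (Nat.mod_add_div m a).symm⟩
        · have h4 : s * a ≤ m := by
            calc s * a ≤ (m / a) * a := Nat.mul_le_mul_right a h3.le
              _ ≤ m := Nat.div_mul_le_self m a
          exact ⟨s, m - s * a, le_rfl, by omega, by omega⟩
    obtain ⟨k, l, hks, hl, hml⟩ := hk
    obtain ⟨C', hC', hC'l⟩ := exists_le_finrank_eq C hl
    obtain ⟨S, hS⟩ := Finset.exists_subset_card_eq (s := (Finset.univ : Finset (Fin s))) (n := k) (by simpa using hks)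
    refine ⟨C' ⊔ ⨆ i ∈ S, U i, ?_, hTinv C' hC' S⟩
    rw [hdim C' hC' S, hC'l, hS.2, hml]

end Cfsg.Agent.S5952
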