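import Cfsg.Statements.S5953
import Cfsg.Agent.H99.UniTI4
import Cfsg.Agent.H99.UniTI5
import Cfsg.Agent.H99.UniTI6

set_option autoImplicit false
open scoped MatrixGroups
open Cfsg

namespace Cfsg.Agent.S5953


open Module Matrix Polynomial Cfsg.Agent.H99 Cfsg.Agent.H99.UT

section
variable {F : Type*} [Field F] [Fintype F] {p : ℕ} [Fact p.Prime] [CharP F p] {q n m : ℕ}

theorem case_i2_back (hF : Fintype.card F = q ^ 2) (hn : 0 < n) {r : ℕ} [Fact r.Prime] (hr2 : r ≠ 2) (hrp : r ≠ p) (hrq : r ∣ q + 1) (hmn : 2 * m ≤ n)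
    (h1 : (r - 1) + 2 * m ≤ n) (h2 : r ∣ m ∨ padicValNat r n ≤ padicValNat r (q + 1))
    {x : Matrix.SpecialLinearGroup (Fin n) F} (hx : x ∈ Cfsg.SU n F q) {z : F}
    (hz : ((x ^ r : Matrix.SpecialLinearGroup (Fin n) F) : Matrix (Fin n) (Fin n) F) = z • (1 : Matrix (Fin n) (Fin n) F)) :
    ∃ W : Submodule F (Fin n → F), Module.finrank F ↥W = m ∧ (∀ u ∈ W, ∀ v ∈ W, Cfsg.hermForm n F q u v = 0) ∧
        W.map (Matrix.toLin' (x : Matrix (Fin n) (Fin n) F)) ≤ W := by
  classical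
  have hr : r.Prime := Fact.out
  have hq := Uni.two_le_q hF
  have hodd : Odd r := hr.odd_of_ne_two hr2
  obtain ⟨hp1, hp2, hp3⟩ := padic_eq (F := F) hF hq hr2 hrq
  have hpr : Uni.Pres q ((x ^ r : Matrix.SpecialLinearGroup (Fin n) F) : Matrix (Fin n) (Fin n) F) := Subgroup.pow_mem _ hx r
  have hzn := scalar_norm hn hpr hz
  have hz0 : z ≠ 0 := by
    rintro rfl
    rw [zero_pow (by omega)] at hzn
    exact zero_ne_one hzn
  have hsgn : (-1 : F) ^ (r + 1) = 1 := (hodd.add_one).neg_one_pow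
  rw [Matrix.SpecialLinearGroup.coe_pow] at hz
  by_cases hw : ∃ w : F, w ^ r = z
  · obtain ⟨w, hw⟩ := hw
    have hw0 : w ≠ 0 := by
      rintro rfl
      rw [zero_pow hr.ne_zero] at hw
      exact hz0 hw.symm
    have hwq : w ^ (q + 1) = 1 := by
      have h3 : (w ^ (q + 1)) ^ r = 1 := by rw [← pow_mul, mul_comm, pow_mul, hw, hzn]
      have h4 : (w ^ (q + 1)) ^ (q - 1) = 1 := by
        have h5 : (q + 1) * (q - 1) = Fintype.card F - 1 := by
          rw [hF]
          exact (Nat.sq_sub_sq q 1).symm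
        rw [← pow_mul, h5]
        exact FiniteField.pow_card_sub_one_eq_one w hw0
      have h5 := pow_gcd_eq_one.mpr ⟨h3, h4⟩
      rw [hp3, pow_one] at h5
      exact h5
    set M : Matrix (Fin n) (Fin n) F := w⁻¹ • (x : Matrix (Fin n) (Fin n) F) with hM
    have hMp : Uni.Pres q M := by
      intro u v
      rw [hM, Matrix.smul_mulVec, Matrix.smul_mulVec, Uni.hermForm_smul_left, Uni.hermForm_smul_right, (Uni.mem_SU.mp hx) u v, inv_pow]
      rw [pow_succ'] at hwq
      have h3 : w⁻¹ * (w ^ q)⁻¹ = 1 := by rw [← mul_inv, hwq, inv_one]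
      rw [← mul_assoc, h3, one_mul]
    have hMr : M ^ r = 1 := by
      rw [hM, _root_.smul_pow, hz, smul_smul, inv_pow, hw, inv_mul_cancel₀ hz0, one_smul]
    obtain ⟨g, c, hg, hgc, hcr⟩ := exists_GU_diag hF hrp hrq hMp hMr
    have hON : Uni.IsON q (fun i : Fin n => (g : Matrix (Fin n) (Fin n) F) *ᵥ (Pi.single i 1 : Fin n → F)) := by
      intro i j
      have h3 : Cfsg.hermForm n F q ((g : Matrix (Fin n) (Fin n) F) *ᵥ (Pi.single i 1 : Fin n → F)) ((g : Matrix (Fin n) (Fin n) F) *ᵥ (Pi.single j 1 : Fin n → F)) =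
          Cfsg.hermForm n F q (Pi.single i 1 : Fin n → F) (Pi.single j 1 : Fin n → F) := hg _ _
      rw [h3]
      exact Uni.IsON.single hF i j
    obtain ⟨U, -, g2, g3, g4⟩ := pairs_sub hF hr (f := Matrix.toLin' M) hON (c := c) (fun i => by
      rw [Matrix.toLin'_apply, Matrix.mulVec_mulVec, hgc, ← Matrix.mulVec_mulVec, Matrix.diagonal_mulVec_single, mul_one]
      have h4 : (Pi.single i (c i) : Fin n → F) = c i • (Pi.single i 1 : Fin n → F) := by
        rw [← Pi.single_smul, smul_eq_mul, mul_one]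
      rw [h4, Matrix.mulVec_smul]) hcr m Finset.univ (by rw [Finset.card_univ, Fintype.card_fin]; exact h1)
    refine ⟨U, g2, g3, map_le_of_smul (inv_ne_zero hw0) (f := Matrix.toLin' (x : Matrix (Fin n) (Fin n) F)) ?_⟩
    intro v hv
    have h5 := g4 v hv
    rw [hM, map_smul] at h5
    exact h5
  · push Not at hw
    have hf : (Matrix.toLin' (x : Matrix (Fin n) (Fin n) F)) ^ r = z • (1 : (Fin n → F) →ₗ[F] (Fin n → F)) := toLin_pow_eq hz
    obtain ⟨hrn, hdet⟩ := det_of_nonpower hr z hw _ hf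
    rw [LinearMap.det_toLin', Matrix.SpecialLinearGroup.det_coe, finrank_fintype_fun_eq_card, Fintype.card_fin] at hdet
    rw [finrank_fintype_fun_eq_card, Fintype.card_fin] at hrn
    rcases h2 with h2 | h2
    · obtain ⟨l, rfl⟩ := h2
      obtain ⟨W, g1, g2, g3⟩ := iso_of_nonpower hF hr hr2 hrq (Uni.mem_SU.mp hx) hz hzn hw hmn
      refine ⟨W, g1, g2, ?_⟩
      rintro _ ⟨v, hv, rfl⟩
      exact g3 v hv
    · exfalso
      exact no_nonpower_of_cond (F := F) (r := r) hn hrn hp2 ⟨by rw [hp1]; exact h2, fun h => absurd h hr2⟩ z hz0 hw hdet.symm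

end


/-- Elements of prime order of PSU_n(q) with no fixed totally isotropic `m`-space. Here `T = PSU_n(q)` (`n ≥ 3`, `(n, q) ≠ (3, 2)`), realised through the matrices of determinant 1 over the field `F` with `q²` elements preserving the Hermitian form `h(u, v) = Σ u_i v_i^q`; an element of `T` of prime order `r` is such a matrix `x` with `x^r` scalar and `x` not scalar. For `r ≠ p` let `i` be the multiplicative order of `q` modulo `r`, `b = i/2` for `i` even and `b = i` for `i` odd, `c = i, i/2, 2i` according as `i ≡ 0, 2 (mod 4)` or `i` odd, and write `k = n mod c`, `ℓ = m mod b`, `ℓ' = m mod c`, `n' = ⌊n/b⌋`, `m' = ⌊m/b⌋`, `s = (r−1)/b`; `(a)_r` is the `r`-part of `a`. Let `1 ≤ m ≤ n/2` and let `r` be a prime dividing the number of totally isotropic `m`-spaces. Then every element of `T` of order `r` fixes a totally isotropic `m`-space if and only if either (i) `r = 2`, `p ≠ 2`, and (`m < n/2` or `(q+1)_2 ≤ (n)_2`); or (ii) `r ≠ p`, `r >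 2`, `b ≤ m`, `k ≥ 2ℓ`, and either `i ≢ 2 (mod 4)`, or `i ≡ 2 (mod 4)`, `n' − 2m' ≥ s` and (`i > 2`, or `i = 2` and (`r ∣ m` or `(q+1)_r ≥ (n)_r`)). -/
theorem result {F : Type*} [Field F] [Fintype F] {p : ℕ} [Fact p.Prime] [CharP F p] {q : ℕ} (hq : Fintype.card F = q ^ 2)
    (n m : ℕ) (hn : 3 ≤ n) (hT : (n, q) ≠ (3, 2)) (hm : 1 ≤ m) (hmn : 2 * m ≤ n)
    (r : ℕ) [Fact r.Prime]
    (hrΩ : r ∣ Nat.card {W : Submodule F (Fin n → F) // Module.finrank F ↥W = m ∧ (∀ u ∈ W, ∀ v ∈ W, Cfsg.hermForm n F q u v = 0)})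
    (i b c : ℕ) (hi : i = orderOf (q : ZMod r)) (hb : b = if Even i then i / 2 else i)
    (hc : c = if i % 4 = 0 then i else if i % 4 = 2 then i / 2 else 2 * i) :
    (∀ x : Matrix.SpecialLinearGroup (Fin n) F, x ∈ Cfsg.SU n F q →
      (∃ z : F, ((x ^ r : Matrix.SpecialLinearGroup (Fin n) F) : Matrix (Fin n) (Fin n) F) = z • (1 : Matrix (Fin n) (Fin n) F)) →
      (∀ z : F, (x : Matrix (Fin n) (Fin n) F) ≠ z • (1 : Matrix (Fin n) (Fin n) F)) →
      ∃ W : Submodule F (Fin n → F), Module.finrank F ↥W = m ∧ (∀ u ∈ W, ∀ v ∈ W, Cfsg.hermForm n F q u v = 0) ∧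
        W.map (Matrix.toLin' (x : Matrix (Fin n) (Fin n) F)) ≤ W) ↔
    ((r = 2 ∧ p ≠ 2 ∧ (2 * m < n ∨ padicValNat 2 (q + 1) ≤ padicValNat 2 n)) ∨
     (r ≠ p ∧ 2 < r ∧ b ≤ m ∧ 2 * (m % b) ≤ n % c ∧
       (i % 4 ≠ 2 ∨ (i % 4 = 2 ∧ (r - 1) / b + 2 * (m / b) ≤ n / b ∧
         (2 < i ∨ (i = 2 ∧ (r ∣ m ∨ padicValNat r n ≤ padicValNat r (q + 1)))))))) := by
  have hr : r.Prime := Fact.out
  have hp : p.Prime := Fact.out
  have hq2 := Uni.two_le_q hq
  obtain ⟨j₀, hj0, hjn, hjm, hj⟩ := uni_count_dvd hq hmn hrΩ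
  have hrp : r ≠ p := ne_p_of_norm hq hj0 hj
  by_cases hr2 : r = 2
  · subst hr2
    have h2F : (2 : F) ≠ 0 := by
      intro h
      have h3 : ((2 : ℕ) : F) = 0 := by exact_mod_cast h
      rw [CharP.cast_eq_zero_iff F p] at h3
      have := Nat.le_of_dvd (by norm_num) h3
      have := hp.two_le
      omega
    rw [case_two hq h2F hn hm hmn]
    constructor
    · intro h
      exact Or.inl ⟨rfl, Ne.symm hrp, h⟩
    · rintro (⟨-, -, h⟩ | ⟨-, h, -⟩)
      · exact h
      · omega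
  have hr3 : 2 < r := by
    have := hr.two_le
    omega
  have hQ : ¬ r ∣ q := not_dvd_q hq hrp
  by_cases hrq : r ∣ q + 1
  · have hqneg : ((q : ℕ) : ZMod r) = -1 := by
      have h1 : ((q + 1 : ℕ) : ZMod r) = 0 := (CharP.cast_eq_zero_iff (ZMod r) r _).mpr hrq
      push_cast at h1
      exact eq_neg_of_add_eq_zero_left h1
    have hi2 : i = 2 := by
      rw [hi, hqneg]
      apply orderOf_eq_prime
      · ring
      · exact (one_ne_neg hr2).symm
    subst hi2
    have hb1 : b = 1 := by rw [hb]; norm_num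
    have hc1 : c = 1 := by rw [hc]; norm_num
    subst hb1
    subst hc1
    simp only [Nat.div_one, Nat.mod_one, mul_zero]
    constructor
    · intro hfix
      right
      refine ⟨hrp, hr3, hm, le_rfl, Or.inr ⟨by norm_num, ?_, Or.inr ⟨trivial, ?_⟩⟩⟩
      · by_contra hcon
        exact der_a hq hr2 hrp hrq (by omega) hm hmn (by omega) hfix
      · by_contra hcon
        push Not at hcon
        exact der_b hq hr2 hrp hrq (by omega) hcon.2 hcon.1 hfix
    · rintro (⟨h, -⟩ | ⟨-, -, -, -, h⟩)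
      · exact absurd h hr2
      · rcases h with h | ⟨-, h1, h2⟩
        · omega
        · rcases h2 with h2 | ⟨-, h2⟩
          · omega
          · intro x hx ⟨z, hz⟩ _
            exact case_i2_back hq (by omega) hr2 hrp hrq hmn h1 h2 hx hz
  · rw [case_odd hq (by omega) hm hmn hr2 hrp hrq hi hb hc hj0 hjn hjm hj]
    have hi2 : i ≠ 2 := by
      intro h2
      apply hrq
      rw [hi] at h2
      have h3 : ((q : ℕ) : ZMod r) * ((q : ℕ) : ZMod r) = 1 := by
        rw [← pow_two, ← h2]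
        exact pow_orderOf_eq_one _
      rcases mul_self_eq_one_iff.mp h3 with h4 | h4
      · rw [h4, orderOf_one] at h2
        omega
      · rw [← CharP.cast_eq_zero_iff (ZMod r) r]
        push_cast
        rw [h4]
        ring
    constructor
    · rintro ⟨h1, h2, h3⟩
      right
      refine ⟨hrp, hr3, h1, h2, ?_⟩
      by_cases h4 : i % 4 = 2
      · exact Or.inr ⟨h4, h3.resolve_left (fun h => h h4), Or.inl (by omega)⟩
      · exact Or.inl h4
    · rintro (⟨h, -⟩ | ⟨-, -, h1, h2, h3⟩)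
      · exact absurd h hr2
      · refine ⟨h1, h2, ?_⟩
        rcases h3 with h3 | ⟨-, h3, -⟩
        · exact Or.inl h3
        · exact Or.inr h3


end Cfsg.Agent.S5953
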