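import Cfsg.Statements.S5954
import Cfsg.Agent.H99.UniND4
import Cfsg.Agent.H99.UniND5

set_option autoImplicit false
open scoped MatrixGroups
open Cfsg

namespace Cfsg.Agent.S5954


open Module Matrix Polynomial Cfsg.Agent.H99 Cfsg.Agent.H99.UT


/-- Elements of prime order of PSU_n(q) with no fixed nondegenerate `m`-space. Here `T = PSU_n(q)` (`n ≥ 3`, `(n, q) ≠ (3, 2)`), realised through the matrices of determinant 1 over the field `F` with `q²` elements preserving the Hermitian form `h(u, v) = Σ u_i v_i^q`; an element of `T` of prime order `r` is such a matrix `x` with `x^r` scalar and `x` not scalar. For `r ≠ p` let `i` be the multiplicative order of `q` modulo `r`, `b = i/2` for `i` even and `b = i` for `i` odd, `c = i, i/2, 2i` according as `i ≡ 0, 2 (mod 4)` or `i` odd, and write `k = n mod c`, `ℓ = m mod b`, `ℓ' = m mod c`, `n' = ⌊n/b⌋`, `m' = ⌊m/b⌋`, `s = (r−1)/b`; `(a)_r` is the `r`-part of `a`. Let `1 ≤ m < n/2` and let `r` be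 a prime dividing the number of nondegenerate `m`-spaces. Then every element of `T` of order `r` fixes a nondegenerate `m`-space if and only if one of: (i) `r = p > 2` and every partition of `n` into parts of size at most `p` contains (as a sub-multiset) a partition of `m`; (ii) `r = p = 2` and (`n` is odd or `m` is even); (iii) `r = 2 ≠ p` and (`n` is odd, or `m` is even, or `(q+1)_2 ≥ (n)_2` and `q ≡ 3 (mod 4)`); (iv) `r ≠ p`, `r > 2`, and either `i ≠ 2`, `c ≤ m` and `k ≥ ℓ'`, or `i = 2` and (`r ∣ m` or `(q+1)_r ≥ (n)_r`). -/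
theorem result {F : Type*} [Field F] [Fintype F] {p : ℕ} [Fact p.Prime] [CharP F p] {q : ℕ} (hq : Fintype.card F = q ^ 2)
    (n m : ℕ) (hn : 3 ≤ n) (hT : (n, q) ≠ (3, 2)) (hm : 1 ≤ m) (hmn : 2 * m < n)
    (r : ℕ) [Fact r.Prime]
    (hrΩ : r ∣ Nat.card {W : Submodule F (Fin n → F) // Module.finrank F ↥W = m ∧ (∀ u ∈ W, u ≠ 0 → ∃ v ∈ W, Cfsg.hermForm n F q u v ≠ 0)})
    (i b c : ℕ) (hi : i = orderOf (q : ZMod r)) (hb : b = if Even i then i / 2 else i)
    (hc : c = if i % 4 = 0 then i else if i % 4 = 2 then i / 2 else 2 * i) :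
    (∀ x : Matrix.SpecialLinearGroup (Fin n) F, x ∈ Cfsg.SU n F q →
      (∃ z : F, ((x ^ r : Matrix.SpecialLinearGroup (Fin n) F) : Matrix (Fin n) (Fin n) F) = z • (1 : Matrix (Fin n) (Fin n) F)) →
      (∀ z : F, (x : Matrix (Fin n) (Fin n) F) ≠ z • (1 : Matrix (Fin n) (Fin n) F)) →
      ∃ W : Submodule F (Fin n → F), Module.finrank F ↥W = m ∧ (∀ u ∈ W, u ≠ 0 → ∃ v ∈ W, Cfsg.hermForm n F q u v ≠ 0) ∧
        W.map (Matrix.toLin' (x : Matrix (Fin n) (Fin n) F)) ≤ W) ↔
    ((r = p ∧ 2 < p ∧ (∀ μ : Multiset ℕ, (∀ a ∈ μ, 0 < a ∧ a ≤ p) → μ.sum = n → ∃ ν : Multiset ℕ, ν ≤ μ ∧ ν.sum = m)) ∨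
     (r = p ∧ p = 2 ∧ (Odd n ∨ Even m)) ∨
     (r = 2 ∧ p ≠ 2 ∧ (Odd n ∨ Even m ∨ (padicValNat 2 n ≤ padicValNat 2 (q + 1) ∧ q % 4 = 3))) ∨
     (r ≠ p ∧ 2 < r ∧ ((i ≠ 2 ∧ c ≤ m ∧ m % c ≤ n % c) ∨ (i = 2 ∧ (r ∣ m ∨ padicValNat r n ≤ padicValNat r (q + 1)))))) := by

  have hr : r.Prime := Fact.out
  have hp : p.Prime := Fact.out
  have hq2 := Uni.two_le_q hq
  have hNDi : ∀ W : Submodule F (Fin n → F), (∀ u ∈ W, u ≠ 0 → ∃ v ∈ W, Cfsg.hermForm n F q u v ≠ 0) ↔ ND (Cfsg.hermForm n F q) W := by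
    intro W
    constructor
    · intro h u hu hu2
      by_contra hne
      obtain ⟨v, hv, hv2⟩ := h u hu hne
      exact hv2 (hu2 v hv)
    · intro h u hu hu0
      by_contra hcon
      push Not at hcon
      exact hu0 (h u hu hcon)
  simp only [hNDi] at hrΩ ⊢
  have h2F_of : p ≠ 2 → (2 : F) ≠ 0 := by
    intro hp2 h
    have h3 : ((2 : ℕ) : F) = 0 := by exact_mod_cast h
    rw [CharP.cast_eq_zero_iff F p] at h3
    have := Nat.le_of_dvd (by norm_num) h3
    have := hp.two_le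
    omega
  by_cases hrp : r = p
  · subst hrp
    by_cases hp2 : r = 2
    · subst hp2
      rw [nd_case_p2 hq hn (by omega)]
      constructor
      · intro h
        exact Or.inr (Or.inl ⟨rfl, rfl, h⟩)
      · rintro (⟨-, h, -⟩ | ⟨-, -, h⟩ | ⟨-, h, -⟩ | ⟨h, -⟩)
        · omega
        · exact h
        · exact absurd rfl h
        · exact absurd rfl h
    · rw [nd_case_p hq (h2F_of hp2) (by omega) (by omega)]
      have := hp.two_le
      constructor
      · intro h
        exact Or.inl ⟨rfl, by omega, h⟩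
      · rintro (⟨-, -, h⟩ | ⟨-, h, -⟩ | ⟨h, -⟩ | ⟨h, -⟩)
        · exact h
        · exact absurd h hp2
        · exact absurd h hp2
        · exact absurd rfl h
  by_cases hr2 : r = 2
  · subst hr2
    rw [nd_case_two hq (h2F_of (Ne.symm hrp)) hn hm hmn]
    constructor
    · intro h
      exact Or.inr (Or.inr (Or.inl ⟨rfl, Ne.symm hrp, h⟩))
    · rintro (⟨h, -⟩ | ⟨h, -⟩ | ⟨-, -, h⟩ | ⟨-, h, -⟩)
      · exact absurd h hrp
      · exact absurd h hrp
      · exact h
      · omega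
  have hr3 : 2 < r := by
    have := hr.two_le
    omega
  have hQ : ¬ r ∣ q := not_dvd_q hq hrp
  obtain ⟨j₀, hj0, hjn, hjm, hj⟩ := nd_count_prime hq (by omega) hQ hrΩ
  by_cases hrq : r ∣ q + 1
  · have hqneg : ((q : ℕ) : ZMod r) = -1 := by
      have h1 : ((q + 1 : ℕ) : ZMod r) = 0 := (CharP.cast_eq_zero_iff (ZMod r) r _).mpr hrq
      push_cast at h1
      exact eq_neg_of_add_eq_zero_left h1
    have hi2 : i = 2 := by
      rw [hi, hqneg]
      apply orderOf_eq_prime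
      · ring
      · exact (one_ne_neg hr2).symm
    constructor
    · intro hfix
      refine Or.inr (Or.inr (Or.inr ⟨hrp, hr3, Or.inr ⟨hi2, ?_⟩⟩))
      by_contra hcon
      push Not at hcon
      obtain ⟨x, hx, hxz, hxs, hxW⟩ := exists_uni_nonpower hq hr2 hrp hrq (by omega) hcon.2
      obtain ⟨W, g1, -, g3⟩ := hfix x hx hxz hxs
      have h1 := hxW W g3
      rw [g1] at h1
      exact hcon.1 h1
    · rintro (⟨h, -⟩ | ⟨h, -⟩ | ⟨h, -⟩ | ⟨-, -, h⟩)
      · exact absurd h hrp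
      · exact absurd h hrp
      · exact absurd h hr2
      · rcases h with ⟨h, -⟩ | ⟨-, h⟩
        · exact absurd hi2 h
        · intro x hx ⟨z, hz⟩ _
          exact nd_i2_back hq (by omega) hr2 hrp hrq (by omega) h hx hz
  · rw [nd_case_odd hq (by omega) hm (by omega) hr2 hrp hrq hi hb hc hj0 hjn hjm hj]
    have hi2 : i ≠ 2 := by
      intro h2
      apply hrq
      rw [hi] at h2
      have h3 : ((q : ℕ) : ZMod r) * ((q : ℕ) : ZMod r) = 1 := by
        rw [← pow_two, ← h2]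
        exact pow_orderOf_eq_one _
      rcases mul_self_eq_one_iff.mp h3 with h4 | h4
      · rw [h4, orderOf_one] at h2
        omega
      · rw [← CharP.cast_eq_zero_iff (ZMod r) r]
        push_cast
        rw [h4]
        ring
    constructor
    · intro h
      exact Or.inr (Or.inr (Or.inr ⟨hrp, hr3, Or.inl ⟨hi2, h.1, h.2⟩⟩))
    · rintro (⟨h, -⟩ | ⟨h, -⟩ | ⟨h, -⟩ | ⟨-, -, h⟩)
      · exact absurd h hrp
      · exact absurd h hrp
      · exact absurd h hr2
      · rcases h with ⟨-, h1, h2⟩ | ⟨h, -⟩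
        · exact ⟨h1, h2⟩
        · exact absurd h hi2


end Cfsg.Agent.S5954
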