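import Cfsg.Statements.S5955
import Cfsg.Agent.H99.TISymp
import Cfsg.Agent.H99.SympRed
import Cfsg.Agent.H99.SympUnip

set_option autoImplicit false
open scoped MatrixGroups
open Cfsg

namespace Cfsg.Agent.S5955

open Module Matrix Polynomial

section
variable {F : Type*} [Field F] [Fintype F] {p : ℕ} [Fact p.Prime] [CharP F p] {d : ℕ}

lemma sq_scalar (hd : 0 < d) (x : Matrix.symplecticGroup (Fin d) F) (z : F)
    (hz : ((x ^ 2 : Matrix.symplecticGroup (Fin d) F) : Matrix (Fin d ⊕ Fin d) (Fin d ⊕ Fin d) F) = z • (1 : Matrix (Fin d ⊕ Fin d) (Fin d ⊕ Fin d) F)) :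
    z * z = 1 ∧ ∀ v, Matrix.toLin' (x : Matrix (Fin d ⊕ Fin d) (Fin d ⊕ Fin d) F) (Matrix.toLin' (x : Matrix (Fin d ⊕ Fin d) (Fin d ⊕ Fin d) F) v) = z • v := by
  have hA := H99.sympForm_altForm (F := F) d
  have hfi : ∀ u v, Cfsg.sympForm d F (Matrix.toLin' (x : Matrix (Fin d ⊕ Fin d) (Fin d ⊕ Fin d) F) u) (Matrix.toLin' (x : Matrix (Fin d ⊕ Fin d) (Fin d ⊕ Fin d) F) v) = Cfsg.sympForm d F u v := H99.sympForm_toLin' d x.2
  have h1 : ∀ v, Matrix.toLin' (x : Matrix (Fin d ⊕ Fin d) (Fin d ⊕ Fin d) F) (Matrix.toLin' (x : Matrix (Fin d ⊕ Fin d) (Fin d ⊕ Fin d) F) v) = z • v := by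
    intro v
    have h2 : (x : Matrix (Fin d ⊕ Fin d) (Fin d ⊕ Fin d) F) * (x : Matrix (Fin d ⊕ Fin d) (Fin d ⊕ Fin d) F) = z • (1 : Matrix (Fin d ⊕ Fin d) (Fin d ⊕ Fin d) F) := by
      rw [← hz, pow_two]
      rfl
    rw [← LinearMap.comp_apply, ← Matrix.toLin'_mul, h2]
    simp
  refine ⟨?_, h1⟩
  obtain ⟨u, v, huv⟩ := H99.exists_symp_ne_zero (F := F) hd
  have h2 := hfi (Matrix.toLin' (x : Matrix (Fin d ⊕ Fin d) (Fin d ⊕ Fin d) F) u) (Matrix.toLin' (x : Matrix (Fin d ⊕ Fin d) (Fin d ⊕ Fin d) F) v)
  rw [h1, h1, hA.smul_left, hA.smul_right, hfi, ← mul_assoc] at h2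
  have h3 : (z * z - 1) * Cfsg.sympForm d F u v = 0 := by linear_combination h2
  exact sub_eq_zero.mp ((mul_eq_zero.mp h3).resolve_right huv)

end


/-- Elements of prime order of PSp_n(q) with no fixed totally isotropic `m`-space. Here `T = PSp_n(q)` with `n = 2d ≥ 4`, `(n, q) ≠ (4, 2)`, realised through the symplectic matrices over the field `F` with `q` elements (preserving the standard alternating form); an element of `T` of prime order `r` is such a matrix `x` with `x^r` scalar and `x` not scalar. For `r ≠ p` let `i` be the multiplicative order of `q` modulo `r`, `c = i` for `i` even and `c = 2i` for `i` odd, and write `k = n mod c`, `ℓ = m mod i`, `ℓ' = m mod c`, `n' = ⌊n/i⌋`, `m' = ⌊m/i⌋`, `t = (r−1)/i`. Let `1 ≤ m ≤ n/2` and let `r` be a prime dividing the number of totally isotropic `m`-spaces. Then every element of `T` of order `r` fixes a totally isotropic `m`-space if and only if either (i) `r = 2 ≠ p` and (`m` is even or `q ≡ 1 (mod 4)`); or (ii) `r ≠ p`, `r > 2`, `i ≤ m`, `k ≥ 2ℓ`, and (`i` is odd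 or `n' − 2m' ≥ t`). -/
theorem result {F : Type*} [Field F] [Fintype F] {p : ℕ} [Fact p.Prime] [CharP F p] {q : ℕ} (hq : Fintype.card F = q)
    (d m : ℕ) (hd : 2 ≤ d) (hT : (d, q) ≠ (2, 2)) (hm : 1 ≤ m) (hmd : m ≤ d)
    (r : ℕ) [Fact r.Prime]
    (hrΩ : r ∣ Nat.card {W : Submodule F (Fin d ⊕ Fin d → F) // Module.finrank F ↥W = m ∧ (∀ u ∈ W, ∀ v ∈ W, Cfsg.sympForm d F u v = 0)})
    (i c : ℕ) (hi : i = orderOf (q : ZMod r)) (hc : c = if Even i then i else 2 * i) :
    (∀ x : ↥(Matrix.symplecticGroup (Fin d) F),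
      (∃ z : F, ((x ^ r : ↥(Matrix.symplecticGroup (Fin d) F)) : Matrix (Fin d ⊕ Fin d) (Fin d ⊕ Fin d) F) = z • (1 : Matrix (Fin d ⊕ Fin d) (Fin d ⊕ Fin d) F)) →
      (∀ z : F, (x : Matrix (Fin d ⊕ Fin d) (Fin d ⊕ Fin d) F) ≠ z • (1 : Matrix (Fin d ⊕ Fin d) (Fin d ⊕ Fin d) F)) →
      ∃ W : Submodule F (Fin d ⊕ Fin d → F), Module.finrank F ↥W = m ∧ (∀ u ∈ W, ∀ v ∈ W, Cfsg.sympForm d F u v = 0) ∧
        W.map (Matrix.toLin' (x : Matrix (Fin d ⊕ Fin d) (Fin d ⊕ Fin d) F)) ≤ W) ↔
    ((r = 2 ∧ p ≠ 2 ∧ (Even m ∨ q % 4 = 1)) ∨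
     (r ≠ p ∧ 2 < r ∧ i ≤ m ∧ 2 * (m % i) ≤ (2 * d) % c ∧ (Odd i ∨ (r - 1) / i + 2 * (m / i) ≤ (2 * d) / i))) := by
  classical
  subst hq
  have hr : r.Prime := Fact.out
  have hp : p.Prime := Fact.out
  have hd0 : 0 < d := by omega
  have hA := H99.sympForm_altForm (F := F) d
  have hND := H99.sympForm_ND (F := F) d
  have hfd : finrank F (Fin d ⊕ Fin d → F) = 2 * d := H99.finrank_symp d F
  have hfi : ∀ (x : Matrix.symplecticGroup (Fin d) F) u v, Cfsg.sympForm d F (Matrix.toLin' (x : Matrix (Fin d ⊕ Fin d) (Fin d ⊕ Fin d) F) u) (Matrix.toLin' (x : Matrix (Fin d ⊕ Fin d) (Fin d ⊕ Fin d) F) v) = Cfsg.sympForm d F u v := fun x => H99.sympForm_toLin' d x.2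
  have hcount := H99.card_iso_alt hA hND hfd m
  have hdvd : r ∣ ∏ k ∈ Finset.range m, (Nat.card F ^ (2 * (d - k)) - 1) := by
    rw [← hcount]
    exact hrΩ.mul_right _
  obtain ⟨k₀, hk₀, hk₀r⟩ := (Nat.Prime.prime hr).exists_mem_finset_dvd hdvd
  rw [Finset.mem_range] at hk₀
  rw [Nat.card_eq_fintype_card] at hk₀r
  have hrp : r ≠ p := by
    rintro rfl
    obtain ⟨f, hf⟩ := FiniteField.card F r
    have h1 : r ∣ Fintype.card F ^ (2 * (d - k₀)) := by
      rw [hf.2, ← pow_mul]
      exact dvd_pow_self _ (Nat.mul_ne_zero f.2.ne' (by omega))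
    have h2 : 1 ≤ Fintype.card F ^ (2 * (d - k₀)) := Nat.one_le_pow _ _ Fintype.card_pos
    have h3 := (Nat.dvd_sub_iff_right h2 h1).mp hk₀r
    exact hr.one_lt.ne' (Nat.dvd_one.mp h3)
  rw [H99.dvd_pow_sub_one_iff Fintype.card_pos, ← hi] at hk₀r
  by_cases hr2 : r = 2
  · subst hr2
    have h2F : (2 : F) ≠ 0 := by
      intro h
      have h3 : ((2 : ℕ) : F) = 0 := by exact_mod_cast h
      rw [CharP.cast_eq_zero_iff F p] at h3
      have := Nat.le_of_dvd (by norm_num) h3
      have := hp.two_le
      omega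
    have hp2 : p ≠ 2 := fun h => hrp h.symm
    have hsq := FiniteField.isSquare_neg_one_iff (F := F)
    have hodd : Odd (Fintype.card F) := Nat.odd_iff.mpr (FiniteField.odd_card_of_char_ne_two (by rw [ringChar.eq F p]; exact hp2))
    constructor
    · intro hfix
      left
      refine ⟨rfl, hp2, ?_⟩
      by_contra hcon
      push Not at hcon
      obtain ⟨hm1, hq1⟩ := hcon
      have hq3 : Fintype.card F % 4 = 3 := by
        rw [Nat.odd_iff] at hodd
        omega
      have hnsq : ∀ a : F, a * a ≠ -1 := by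
        intro a ha
        have := hsq.mp ⟨a, ha.symm⟩
        exact this hq3
      -- the element `J`
      let g : (Fin d ⊕ Fin d → F) →ₗ[F] (Fin d ⊕ Fin d → F) := Matrix.toLin' (Matrix.J (Fin d) F)
      have hgg : ∀ v, g (g v) = -v := by
        intro v
        change Matrix.toLin' _ (Matrix.toLin' _ v) = _
        rw [← LinearMap.comp_apply, ← Matrix.toLin'_mul, Matrix.J_squared]
        simp
      obtain ⟨x, hx⟩ : ∃ x : Matrix.symplecticGroup (Fin d) F, (x : Matrix (Fin d ⊕ Fin d) (Fin d ⊕ Fin d) F) = Matrix.J (Fin d) F := ⟨⟨_, SymplecticGroup.J_mem (l := Fin d) (R := F)⟩, rfl⟩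
      obtain ⟨W, g1, g2, g3⟩ := hfix x ⟨-1, by
        have h1 : (x : Matrix (Fin d ⊕ Fin d) (Fin d ⊕ Fin d) F) * (x : Matrix (Fin d ⊕ Fin d) (Fin d ⊕ Fin d) F) = -1 := by rw [hx, Matrix.J_squared]
        rw [pow_two, neg_one_smul, ← h1]
        rfl⟩ (by
        intro z hz
        rw [hx] at hz
        have h1 := hgg
        have h2 : ∀ v, g v = z • v := by
          intro v
          change Matrix.toLin' (Matrix.J (Fin d) F) v = _
          rw [hz]
          simp
        have hnt : Nontrivial (Fin d ⊕ Fin d → F) := Module.nontrivial_of_finrank_pos (R := F) (by omega)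
        obtain ⟨v, hv⟩ := exists_ne (0 : Fin d ⊕ Fin d → F)
        have h3 := h1 v
        rw [h2, h2, smul_smul, ← sub_eq_zero, sub_neg_eq_add] at h3
        have h4 : (z * z + 1) • v = 0 := by rw [add_smul, one_smul, h3]
        exact hnsq z (eq_neg_of_add_eq_zero_left ((smul_eq_zero.mp h4).resolve_right hv)))
      have h1 := H99.even_of_neg_nonsplit hnsq hgg (W := W) (fun v hv => g3 ⟨v, hv, by rw [hx]⟩)
      rw [g1] at h1
      exact hm1 h1
    · rintro (⟨-, -, h⟩ | ⟨-, h, -⟩)
      · intro x ⟨z, hz⟩ hns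
        obtain ⟨h1, h2⟩ := sq_scalar hd0 x z hz
        rcases mul_self_eq_one_iff.mp h1 with rfl | rfl
        · obtain ⟨U, g1, g2, g3⟩ := H99.exists_iso_of_invol hA hND h2F (hfi x) (fun v => by rw [h2, one_smul]) (m := m) (by omega)
          refine ⟨U, g3, g2, ?_⟩
          rintro _ ⟨v, hv, rfl⟩
          exact g1 v hv
        · by_cases hsq1 : ∃ ι : F, ι * ι = -1
          · obtain ⟨ι, hι⟩ := hsq1
            obtain ⟨U, g1, g2, g3⟩ := H99.exists_iso_of_neg_split hA hND h2F hι (hfi x) (fun v => by rw [h2, neg_one_smul]) (m := m) (by omega)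
            refine ⟨U, g3, g2, ?_⟩
            rintro _ ⟨v, hv, rfl⟩
            exact g1 v hv
          · push Not at hsq1
            have hme : Even m := by
              rcases h with h | h
              · exact h
              · exfalso
                obtain ⟨a, ha⟩ := hsq.mpr (by omega)
                exact hsq1 a ha.symm
            obtain ⟨e, he⟩ := hme
            obtain ⟨U, g1, g2, g3⟩ := H99.exists_iso_of_neg_nonsplit hA hND h2F (by
              intro a b hab
              by_cases hb : b = 0
              · subst hb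
                rw [mul_zero, add_zero] at hab
                exact ⟨mul_self_eq_zero.mp hab, rfl⟩
              · exfalso
                apply hsq1 (a * b⁻¹)
                have h5 : a * a = -(b * b) := eq_neg_of_add_eq_zero_left hab
                have h6 : a * b⁻¹ * (a * b⁻¹) = (a * a) * (b⁻¹ * b⁻¹) := by ring
                rw [h6, h5, neg_mul]
                congr 1
                field_simp) (hfi x) (fun v => by rw [h2, neg_one_smul]) e (by omega)
            refine ⟨U, by omega, g2, ?_⟩
            rintro _ ⟨v, hv, rfl⟩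
            exact g1 v hv
      · omega
  · -- `r` odd
    have hr3 : 2 < r := by
      have := hr.two_le
      omega
    have hcb : c = H99.blk r (Fintype.card F) := by rw [hc, hi]; rfl
    have hQ : ¬ r ∣ Fintype.card F := H99.prime_not_dvd_card hrp
    have hipos : 0 < i := by rw [hi]; exact H99.orderOf_pos_of_not_dvd hQ
    have hcpos : 0 < c := by
      rw [hc]
      split_ifs <;> omega
    have hcj : c ∣ 2 * (d - k₀) := by
      rw [hc]
      split_ifs with hie
      · exact hk₀r
      · apply Nat.mul_dvd_mul_left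
        exact (Nat.Coprime.dvd_mul_left (Nat.Coprime.symm (Nat.coprime_two_left.mpr (Nat.not_even_iff_odd.mp hie)))).mp hk₀r
    have hcle : c ≤ 2 * (d - k₀) := Nat.le_of_dvd (by omega) hcj
    have hic : i ∣ c := by
      rw [hc]
      split_ifs
      · exact dvd_rfl
      · exact Dvd.intro_left 2 rfl
    -- bound for isotropic subspaces of the fixed space
    have hfixbound : ∀ (y : (Fin d ⊕ Fin d → F) →ₗ[F] (Fin d ⊕ Fin d → F)), (∀ u v, Cfsg.sympForm d F (y u) (y v) = Cfsg.sympForm d F u v) → y ^ r = 1 →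
        ∀ W : Submodule F (Fin d ⊕ Fin d → F), W ≤ LinearMap.ker (y - 1) → (∀ u ∈ W, ∀ v ∈ W, Cfsg.sympForm d F u v = 0) → 2 * finrank F W ≤ finrank F (LinearMap.ker (y - 1)) := by
      intro y hy hyr W hW hWi
      obtain ⟨s1, -⟩ := H99.split_fixed hrp hA.eform hy hyr (W := ⊤) (fun _ _ => Submodule.mem_top) hND
      rw [top_inf_eq] at s1
      have h1 := (hA.eform.restrict (LinearMap.ker (y - 1))).two_mul_finrank_le (by
        intro u _ hu
        apply Subtype.ext
        exact s1 u u.2 (fun v hv => hu ⟨v, hv⟩ Submodule.mem_top)) (W.comap (LinearMap.ker (y - 1)).subtype) (by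
        intro u hu v hv
        exact hWi u hu v hv)
      have h2 : finrank F (W.comap (LinearMap.ker (y - 1)).subtype) = finrank F W := by
        have h7 : (W.comap (LinearMap.ker (y - 1)).subtype).map (LinearMap.ker (y - 1)).subtype = W := by
          rw [Submodule.map_comap_subtype, inf_eq_right.mpr hW]
        rw [LinearEquiv.finrank_eq (Submodule.equivMapOfInjective (LinearMap.ker (y - 1)).subtype (LinearMap.ker (y - 1)).injective_subtype (W.comap (LinearMap.ker (y - 1)).subtype)), h7]
      rw [h2] at h1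
      exact h1
    have hmi := Nat.div_add_mod m i
    have hdc := Nat.div_add_mod (2 * d) c
    have hmodm : m % i < i := Nat.mod_lt _ hipos
    have hmodd : 2 * d % c < c := Nat.mod_lt _ hcpos
    constructor
    · intro hfix
      right
      -- first kind of derangement
      have hkey1 : 2 * (m % i) ≤ (2 * d) % c := by
        by_contra hcon
        push Not at hcon
        obtain ⟨x, hx1, hx2⟩ := H99.exists_symp_elt (F := F) (p := p) hr2 hrp (d := d) (2 * d / c) (by rw [← hcb]; exact Nat.div_mul_le_self _ _)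
        rw [← hcb] at hx2
        have hK : 0 < 2 * d / c := Nat.div_pos (by omega) hcpos
        have hx1' : x ≠ 1 := by
          rintro rfl
          have h4 : (Matrix.toLin' ((1 : Matrix.symplecticGroup (Fin d) F) : Matrix (Fin d ⊕ Fin d) (Fin d ⊕ Fin d) F) - 1 : (Fin d ⊕ Fin d → F) →ₗ[F] (Fin d ⊕ Fin d → F)) = 0 := by
            rw [OneMemClass.coe_one, Matrix.toLin'_one]
            exact sub_self _
          rw [h4, LinearMap.ker_zero, finrank_top, H99.finrank_symp] at hx2
          have := Nat.mul_pos hK hcpos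
          omega
        obtain ⟨W, g1, g2, g3⟩ := hfix x ⟨1, by rw [hx1, one_smul]; rfl⟩ (H99.symp_not_scalar hd0 hr2 x hx1 hx1')
        set y := Matrix.toLin' (x : Matrix (Fin d ⊕ Fin d) (Fin d ⊕ Fin d) F) with hy
        have hyr : y ^ r = 1 := by
          rw [hy, ← Matrix.toLin'_pow]
          have h3 : (x : Matrix (Fin d ⊕ Fin d) (Fin d ⊕ Fin d) F) ^ r = 1 := congrArg Subtype.val hx1
          rw [h3]
          exact Matrix.toLin'_one
        have hWi : ∀ v ∈ W, y v ∈ W := fun v hv => g3 ⟨v, hv, rfl⟩
        have h1 := H99.finrank_modEq_fixed_sub hrp y hyr W hWi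
        rw [← hi, g1] at h1
        have h2 := hfixbound y (hfi x) hyr (W ⊓ LinearMap.ker (y - 1)) inf_le_right (fun u hu v hv => g2 u hu.1 v hv.1)
        have h3 : finrank F (LinearMap.ker (y - 1)) = 2 * d % c := by
          rw [mul_comm c] at hdc
          omega
        rw [h3] at h2
        have h4 : m % i ≤ finrank F (W ⊓ LinearMap.ker (y - 1) : Submodule F (Fin d ⊕ Fin d → F)) := by
          rw [Nat.ModEq] at h1
          rw [h1]
          exact Nat.mod_le _ _
        omega
      have him : i ≤ m := by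
        by_contra hcon
        push Not at hcon
        rw [Nat.mod_eq_of_lt hcon] at hkey1
        -- a multiple of `c` in `(2 d - 2 m, 2 d]`
        obtain ⟨b, hb⟩ := hcj
        have h5 : 2 * d < c * b + c := by
          by_contra h6
          push Not at h6
          have h7 : c * (b + 1) ≤ 2 * d := by rw [mul_add, mul_one]; exact h6
          have h8 : i ≤ c := Nat.le_of_dvd hcpos hic
          rcases (hc ▸ (by split_ifs <;> simp) : c = i ∨ c = 2 * i) with h9 | h9
          · omega
          · omega
        have h6 : 2 * d / c = b := by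
          apply Nat.div_eq_of_lt_le
          · rw [mul_comm, ← hb]; omega
          · rw [add_mul, one_mul, mul_comm b]; exact h5
        rw [h6] at hdc
        omega
      refine ⟨hrp, hr3, him, hkey1, ?_⟩
      by_contra hcon
      push Not at hcon
      obtain ⟨hev, ht⟩ := hcon
      rw [Nat.not_odd_iff_even] at hev
      have hci : c = i := by rw [hc, if_pos hev]
      rw [hci] at hkey1 hdc hmodd
      set n' := 2 * d / i with hn'
      set m' := m / i with hm'
      have hm'1 : 1 ≤ m' := Nat.div_pos him hipos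
      have h2m : 2 * m' ≤ n' := by
        rw [hn', Nat.le_div_iff_mul_le hipos]
        have h1 := Nat.div_mul_le_self m i
        rw [← hm'] at h1
        calc 2 * m' * i = 2 * (m' * i) := by ring
          _ ≤ 2 * m := by omega
          _ ≤ 2 * d := by omega
      obtain ⟨o, ho⟩ : ∃ o, o + 2 * m' = n' + 1 := ⟨n' + 1 - 2 * m', by omega⟩
      have hcf := H99.card_cycFac (F := F) (p := p) hrp
      rw [← hi] at hcf
      have hto : o ≤ (H99.cycFac r F).card := by
        have h1 : (H99.cycFac r F).card = (r - 1) / i := by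
          rw [← hcf, Nat.mul_div_cancel _ hipos]
        rw [h1]
        omega
      obtain ⟨T, hT1, hT2⟩ := Finset.exists_subset_card_eq hto
      have hoi : o * i + 2 * (i * m') = i * n' + i := by
        calc o * i + 2 * (i * m') = (o + 2 * m') * i := by ring
          _ = (n' + 1) * i := by rw [ho]
          _ = i * n' + i := by ring
      have him' : i ≤ i * m' := Nat.le_mul_of_pos_right i hm'1
      obtain ⟨g, k1, k2, k3, k4⟩ := H99.exists_alt_types hr2 hrp (by rw [← hi]; exact hev) T hT1 (Fin d ⊕ Fin d → F) (Cfsg.sympForm d F) hA hND (by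
        rw [hT2, ← hi, hfd]
        omega)
      rw [hT2, ← hi, hfd] at k3
      obtain ⟨x, hx⟩ := H99.exists_symp_of_isometry g k1
      have hxr : x ^ r = 1 := by
        apply Subtype.ext
        rw [H99.symp_coe_pow]
        apply Matrix.toLin'.injective
        rw [Matrix.toLin'_pow, hx, k2]
        exact Matrix.toLin'_one.symm
      have hx1 : x ≠ 1 := by
        rintro rfl
        have h4 : g = 1 := by
          rw [← hx, OneMemClass.coe_one, Matrix.toLin'_one]
          rfl
        rw [h4, sub_self, LinearMap.ker_zero, finrank_top, hfd] at k3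
        have h5 : 0 < o * i := Nat.mul_pos (by omega) hipos
        omega
      obtain ⟨W, g1, g2, g3⟩ := hfix x ⟨1, by rw [hxr, one_smul]; rfl⟩ (H99.symp_not_scalar hd0 hr2 x hxr hx1)
      rw [hx] at g3
      have hsd : H99.SelfDualE p r (RingHom.id F) := H99.SelfDual.toE (N := 1) ⟨0, (pow_zero p).symm⟩ (fun a => (pow_one a).symm) ((H99.selfDual_iff_even hr2 hQ).mpr (by rw [← hi]; exact hev))
      have h1 := H99.le_ker_of_types hrp hA.eform hND hsd k1 k2 (fun Q hQ => (k4 Q hQ).1) (fun v hv => g3 ⟨v, hv, rfl⟩) g2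
      have h2 := hfixbound g k1 k2 W h1 g2
      rw [g1] at h2
      omega
    · rintro (⟨h, -⟩ | ⟨-, -, him, hkey, hcase⟩)
      · exact absurd h hr2
      · intro x ⟨z, hz⟩ hns
        obtain ⟨w, hw, hwr, hwi⟩ := H99.symp_reduce hd0 hr2 x z hz
        have hw0 : w ≠ 0 := by
          rintro rfl
          rw [zero_mul] at hw
          exact one_ne_zero hw.symm
        set y := w • Matrix.toLin' (x : Matrix (Fin d ⊕ Fin d) (Fin d ⊕ Fin d) F) with hy
        obtain ⟨s1, s2, s3, s4, s5⟩ := H99.split_fixed hrp hA.eform hwi hwr (W := ⊤) (fun _ _ => Submodule.mem_top) hND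
        clear s5
        simp only [top_inf_eq] at s1 s2 s3 s4
        have s5 := Submodule.finrank_add_eq_of_isCompl (H99.isCompl_orth hA.eform.oform s1)
        rw [hfd] at s5
        set C := LinearMap.ker (y - 1) with hC
        set M := H99.orth hA.eform.oform C with hM
        have hCM : Disjoint C M := (H99.ND_iff_disjoint hA.eform.oform C).mp s1
        obtain ⟨⟨A, hAc⟩, -⟩ := H99.exists_isoBlocks hr2 hrp hA.eform (N := 1) ⟨0, (pow_zero p).symm⟩ (fun a => (pow_one a).symm) (H99.blk_spec hr2 hQ) hwi hwr _ s2 s3 s4 rfl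
        rw [← hcb] at hAc
        -- the general construction
        have hconstr : ∀ S ≤ M, (∀ v ∈ S, y v ∈ S) → (∀ a ∈ S, ∀ b ∈ S, Cfsg.sympForm d F a b = 0) → ∀ j, j * i ≤ finrank F S → j * i ≤ m → 2 * (m - j * i) ≤ finrank F C →
            ∃ W : Submodule F (Fin d ⊕ Fin d → F), Module.finrank F ↥W = m ∧ (∀ u ∈ W, ∀ v ∈ W, Cfsg.sympForm d F u v = 0) ∧
              W.map (Matrix.toLin' (x : Matrix (Fin d ⊕ Fin d) (Fin d ⊕ Fin d) F)) ≤ W := by
          intro S hSM hSi hSt j hj1 hj2 hj3
          obtain ⟨S', t1, t2, t3⟩ := H99.exists_inv_sub hrp hwr hSi (fun v hv => s4 v (hSM hv)) j (by rw [← hi]; exact hj1)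
          rw [← hi] at t3
          obtain ⟨U, u1, u2, u3⟩ := hA.exists_iso_sub (m - j * i) C s1 hj3
          refine ⟨U ⊔ S', ?_, ?_, H99.map_le_of_smul hw0 ?_⟩
          · have h8 := Submodule.finrank_sup_add_finrank_inf_eq U S'
            rw [disjoint_iff.mp (hCM.mono u1 (t1.trans hSM)), finrank_bot, u3, t3] at h8
            omega
          · apply H99.orth_two hA _ u2 (fun a ha b hb => hSt a (t1 ha) b (t1 hb))
            intro a ha b hb
            exact hA.oform.refl _ _ ((hSM (t1 hb)) a (u1 ha))
          · intro v hv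
            obtain ⟨a, ha, b, hb, rfl⟩ := Submodule.mem_sup.mp hv
            rw [← hy, map_add]
            apply Submodule.add_mem_sup _ (t2 b hb)
            have h5 := u1 ha
            rw [hC, LinearMap.mem_ker, LinearMap.sub_apply, Module.End.one_apply, sub_eq_zero] at h5
            rw [h5]
            exact ha
        rcases Nat.even_or_odd i with hev | hodd
        · -- `i` even
          have hci : c = i := by rw [hc, if_pos hev]
          rw [hci] at hkey hdc hmodd hAc
          have ht := hcase.resolve_left (Nat.not_odd_iff_even.mpr hev)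
          have hsd : H99.SelfDualE p r (RingHom.id F) := H99.SelfDual.toE (N := 1) ⟨0, (pow_zero p).symm⟩ (fun a => (pow_one a).symm) ((H99.selfDual_iff_even hr2 hQ).mpr (by rw [← hi]; exact hev))
          obtain ⟨S, q1, q2, q3, q4⟩ := H99.exists_max_iso hrp hr2 hA.eform hsd hwi hwr _ s2 s3 s4 rfl
          have hSi := H99.dvd_finrank_of_fix hrp hwr q2 (fun v hv => s4 v (q1 hv))
          rw [← hi] at hSi
          obtain ⟨s, hs⟩ := hSi
          have hcf := H99.card_cycFac (F := F) (p := p) hrp
          rw [← hi] at hcf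
          have htt : (r - 1) / i * i = r - 1 := by
            rw [← hcf, Nat.mul_div_cancel _ hipos]
          have hmul : ((r - 1) / i) * i + 2 * (m / i * i) ≤ 2 * d / i * i := by
            have := Nat.mul_le_mul_right i ht
            calc ((r - 1) / i) * i + 2 * (m / i * i) = ((r - 1) / i + 2 * (m / i)) * i := by ring
              _ ≤ _ := this
          rw [mul_comm i] at hmi hdc
          rcases Nat.le_total (m / i) s with h | h
          · apply hconstr S q1 q2 q3 (m / i)
            · rw [hs, mul_comm i]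
              exact Nat.mul_le_mul_right i h
            · omega
            · -- `2 ℓ ≤ k ≤ dim C`
              have h5 : 2 * d % i ≤ finrank F C := by
                rw [← s5, hAc, Nat.add_mul_mod_self_left]
                exact Nat.mod_le _ _
              omega
          · apply hconstr S q1 q2 q3 s
            · rw [hs, mul_comm]
            · have := Nat.mul_le_mul_right i h
              omega
            · rw [mul_comm] at hs
              have := Nat.mul_le_mul_right i h
              omega
        · -- `i` odd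
          have hne : ¬ Even i := Nat.not_even_iff_odd.mpr hodd
          have hci : c = 2 * i := by rw [hc, if_neg hne]
          have hsd : ¬ H99.SelfDual r 1 (Fintype.card F) := by
            rw [H99.selfDual_iff_even hr2 hQ, ← hi]
            exact hne
          obtain ⟨S, q1, q2, q3, q4⟩ := H99.exists_max_iso' hrp hA.eform (N := 1) ⟨0, (pow_zero p).symm⟩ (fun a => (pow_one a).symm) hsd hwi hwr _ s2 s3 s4 rfl
          have hSi := H99.dvd_finrank_of_fix hrp hwr q2 (fun v hv => s4 v (q1 hv))
          rw [← hi] at hSi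
          obtain ⟨s, hs⟩ := hSi
          rw [mul_comm i] at hmi
          rcases Nat.le_total (m / i) s with h | h
          · apply hconstr S q1 q2 q3 (m / i)
            · rw [hs, mul_comm i]
              exact Nat.mul_le_mul_right i h
            · omega
            · have h5 : 2 * d % c ≤ finrank F C := by
                rw [← s5, hAc, Nat.add_mul_mod_self_left]
                exact Nat.mod_le _ _
              omega
          · apply hconstr S q1 q2 q3 s
            · rw [hs, mul_comm]
            · have := Nat.mul_le_mul_right i h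
              omega
            · rw [mul_comm] at hs
              have := Nat.mul_le_mul_right i h
              omega

end Cfsg.Agent.S5955
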