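import Cfsg.Statements.S5956
import Cfsg.Agent.H99.SympInvol
import Cfsg.Agent.H99.SympUnip
import Cfsg.Agent.H99.SympEmbed
import Cfsg.Agent.H99.SympDecomp

set_option autoImplicit false
open scoped MatrixGroups
open Cfsg

namespace Cfsg.Agent.S5956

open Module Matrix Polynomial

section
variable {F : Type*} [Field F] [Fintype F] {p : ℕ} [Fact p.Prime] [CharP F p] {d : ℕ}

lemma sq_scalar (hd : 0 < d) (x : Matrix.symplecticGroup (Fin d) F) (z : F)
    (hz : ((x ^ 2 : Matrix.symplecticGroup (Fin d) F) : Matrix (Fin d ⊕ Fin d) (Fin d ⊕ Fin d) F) = z • (1 : Matrix (Fin d ⊕ Fin d) (Fin d ⊕ Fin d) F)) :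
    z * z = 1 ∧ ∀ v, Matrix.toLin' (x : Matrix (Fin d ⊕ Fin d) (Fin d ⊕ Fin d) F) (Matrix.toLin' (x : Matrix (Fin d ⊕ Fin d) (Fin d ⊕ Fin d) F) v) = z • v := by
  have hA := H99.sympForm_altForm (F := F) d
  have hfi : ∀ u v, Cfsg.sympForm d F (Matrix.toLin' (x : Matrix (Fin d ⊕ Fin d) (Fin d ⊕ Fin d) F) u) (Matrix.toLin' (x : Matrix (Fin d ⊕ Fin d) (Fin d ⊕ Fin d) F) v) = Cfsg.sympForm d F u v := H99.sympForm_toLin' d x.2
  have h1 : ∀ v, Matrix.toLin' (x : Matrix (Fin d ⊕ Fin d) (Fin d ⊕ Fin d) F) (Matrix.toLin' (x : Matrix (Fin d ⊕ Fin d) (Fin d ⊕ Fin d) F) v) = z • v := by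
    intro v
    have h2 : (x : Matrix (Fin d ⊕ Fin d) (Fin d ⊕ Fin d) F) * (x : Matrix (Fin d ⊕ Fin d) (Fin d ⊕ Fin d) F) = z • (1 : Matrix (Fin d ⊕ Fin d) (Fin d ⊕ Fin d) F) := by
      rw [← hz, pow_two]
      rfl
    rw [← LinearMap.comp_apply, ← Matrix.toLin'_mul, h2]
    simp
  refine ⟨?_, h1⟩
  obtain ⟨u, v, huv⟩ := H99.exists_symp_ne_zero (F := F) hd
  have h2 := hfi (Matrix.toLin' (x : Matrix (Fin d ⊕ Fin d) (Fin d ⊕ Fin d) F) u) (Matrix.toLin' (x : Matrix (Fin d ⊕ Fin d) (Fin d ⊕ Fin d) F) v)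
  rw [h1, h1, hA.smul_left, hA.smul_right, hfi, ← mul_assoc] at h2
  have h3 : (z * z - 1) * Cfsg.sympForm d F u v = 0 := by linear_combination h2
  exact sub_eq_zero.mp ((mul_eq_zero.mp h3).resolve_right huv)

lemma even_mod {a c : ℕ} (ha : Even a) (hc : Even c) : Even (a % c) := by
  obtain ⟨m, rfl⟩ := ha
  obtain ⟨k, rfl⟩ := hc
  rw [← two_mul, ← two_mul, Nat.mul_mod_mul_left]
  exact even_two_mul _

end


/-- Elements of prime order of PSp_n(q) with no fixed nondegenerate `m`-space. Here `T = PSp_n(q)` with `n = 2d ≥ 4`, `(n, q) ≠ (4, 2)`, realised through the symplectic matrices over the field `F` with `q` elements (preserving the standard alternating form); an element of `T` of prime order `r` is such a matrix `x` with `x^r` scalar and `x` not scalar. For `r ≠ p` let `i` be the multiplicative order of `q` modulo `r`, `c = i` for `i` even and `c = 2i` for `i` odd, and write `k = n mod c`, `ℓ = m mod i`, `ℓ' = m mod c`, `n' = ⌊n/i⌋`, `m' = ⌊m/i⌋`, `t = (r−1)/i`. Let `m` be even with `2 ≤ m < n/2`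 and let `r` be a prime dividing the number of nondegenerate `m`-spaces. Then every element of `T` of order `r` fixes a nondegenerate `m`-space if and only if one of: (i) `r = p > 2` and every partition of `n` into parts of size at most `p` in which every odd part has even multiplicity contains (as a sub-multiset) a partition of `m` in which every odd part has even multiplicity; (ii) `r = p = 2` and (`n ≡ 2 (mod 4)` or `m ≡ 0 (mod 4)`); (iii) `r = 2 ≠ p`; (iv) `r ≠ p`, `r > 2`, `c ≤ m` and `k ≥ ℓ'`. -/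
theorem result {F : Type*} [Field F] [Fintype F] {p : ℕ} [Fact p.Prime] [CharP F p] {q : ℕ} (hq : Fintype.card F = q)
    (d m : ℕ) (hd : 2 ≤ d) (hT : (d, q) ≠ (2, 2)) (hm : 2 ≤ m) (hme : Even m) (hmd : m < d)
    (r : ℕ) [Fact r.Prime]
    (hrΩ : r ∣ Nat.card {W : Submodule F (Fin d ⊕ Fin d → F) // Module.finrank F ↥W = m ∧ (∀ u ∈ W, u ≠ 0 → ∃ v ∈ W, Cfsg.sympForm d F u v ≠ 0)})
    (i c : ℕ) (hi : i = orderOf (q : ZMod r)) (hc : c = if Even i then i else 2 * i) :
    (∀ x : ↥(Matrix.symplecticGroup (Fin d) F),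
      (∃ z : F, ((x ^ r : ↥(Matrix.symplecticGroup (Fin d) F)) : Matrix (Fin d ⊕ Fin d) (Fin d ⊕ Fin d) F) = z • (1 : Matrix (Fin d ⊕ Fin d) (Fin d ⊕ Fin d) F)) →
      (∀ z : F, (x : Matrix (Fin d ⊕ Fin d) (Fin d ⊕ Fin d) F) ≠ z • (1 : Matrix (Fin d ⊕ Fin d) (Fin d ⊕ Fin d) F)) →
      ∃ W : Submodule F (Fin d ⊕ Fin d → F), Module.finrank F ↥W = m ∧ (∀ u ∈ W, u ≠ 0 → ∃ v ∈ W, Cfsg.sympForm d F u v ≠ 0) ∧
        W.map (Matrix.toLin' (x : Matrix (Fin d ⊕ Fin d) (Fin d ⊕ Fin d) F)) ≤ W) ↔
    ((r = p ∧ 2 < p ∧ (∀ μ : Multiset ℕ, (∀ a ∈ μ, 0 < a ∧ a ≤ p) → (∀ a : ℕ, Odd a → Even (μ.count a)) → μ.sum = 2 * d →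
        ∃ ν : Multiset ℕ, ν ≤ μ ∧ ν.sum = m ∧ ∀ a : ℕ, Odd a → Even (ν.count a))) ∨
     (r = p ∧ p = 2 ∧ ((2 * d) % 4 = 2 ∨ m % 4 = 0)) ∨
     (r = 2 ∧ p ≠ 2) ∨
     (r ≠ p ∧ 2 < r ∧ c ≤ m ∧ m % c ≤ (2 * d) % c)) := by
  classical
  subst hq
  have hr : r.Prime := Fact.out
  have hp : p.Prime := Fact.out
  have hd0 : 0 < d := by omega
  have hA := H99.sympForm_altForm (F := F) d
  have hND := H99.sympForm_ND (F := F) d
  have hfi : ∀ (x : Matrix.symplecticGroup (Fin d) F) u v, Cfsg.sympForm d F (Matrix.toLin' (x : Matrix (Fin d ⊕ Fin d) (Fin d ⊕ Fin d) F) u) (Matrix.toLin' (x : Matrix (Fin d ⊕ Fin d) (Fin d ⊕ Fin d) F) v) = Cfsg.sympForm d F u v := fun x => H99.sympForm_toLin' d x.2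
  by_cases hrp : r = p
  · subst hrp
    by_cases hr2 : r = 2
    · -- characteristic two
      subst hr2
      constructor
      · intro hfix
        right; left
        refine ⟨rfl, rfl, ?_⟩
        by_contra hcon
        push Not at hcon
        obtain ⟨h1, h2⟩ := hcon
        obtain ⟨x, k1, k2, k3⟩ := H99.exists_invol_alt (F := F) (d := d) (by rw [Nat.even_iff]; omega)
        obtain ⟨W, g1, g2, g3⟩ := hfix x ⟨1, by
          have h4 : (x : Matrix (Fin d ⊕ Fin d) (Fin d ⊕ Fin d) F) * (x : Matrix (Fin d ⊕ Fin d) (Fin d ⊕ Fin d) F) = 1 := by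
            apply Matrix.toLin'.injective
            apply LinearMap.ext
            intro v
            have h5 := k1 v
            simp only [LinearMap.sub_apply, Module.End.one_apply, map_sub] at h5
            rw [Matrix.toLin'_mul, LinearMap.comp_apply, Matrix.toLin'_one, LinearMap.id_apply]
            have h6 : Matrix.toLin' (x : Matrix (Fin d ⊕ Fin d) (Fin d ⊕ Fin d) F) (Matrix.toLin' (x : Matrix (Fin d ⊕ Fin d) (Fin d ⊕ Fin d) F) v) = v + ((2 : F) • (Matrix.toLin' (x : Matrix (Fin d ⊕ Fin d) (Fin d ⊕ Fin d) F) v) - (2 : F) • v) := by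
              rw [two_smul, two_smul]
              rw [← sub_eq_zero]
              rw [← h5]
              abel
            rw [h6, CharTwo.two_eq_zero, zero_smul, zero_smul, sub_zero, add_zero]
          rw [one_smul, pow_two, ← h4]
          rfl⟩ (by
          intro z hz
          have h5 : Matrix.toLin' (x : Matrix (Fin d ⊕ Fin d) (Fin d ⊕ Fin d) F) - 1 = (z - 1) • (1 : (Fin d ⊕ Fin d → F) →ₗ[F] (Fin d ⊕ Fin d → F)) := by
            apply LinearMap.ext
            intro v
            rw [hz, map_smul, Matrix.toLin'_one, LinearMap.sub_apply, LinearMap.smul_apply, LinearMap.smul_apply, LinearMap.id_apply, Module.End.one_apply, sub_smul, one_smul]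
          rw [h5] at k3
          by_cases hz1 : z - 1 = 0
          · rw [hz1, zero_smul, LinearMap.ker_zero, finrank_top, H99.finrank_symp] at k3
            omega
          · rw [LinearMap.ker_smul _ _ hz1] at k3
            have h6 : LinearMap.ker (1 : (Fin d ⊕ Fin d → F) →ₗ[F] (Fin d ⊕ Fin d → F)) = ⊥ := LinearMap.ker_id
            rw [h6, finrank_bot] at k3
            omega)
        rw [H99.ND_iff] at g2
        have h3 := H99.dvd_four_of_inv hA hND (hfi x) k1 k2 (by rw [k3, H99.finrank_symp]) (fun v hv => g3 ⟨v, hv, rfl⟩) g2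
        rw [g1] at h3
        exact h2 h3
      · rintro (⟨-, h, -⟩ | ⟨-, -, h⟩ | ⟨-, h⟩ | ⟨h, -⟩)
        · omega
        · intro x ⟨z, hz⟩ hns
          obtain ⟨h1, h2⟩ := sq_scalar hd0 x z hz
          have hz1 : z = 1 := by
            have h3 : (z - 1) * (z - 1) = 0 := by
              have : (z - 1) * (z - 1) = z * z - 2 * z + 1 := by ring
              rw [this, h1, CharTwo.two_eq_zero, zero_mul, sub_zero, ← two_mul, CharTwo.two_eq_zero, zero_mul]
            exact sub_eq_zero.mp (mul_self_eq_zero.mp h3)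
          subst hz1
          obtain ⟨U, -, g1, g2, g3⟩ := H99.exists_inv_char_two hA hND (hfi x) (fun v => by rw [h2, one_smul]) (2 * d) ⊤ (fun _ _ => Submodule.mem_top) hND
            (by rw [finrank_top, H99.finrank_symp]) m hme (by omega) (by tauto)
          refine ⟨U, g3, H99.ND_iff.mpr g2, ?_⟩
          rintro _ ⟨v, hv, rfl⟩
          exact g1 v hv
        · exact absurd rfl h
        · exact absurd rfl h
    · -- odd characteristic, `r = p`
      have hr3 : 2 < r := by
        have := hr.two_le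
        omega
      have h2F : (2 : F) ≠ 0 := by
        intro h
        have h1 : ((2 : ℕ) : F) = 0 := by exact_mod_cast h
        rw [CharP.cast_eq_zero_iff F r] at h1
        exact absurd (Nat.le_of_dvd (by norm_num) h1) (by omega)
      have hpw : ∀ y : (Fin d ⊕ Fin d → F) →ₗ[F] (Fin d ⊕ Fin d → F), (y - 1) ^ r = y ^ r - 1 := by
        intro y
        have : CharP ((Fin d ⊕ Fin d → F) →ₗ[F] (Fin d ⊕ Fin d → F)) r := by
          have : Nontrivial (Fin d ⊕ Fin d → F) := by
            have : Nonempty (Fin d ⊕ Fin d) := ⟨Sum.inl ⟨0, hd0⟩⟩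
            infer_instance
          exact charP_of_injective_algebraMap (algebraMap F ((Fin d ⊕ Fin d → F) →ₗ[F] (Fin d ⊕ Fin d → F))).injective r
        rw [sub_pow_char_of_commute r (Commute.one_right y), one_pow]
      constructor
      · intro hfix
        left
        refine ⟨rfl, hr3, ?_⟩
        intro μ hμ1 hμ2 hμ3
        by_cases hall : ∀ a ∈ μ, a = 1
        · refine ⟨Multiset.replicate m 1, ?_, by rw [Multiset.sum_replicate, smul_eq_mul, mul_one], ?_⟩
          · rw [← Multiset.le_count_iff_replicate_le]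
            have h1 := Multiset.eq_replicate_of_mem hall
            rw [h1, Multiset.sum_replicate, smul_eq_mul, mul_one] at hμ3
            rw [h1, Multiset.count_replicate_self, hμ3]
            omega
          · intro a _
            rw [Multiset.count_replicate]
            split_ifs
            · exact hme
            · exact Even.zero
        · push Not at hall
          obtain ⟨a, ha, ha1⟩ := hall
          obtain ⟨x, k1, k2⟩ := H99.exists_symp_jordan (d := d) h2F μ (fun a ha => (hμ1 a ha).1) hμ2 hμ3 (P := r) (fun a ha => (hμ1 a ha).2)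
          have hxr : x ^ r = 1 := by
            apply Subtype.ext
            apply Matrix.toLin'.injective
            rw [hpw] at k1
            have h3 : Matrix.toLin' ((x ^ r : Matrix.symplecticGroup (Fin d) F) : Matrix (Fin d ⊕ Fin d) (Fin d ⊕ Fin d) F) = (Matrix.toLin' (x : Matrix (Fin d ⊕ Fin d) (Fin d ⊕ Fin d) F)) ^ r := by
              rw [← Matrix.toLin'_pow]
              rfl
            rw [h3, sub_eq_zero.mp k1]
            exact Matrix.toLin'_one.symm
          have hx1 : x ≠ 1 := by
            rintro rfl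
            have h3 := k2.2 1
            have h4 : (Matrix.toLin' ((1 : Matrix.symplecticGroup (Fin d) F) : Matrix (Fin d ⊕ Fin d) (Fin d ⊕ Fin d) F) - 1 : (Fin d ⊕ Fin d → F) →ₗ[F] (Fin d ⊕ Fin d → F)) = 0 := by
              rw [OneMemClass.coe_one, Matrix.toLin'_one]
              exact sub_self _
            rw [h4, pow_one, Submodule.map_zero, finrank_bot] at h3
            have h5 := Multiset.sum_eq_zero_iff.mp h3.symm (a - 1) (Multiset.mem_map_of_mem _ ha)
            have := (hμ1 a ha).1
            omega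
          obtain ⟨W, g1, g2, g3⟩ := hfix x ⟨1, by rw [hxr, one_smul]; rfl⟩ (H99.symp_not_scalar hd0 hr2 x hxr hx1)
          rw [H99.ND_iff] at g2
          set y := Matrix.toLin' (x : Matrix (Fin d ⊕ Fin d) (Fin d ⊕ Fin d) F) with hy
          have hWi : ∀ v ∈ W, y v ∈ W := fun v hv => g3 ⟨v, hv, rfl⟩
          have hinj := H99.isom_injective hA.oform hND y (hfi x)
          have hWi' := H99.orth_inv_of_isom hA.oform hinj (hfi x) hWi
          have h1 := H99.split_ND_compl hA.oform hND g2 le_top
          have h2 := H99.split_disjoint hA.oform g2 (W := ⊤)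
          have h3 := H99.split_ND hA.oform g2 (le_top : W ≤ ⊤)
          rw [top_inf_eq] at h1 h2 h3
          obtain ⟨μ₁, -, s1, s2, -⟩ := H99.symp_unip_decomp h2F hA hND (hfi x) hWi g2 k1
          obtain ⟨μ₂, -, t1, t2, -⟩ := H99.symp_unip_decomp h2F hA hND (hfi x) hWi' h1 k1
          have h4 := H99.JT.add (fun v hv => W.sub_mem (hWi v hv) hv) (fun v hv => Submodule.sub_mem _ (hWi' v hv) hv) h2 s2 t2
          rw [h3] at h4
          have h5 := k2.unique h4
          refine ⟨μ₁, ?_, ?_, s1⟩
          · rw [h5]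
            exact Multiset.le_add_right _ _
          · rw [← s2.finrank_eq, g1]
      · rintro (⟨-, -, h⟩ | ⟨-, h, -⟩ | ⟨h, -⟩ | ⟨h, -⟩)
        · intro x ⟨z, hz⟩ hns
          obtain ⟨w, hw, hwr, hwi⟩ := H99.symp_reduce hd0 hr2 x z hz
          have hw0 : w ≠ 0 := by
            rintro rfl
            rw [zero_mul] at hw
            exact one_ne_zero hw.symm
          set y := w • Matrix.toLin' (x : Matrix (Fin d ⊕ Fin d) (Fin d ⊕ Fin d) F) with hy
          obtain ⟨μ, k1, k2, k3, k4⟩ := H99.symp_unip_decomp h2F hA hND hwi (W := ⊤) (fun _ _ => Submodule.mem_top) hND (P := r) (by rw [hpw, hwr, sub_self])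
          obtain ⟨ν, n1, n2, n3⟩ := h μ (fun a ha => ⟨k3.1 a ha, k1 a ha⟩) k2 (by rw [← k3.finrank_eq, finrank_top, H99.finrank_symp])
          obtain ⟨U, -, g1, g2, g3⟩ := k4 ν n1 n3
          exact ⟨U, by rw [g3.finrank_eq, n2], H99.ND_iff.mpr g2, H99.map_le_of_smul hw0 g1⟩
        · omega
        · exact absurd h hr2
        · exact absurd rfl h
  · by_cases hr2 : r = 2
    · -- `r = 2 ≠ p`
      subst hr2
      have hp2 : p ≠ 2 := fun h => hrp h.symm
      constructor
      · intro _
        right; right; left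
        exact ⟨rfl, hp2⟩
      · intro _ x ⟨z, hz⟩ hns
        obtain ⟨h1, h2⟩ := sq_scalar hd0 x z hz
        have h2F : (2 : F) ≠ 0 := by
          intro h
          have h3 : ((2 : ℕ) : F) = 0 := by exact_mod_cast h
          rw [CharP.cast_eq_zero_iff F p] at h3
          have := Nat.le_of_dvd (by norm_num) h3
          have := hp.two_le
          omega
        obtain ⟨e, he⟩ := hme
        obtain ⟨U, -, g1, g2, g3⟩ := H99.exists_inv_of_planes hA hND (hfi x) (by
          intro W hW hWN hW0
          rcases mul_self_eq_one_iff.mp h1 with rfl | rfl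
          · exact H99.exists_plane_pos hA hND h2F (hfi x) (fun v => by rw [h2, one_smul]) hW hWN hW0
          · exact H99.exists_plane_neg hA hND h2F (hfi x) (fun v => by rw [h2, neg_one_smul]) hW hWN hW0) e ⊤ (fun _ _ => Submodule.mem_top) hND
          (by rw [finrank_top, H99.finrank_symp]; omega)
        refine ⟨U, by omega, H99.ND_iff.mpr g2, ?_⟩
        rintro _ ⟨v, hv, rfl⟩
        exact g1 v hv
    · -- `r` odd, different from `p`
      have hr3 : 2 < r := by
        have := hr.two_le
        omega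
      have hcb : c = H99.blk r (Fintype.card F) := by rw [hc, hi]; rfl
      have hQ : ¬ r ∣ Fintype.card F := H99.prime_not_dvd_card hrp
      have hipos : 0 < i := by rw [hi]; exact H99.orderOf_pos_of_not_dvd hQ
      have hcpos : 0 < c := by
        rw [hc]
        split_ifs <;> omega
      have hce : Even c := by rw [hcb]; exact H99.even_blk r _
      obtain ⟨e, he⟩ := hme
      -- the dimension formula
      have hdim : ∀ (y : (Fin d ⊕ Fin d → F) →ₗ[F] (Fin d ⊕ Fin d → F)), (∀ u v, Cfsg.sympForm d F (y u) (y v) = Cfsg.sympForm d F u v) → y ^ r = 1 →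
          ∀ W : Submodule F (Fin d ⊕ Fin d → F), (∀ v ∈ W, y v ∈ W) → H99.ND (Cfsg.sympForm d F) W →
          ∃ j, finrank F (W ⊓ LinearMap.ker (y - 1) : Submodule F (Fin d ⊕ Fin d → F)) + j * c = finrank F W := by
        intro y hy hyr W hW hWN
        obtain ⟨s1, s2, s3, s4, s5⟩ := H99.split_fixed hrp hA.eform hy hyr hW hWN
        obtain ⟨⟨j, hj⟩, -⟩ := H99.exists_isoBlocks hr2 hrp hA.eform (N := 1) ⟨0, (pow_zero p).symm⟩ (fun a => (pow_one a).symm) (H99.blk_spec hr2 hQ) hy hyr _ s2 s3 s4 rfl
        refine ⟨j, ?_⟩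
        rw [hj, ← hcb] at s5
        rw [mul_comm j]
        exact s5
      constructor
      · intro hfix
        right; right; right
        refine ⟨hrp, hr3, ?_⟩
        -- an element with the maximal number of blocks
        obtain ⟨j, hj1, hj2, hj3⟩ := H99.dvd_of_dvd_ND_card (F := F) (d := d) hrp (e := e) (by omega) (by rw [show 2 * e = m by omega]; exact hrΩ)
        rw [← hi] at hj3
        have hcj : c ∣ 2 * j := by
          rw [hc]
          split_ifs with hie
          · exact hj3
          · apply Nat.mul_dvd_mul_left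
            exact (Nat.Coprime.dvd_mul_left (Nat.Coprime.symm (Nat.coprime_two_left.mpr (Nat.not_even_iff_odd.mp hie)))).mp hj3
        have hcle : c ≤ 2 * j := Nat.le_of_dvd (by omega) hcj
        obtain ⟨x, hx1, hx2⟩ := H99.exists_symp_elt (F := F) (p := p) hr2 hrp (d := d) (2 * d / c) (by rw [← hcb]; exact Nat.div_mul_le_self _ _)
        rw [← hcb] at hx2
        have hK : 0 < 2 * d / c := Nat.div_pos (by omega) hcpos
        have hx1' : x ≠ 1 := by
          rintro rfl
          have h4 : (Matrix.toLin' ((1 : Matrix.symplecticGroup (Fin d) F) : Matrix (Fin d ⊕ Fin d) (Fin d ⊕ Fin d) F) - 1 : (Fin d ⊕ Fin d → F) →ₗ[F] (Fin d ⊕ Fin d → F)) = 0 := by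
            rw [OneMemClass.coe_one, Matrix.toLin'_one]
            exact sub_self _
          rw [h4, LinearMap.ker_zero, finrank_top, H99.finrank_symp] at hx2
          have := Nat.mul_pos hK hcpos
          omega
        obtain ⟨W, g1, g2, g3⟩ := hfix x ⟨1, by rw [hx1, one_smul]; rfl⟩ (H99.symp_not_scalar hd0 hr2 x hx1 hx1')
        rw [H99.ND_iff] at g2
        have hyr : (Matrix.toLin' (x : Matrix (Fin d ⊕ Fin d) (Fin d ⊕ Fin d) F)) ^ r = 1 := by
          rw [← Matrix.toLin'_pow]
          have h3 : (x : Matrix (Fin d ⊕ Fin d) (Fin d ⊕ Fin d) F) ^ r = 1 := congrArg Subtype.val hx1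
          rw [h3]
          exact Matrix.toLin'_one
        obtain ⟨j', hj'⟩ := hdim _ (hfi x) hyr W (fun v hv => g3 ⟨v, hv, rfl⟩) g2
        have h1 := Submodule.finrank_mono (inf_le_right : W ⊓ LinearMap.ker (Matrix.toLin' (x : Matrix (Fin d ⊕ Fin d) (Fin d ⊕ Fin d) F) - 1) ≤ LinearMap.ker (Matrix.toLin' (x : Matrix (Fin d ⊕ Fin d) (Fin d ⊕ Fin d) F) - 1))
        have h2 := Nat.mod_add_div (2 * d) c
        have h3 : finrank F (LinearMap.ker (Matrix.toLin' (x : Matrix (Fin d ⊕ Fin d) (Fin d ⊕ Fin d) F) - 1)) = 2 * d % c := by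
          rw [mul_comm c] at h2
          omega
        rw [g1] at hj'
        rw [h3] at h1
        set f := finrank F (W ⊓ LinearMap.ker (Matrix.toLin' (x : Matrix (Fin d ⊕ Fin d) (Fin d ⊕ Fin d) F) - 1) : Submodule F (Fin d ⊕ Fin d → F)) with hf
        have hlt : 2 * d % c < c := Nat.mod_lt _ hcpos
        have hmod : m % c = f := by
          rw [← hj', Nat.add_mul_mod_self_right, Nat.mod_eq_of_lt (by omega)]
        refine ⟨?_, by rw [hmod]; exact h1⟩
        by_contra hcm
        push Not at hcm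
        rw [Nat.mod_eq_of_lt hcm] at hmod
        -- `2 d - m` and `2 d` have the same quotient
        obtain ⟨b, hb⟩ := hcj
        have h5 : 2 * d < c * b + c := by
          by_contra h6
          push Not at h6
          -- then `2 d - m < 2 j = c b <= 2 d - c`
          omega
        have h6 : 2 * d / c = b := by
          apply Nat.div_eq_of_lt_le
          · rw [mul_comm, ← hb]; omega
          · rw [add_mul, one_mul, mul_comm b]; exact h5
        rw [h6] at h2
        omega
      · rintro (⟨h, -⟩ | ⟨h, -⟩ | ⟨h, -⟩ | ⟨-, -, h1, h2⟩)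
        · exact absurd h hrp
        · exact absurd h hrp
        · exact absurd h hr2
        · intro x ⟨z, hz⟩ hns
          obtain ⟨w, hw, hwr, hwi⟩ := H99.symp_reduce hd0 hr2 x z hz
          have hw0 : w ≠ 0 := by
            rintro rfl
            rw [zero_mul] at hw
            exact one_ne_zero hw.symm
          set y := w • Matrix.toLin' (x : Matrix (Fin d ⊕ Fin d) (Fin d ⊕ Fin d) F) with hy
          obtain ⟨k, hk⟩ := hdim y hwi hwr ⊤ (fun _ _ => Submodule.mem_top) hND
          rw [finrank_top, H99.finrank_symp] at hk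
          have hm1 := Nat.mod_add_div m c
          have h2d := Nat.mod_add_div (2 * d) c
          have hkle : k ≤ 2 * d / c := by
            rw [Nat.le_div_iff_mul_le hcpos]
            omega
          rcases Nat.le_total (m / c) k with hkm | hkm
          · -- `m / c` blocks and a fixed space of dimension `m % c`
            obtain ⟨e', he'⟩ := even_mod (⟨e, he⟩ : Even m) hce
            have h3 : 2 * d % c + (2 * d / c - k) * c = finrank F ((⊤ : Submodule F (Fin d ⊕ Fin d → F)) ⊓ LinearMap.ker (y - 1) : Submodule F (Fin d ⊕ Fin d → F)) := by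
              rw [Nat.sub_mul, mul_comm (2 * d / c)]
              have := Nat.mul_le_mul_right c hkle
              rw [mul_comm (2 * d / c)] at this
              omega
            obtain ⟨U, -, g1, g2, g3, -, -⟩ := H99.exists_inv_ND hr2 hrp hA hwi hwr (fun _ _ => Submodule.mem_top) hND (m / c) e' (by
              rw [← hcb, finrank_top, H99.finrank_symp, ← hk]
              have := Nat.mul_le_mul_right c hkm
              omega) (by rw [← h3]; omega)
            rw [← hcb] at g3
            refine ⟨U, by rw [g3, mul_comm]; omega, H99.ND_iff.mpr g2, H99.map_le_of_smul hw0 g1⟩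
          · -- all blocks
            have h3 := Nat.mul_le_mul_right c hkm
            rw [mul_comm (m / c)] at h3
            have hev : Even (m - k * c) := by
              rw [Nat.even_sub (by omega)]
              exact ⟨fun _ => hce.mul_left k, fun _ => ⟨e, he⟩⟩
            obtain ⟨e', he'⟩ := hev
            obtain ⟨U, -, g1, g2, g3, -, -⟩ := H99.exists_inv_ND hr2 hrp hA hwi hwr (fun _ _ => Submodule.mem_top) hND k e' (by
              rw [← hcb, finrank_top, H99.finrank_symp, ← hk]) (by omega)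
            rw [← hcb] at g3
            refine ⟨U, by rw [g3]; omega, H99.ND_iff.mpr g2, H99.map_le_of_smul hw0 g1⟩


end Cfsg.Agent.S5956
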