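import Cfsg.Statements.S5958
import Cfsg.Agent.H99.ImprimLin
import Cfsg.Agent.H99.DecompCount
import Cfsg.Agent.H99.PermDecomp2
import Cfsg.Agent.H99.OrderEq
import Cfsg.Agent.H99.SubCount

set_option autoImplicit false
open scoped MatrixGroups
open Cfsg

namespace Cfsg.Agent.S5958

open Polynomial Module

section
variable {F : Type*} [Field F] {n a t : ℕ}

lemma toLin_injective (x : Matrix.SpecialLinearGroup (Fin n) F) :
    Function.Injective (Matrix.toLin' (x : Matrix (Fin n) (Fin n) F)) := by
  intro u v huv
  rw [Matrix.toLin'_apply, Matrix.toLin'_apply] at huv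
  have h1 := congrArg (fun w => ((x⁻¹ : Matrix.SpecialLinearGroup (Fin n) F) : Matrix (Fin n) (Fin n) F).mulVec w) huv
  simp only [Matrix.mulVec_mulVec, ← Matrix.SpecialLinearGroup.coe_mul, inv_mul_cancel, Matrix.SpecialLinearGroup.coe_one,
    Matrix.one_mulVec] at h1
  exact h1

/-- existence of a decomposition -/
lemma decomp_nonempty (hn : n = a * t) (ht : 2 ≤ t) (ha : 1 ≤ a) :
    Nonempty {D : Fin t → Submodule F (Fin n → F) // Cfsg.Geo.IsMDecomposition a D} := by
  let ε : Fin n ≃ Fin a × Fin t := (finCongr hn).trans finProdFinEquiv.symm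
  obtain ⟨D, hD, -⟩ := H99.exists_decomp_of_label (a := a) (t := t) (Pi.basisFun F (Fin n)) LinearMap.id
    Function.injective_id id (fun x => ⟨1, by simp⟩) (fun x => (ε x).2) 1 (fun x => rfl) (by
      intro j
      have e1 : {x // (ε x).2 = j} ≃ Fin a :=
      { toFun := fun x => (ε x.1).1
        invFun := fun s => ⟨ε.symm (s, j), by simp⟩
        left_inv := fun x => by
          apply Subtype.ext
          apply ε.injective
          rw [Equiv.apply_symm_apply]
          exact Prod.ext rfl x.2.symm
        right_inv := fun s => by simp }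
      rw [Nat.card_congr e1, Nat.card_eq_fintype_card, Fintype.card_fin]) ht ha
  exact ⟨⟨D, hD⟩⟩

/-- from the divisibility of the number of decompositions -/
lemma order_le [Fintype F] {p : ℕ} [Fact p.Prime] [CharP F p] (hn : n = a * t) (ht : 2 ≤ t) (ha : 1 ≤ a) (r : ℕ)
    [Fact r.Prime] (hrp : r ≠ p)
    (hΩ : r ∣ Nat.card {D : Fin t → Submodule F (Fin n → F) // Cfsg.Geo.IsMDecomposition a D} / Nat.factorial t) :
    orderOf ((Fintype.card F : ℕ) : ZMod r) ≤ n := by
  have hr : r.Prime := Fact.out
  have hq1 : 1 < Fintype.card F := Fintype.one_lt_card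
  have h1 := H99.factorial_dvd_card (F := F) (n := n) (a := a) (t := t)
  have h2 : r ∣ Nat.card {D : Fin t → Submodule F (Fin n → F) // Cfsg.Geo.IsMDecomposition a D} :=
    hΩ.trans (Nat.div_dvd_of_dvd h1)
  have hne := decomp_nonempty (F := F) hn ht ha
  have h3 : Nat.card {D : Fin t → Submodule F (Fin n → F) // Cfsg.Geo.IsMDecomposition a D} ≠ 0 := Nat.card_pos.ne'
  have h4 := (H99.card_decomp_dvd (F := F) (n := n) (a := a) (t := t)).resolve_left h3
  have h5 : r ∣ Nat.card (GL (Fin n) F) := by
    refine (h2.trans h4).trans (dvd_of_eq ?_)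
    have e1 : ((Fin n → F) ≃ₗ[F] (Fin n → F)) ≃ GL (Fin n) F :=
      ((LinearMap.GeneralLinearGroup.generalLinearEquiv F (Fin n → F)).symm.trans Matrix.GeneralLinearGroup.toLin.symm).toEquiv
    exact Nat.card_congr e1
  rw [Matrix.card_GL_field] at h5
  obtain ⟨j, -, hj⟩ := (Nat.Prime.prime hr).exists_mem_finset_dvd h5
  have h6 : Fintype.card F ^ n - Fintype.card F ^ (j : ℕ) = Fintype.card F ^ (j : ℕ) * (Fintype.card F ^ (n - j) - 1) := by
    rw [Nat.mul_sub, mul_one, ← pow_add]
    congr 2
    have := j.2
    omega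
  rw [h6] at hj
  rcases hr.dvd_mul.mp hj with h | h
  · exact absurd (hr.dvd_of_dvd_pow h) (H99.prime_not_dvd_card hrp)
  · rw [H99.dvd_pow_sub_one_iff (by omega)] at h
    have := Nat.le_of_dvd (by have := j.2; omega) h
    omega

/-- case `X ^ r - z` irreducible -/
theorem decomp_of_nonpower (hn : n = a * t) (ht : 2 ≤ t) (ha : 1 ≤ a) {r k : ℕ} [Fact r.Prime] {z : F}
    (f : (Fin n → F) →ₗ[F] (Fin n → F)) (hf : Function.Injective f) (D : H99.CycDecomp f (fun _ : Fin k => X ^ r - C z)) :
    ∃ D : Fin t → Submodule F (Fin n → F), Cfsg.Geo.IsMDecomposition a D ∧ ∃ σ : Equiv.Perm (Fin t), ∀ j, (D j).map f = D (σ j) := by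
  have hr : r.Prime := Fact.out
  have : NeZero r := ⟨hr.ne_zero⟩
  obtain ⟨b, hb⟩ := H99.exists_monomial_basis_r D
  have hk : k * r = a * t := by
    have h1 := finrank_eq_card_basis b
    rw [Fintype.card_prod, Fintype.card_fin, Fintype.card_fin] at h1
    simp only [finrank_fintype_fun_eq_card, Fintype.card_fin] at h1
    omega
  have hrat : r ∣ a * t := ⟨k, by rw [← hk, mul_comm]⟩
  rcases hr.dvd_mul.mp hrat with ⟨a', rfl⟩ | ⟨t', rfl⟩
  · have hk' : k = a' * t := by
      have h1 : k * r = a' * t * r := by rw [hk]; ring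
      exact Nat.eq_of_mul_eq_mul_right hr.pos h1
    let ε : Fin k ≃ Fin a' × Fin t := (finCongr hk').trans finProdFinEquiv.symm
    obtain ⟨D, hD, h2⟩ := H99.exists_decomp_of_label b f hf (fun x => (x.1, x.2 + 1)) hb (fun x => (ε x.1).2) 1
      (fun x => rfl) (by
        intro j
        have e1 : {x : Fin k × Fin r // (ε x.1).2 = j} ≃ Fin r × Fin a' :=
        { toFun := fun x => (x.1.2, (ε x.1.1).1)
          invFun := fun s => ⟨(ε.symm (s.2, j), s.1), by simp⟩
          left_inv := fun x => by
            apply Subtype.ext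
            apply Prod.ext
            · apply ε.injective
              change ε (ε.symm _) = _
              rw [Equiv.apply_symm_apply]
              exact Prod.ext rfl x.2.symm
            · rfl
          right_inv := fun s => by simp }
        rw [Nat.card_congr e1, Nat.card_eq_fintype_card, Fintype.card_prod, Fintype.card_fin, Fintype.card_fin]) ht ha
    exact ⟨D, hD, 1, h2⟩
  · have hk' : k = a * t' := by
      have h1 : k * r = a * t' * r := by rw [hk]; ring
      exact Nat.eq_of_mul_eq_mul_right hr.pos h1
    let ε : Fin k ≃ Fin a × Fin t' := (finCongr hk').trans finProdFinEquiv.symm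
    let E : Fin r × Fin t' ≃ Fin (r * t') := finProdFinEquiv
    let ρ : Equiv.Perm (Fin (r * t')) := E.symm.trans ((Equiv.prodCongr (Equiv.addRight (1 : Fin r)) (Equiv.refl (Fin t'))).trans E)
    obtain ⟨D, hD, h2⟩ := H99.exists_decomp_of_label b f hf (fun x => (x.1, x.2 + 1)) hb (fun x => E (x.2, (ε x.1).2)) ρ
      (fun x => by simp [ρ]) (by
        intro j
        have e1 : {x : Fin k × Fin r // E (x.2, (ε x.1).2) = j} ≃ Fin a :=
        { toFun := fun x => (ε x.1.1).1
          invFun := fun s => ⟨(ε.symm (s, (E.symm j).2), (E.symm j).1), by simp⟩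
          left_inv := fun x => by
            have h3 : E.symm j = (x.1.2, (ε x.1.1).2) := by
              rw [Equiv.symm_apply_eq]
              exact x.2.symm
            apply Subtype.ext
            apply Prod.ext
            · apply ε.injective
              change ε (ε.symm _) = _
              rw [Equiv.apply_symm_apply, h3]
            · change (E.symm j).1 = _
              rw [h3]
          right_inv := fun s => by simp }
        rw [Nat.card_congr e1, Nat.card_eq_fintype_card, Fintype.card_fin]) ht ha
    exact ⟨D, hD, ρ, h2⟩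

/-- monomial bases for elements with a regular part -/
theorem decomp_of_regular (hn2 : 2 ≤ n) {r k : ℕ} [Fact r.Prime] (hrF : (r : F) ≠ 0)
    (f g : (Fin n → F) →ₗ[F] (Fin n → F)) (hg : Function.Injective g) (w : F) (hgf : g = w • f) (hfr : f ^ r = 1)
    {P : Fin k → F[X]} (D : H99.CycDecomp f P)
    (hP : ∀ j, P j = X - C 1 ∨ P j = cyclotomic r F)
    (hcard : Nat.card {j // P j = cyclotomic r F} ≤ Nat.card {j // P j ≠ cyclotomic r F}) (hr2 : r ≠ 2) :
    ∃ D : Fin n → Submodule F (Fin n → F), Cfsg.Geo.IsMDecomposition 1 D ∧ ∃ σ : Equiv.Perm (Fin n), ∀ j, (D j).map g = D (σ j) := by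
  classical
  have hr : r.Prime := Fact.out
  have : NeZero r := ⟨hr.ne_zero⟩
  have hcycdeg : (cyclotomic r F).natDegree = r - 1 := by rw [natDegree_cyclotomic, Nat.totient_prime hr]
  have hr3 : 3 ≤ r := by
    have := hr.two_le
    omega
  let S := {j // P j = cyclotomic r F}
  let T := {j // P j ≠ cyclotomic r F}
  obtain ⟨φ⟩ : Nonempty (S ↪ T) := Function.Embedding.nonempty_of_card_le (by
    rw [← Nat.card_eq_fintype_card, ← Nat.card_eq_fintype_card]
    exact hcard)
  have hTP : ∀ j : T, P j = X - C 1 := fun j => (hP j).resolve_right j.2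
  have hTdeg : ∀ j : T, (P j).natDegree = 1 := fun j => by rw [hTP j, natDegree_X_sub_C]
  have hSdeg : ∀ j : S, (P j).natDegree = r - 1 := fun j => by rw [j.2, hcycdeg]
  have hTfix : ∀ j : T, f (D.gen j) = D.gen j := by
    intro j
    have h1 := D.aeval_eq (j : Fin k)
    rw [hTP j, map_sub, aeval_X, aeval_C, map_one, LinearMap.sub_apply, Module.End.one_apply, sub_eq_zero] at h1
    exact h1
  have hTfixs : ∀ (j : T) (s : ℕ), (f ^ s) (D.gen j) = D.gen j := by
    intro j s
    induction s with
    | zero => rfl
    | succ s ih => rw [pow_succ, Module.End.mul_apply, hTfix, ih]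
  let R := {j : T // j ∉ Set.range φ}
  let vec : (S × Fin r) ⊕ R → (Fin n → F) := Sum.elim
    (fun x => (f ^ (x.2 : ℕ)) (D.gen x.1 + D.gen (φ x.1))) (fun j => D.gen (j : T))
  have hspan : ⊤ ≤ Submodule.span F (Set.range vec) := by
    rw [← D.basis.span_eq, Submodule.span_le]
    have hu : ∀ j : S, D.gen (φ j) ∈ Submodule.span F (Set.range vec) := by
      intro j
      have h1 : ∑ s ∈ Finset.range r, (f ^ s) (D.gen j + D.gen (φ j)) = (r : F) • D.gen (φ j) := by
        have h2 : ∑ s ∈ Finset.range r, (f ^ s) (D.gen j) = 0 := by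
          have h3 : (aeval f (cyclotomic r F)) (D.gen j) = 0 :=
            (congrArg (fun R => (aeval f R) (D.gen j)) j.2).symm.trans (D.aeval_eq (j : Fin k))
          have h4 : aeval f (cyclotomic r F) = ∑ s ∈ Finset.range r, f ^ s := by
            rw [cyclotomic_prime, map_sum]
            simp
          have h5 := (LinearMap.congr_fun h4 (D.gen j)).symm.trans h3
          rwa [LinearMap.sum_apply] at h5
        simp only [map_add, hTfixs, Finset.sum_add_distrib, Finset.sum_const, Finset.card_range]
        rw [h2, zero_add, Nat.cast_smul_eq_nsmul]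
      have h4 : ∑ s ∈ Finset.range r, (f ^ s) (D.gen j + D.gen (φ j)) ∈ Submodule.span F (Set.range vec) := by
        apply Submodule.sum_mem
        intro s hs
        rw [Finset.mem_range] at hs
        exact Submodule.subset_span ⟨Sum.inl (j, ⟨s, hs⟩), rfl⟩
      rw [h1] at h4
      have h5 := Submodule.smul_mem _ (r : F)⁻¹ h4
      rwa [smul_smul, inv_mul_cancel₀ hrF, one_smul] at h5
    rintro _ ⟨⟨j, s⟩, rfl⟩
    rw [D.basis_eq, SetLike.mem_coe]
    by_cases hj : P j = cyclotomic r F
    · have h1 : (f ^ (s : ℕ)) (D.gen j) = (f ^ (s : ℕ)) (D.gen j + D.gen (φ ⟨j, hj⟩)) - D.gen (φ ⟨j, hj⟩) := by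
        rw [map_add, hTfixs, add_sub_cancel_right]
      rw [h1]
      apply Submodule.sub_mem _ _ (hu ⟨j, hj⟩)
      have hs : (s : ℕ) < r := by
        have h2 := s.2
        have h3 := hSdeg ⟨j, hj⟩
        have h3' : (P j).natDegree = r - 1 := h3
        omega
      exact Submodule.subset_span ⟨Sum.inl (⟨j, hj⟩, ⟨s, hs⟩), rfl⟩
    · have h1 : (f ^ (s : ℕ)) (D.gen j) = D.gen j := hTfixs ⟨j, hj⟩ s
      rw [h1]
      by_cases hjφ : (⟨j, hj⟩ : T) ∈ Set.range φ
      · obtain ⟨i, hi⟩ := hjφ
        have := hu i
        rw [hi] at this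
        exact this
      · exact Submodule.subset_span ⟨Sum.inr ⟨⟨j, hj⟩, hjφ⟩, rfl⟩
  have hcount : Fintype.card ((S × Fin r) ⊕ R) = finrank F (Fin n → F) := by
    rw [Fintype.card_sum, Fintype.card_prod, Fintype.card_fin, D.finrank_eq]
    have h1 : ∑ j, (P j).natDegree = Fintype.card S * (r - 1) + Fintype.card T := by
      rw [← Finset.sum_filter_add_sum_filter_not Finset.univ (fun j => P j = cyclotomic r F)]
      congr 1
      · rw [Finset.sum_congr rfl (g := fun _ => r - 1) (fun j hj => hSdeg ⟨j, (Finset.mem_filter.mp hj).2⟩), Finset.sum_const,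
          smul_eq_mul, ← Fintype.card_subtype]
      · rw [Finset.sum_congr rfl (g := fun _ => 1) (fun j hj => hTdeg ⟨j, (Finset.mem_filter.mp hj).2⟩), Finset.sum_const,
          smul_eq_mul, mul_one, ← Fintype.card_subtype]
    have h2 : Fintype.card R = Fintype.card T - Fintype.card S := by
      rw [Fintype.card_subtype_compl (fun j : T => j ∈ Set.range φ)]
      congr 1
      exact (Fintype.card_congr (Equiv.ofInjective φ φ.injective)).symm
    have h3 : Fintype.card S ≤ Fintype.card T := by
      rw [← Nat.card_eq_fintype_card, ← Nat.card_eq_fintype_card]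
      exact hcard
    rw [h1, h2]
    obtain ⟨r', rfl⟩ : ∃ r', r = r' + 1 := ⟨r - 1, by omega⟩
    rw [Nat.add_sub_cancel, Nat.mul_succ]
    omega
  let b := basisOfTopLeSpanOfCardEqFinrank vec hspan hcount
  have hbv : ∀ x, b x = vec x := fun x => by simp [b]
  let τ : Equiv.Perm ((S × Fin r) ⊕ R) := Equiv.sumCongr (Equiv.prodCongr (Equiv.refl _) (Equiv.addRight (1 : Fin r))) (Equiv.refl _)
  have hvτ : ∀ x, f (b x) = b (τ x) := by
    intro x
    rw [hbv, hbv]
    rcases x with ⟨j, s⟩ | j
    · change f ((f ^ (s : ℕ)) _) = (f ^ ((s + 1 : Fin r) : ℕ)) _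
      rw [Fin.val_add, Fin.val_one', Nat.add_mod_mod]
      rcases Nat.lt_or_ge ((s : ℕ) + 1) r with h | h
      · rw [Nat.mod_eq_of_lt h, pow_succ']
        rfl
      · have h1 : (s : ℕ) + 1 = r := by have := s.2; omega
        rw [h1, Nat.mod_self, pow_zero]
        have h2 : f ((f ^ (s : ℕ)) (D.gen j + D.gen (φ j))) = (f ^ ((s : ℕ) + 1)) (D.gen j + D.gen (φ j)) := by
          rw [pow_succ']
          rfl
        change f ((f ^ (s : ℕ)) (D.gen j + D.gen (φ j))) = _
        rw [h2, h1, hfr]
        rfl
    · exact hTfix _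
  have hcn : Fintype.card ((S × Fin r) ⊕ R) = n := by rw [hcount]; simp
  let π : ((S × Fin r) ⊕ R) ≃ Fin n := Fintype.equivFinOfCardEq hcn
  obtain ⟨D', hD', h2⟩ := H99.exists_decomp_of_label (a := 1) (t := n) b g hg τ (fun x => ⟨w, by
      rw [hgf, LinearMap.smul_apply, hvτ]⟩) π (π.symm.trans (τ.trans π)) (fun x => by simp) (by
      intro j
      have : Unique {x // π x = j} := ⟨⟨⟨π.symm j, by simp⟩⟩, fun x => Subtype.ext (by
        have h := x.2
        exact π.injective (by rw [h]; exact (Equiv.apply_symm_apply π j).symm))⟩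
      exact Nat.card_unique) hn2 le_rfl
  exact ⟨D', hD', _, h2⟩

end

/-- Elements of odd prime order of PSL_n(q) and imprimitive subgroups. Here `T = PSL_n(F)` for a field `F` with `q = p^f` elements (`n ≥ 2`, `(n, q) ≠ (2, 2), (2, 3)`), `n = a·t` with `t ≥ 2`, and Ω is the set of direct-sum decompositions of `F^n` into `t` subspaces of dimension `a` (unordered; their number is the number of ordered ones divided by `t!`), whose stabilizers are the imprimitive subgroups of type GL_a(q) ≀ S_t (maximal except in some small cases; maximality is not assumed); an element of `T` of prime order `r` (a matrix `x` of determinant 1 with `x^r` scalar, `x` not scalar) fixes a point of Ω when it permutes the summands of some such decomposition. Let `r ≠ p` be an odd prime dividing the number of such decompositions, let `c` be the multiplicative order of `q` modulo `r`, and write `k = n mod c`, `ℓ = a mod c`. Then every element of `T` of order `r` stabilizes such a decomposition if and only if either `a = 1`, `c = r − 1 > 1` and `n ≤ k·r`, or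 `c ≤ a` and `k = t·ℓ`. -/
theorem result {F : Type*} [Field F] [Fintype F] {p : ℕ} [Fact p.Prime] [CharP F p] {q : ℕ} (hq : Fintype.card F = q)
    (n a t : ℕ) (hn : 2 ≤ n) (hT : (n, q) ≠ (2, 2) ∧ (n, q) ≠ (2, 3)) (hat : n = a * t) (ha : 1 ≤ a) (ht : 2 ≤ t)
    (r : ℕ) [Fact r.Prime] (hr2 : r ≠ 2) (hrp : r ≠ p) (hΩ : r ∣ Nat.card {D : Fin t → Submodule F (Fin n → F) // Cfsg.Geo.IsMDecomposition a D} / Nat.factorial t)
    (c : ℕ) (hc : c = orderOf (q : ZMod r)) :
    (∀ x : Matrix.SpecialLinearGroup (Fin n) F,
      (∃ z : F, ((x ^ r : Matrix.SpecialLinearGroup (Fin n) F) : Matrix (Fin n) (Fin n) F) = z • (1 : Matrix (Fin n) (Fin n) F)) →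
      (∀ z : F, (x : Matrix (Fin n) (Fin n) F) ≠ z • (1 : Matrix (Fin n) (Fin n) F)) →
      ∃ D : Fin t → Submodule F (Fin n → F), Cfsg.Geo.IsMDecomposition a D ∧
        ∃ σ : Equiv.Perm (Fin t), ∀ j, (D j).map (Matrix.toLin' (x : Matrix (Fin n) (Fin n) F)) = D (σ j)) ↔
    ((a = 1 ∧ 1 < c ∧ c = r - 1 ∧ n ≤ (n % c) * r) ∨ (c ≤ a ∧ n % c = t * (a % c))) := by
  subst hq
  have hr : r.Prime := Fact.out
  have hfn : finrank F (Fin n → F) = n := by simp
  have hrq : ¬ r ∣ Fintype.card F := H99.prime_not_dvd_card hrp
  have hc0 : 0 < c := by rw [hc]; exact H99.orderOf_pos_of_not_dvd hrq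
  have hcr : c ∣ r - 1 := by rw [hc]; exact H99.orderOf_dvd_sub_one hrq
  have hcle : c ≤ r - 1 := Nat.le_of_dvd (by have := hr.two_le; omega) hcr
  have hcn : c ≤ n := by rw [hc]; exact order_le hat ht ha r hrp hΩ
  have hrF : (r : F) ≠ 0 := H99.natCast_ne_zero_of_ne hr hrp
  constructor
  · intro H
    rcases Nat.lt_or_ge 1 c with hc1 | hc1
    · have hnd : ¬ r ∣ Fintype.card F - 1 := by
        rw [H99.dvd_sub_one_iff_orderOf, ← hc]
        omega
      -- the element with the largest moved space
      obtain ⟨x, hx1, hx2, hx3, hx4⟩ := H99.sl_exists_order_eq (n := n) (by omega) hrp hnd (n / c) (Nat.div_pos hcn hc0)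
        (by rw [← hc]; exact Nat.div_mul_le_self _ _)
      rw [← hc] at hx4
      have hk : finrank F (LinearMap.ker (Matrix.toLin' (x : Matrix (Fin n) (Fin n) F) - 1)) = n % c := by
        have := Nat.div_add_mod' n c
        omega
      have hkc : n % c < c := Nat.mod_lt _ hc0
      obtain ⟨D, hD, σ, hσ⟩ := H x ⟨1, hx1⟩ hx2
      have hne : ∀ j, D j ≠ ⊥ := H99.decomp_ne_bot hD
      have hσr := H99.sigma_pow_eq_one hD.indep hne hσ r 1 one_ne_zero (by rw [hx3, one_smul])
      have hmod : ∀ j, σ j = j → a ≡ finrank F (D j ⊓ LinearMap.ker (Matrix.toLin' (x : Matrix (Fin n) (Fin n) F) - 1) : Submodule F (Fin n → F)) [MOD c] := by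
        intro j hj
        have h1 := H99.finrank_modEq_fixed_sub hrp _ hx3 (D j) (fun v hv => by
          have h2 := hσ j
          rw [hj] at h2
          exact h2.le ⟨v, hv, rfl⟩)
        rw [hD.finrank_eq, ← hc] at h1
        exact h1
      by_cases hall : ∀ j, σ j = j
      · right
        -- all summands fixed
        have h1 := H99.sum_fixed_le (f := Matrix.toLin' (x : Matrix (Fin n) (Fin n) F)) hD.indep
        rw [hk] at h1
        have h2 : ∀ j, finrank F (D j ⊓ LinearMap.ker (Matrix.toLin' (x : Matrix (Fin n) (Fin n) F) - 1) : Submodule F (Fin n → F)) = a % c := by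
          intro j
          have h3 := hmod j (hall j)
          have h4 : finrank F (D j ⊓ LinearMap.ker (Matrix.toLin' (x : Matrix (Fin n) (Fin n) F) - 1) : Submodule F (Fin n → F)) ≤ n % c := by
            refine le_trans ?_ h1
            exact Finset.single_le_sum (f := fun j => finrank F (D j ⊓ LinearMap.ker (Matrix.toLin' (x : Matrix (Fin n) (Fin n) F) - 1) : Submodule F (Fin n → F)))
              (fun _ _ => Nat.zero_le _) (Finset.mem_univ j)
          have h5 : finrank F (D j ⊓ LinearMap.ker (Matrix.toLin' (x : Matrix (Fin n) (Fin n) F) - 1) : Submodule F (Fin n → F)) % c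
            = finrank F (D j ⊓ LinearMap.ker (Matrix.toLin' (x : Matrix (Fin n) (Fin n) F) - 1) : Submodule F (Fin n → F)) :=
            Nat.mod_eq_of_lt (by omega)
          rw [← h5]
          exact h3.symm
        rw [Finset.sum_congr rfl (fun j _ => h2 j), Finset.sum_const, Finset.card_univ, Fintype.card_fin, smul_eq_mul] at h1
        have h3 : n % c = t * (a % c) := by
          have h4 : n % c = (t * (a % c)) % c := by
            rw [hat, mul_comm a t]
            conv_rhs => rw [Nat.mul_mod, Nat.mod_mod, ← Nat.mul_mod]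
          rw [h4, Nat.mod_eq_of_lt (by omega)]
        refine ⟨?_, h3⟩
        by_contra hcon
        push Not at hcon
        rw [Nat.mod_eq_of_lt hcon, mul_comm t a, ← hat] at h3
        have := Nat.mod_lt n hc0
        omega
      · push Not at hall
        obtain ⟨j, hj⟩ := hall
        have h1 := H99.le_finrank_ker_of_moved hD.indep hσ hr hσr hx3 hj
        rw [hD.finrank_eq, hk] at h1
        have hac : a < c := by omega
        -- the element with one block
        obtain ⟨y, hy1, hy2, hy3, hy4⟩ := H99.sl_exists_order_eq (n := n) (by omega) hrp hnd 1 one_pos (by rw [← hc]; omega)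
        rw [← hc] at hy4
        obtain ⟨D', hD', σ', hσ'⟩ := H y ⟨1, hy1⟩ hy2
        have hne' : ∀ j, D' j ≠ ⊥ := H99.decomp_ne_bot hD'
        have hσr' := H99.sigma_pow_eq_one hD'.indep hne' hσ' r 1 one_ne_zero (by rw [hy3, one_smul])
        have hmod' : ∀ j, σ' j = j → finrank F (D' j ⊓ LinearMap.ker (Matrix.toLin' (y : Matrix (Fin n) (Fin n) F) - 1) : Submodule F (Fin n → F)) = a := by
          intro j hj
          have h2 := H99.finrank_modEq_fixed_sub hrp _ hy3 (D' j) (fun v hv => by
            have h3 := hσ' j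
            rw [hj] at h3
            exact h3.le ⟨v, hv, rfl⟩)
          rw [hD'.finrank_eq, ← hc] at h2
          have h3 := Submodule.finrank_mono (inf_le_left : D' j ⊓ LinearMap.ker (Matrix.toLin' (y : Matrix (Fin n) (Fin n) F) - 1) ≤ D' j)
          rw [hD'.finrank_eq] at h3
          have h4 : a % c = _ % c := h2
          rw [Nat.mod_eq_of_lt hac, Nat.mod_eq_of_lt (by omega)] at h4
          exact h4.symm
        have hmoved : ∃ j, σ' j ≠ j := by
          by_contra hcon
          push Not at hcon
          have h2 := H99.sum_fixed_le (f := Matrix.toLin' (y : Matrix (Fin n) (Fin n) F)) hD'.indep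
          rw [Finset.sum_congr rfl (fun j _ => hmod' j (hcon j)), Finset.sum_const, Finset.card_univ, Fintype.card_fin,
            smul_eq_mul, mul_comm, ← hat] at h2
          omega
        obtain ⟨j', hj'⟩ := hmoved
        have h2 := H99.finrank_ker_le_of_moved hD'.finrank_eq hD'.iSup_eq_top hσ' hr hσr' hy3 hrF hj'
        rw [mul_comm t a, ← hat] at h2
        have h3 : (r - 1) * a ≤ r - 1 := by omega
        have ha1 : a = 1 := by
          by_contra hne1
          have h4 : 2 ≤ a := by omega
          have h5 : (r - 1) * 2 ≤ (r - 1) * a := Nat.mul_le_mul_left _ h4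
          have := hr.two_le
          omega
        left
        subst ha1
        refine ⟨rfl, hc1, by omega, ?_⟩
        have h4 := H99.le_mul_finrank_ker hD.finrank_eq hD.indep hD.iSup_eq_top hσ hr hσr hx3 hrF (by
          intro j hj v hv
          have h5 := hmod j hj
          have h6 := Submodule.finrank_mono (inf_le_left : D j ⊓ LinearMap.ker (Matrix.toLin' (x : Matrix (Fin n) (Fin n) F) - 1) ≤ D j)
          rw [hD.finrank_eq] at h6
          have h7 : 1 % c = _ % c := h5
          rw [Nat.mod_eq_of_lt hc1, Nat.mod_eq_of_lt (by omega)] at h7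
          have h8 : D j ⊓ LinearMap.ker (Matrix.toLin' (x : Matrix (Fin n) (Fin n) F) - 1) = D j :=
            Submodule.eq_of_le_of_finrank_eq inf_le_left (by rw [← h7, hD.finrank_eq])
          rw [← h8] at hv
          have h9 := hv.2
          rw [SetLike.mem_coe, LinearMap.mem_ker, LinearMap.sub_apply, Module.End.one_apply, sub_eq_zero] at h9
          exact h9)
        rw [hk] at h4
        rw [one_mul] at hat
        rw [hat]
        rw [hat] at h4
        rw [mul_comm]
        exact h4
    · right
      have hc1' : c = 1 := by omega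
      rw [hc1']
      exact ⟨ha, by simp [Nat.mod_one]⟩
  · rintro h x ⟨z, hz⟩ -
    have hz' := hz
    rw [Matrix.SpecialLinearGroup.coe_pow] at hz'
    have hz0 : z ≠ 0 := by
      rintro rfl
      have h1 := congrArg Matrix.det hz'
      have : Nonempty (Fin n) := ⟨⟨0, by omega⟩⟩
      rw [Matrix.det_pow, x.det_coe, one_pow, zero_smul, Matrix.det_zero] at h1
      exact one_ne_zero h1
    have hinj := toLin_injective x
    rcases H99.exists_decomp_scalar (r := r) _ z hz0 (H99.toLin_pow_eq hz') with ⟨w, hw, hw0, hwf⟩ | ⟨hnp, hd, hirr, k, ⟨D⟩⟩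
    · obtain ⟨k, P, hP, ⟨D⟩⟩ := H99.exists_decomp_one hrp _ hwf
      have hsum : ∑ j, (P j).natDegree = n := by
        rw [← D.finrank_eq]
        simp
      rcases h with ⟨ha1, hc1, hcr1, hnle⟩ | ⟨hca, hmod⟩
      · -- regular case
        subst ha1
        have hcycdeg : (cyclotomic r F).natDegree = r - 1 := by rw [natDegree_cyclotomic, Nat.totient_prime hr]
        have hP' : ∀ j, P j = X - C 1 ∨ P j = cyclotomic r F := by
          intro j
          rcases (hP j).2.2 with h | h
          · exact Or.inl h
          · right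
            apply (eq_of_monic_of_dvd_of_natDegree_le (hP j).1 (cyclotomic.monic r F) h.1 _).symm
            rw [h.2, hcycdeg, ← hc, hcr1]
        have hnt : t = n := by rw [hat, one_mul]
        subst hnt
        have hcard : Nat.card {j // P j = cyclotomic r F} ≤ Nat.card {j // P j ≠ cyclotomic r F} := by
          classical
          rw [Nat.card_eq_fintype_card, Nat.card_eq_fintype_card, Fintype.card_subtype, Fintype.card_subtype]
          rw [← Finset.sum_filter_add_sum_filter_not Finset.univ (fun j => P j = cyclotomic r F)] at hsum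
          rw [Finset.sum_congr rfl (g := fun _ => c) (fun j hj => by rw [(Finset.mem_filter.mp hj).2, hcycdeg, hcr1]),
            Finset.sum_congr (s₁ := Finset.univ.filter (fun j => ¬ P j = cyclotomic r F)) rfl (g := fun _ => 1) (fun j hj => by
              rw [(hP' j).resolve_right (Finset.mem_filter.mp hj).2, natDegree_X_sub_C]), Finset.sum_const, Finset.sum_const,
            smul_eq_mul, smul_eq_mul, mul_one] at hsum
          set A := (Finset.univ.filter (fun j => P j = cyclotomic r F)).card
          have hB : (Finset.univ.filter (fun j => ¬ P j = cyclotomic r F)).card = (Finset.univ.filter (fun j => P j ≠ cyclotomic r F)).card := rfl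
          rw [← hB]
          set B := (Finset.univ.filter (fun j => ¬ P j = cyclotomic r F)).card
          -- n = A c + B, n ≤ (n % c)(c+1)
          have hrc : r = c + 1 := by have := hr.two_le; omega
          rw [hrc] at hnle
          have h1 := Nat.div_add_mod t c
          have h2 : t / c ≤ t % c := by
            have h3 : c * (t / c) ≤ c * (t % c) := by
              have h4 : (t % c) * (c + 1) = c * (t % c) + t % c := by ring
              omega
            exact Nat.le_of_mul_le_mul_left h3 hc0
          have h3 : A ≤ t / c := by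
            rw [Nat.le_div_iff_mul_le hc0]
            omega
          have h4 : A * c ≤ (t / c) * c := Nat.mul_le_mul_right _ h3
          have h5 : (t / c) * c = c * (t / c) := mul_comm _ _
          omega
        have hg : Matrix.toLin' (x : Matrix (Fin t) (Fin t) F) = w • (w⁻¹ • Matrix.toLin' (x : Matrix (Fin t) (Fin t) F)) := by
          rw [smul_smul, mul_inv_cancel₀ hw0, one_smul]
        exact decomp_of_regular hn hrF _ _ hinj w hg hwf D hP' hcard hr2
      · -- all summands fixed
        have hdeg : ∀ j, (P j).natDegree = 1 ∨ (P j).natDegree = c := by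
          intro j
          rcases (hP j).2.2 with h | h
          · left; rw [h, natDegree_X_sub_C]
          · right; rw [h.2, ← hc]
        obtain ⟨A, hA1, hA2⟩ := H99.exists_disjoint_sums (fun j => (P j).natDegree) c hc0 hdeg (t := t) (fun _ => a)
          (by rw [hsum]; simp; rw [hat, mul_comm]) (by
            rw [hsum, Finset.sum_const, Finset.card_univ, Fintype.card_fin, smul_eq_mul, hmod])
        obtain ⟨D', hD', h2⟩ := H99.exists_decomp_of_blocks hinj D (fun W hW => by
          rintro _ ⟨v, hv, rfl⟩
          have h3 := hW ⟨v, hv, rfl⟩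
          rw [LinearMap.smul_apply] at h3
          have h4 := W.smul_mem w h3
          rwa [smul_smul, mul_inv_cancel₀ hw0, one_smul] at h4) A hA1 hA2 (fun j => (hP j).2.1.natDegree_pos) hat ht ha
        exact ⟨D', hD', 1, h2⟩
    · exact decomp_of_nonpower hat ht ha _ hinj D

end Cfsg.Agent.S5958
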