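import Cfsg.Statements.S5959
import Cfsg.Agent.H99.PrimeSL
import Cfsg.Agent.H99.Jordan
import Cfsg.Agent.H99.PermDecomp

set_option autoImplicit false
open scoped MatrixGroups
open Cfsg

namespace Cfsg.Agent.S5959

open Polynomial

lemma pow_sub_one_eq_sum {F V : Type*} [Field F] {p : ℕ} [Fact p.Prime] [CharP F p] [AddCommGroup V] [Module F V]
    (f : V →ₗ[F] V) : (f - 1) ^ (p - 1) = ∑ s ∈ Finset.range p, f ^ s := by
  have hp : p.Prime := Fact.out
  have h1 : (X - 1 : F[X]) ^ (p - 1) = ∑ s ∈ Finset.range p, X ^ s := by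
    have h2 : (X - 1 : F[X]) ^ (p - 1) * (X - 1) = (∑ s ∈ Finset.range p, X ^ s) * (X - 1) := by
      rw [← pow_succ, Nat.sub_add_cancel hp.one_lt.le, geom_sum_mul, sub_pow_char _ _ (p := p), one_pow]
    exact mul_right_cancel₀ (by
      have := X_sub_C_ne_zero (1 : F)
      rwa [C_1] at this) h2
  have h3 := congrArg (fun R : F[X] => aeval f R) h1
  simpa using h3

/-- Elements of order `p` of PSL_n(q) and imprimitive subgroups: a necessary condition. Here `T = PSL_n(F)` for a field `F` with `q = p^f` elements (`n ≥ 2`, `(n, q) ≠ (2, 2), (2, 3)`), `n = a·t` with `t ≥ 2`, and Ω is the set of direct-sum decompositions of `F^n` into `t` subspaces of dimension `a` (unordered; their number is the number of ordered ones divided by `t!`), whose stabilizers are the imprimitive subgroups of type GL_a(q) ≀ S_t (maximal except in some small cases; maximality is not assumed); an element of `T` of prime order `r` (a matrix `x` of determinant 1 with `x^r` scalar, `x` not scalar) fixes a point of Ω when it permutes the summands of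 some such decomposition. Suppose `p > 2` divides the number of such decompositions. If every element of `T` of order `p` stabilizes such a decomposition, then every partition of `n` into parts of size at most `p` in which the part `p` occurs fewer than `a` times contains (as a sub-multiset) a partition of `a`. -/
theorem result {F : Type*} [Field F] [Fintype F] {p : ℕ} [Fact p.Prime] [CharP F p] {q : ℕ} (hq : Fintype.card F = q)
    (n a t : ℕ) (hn : 2 ≤ n) (hT : (n, q) ≠ (2, 2) ∧ (n, q) ≠ (2, 3)) (hat : n = a * t) (ha : 1 ≤ a) (ht : 2 ≤ t)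
    (hp : 2 < p) (hΩ : p ∣ Nat.card {D : Fin t → Submodule F (Fin n → F) // Cfsg.Geo.IsMDecomposition a D} / Nat.factorial t)
    (h : ∀ x : Matrix.SpecialLinearGroup (Fin n) F,
      (∃ z : F, ((x ^ p : Matrix.SpecialLinearGroup (Fin n) F) : Matrix (Fin n) (Fin n) F) = z • (1 : Matrix (Fin n) (Fin n) F)) →
      (∀ z : F, (x : Matrix (Fin n) (Fin n) F) ≠ z • (1 : Matrix (Fin n) (Fin n) F)) →
      ∃ D : Fin t → Submodule F (Fin n → F), Cfsg.Geo.IsMDecomposition a D ∧
        ∃ σ : Equiv.Perm (Fin t), ∀ j, (D j).map (Matrix.toLin' (x : Matrix (Fin n) (Fin n) F)) = D (σ j)) :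
    (∀ μ : Multiset ℕ, (∀ b ∈ μ, 0 < b ∧ b ≤ p) → μ.sum = n → μ.count p < a → ∃ ν : Multiset ℕ, ν ≤ μ ∧ ν.sum = a) := by
  intro μ hμ1 hμ2 hμ3
  have hpp : p.Prime := Fact.out
  have han : a ≤ n := by rw [hat]; exact Nat.le_mul_of_pos_right a (by omega)
  by_cases hbig : ∃ b ∈ μ, 2 ≤ b
  · obtain ⟨l, rfl⟩ := Quot.exists_rep μ
    have hfn : Module.finrank F (Fin n → F) = n := by simp
    set e : Fin l.length → ℕ := fun j => l.get j with he
    have hmap : (Finset.univ : Finset (Fin l.length)).val.map e = Multiset.ofList l := by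
      rw [he, Fin.univ_val_map, List.ofFn_get]
    have he1 : ∀ j, 0 < e j ∧ e j ≤ p := fun j => hμ1 _ (List.get_mem l j)
    have hsum : ∑ j, e j = n := by
      have h3 : (Multiset.ofList l).sum = n := hμ2
      rw [← hmap] at h3
      exact h3
    obtain ⟨f, hf1, hf2, ⟨D₀⟩⟩ := H99.exists_unipotent (F := F) (p := p) (V := Fin n → F) e (fun j => (he1 j).2) (by rw [hfn, hsum])
    obtain ⟨x, hx1, hx2⟩ := H99.exists_sl_of_endo (r := p) f hf2 1 (by rw [hf1, one_smul])
    obtain ⟨D, hD, σ, hσ⟩ := h x ⟨1, hx2⟩ (by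
      intro c hc
      have h1 : f = c • (1 : (Fin n → F) →ₗ[F] (Fin n → F)) := by
        rw [← hx1, hc]
        ext v
        simp
      have h2 : c ^ p = 1 := by
        rw [h1, _root_.smul_pow, one_pow] at hf1
        have h3 := congrArg (fun g : (Fin n → F) →ₗ[F] (Fin n → F) => g (fun _ => 1) ⟨0, by omega⟩) hf1
        simpa using h3
      have h3 : (c - 1) ^ p = 0 := by
        rw [sub_pow_char _ _ (p := p), h2, one_pow, sub_self]
      have h4 : c = 1 := sub_eq_zero.mp ((pow_eq_zero_iff hpp.ne_zero).mp h3)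
      have h5 : f - 1 = 0 := by rw [h1, h4, one_smul, sub_self]
      obtain ⟨b, hb, hb2⟩ := hbig
      obtain ⟨j, hj⟩ := List.get_of_mem (show b ∈ l from hb)
      have h6 := H99.jordan_finrank_range D₀ 1
      rw [h5, pow_one, LinearMap.range_zero, finrank_bot] at h6
      have h7 := Finset.sum_eq_zero_iff.mp h6.symm j (Finset.mem_univ j)
      have h8 : e j = b := hj
      omega)
    rw [hx1] at hσ
    have hN : (f - 1) ^ p = 0 := by
      have h1 := D₀.aeval_eq_zero (X ^ p) (fun j => pow_dvd_pow _ (he1 j).2)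
      rwa [map_pow, aeval_X] at h1
    have hne : ∀ j, D j ≠ ⊥ := by
      intro j hj
      have h1 := hD.finrank_eq j
      rw [hj, finrank_bot] at h1
      omega
    have hσp := H99.sigma_pow_eq_one hD.indep hne hσ p 1 one_ne_zero (by rw [hf1, one_smul])
    have ht0 : 0 < t := by omega
    by_cases hfix : σ ⟨0, ht0⟩ = ⟨0, ht0⟩
    · have hU := hσ ⟨0, ht0⟩
      rw [hfix] at hU
      set U := D ⟨0, ht0⟩ with hUdef
      set W := ⨆ j', ⨆ (_ : j' ≠ (⟨0, ht0⟩ : Fin t)), D j' with hWdef
      have hUW : IsCompl U W := H99.isCompl_others hD.indep hD.iSup_eq_top ⟨0, ht0⟩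
      have hW := H99.others_invariant hσ hfix
      have hU3 : ∀ v ∈ U, (f - 1) v ∈ U := fun v hv => by
        rw [LinearMap.sub_apply, Module.End.one_apply]
        exact U.sub_mem (hU.le ⟨v, hv, rfl⟩) hv
      have hW3 : ∀ v ∈ W, (f - 1) v ∈ W := fun v hv => by
        rw [LinearMap.sub_apply, Module.End.one_apply]
        exact W.sub_mem (hW ⟨v, hv, rfl⟩) hv
      have hpow : ∀ (U : Submodule F (Fin n → F)) (hU : ∀ v ∈ U, (f - 1) v ∈ U), ((f - 1).restrict hU) ^ p = 0 := by
        intro U hU
        have h1 := H99.restrict_pow_eq (f - 1) U hU 0 p (by rw [hN, zero_smul])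
        rwa [zero_smul] at h1
      obtain ⟨b, e₁, he₁, ⟨D₁⟩⟩ := H99.exists_jordan ((f - 1).restrict hU3) p (hpow U hU3)
      obtain ⟨c, e₂, he₂, ⟨D₂⟩⟩ := H99.exists_jordan ((f - 1).restrict hW3) p (hpow W hW3)
      have htype := H99.jordan_type_add hUW hU3 hW3 (fun j => (he1 j).1) (fun j => (he₁ j).1) (fun j => (he₂ j).1) D₀ D₁ D₂
      refine ⟨(Finset.univ : Finset (Fin b)).val.map e₁, ?_, ?_⟩
      · rw [hmap] at htype
        change _ ≤ Multiset.ofList l
        rw [htype]
        exact Multiset.le_add_right _ _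
      · change ∑ j, e₁ j = a
        rw [← hD.finrank_eq ⟨0, ht0⟩, ← hUdef, D₁.finrank_eq]
        simp
    · exfalso
      -- the number of blocks of size `p` is at least `a`
      have h1 := H99.jordan_finrank_range D₀ (p - 1)
      have h2 : ∑ j, (e j - (p - 1)) = (Multiset.ofList l).count p := by
        rw [← hmap, Multiset.count_map]
        change _ = Multiset.card (Multiset.filter (fun j => p = e j) Finset.univ.val)
        have h3 : Multiset.card (Multiset.filter (fun j => p = e j) Finset.univ.val) = (Finset.univ.filter (fun j => p = e j)).card := rfl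
        rw [h3, Finset.card_filter]
        apply Finset.sum_congr rfl
        intro j _
        have := he1 j
        split_ifs with h4 <;> omega
      have h3 : a ≤ Module.finrank F (LinearMap.range ((f - 1) ^ (p - 1))) := by
        rw [← hD.finrank_eq ⟨0, ht0⟩]
        have hinj : Function.Injective ((((f - 1) ^ (p - 1)).rangeRestrict).domRestrict (D ⟨0, ht0⟩)) := by
          rw [← LinearMap.ker_eq_bot, LinearMap.ker_eq_bot']
          intro v hv
          have h4 : ((f - 1) ^ (p - 1)) (v : Fin n → F) = 0 := congrArg Subtype.val hv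
          rw [pow_sub_one_eq_sum (p := p), LinearMap.sum_apply] at h4
          exact Subtype.ext (H99.trace_injective hD.indep hσ hpp hσp hfix v.2 h4)
        exact LinearMap.finrank_le_finrank_of_injective hinj
      rw [h1, h2] at h3
      have h4 : (Multiset.ofList l).count p < a := hμ3
      omega
  · push Not at hbig
    have h1 : ∀ b ∈ μ, b = 1 := fun b hb => by
      have := hbig b hb
      have := (hμ1 b hb).1
      omega
    have h3 := Multiset.eq_replicate_card.mpr h1
    have h5 : Multiset.card μ = n := by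
      rw [← hμ2, h3]
      simp
    refine ⟨Multiset.replicate a 1, ?_, by simp⟩
    rw [h3, Multiset.replicate_le_replicate]
    omega

end Cfsg.Agent.S5959
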