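import Cfsg.Statements.S5960
import Cfsg.Agent.H99.SympForm

set_option autoImplicit false
open scoped MatrixGroups
open Cfsg

namespace Cfsg.Agent.S5960

/-- Involutions of PSp_n(q) and imprimitive subgroups. Here `T = PSp_n(q)`, `n = 2d ≥ 4`, `(n, q) ≠ (4, 2)`, realised through the symplectic matrices over the field `F` with `q` elements and the standard alternating form; `n = a·t` with `a` even and `t ≥ 2`, and Ω is the (nonempty) set of orthogonal decompositions of `F^n` into `t` nondegenerate subspaces of dimension `a` (unordered; counted as ordered ones divided by `t!`), whose stabilizers are the imprimitive subgroups of type Sp_a(q) ≀ S_t (maximality is not assumed); an element of `T` of prime order `r` (a symplectic matrix `x` with `x^r` scalar, `x` not scalar) fixes a point of Ω when it permutes the summands of some such decomposition. If the number of such decompositions is even, then every involution of `T` stabilizes one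 of them (the action is 2-elusive). -/
theorem result {F : Type*} [Field F] [Fintype F] {p : ℕ} [Fact p.Prime] [CharP F p] {q : ℕ} (hq : Fintype.card F = q)
    (d : ℕ) (hd : 2 ≤ d) (hT : (d, q) ≠ (2, 2))
    (a t : ℕ) (hat : 2 * d = a * t) (ha : 2 ≤ a) (hae : Even a) (ht : 2 ≤ t) (hΩ : 2 ∣ Nat.card {D : Fin t → Submodule F (Fin d ⊕ Fin d → F) // (Cfsg.Geo.IsMDecomposition a D ∧ (∀ j, ∀ u ∈ D j, u ≠ 0 → ∃ v ∈ D j, Cfsg.sympForm d F u v ≠ 0) ∧
          (∀ j j', j ≠ j' → ∀ u ∈ D j, ∀ v ∈ D j', Cfsg.sympForm d F u v = 0))} / Nat.factorial t)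
    (x : ↥(Matrix.symplecticGroup (Fin d) F))
    (hx1 : ∃ z : F, ((x ^ 2 : ↥(Matrix.symplecticGroup (Fin d) F)) : Matrix (Fin d ⊕ Fin d) (Fin d ⊕ Fin d) F) = z • (1 : Matrix (Fin d ⊕ Fin d) (Fin d ⊕ Fin d) F))
    (hx2 : ∀ z : F, (x : Matrix (Fin d ⊕ Fin d) (Fin d ⊕ Fin d) F) ≠ z • (1 : Matrix (Fin d ⊕ Fin d) (Fin d ⊕ Fin d) F)) :
    ∃ D : Fin t → Submodule F (Fin d ⊕ Fin d → F), (Cfsg.Geo.IsMDecomposition a D ∧ (∀ j, ∀ u ∈ D j, u ≠ 0 → ∃ v ∈ D j, Cfsg.sympForm d F u v ≠ 0) ∧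
          (∀ j j', j ≠ j' → ∀ u ∈ D j, ∀ v ∈ D j', Cfsg.sympForm d F u v = 0)) ∧
        ∃ σ : Equiv.Perm (Fin t), ∀ j, (D j).map (Matrix.toLin' (x : Matrix (Fin d ⊕ Fin d) (Fin d ⊕ Fin d) F)) = D (σ j) := by
  classical
  obtain ⟨z, hz⟩ := hx1
  set A : Matrix (Fin d ⊕ Fin d) (Fin d ⊕ Fin d) F := (x : Matrix (Fin d ⊕ Fin d) (Fin d ⊕ Fin d) F) with hA
  have hAmem : A ∈ Matrix.symplecticGroup (Fin d) F := x.2
  set f := Matrix.toLin' A with hf
  have hsq : ∀ v, f (f v) = z • v := H99.symp_sq_apply d x z hz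
  have hz0 : z ≠ 0 := H99.symp_scalar_ne_zero d (by omega) x 2 z hz
  have hAlt := H99.sympForm_altForm (F := F) d
  have hB := hAlt.oform
  obtain ⟨ι, _, _, P, τ, hS, hcard⟩ := H99.exists_planeSys hAlt f
    (fun u v => H99.sympForm_toLin' d hAmem u v) z hz0 hsq (Module.finrank F (Fin d ⊕ Fin d → F)) ⊤
    (by simp) (H99.sympForm_ND d) (fun _ _ => Submodule.mem_top)
  have hfr : Module.finrank F (Fin d ⊕ Fin d → F) = 2 * d := by
    rw [Module.finrank_fintype_fun_eq_card, Fintype.card_sum, Fintype.card_fin]; ring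
  obtain ⟨a', ha'⟩ := hae
  have ha'0 : 0 < a' := by omega
  have hcι : Fintype.card ι = a' * t := by
    rw [hfr, hat, ha'] at hcard
    have : 2 * Fintype.card ι = 2 * (a' * t) := by rw [hcard]; ring
    omega
  obtain ⟨Bl, ρ, h1, h2, h3, h4, -⟩ := H99.exists_blocks_fin hS.invol a' ha'0 t hcι
  have hdim : ∀ S : Finset ι, Module.finrank F ↥(⨆ i ∈ S, P i) = 2 * S.card := by
    intro S
    rw [H99.finrank_iSup_orth hB P hS.orth hS.nd, Finset.sum_congr rfl (fun i _ => hS.dim i), Finset.sum_const,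
      smul_eq_mul, mul_comm]
  have hall : (⨆ i ∈ (Finset.univ : Finset ι), P i) = ⊤ := by
    apply Submodule.eq_top_of_finrank_eq
    rw [hdim, Finset.card_univ, hcard]
  have hND : ∀ j, H99.ND (Cfsg.sympForm d F) (⨆ i ∈ Bl j, P i) := fun j => H99.ND_iSup hB P hS.orth hS.nd _
  have hO : ∀ i j, i ≠ j → (⨆ k ∈ Bl i, P k) ≤ H99.orth hB (⨆ k ∈ Bl j, P k) := fun i j hij =>
    H99.iSup_le_orth_iSup hB P hS.orth _ _ (h2 i j hij)
  refine ⟨fun j => ⨆ i ∈ Bl j, P i, ⟨⟨ht, by omega, ?_, ?_, ?_⟩, ?_, ?_⟩, ρ, ?_⟩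
  · intro j; rw [hdim, h1]; omega
  · exact H99.iSupIndep_of_orth hB _ hO hND
  · rw [eq_top_iff, ← hall]
    refine iSup₂_le fun i _ => ?_
    obtain ⟨j, hj⟩ := h3 i
    exact (le_iSup₂_of_le (f := fun i (_ : i ∈ Bl j) => P i) i hj le_rfl).trans
      (le_iSup (fun j => ⨆ i ∈ Bl j, P i) j)
  · intro j u hu hu0
    by_contra hcon
    push Not at hcon
    exact hu0 (hND j u hu hcon)
  · intro i j hij u hu v hv
    exact hO i j hij hu v hv
  · intro j
    show (⨆ i ∈ Bl j, P i).map f = ⨆ i ∈ Bl (ρ j), P i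
    rw [← h4, Submodule.map_iSup]
    simp only [Submodule.map_iSup, hS.map]
    rw [Finset.iSup_finset_image]

end Cfsg.Agent.S5960
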