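import Cfsg.Statements.S5961
import Cfsg.Agent.H99.SympDecomp
import Cfsg.Agent.H99.PermDecomp2

set_option autoImplicit false
open scoped MatrixGroups
open Cfsg

namespace Cfsg.Agent.S5961

open Module Matrix Polynomial

attribute [local instance] H99.spAct

section
variable {F : Type*} [Field F] [Fintype F] {p : ℕ} [Fact p.Prime] [CharP F p] {r : ℕ} [Fact r.Prime] {d a t : ℕ}

lemma even_mod {a c : ℕ} (ha : Even a) (hc : Even c) : Even (a % c) := by
  obtain ⟨m, rfl⟩ := ha
  obtain ⟨k, rfl⟩ := hc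
  rw [← two_mul, ← two_mul, Nat.mul_mod_mul_left]
  exact even_two_mul _

/-- counting orthogonal decompositions -/
theorem blk_le_of_dvd (hr2 : r ≠ 2) (hrp : r ≠ p) (hae : Even a) (hat : 2 * d = a * t) (ha : 2 ≤ a) (ht : 2 ≤ t)
    (hΩ : r ∣ Nat.card {D : Fin t → Submodule F (Fin d ⊕ Fin d → F) // (Cfsg.Geo.IsMDecomposition a D ∧ (∀ j, ∀ u ∈ D j, u ≠ 0 → ∃ v ∈ D j, Cfsg.sympForm d F u v ≠ 0) ∧
          (∀ j j', j ≠ j' → ∀ u ∈ D j, ∀ v ∈ D j', Cfsg.sympForm d F u v = 0))} / Nat.factorial t) :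
    H99.blk r (Fintype.card F) ≤ 2 * d := by
  classical
  have hr : r.Prime := Fact.out
  have hA := H99.sympForm_altForm (F := F) d
  have hinjg : ∀ g : Matrix.symplecticGroup (Fin d) F, Function.Injective (Matrix.toLin' (g : Matrix (Fin d ⊕ Fin d) (Fin d ⊕ Fin d) F)) := fun g =>
    H99.isom_injective hA.oform (H99.sympForm_ND d) _ (H99.sympForm_toLin' d g.2)
  have hND' : ∀ W : Submodule F (Fin d ⊕ Fin d → F), (∀ u ∈ W, u ≠ 0 → ∃ v ∈ W, Cfsg.sympForm d F u v ≠ 0) ↔ H99.ND (Cfsg.sympForm d F) W := by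
    intro W
    constructor
    · intro h u hu hu2
      by_contra hne
      obtain ⟨v, hv, hv2⟩ := h u hu hne
      exact hv2 (hu2 v hv)
    · intro h u hu hne
      by_contra hcon
      push Not at hcon
      exact hne (h u hu hcon)
  obtain ⟨m, hm⟩ := hae
  -- the factorial divides the number
  have hfac := H99.factorial_dvd_card_of_injective (Y := Submodule F (Fin d ⊕ Fin d → F)) (t := t)
    (fun D => (Cfsg.Geo.IsMDecomposition a D ∧ (∀ j, ∀ u ∈ D j, u ≠ 0 → ∃ v ∈ D j, Cfsg.sympForm d F u v ≠ 0) ∧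
          (∀ j j', j ≠ j' → ∀ u ∈ D j, ∀ v ∈ D j', Cfsg.sympForm d F u v = 0))) (by
    rintro D σ ⟨h1, h2, h3⟩
    refine ⟨⟨h1.two_le, h1.pos, fun j => h1.finrank_eq (σ j), h1.indep.comp σ.injective, ?_⟩, fun j => h2 (σ j), fun j j' hjj => h3 _ _ (fun h => hjj (σ.injective h))⟩
    rw [← h1.iSup_eq_top]
    exact σ.iSup_comp) (by
    rintro D ⟨h1, -, -⟩
    apply iSupIndep.injective h1.indep
    intro j h
    have h2 := h1.finrank_eq j
    rw [h, finrank_bot] at h2
    have := h1.pos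
    omega)
  obtain ⟨N, hN⟩ := hfac
  rw [hN, Nat.mul_div_cancel_left _ (Nat.factorial_pos t)] at hΩ
  have hΩ' := hΩ.mul_left (Nat.factorial t)
  rw [← hN] at hΩ'
  -- an orbit
  by_cases hne : Nonempty {D : Fin t → Submodule F (Fin d ⊕ Fin d → F) // (Cfsg.Geo.IsMDecomposition a D ∧ (∀ j, ∀ u ∈ D j, u ≠ 0 → ∃ v ∈ D j, Cfsg.sympForm d F u v ≠ 0) ∧
          (∀ j j', j ≠ j' → ∀ u ∈ D j, ∀ v ∈ D j', Cfsg.sympForm d F u v = 0))}
  · obtain ⟨D₀, hD₀⟩ := hne
    apply H99.blk_le_of_dvd_card hr2 hrp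
    apply hΩ'.trans
    rw [H99.card_eq_index_stabilizer (G := Matrix.symplecticGroup (Fin d) F) D₀]
    · exact Subgroup.index_dvd_card _
    · intro D
      constructor
      · rintro ⟨h1, h2, h3⟩
        obtain ⟨g, hg1, hg2⟩ := H99.exists_isometry_decomp hA (m := m) hD₀.1.indep hD₀.1.iSup_eq_top (fun j => (hND' _).mp (hD₀.2.1 j)) hD₀.2.2
          (fun j => by rw [hD₀.1.finrank_eq j, hm, two_mul]) h1.indep h1.iSup_eq_top (fun j => (hND' _).mp (h2 j)) h3 (fun j => by rw [h1.finrank_eq j, hm, two_mul])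
        obtain ⟨x, hx⟩ := H99.exists_symp_of_isometry g.toLinearMap hg1
        refine ⟨x, ?_⟩
        funext j
        change (D₀ j).map _ = D j
        rw [hx, hg2]
      · rintro ⟨g, hg⟩
        have hgj : ∀ j, D j = (D₀ j).map (Matrix.toLin' (g : Matrix (Fin d ⊕ Fin d) (Fin d ⊕ Fin d) F)) := fun j => (congrFun hg j).symm
        refine ⟨⟨hD₀.1.two_le, hD₀.1.pos, ?_, ?_, ?_⟩, ?_, ?_⟩
        · intro j
          rw [hgj, ← LinearEquiv.finrank_eq (Submodule.equivMapOfInjective _ (hinjg g) _), hD₀.1.finrank_eq]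
        · let e := LinearEquiv.ofInjectiveEndo _ (hinjg g)
          have h1 := hD₀.1.indep.map_orderIso (Submodule.orderIsoMapComap e)
          have h2 : D = (Submodule.orderIsoMapComap e) ∘ D₀ := funext hgj
          rw [h2]
          exact h1
        · change ⨆ j, D j = ⊤
          simp only [hgj]
          rw [← Submodule.map_iSup, hD₀.1.iSup_eq_top, Submodule.map_top]
          exact LinearMap.range_eq_top.mpr (LinearMap.injective_iff_surjective.mp (hinjg g))
        · intro j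
          rw [hND', hgj]
          rintro _ ⟨u, hu, rfl⟩ h
          have h2 : u = 0 := by
            apply (hND' _).mp (hD₀.2.1 j) u hu
            intro v hv
            rw [← H99.sympForm_toLin' d g.2]
            exact h _ ⟨v, hv, rfl⟩
          rw [h2, map_zero]
        · intro j j' hjj
          rw [hgj, hgj]
          rintro _ ⟨u, hu, rfl⟩ _ ⟨v, hv, rfl⟩
          rw [H99.sympForm_toLin' d g.2]
          exact hD₀.2.2 j j' hjj u hu v hv
  · exfalso
    apply hne
    obtain ⟨D, hD1, hD2, hD3⟩ := H99.exists_inv_decomp (r := r) (x := (1 : (Fin d ⊕ Fin d → F) →ₗ[F] (Fin d ⊕ Fin d → F))) hr2 hrp hA (fun _ _ => rfl) (one_pow r)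
      (a := a) (a' := 0) (l := m) (by rw [hm]; ring) t ⊤ (fun _ _ => Submodule.mem_top) (H99.sympForm_ND d)
      (by rw [finrank_top, H99.finrank_symp, hat, mul_comm]) (by
        rw [sub_self, LinearMap.ker_zero, top_inf_eq, finrank_top, H99.finrank_symp, hat, hm, ← two_mul, mul_comm])
    exact ⟨D, ⟨ht, by omega, fun j => (hD1 j).2.2.2, H99.indep_of_orth hA.oform (fun j => (hD1 j).2.2.1) hD2, hD3⟩, fun j => (hND' _).mpr (hD1 j).2.2.1, hD2⟩

end


/-- Elements of odd prime order of PSp_n(q) and imprimitive subgroups. Here `T = PSp_n(q)`, `n = 2d ≥ 4`, `(n, q) ≠ (4, 2)`, realised through the symplectic matrices over the field `F` with `q` elements and the standard alternating form; `n = a·t` with `a` even and `t ≥ 2`, and Ω is the (nonempty) set of orthogonal decompositions of `F^n` into `t` nondegenerate subspaces of dimension `a` (unordered; counted as ordered ones divided by `t!`), whose stabilizers are the imprimitive subgroups of type Sp_a(q) ≀ S_t (maximality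 is not assumed); an element of `T` of prime order `r` (a symplectic matrix `x` with `x^r` scalar, `x` not scalar) fixes a point of Ω when it permutes the summands of some such decomposition. Let `r ≠ p` be an odd prime dividing the number of such decompositions, let `i` be the multiplicative order of `q` modulo `r`, `c = i` if `i` is even and `c = 2i` if `i` is odd, and write `k = n mod c`, `ℓ = a mod c`. Then every element of `T` of order `r` stabilizes such a decomposition if and only if `c ≤ a` and `k = t·ℓ`. -/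
theorem result {F : Type*} [Field F] [Fintype F] {p : ℕ} [Fact p.Prime] [CharP F p] {q : ℕ} (hq : Fintype.card F = q)
    (d : ℕ) (hd : 2 ≤ d) (hT : (d, q) ≠ (2, 2))
    (a t : ℕ) (hat : 2 * d = a * t) (ha : 2 ≤ a) (hae : Even a) (ht : 2 ≤ t)
    (r : ℕ) [Fact r.Prime] (hr2 : r ≠ 2) (hrp : r ≠ p) (hΩ : r ∣ Nat.card {D : Fin t → Submodule F (Fin d ⊕ Fin d → F) // (Cfsg.Geo.IsMDecomposition a D ∧ (∀ j, ∀ u ∈ D j, u ≠ 0 → ∃ v ∈ D j, Cfsg.sympForm d F u v ≠ 0) ∧
          (∀ j j', j ≠ j' → ∀ u ∈ D j, ∀ v ∈ D j', Cfsg.sympForm d F u v = 0))} / Nat.factorial t)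
    (i c : ℕ) (hi : i = orderOf (q : ZMod r)) (hc : c = if Even i then i else 2 * i) :
    (∀ x : ↥(Matrix.symplecticGroup (Fin d) F),
      (∃ z : F, ((x ^ r : ↥(Matrix.symplecticGroup (Fin d) F)) : Matrix (Fin d ⊕ Fin d) (Fin d ⊕ Fin d) F) = z • (1 : Matrix (Fin d ⊕ Fin d) (Fin d ⊕ Fin d) F)) →
      (∀ z : F, (x : Matrix (Fin d ⊕ Fin d) (Fin d ⊕ Fin d) F) ≠ z • (1 : Matrix (Fin d ⊕ Fin d) (Fin d ⊕ Fin d) F)) →
      ∃ D : Fin t → Submodule F (Fin d ⊕ Fin d → F), (Cfsg.Geo.IsMDecomposition a D ∧ (∀ j, ∀ u ∈ D j, u ≠ 0 → ∃ v ∈ D j, Cfsg.sympForm d F u v ≠ 0) ∧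
          (∀ j j', j ≠ j' → ∀ u ∈ D j, ∀ v ∈ D j', Cfsg.sympForm d F u v = 0)) ∧
        ∃ σ : Equiv.Perm (Fin t), ∀ j, (D j).map (Matrix.toLin' (x : Matrix (Fin d ⊕ Fin d) (Fin d ⊕ Fin d) F)) = D (σ j)) ↔
    (c ≤ a ∧ (2 * d) % c = t * (a % c)) := by
  classical
  subst hq
  have hr : r.Prime := Fact.out
  have hr3 : 3 ≤ r := by
    have := hr.two_le
    omega
  have hA := H99.sympForm_altForm (F := F) d
  have hND := H99.sympForm_ND (F := F) d
  have hfd := H99.finrank_symp d F
  have hND' : ∀ W : Submodule F (Fin d ⊕ Fin d → F), (∀ u ∈ W, u ≠ 0 → ∃ v ∈ W, Cfsg.sympForm d F u v ≠ 0) ↔ H99.ND (Cfsg.sympForm d F) W := by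
    intro W
    constructor
    · intro h u hu hu2
      by_contra hne
      obtain ⟨v, hv, hv2⟩ := h u hu hne
      exact hv2 (hu2 v hv)
    · intro h u hu hne
      by_contra hcon
      push Not at hcon
      exact hne (h u hu hcon)
  have hQ : ¬ r ∣ Fintype.card F := H99.prime_not_dvd_card hrp
  have hipos := H99.orderOf_pos_of_not_dvd (r := r) hQ
  have hcb : c = H99.blk r (Fintype.card F) := by
    rw [hc, hi]
    rfl
  have hcpos : 0 < c := by
    rw [hc]
    split_ifs <;> omega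
  have hce : Even c := by
    rw [hcb]
    exact H99.even_blk r _
  obtain ⟨m, hm⟩ := hae
  have hker : ∀ (f : (Fin d ⊕ Fin d → F) →ₗ[F] (Fin d ⊕ Fin d → F)) v, v ∈ LinearMap.ker (f - 1) ↔ f v = v := by
    intro f v
    rw [LinearMap.mem_ker, LinearMap.sub_apply, Module.End.one_apply, sub_eq_zero]
  constructor
  · intro H
    have hc2d : c ≤ 2 * d := by
      rw [hcb]
      exact blk_le_of_dvd hr2 hrp ⟨m, hm⟩ hat ha ht hΩ
    -- a general statement on elements with `k` blocks
    have hmain : ∀ k : ℕ, 0 < k → k * c ≤ 2 * d → ∃ (D : Fin t → Submodule F (Fin d ⊕ Fin d → F)) (f : (Fin d ⊕ Fin d → F) →ₗ[F] (Fin d ⊕ Fin d → F))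
        (σ : Equiv.Perm (Fin t)), Cfsg.Geo.IsMDecomposition a D ∧ (∀ j, H99.ND (Cfsg.sympForm d F) (D j)) ∧ f ^ r = 1 ∧
        (∀ u v, Cfsg.sympForm d F (f u) (f v) = Cfsg.sympForm d F u v) ∧ (∀ j, (D j).map f = D (σ j)) ∧
        finrank F (LinearMap.ker (f - 1)) + k * c = 2 * d ∧ σ ^ r = 1 := by
      intro k hk hkc
      obtain ⟨x, hx1, hx2⟩ := H99.exists_symp_elt (F := F) (d := d) hr2 hrp k (by rw [← hcb]; exact hkc)
      rw [← hcb] at hx2
      have hx0 : x ≠ 1 := by
        rintro rfl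
        have h1 : Matrix.toLin' ((1 : Matrix.symplecticGroup (Fin d) F) : Matrix (Fin d ⊕ Fin d) (Fin d ⊕ Fin d) F) - 1 = 0 := by
          change Matrix.toLin' (1 : Matrix (Fin d ⊕ Fin d) (Fin d ⊕ Fin d) F) - 1 = 0
          rw [Matrix.toLin'_one, sub_eq_zero]
          rfl
        rw [h1, LinearMap.ker_zero, finrank_top, hfd] at hx2
        have : 0 < k * c := Nat.mul_pos hk hcpos
        omega
      obtain ⟨D, ⟨hD1, hD2, hD3⟩, σ, hσ⟩ := H x ⟨1, by rw [hx1, one_smul]; rfl⟩ (H99.symp_not_scalar (by omega) hr2 x hx1 hx0)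
      have hfr : (Matrix.toLin' (x : Matrix (Fin d ⊕ Fin d) (Fin d ⊕ Fin d) F)) ^ r = 1 := by
        rw [← Matrix.toLin'_pow, ← H99.symp_coe_pow, hx1]
        change Matrix.toLin' (1 : Matrix (Fin d ⊕ Fin d) (Fin d ⊕ Fin d) F) = 1
        rw [Matrix.toLin'_one]
        rfl
      refine ⟨D, Matrix.toLin' (x : Matrix (Fin d ⊕ Fin d) (Fin d ⊕ Fin d) F), σ, hD1, fun j => (hND' _).mp (hD2 j), hfr, H99.sympForm_toLin' d x.2, hσ, hx2, ?_⟩
      apply H99.sigma_pow_eq_one hD1.indep _ hσ r 1 one_ne_zero (by rw [hfr, one_smul])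
      intro j h
      have h2 := hD1.finrank_eq j
      rw [h, finrank_bot] at h2
      omega
    -- fixed summands
    have hfixed : ∀ (D : Fin t → Submodule F (Fin d ⊕ Fin d → F)) (f : (Fin d ⊕ Fin d → F) →ₗ[F] (Fin d ⊕ Fin d → F)) (j : Fin t),
        (∀ v ∈ D j, f v ∈ D j) → H99.ND (Cfsg.sympForm d F) (D j) → f ^ r = 1 →
        (∀ u v, Cfsg.sympForm d F (f u) (f v) = Cfsg.sympForm d F u v) →
        c ∣ finrank F (D j) - finrank F (D j ⊓ LinearMap.ker (f - 1) : Submodule F (Fin d ⊕ Fin d → F)) := by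
      intro D f j h1 h2 h3 h4
      obtain ⟨k1, k2, k3, k4, k5⟩ := H99.split_fixed hrp hA.eform h4 h3 h1 h2
      have h6 := (H99.exists_isoBlocks hr2 hrp hA.eform (N := 1) ⟨0, (pow_zero p).symm⟩ (fun a => (pow_one a).symm) (H99.blk_spec hr2 hQ) h4 h3 _ k2 k3 k4 rfl).1
      rw [← hcb] at h6
      rw [← k5, Nat.add_sub_cancel_left]
      exact h6
    have hca : c ≤ a := by
      by_contra hcon
      push Not at hcon
      obtain ⟨D, f, σ, hD1, hD2, hfr, hfi, hσ, hdim, hσr⟩ := hmain 1 one_pos (by rw [one_mul]; exact hc2d)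
      rw [one_mul] at hdim
      by_cases hmv : ∃ j, σ j ≠ j
      · obtain ⟨j, hj⟩ := hmv
        have h1 := H99.finrank_ker_le_of_moved hD1.finrank_eq hD1.iSup_eq_top hσ hr hσr hfr (H99.natCast_ne_zero_of_ne hr hrp) hj
        have h2 : c ≤ r - 1 := by
          have h3 : i ∣ r - 1 := by
            rw [hi]
            exact H99.orderOf_dvd_sub_one hQ
          obtain ⟨e, he⟩ : Even (r - 1) := by
            obtain ⟨k, hk⟩ : Odd r := hr.eq_two_or_odd'.resolve_left hr2
            exact ⟨k, by omega⟩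
          have h4 : c ∣ r - 1 := by
            rw [hc]
            split_ifs with hev
            · exact h3
            · rw [Nat.not_even_iff_odd] at hev
              apply (Nat.Coprime.mul_dvd_of_dvd_of_dvd _ _ h3)
              · exact (Nat.coprime_two_left).mpr hev
              · exact ⟨e, by omega⟩
          exact Nat.le_of_dvd (by omega) h4
        have h3 : (r - 1) * 2 ≤ (r - 1) * a := Nat.mul_le_mul_left _ ha
        have h4 : t * a = 2 * d := by rw [hat, mul_comm]
        omega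
      · push Not at hmv
        have h1 : ∀ j, D j ≤ LinearMap.ker (f - 1) := by
          intro j
          have h2 : ∀ v ∈ D j, f v ∈ D j := by
            intro v hv
            have := hσ j
            rw [hmv j] at this
            rw [← this]
            exact ⟨v, hv, rfl⟩
          have h3 := hfixed D f j h2 (hD2 j) hfr hfi
          have h4 : finrank F (D j ⊓ LinearMap.ker (f - 1) : Submodule F (Fin d ⊕ Fin d → F)) ≤ finrank F (D j) := Submodule.finrank_mono inf_le_left
          have h5 : finrank F (D j) - finrank F (D j ⊓ LinearMap.ker (f - 1) : Submodule F (Fin d ⊕ Fin d → F)) = 0 := by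
            apply Nat.eq_zero_of_dvd_of_lt h3
            rw [hD1.finrank_eq]
            omega
          have h6 : D j ⊓ LinearMap.ker (f - 1) = D j := Submodule.eq_of_le_of_finrank_eq inf_le_left (by omega)
          exact inf_eq_left.mp h6
        have h2 : (⊤ : Submodule F (Fin d ⊕ Fin d → F)) ≤ LinearMap.ker (f - 1) := by
          rw [← hD1.iSup_eq_top]
          exact iSup_le h1
        have h3 := Submodule.finrank_mono h2
        rw [finrank_top, hfd] at h3
        omega
    refine ⟨hca, ?_⟩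
    have hk0 : 0 < (2 * d) / c := Nat.div_pos hc2d hcpos
    obtain ⟨D, f, σ, hD1, hD2, hfr, hfi, hσ, hdim, hσr⟩ := hmain ((2 * d) / c) hk0 (Nat.div_mul_le_self _ _)
    have hkd : finrank F (LinearMap.ker (f - 1)) = (2 * d) % c := by
      have := Nat.div_add_mod (2 * d) c
      rw [mul_comm] at this
      omega
    have hmod : (2 * d) % c < c := Nat.mod_lt _ hcpos
    have hnm : ∀ j, σ j = j := by
      intro j
      by_contra hj
      have h1 := H99.le_finrank_ker_of_moved hD1.indep hσ hr hσr hfr hj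
      rw [hD1.finrank_eq, hkd] at h1
      omega
    have h1 : ∀ j, a % c ≤ finrank F (D j ⊓ LinearMap.ker (f - 1) : Submodule F (Fin d ⊕ Fin d → F)) := by
      intro j
      have h2 : ∀ v ∈ D j, f v ∈ D j := by
        intro v hv
        have := hσ j
        rw [hnm j] at this
        rw [← this]
        exact ⟨v, hv, rfl⟩
      have h3 := hfixed D f j h2 (hD2 j) hfr hfi
      have h4 : finrank F (D j ⊓ LinearMap.ker (f - 1) : Submodule F (Fin d ⊕ Fin d → F)) ≤ finrank F (D j) := Submodule.finrank_mono inf_le_left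
      rw [hD1.finrank_eq] at h3 h4
      have h5 : finrank F (D j ⊓ LinearMap.ker (f - 1) : Submodule F (Fin d ⊕ Fin d → F)) ≡ a [MOD c] := (Nat.modEq_iff_dvd' h4).mpr h3
      rw [← h5]
      exact Nat.mod_le _ _
    have h2 : t * (a % c) ≤ (2 * d) % c := by
      have h3 := H99.sum_fixed_le (f := f) hD1.indep
      rw [hkd] at h3
      refine le_trans ?_ h3
      calc t * (a % c) = ∑ _j : Fin t, a % c := by rw [Finset.sum_const, Finset.card_univ, Fintype.card_fin, smul_eq_mul]
        _ ≤ _ := Finset.sum_le_sum (fun j _ => h1 j)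
    have h3 : (2 * d) % c = (t * (a % c)) % c := by
      rw [hat, mul_comm a t, Nat.mul_mod_mod]
    rw [h3]
    exact Nat.mod_eq_of_lt (by omega)
  · rintro ⟨hca, hmod⟩ x ⟨z, hz⟩ hxn
    obtain ⟨w, hw, hwr, hwi⟩ := H99.symp_reduce (by omega) hr2 x z hz
    set f := Matrix.toLin' (x : Matrix (Fin d ⊕ Fin d) (Fin d ⊕ Fin d) F) with hf
    have hw0 : w ≠ 0 := by
      rintro rfl
      rw [zero_mul] at hw
      exact zero_ne_one hw
    have hinj : Function.Injective f := H99.isom_injective hA.oform hND _ (H99.sympForm_toLin' d x.2)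
    -- parameters
    have ha1 : a = H99.blk r (Fintype.card F) * (a / c) + 2 * ((a % c) / 2) := by
      rw [← hcb]
      have h1 : Even (a % c) := even_mod ⟨m, hm⟩ hce
      have h2 := Nat.div_add_mod a c
      have h3 := Nat.two_mul_div_two_of_even h1
      omega
    have hge : t * (2 * ((a % c) / 2)) ≤ finrank F ((⊤ : Submodule F (Fin d ⊕ Fin d → F)) ⊓ LinearMap.ker (w • f - 1) : Submodule F (Fin d ⊕ Fin d → F)) := by
      have h1 : Even (a % c) := even_mod ⟨m, hm⟩ hce
      rw [Nat.two_mul_div_two_of_even h1, ← hmod]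
      obtain ⟨k1, k2, k3, k4, k5⟩ := H99.split_fixed hrp hA.eform hwi hwr (W := ⊤) (fun _ _ => Submodule.mem_top) hND
      have h6 := (H99.exists_isoBlocks hr2 hrp hA.eform (N := 1) ⟨0, (pow_zero p).symm⟩ (fun a => (pow_one a).symm) (H99.blk_spec hr2 hQ) hwi hwr _ k2 k3 k4 rfl).1
      rw [← hcb] at h6
      rw [finrank_top, hfd] at k5
      have h7 : finrank F ((⊤ : Submodule F (Fin d ⊕ Fin d → F)) ⊓ LinearMap.ker (w • f - 1) : Submodule F (Fin d ⊕ Fin d → F)) ≡ 2 * d [MOD c] := by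
        rw [← k5]
        exact (Nat.modEq_iff_dvd' (Nat.le_add_right _ _)).mpr (by rw [Nat.add_sub_cancel_left]; exact h6)
      rw [← h7]
      exact Nat.mod_le _ _
    obtain ⟨D, hD1, hD2, hD3⟩ := H99.exists_inv_decomp hr2 hrp hA hwi hwr ha1 t ⊤ (fun _ _ => Submodule.mem_top) hND
      (by rw [finrank_top, hfd, hat, mul_comm]) hge
    have hmap : ∀ j, (D j).map f = D j := by
      intro j
      apply Submodule.eq_of_le_of_finrank_eq (H99.map_le_of_smul hw0 (hD1 j).2.1)
      exact (LinearEquiv.finrank_eq (Submodule.equivMapOfInjective _ hinj (D j))).symm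
    exact ⟨D, ⟨⟨ht, by omega, fun j => (hD1 j).2.2.2, H99.indep_of_orth hA.oform (fun j => (hD1 j).2.2.1) hD2, hD3⟩, fun j => (hND' _).mpr (hD1 j).2.2.1, hD2⟩,
      Equiv.refl _, hmap⟩

end Cfsg.Agent.S5961
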