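import Cfsg.Statements.S5962
import Cfsg.Agent.H99.SympForm
import Cfsg.Agent.H99.HypSys

set_option autoImplicit false
open scoped MatrixGroups
open Cfsg

namespace Cfsg.Agent.S5962

/-- Involutions of PSp_n(q), q odd, and the subgroups GL_{n/2}(q).2. Here `T = PSp_n(q)`, `n = 2d ≥ 4`, `q` odd, realised through the symplectic matrices over the field `F` with `q` elements; Ω is the set of unordered pairs `{U, W}` of complementary totally isotropic `d`-spaces (`F^n = U ⊕ W`), whose stabilizers are the subgroups of type GL_d(q).2 (maximal except in some small cases; maximality is not assumed); an element of `T` of prime order `r` (a symplectic matrix `x` with `x^r` scalar, `x` not scalar) fixes such a pair when it fixes or interchanges `U` and `W`. If the number of such pairs is even, every involution of `T` fixes one of them (the action is 2-elusive). -/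
theorem result {F : Type*} [Field F] [Fintype F] {p : ℕ} [Fact p.Prime] [CharP F p] {q : ℕ} (hq : Fintype.card F = q)
    (d : ℕ) (hd : 2 ≤ d) (hT : (d, q) ≠ (2, 2)) (hodd : Odd q)
    (hΩ : 2 ∣ Nat.card {P : Submodule F (Fin d ⊕ Fin d → F) × Submodule F (Fin d ⊕ Fin d → F) // IsCompl P.1 P.2 ∧ (∀ u ∈ P.1, ∀ v ∈ P.1, Cfsg.sympForm d F u v = 0) ∧ (∀ u ∈ P.2, ∀ v ∈ P.2, Cfsg.sympForm d F u v = 0)} / 2)
    (x : ↥(Matrix.symplecticGroup (Fin d) F))
    (hx1 : ∃ z : F, ((x ^ 2 : ↥(Matrix.symplecticGroup (Fin d) F)) : Matrix (Fin d ⊕ Fin d) (Fin d ⊕ Fin d) F) = z • (1 : Matrix (Fin d ⊕ Fin d) (Fin d ⊕ Fin d) F))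
    (hx2 : ∀ z : F, (x : Matrix (Fin d ⊕ Fin d) (Fin d ⊕ Fin d) F) ≠ z • (1 : Matrix (Fin d ⊕ Fin d) (Fin d ⊕ Fin d) F)) :
    ∃ U W : Submodule F (Fin d ⊕ Fin d → F), IsCompl U W ∧ (∀ u ∈ U, ∀ v ∈ U, Cfsg.sympForm d F u v = 0) ∧ (∀ u ∈ W, ∀ v ∈ W, Cfsg.sympForm d F u v = 0) ∧
        ((U.map (Matrix.toLin' (x : Matrix (Fin d ⊕ Fin d) (Fin d ⊕ Fin d) F)) = U ∧ W.map (Matrix.toLin' (x : Matrix (Fin d ⊕ Fin d) (Fin d ⊕ Fin d) F)) = W) ∨
         (U.map (Matrix.toLin' (x : Matrix (Fin d ⊕ Fin d) (Fin d ⊕ Fin d) F)) = W ∧ W.map (Matrix.toLin' (x : Matrix (Fin d ⊕ Fin d) (Fin d ⊕ Fin d) F)) = U)) := by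
  classical
  obtain ⟨z, hz⟩ := hx1
  set f := Matrix.toLin' (x : Matrix (Fin d ⊕ Fin d) (Fin d ⊕ Fin d) F) with hf
  have hsq : ∀ v, f (f v) = z • v := H99.symp_sq_apply d x z hz
  have hz0 : z ≠ 0 := H99.symp_scalar_ne_zero d (by omega) x 2 z hz
  have hA := H99.sympForm_altForm (F := F) d
  have hB := hA.oform
  have hiso : ∀ u v, Cfsg.sympForm d F (f u) (f v) = Cfsg.sympForm d F u v :=
    fun u v => H99.sympForm_toLin' d x.2 u v
  have hxo : ∀ u v, Cfsg.sympForm d F u v = 0 → Cfsg.sympForm d F (f u) (f v) = 0 :=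
    fun u v h => by rw [hiso, h]
  have htwo : (2 : F) ≠ 0 := by
    intro h2
    have hchar : ringChar F = 2 := by
      have h3 : ringChar F ∣ 2 := ringChar.dvd (by exact_mod_cast h2)
      rcases (Nat.dvd_prime Nat.prime_two).mp h3 with h | h
      · exact absurd h (CharP.ringChar_ne_one)
      · exact h
    have := FiniteField.even_card_of_char_two hchar
    rw [hq] at this
    exact (Nat.not_even_iff_odd.mpr hodd) (Nat.even_iff.mpr this)
  have hzz : z = 1 ∨ z = -1 := by
    obtain ⟨u, v, huv⟩ : ∃ u v, Cfsg.sympForm d F u v ≠ 0 := by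
      have hne : (Pi.single (Sum.inl ⟨0, by omega⟩) 1 : Fin d ⊕ Fin d → F) ≠ 0 := by
        intro h
        have := congrFun h (Sum.inl ⟨0, by omega⟩)
        simp at this
      by_contra hcon
      push Not at hcon
      exact hne (H99.sympForm_ND d _ Submodule.mem_top (fun v _ => hcon _ v))
    have h1 := hiso (f u) (f v)
    rw [hsq, hsq, hiso, hA.smul_left, hA.smul_right, ← mul_assoc] at h1
    have h2 : z * z = 1 := mul_right_cancel₀ huv (by rw [h1, one_mul])
    exact mul_self_eq_one_iff.mp h2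
  have hcard : Module.finrank F (Fin d ⊕ Fin d → F) = Module.finrank F (Fin d ⊕ Fin d → F) := rfl
  rcases hzz with rfl | rfl
  · -- square 1: eigenvectors
    obtain ⟨ι, _, _, v, u, hS, hc⟩ := H99.exists_hypSys hA (fun v u => ∃ c : F, c ≠ 0 ∧ f v = c • v ∧ f u = c • u)
      f hxo (by
        intro W hW hND hinv
        obtain ⟨w, hw, hw0⟩ := (Submodule.ne_bot_iff W).mp hW
        obtain ⟨v, c, hv, hv0, hc1, hfv⟩ : ∃ (v : Fin d ⊕ Fin d → F) (c : F), v ∈ W ∧ v ≠ 0 ∧ c * c = 1 ∧ f v = c • v := by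
          by_cases h : w + f w = 0
          · refine ⟨w, -1, hw, hw0, by ring, ?_⟩
            rw [neg_smul, one_smul]
            exact (eq_neg_of_add_eq_zero_right h)
          · refine ⟨w + f w, 1, W.add_mem hw (hinv w hw), h, by ring, ?_⟩
            rw [map_add, hsq, one_smul, one_smul, add_comm]
        obtain ⟨u₀, hu₀, hvu₀⟩ : ∃ u₀ ∈ W, Cfsg.sympForm d F v u₀ ≠ 0 := by
          by_contra hcon
          push Not at hcon
          exact hv0 (hND v hv hcon)
        have hc0 : c ≠ 0 := by rintro rfl; simp at hc1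
        have hfu : f (u₀ + c • f u₀) = c • (u₀ + c • f u₀) := by
          rw [map_add, map_smul, hsq, one_smul, smul_add, smul_smul, hc1, one_smul, add_comm]
        refine ⟨v, hv, u₀ + c • f u₀, W.add_mem hu₀ (W.smul_mem c (hinv _ hu₀)), ?_, ⟨c, hc0, hfv, hfu⟩, ?_⟩
        · have h1 : Cfsg.sympForm d F v (f u₀) = c * Cfsg.sympForm d F v u₀ := by
            rw [← hiso v (f u₀), hsq, one_smul, hfv, hA.smul_left]
          rw [hA.add_right, hA.smul_right, h1, ← mul_assoc, hc1, one_mul, ← two_mul]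
          exact mul_ne_zero htwo hvu₀
        · rw [Submodule.span_le]
          intro y hy
          rcases hy with rfl | hy
          · exact H99.mem_of_smul_mem hc0 hfv ⟨y, Submodule.subset_span (by simp), rfl⟩
          · rw [Set.mem_singleton_iff.mp hy]
            exact H99.mem_of_smul_mem hc0 hfu ⟨_, Submodule.subset_span (by simp), rfl⟩)
      _ ⊤ (finrank_top F _) (H99.sympForm_ND d) (fun _ _ => Submodule.mem_top)
    have hcompl := H99.hypSys_isCompl hA hS hc (H99.sympForm_ND d)
    refine ⟨_, _, hcompl, H99.span_range_isotropic hA hS.vv, H99.span_range_isotropic hA hS.uu, Or.inl ⟨?_, ?_⟩⟩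
    · apply le_antisymm
      · rw [Submodule.map_span, Submodule.span_le]
        rintro _ ⟨_, ⟨i, rfl⟩, rfl⟩
        obtain ⟨c, hc0, h1, h2⟩ := hS.rel i
        show f (v i) ∈ _
        rw [h1]
        exact Submodule.smul_mem _ _ (Submodule.subset_span ⟨i, rfl⟩)
      · rw [Submodule.span_le]
        rintro _ ⟨i, rfl⟩
        obtain ⟨c, hc0, h1, h2⟩ := hS.rel i
        exact H99.mem_of_smul_mem hc0 h1 ⟨_, Submodule.subset_span ⟨i, rfl⟩, rfl⟩
    · apply le_antisymm
      · rw [Submodule.map_span, Submodule.span_le]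
        rintro _ ⟨_, ⟨i, rfl⟩, rfl⟩
        obtain ⟨c, hc0, h1, h2⟩ := hS.rel i
        show f (u i) ∈ _
        rw [h2]
        exact Submodule.smul_mem _ _ (Submodule.subset_span ⟨i, rfl⟩)
      · rw [Submodule.span_le]
        rintro _ ⟨i, rfl⟩
        obtain ⟨c, hc0, h1, h2⟩ := hS.rel i
        exact H99.mem_of_smul_mem hc0 h2 ⟨_, Submodule.subset_span ⟨i, rfl⟩, rfl⟩
  · -- square -1
    obtain ⟨ι, _, _, v, u, hS, hc⟩ := H99.exists_hypSys hA (fun v u => u = f v)
      f hxo (by
        intro W hW hND hinv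
        obtain ⟨v, hv, hvv⟩ : ∃ v ∈ W, Cfsg.sympForm d F v (f v) ≠ 0 := by
          by_contra hcon
          push Not at hcon
          obtain ⟨w, hw, hw0⟩ := (Submodule.ne_bot_iff W).mp hW
          apply hw0
          apply hND w hw
          intro b hb
          have hpol : ∀ a ∈ W, ∀ b ∈ W, Cfsg.sympForm d F a (f b) = 0 := by
            intro a ha b hb
            have h3 := hcon (a + b) (W.add_mem ha hb)
            rw [map_add, hA.add_left, hA.add_right, hA.add_right, hcon a ha, hcon b hb] at h3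
            have h4 : Cfsg.sympForm d F b (f a) = Cfsg.sympForm d F a (f b) := by
              rw [← hiso b (f a), hsq, hA.smul_right, hA.skew]; ring
            rw [h4] at h3
            have h5 : 2 * Cfsg.sympForm d F a (f b) = 0 := by linear_combination h3
            exact (mul_eq_zero.mp h5).resolve_left htwo
          have h6 := hpol w hw (-(f b)) (W.neg_mem (hinv b hb))
          rw [map_neg, hsq, neg_smul, one_smul, neg_neg] at h6
          exact h6
        refine ⟨v, hv, f v, hinv v hv, hvv, rfl, ?_⟩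
        rw [Submodule.span_le]
        intro y hy
        rcases hy with rfl | hy
        · exact H99.mem_of_smul_mem hz0 (hsq y) ⟨_, Submodule.subset_span (by simp), rfl⟩
        · rw [Set.mem_singleton_iff.mp hy]
          exact ⟨v, Submodule.subset_span (by simp), rfl⟩)
      _ ⊤ (finrank_top F _) (H99.sympForm_ND d) (fun _ _ => Submodule.mem_top)
    have hcompl := H99.hypSys_isCompl hA hS hc (H99.sympForm_ND d)
    refine ⟨_, _, hcompl, H99.span_range_isotropic hA hS.vv, H99.span_range_isotropic hA hS.uu, Or.inr ⟨?_, ?_⟩⟩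
    · rw [Submodule.map_span, ← Set.range_comp]
      congr 1
      ext y
      constructor
      · rintro ⟨i, rfl⟩; exact ⟨i, hS.rel i⟩
      · rintro ⟨i, rfl⟩; exact ⟨i, (hS.rel i).symm⟩
    · apply le_antisymm
      · rw [Submodule.map_span, Submodule.span_le]
        rintro _ ⟨_, ⟨i, rfl⟩, rfl⟩
        show f (u i) ∈ _
        rw [hS.rel i, hsq]
        exact Submodule.smul_mem _ _ (Submodule.subset_span ⟨i, rfl⟩)
      · rw [Submodule.span_le]
        rintro _ ⟨i, rfl⟩
        refine H99.mem_of_smul_mem hz0 (y := f (u i)) ?_ ⟨_, Submodule.subset_span ⟨i, rfl⟩, rfl⟩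
        rw [hS.rel i, hsq]

end Cfsg.Agent.S5962
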