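import Cfsg.Statements.S5963
import Cfsg.Agent.H99.SympTrans

set_option autoImplicit false
open scoped MatrixGroups
open Cfsg

namespace Cfsg.Agent.S5963

open Module Matrix Polynomial

attribute [local instance] H99.spAct

section
variable {F : Type*} [Field F] [Fintype F] {p : ℕ} [Fact p.Prime] [CharP F p] {r : ℕ} [Fact r.Prime] {d : ℕ}

/-- counting pairs of complementary totally isotropic subspaces -/
theorem dvd_of_dvd_card (hd : 2 ≤ d) (hr2 : r ≠ 2) (hrp : r ≠ p)
    (hΩ : r ∣ Nat.card {P : Submodule F (Fin d ⊕ Fin d → F) × Submodule F (Fin d ⊕ Fin d → F) // IsCompl P.1 P.2 ∧ (∀ u ∈ P.1, ∀ v ∈ P.1, Cfsg.sympForm d F u v = 0) ∧ (∀ u ∈ P.2, ∀ v ∈ P.2, Cfsg.sympForm d F u v = 0)} / 2) :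
    Even (orderOf ((Fintype.card F : ℕ) : ZMod r)) ∧ orderOf ((Fintype.card F : ℕ) : ZMod r) ≤ 2 * d := by
  classical
  have hr : r.Prime := Fact.out
  set X := {P : Submodule F (Fin d ⊕ Fin d → F) × Submodule F (Fin d ⊕ Fin d → F) // IsCompl P.1 P.2 ∧ (∀ u ∈ P.1, ∀ v ∈ P.1, Cfsg.sympForm d F u v = 0) ∧ (∀ u ∈ P.2, ∀ v ∈ P.2, Cfsg.sympForm d F u v = 0)} with hX
  have hfd : finrank F (Fin d ⊕ Fin d → F) = 2 * d := by
    rw [finrank_fintype_fun_eq_card, Fintype.card_sum, Fintype.card_fin]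
    ring
  have hA := H99.sympForm_altForm (F := F) d
  have hND := H99.sympForm_ND (F := F) d
  have hdim : ∀ P : X, finrank F P.1.1 = d ∧ finrank F P.1.2 = d := by
    intro P
    have h1 : ∀ U : Submodule F (Fin d ⊕ Fin d → F), (∀ u ∈ U, ∀ v ∈ U, Cfsg.sympForm d F u v = 0) → finrank F U ≤ d := by
      intro U hU
      have h2 := hA.eform.finrank_add_orth hND U
      have h3 : U ≤ H99.orth hA.eform.oform U := fun u hu v hv => hU u hu v hv
      have h4 := Submodule.finrank_mono h3
      omega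
    have h2 := Submodule.finrank_add_eq_of_isCompl P.2.1
    have h3 := h1 _ P.2.2.1
    have h4 := h1 _ P.2.2.2
    omega
  -- the number of pairs is even
  have hfin : Finite X := inferInstance
  have : Fintype X := Fintype.ofFinite X
  let f : Function.End X := fun P => ⟨(P.1.2, P.1.1), P.2.1.symm, P.2.2.2, P.2.2.1⟩
  have hf1 : f ^ 2 ^ 1 = 1 := by
    funext P
    rfl
  have heven : 2 ∣ Nat.card X := by
    have h := Equiv.Perm.card_fixedPoints_modEq (f := f) (p := 2) (n := 1) hf1
    have h2 : Fintype.card f.fixedPoints = 0 := by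
      rw [Fintype.card_eq_zero_iff]
      refine ⟨fun P => ?_⟩
      have h3 : f P.1 = P.1 := P.2
      have h4 : P.1.1.2 = P.1.1.1 := congrArg (fun Q : X => Q.1.1) h3
      have h5 := P.1.2.1.disjoint
      rw [h4, disjoint_self] at h5
      have h6 := (hdim P.1).1
      rw [h5, finrank_bot] at h6
      omega
    rw [h2] at h
    rw [Nat.card_eq_fintype_card]
    exact (Nat.modEq_zero_iff_dvd).mp h
  have hrX : r ∣ Nat.card X := by
    obtain ⟨m, hm⟩ := heven
    rw [hm, Nat.mul_div_cancel_left _ (by norm_num)] at hΩ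
    rw [hm]
    exact hΩ.mul_left _
  -- the stabilizer
  let y₀ : Submodule F (Fin d ⊕ Fin d → F) × Submodule F (Fin d ⊕ Fin d → F) := (H99.topSub d F, H99.botSub d F)
  have hcompl : IsCompl (H99.topSub d F) (H99.botSub d F) := by
    constructor
    · rw [Submodule.disjoint_def]
      intro v h1 h2
      rw [H99.mem_topSub] at h1
      rw [H99.mem_botSub] at h2
      funext s
      rcases s with i | i
      · exact h2 i
      · exact h1 i
    · rw [codisjoint_iff, eq_top_iff]
      intro v _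
      rw [Submodule.mem_sup]
      refine ⟨fun s => Sum.elim (fun i => v (Sum.inl i)) (fun _ => 0) s, ?_, fun s => Sum.elim (fun _ => 0) (fun i => v (Sum.inr i)) s, ?_, ?_⟩
      · rw [H99.mem_topSub]
        intro i
        rfl
      · rw [H99.mem_botSub]
        intro i
        rfl
      · funext s
        rcases s with i | i <;> simp
  have htop : ∀ u ∈ H99.topSub d F, ∀ v ∈ H99.topSub d F, Cfsg.sympForm d F u v = 0 := by
    intro u hu v hv
    rw [H99.mem_topSub] at hu hv
    rw [H99.sympForm_eq]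
    apply Finset.sum_eq_zero
    intro i _
    rw [hu, hv]
    ring
  have hbot : ∀ u ∈ H99.botSub d F, ∀ v ∈ H99.botSub d F, Cfsg.sympForm d F u v = 0 := by
    intro u hu v hv
    rw [H99.mem_botSub] at hu hv
    rw [H99.sympForm_eq]
    apply Finset.sum_eq_zero
    intro i _
    rw [hu, hv]
    ring
  have hinj : ∀ g : Matrix.symplecticGroup (Fin d) F, Function.Injective (Matrix.toLin' (g : Matrix (Fin d ⊕ Fin d) (Fin d ⊕ Fin d) F)) := fun g =>
    H99.isom_injective hA.oform hND _ (H99.sympForm_toLin' d g.2)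
  have horb : ∀ y : Submodule F (Fin d ⊕ Fin d → F) × Submodule F (Fin d ⊕ Fin d → F),
      (IsCompl y.1 y.2 ∧ (∀ u ∈ y.1, ∀ v ∈ y.1, Cfsg.sympForm d F u v = 0) ∧ (∀ u ∈ y.2, ∀ v ∈ y.2, Cfsg.sympForm d F u v = 0)) ↔
      y ∈ MulAction.orbit (Matrix.symplecticGroup (Fin d) F) y₀ := by
    rintro ⟨U, W⟩
    constructor
    · intro h
      obtain ⟨h1, h2⟩ := hdim ⟨(U, W), h⟩
      obtain ⟨g, hg1, hg2⟩ := H99.exists_symp_map_pair h.1 h.2.1 h.2.2 h1 h2
      exact ⟨g, Prod.ext hg1 hg2⟩
    · rintro ⟨g, hg⟩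
      have h1 : (H99.topSub d F).map (Matrix.toLin' (g : Matrix (Fin d ⊕ Fin d) (Fin d ⊕ Fin d) F)) = U := congrArg Prod.fst hg
      have h2 : (H99.botSub d F).map (Matrix.toLin' (g : Matrix (Fin d ⊕ Fin d) (Fin d ⊕ Fin d) F)) = W := congrArg Prod.snd hg
      subst h1
      subst h2
      refine ⟨?_, ?_, ?_⟩
      · let e := LinearEquiv.ofInjectiveEndo _ (hinj g)
        have h3 := hcompl.map (Submodule.orderIsoMapComap e)
        exact h3
      · rintro _ ⟨u, hu, rfl⟩ _ ⟨v, hv, rfl⟩
        rw [H99.sympForm_toLin' d g.2]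
        exact htop u hu v hv
      · rintro _ ⟨u, hu, rfl⟩ _ ⟨v, hv, rfl⟩
        rw [H99.sympForm_toLin' d g.2]
        exact hbot u hu v hv
  have hidx := H99.card_eq_index_stabilizer y₀ horb
  rw [hidx] at hrX
  set q := Fintype.card F with hq
  have hq1 : 1 < q := Fintype.one_lt_card
  -- the group order
  have hG := Cfsg.Agent.ClassSp.card_fin (F := F) d
  have hL : Nat.card (GL (Fin d) F) = q ^ (∑ j ∈ Finset.range d, j) * H99.qfac q d := H99.card_GL_qfac
  have hqf : H99.qfac q d * ∏ i ∈ Finset.range d, (q ^ (i + 1) + 1) = ∏ i ∈ Finset.range d, (q ^ (2 * (i + 1)) - 1) := by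
    have h1 : H99.qfac q d = ∏ i ∈ Finset.range d, (q ^ (i + 1) - 1) := rfl
    rw [h1, ← Finset.prod_mul_distrib]
    apply Finset.prod_congr rfl
    intro i _
    have h2 : 1 ≤ q ^ (i + 1) := Nat.one_le_pow _ _ (by omega)
    obtain ⟨a, ha⟩ : ∃ a, q ^ (i + 1) = a + 1 := ⟨q ^ (i + 1) - 1, by omega⟩
    rw [mul_comm 2, pow_mul, ha, Nat.add_sub_cancel]
    have : (a + 1) ^ 2 = a * (a + 1 + 1) + 1 := by ring
    omega
  have hle : ∑ j ∈ Finset.range d, j ≤ d ^ 2 := by
    calc ∑ j ∈ Finset.range d, j ≤ ∑ j ∈ Finset.range d, d := Finset.sum_le_sum (fun j hj => (Finset.mem_range.mp hj).le)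
      _ = d ^ 2 := by rw [Finset.sum_const, Finset.card_range, smul_eq_mul, pow_two]
  have hdvd : r ∣ q ^ (d ^ 2 - ∑ j ∈ Finset.range d, j) * ∏ i ∈ Finset.range d, (q ^ (i + 1) + 1) := by
    apply H99.dvd_of_dvd_index (MulAction.stabilizer (Matrix.symplecticGroup (Fin d) F) y₀) (Cfsg.Agent.ClGeo.leviHom d F)
      Cfsg.Agent.ClGeo.leviHom_injective _ hrX
    · rw [hL, hG, ← hqf]
      have h1 : q ^ (d ^ 2) = q ^ (d ^ 2 - ∑ j ∈ Finset.range d, j) * q ^ (∑ j ∈ Finset.range d, j) := by
        rw [← pow_add, Nat.sub_add_cancel hle]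
      rw [h1]
      ring
    · intro A
      rw [MulAction.mem_stabilizer_iff]
      have hfix : ∀ U : Submodule F (Fin d ⊕ Fin d → F), (∀ v ∈ U, (Matrix.toLin' ((Cfsg.Agent.ClGeo.leviHom d F A : Matrix.symplecticGroup (Fin d) F) : Matrix (Fin d ⊕ Fin d) (Fin d ⊕ Fin d) F)) v ∈ U) →
          Cfsg.Agent.ClGeo.leviHom d F A • U = U := by
        intro U hU
        apply Submodule.eq_of_le_of_finrank_eq
        · rintro _ ⟨v, hv, rfl⟩
          exact hU v hv
        · exact (LinearEquiv.finrank_eq (Submodule.equivMapOfInjective _ (hinj _) U)).symm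
      apply Prod.ext
      · apply hfix
        intro v hv
        change v ∈ H99.topSub d F at hv
        change _ ∈ H99.topSub d F
        rw [H99.mem_topSub] at hv ⊢
        intro i
        rw [Matrix.toLin'_apply, Cfsg.Agent.ClGeo.leviHom_coe, Matrix.fromBlocks_mulVec]
        have h1 : v ∘ Sum.inr = 0 := by
          funext i
          exact hv i
        rw [h1]
        simp
      · apply hfix
        intro v hv
        change v ∈ H99.botSub d F at hv
        change _ ∈ H99.botSub d F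
        rw [H99.mem_botSub] at hv ⊢
        intro i
        rw [Matrix.toLin'_apply, Cfsg.Agent.ClGeo.leviHom_coe, Matrix.fromBlocks_mulVec]
        have h1 : v ∘ Sum.inl = 0 := by
          funext i
          exact hv i
        rw [h1]
        simp
  have hQ : ¬ r ∣ q := H99.prime_not_dvd_card hrp
  rcases hr.dvd_mul.mp hdvd with h | h
  · exact absurd (hr.dvd_of_dvd_pow h) hQ
  · obtain ⟨i, hi, h1⟩ := (Prime.dvd_finsetProd_iff hr.prime _).mp h
    have h2 : H99.SelfDual r 1 q := ⟨i + 1, by rw [one_mul]; exact h1⟩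
    refine ⟨(H99.selfDual_iff_even hr2 hQ).mp h2, ?_⟩
    have h3 : r ∣ q ^ (2 * (i + 1)) - 1 := by
      have h4 : q ^ (2 * (i + 1)) - 1 = (q ^ (i + 1) - 1) * (q ^ (i + 1) + 1) := by
        have h2 : 1 ≤ q ^ (i + 1) := Nat.one_le_pow _ _ (by omega)
        obtain ⟨a, ha⟩ : ∃ a, q ^ (i + 1) = a + 1 := ⟨q ^ (i + 1) - 1, by omega⟩
        rw [mul_comm 2, pow_mul, ha, Nat.add_sub_cancel]
        have : (a + 1) ^ 2 = a * (a + 1 + 1) + 1 := by ring
        omega
      rw [h4]
      exact h1.mul_left _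
    rw [H99.dvd_pow_sub_one_iff (by omega)] at h3
    have h4 := Nat.le_of_dvd (by omega) h3
    have h5 := Finset.mem_range.mp hi
    omega

end


/-- Derangements of odd prime order of PSp_n(q), q odd, on pairs of complementary totally isotropic subspaces. Here `T = PSp_n(q)`, `n = 2d ≥ 4`, `q` odd, realised through the symplectic matrices over the field `F` with `q` elements; Ω is the set of unordered pairs `{U, W}` of complementary totally isotropic `d`-spaces (`F^n = U ⊕ W`), whose stabilizers are the subgroups of type GL_d(q).2 (maximal except in some small cases; maximality is not assumed); an element of `T` of prime order `r` (a symplectic matrix `x` with `x^r` scalar, `x` not scalar) fixes such a pair when it fixes or interchanges `U` and `W`. For every odd prime `r ≠ p` dividing the number of such pairs, some element of `T` of order `r` fixes no such pair (the action is never `r`-elusive for odd `r ≠ p`). -/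
theorem result {F : Type*} [Field F] [Fintype F] {p : ℕ} [Fact p.Prime] [CharP F p] {q : ℕ} (hq : Fintype.card F = q)
    (d : ℕ) (hd : 2 ≤ d) (hT : (d, q) ≠ (2, 2)) (hodd : Odd q)
    (r : ℕ) [Fact r.Prime] (hr2 : r ≠ 2) (hrp : r ≠ p) (hΩ : r ∣ Nat.card {P : Submodule F (Fin d ⊕ Fin d → F) × Submodule F (Fin d ⊕ Fin d → F) // IsCompl P.1 P.2 ∧ (∀ u ∈ P.1, ∀ v ∈ P.1, Cfsg.sympForm d F u v = 0) ∧ (∀ u ∈ P.2, ∀ v ∈ P.2, Cfsg.sympForm d F u v = 0)} / 2) :
    ∃ x : ↥(Matrix.symplecticGroup (Fin d) F),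
      (∃ z : F, ((x ^ r : ↥(Matrix.symplecticGroup (Fin d) F)) : Matrix (Fin d ⊕ Fin d) (Fin d ⊕ Fin d) F) = z • (1 : Matrix (Fin d ⊕ Fin d) (Fin d ⊕ Fin d) F)) ∧
      (∀ z : F, (x : Matrix (Fin d ⊕ Fin d) (Fin d ⊕ Fin d) F) ≠ z • (1 : Matrix (Fin d ⊕ Fin d) (Fin d ⊕ Fin d) F)) ∧
      ¬ (∃ U W : Submodule F (Fin d ⊕ Fin d → F), IsCompl U W ∧ (∀ u ∈ U, ∀ v ∈ U, Cfsg.sympForm d F u v = 0) ∧ (∀ u ∈ W, ∀ v ∈ W, Cfsg.sympForm d F u v = 0) ∧
        ((U.map (Matrix.toLin' (x : Matrix (Fin d ⊕ Fin d) (Fin d ⊕ Fin d) F)) = U ∧ W.map (Matrix.toLin' (x : Matrix (Fin d ⊕ Fin d) (Fin d ⊕ Fin d) F)) = W) ∨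
         (U.map (Matrix.toLin' (x : Matrix (Fin d ⊕ Fin d) (Fin d ⊕ Fin d) F)) = W ∧ W.map (Matrix.toLin' (x : Matrix (Fin d ⊕ Fin d) (Fin d ⊕ Fin d) F)) = U))) := by
  classical
  subst hq
  have hr : r.Prime := Fact.out
  have hfd : finrank F (Fin d ⊕ Fin d → F) = 2 * d := by
    rw [finrank_fintype_fun_eq_card, Fintype.card_sum, Fintype.card_fin]
    ring
  have hA := H99.sympForm_altForm (F := F) d
  have hND := H99.sympForm_ND (F := F) d
  obtain ⟨he, hle⟩ := dvd_of_dvd_card hd hr2 hrp hΩ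
  have hQ : ¬ r ∣ Fintype.card F := H99.prime_not_dvd_card hrp
  have hipos := H99.orderOf_pos_of_not_dvd (r := r) hQ
  set i := orderOf ((Fintype.card F : ℕ) : ZMod r) with hi
  have hblk : H99.blk r (Fintype.card F) = i := by
    unfold H99.blk
    rw [if_pos he]
  obtain ⟨x, hx1, hx2⟩ := H99.exists_symp_elt (F := F) (d := d) hr2 hrp 1 (by rw [one_mul, hblk]; exact hle)
  rw [hblk, one_mul] at hx2
  have hxr : (x : Matrix (Fin d ⊕ Fin d) (Fin d ⊕ Fin d) F) ^ r = 1 := by
    rw [← H99.symp_coe_pow, hx1]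
    rfl
  set f := Matrix.toLin' (x : Matrix (Fin d ⊕ Fin d) (Fin d ⊕ Fin d) F) with hf
  have hfr : f ^ r = 1 := by
    rw [hf, ← Matrix.toLin'_pow, hxr, Matrix.toLin'_one]
    rfl
  have hfi : ∀ u v, Cfsg.sympForm d F (f u) (f v) = Cfsg.sympForm d F u v := H99.sympForm_toLin' d x.2
  have hker : ∀ v, v ∈ LinearMap.ker (f - 1) ↔ f v = v := by
    intro v
    rw [LinearMap.mem_ker, LinearMap.sub_apply, Module.End.one_apply, sub_eq_zero]
  have hinj : Function.Injective f := H99.isom_injective hA.oform hND _ hfi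
  refine ⟨x, ⟨1, by rw [hx1, one_smul]; rfl⟩, ?_, ?_⟩
  · intro z hz
    have h1 : f = z • 1 := by
      rw [hf, hz]
      ext v
      simp
    by_cases hz1 : z = 1
    · rw [h1, hz1, one_smul, sub_self, LinearMap.ker_zero, finrank_top, hfd] at hx2
      omega
    · apply hz1
      have h2 : ∃ u v, Cfsg.sympForm d F u v ≠ 0 := by
        by_contra hcon
        push Not at hcon
        have h3 : (⊤ : Submodule F (Fin d ⊕ Fin d → F)) = ⊥ := by
          rw [eq_bot_iff]
          intro u hu
          exact hND u hu (fun v _ => hcon u v)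
        have h4 : finrank F (⊤ : Submodule F (Fin d ⊕ Fin d → F)) = 0 := by rw [h3, finrank_bot]
        rw [finrank_top, hfd] at h4
        omega
      obtain ⟨u, v, huv⟩ := h2
      have h3 := hfi u v
      rw [h1] at h3
      simp only [LinearMap.smul_apply, Module.End.one_apply] at h3
      rw [hA.smul_left, hA.smul_right] at h3
      have h4 : z * z = 1 := by
        apply mul_right_cancel₀ huv
        rw [one_mul, mul_assoc]
        exact h3
      have h5 : z ^ r = 1 := by
        have h6 := hfr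
        rw [h1, _root_.smul_pow, one_pow] at h6
        have hne : ∃ w : Fin d ⊕ Fin d → F, w ≠ 0 := ⟨u, by rintro rfl; exact huv (hA.oform.zero_left v)⟩
        obtain ⟨w, hw⟩ := hne
        have h7 := LinearMap.congr_fun h6 w
        rw [LinearMap.smul_apply, Module.End.one_apply] at h7
        have h8 : (z ^ r - 1) • w = 0 := by rw [sub_smul, one_smul, h7, sub_self]
        rcases smul_eq_zero.mp h8 with h9 | h9
        · exact sub_eq_zero.mp h9
        · exact absurd h9 hw
      obtain ⟨k, hk⟩ : Odd r := hr.eq_two_or_odd'.resolve_left hr2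
      rw [hk, pow_succ, pow_mul, pow_two, h4, one_pow, one_mul] at h5
      exact h5
  · rintro ⟨U, W, hc, hU, hW, hUW⟩
    have hUW' : (∀ v ∈ U, f v ∈ U) ∧ (∀ v ∈ W, f v ∈ W) := by
      rcases hUW with ⟨h1, h2⟩ | ⟨h1, h2⟩
      · constructor
        · intro v hv
          rw [← h1]
          exact ⟨v, hv, rfl⟩
        · intro v hv
          rw [← h2]
          exact ⟨v, hv, rfl⟩
      · exfalso
        have h3 : ∀ k : ℕ, U.map (f ^ (2 * k)) = U := by
          intro k
          induction k with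
          | zero => exact Submodule.map_id U
          | succ k ih =>
            have h4 : f ^ (2 * (k + 1)) = f ∘ₗ f ∘ₗ f ^ (2 * k) := by
              rw [mul_add, mul_one, show 2 * k + 2 = 2 * k + 1 + 1 by ring, pow_succ', pow_succ']
              rfl
            rw [h4, Submodule.map_comp, Submodule.map_comp, ih, h1, h2]
        obtain ⟨k, hk⟩ : Odd r := hr.eq_two_or_odd'.resolve_left hr2
        have h4 : U.map (f ^ r) = W := by
          have h5 : f ^ r = f ∘ₗ f ^ (2 * k) := by
            rw [hk, pow_succ']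
            rfl
          rw [h5, Submodule.map_comp, h3, h1]
        rw [hfr] at h4
        have h5 : U = W := by
          rw [← h4]
          exact (Submodule.map_id U).symm
        have h6 := hc.disjoint
        rw [h5, disjoint_self] at h6
        have h7 := hc.sup_eq_top
        rw [h5, h6, sup_bot_eq] at h7
        have h8 : finrank F (⊤ : Submodule F (Fin d ⊕ Fin d → F)) = 0 := by rw [← h7, finrank_bot]
        rw [finrank_top, hfd] at h8
        omega
    obtain ⟨hUi, hWi⟩ := hUW'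
    -- dimensions
    have h1 := H99.finrank_modEq_fixed_sub hrp f hfr U hUi
    have h2 := H99.finrank_modEq_fixed_sub hrp f hfr W hWi
    rw [← hi] at h1 h2
    have h3 : finrank F (U ⊓ LinearMap.ker (f - 1) : Submodule F (Fin d ⊕ Fin d → F)) + finrank F (W ⊓ LinearMap.ker (f - 1) : Submodule F (Fin d ⊕ Fin d → F)) =
        finrank F (LinearMap.ker (f - 1)) := by
      have h4 := Submodule.finrank_sup_add_finrank_inf_eq (U ⊓ LinearMap.ker (f - 1)) (W ⊓ LinearMap.ker (f - 1))
      have h5 : (U ⊓ LinearMap.ker (f - 1)) ⊓ (W ⊓ LinearMap.ker (f - 1)) = ⊥ := by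
        rw [← disjoint_iff]
        exact hc.disjoint.mono inf_le_left inf_le_left
      have h6 : (U ⊓ LinearMap.ker (f - 1)) ⊔ (W ⊓ LinearMap.ker (f - 1)) = LinearMap.ker (f - 1) := by
        apply le_antisymm (sup_le inf_le_right inf_le_right)
        intro v hv
        have h7 : v ∈ U ⊔ W := by rw [hc.sup_eq_top]; exact Submodule.mem_top
        obtain ⟨u, hu, w, hw, rfl⟩ := Submodule.mem_sup.mp h7
        rw [hker, map_add] at hv
        have h8 : f u - u = w - f w := by
          rw [sub_eq_sub_iff_add_eq_add, hv, add_comm]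
        have h9 : f u - u = 0 := by
          apply (Submodule.disjoint_def.mp hc.disjoint) _ (U.sub_mem (hUi u hu) hu)
          rw [h8]
          exact W.sub_mem hw (hWi w hw)
        have h10 : w - f w = 0 := by rw [← h8, h9]
        apply Submodule.add_mem_sup
        · exact ⟨hu, (hker u).mpr (sub_eq_zero.mp h9)⟩
        · exact ⟨hw, (hker w).mpr (sub_eq_zero.mp h10).symm⟩
      rw [h5, h6, finrank_bot, add_zero] at h4
      exact h4.symm
    have h4 := Submodule.finrank_add_eq_of_isCompl hc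
    rw [hfd] at h4
    have hUK : finrank F (U ⊓ LinearMap.ker (f - 1) : Submodule F (Fin d ⊕ Fin d → F)) ≤ finrank F U := Submodule.finrank_mono inf_le_left
    have hWK : finrank F (W ⊓ LinearMap.ker (f - 1) : Submodule F (Fin d ⊕ Fin d → F)) ≤ finrank F W := Submodule.finrank_mono inf_le_left
    have h5 : i ∣ finrank F U - finrank F (U ⊓ LinearMap.ker (f - 1) : Submodule F (Fin d ⊕ Fin d → F)) := (Nat.modEq_iff_dvd' hUK).mp h1.symm
    have h6 : i ∣ finrank F W - finrank F (W ⊓ LinearMap.ker (f - 1) : Submodule F (Fin d ⊕ Fin d → F)) := (Nat.modEq_iff_dvd' hWK).mp h2.symm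
    -- one of the two subspaces is fixed pointwise, hence so is the other
    have hkey : ∀ U W : Submodule F (Fin d ⊕ Fin d → F), IsCompl U W → (∀ u ∈ U, ∀ v ∈ U, Cfsg.sympForm d F u v = 0) → (∀ v ∈ U, f v ∈ U) →
        W ≤ LinearMap.ker (f - 1) → U ≤ LinearMap.ker (f - 1) := by
      intro U W hc hU hUi hW u hu
      rw [hker, ← sub_eq_zero]
      apply hND _ Submodule.mem_top
      intro v _
      have h7 : v ∈ U ⊔ W := by rw [hc.sup_eq_top]; exact Submodule.mem_top
      obtain ⟨a, ha, w, hw, rfl⟩ := Submodule.mem_sup.mp h7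
      rw [hA.add_right, hU _ (U.sub_mem (hUi u hu) hu) _ ha, zero_add, hA.oform.sub_left]
      have h8 := hfi u w
      rw [(hker w).mp (hW hw)] at h8
      rw [h8, sub_self]
    have hfinal : ¬ (U ≤ LinearMap.ker (f - 1) ∧ W ≤ LinearMap.ker (f - 1)) := by
      rintro ⟨h7, h8⟩
      rw [inf_eq_left.mpr h7, inf_eq_left.mpr h8] at h3
      omega
    rcases Nat.eq_zero_or_pos (finrank F U - finrank F (U ⊓ LinearMap.ker (f - 1) : Submodule F (Fin d ⊕ Fin d → F))) with h7 | h7
    · have h8 : U ≤ LinearMap.ker (f - 1) := by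
        have h9 : U ⊓ LinearMap.ker (f - 1) = U := Submodule.eq_of_le_of_finrank_eq inf_le_left (by omega)
        exact inf_eq_left.mp h9
      exact hfinal ⟨h8, hkey W U hc.symm hW hWi h8⟩
    · rcases Nat.eq_zero_or_pos (finrank F W - finrank F (W ⊓ LinearMap.ker (f - 1) : Submodule F (Fin d ⊕ Fin d → F))) with h8 | h8
      · have h9 : W ≤ LinearMap.ker (f - 1) := by
          have h9 : W ⊓ LinearMap.ker (f - 1) = W := Submodule.eq_of_le_of_finrank_eq inf_le_left (by omega)
          exact inf_eq_left.mp h9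
        exact hfinal ⟨hkey U W hc hU hUi h9, h9⟩
      · have h9 := Nat.le_of_dvd h7 h5
        have h10 := Nat.le_of_dvd h8 h6
        omega

end Cfsg.Agent.S5963
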