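import Cfsg.Statements.S5964
import Cfsg.Agent.H99.SubfieldGrp
import Cfsg.Agent.H99.SqForms
import Cfsg.Agent.H99.SLConj
-- import your own Cfsg.Agent.* helpers here

set_option autoImplicit false
open scoped MatrixGroups
open Cfsg

namespace Cfsg.Agent.S5964

open Module Matrix

lemma sq_toLin {F : Type*} [Field F] {n : ℕ} (x : Matrix (Fin n) (Fin n) F) (z : F)
    (h : x ^ 2 = z • (1 : Matrix (Fin n) (Fin n) F)) (v : Fin n → F) : Matrix.toLin' x (Matrix.toLin' x v) = z • v := by
  have := congrArg (fun M => Matrix.toLin' M v) h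
  simp only [pow_two, Matrix.toLin'_mul, LinearMap.comp_apply] at this
  rw [this]
  simp

/-- `-1` is a square and every element of the subfield is a square when the degree is two -/
lemma sq_facts {F : Type*} [Field F] [Fintype F] (F₀ : Subfield F) (hodd : Odd (Fintype.card F))
    (hcard : Fintype.card F = Nat.card F₀ ^ 2) : ∀ a : F, a ∈ F₀ → ∃ w : F, w * w = a := by
  intro a ha
  by_cases ha0 : a = 0
  · exact ⟨0, by rw [ha0, mul_zero]⟩
  have h2 : ringChar F ≠ 2 := by
    intro h
    have := FiniteField.even_card_of_char_two h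
    rw [Nat.odd_iff] at hodd
    omega
  have hfin : Finite F₀ := inferInstance
  have : Fintype F₀ := Fintype.ofFinite F₀
  have h1 : a ^ (Nat.card F₀ - 1) = 1 := by
    have h3 := FiniteField.pow_card_sub_one_eq_one (⟨a, ha⟩ : F₀) (by
      intro h; exact ha0 (congrArg Subtype.val h))
    rw [Nat.card_eq_fintype_card]
    exact congrArg Subtype.val h3
  have hodd0 : Odd (Nat.card F₀) := by
    rw [hcard] at hodd
    exact Nat.Odd.of_mul_left (m := Nat.card F₀) (n := Nat.card F₀) (by rw [← pow_two]; exact hodd)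
  obtain ⟨m, hm⟩ := hodd0
  have h4 : Fintype.card F / 2 = (Nat.card F₀ - 1) * (m + 1) := by
    rw [hcard, hm]
    have : (2 * m + 1) ^ 2 = 2 * ((2 * m + 1 - 1) * (m + 1)) + 1 := by
      rw [Nat.add_sub_cancel]; ring
    omega
  have h5 : a ^ (Fintype.card F / 2) = 1 := by
    rw [h4, pow_mul, h1, one_pow]
  obtain ⟨w, hw⟩ := (FiniteField.isSquare_iff h2 ha0).mpr h5
  exact ⟨w, hw.symm⟩

lemma nonsquare_neg {F : Type*} [Field F] [Fintype F] (F₀ : Subfield F) (hodd : Odd (Fintype.card F))
    (hcard : Fintype.card F = Nat.card F₀ ^ 2) (z : F) (hz : ∀ w, w * w ≠ z) : ∀ w, w * w ≠ -z := by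
  intro w hw
  obtain ⟨i, hi⟩ := sq_facts F₀ hodd hcard (-1) (F₀.neg_mem F₀.one_mem)
  apply hz (i * w)
  linear_combination (w * w) * hi - hw

/-- Involutions of PSL_n(q) and subfield subgroups. Here `T = PSL_n(F)` for a field `F` with `q = p^f` elements (`n ≥ 2`, `(n, q) ≠ (2, 2), (2, 3)`), `F₀` is the subfield with `q₀` elements where `q = q₀^k` for a prime `k`, and `H` is the subgroup of matrices of determinant 1 lying in the subfield group of `F₀` (invertible matrices over `F₀` times scalars) — a maximal subgroup of type GL_n(q₀) (the case `n = 2`, `q₀ = 2` is excluded); Ω is the set of `T`-conjugates of `H` (cosets of `H`), so an element of `T` of prime order `r` (a matrix `x` of determinant 1 with `x^r` scalar, `x` not scalar) fixes a point of Ω when some conjugate of `x` by a matrix of determinant 1 lies in `H`. Suppose the index of `H` is even. Then every involution of `T` is conjugate in `T` into `H` if and only if either `q` is even, or `k = 2` and `(n)_2 ≤ (q − 1)_2`. (For `q` odd and `k`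 odd the index of `H` is odd, so that case does not arise.) -/
theorem result {F : Type*} [Field F] [Fintype F] {p : ℕ} [Fact p.Prime] [CharP F p] {q : ℕ} (hq : Fintype.card F = q)
    (n : ℕ) (hn : 2 ≤ n) (hT : (n, q) ≠ (2, 2) ∧ (n, q) ≠ (2, 3))
    (F₀ : Subfield F) (k q₀ : ℕ) (hk : k.Prime) (hF₀ : Nat.card ↥F₀ = q₀) (hqk : q = q₀ ^ k) (hC5 : ¬ (n = 2 ∧ q₀ = 2)) (hΩ : 2 ∣ ((Cfsg.Geo.subfieldSubgroup F₀ 1).comap (Matrix.SpecialLinearGroup.toGL : Matrix.SpecialLinearGroup (Fin n) F →* GL (Fin n) F)).index) :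
    (∀ x : Matrix.SpecialLinearGroup (Fin n) F,
      (∃ z : F, ((x ^ 2 : Matrix.SpecialLinearGroup (Fin n) F) : Matrix (Fin n) (Fin n) F) = z • (1 : Matrix (Fin n) (Fin n) F)) →
      (∀ z : F, (x : Matrix (Fin n) (Fin n) F) ≠ z • (1 : Matrix (Fin n) (Fin n) F)) →
      ∃ P : Matrix.SpecialLinearGroup (Fin n) F, P⁻¹ * x * P ∈ ((Cfsg.Geo.subfieldSubgroup F₀ 1).comap (Matrix.SpecialLinearGroup.toGL : Matrix.SpecialLinearGroup (Fin n) F →* GL (Fin n) F))) ↔
    (Odd q → (k = 2 ∧ padicValNat 2 n ≤ padicValNat 2 (q - 1))) := by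
  subst hq
  subst hF₀
  have hn0 : n ≠ 0 := by omega
  have hpos : 0 < n := by omega
  have : Nonempty (Fin n) := ⟨⟨0, by omega⟩⟩
  constructor
  · intro hall hodd
    have h2 : (2 : F) ≠ 0 := H99.two_ne_zero_of_odd hodd
    have hk2 : k = 2 := by
      rcases hk.eq_two_or_odd' with h | h
      · exact h
      · exfalso
        apply H99.index_SL_subfield (n := n) F₀ h hodd hqk hpos
        refine hΩ.trans (Subgroup.index_dvd_of_le ?_)
        rintro _ ⟨M, rfl⟩
        rw [Subgroup.mem_comap]
        apply H99.mem_subfieldSubgroup_of_eq F₀ _ 1 (M : Matrix (Fin n) (Fin n) F₀) _ hpos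
        rw [one_smul]
        rfl
    refine ⟨hk2, ?_⟩
    subst hk2
    by_contra hv
    push Not at hv
    have he : Even n := by
      rw [even_iff_two_dvd]
      by_contra h
      rw [padicValNat.eq_zero_of_not_dvd h] at hv
      omega
    obtain ⟨ζ, hζ0, hζs, hζ⟩ := H99.exists_nonsquare_pow_half (F := F) hn0 hodd hv
    -- the block matrix with square `-ζ`
    obtain ⟨m, hm⟩ := he
    have hzs : ∀ w, w * w ≠ -ζ := nonsquare_neg F₀ hodd hqk ζ hζs
    let e0 : Fin m ⊕ Fin m ≃ Fin n := finSumFinEquiv.trans (finCongr hm.symm)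
    set B : Matrix (Fin n) (Fin n) F := (Matrix.fromBlocks 0 ((-ζ) • (1 : Matrix (Fin m) (Fin m) F)) 1 0).submatrix e0.symm e0.symm with hB
    have hdet : B.det = 1 := by
      rw [hB, Matrix.det_submatrix_equiv_self, H99.det_fromBlocks_swap, neg_neg, Fintype.card_fin, ← hζ]
      congr 1
      omega
    have hBB : B ^ 2 = (-ζ) • (1 : Matrix (Fin n) (Fin n) F) := by
      rw [pow_two, hB, Matrix.submatrix_mul_equiv, Matrix.fromBlocks_multiply]
      simp only [zero_mul, mul_one, zero_add, add_zero, mul_zero, one_mul]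
      have h3 : Matrix.fromBlocks ((-ζ) • (1 : Matrix (Fin m) (Fin m) F)) 0 0 ((-ζ) • (1 : Matrix (Fin m) (Fin m) F))
          = (-ζ) • (1 : Matrix (Fin m ⊕ Fin m) (Fin m ⊕ Fin m) F) := by
        rw [← Matrix.fromBlocks_one, Matrix.fromBlocks_smul, smul_zero]
      rw [h3]
      change (-ζ) • ((1 : Matrix (Fin m ⊕ Fin m) (Fin m ⊕ Fin m) F).submatrix e0.symm e0.symm) = _
      rw [Matrix.submatrix_one_equiv]
    obtain ⟨X, hX⟩ : ∃ X : Matrix.SpecialLinearGroup (Fin n) F, (X : Matrix (Fin n) (Fin n) F) = B :=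
      ⟨⟨B, hdet⟩, rfl⟩
    obtain ⟨P, hP⟩ := hall X ⟨-ζ, by rw [Matrix.SpecialLinearGroup.coe_pow, hX, hBB]⟩ (by
      intro z hz
      apply hzs z
      rw [hX] at hz
      rw [hz, smul_pow, one_pow, pow_two] at hBB
      exact smul_left_injective F (one_ne_zero : (1 : Matrix (Fin n) (Fin n) F) ≠ 0) hBB)
    rw [Subgroup.mem_comap, H99.mem_subfieldSubgroup_iff] at hP
    obtain ⟨c, M, hc, hM, hPM⟩ := hP
    have hsq : (c • M.map (fun a => (a : F))) ^ 2 = (-ζ) • (1 : Matrix (Fin n) (Fin n) F) := by
      rw [← hPM]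
      change (((P⁻¹ * X * P : Matrix.SpecialLinearGroup (Fin n) F) : Matrix (Fin n) (Fin n) F)) ^ 2 = _
      rw [← Matrix.SpecialLinearGroup.coe_pow]
      have h3 : (P⁻¹ * X * P) ^ 2 = P⁻¹ * X ^ 2 * P := by
        rw [pow_two, pow_two]
        simp [mul_assoc]
      rw [h3, Matrix.SpecialLinearGroup.coe_mul, Matrix.SpecialLinearGroup.coe_mul, Matrix.SpecialLinearGroup.coe_pow, hX,
        hBB, mul_smul_comm, mul_one, smul_mul_assoc, ← Matrix.SpecialLinearGroup.coe_mul, inv_mul_cancel,
        Matrix.SpecialLinearGroup.coe_one]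
    rw [smul_pow] at hsq
    have h4 := congrFun (congrFun hsq ⟨0, hpos⟩) ⟨0, hpos⟩
    rw [Matrix.smul_apply, Matrix.smul_apply, Matrix.one_apply_eq, smul_eq_mul, smul_eq_mul, mul_one] at h4
    have h5 : (M.map (fun a => (a : F))) ^ 2 = (M ^ 2).map (fun a => (a : F)) := by
      exact ((RingHom.mapMatrix F₀.subtype).map_pow M 2).symm
    rw [h5, Matrix.map_apply] at h4
    obtain ⟨w, hw⟩ := sq_facts F₀ hodd hqk _ ((M ^ 2) ⟨0, hpos⟩ ⟨0, hpos⟩).2
    apply hzs (c * w)
    rw [← h4, ← hw]
    ring
  · intro hcond x hx hxs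
    obtain ⟨z, hz⟩ := hx
    rw [Matrix.SpecialLinearGroup.coe_pow] at hz
    have hz0 : z ≠ 0 := by
      rintro rfl
      have h3 := congrArg Matrix.det hz
      rw [Matrix.det_pow, x.det_coe, one_pow, zero_smul, Matrix.det_zero] at h3
      exact one_ne_zero h3
    have hcs := H99.centSurj_of_sq_eq hpos _ z hz0 hz
    have hf := sq_toLin _ z hz
    set X := Matrix.toLin' (x : Matrix (Fin n) (Fin n) F) with hX
    by_cases h2 : (2 : F) = 0
    · have : CharP F 2 := CharTwo.of_one_ne_zero_of_two_eq_zero one_ne_zero h2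
      obtain ⟨w, hw⟩ := FiniteField.isSquare_of_char_two (ringChar.eq_iff.mpr this) z
      have hw0 : w ≠ 0 := by
        rintro rfl
        exact hz0 (by rw [hw]; simp)
      obtain ⟨κ, μ, _, _, _, _, b, c, h1, h2', h3⟩ := H99.sq_general_form z (finrank F (Fin n → F)) (Fin n → F) X hf rfl
      have hcw : ∀ j, c j = w := by
        intro j
        have h4 := hf (b (Sum.inr j))
        rw [h3, map_smul, h3, smul_smul] at h4
        have h5 : c j * c j = z := smul_left_injective F (b.ne_zero (Sum.inr j)) h4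
        have h6 : (c j - w) * (c j + w) = 0 := by
          rw [← sub_eq_zero.mpr (h5.trans hw)]; ring
        rcases mul_eq_zero.mp h6 with h7 | h7
        · exact sub_eq_zero.mp h7
        · have h8 : w + w = 0 := by rw [← two_mul, h2, zero_mul]
          rw [eq_neg_of_add_eq_zero_left h7, ← eq_neg_of_add_eq_zero_left h8]
      have hcardb : Fintype.card ((κ ⊕ κ) ⊕ μ) = n := by
        rw [← finrank_eq_card_basis b]; simp
      let e0 : Fin n ≃ (κ ⊕ κ) ⊕ μ := (Fintype.equivFinOfCardEq hcardb).symm
      let s : Equiv.Perm ((κ ⊕ κ) ⊕ μ) := Equiv.sumCongr (Equiv.sumComm κ κ) (Equiv.refl μ)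
      -- rescaled basis
      let uf : (κ ⊕ κ) ⊕ μ → Fˣ := Sum.elim (Sum.elim (fun _ => Units.mk0 w hw0) (fun _ => 1)) (fun _ => 1)
      let b' := b.unitsSMul uf
      have hb'1 : ∀ i, b' (Sum.inl (Sum.inl i)) = w • b (Sum.inl (Sum.inl i)) := fun i => by
        simp only [b', Basis.unitsSMul_apply, uf, Sum.elim_inl]
        rfl
      have hb'2 : ∀ i, b' (Sum.inl (Sum.inr i)) = b (Sum.inl (Sum.inr i)) := fun i => by
        simp only [b', Basis.unitsSMul_apply, uf, Sum.elim_inl, Sum.elim_inr, one_smul]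
      have hb'3 : ∀ i, b' (Sum.inr i) = b (Sum.inr i) := fun i => by
        simp only [b', Basis.unitsSMul_apply, uf, Sum.elim_inr, one_smul]
      have hXb : ∀ i, X (b' i) = w • b' (s i) := by
        rintro ((i | i) | i)
        · change _ = w • b' (Sum.inl (Sum.inr i))
          rw [hb'1, hb'2, map_smul, h1]
        · change _ = w • b' (Sum.inl (Sum.inl i))
          rw [hb'1, hb'2, h2', hw, smul_smul]
        · change _ = w • b' (Sum.inr i)
          rw [hb'3, h3, hcw]
      let e : (Fin n → F) ≃ₗ[F] (Fin n → F) := (Pi.basisFun F (Fin n)).equiv b' e0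
      let y : (Fin n → F) →ₗ[F] (Fin n → F) := (Pi.basisFun F (Fin n)).constr F
        (fun j => w • (Pi.basisFun F (Fin n)) (e0.symm (s (e0 j))))
      have hy : ∀ j, y (Pi.basisFun F (Fin n) j) = w • (Pi.basisFun F (Fin n)) (e0.symm (s (e0 j))) := fun j => by
        simp only [y, Basis.constr_basis]
      refine H99.exists_conj_mem_comap' x hcs _ y ?_ e ?_
      · intro g hg
        apply H99.mem_subfieldSubgroup_of_eq F₀ g w
          (fun i j => if i = e0.symm (s (e0 j)) then 1 else 0) _ hpos
        apply Matrix.toLin'.injective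
        apply (Pi.basisFun F (Fin n)).ext
        intro j
        rw [Matrix.toLin'_apply, hg, hy, Matrix.toLin'_apply, Matrix.smul_mulVec]
        congr 1
        ext i
        rw [Pi.basisFun_apply, Pi.basisFun_apply, Matrix.mulVec_single_one, Matrix.col_apply, Pi.single_apply]
        change _ = (((if i = e0.symm (s (e0 j)) then (1 : F₀) else 0 : F₀)) : F)
        split_ifs <;> rfl
      · have h6 : e.toLinearMap ∘ₗ y = X ∘ₗ e.toLinearMap := by
          apply (Pi.basisFun F (Fin n)).ext
          intro j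
          rw [LinearMap.comp_apply, LinearMap.comp_apply, hy, map_smul, LinearEquiv.coe_coe]
          simp only [e, Basis.equiv_apply]
          rw [Equiv.apply_symm_apply, hXb]
        exact fun v => LinearMap.congr_fun h6 v
    · have hodd : Odd (Fintype.card F) := by
        rw [Nat.odd_iff]
        apply FiniteField.odd_card_of_char_ne_two
        intro h
        apply h2
        have := ringChar.Nat.cast_ringChar (R := F)
        rw [h] at this
        exact_mod_cast this
      obtain ⟨hk2, hv⟩ := hcond hodd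
      subst hk2
      by_cases hzs : ∀ w, w * w ≠ z
      · exfalso
        obtain ⟨κ₁, _, _, b, hb1, hb2⟩ := H99.sq_nonsquare_form z hzs (Fin n → F) X hf
        have hd := H99.det_of_pairs b X z hb1 hb2
        rw [hX, LinearMap.det_toLin', x.det_coe] at hd
        have hcardb : Fintype.card (κ₁ ⊕ κ₁) = n := by
          rw [← finrank_eq_card_basis b]; simp
        rw [Fintype.card_sum] at hcardb
        refine H99.nonsquare_pow_half_ne_one hn0 ⟨Fintype.card κ₁, hcardb.symm⟩ hodd (nonsquare_neg F₀ hodd hqk z hzs) hv ?_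
        rw [hd]
        congr 1
        omega
      · push Not at hzs
        obtain ⟨w, hw⟩ := hzs
        have hw0 : w ≠ 0 := by
          rintro rfl
          exact hz0 (by rw [← hw]; simp)
        obtain ⟨a, a', b, h3, h4⟩ := H99.sq_eigen_form z w hw hw0 h2 (Fin n → F) _ hf
        have hcardb : Fintype.card (Fin a ⊕ Fin a') = n := by
          rw [← finrank_eq_card_basis b]; simp
        let e0 : Fin n ≃ Fin a ⊕ Fin a' := (Fintype.equivFinOfCardEq hcardb).symm
        let e : (Fin n → F) ≃ₗ[F] (Fin n → F) := (Pi.basisFun F (Fin n)).equiv b e0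
        let ε : Fin a ⊕ Fin a' → F₀ := Sum.elim (fun _ => 1) (fun _ => -1)
        have hXb : ∀ i, X (b i) = (w * (ε i : F)) • b i := by
          rintro (i | i)
          · rw [h3]; simp [ε]
          · rw [h4]; simp [ε]
        let y : (Fin n → F) →ₗ[F] (Fin n → F) := (Pi.basisFun F (Fin n)).constr F
          (fun j => (w * (ε (e0 j) : F)) • (Pi.basisFun F (Fin n)) j)
        have hy : ∀ j, y (Pi.basisFun F (Fin n) j) = (w * (ε (e0 j) : F)) • (Pi.basisFun F (Fin n)) j := fun j => by
          simp only [y, Basis.constr_basis]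
        refine H99.exists_conj_mem_comap' x hcs _ y ?_ e ?_
        · intro g hg
          apply H99.mem_subfieldSubgroup_of_eq F₀ g w (Matrix.diagonal (fun j => ε (e0 j))) _ hpos
          apply Matrix.toLin'.injective
          apply (Pi.basisFun F (Fin n)).ext
          intro j
          rw [Matrix.toLin'_apply, hg, hy, Matrix.toLin'_apply, Matrix.smul_mulVec, mul_smul]
          congr 1
          ext i
          rw [Pi.basisFun_apply, Matrix.mulVec_single_one, Matrix.col_apply, Matrix.map_apply,
            Pi.smul_apply, Pi.single_apply, Matrix.diagonal_apply]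
          by_cases hij : i = j
          · subst hij; simp
          · simp [hij]
        · have h6 : e.toLinearMap ∘ₗ y = X ∘ₗ e.toLinearMap := by
            apply (Pi.basisFun F (Fin n)).ext
            intro j
            rw [LinearMap.comp_apply, LinearMap.comp_apply, hy, map_smul, LinearEquiv.coe_coe]
            simp only [e, Basis.equiv_apply]
            rw [hXb]
          exact fun v => LinearMap.congr_fun h6 v

end Cfsg.Agent.S5964
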