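import Cfsg.Statements.S5965
import Cfsg.Agent.H99.SubfieldElt

set_option autoImplicit false
set_option maxHeartbeats 4000000
open scoped MatrixGroups
open Cfsg

namespace Cfsg.Agent.S5965

open Module Matrix Polynomial

set_option maxHeartbeats 4000000 in
theorem five_mult (a b c d e : ℕ) (h1 : a + b + c + d + e = 5) (h2 : 5 ∣ b + 2 * c + 3 * d + 4 * e) :
    (b = e ∧ c = d) ∨ (c = a ∧ d = e) ∨ (d = b ∧ e = a) ∨ (e = c ∧ a = b) ∨ (a = d ∧ b = c) := by
  have ha : a ≤ 5 := by omega
  have hb : b ≤ 5 := by omega
  have hc : c ≤ 5 := by omega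
  interval_cases a <;> interval_cases b <;> interval_cases c <;> omega

theorem three_mult (a b c : ℕ) (h1 : a + b + c = 3) (h2 : 3 ∣ b + 2 * c) :
    (b = c) ∨ (c = a) ∨ (a = b) := by
  omega

/-- elements fixed by the `q₀`-power map lie in the subfield -/
lemma mem_of_pow_eq {F : Type*} [Field F] [Fintype F] (F₀ : Subfield F) (a : F) (h : a ^ Nat.card F₀ = a) : a ∈ F₀ := by
  classical
  have : Fintype F₀ := Fintype.ofFinite F₀
  rw [Nat.card_eq_fintype_card] at h
  by_contra hcon
  have h1 : 1 < Fintype.card F₀ := Fintype.one_lt_card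
  have hp0 : (X ^ Fintype.card F₀ - X : F[X]) ≠ 0 := FiniteField.X_pow_card_sub_X_ne_zero F h1
  have hdeg : (X ^ Fintype.card F₀ - X : F[X]).natDegree = Fintype.card F₀ := FiniteField.X_pow_card_sub_X_natDegree_eq F h1
  let S : Finset F := insert a (Finset.univ.map ⟨fun b : F₀ => (b : F), Subtype.val_injective⟩)
  have hS : S.card = Fintype.card F₀ + 1 := by
    rw [Finset.card_insert_of_notMem, Finset.card_map, Finset.card_univ]
    rw [Finset.mem_map]
    rintro ⟨b, -, hb⟩
    apply hcon
    rw [← hb]
    exact b.2
  have h2 : S.card ≤ (X ^ Fintype.card F₀ - X : F[X]).natDegree := by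
    apply Polynomial.card_le_degree_of_subset_roots
    intro b hb
    rw [mem_roots hp0, IsRoot.def, eval_sub, eval_pow, eval_X, sub_eq_zero]
    rcases Finset.mem_insert.mp hb with rfl | hb
    · exact h
    · rw [Finset.mem_map] at hb
      obtain ⟨b', -, rfl⟩ := hb
      exact congrArg Subtype.val (FiniteField.pow_card b')
  omega

lemma card_three {F : Type*} [Field F] [DecidableEq F] {n : ℕ} (S T : Finset (Fin n)) (hST : Disjoint S T) (α β : F) (hαβ : α ≠ β) (hα : α ≠ 1) (hβ : β ≠ 1)
    (l : F) : Nat.card {j // (if j ∈ S then α else if j ∈ T then β else (1 : F)) = l} =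
      if l = α then S.card else if l = β then T.card else if l = 1 then n - S.card - T.card else 0 := by
  rw [Nat.card_eq_fintype_card, Fintype.card_subtype]
  have hTS : ∀ j ∈ T, j ∉ S := fun j hj hs => Finset.disjoint_left.mp hST hs hj
  by_cases h1 : l = α
  · rw [if_pos h1]
    congr 1
    ext j
    simp only [Finset.mem_filter, Finset.mem_univ, true_and, h1]
    by_cases hs : j ∈ S
    · simp [hs]
    · by_cases ht : j ∈ T
      · simp [hs, ht, hαβ.symm]
      · simp [hs, ht, hα.symm]
  · rw [if_neg h1]
    by_cases h2 : l = β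
    · rw [if_pos h2]
      congr 1
      ext j
      simp only [Finset.mem_filter, Finset.mem_univ, true_and, h2]
      by_cases ht : j ∈ T
      · simp [hTS j ht, ht]
      · by_cases hs : j ∈ S
        · simp [hs, ht, hαβ]
        · simp [hs, ht, hβ.symm]
    · rw [if_neg h2]
      by_cases h3 : l = 1
      · rw [if_pos h3]
        have h4 : Finset.univ.filter (fun j => (if j ∈ S then α else if j ∈ T then β else (1 : F)) = l) = (S ∪ T)ᶜ := by
          ext j
          simp only [Finset.mem_filter, Finset.mem_univ, true_and, h3, Finset.mem_compl, Finset.mem_union, not_or]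
          by_cases hs : j ∈ S
          · simp [hs, hα]
          · by_cases ht : j ∈ T
            · simp [hs, ht, hβ]
            · simp [hs, ht]
        rw [h4, Finset.card_compl, Finset.card_union_of_disjoint hST, Fintype.card_fin, Nat.sub_sub]
      · rw [if_neg h3, Finset.card_eq_zero, Finset.filter_eq_empty_iff]
        intro j _ h
        split_ifs at h
        · exact h1 h.symm
        · exact h2 h.symm
        · exact h3 h.symm

/-- the index for `n = 2`, `k = 2` -/
lemma index_two {F : Type*} [Field F] [Fintype F] (F₀ : Subfield F) (hcard : Fintype.card F = Nat.card F₀ ^ 2) :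
    (Matrix.SpecialLinearGroup.map (n := Fin 2) (F₀.subtype : F₀ →+* F)).range.index = Nat.card F₀ * (Nat.card F₀ ^ 2 + 1) := by
  classical
  have : Fintype F₀ := Fintype.ofFinite F₀
  rw [Nat.card_eq_fintype_card] at hcard ⊢
  have h1 : 1 < Fintype.card F := Fintype.one_lt_card
  have h10 : 1 < Fintype.card F₀ := Fintype.one_lt_card
  have hinj : Function.Injective (Matrix.SpecialLinearGroup.map (n := Fin 2) (F₀.subtype : F₀ →+* F)) := by
    intro a b hab
    apply Subtype.ext
    ext i j
    have h2 := congrArg (fun M : Matrix.SpecialLinearGroup (Fin 2) F => (M : Matrix (Fin 2) (Fin 2) F) i j) hab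
    exact h2
  have hc1 := Cfsg.Agent.H4.card_SL_mul (F := F) 2 (by norm_num)
  have hc2 := Cfsg.Agent.H4.card_SL_mul (F := F₀) 2 (by norm_num)
  rw [Matrix.card_GL_field, Fin.prod_univ_two] at hc1 hc2
  have hc3 := Subgroup.card_mul_index (Matrix.SpecialLinearGroup.map (n := Fin 2) (F₀.subtype : F₀ →+* F)).range
  have hc4 : Nat.card (Matrix.SpecialLinearGroup.map (n := Fin 2) (F₀.subtype : F₀ →+* F)).range =
      Nat.card (Matrix.SpecialLinearGroup (Fin 2) F₀) :=
    (Nat.card_congr (MonoidHom.ofInjective hinj).toEquiv).symm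
  rw [hc4] at hc3
  rw [← hc3] at hc1
  set I := (Matrix.SpecialLinearGroup.map (n := Fin 2) (F₀.subtype : F₀ →+* F)).range.index with hI
  set A := Nat.card (Matrix.SpecialLinearGroup (Fin 2) F₀) with hA
  rw [hcard] at hc1
  obtain ⟨a, ha⟩ : ∃ a, Fintype.card F₀ = a + 1 := ⟨Fintype.card F₀ - 1, by omega⟩
  rw [ha] at hc1 hc2 ⊢
  have ha1 : 0 < a := by omega
  have e1 : (a + 1) ^ 2 - (a + 1) ^ ((0 : Fin 2) : ℕ) = a * (a + 2) := by
    have : (a + 1) ^ 2 = a * (a + 2) + 1 := by ring
    simp only [Fin.val_zero, pow_zero]
    omega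
  have e2 : (a + 1) ^ 2 - (a + 1) ^ ((1 : Fin 2) : ℕ) = a * (a + 1) := by
    have : (a + 1) ^ 2 = a * (a + 1) + (a + 1) := by ring
    simp only [Fin.val_one, pow_one]
    omega
  have e3 : ((a + 1) ^ 2) ^ 2 - ((a + 1) ^ 2) ^ ((0 : Fin 2) : ℕ) = a * (a + 2) * ((a + 1) ^ 2 + 1) := by
    have : ((a + 1) ^ 2) ^ 2 = a * (a + 2) * ((a + 1) ^ 2 + 1) + 1 := by ring
    simp only [Fin.val_zero, pow_zero]
    omega
  have e4 : ((a + 1) ^ 2) ^ 2 - ((a + 1) ^ 2) ^ ((1 : Fin 2) : ℕ) = (a + 1) ^ 2 * (a * (a + 2)) := by
    have : ((a + 1) ^ 2) ^ 2 = (a + 1) ^ 2 * (a * (a + 2)) + (a + 1) ^ 2 := by ring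
    simp only [Fin.val_one, pow_one]
    omega
  have e5 : (a + 1) ^ 2 - 1 = a * (a + 2) := by
    have : (a + 1) ^ 2 = a * (a + 2) + 1 := by ring
    omega
  rw [e1, e2, Nat.add_sub_cancel] at hc2
  rw [e3, e4, e5] at hc1
  have h2 : A = (a + 2) * (a * (a + 1)) := by
    apply Nat.eq_of_mul_eq_mul_left ha1
    rw [hc2]
    ring
  rw [h2] at hc1
  have hpos : 0 < a * (a + 2) * ((a + 2) * (a * (a + 1))) := by positivity
  apply Nat.eq_of_mul_eq_mul_left hpos
  calc a * (a + 2) * ((a + 2) * (a * (a + 1))) * I = a * (a + 2) * ((a + 2) * (a * (a + 1)) * I) := by ring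
    _ = a * (a + 2) * ((a + 1) ^ 2 + 1) * ((a + 1) ^ 2 * (a * (a + 2))) := hc1
    _ = a * (a + 2) * ((a + 2) * (a * (a + 1))) * ((a + 1) * ((a + 1) ^ 2 + 1)) := by ring

/-- Elements of odd prime order r ≠ p of PSL_n(q) and subfield subgroups. Here `T = PSL_n(F)` for a field `F` with `q = p^f` elements (`n ≥ 2`, `(n, q) ≠ (2, 2), (2, 3)`), `F₀` is the subfield with `q₀` elements where `q = q₀^k` for a prime `k`, and `H` is the subgroup of matrices of determinant 1 lying in the subfield group of `F₀` (invertible matrices over `F₀` times scalars) — a maximal subgroup of type GL_n(q₀) (the case `n = 2`, `q₀ = 2` is excluded); Ω is the set of `T`-conjugates of `H` (cosets of `H`), so an element of `T` of prime order `r` (a matrix `x` of determinant 1 with `x^r` scalar, `x` not scalar) fixes a point of Ω when some conjugate of `x` by a matrix of determinant 1 lies in `H`. Let `r ≠ p` be an odd prime dividing the index of `H`, with `(n, r) ≠ (6, 3)` and, when `r = k` divides `q₀ − 1`, with `(n)_r ≤ (q − 1)_r`. Then every element of `T` of order `r`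 is conjugate in `T` into `H` if and only if `r = k`, or `k = 2`, `r = n ∈ {3, 5}` and `(q₀ + 1)_r = r`. The two excluded cases, `(n, r) = (6, 3)` and `r = k ∣ q₀ − 1` with `(n)_r > (q − 1)_r`, are ones where this criterion can fail, so they are left out. -/
theorem result {F : Type*} [Field F] [Fintype F] {p : ℕ} [Fact p.Prime] [CharP F p] {q : ℕ} (hq : Fintype.card F = q)
    (n : ℕ) (hn : 2 ≤ n) (hT : (n, q) ≠ (2, 2) ∧ (n, q) ≠ (2, 3))
    (F₀ : Subfield F) (k q₀ : ℕ) (hk : k.Prime) (hF₀ : Nat.card ↥F₀ = q₀) (hqk : q = q₀ ^ k) (hC5 : ¬ (n = 2 ∧ q₀ = 2)) (r : ℕ) [Fact r.Prime] (hr2 : r ≠ 2) (hrp : r ≠ p) (hgap : ¬ (n = 6 ∧ r = 3)) (hgapk : r = k → r ∣ q₀ - 1 → padicValNat r n ≤ padicValNat r (q - 1)) (hΩ : r ∣ ((Cfsg.Geo.subfieldSubgroup F₀ 1).comap (Matrix.SpecialLinearGroup.toGL : Matrix.SpecialLinearGroup (Fin n) F →* GL (Fin n) F)).index) :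
    (∀ x : Matrix.SpecialLinearGroup (Fin n) F,
      (∃ z : F, ((x ^ r : Matrix.SpecialLinearGroup (Fin n) F) : Matrix (Fin n) (Fin n) F) = z • (1 : Matrix (Fin n) (Fin n) F)) →
      (∀ z : F, (x : Matrix (Fin n) (Fin n) F) ≠ z • (1 : Matrix (Fin n) (Fin n) F)) →
      ∃ P : Matrix.SpecialLinearGroup (Fin n) F, P⁻¹ * x * P ∈ ((Cfsg.Geo.subfieldSubgroup F₀ 1).comap (Matrix.SpecialLinearGroup.toGL : Matrix.SpecialLinearGroup (Fin n) F →* GL (Fin n) F))) ↔
    (r = k ∨ (k = 2 ∧ r = n ∧ (n = 3 ∨ n = 5) ∧ padicValNat r (q₀ + 1) = 1)) := by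
  classical
  subst hq
  subst hF₀
  have hr : r.Prime := Fact.out
  have hn0 : 0 < n := by omega
  have hne : Nonempty (Fin n) := ⟨⟨0, hn0⟩⟩
  have hr3 : 3 ≤ r := by
    have := hr.two_le
    omega
  have hfin : Finite F₀ := inferInstance
  have : Fintype F₀ := Fintype.ofFinite F₀
  have hc0 : CharP F₀ p := (algebraMap F₀ F).charP (algebraMap F₀ F).injective p
  have hrF : (r : F) ≠ 0 := H99.natCast_ne_zero_of_ne hr hrp
  have hfn : finrank F (Fin n → F) = n := by simp
  have hq01 : 1 < Nat.card F₀ := by
    rw [Nat.card_eq_fintype_card]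
    exact Fintype.one_lt_card
  have hq1 : 1 < Fintype.card F := Fintype.one_lt_card
  have hrq : ¬ r ∣ Fintype.card F := H99.prime_not_dvd_card hrp
  have hrq₀ : ¬ r ∣ Nat.card F₀ := by
    rw [Nat.card_eq_fintype_card]
    exact H99.prime_not_dvd_card hrp
  set i := orderOf ((Fintype.card F : ℕ) : ZMod r) with hi
  set i₀ := orderOf ((Nat.card F₀ : ℕ) : ZMod r) with hi₀
  have hipos : 0 < i := H99.orderOf_pos_of_not_dvd hrq
  have hi₀pos : 0 < i₀ := H99.orderOf_pos_of_not_dvd hrq₀
  have hi₀r : i₀ ∣ r - 1 := H99.orderOf_dvd_sub_one hrq₀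
  have hrel : i = i₀ ∨ i₀ = k * i := by
    rw [hi, hi₀, hqk]
    exact H99.order_pow_prime hk
  have hrange : (Matrix.SpecialLinearGroup.map (n := Fin n) (F₀.subtype : F₀ →+* F)).range ≤
      (Cfsg.Geo.subfieldSubgroup F₀ 1).comap (Matrix.SpecialLinearGroup.toGL : Matrix.SpecialLinearGroup (Fin n) F →* GL (Fin n) F) := by
    rintro _ ⟨M, rfl⟩
    rw [Subgroup.mem_comap]
    apply H99.mem_subfieldSubgroup_of_eq F₀ _ 1 (M : Matrix (Fin n) (Fin n) F₀) _ hn0
    rw [one_smul]
    rfl
  constructor
  · intro H
    by_contra hcon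
    push Not at hcon
    obtain ⟨hrk, hcon⟩ := hcon
    -- the orders differ
    have hrel' : i₀ = k * i := by
      rcases hrel with h | h
      · exfalso
        apply H99.not_dvd_index_SL (n := n) F₀ hk hqk hn0 hrp hrk h
        exact hΩ.trans (Subgroup.index_dvd_of_le hrange)
      · exact h
    have hin := H99.order_le_of_dvd_index hrp _ hΩ
    rw [← hi] at hin
    have hk1 : 2 ≤ k := hk.two_le
    have hnd : ¬ r ∣ Nat.card F₀ - 1 := by
      intro h
      have h1 := H99.dvd_pow_sub_one_iff (r := r) (q := Nat.card F₀) (by omega) 1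
      rw [pow_one] at h1
      rw [h1, ← hi₀, hrel'] at h
      have := Nat.le_of_dvd one_pos h
      nlinarith
    by_cases hdq : r ∣ Fintype.card F - 1
    · -- diagonal elements
      have hi1 : i = 1 := H99.dvd_sub_one_iff_orderOf.mp hdq
      have hi₀k : i₀ = k := by rw [hrel', hi1, mul_one]
      obtain ⟨ζ, hζ1, hζ⟩ := H99.exists_prim_root (F := F) hdq
      have hζ0 : ζ ≠ 0 := by
        rintro rfl
        rw [zero_pow hr.ne_zero] at hζ
        exact zero_ne_one hζ
      have hord : ∀ m : ℕ, ζ ^ m = 1 → r ∣ m := fun m hm => H99.dvd_of_pow_eq_one hζ1 hζ hm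
      have hroot2 : ∀ y : F, y ^ r = 1 → y ^ 2 = 1 → y = 1 := by
        intro y h1 h2
        by_contra h3
        have := Nat.le_of_dvd (by norm_num) (H99.dvd_of_pow_eq_one h3 h1 h2)
        omega
      have hrootq : ∀ y : F, y ^ r = 1 → y ^ (Nat.card F₀) = y → y = 1 := by
        intro y h1 h2
        by_contra h3
        apply hnd
        apply H99.dvd_of_pow_eq_one h3 h1
        have hy0 : y ≠ 0 := by
          rintro rfl
          rw [zero_pow hr.ne_zero] at h1
          exact zero_ne_one h1
        apply mul_right_cancel₀ hy0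
        rw [← pow_succ, Nat.sub_add_cancel (by omega), h2, one_mul]
      have hrootq1 : ∀ y : F, y ^ r = 1 → y ^ (Nat.card F₀) = 1 → y = 1 := by
        intro y h1 h2
        by_contra h3
        exact hrq₀ (H99.dvd_of_pow_eq_one h3 h1 h2)
      have hstar : ∀ (w : F) (c : Fin n → F), (∀ j, c j ^ r = 1) → w ^ n * ∏ j, c j = 1 → (∃ j j', c j ≠ c j') →
          ∃ η : F, η ^ r = 1 ∧ ∀ l : F, l ≠ 0 → Nat.card {j // c j = l * η} = Nat.card {j // c j = l ^ (Nat.card F₀) * η} := by
        intro w c hc hd hne
        have hw0 : w ≠ 0 := by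
          rintro rfl
          rw [zero_pow hn0.ne', zero_mul] at hd
          exact zero_ne_one hd
        let x : Matrix.SpecialLinearGroup (Fin n) F := ⟨w • Matrix.diagonal c, by
          rw [Matrix.det_smul, Matrix.det_diagonal, Fintype.card_fin, hd]⟩
        obtain ⟨P, hP⟩ := H x ⟨w ^ r, by
          rw [Matrix.SpecialLinearGroup.coe_pow]
          change (w • Matrix.diagonal c) ^ r = _
          rw [_root_.smul_pow, Matrix.diagonal_pow, ← Matrix.diagonal_one]
          congr 2
          funext j
          exact hc j⟩ (by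
          intro z hz
          change w • Matrix.diagonal c = _ at hz
          rw [← Matrix.diagonal_smul, Matrix.smul_one_eq_diagonal, Matrix.diagonal_eq_diagonal_iff] at hz
          obtain ⟨j, j', hjj⟩ := hne
          apply hjj
          have h1 := hz j
          have h2 := hz j'
          rw [Pi.smul_apply, smul_eq_mul] at h1 h2
          exact mul_left_cancel₀ hw0 (h1.trans h2.symm))
        exact H99.exists_frobenius_twist F₀ hn0 hnd w hw0 c hc x P rfl hP
      have h01 : (⟨0, hn0⟩ : Fin n) ≠ ⟨1, by omega⟩ := by
        intro h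
        have := congrArg Fin.val h
        simp at this
      set i0 : Fin n := ⟨0, hn0⟩ with hi0
      set i1 : Fin n := ⟨1, by omega⟩ with hi1'
      -- consequences of `ζ ^ (q₀ + 1) = 1`
      have hk2of : ζ ^ (Nat.card F₀ + 1) = 1 → k = 2 ∧ r ∣ Nat.card F₀ + 1 := by
        intro h
        have h1 := hord _ h
        refine ⟨?_, h1⟩
        have h2 : r ∣ Nat.card F₀ ^ 2 - 1 := by
          have h3 : Nat.card F₀ ^ 2 - 1 = (Nat.card F₀ - 1) * (Nat.card F₀ + 1) := by
            obtain ⟨a, ha⟩ : ∃ a, Nat.card F₀ = a + 1 := ⟨Nat.card F₀ - 1, by omega⟩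
            rw [ha, Nat.add_sub_cancel]
            have : (a + 1) ^ 2 = a * (a + 1 + 1) + 1 := by ring
            omega
          rw [h3]
          exact h1.mul_left _
        rw [H99.dvd_pow_sub_one_iff (by omega), ← hi₀, hi₀k] at h2
        have := Nat.le_of_dvd (by norm_num) h2
        omega
      have hfinal : k = 2 → r ∣ Nat.card F₀ + 1 → padicValNat r (Fintype.card F - 1) ≤ 1 → padicValNat r (Nat.card F₀ + 1) = 1 := by
        intro h1 h2 h3
        have hfac : Fintype.card F - 1 = (Nat.card F₀ - 1) * (Nat.card F₀ + 1) := by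
          rw [hqk, h1]
          obtain ⟨a, ha⟩ : ∃ a, Nat.card F₀ = a + 1 := ⟨Nat.card F₀ - 1, by omega⟩
          rw [ha, Nat.add_sub_cancel]
          have : (a + 1) ^ 2 = a * (a + 1 + 1) + 1 := by ring
          omega
        rw [hfac, padicValNat.mul (by omega) (by omega), padicValNat.eq_zero_of_not_dvd hnd] at h3
        have h4 := one_le_padicValNat_of_dvd (by omega) h2
        omega
      rcases Nat.lt_or_ge (padicValNat r n) (padicValNat r (Fintype.card F - 1)) with hv | hv
      · -- pseudo-reflections
        obtain ⟨w, hw⟩ := H99.exists_pow_eq_root hn0.ne' hv ζ⁻¹ (by rw [inv_pow, hζ, inv_one])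
        have hcard := fun l => card_three (F := F) ({i0} : Finset (Fin n)) ∅ (by simp) ζ 0 hζ0 hζ1 zero_ne_one l
        obtain ⟨η, hη, hN⟩ := hstar w (fun j => if j ∈ ({i0} : Finset (Fin n)) then ζ else if j ∈ (∅ : Finset (Fin n)) then 0 else 1) (by
          intro j
          simp only [Finset.notMem_empty, if_false]
          split_ifs
          · exact hζ
          · exact one_pow r) (by
          simp only [Finset.notMem_empty, if_false, Finset.mem_singleton]
          rw [Finset.prod_ite_eq' Finset.univ i0 (fun _ => ζ), if_pos (Finset.mem_univ _), hw, inv_mul_cancel₀ hζ0]) ⟨i0, i1, by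
          simp only [Finset.notMem_empty, if_false, Finset.mem_singleton, if_true, if_neg h01.symm]
          exact hζ1⟩
        have hη0 : η ≠ 0 := by
          rintro rfl
          rw [zero_pow hr.ne_zero] at hη
          exact zero_ne_one hη
        simp only [hcard] at hN
        have e1 := hN η⁻¹ (inv_ne_zero hη0)
        rw [inv_mul_cancel₀ hη0, if_neg hζ1.symm, if_neg one_ne_zero, if_pos rfl, Finset.card_singleton, Finset.card_empty] at e1
        split_ifs at e1 with h1 h2 h3
        · -- n = 2
          have hn2 : n = 2 := by omega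
          have e2 := hN (ζ * η⁻¹) (mul_ne_zero hζ0 (inv_ne_zero hη0))
          rw [mul_assoc, inv_mul_cancel₀ hη0, mul_one, if_pos rfl, Finset.card_singleton, Finset.card_empty, mul_pow, mul_assoc, h1, ← pow_succ] at e2
          split_ifs at e2 with h4 h5 h6
          · apply hζ1
            apply hrootq1 ζ hζ
            rw [pow_succ] at h4
            exact mul_right_cancel₀ hζ0 (by rw [one_mul]; exact h4)
          · obtain ⟨hk2, hr0⟩ := hk2of h6
            subst hk2
            subst hn2
            have h7 := hΩ.trans (Subgroup.index_dvd_of_le hrange)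
            rw [index_two F₀ hqk] at h7
            rcases hr.dvd_mul.mp h7 with h7 | h7
            · exact hrq₀ h7
            · have h8 : r ∣ (Nat.card F₀ - 1) * (Nat.card F₀ + 1) := hr0.mul_left _
              have h9 := Nat.dvd_sub h7 h8
              have h10 : Nat.card F₀ ^ 2 + 1 - (Nat.card F₀ - 1) * (Nat.card F₀ + 1) = 2 := by
                obtain ⟨a, ha⟩ : ∃ a, Nat.card F₀ = a + 1 := ⟨Nat.card F₀ - 1, by omega⟩
                rw [ha, Nat.add_sub_cancel]
                have : (a + 1) ^ 2 = a * (a + 1 + 1) + 1 := by ring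
                omega
              rw [h10] at h9
              have := Nat.le_of_dvd (by norm_num) h9
              omega
        · omega
        · -- η = 1
          have h4 : η = 1 := by
            apply hrootq η hη
            have : (η⁻¹) ^ Nat.card F₀ * η * η ^ Nat.card F₀ = 1 * η ^ Nat.card F₀ := by rw [h3]
            rw [inv_pow] at this
            field_simp at this
            exact this.symm
          rw [h4] at hN
          have e2 := hN ζ hζ0
          rw [mul_one, mul_one, if_pos rfl, Finset.card_singleton, Finset.card_empty] at e2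
          split_ifs at e2 with h5 h6 h7
          · exact hζ1 (hrootq ζ hζ h5)
          · exact hζ1 (hrootq1 ζ hζ h7)
        · omega
      · -- `(q - 1)_r ≤ (n)_r`
        have hqv1 : 1 ≤ padicValNat r (Fintype.card F - 1) := one_le_padicValNat_of_dvd (by omega) hdq
        have hrn : r ∣ n := dvd_of_one_le_padicValNat (by omega)
        have hrnle : r ≤ n := Nat.le_of_dvd hn0 hrn
        have hstar' : ∀ (a b : ℕ) (α β : F), a + b < n → 0 < a → α ≠ β → α ≠ 1 → β ≠ 1 → α ^ r = 1 → β ^ r = 1 → α ^ a * β ^ b = 1 →
            ∃ η : F, η ^ r = 1 ∧ ∀ l : F, l ≠ 0 →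
              (if l * η = α then a else if l * η = β then b else if l * η = 1 then n - a - b else 0) =
              (if l ^ (Nat.card F₀) * η = α then a else if l ^ (Nat.card F₀) * η = β then b else if l ^ (Nat.card F₀) * η = 1 then n - a - b else 0) := by
          intro a b α β hab ha0 hαβ hα1 hβ1 hα hβ hprod
          set S : Finset (Fin n) := Finset.univ.filter (fun j : Fin n => j.val < a) with hS
          set T : Finset (Fin n) := Finset.univ.filter (fun j : Fin n => a ≤ j.val ∧ j.val < a + b) with hTd
          have hSc : S.card = a := by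
            rw [hS, Fin.card_filter_val_lt]
            exact min_eq_right (by omega)
          have hST : Disjoint S T := by
            rw [Finset.disjoint_left]
            intro j h1 h2
            rw [hS, Finset.mem_filter] at h1
            rw [hTd, Finset.mem_filter] at h2
            omega
          have hTc : T.card = b := by
            have h1 : S ∪ T = Finset.univ.filter (fun j : Fin n => j.val < a + b) := by
              ext j
              simp only [hS, hTd, Finset.mem_union, Finset.mem_filter, Finset.mem_univ, true_and]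
              omega
            have h2 := Finset.card_union_of_disjoint hST
            rw [h1, Fin.card_filter_val_lt, hSc, min_eq_right (by omega)] at h2
            omega
          obtain ⟨η, hη, hN⟩ := hstar 1 (fun j => if j ∈ S then α else if j ∈ T then β else 1) (by
            intro j
            split_ifs
            · exact hα
            · exact hβ
            · exact one_pow r) (by
            rw [one_pow, one_mul]
            have h1 : ∀ j, (if j ∈ S then α else if j ∈ T then β else (1 : F)) = (if j ∈ S then α else 1) * (if j ∈ T then β else 1) := by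
              intro j
              by_cases hs : j ∈ S
              · rw [if_pos hs, if_pos hs, if_neg (Finset.disjoint_left.mp hST hs), mul_one]
              · rw [if_neg hs, if_neg hs, one_mul]
            rw [Finset.prod_congr rfl (fun j _ => h1 j), Finset.prod_mul_distrib, Finset.prod_ite_mem, Finset.prod_ite_mem, Finset.univ_inter,
              Finset.univ_inter, Finset.prod_const, Finset.prod_const, hSc, hTc, hprod]) ⟨⟨0, hn0⟩, ⟨a + b, hab⟩, by
            have h1 : (⟨0, hn0⟩ : Fin n) ∈ S := by
              rw [hS, Finset.mem_filter]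
              exact ⟨Finset.mem_univ _, ha0⟩
            have h2 : (⟨a + b, hab⟩ : Fin n) ∉ S := by
              rw [hS, Finset.mem_filter]
              simp
            have h3 : (⟨a + b, hab⟩ : Fin n) ∉ T := by
              rw [hTd, Finset.mem_filter]
              simp
            simp only [h1, h2, h3, if_true, if_false]
            exact hα1⟩
          refine ⟨η, hη, ?_⟩
          intro l hl
          have h1 := hN l hl
          rw [card_three S T hST α β hαβ hα1 hβ1, card_three S T hST α β hαβ hα1 hβ1, hSc, hTc] at h1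
          exact h1
        have hζi : ζ⁻¹ ^ r = 1 := by rw [inv_pow, hζ, inv_one]
        have hζi1 : ζ⁻¹ ≠ 1 := by
          intro h
          exact hζ1 (inv_eq_one.mp h)
        have hζζi : ζ ≠ ζ⁻¹ := by
          intro h
          apply hζ1
          apply hroot2 ζ hζ
          rw [pow_two]
          nth_rewrite 1 [h]
          exact inv_mul_cancel₀ hζ0
        have hcontra : k = 2 → r = n → (n = 3 ∨ n = 5) → r ∣ Nat.card F₀ + 1 → False := by
          intro h1 h2 h3 h4
          apply hcon h1 h2 h3
          apply hfinal h1 h4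
          rw [← h2, padicValNat_self] at hv
          exact hv
        rcases Nat.lt_or_ge n 5 with hn5 | hn5
        · -- `n = 3`
          have hn3 : n = 3 := by
            have h1 : 3 ≤ n := by omega
            have h2 : n = 3 ∨ n = 4 := by omega
            rcases h2 with h2 | h2
            · exact h2
            · exfalso
              rw [h2] at hrn
              have h3 : r ∣ 2 ^ 2 := by norm_num; exact hrn
              have h4 := Nat.le_of_dvd (by norm_num) (hr.dvd_of_dvd_pow h3)
              omega
          have hr3' : r = 3 := by omega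
          have hk2 : k = 2 := by
            rw [hi₀k, hr3'] at hi₀r
            have := Nat.le_of_dvd (by norm_num) hi₀r
            omega
          have hdvd : r ∣ Nat.card F₀ + 1 := by
            have h1 := H99.dvd_pow_sub_one_iff (r := r) (q := Nat.card F₀) (by omega) 2
            rw [← hi₀, hi₀k, hk2] at h1
            have h2 := h1.mpr (dvd_refl 2)
            have h3 : Nat.card F₀ ^ 2 - 1 = (Nat.card F₀ - 1) * (Nat.card F₀ + 1) := by
              obtain ⟨a, ha⟩ : ∃ a, Nat.card F₀ = a + 1 := ⟨Nat.card F₀ - 1, by omega⟩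
              rw [ha, Nat.add_sub_cancel]
              have : (a + 1) ^ 2 = a * (a + 1 + 1) + 1 := by ring
              omega
            rw [h3] at h2
            exact (hr.dvd_mul.mp h2).resolve_left hnd
          exact hcontra hk2 (by omega) (Or.inl hn3) hdvd
        · obtain ⟨η, hη, hN⟩ := hstar' 1 1 ζ ζ⁻¹ (by omega) one_pos hζζi hζ1 hζi1 hζ hζi (by rw [pow_one, pow_one, mul_inv_cancel₀ hζ0])
          have hη0 : η ≠ 0 := by
            rintro rfl
            rw [zero_pow hr.ne_zero] at hη
            exact zero_ne_one hη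
          have e1 := hN η⁻¹ (inv_ne_zero hη0)
          rw [inv_mul_cancel₀ hη0, if_neg hζ1.symm, if_neg hζi1.symm, if_pos rfl] at e1
          have hη1 : η = 1 := by
            split_ifs at e1 with h1 h2 h3
            · omega
            · omega
            · apply hrootq η hη
              have : (η⁻¹) ^ Nat.card F₀ * η * η ^ Nat.card F₀ = 1 * η ^ Nat.card F₀ := by rw [h3]
              rw [inv_pow] at this
              field_simp at this
              exact this.symm
            · omega
          rw [hη1] at hN
          have e2 := hN ζ hζ0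
          rw [mul_one, mul_one, if_pos rfl] at e2
          have hζq : ζ ^ (Nat.card F₀ + 1) = 1 := by
            split_ifs at e2 with h5 h6 h7
            · exact absurd (hrootq ζ hζ h5) hζ1
            · rw [pow_succ, h6, inv_mul_cancel₀ hζ0]
            · omega
          obtain ⟨hk2, hr0⟩ := hk2of hζq
          have hinvq : ∀ y : F, y ^ r = 1 → y ^ Nat.card F₀ = y⁻¹ := by
            intro y hy
            apply eq_inv_of_mul_eq_one_left
            rw [← pow_succ]
            obtain ⟨m, hm⟩ := hr0
            rw [hm, pow_mul, hy, one_pow]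
          rcases Nat.lt_or_ge r 5 with hr5 | hr5
          · -- `r = 3`
            have hr3' : r = 3 := by
              have h2 : r = 3 ∨ r = 4 := by omega
              rcases h2 with h2 | h2
              · exact h2
              · exfalso
                rw [h2] at hr
                exact absurd hr (by norm_num)
            have hn9 : 9 ≤ n := by
              rw [hr3'] at hrn
              by_contra h
              apply hgap
              omega
            obtain ⟨η, hη, hN⟩ := hstar' 3 0 ζ ζ⁻¹ (by omega) (by norm_num) hζζi hζ1 hζi1 hζ hζi (by rw [pow_zero, mul_one, ← hr3', hζ])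
            have hη0 : η ≠ 0 := by
              rintro rfl
              rw [zero_pow hr.ne_zero] at hη
              exact zero_ne_one hη
            have e1 := hN η⁻¹ (inv_ne_zero hη0)
            rw [inv_mul_cancel₀ hη0, if_neg hζ1.symm, if_neg hζi1.symm, if_pos rfl] at e1
            have hη1 : η = 1 := by
              split_ifs at e1 with h1 h2 h3
              · omega
              · omega
              · apply hrootq η hη
                have : (η⁻¹) ^ Nat.card F₀ * η * η ^ Nat.card F₀ = 1 * η ^ Nat.card F₀ := by rw [h3]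
                rw [inv_pow] at this
                field_simp at this
                exact this.symm
              · omega
            rw [hη1] at hN
            have e2 := hN ζ hζ0
            rw [mul_one, mul_one, if_pos rfl, hinvq ζ hζ, if_neg hζζi.symm, if_pos rfl] at e2
            omega
          · -- `r ≥ 5`
            have hζ2 : (ζ ^ 2) ≠ 1 := fun h => hζ1 (hroot2 ζ hζ h)
            set β := (ζ ^ 2)⁻¹ with hβd
            have hβ1 : β ≠ 1 := fun h => hζ2 (inv_eq_one.mp h)
            have hβ0 : β ≠ 0 := inv_ne_zero (pow_ne_zero _ hζ0)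
            have hβ : β ^ r = 1 := by rw [hβd, inv_pow, ← pow_mul, mul_comm, pow_mul, hζ, one_pow, inv_one]
            have hζβ : ζ ≠ β := by
              intro h
              have h1 : ζ ^ 3 = 1 := by
                rw [pow_succ, mul_comm]
                nth_rewrite 1 [h]
                exact inv_mul_cancel₀ (pow_ne_zero _ hζ0)
              have := Nat.le_of_dvd (by norm_num) (hord 3 h1)
              omega
            obtain ⟨η, hη, hN⟩ := hstar' 2 1 ζ β (by omega) (by norm_num) hζβ hζ1 hβ1 hζ hβ (by
              rw [pow_one, hβd, mul_inv_cancel₀ (pow_ne_zero _ hζ0)])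
            have hη0 : η ≠ 0 := by
              rintro rfl
              rw [zero_pow hr.ne_zero] at hη
              exact zero_ne_one hη
            have hηi : (η⁻¹) ^ r = 1 := by rw [inv_pow, hη, inv_one]
            have e1 := hN (β * η⁻¹) (mul_ne_zero hβ0 (inv_ne_zero hη0))
            rw [mul_assoc, inv_mul_cancel₀ hη0, mul_one, if_neg hζβ.symm, if_pos rfl, hinvq (β * η⁻¹) (by rw [mul_pow, hβ, hηi, one_mul])] at e1
            have hηβ : η = β := by
              have e3 : (β * η⁻¹)⁻¹ * η = η ^ 2 * β⁻¹ := by
                field_simp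
              rw [e3] at e1
              have h2 : η ^ 2 * β⁻¹ = β := by
                by_contra hne
                rw [if_neg hne] at e1
                split_ifs at e1 <;> omega
              have h4 : (η * β⁻¹) ^ 2 = 1 := by
                rw [mul_pow, pow_two (β⁻¹), ← mul_assoc, h2, mul_inv_cancel₀ hβ0]
              have h5 := hroot2 (η * β⁻¹) (by rw [mul_pow, hη, inv_pow, hβ, inv_one, mul_one]) h4
              rw [mul_inv_eq_one₀ hβ0] at h5
              exact h5
            rw [hηβ] at hN
            have e2 := hN β⁻¹ (inv_ne_zero hβ0)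
            rw [inv_mul_cancel₀ hβ0, if_neg hζ1.symm, if_neg hβ1.symm, if_pos rfl, hinvq β⁻¹ (by rw [inv_pow, hβ, inv_one]), inv_inv] at e2
            split_ifs at e2 with h1 h2 h3
            · have hn5' : n = 5 := by omega
              have hr5' : r = 5 := by
                rw [hn5'] at hrnle
                omega
              exact hcontra hk2 (by omega) (Or.inr hn5') hr0
            · omega
            · exact hβ1 (hroot2 β hβ (by rw [pow_two]; exact h3))
            · omega
    · -- `r ∤ q - 1`: an element with one block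
      obtain ⟨x, hx1, hx2, hx3, hx4⟩ := H99.sl_exists_order_eq (F := F) (n := n) hn0 hrp hdq 1 one_pos (by rw [one_mul]; exact hin)
      obtain ⟨P, hP⟩ := H x ⟨1, hx1⟩ hx2
      rw [Subgroup.mem_comap, H99.mem_subfieldSubgroup_iff] at hP
      obtain ⟨c, M, hc, -, hg⟩ := hP
      have hPP' : (P : Matrix (Fin n) (Fin n) F) * ((P⁻¹ : Matrix.SpecialLinearGroup (Fin n) F) : Matrix (Fin n) (Fin n) F) = 1 := by
        rw [← Matrix.SpecialLinearGroup.coe_mul, mul_inv_cancel, Matrix.SpecialLinearGroup.coe_one]
      have hPP : ((P⁻¹ : Matrix.SpecialLinearGroup (Fin n) F) : Matrix (Fin n) (Fin n) F) * (P : Matrix (Fin n) (Fin n) F) = 1 := by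
        rw [← Matrix.SpecialLinearGroup.coe_mul, inv_mul_cancel, Matrix.SpecialLinearGroup.coe_one]
      set Y : Matrix (Fin n) (Fin n) F := ((P⁻¹ * x * P : Matrix.SpecialLinearGroup (Fin n) F) : Matrix (Fin n) (Fin n) F) with hY
      have hYe : Y = ((P⁻¹ : Matrix.SpecialLinearGroup (Fin n) F) : Matrix (Fin n) (Fin n) F) * (x : Matrix (Fin n) (Fin n) F) * (P : Matrix (Fin n) (Fin n) F) := by
        rw [hY, Matrix.SpecialLinearGroup.coe_mul, Matrix.SpecialLinearGroup.coe_mul]
      have hYc : Y = c • M.map (fun a => (a : F)) := hg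
      have hx1' : (x : Matrix (Fin n) (Fin n) F) ^ r = 1 := by
        rw [← Matrix.SpecialLinearGroup.coe_pow, hx1, one_smul]
      have hYr : Y ^ r = 1 := by
        rw [hY, ← Matrix.SpecialLinearGroup.coe_pow]
        have h1 : (P⁻¹ * x * P) ^ r = P⁻¹ * x ^ r * P := by
          have := conj_pow (i := r) (a := P⁻¹) (b := x)
          rw [inv_inv] at this
          exact this
        have h2 : x ^ r = 1 := by
          apply Subtype.ext
          change ((x ^ r : Matrix.SpecialLinearGroup (Fin n) F) : Matrix (Fin n) (Fin n) F) = _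
          rw [hx1, one_smul]
          rfl
        rw [h1, h2, mul_one, inv_mul_cancel]
        rfl
      have hmappow : ∀ (M : Matrix (Fin n) (Fin n) F₀) (k : ℕ), (M ^ k).map (fun a => (a : F)) = (M.map (fun a => (a : F))) ^ k := fun M k => by
        have := map_pow (F₀.subtype.mapMatrix : Matrix (Fin n) (Fin n) F₀ →+* Matrix (Fin n) (Fin n) F) M k
        exact this
      let i0 : Fin n := ⟨0, hn0⟩
      have hs : c ^ r * ((M ^ r) i0 i0 : F₀) = 1 := by
        have h1 := hYr
        rw [hYc, _root_.smul_pow, ← hmappow] at h1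
        have h2 := congrFun (congrFun h1 i0) i0
        rw [Matrix.smul_apply, Matrix.one_apply_eq, Matrix.map_apply, smul_eq_mul] at h2
        exact h2
      obtain ⟨d, hd⟩ := H99.exists_root_of_not_dvd (F := F₀) (r := r) (by rw [← Nat.card_eq_fintype_card]; exact hnd) ((M ^ r) i0 i0)
      have hd' : (d : F) ^ r = ((M ^ r) i0 i0 : F₀) := by
        rw [← hd]
        rfl
      have hcd : c * (d : F) = 1 := by
        apply H99.eq_one_of_pow_eq_one hdq
        rw [mul_pow, hd', hs]
      have hd0 : (d : F) ≠ 0 := by
        intro h0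
        rw [h0, mul_zero] at hcd
        exact zero_ne_one hcd
      let M' : Matrix (Fin n) (Fin n) F₀ := d⁻¹ • M
      have hM' : M'.map (fun a => (a : F)) = Y := by
        have h1 : M'.map (fun a => (a : F)) = (d : F)⁻¹ • M.map (fun a => (a : F)) := by
          ext i j
          simp [M']
        rw [h1, hYc]
        congr 1
        exact (eq_inv_of_mul_eq_one_left hcd).symm
      have hinj : Function.Injective (fun N : Matrix (Fin n) (Fin n) F₀ => N.map (fun a => (a : F))) := by
        intro A B hAB
        ext i j
        exact congrFun (congrFun hAB i) j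
      have hM'r : M' ^ r = 1 := by
        apply hinj
        change (M' ^ r).map (fun a => (a : F)) = (1 : Matrix (Fin n) (Fin n) F₀).map (fun a => (a : F))
        rw [hmappow, hM', hYr]
        ext i j
        rw [Matrix.map_apply, Matrix.one_apply, Matrix.one_apply]
        split_ifs <;> simp
      have hf' : (Matrix.toLin' M') ^ r = 1 := by
        rw [← Matrix.toLin'_pow, hM'r, Matrix.toLin'_one]
        rfl
      have h1 := H99.finrank_modEq_fixed (F := F₀) hrp (Matrix.toLin' M') hf'
      have h2 := H99.finrank_ker_map F₀ (M' - 1)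
      have h3 : (M' - 1).map (fun a => (a : F)) = Y - 1 := by
        rw [← hM']
        ext i j
        rw [Matrix.map_apply, Matrix.sub_apply, Matrix.sub_apply, Matrix.map_apply, Matrix.one_apply, Matrix.one_apply]
        split_ifs <;> simp
      rw [h3] at h2
      have h4 : finrank F (LinearMap.ker (Matrix.toLin' (x : Matrix (Fin n) (Fin n) F) - (1 : F) • (1 : (Fin n → F) →ₗ[F] (Fin n → F)))) =
          finrank F (LinearMap.ker (Matrix.toLin' Y - (1 : F) • (1 : (Fin n → F) →ₗ[F] (Fin n → F)))) := by
        apply H99.finrank_ker_conj (Matrix.toLin' (x : Matrix (Fin n) (Fin n) F)) (Matrix.toLin' Y)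
          (Matrix.toLin'OfInv hPP' hPP)
        intro v
        rw [hYe]
        change ((P⁻¹ : Matrix.SpecialLinearGroup (Fin n) F) : Matrix (Fin n) (Fin n) F) *ᵥ ((x : Matrix (Fin n) (Fin n) F) *ᵥ v) =
          (((P⁻¹ : Matrix.SpecialLinearGroup (Fin n) F) : Matrix (Fin n) (Fin n) F) * (x : Matrix (Fin n) (Fin n) F) * (P : Matrix (Fin n) (Fin n) F)) *ᵥ
            (((P⁻¹ : Matrix.SpecialLinearGroup (Fin n) F) : Matrix (Fin n) (Fin n) F) *ᵥ v)
        rw [Matrix.mulVec_mulVec, Matrix.mulVec_mulVec, mul_assoc, hPP', mul_one]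
      have h5 : Matrix.toLin' (Y - 1) = Matrix.toLin' Y - (1 : F) • (1 : (Fin n → F) →ₗ[F] (Fin n → F)) := by
        rw [one_smul, map_sub, Matrix.toLin'_one]
        rfl
      have h6 : Matrix.toLin' (M' - 1) = Matrix.toLin' M' - 1 := by
        rw [map_sub, Matrix.toLin'_one]
        rfl
      rw [h5, ← h4, one_smul, h6] at h2
      rw [← h2, ← Nat.card_eq_fintype_card (α := F₀), ← hi₀] at h1
      have hfn0 : finrank F₀ (Fin n → F₀) = n := by simp
      rw [hfn0] at h1
      rw [one_mul, ← hi] at hx4
      nth_rewrite 1 [← hx4] at h1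
      have h7 : i₀ ∣ i := by
        have h8 := (Nat.modEq_iff_dvd' (by omega)).mp h1.symm
        rwa [Nat.add_sub_cancel_left] at h8
      have h8 := Nat.le_of_dvd hipos h7
      rw [hrel'] at h8
      nlinarith
  · intro hcase x ⟨z, hz⟩ hxn
    set f := Matrix.toLin' (x : Matrix (Fin n) (Fin n) F) with hf
    have hxz : (x : Matrix (Fin n) (Fin n) F) ^ r = z • (1 : Matrix (Fin n) (Fin n) F) := by
      rw [← Matrix.SpecialLinearGroup.coe_pow, hz]
    have hf3 : f ^ r = z • (1 : (Fin n → F) →ₗ[F] (Fin n → F)) := by
      rw [hf, ← Matrix.toLin'_pow, hxz]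
      ext v
      simp
    have hz0 : z ≠ 0 := by
      rintro rfl
      have h1 := congrArg Matrix.det hz
      rw [zero_smul, Matrix.det_zero] at h1
      · rw [(x ^ r).det_coe] at h1
        exact one_ne_zero h1
    have hcs : H99.CentSurj (x : Matrix (Fin n) (Fin n) F) := H99.centSurj_of_pow_eq hn0 _ r z hz0 hrF hxz
    have hdetf : LinearMap.det f = 1 := by rw [hf, LinearMap.det_toLin', x.det_coe]
    -- exclusion of the second kind of elements
    have hnp : r ∣ Fintype.card F - 1 → padicValNat r n ≤ padicValNat r (Fintype.card F - 1) → ∃ w : F, w ^ r = z := by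
      intro h1 h2
      by_contra hcon
      push Not at hcon
      obtain ⟨h3, h4⟩ := H99.det_of_nonpower hr z hcon f hf3
      rw [hfn] at h3 h4
      exact H99.no_nonpower_of_cond hn0 h3 h1 ⟨h2, fun h => absurd h hr2⟩ z hz0 hcon (by rw [← h4, hdetf])
    rcases hcase with hrk | ⟨hk2, hrn, hn35, hv⟩
    · have hii : i = i₀ := by
        rcases hrel with h | h
        · exact h
        · exfalso
          have h1 := Nat.le_of_dvd (by omega) hi₀r
          rw [h, hrk] at h1
          have h2 : k ≤ k * i := Nat.le_mul_of_pos_right k hipos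
          omega
      have hw : ∃ w : F, w ^ r = z := by
        by_cases hd : r ∣ Fintype.card F - 1
        · apply hnp hd
          apply hgapk hrk
          rw [H99.dvd_sub_one_iff_orderOf, ← hi, hii] at hd
          have h1 := H99.dvd_pow_sub_one_iff (r := r) (q := Nat.card F₀) (by omega) 1
          rw [pow_one] at h1
          rw [h1, ← hi₀, hd]
        · exact H99.exists_root_of_not_dvd hd z
      obtain ⟨w, hw⟩ := hw
      have hw0 : w ≠ 0 := by
        rintro rfl
        rw [zero_pow hr.ne_zero] at hw
        exact hz0 hw.symm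
      have hg : (w⁻¹ • f) ^ r = 1 := by
        rw [_root_.smul_pow, hf3, smul_smul, inv_pow, hw, inv_mul_cancel₀ hz0, one_smul]
      obtain ⟨l, Q, hQ, ⟨D⟩⟩ := H99.exists_decomp_one hrp (w⁻¹ • f) hg
      have hcoef : ∀ j s, (Q j).coeff s ∈ F₀ := by
        intro j s
        rcases (hQ j).2.2 with h | h
        · rw [h, coeff_sub]
          apply F₀.sub_mem
          · rw [coeff_X]
            split_ifs
            · exact F₀.one_mem
            · exact F₀.zero_mem
          · rw [coeff_C]
            split_ifs
            · exact F₀.one_mem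
            · exact F₀.zero_mem
        · obtain ⟨R, hR⟩ := H99.factor_of_order_eq F₀ hrp hii (hQ j).1 (hQ j).2.1 h.1 h.2
          rw [← hR, coeff_map]
          exact (R.coeff s).2
      apply H99.exists_conj_mem_subfield F₀ hn0 x hcs D.basis w
      intro a b
      refine ⟨⟨_, D.repr_mem F₀ hcoef b a⟩, ?_⟩
      change D.basis.repr (f (D.basis b)) a = w * D.basis.repr ((w⁻¹ • f) (D.basis b)) a
      rw [LinearMap.smul_apply, map_smul, Finsupp.smul_apply, smul_eq_mul, ← mul_assoc, mul_inv_cancel₀ hw0, one_mul]
    · subst hk2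
      subst hrn
      have hdvd1 : r ∣ Nat.card F₀ + 1 := dvd_of_one_le_padicValNat (by rw [hv])
      have hnd : ¬ r ∣ Nat.card F₀ - 1 := by
        intro h
        have h1 := (Nat.dvd_sub hdvd1 h)
        have h2 : Nat.card F₀ + 1 - (Nat.card F₀ - 1) = 2 := by omega
        rw [h2] at h1
        have := Nat.le_of_dvd (by norm_num) h1
        omega
      have hfac : Fintype.card F - 1 = (Nat.card F₀ - 1) * (Nat.card F₀ + 1) := by
        rw [hqk]
        obtain ⟨a, ha⟩ : ∃ a, Nat.card F₀ = a + 1 := ⟨Nat.card F₀ - 1, by omega⟩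
        rw [ha, Nat.add_sub_cancel]
        have : (a + 1) ^ 2 = a * (a + 1 + 1) + 1 := by ring
        omega
      have hvq : padicValNat r (Fintype.card F - 1) = 1 := by
        rw [hfac, padicValNat.mul (by omega) (by omega), hv, padicValNat.eq_zero_of_not_dvd hnd]
      have hdq : r ∣ Fintype.card F - 1 := by
        rw [hfac]
        exact hdvd1.mul_left _
      obtain ⟨w, hw⟩ := hnp hdq (by rw [hvq, padicValNat_self])
      have hw0 : w ≠ 0 := by
        rintro rfl
        rw [zero_pow hr.ne_zero] at hw
        exact hz0 hw.symm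
      have hg : (w⁻¹ • f) ^ r = 1 := by
        rw [_root_.smul_pow, hf3, smul_smul, inv_pow, hw, inv_mul_cancel₀ hz0, one_smul]
      obtain ⟨b, c, hc1, hc2⟩ := H99.exists_eigenbasis hrp hdq (w⁻¹ • f) hg
      have hprod : ∏ j, c j = (w⁻¹) ^ r := by
        rw [← H99.det_of_eigenbasis b _ c hc2, LinearMap.det_smul, hdetf, mul_one, hfn]
      have hwrr : w ^ (r * r) = 1 := by
        have h1 : (∏ j, c j) ^ r = 1 := by
          rw [← Finset.prod_pow]
          exact Finset.prod_eq_one (fun j _ => hc1 j)
        rw [hprod, ← pow_mul, inv_pow, inv_eq_one] at h1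
        exact h1
      have hwr : w ^ r = 1 := by
        by_contra hcon
        have h1 : orderOf w ∣ r ^ 2 := orderOf_dvd_of_pow_eq_one (by rw [pow_two]; exact hwrr)
        obtain ⟨m, hm, hm2⟩ := (Nat.dvd_prime_pow hr).mp h1
        have h2 : m = 2 := by
          by_contra hm3
          have h3 : m = 0 ∨ m = 1 := by omega
          apply hcon
          apply orderOf_dvd_iff_pow_eq_one.mp
          rw [hm2]
          rcases h3 with h3 | h3
          · rw [h3, pow_zero]
            exact one_dvd _
          · rw [h3, pow_one]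
        have h3 : orderOf w ∣ Fintype.card F - 1 := orderOf_dvd_of_pow_eq_one (FiniteField.pow_card_sub_one_eq_one w hw0)
        rw [hm2, h2] at h3
        have h4 := (padicValNat_dvd_iff_le (p := r) (a := Fintype.card F - 1) (n := 2) (by omega)).mp h3
        omega
      have hprod1 : ∏ j, c j = 1 := by rw [hprod, inv_pow, hwr, inv_one]
      obtain ⟨ζ, hζ1, hζ⟩ := H99.exists_prim_root (F := F) hdq
      have hprim : IsPrimitiveRoot ζ r := by
        rw [IsPrimitiveRoot.iff_orderOf]
        exact orderOf_eq_prime hζ hζ1
      have hζ0 : ζ ≠ 0 := by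
        rintro rfl
        rw [zero_pow hr.ne_zero] at hζ
        exact zero_ne_one hζ
      have : NeZero r := ⟨hr.ne_zero⟩
      have hcex : ∀ j, ∃ a, a < r ∧ ζ ^ a = c j := fun j => hprim.eq_pow_of_pow_eq_one (hc1 j)
      choose a ha1 ha2 using hcex
      have hsuma : r ∣ ∑ j, a j := by
        have h1 : ζ ^ (∑ j, a j) = 1 := by
          rw [← Finset.prod_pow_eq_pow_sum, Finset.prod_congr rfl (fun j _ => ha2 j), hprod1]
        exact (hprim.pow_eq_one_iff_dvd _).mp h1
      let Nf : ℕ → ℕ := fun s => (Finset.univ.filter (fun j => c j = ζ ^ s)).card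
      have hNf : ∀ s, s < r → Nf s = (Finset.univ.filter (fun j => a j = s)).card := by
        intro s hs
        change (Finset.univ.filter (fun j => c j = ζ ^ s)).card = _
        congr 1
        apply Finset.filter_congr
        intro j _
        rw [← ha2 j]
        constructor
        · intro h
          exact hprim.pow_inj (ha1 j) hs h
        · intro h
          rw [h]
      have hper : ∀ s, Nf (s + r) = Nf s := by
        intro s
        change (Finset.univ.filter (fun j => c j = ζ ^ (s + r))).card = _
        rw [pow_add, hζ, mul_one]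
      have hmaps : ∀ j ∈ (Finset.univ : Finset (Fin (finrank F (Fin r → F)))), a j ∈ Finset.range r := fun j _ => Finset.mem_range.mpr (ha1 j)
      have hsum1 : ∑ s ∈ Finset.range r, Nf s = r := by
        have h1 := Finset.card_eq_sum_card_fiberwise (f := a) (s := Finset.univ) (t := Finset.range r) hmaps
        rw [Finset.card_univ, Fintype.card_fin] at h1
        rw [Finset.sum_congr rfl (fun s hs => hNf s (Finset.mem_range.mp hs)), ← h1]
        exact hfn
      have hsum2 : r ∣ ∑ s ∈ Finset.range r, s * Nf s := by
        have h1 := Finset.sum_fiberwise_of_maps_to (s := Finset.univ) (t := Finset.range r) (g := a) hmaps a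
        rw [← h1] at hsuma
        have h2 : ∑ s ∈ Finset.range r, s * Nf s = ∑ s ∈ Finset.range r, ∑ j ∈ Finset.univ.filter (fun j => a j = s), a j := by
          apply Finset.sum_congr rfl
          intro s hs
          rw [hNf s (Finset.mem_range.mp hs), Finset.sum_congr rfl (g := fun _ => s) (fun j hj => (Finset.mem_filter.mp hj).2), Finset.sum_const,
            smul_eq_mul, mul_comm]
        rw [h2]
        exact hsuma
      have hsym : ∃ t, ∀ b, b < r → Nf (b + t) = Nf (r - b + t) := by
        rcases hn35 with h | h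
        · obtain rfl : r = 3 := h
          simp only [Finset.sum_range_succ, Finset.sum_range_zero] at hsum1 hsum2
          have p3 : Nf 3 = Nf 0 := hper 0
          have p4 : Nf 4 = Nf 1 := hper 1
          have p5 : Nf 5 = Nf 2 := hper 2
          rcases three_mult (Nf 0) (Nf 1) (Nf 2) (by omega) (by omega) with h1 | h1 | h1
          · refine ⟨0, fun b hb => ?_⟩
            interval_cases b <;> simp <;> omega
          · refine ⟨1, fun b hb => ?_⟩
            interval_cases b <;> simp <;> omega
          · refine ⟨2, fun b hb => ?_⟩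
            interval_cases b <;> simp <;> omega
        · obtain rfl : r = 5 := h
          simp only [Finset.sum_range_succ, Finset.sum_range_zero] at hsum1 hsum2
          have p5 : Nf 5 = Nf 0 := hper 0
          have p6 : Nf 6 = Nf 1 := hper 1
          have p7 : Nf 7 = Nf 2 := hper 2
          have p8 : Nf 8 = Nf 3 := hper 3
          have p9 : Nf 9 = Nf 4 := hper 4
          rcases five_mult (Nf 0) (Nf 1) (Nf 2) (Nf 3) (Nf 4) (by omega) (by omega) with h1 | h1 | h1 | h1 | h1
          · refine ⟨0, fun b hb => ?_⟩
            interval_cases b <;> simp <;> omega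
          · refine ⟨1, fun b hb => ?_⟩
            interval_cases b <;> simp <;> omega
          · refine ⟨2, fun b hb => ?_⟩
            interval_cases b <;> simp <;> omega
          · refine ⟨3, fun b hb => ?_⟩
            interval_cases b <;> simp <;> omega
          · refine ⟨4, fun b hb => ?_⟩
            interval_cases b <;> simp <;> omega
      obtain ⟨t, ht⟩ := hsym
      set η := ζ ^ t with hη
      have hη0 : η ≠ 0 := pow_ne_zero _ hζ0
      have hηr : η ^ r = 1 := by rw [hη, ← pow_mul, mul_comm, pow_mul, hζ, one_pow]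
      have hc'r : ∀ j, (c j * η⁻¹) ^ r = 1 := fun j => by rw [mul_pow, hc1, inv_pow, hηr, inv_one, mul_one]
      obtain ⟨κ, _, b', hb'⟩ := H99.exists_pair_basis (r := r) (η⁻¹ • (w⁻¹ • f)) b (fun j => c j * η⁻¹) (by
        intro j
        rw [LinearMap.smul_apply, hc2, smul_smul, mul_comm]) hr2 hc'r (by
        intro y
        by_cases hy : y ^ r = 1
        · obtain ⟨s, hs, rfl⟩ := hprim.eq_pow_of_pow_eq_one hy
          have h1 := ht s hs
          have h2 : ∀ s', Nat.card {j // c j * η⁻¹ = ζ ^ s'} = Nf (s' + t) := by
            intro s'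
            rw [Nat.card_eq_fintype_card, Fintype.card_subtype]
            change _ = (Finset.univ.filter (fun j => c j = ζ ^ (s' + t))).card
            congr 1
            apply Finset.filter_congr
            intro j _
            rw [pow_add, ← hη, mul_inv_eq_iff_eq_mul₀ hη0]
          have h3 : (ζ ^ s)⁻¹ = ζ ^ (r - s) := by
            rw [inv_eq_iff_eq_inv, eq_comm, inv_eq_iff_eq_inv]
            have h4 : ζ ^ (r - s) * ζ ^ s = 1 := by rw [← pow_add, Nat.sub_add_cancel hs.le, hζ]
            exact (eq_inv_of_mul_eq_one_left h4)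
          rw [h3, h2, h2, h1]
        · have e1 : IsEmpty {j // c j * η⁻¹ = y} := ⟨fun x => hy (by rw [← x.2]; exact hc'r _)⟩
          have e2 : IsEmpty {j // c j * η⁻¹ = y⁻¹} := ⟨fun x => hy (by
            have h1 := hc'r x.1
            rw [x.2, inv_pow, inv_eq_one] at h1
            exact h1)⟩
          rw [Nat.card_of_isEmpty, Nat.card_of_isEmpty]) F₀ (by
        intro j
        apply mem_of_pow_eq
        obtain ⟨e0, he0⟩ := FiniteField.card F₀ p
        have hcard0 : Nat.card F₀ = p ^ (e0 : ℕ) := by rw [Nat.card_eq_fintype_card, he0.2]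
        have h0 : c j * η⁻¹ ≠ 0 := by
          intro h
          have := hc'r j
          rw [h, zero_pow hr.ne_zero] at this
          exact zero_ne_one this
        have h1 : (c j * η⁻¹) ^ Nat.card F₀ = (c j * η⁻¹)⁻¹ := by
          apply eq_inv_of_mul_eq_one_left
          rw [← pow_succ]
          obtain ⟨m, hm⟩ := hdvd1
          rw [hm, pow_mul, hc'r, one_pow]
        have h2 : ((c j * η⁻¹)⁻¹) ^ Nat.card F₀ = c j * η⁻¹ := by rw [inv_pow, h1, inv_inv]
        rw [hcard0] at h1 h2 ⊢
        rw [add_pow_char_pow, h1, h2, add_comm])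
      apply H99.exists_conj_mem_subfield F₀ hn0 x hcs b' (w * η)
      intro i j
      refine ⟨⟨_, hb' j i⟩, ?_⟩
      change b'.repr (f (b' j)) i = w * η * b'.repr ((η⁻¹ • (w⁻¹ • f)) (b' j)) i
      rw [LinearMap.smul_apply, LinearMap.smul_apply, map_smul, map_smul, Finsupp.smul_apply, Finsupp.smul_apply, smul_eq_mul, smul_eq_mul]
      field_simp

end Cfsg.Agent.S5965
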