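import Cfsg.Statements.S5966
import Cfsg.Agent.H99.BasisConj
import Cfsg.Agent.H99.SubfieldGrp

set_option autoImplicit false
open scoped MatrixGroups
open Cfsg

namespace Cfsg.Agent.S5966

open Module Matrix Polynomial

/-- every element of the subfield is a square when the degree is two -/
lemma sq_facts {F : Type*} [Field F] [Fintype F] (F₀ : Subfield F) (hodd : Odd (Fintype.card F))
    (hcard : Fintype.card F = Nat.card F₀ ^ 2) : ∀ a : F, a ∈ F₀ → ∃ w : F, w * w = a := by
  intro a ha
  by_cases ha0 : a = 0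
  · exact ⟨0, by rw [ha0, mul_zero]⟩
  have h2 : ringChar F ≠ 2 := by
    intro h
    have := FiniteField.even_card_of_char_two h
    rw [Nat.odd_iff] at hodd
    omega
  have hfin : Finite F₀ := inferInstance
  have : Fintype F₀ := Fintype.ofFinite F₀
  have h1 : a ^ (Nat.card F₀ - 1) = 1 := by
    have h3 := FiniteField.pow_card_sub_one_eq_one (⟨a, ha⟩ : F₀) (by
      intro h; exact ha0 (congrArg Subtype.val h))
    rw [Nat.card_eq_fintype_card]
    exact congrArg Subtype.val h3
  have hodd0 : Odd (Nat.card F₀) := by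
    rw [hcard] at hodd
    exact Nat.Odd.of_mul_left (m := Nat.card F₀) (n := Nat.card F₀) (by rw [← pow_two]; exact hodd)
  obtain ⟨m, hm⟩ := hodd0
  have h4 : Fintype.card F / 2 = (Nat.card F₀ - 1) * (m + 1) := by
    rw [hcard, hm]
    have : (2 * m + 1) ^ 2 = 2 * ((2 * m + 1 - 1) * (m + 1)) + 1 := by
      rw [Nat.add_sub_cancel]; ring
    omega
  have h5 : a ^ (Fintype.card F / 2) = 1 := by
    rw [h4, pow_mul, h1, one_pow]
  obtain ⟨w, hw⟩ := (FiniteField.isSquare_iff h2 ha0).mpr h5
  exact ⟨w, hw.symm⟩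

/-- a nonsquare in the subfield when the degree is odd -/
lemma exists_nonsq {F : Type*} [Field F] [Fintype F] (F₀ : Subfield F) {k : ℕ} (hodd : Odd (Fintype.card F)) (hk : Odd k)
    (hcard : Fintype.card F = Nat.card F₀ ^ k) : ∃ a : F₀, a ≠ 0 ∧ ∀ δ : F, δ ≠ 0 → ∃ c : F, c ≠ 0 ∧ (c ^ 2 = δ ∨ c ^ 2 * a = δ) := by
  have hfin : Finite F₀ := inferInstance
  have : Fintype F₀ := Fintype.ofFinite F₀
  have h2 : ringChar F ≠ 2 := by
    intro h
    have := FiniteField.even_card_of_char_two h
    rw [Nat.odd_iff] at hodd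
    omega
  have hodd0 : Odd (Nat.card F₀) := by
    rw [hcard] at hodd
    by_contra hcon
    rw [Nat.not_odd_iff_even] at hcon
    have hk0 : k ≠ 0 := by rintro rfl; simp at hk
    exact (Nat.not_odd_iff_even.mpr (hcon.pow_of_ne_zero hk0)) hodd
  have h20 : ringChar F₀ ≠ 2 := by
    intro h
    have h3 := FiniteField.even_card_of_char_two h
    rw [Nat.card_eq_fintype_card] at hodd0
    rw [Nat.odd_iff] at hodd0
    omega
  obtain ⟨a, ha⟩ := FiniteField.exists_nonsquare h20
  have ha0 : a ≠ 0 := by
    rintro rfl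
    exact ha ⟨0, by simp⟩
  have h1 : a ^ (Fintype.card F₀ / 2) = -1 := by
    rcases FiniteField.pow_dichotomy h20 ha0 with h | h
    · exact absurd ((FiniteField.isSquare_iff h20 ha0).mpr h) ha
    · exact h
  have hg := H99.odd_geom hodd0 hk
  set g := ∑ i ∈ Finset.range k, Nat.card F₀ ^ i with hg'
  have h3 : Fintype.card F / 2 = (Fintype.card F₀ / 2) * g := by
    have h4 : g * (Nat.card F₀ - 1) = Nat.card F₀ ^ k - 1 := geom_sum_mul_of_one_le (by
      have := hodd0.pos
      omega) k
    rw [← hcard] at h4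
    obtain ⟨m, hm⟩ := hodd0
    obtain ⟨m', hm'⟩ := hodd
    rw [Nat.card_eq_fintype_card] at hm
    rw [Nat.card_eq_fintype_card, hm, hm', Nat.add_sub_cancel, Nat.add_sub_cancel] at h4
    rw [hm, hm']
    have e1 : (2 * m' + 1) / 2 = m' := by omega
    have e2 : (2 * m + 1) / 2 = m := by omega
    rw [e1, e2]
    have h5 : 2 * (g * m) = 2 * m' := by rw [← h4]; ring
    linarith
  have h4 : ((a : F₀) : F) ^ (Fintype.card F / 2) = -1 := by
    rw [h3, pow_mul]
    have h5 : ((a : F₀) : F) ^ (Fintype.card F₀ / 2) = -1 := congrArg Subtype.val h1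
    rw [h5, hg.neg_one_pow]
  have ha0' : ((a : F₀) : F) ≠ 0 := fun h => ha0 (Subtype.ext h)
  refine ⟨a, ha0, ?_⟩
  intro δ hδ
  have hsq0 : ∀ y : F, y ≠ 0 → IsSquare y → ∃ c : F, c ≠ 0 ∧ c ^ 2 = y := by
    rintro y hy ⟨c, rfl⟩
    exact ⟨c, by rintro rfl; simp at hy, pow_two c⟩
  rcases FiniteField.pow_dichotomy h2 hδ with h | h
  · obtain ⟨c, hc, hc2⟩ := hsq0 δ hδ ((FiniteField.isSquare_iff h2 hδ).mpr h)
    exact ⟨c, hc, Or.inl hc2⟩
  · have h5 : δ * (a : F)⁻¹ ≠ 0 := mul_ne_zero hδ (inv_ne_zero ha0')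
    obtain ⟨c, hc, hc2⟩ := hsq0 (δ * (a : F)⁻¹) h5 ((FiniteField.isSquare_iff h2 h5).mpr (by
      rw [mul_pow, inv_pow, h, h4]
      norm_num))
    refine ⟨c, hc, Or.inr ?_⟩
    rw [hc2, mul_assoc, inv_mul_cancel₀ ha0', mul_one]

section
universe u
variable {K V W : Type u} [Field K] [AddCommGroup V] [Module K V] [FiniteDimensional K V]
  [AddCommGroup W] [Module K W] [FiniteDimensional K W]

lemma exists_square_jordan (N T : V →ₗ[K] V) (hN : N ^ 2 = 0) (hT : ∀ v, N (T v) + T (N v) = v) :
    ∃ k : ℕ, Nonempty (H99.CycDecomp N (fun _ : Fin k => (X : K[X]) ^ 2)) := by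
  obtain ⟨k, e, he, ⟨D⟩⟩ := H99.exists_jordan N 2 hN
  have h2 : ∀ j, e j = 2 := by
    intro j
    by_contra hcon
    have h1 : e j = 1 := by
      have := he j
      omega
    let x : Σ j, Fin ((X : K[X]) ^ e j).natDegree := ⟨j, ⟨0, by rw [natDegree_X_pow]; omega⟩⟩
    have h3 : N (D.basis x) = 0 := by
      have h4 := H99.jordan_pow_apply D 1 j ⟨0, by rw [natDegree_X_pow]; omega⟩
      have hdeg : ((X : K[X]) ^ e j).natDegree = e j := natDegree_X_pow _
      rw [pow_one, dif_neg (by simp only [not_lt]; omega)] at h4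
      exact h4
    have h4 := hT (D.basis x)
    rw [h3, map_zero, add_zero] at h4
    have h5 : ∀ w, D.basis.repr (N w) x = 0 := by
      intro w
      have h6 : (Finsupp.lapply x ∘ₗ D.basis.repr.toLinearMap) ∘ₗ N = 0 := by
        apply D.basis.ext
        intro y
        simp only [LinearMap.comp_apply, LinearEquiv.coe_coe, Finsupp.lapply_apply, LinearMap.zero_apply]
        rw [H99.jordan_repr, if_neg]
        rintro ⟨-, h7⟩
        simp [x] at h7
      exact LinearMap.congr_fun h6 w
    have h6 := h5 (T (D.basis x))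
    rw [h4, Basis.repr_self, Finsupp.single_eq_same] at h6
    exact one_ne_zero h6
  obtain rfl : e = fun _ => 2 := funext h2
  exact ⟨k, ⟨D⟩⟩

lemma conj_of_square (N T : V →ₗ[K] V) (hN : N ^ 2 = 0) (hT : ∀ v, N (T v) + T (N v) = v)
    (N' T' : W →ₗ[K] W) (hN' : N' ^ 2 = 0) (hT' : ∀ v, N' (T' v) + T' (N' v) = v) (hd : finrank K V = finrank K W) :
    ∃ e : V ≃ₗ[K] W, ∀ v, e (N v) = N' (e v) := by
  obtain ⟨k, ⟨D⟩⟩ := exists_square_jordan N T hN hT
  obtain ⟨k', ⟨D'⟩⟩ := exists_square_jordan N' T' hN' hT'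
  have h1 := D.finrank_eq
  have h2 := D'.finrank_eq
  simp only [natDegree_X_pow, Finset.sum_const, Finset.card_univ, Fintype.card_fin, smul_eq_mul] at h1 h2
  have h3 : k = k' := by omega
  subst h3
  obtain ⟨e, he, -⟩ := D.conj D'
  exact ⟨e, he⟩

end

/-- matrices commuting with the standard nilpotent have square determinant -/
lemma det_sq_of_commute {F : Type*} [Field F] {n m : ℕ} (ε : Fin m ⊕ Fin m ≃ Fin n) (C : Matrix (Fin n) (Fin n) F)
    (h : C * (Matrix.fromBlocks 0 1 0 0).submatrix ε.symm ε.symm = (Matrix.fromBlocks 0 1 0 0).submatrix ε.symm ε.symm * C) :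
    ∃ a : F, C.det = a * a := by
  set C' := C.submatrix ε ε with hC'
  have h1 : C' * Matrix.fromBlocks 0 1 0 0 = Matrix.fromBlocks 0 1 0 0 * C' := by
    have h2 : C = C'.submatrix ε.symm ε.symm := by
      rw [hC', Matrix.submatrix_submatrix]
      simp
    rw [h2, Matrix.submatrix_mul_equiv, Matrix.submatrix_mul_equiv] at h
    have h3 := congrArg (fun M => M.submatrix ε ε) h
    simpa [Matrix.submatrix_submatrix] using h3
  have h2 : C.det = C'.det := by rw [hC', Matrix.det_submatrix_equiv_self]
  rw [h2]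
  rw [← Matrix.fromBlocks_toBlocks C', Matrix.fromBlocks_multiply, Matrix.fromBlocks_multiply] at h1
  simp only [Matrix.mul_zero, Matrix.mul_one, Matrix.zero_mul, Matrix.one_mul, add_zero, zero_add] at h1
  rw [Matrix.fromBlocks_inj] at h1
  obtain ⟨h3, h4, -, -⟩ := h1
  refine ⟨C'.toBlocks₁₁.det, ?_⟩
  rw [← Matrix.fromBlocks_toBlocks C', ← h3, ← h4, Matrix.det_fromBlocks_zero₂₁]
  simp

/-- the standard nilpotent matrix -/
def Nst (K : Type*) [Field K] {n m : ℕ} (ε : Fin m ⊕ Fin m ≃ Fin n) : Matrix (Fin n) (Fin n) K :=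
  (Matrix.fromBlocks 0 1 0 0).submatrix ε.symm ε.symm

def Tst (K : Type*) [Field K] {n m : ℕ} (ε : Fin m ⊕ Fin m ≃ Fin n) : Matrix (Fin n) (Fin n) K :=
  (Matrix.fromBlocks 0 0 1 0).submatrix ε.symm ε.symm

section
variable {K : Type*} [Field K] {n m : ℕ} (ε : Fin m ⊕ Fin m ≃ Fin n)

lemma Nst_sq : Nst K ε ^ 2 = 0 := by
  rw [pow_two, Nst, Matrix.submatrix_mul_equiv, Matrix.fromBlocks_multiply]
  simp

lemma Nst_Tst : Nst K ε * Tst K ε + Tst K ε * Nst K ε = 1 := by
  have h : ∀ (B C : Matrix (Fin m ⊕ Fin m) (Fin m ⊕ Fin m) K), B.submatrix ε.symm ε.symm + C.submatrix ε.symm ε.symm =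
    (B + C).submatrix ε.symm ε.symm := fun _ _ => rfl
  rw [Nst, Tst, Matrix.submatrix_mul_equiv, Matrix.submatrix_mul_equiv, Matrix.fromBlocks_multiply, Matrix.fromBlocks_multiply,
    h, Matrix.fromBlocks_add]
  simp

lemma Nst_map {F : Type*} [Field F] (F₀ : Subfield F) : (Nst F₀ ε).map (fun a => (a : F)) = Nst F ε := by
  rw [Nst, Nst, ← Matrix.submatrix_map, Matrix.fromBlocks_map]
  congr 2
  ext i j
  rw [Matrix.map_apply, Matrix.one_apply, Matrix.one_apply]
  split_ifs <;> rfl

end

/-- Elements of order 3 of PSL_n(q) in characteristic 3 and subfield subgroups. Here `T = PSL_n(F)` for a field `F` with `q` elements, `q` a power of 3 (`n ≥ 2`, `(n, q) ≠ (2, 2), (2, 3)`), `F₀` is the subfield with `q₀` elements where `q = q₀^k` for a prime `k`, and `H` is the subgroup of matrices of determinant 1 lying in the subfield group of `F₀` (invertible matrices over `F₀` times scalars) — a maximal subgroup of type GL_n(q₀) (the case `n = 2`, `q₀ = 2` is excluded); Ω is the set of `T`-conjugates of `H` (cosets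 of `H`), so an element of `T` of prime order `r` (a matrix `x` of determinant 1 with `x^r` scalar, `x` not scalar) fixes a point of Ω when some conjugate of `x` by a matrix of determinant 1 lies in `H`. Suppose 3 divides the index of `H`. Then every element of `T` of order 3 is conjugate in `T` into `H` if and only if `n` is odd, or `n` is even and `k > 2`. -/
theorem result {F : Type*} [Field F] [Fintype F] [CharP F 3] {q : ℕ} (hq : Fintype.card F = q)
    (n : ℕ) (hn : 2 ≤ n) (hT : (n, q) ≠ (2, 3))
    (F₀ : Subfield F) (k q₀ : ℕ) (hk : k.Prime) (hF₀ : Nat.card ↥F₀ = q₀) (hqk : q = q₀ ^ k) (hC5 : ¬ (n = 2 ∧ q₀ = 2)) (hΩ : 3 ∣ ((Cfsg.Geo.subfieldSubgroup F₀ 1).comap (Matrix.SpecialLinearGroup.toGL : Matrix.SpecialLinearGroup (Fin n) F →* GL (Fin n) F)).index) :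
    (∀ x : Matrix.SpecialLinearGroup (Fin n) F,
      (∃ z : F, ((x ^ 3 : Matrix.SpecialLinearGroup (Fin n) F) : Matrix (Fin n) (Fin n) F) = z • (1 : Matrix (Fin n) (Fin n) F)) →
      (∀ z : F, (x : Matrix (Fin n) (Fin n) F) ≠ z • (1 : Matrix (Fin n) (Fin n) F)) →
      ∃ P : Matrix.SpecialLinearGroup (Fin n) F, P⁻¹ * x * P ∈ ((Cfsg.Geo.subfieldSubgroup F₀ 1).comap (Matrix.SpecialLinearGroup.toGL : Matrix.SpecialLinearGroup (Fin n) F →* GL (Fin n) F))) ↔
    (Odd n ∨ (Even n ∧ 2 < k)) := by
  classical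
  subst hq
  subst hF₀
  have hn0 : 0 < n := by omega
  have hne : Nonempty (Fin n) := ⟨⟨0, hn0⟩⟩
  have h3 : Nat.Prime 3 := Nat.prime_three
  have h3f : Fact (Nat.Prime 3) := ⟨h3⟩
  have hodd : Odd (Fintype.card F) := by
    obtain ⟨e, -, he⟩ := FiniteField.card F 3
    rw [he]
    exact Odd.pow (by decide)
  have hfin : Finite F₀ := inferInstance
  have : Fintype F₀ := Fintype.ofFinite F₀
  have hc3 : CharP F₀ 3 := (algebraMap F₀ F).charP (algebraMap F₀ F).injective 3
  constructor
  · intro H
    rcases Nat.even_or_odd n with he | ho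
    · right
      refine ⟨he, ?_⟩
      by_contra hk2
      have hk2 : k = 2 := by
        have := hk.two_le
        omega
      subst hk2
      have hsq := sq_facts F₀ hodd hqk
      exfalso
      obtain ⟨m, hm⟩ := he
      let ε : Fin m ⊕ Fin m ≃ Fin n := finSumFinEquiv.trans (finCongr hm.symm)
      obtain ⟨ν, hν⟩ := FiniteField.exists_nonsquare (F := F) (by
        intro h
        have := FiniteField.even_card_of_char_two h
        rw [Nat.odd_iff] at hodd
        omega)
      have hν0 : ν ≠ 0 := by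
        rintro rfl
        exact hν ⟨0, by simp⟩
      let i0 : Fin n := ⟨0, hn0⟩
      let Q : Matrix (Fin n) (Fin n) F := Matrix.diagonal (fun j => if j = i0 then ν else 1)
      let Q' : Matrix (Fin n) (Fin n) F := Matrix.diagonal (fun j => if j = i0 then ν⁻¹ else 1)
      have hQQ : Q * Q' = 1 := by
        rw [Matrix.diagonal_mul_diagonal, ← Matrix.diagonal_one]
        congr 1
        funext j
        split_ifs
        · exact mul_inv_cancel₀ hν0
        · exact one_mul _
      have hQQ' : Q' * Q = 1 := by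
        rw [Matrix.diagonal_mul_diagonal, ← Matrix.diagonal_one]
        congr 1
        funext j
        split_ifs
        · exact inv_mul_cancel₀ hν0
        · exact one_mul _
      have hQd : Q.det = ν := by
        rw [Matrix.det_diagonal, Finset.prod_ite_eq' Finset.univ i0 (fun _ => ν)]
        simp
      have hN3 : (Nst F ε) ^ 3 = 0 := by rw [pow_succ, Nst_sq, zero_mul]
      have h1N : (1 + Nst F ε) ^ 3 = 1 := by
        have h1 : (1 + Nst F ε) ^ 3 = 1 ^ 3 + (Nst F ε) ^ 3 := add_pow_char_of_commute _ (Commute.one_left _)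
        rw [h1, hN3, one_pow, add_zero]
      have hpow : ∀ (A B A' : Matrix (Fin n) (Fin n) F) (t : ℕ), A * A' = 1 → A' * A = 1 → (A * B * A') ^ t = A * B ^ t * A' := by
        intro A B A' t h1 h2
        induction t with
        | zero => rw [pow_zero, pow_zero, mul_one, h1]
        | succ t ih =>
          rw [pow_succ, ih, pow_succ]
          calc A * B ^ t * A' * (A * B * A') = A * B ^ t * (A' * A) * B * A' := by noncomm_ring
            _ = A * (B ^ t * B) * A' := by rw [h2, mul_one]; noncomm_ring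
      have hx3 : (Q * (1 + Nst F ε) * Q') ^ 3 = 1 := by rw [hpow _ _ _ _ hQQ hQQ', h1N, mul_one, hQQ]
      have hxd : (Q * (1 + Nst F ε) * Q').det = 1 := by
        have h1 := congrArg Matrix.det hx3
        rw [Matrix.det_pow, Matrix.det_one] at h1
        have h2 : (Q * (1 + Nst F ε) * Q').det ^ 3 = 1 ^ 3 := by rw [h1, one_pow]
        exact frobenius_inj F 3 h2
      let x : Matrix.SpecialLinearGroup (Fin n) F := ⟨_, hxd⟩
      obtain ⟨P, hP⟩ := H x ⟨1, by
        rw [Matrix.SpecialLinearGroup.coe_pow]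
        change (Q * (1 + Nst F ε) * Q') ^ 3 = _
        rw [hx3, one_smul]⟩ (by
        intro z hz
        change Q * (1 + Nst F ε) * Q' = _ at hz
        have h1 : 1 + Nst F ε = z • (1 : Matrix (Fin n) (Fin n) F) := by
          calc 1 + Nst F ε = (Q' * Q) * (1 + Nst F ε) * (Q' * Q) := by rw [hQQ', one_mul, mul_one]
            _ = Q' * (Q * (1 + Nst F ε) * Q') * Q := by noncomm_ring
            _ = z • (1 : Matrix (Fin n) (Fin n) F) := by rw [hz, mul_smul_comm, mul_one, smul_mul_assoc, hQQ']
        have hm0 : 0 < m := by omega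
        have h2 := congrFun (congrFun h1 (ε (Sum.inl ⟨0, hm0⟩))) (ε (Sum.inr ⟨0, hm0⟩))
        have h3 : ε (Sum.inl ⟨0, hm0⟩) ≠ ε (Sum.inr ⟨0, hm0⟩) := fun h => by
          have := ε.injective h
          simp at this
        rw [Matrix.add_apply, Matrix.one_apply_ne h3, Matrix.smul_apply, Matrix.one_apply_ne h3, smul_zero, zero_add, Nst,
          Matrix.submatrix_apply, Equiv.symm_apply_apply, Equiv.symm_apply_apply, Matrix.fromBlocks_apply₁₂, Matrix.one_apply_eq] at h2
        exact one_ne_zero h2)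
      rw [Subgroup.mem_comap, H99.mem_subfieldSubgroup_iff] at hP
      obtain ⟨c, M, hc, -, hg⟩ := hP
      have hPP : ((P⁻¹ : Matrix.SpecialLinearGroup (Fin n) F) : Matrix (Fin n) (Fin n) F) * (P : Matrix (Fin n) (Fin n) F) = 1 := by
        rw [← Matrix.SpecialLinearGroup.coe_mul, inv_mul_cancel, Matrix.SpecialLinearGroup.coe_one]
      have hPP' : (P : Matrix (Fin n) (Fin n) F) * ((P⁻¹ : Matrix.SpecialLinearGroup (Fin n) F) : Matrix (Fin n) (Fin n) F) = 1 := by
        rw [← Matrix.SpecialLinearGroup.coe_mul, mul_inv_cancel, Matrix.SpecialLinearGroup.coe_one]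
      let A : Matrix (Fin n) (Fin n) F := ((P⁻¹ : Matrix.SpecialLinearGroup (Fin n) F) : Matrix (Fin n) (Fin n) F) * Q
      let A' : Matrix (Fin n) (Fin n) F := Q' * (P : Matrix (Fin n) (Fin n) F)
      have hAA : A * A' = 1 := by
        calc A * A' = ((P⁻¹ : Matrix.SpecialLinearGroup (Fin n) F) : Matrix (Fin n) (Fin n) F) * (Q * Q') * (P : Matrix (Fin n) (Fin n) F) := by
              simp only [A, A', mul_assoc]
          _ = 1 := by rw [hQQ, mul_one, hPP]
      have hAA' : A' * A = 1 := by
        calc A' * A = Q' * ((P : Matrix (Fin n) (Fin n) F) * ((P⁻¹ : Matrix.SpecialLinearGroup (Fin n) F) : Matrix (Fin n) (Fin n) F)) * Q := by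
              simp only [A, A', mul_assoc]
          _ = 1 := by rw [hPP', mul_one, hQQ']
      have hAd : A.det = ν := by
        simp only [A, Matrix.det_mul, hQd]
        rw [(P⁻¹).det_coe, one_mul]
      have hcM : c • M.map (fun a => (a : F)) = A * (1 + Nst F ε) * A' := by
        rw [← hg]
        change ((P⁻¹ * x * P : Matrix.SpecialLinearGroup (Fin n) F) : Matrix (Fin n) (Fin n) F) = _
        rw [Matrix.SpecialLinearGroup.coe_mul, Matrix.SpecialLinearGroup.coe_mul]
        change ((P⁻¹ : Matrix.SpecialLinearGroup (Fin n) F) : Matrix (Fin n) (Fin n) F) * (Q * (1 + Nst F ε) * Q') * (P : Matrix (Fin n) (Fin n) F) = _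
        simp only [A, A', mul_assoc]
      -- the scalar lies in the subfield
      have hmapmul : ∀ B C : Matrix (Fin n) (Fin n) F₀, (B * C).map (fun a => (a : F)) = B.map (fun a => (a : F)) * C.map (fun a => (a : F)) :=
        fun B C => Matrix.map_mul (f := F₀.subtype)
      have hc3' : c ^ 3 * ((M * M * M) i0 i0 : F₀) = 1 := by
        have h1 : (c • M.map (fun a => (a : F))) ^ 3 = 1 := by rw [hcM, hpow _ _ _ _ hAA hAA', h1N, mul_one, hAA]
        have h1' : (M.map (fun a => (a : F))) ^ 3 = (M * M * M).map (fun a => (a : F)) := by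
          rw [hmapmul, hmapmul, pow_succ, pow_two]
        rw [_root_.smul_pow, h1'] at h1
        have h2 := congrFun (congrFun h1 i0) i0
        rw [Matrix.one_apply_eq, Matrix.smul_apply, Matrix.map_apply, smul_eq_mul] at h2
        exact h2
      obtain ⟨d, hd⟩ := Finite.surjective_of_injective (frobenius_inj F₀ 3) (((M * M * M) i0 i0)⁻¹)
      have hdc : (d : F) = c := by
        apply frobenius_inj F 3
        have h1 : (d : F) ^ 3 = (((M * M * M) i0 i0 : F₀) : F)⁻¹ := by
          have := congrArg (fun a : F₀ => (a : F)) hd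
          rw [frobenius_def] at this
          simpa using this
        rw [frobenius_def, frobenius_def, h1]
        exact (eq_inv_of_mul_eq_one_left hc3').symm
      let N1 : Matrix (Fin n) (Fin n) F₀ := d • M - 1
      have hN1 : N1.map (fun a => (a : F)) = A * Nst F ε * A' := by
        have h1 : N1.map (fun a => (a : F)) = c • M.map (fun a => (a : F)) - 1 := by
          ext i j
          simp only [N1, Matrix.map_apply, Matrix.sub_apply, Matrix.smul_apply, smul_eq_mul, Subfield.coe_sub, Subfield.coe_mul, hdc]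
          congr 1
          rw [Matrix.one_apply, Matrix.one_apply]
          split_ifs <;> rfl
        rw [h1, hcM]
        calc A * (1 + Nst F ε) * A' - 1 = A * A' + A * Nst F ε * A' - 1 := by noncomm_ring
          _ = A * Nst F ε * A' := by rw [hAA]; abel
      have hinj : Function.Injective (fun B : Matrix (Fin n) (Fin n) F₀ => B.map (fun a => (a : F))) := by
        intro B C h
        ext i j
        exact congrFun (congrFun h i) j
      have hN1sq : N1 ^ 2 = 0 := by
        apply hinj
        change (N1 ^ 2).map (fun a => (a : F)) = (0 : Matrix (Fin n) (Fin n) F₀).map (fun a => (a : F))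
        rw [pow_two, hmapmul, hN1, ← pow_two, hpow _ _ _ _ hAA hAA', Nst_sq]
        ext i j
        simp
      obtain ⟨π, hπ⟩ := (Algebra.linearMap F₀ F).exists_leftInverse_of_injective (by
        rw [LinearMap.ker_eq_bot]
        exact (algebraMap F₀ F).injective)
      have hπ' : ∀ a : F₀, π (a : F) = a := fun a => LinearMap.congr_fun hπ a
      have hπm : ∀ (a : F₀) (y : F), π ((a : F) * y) = a * π y := fun a y => by
        have := π.map_smul a y
        rwa [smul_eq_mul] at this
      have hTF : N1.map (fun a => (a : F)) * (A * Tst F ε * A') + (A * Tst F ε * A') * N1.map (fun a => (a : F)) = 1 := by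
        rw [hN1]
        calc A * Nst F ε * A' * (A * Tst F ε * A') + A * Tst F ε * A' * (A * Nst F ε * A')
            = A * (Nst F ε * (A' * A) * Tst F ε + Tst F ε * (A' * A) * Nst F ε) * A' := by noncomm_ring
          _ = 1 := by rw [hAA', mul_one, mul_one, Nst_Tst, mul_one, hAA]
      let T1 : Matrix (Fin n) (Fin n) F₀ := (A * Tst F ε * A').map π
      have hT1 : N1 * T1 + T1 * N1 = 1 := by
        ext i j
        have h1 := congrArg π (congrFun (congrFun hTF i) j)
        rw [Matrix.add_apply, Matrix.mul_apply, Matrix.mul_apply, map_add, map_sum, map_sum] at h1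
        have h2 : π ((1 : Matrix (Fin n) (Fin n) F) i j) = (1 : Matrix (Fin n) (Fin n) F₀) i j := by
          rw [Matrix.one_apply, Matrix.one_apply]
          split_ifs
          · exact hπ' 1
          · exact hπ' 0
        rw [h2] at h1
        rw [← h1, Matrix.add_apply, Matrix.mul_apply, Matrix.mul_apply]
        congr 2
        · apply Finset.sum_congr rfl
          intro l _
          rw [Matrix.map_apply, hπm]
          rfl
        · apply Finset.sum_congr rfl
          intro l _
          rw [Matrix.map_apply, mul_comm _ ((N1 l j : F₀) : F), hπm, mul_comm]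
          rfl
      obtain ⟨e, he⟩ := conj_of_square (Matrix.toLin' N1) (Matrix.toLin' T1) (by rw [← Matrix.toLin'_pow, hN1sq, map_zero]) (by
        intro v
        have h1 := congrArg (fun B => Matrix.toLin' B v) hT1
        simp only [map_add, Matrix.toLin'_mul, Matrix.toLin'_one, LinearMap.add_apply, LinearMap.comp_apply, LinearMap.id_apply] at h1
        exact h1) (Matrix.toLin' (Nst F₀ ε)) (Matrix.toLin' (Tst F₀ ε)) (by rw [← Matrix.toLin'_pow, Nst_sq, map_zero]) (by
        intro v
        have h1 := congrArg (fun B => Matrix.toLin' B v) (Nst_Tst (K := F₀) ε)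
        simp only [map_add, Matrix.toLin'_mul, Matrix.toLin'_one, LinearMap.add_apply, LinearMap.comp_apply, LinearMap.id_apply] at h1
        exact h1) rfl
      let R : Matrix (Fin n) (Fin n) F₀ := LinearMap.toMatrix' e.toLinearMap
      have hR : R * N1 = Nst F₀ ε * R := by
        apply Matrix.toLin'.injective
        apply LinearMap.ext
        intro v
        rw [Matrix.toLin'_mul, Matrix.toLin'_mul, Matrix.toLin'_toMatrix', LinearMap.comp_apply, LinearMap.comp_apply]
        exact he v
      have hRd : R.det ≠ 0 := by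
        intro h0
        have h1 : LinearMap.toMatrix' e.symm.toLinearMap * R = 1 := by
          rw [← LinearMap.toMatrix'_comp]
          simp
        have h2 := congrArg Matrix.det h1
        rw [Matrix.det_mul, h0, mul_zero, Matrix.det_one] at h2
        exact zero_ne_one h2
      have hC : (R.map (fun a => (a : F)) * A) * Nst F ε = Nst F ε * (R.map (fun a => (a : F)) * A) := by
        have h1 : R.map (fun a => (a : F)) * N1.map (fun a => (a : F)) = Nst F ε * R.map (fun a => (a : F)) := by
          rw [← hmapmul, hR, hmapmul, Nst_map]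
        rw [hN1] at h1
        calc (R.map (fun a => (a : F)) * A) * Nst F ε = R.map (fun a => (a : F)) * (A * Nst F ε * A') * A := by
              rw [mul_assoc (R.map _) (A * Nst F ε * A') A, mul_assoc (A * Nst F ε) A' A, hAA', mul_one, mul_assoc]
          _ = Nst F ε * (R.map (fun a => (a : F)) * A) := by rw [h1, mul_assoc]
      obtain ⟨a, ha⟩ := det_sq_of_commute ε _ hC
      have hRdF : (R.map (fun a => (a : F))).det = ((R.det : F₀) : F) := (RingHom.map_det F₀.subtype R).symm
      rw [Matrix.det_mul, hAd, hRdF] at ha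
      obtain ⟨w, hw⟩ := hsq _ R.det.2
      have hw0 : w ≠ 0 := by
        rintro rfl
        rw [mul_zero] at hw
        exact hRd (Subtype.ext hw.symm)
      apply hν
      refine ⟨a * w⁻¹, ?_⟩
      rw [← hw] at ha
      have : a * w⁻¹ * (a * w⁻¹) = (a * a) * (w⁻¹ * w⁻¹) := by ring
      rw [this, ← ha]
      field_simp
    · left; exact ho
  · intro hcase x ⟨z, hz⟩ hxn
    set f := Matrix.toLin' (x : Matrix (Fin n) (Fin n) F) with hf
    have hf3 : f ^ 3 = z • (1 : (Fin n → F) →ₗ[F] (Fin n → F)) := by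
      rw [hf, ← Matrix.toLin'_pow, ← Matrix.SpecialLinearGroup.coe_pow, hz]
      ext v
      simp
    have hcube : ∀ y : F, ∃ w, w ^ 3 = y := by
      intro y
      obtain ⟨w, hw⟩ := Finite.surjective_of_injective (frobenius_inj F 3) y
      exact ⟨w, hw⟩
    obtain ⟨w, hw⟩ := hcube z
    have hz0 : z ≠ 0 := by
      rintro rfl
      have h1 := congrArg Matrix.det hz
      rw [zero_smul, Matrix.det_zero] at h1
      · rw [(x ^ 3).det_coe] at h1
        exact one_ne_zero h1
    have hw0 : w ≠ 0 := by
      rintro rfl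
      rw [zero_pow (by norm_num)] at hw
      exact hz0 hw.symm
    let N : (Fin n → F) →ₗ[F] (Fin n → F) := w⁻¹ • f - 1
    have hNf : ∀ v, f v = w • (v + N v) := by
      intro v
      change f v = w • (v + (w⁻¹ • f v - v))
      rw [add_sub_cancel, smul_smul, mul_inv_cancel₀ hw0, one_smul]
    have hchar : CharP (Module.End F (Fin n → F)) 3 := charP_of_injective_algebraMap (algebraMap F (Module.End F (Fin n → F))).injective 3
    have hN : N ^ 3 = 0 := by
      have h1 : (w⁻¹ • f - 1) ^ 3 = (w⁻¹ • f) ^ 3 - 1 ^ 3 := sub_pow_char_of_commute _ (Commute.one_right _)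
      change (w⁻¹ • f - 1) ^ 3 = 0
      rw [h1, _root_.smul_pow, hf3, smul_smul, inv_pow, hw, inv_mul_cancel₀ hz0, one_smul, one_pow, sub_self]
    obtain ⟨l, e, he, ⟨D⟩⟩ := H99.exists_jordan N 3 hN
    have hdim : n = ∑ j, e j := by
      have h1 := D.finrank_eq
      simpa only [natDegree_X_pow, finrank_fintype_fun_eq_card, Fintype.card_fin] using h1
    have hchoice : ∃ j0, ∀ δ : F, δ ≠ 0 → ∃ (c : F) (a : F₀), c ≠ 0 ∧ a ≠ 0 ∧ c ^ (e j0) * a = δ := by
      have hgood : ∀ j0, e j0 ≠ 2 → ∀ δ : F, δ ≠ 0 → ∃ (c : F) (a : F₀), c ≠ 0 ∧ a ≠ 0 ∧ c ^ (e j0) * a = δ := by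
        intro j0 hj0 δ hδ
        have h1 := he j0
        have h2 : e j0 = 1 ∨ e j0 = 3 := by omega
        rcases h2 with h2 | h2
        · exact ⟨δ, 1, hδ, one_ne_zero, by rw [h2]; simp⟩
        · obtain ⟨c, hc⟩ := hcube δ
          refine ⟨c, 1, ?_, one_ne_zero, by rw [h2, hc]; simp⟩
          rintro rfl
          rw [zero_pow (by norm_num)] at hc
          exact hδ hc.symm
      rcases hcase with ho | ⟨-, hk2⟩
      · have h1 : ∃ j0, e j0 ≠ 2 := by
          by_contra hcon
          push Not at hcon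
          rw [Finset.sum_congr rfl (fun j _ => hcon j), Finset.sum_const, smul_eq_mul] at hdim
          rw [hdim] at ho
          exact (Nat.not_odd_iff_even.mpr (even_two.mul_left _)) ho
        obtain ⟨j0, hj0⟩ := h1
        exact ⟨j0, hgood j0 hj0⟩
      · have hl : 0 < l := by
          rcases Nat.eq_zero_or_pos l with rfl | h
          · simp at hdim
            omega
          · exact h
        refine ⟨⟨0, hl⟩, ?_⟩
        by_cases hj : e ⟨0, hl⟩ = 2
        · intro δ hδ
          obtain ⟨a, ha0, ha⟩ := exists_nonsq F₀ hodd (hk.odd_of_ne_two (by omega)) hqk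
          obtain ⟨c, hc, h1 | h1⟩ := ha δ hδ
          · exact ⟨c, 1, hc, one_ne_zero, by rw [hj, h1]; simp⟩
          · exact ⟨c, a, hc, ha0, by rw [hj, h1]⟩
        · exact hgood _ hj
    obtain ⟨j0, hj0⟩ := hchoice
    let ε : (Σ j, Fin ((X : F[X]) ^ e j).natDegree) ≃ Fin n := Fintype.equivFinOfCardEq (by
      have := finrank_eq_card_basis D.basis
      rw [← this]
      simp)
    let b1 : Basis (Fin n) F (Fin n → F) := D.basis.reindex ε
    have hd1 := H99.colMat_det_ne_zero b1
    obtain ⟨c, a, hc, ha, hca⟩ := hj0 ((H99.colMat b1).det)⁻¹ (inv_ne_zero hd1)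
    have haF : (a : F) ≠ 0 := fun h => ha (Subtype.ext h)
    let x0 : (Σ j, Fin ((X : F[X]) ^ e j).natDegree) := ⟨j0, ⟨0, by rw [natDegree_X_pow]; exact (he j0).1⟩⟩
    let u : (Σ j, Fin ((X : F[X]) ^ e j).natDegree) → F := fun y => (if y.1 = j0 then c else 1) * (if y = x0 then (a : F) else 1)
    have hu0 : ∀ y, u y ≠ 0 := by
      intro y
      apply mul_ne_zero
      · split_ifs
        · exact hc
        · exact one_ne_zero
      · split_ifs
        · exact haF
        · exact one_ne_zero
    have hprod : ∏ y, u y = c ^ (e j0) * a := by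
      rw [Finset.prod_mul_distrib, Finset.prod_ite_eq' Finset.univ x0 (fun _ => (a : F)), if_pos (Finset.mem_univ _)]
      congr 1
      rw [Fintype.prod_sigma, Finset.prod_eq_single j0]
      · simp only [if_true, Finset.prod_const, Finset.card_univ, Fintype.card_fin, natDegree_X_pow]
      · intro j _ hj
        simp only [if_neg hj, Finset.prod_const_one]
      · intro h
        exact absurd (Finset.mem_univ _) h
    let b : Basis (Fin n) F (Fin n → F) := (D.basis.isUnitSMul (w := u) (fun y => (hu0 y).isUnit)).reindex ε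
    have hb : ∀ j, b j = u (ε.symm j) • b1 j := by
      intro j
      simp only [b, b1, Basis.reindex_apply, Basis.isUnitSMul_apply]
    have hdet : (H99.colMat b).det = 1 := by
      have h1 : H99.colMat b = H99.colMat (fun j => u (ε.symm j) • b1 j) := by
        congr 1
        funext j
        exact hb j
      rw [h1, H99.colMat_det_smul, ε.symm.prod_comp u, hprod, hca, inv_mul_cancel₀ hd1]
    obtain ⟨P, hP⟩ := H99.exists_sl_of_basis x b hdet
    refine ⟨P, ?_⟩
    rw [Subgroup.mem_comap]
    have hentry : ∀ i j, ∃ t : F₀, (t : F) = b.repr (N (b j)) i := by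
      intro i j
      have h1 : b.repr (N (b j)) i = (u (ε.symm i))⁻¹ * u (ε.symm j) * D.basis.repr (N (D.basis (ε.symm j))) (ε.symm i) := by
        rw [hb, map_smul, Basis.repr_reindex_apply, Basis.repr_isUnitSMul, map_smul]
        simp only [b1, Basis.reindex_apply, Finsupp.smul_apply, smul_eq_mul, Units.smul_def]
        have h2 : (((hu0 (ε.symm i)).isUnit.unit⁻¹ : Fˣ) : F) = (u (ε.symm i))⁻¹ := by
          rw [Units.val_inv_eq_inv_val]
          rfl
        rw [h2]
        ring
      rw [h1, H99.jordan_repr]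
      split_ifs with h2
      · obtain ⟨h2a, h2b⟩ := h2
        have h3 : ε.symm i ≠ x0 := by
          intro h4
          rw [h4] at h2b
          simp [x0] at h2b
        simp only [u]
        rw [if_neg h3, h2a]
        by_cases h5 : ε.symm j = x0
        · rw [if_pos h5]
          refine ⟨a, ?_⟩
          split_ifs <;> field_simp
        · rw [if_neg h5]
          refine ⟨1, ?_⟩
          split_ifs <;> simp [hc]
      · exact ⟨0, by simp⟩
    choose t ht using hentry
    apply H99.mem_subfieldSubgroup_of_eq F₀ _ w (Matrix.of (fun i j => (if i = j then 1 else 0) + t i j)) _ hn0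
    ext i j
    change ((P⁻¹ * x * P : Matrix.SpecialLinearGroup (Fin n) F) : Matrix (Fin n) (Fin n) F) i j = _
    rw [hP]
    change b.repr (f (b j)) i = _
    rw [hNf, map_smul, map_add, Basis.repr_self, Finsupp.smul_apply, Finsupp.add_apply, Matrix.smul_apply, Matrix.map_apply,
      Matrix.of_apply, Subfield.coe_add, ht, Finsupp.single_apply]
    congr 2
    by_cases hij : i = j
    · rw [if_pos hij.symm, if_pos hij]
      rfl
    · rw [if_neg (Ne.symm hij), if_neg hij]
      rfl

end Cfsg.Agent.S5966
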