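import Cfsg.Statements.S5967
import Cfsg.Agent.H99.PairBlock
import Cfsg.Agent.H99.SympBasis
-- import your own Cfsg.Agent.* helpers here

set_option autoImplicit false
open scoped MatrixGroups
open Cfsg

namespace Cfsg.Agent.S5967

open Module Matrix

lemma altForm_of {F : Type*} [Field F] {n : ℕ} {f : (Fin n → F) → (Fin n → F) → F}
    (hf : Cfsg.Geo.IsSymplecticForm f) : H99.AltForm f where
  add_left := hf.bilinear.add_left
  smul_left := hf.bilinear.smul_left
  alt := hf.alternating
  skew := hf.skew

/-- the non-example: `w • diag(-1, 1, ..., 1)` is not a similarity -/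
lemma not_similar {F : Type*} [Field F] {n : ℕ} (hn : 4 ≤ n) {f : (Fin n → F) → (Fin n → F) → F}
    (hf : Cfsg.Geo.IsSymplecticForm f) (w : F) (hw : w ≠ 0) (h2 : (2 : F) ≠ 0)
    (y : (Fin n → F) →ₗ[F] (Fin n → F)) (b : Basis (Fin n) F (Fin n → F)) (i0 : Fin n)
    (h0 : y (b i0) = (-w) • b i0) (h1 : ∀ i, i ≠ i0 → y (b i) = w • b i) (c : F)
    (hc : ∀ u v, f (y u) (y v) = c * f u v) : False := by
  have hA := altForm_of hf
  have hrad : ∀ v, (∀ i, f v (b i) = 0) → v = 0 := by
    intro v hv
    by_contra hne
    obtain ⟨u, hu⟩ := (hf.nondegenerate v hne).2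
    apply hu
    let φ : (Fin n → F) →ₗ[F] F :=
      { toFun := f v, map_add' := hA.add_right v, map_smul' := fun c u => hA.smul_right c v u }
    have : φ = 0 := b.ext (fun i => hv i)
    exact LinearMap.congr_fun this u
  by_cases hcw : c = w * w
  · have hall : ∀ i, f (b i0) (b i) = 0 := by
      intro i
      by_cases hi : i = i0
      · rw [hi, hA.alt]
      · have h3 := hc (b i0) (b i)
        rw [h0, h1 i hi, hA.smul_left, hA.smul_right, hcw] at h3
        have h4 : 2 * (w * w) * f (b i0) (b i) = 0 := by linear_combination -h3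
        exact (mul_eq_zero.mp h4).resolve_left (mul_ne_zero h2 (mul_ne_zero hw hw))
    exact b.ne_zero i0 (hrad _ hall)
  · have hall : ∀ i j, i ≠ i0 → j ≠ i0 → f (b i) (b j) = 0 := by
      intro i j hi hj
      have h3 := hc (b i) (b j)
      rw [h1 i hi, h1 j hj, hA.smul_left, hA.smul_right] at h3
      have h4 : (c - w * w) * f (b i) (b j) = 0 := by linear_combination -h3
      exact (mul_eq_zero.mp h4).resolve_left (sub_ne_zero.mpr hcw)
    obtain ⟨i1, hi1, i2, hi2, h12⟩ : ∃ i1 : Fin n, i1 ≠ i0 ∧ ∃ i2 : Fin n, i2 ≠ i0 ∧ i1 ≠ i2 := by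
      have hcard : 1 < (Finset.univ.erase i0 : Finset (Fin n)).card := by
        rw [Finset.card_erase_of_mem (Finset.mem_univ _), Finset.card_univ, Fintype.card_fin]
        omega
      obtain ⟨a, ha, b', hb', hab⟩ := Finset.one_lt_card.mp hcard
      exact ⟨a, (Finset.mem_erase.mp ha).1, b', (Finset.mem_erase.mp hb').1, hab⟩
    have hv : f (b i2) (b i0) • b i1 + (-(f (b i1) (b i0))) • b i2 = 0 := by
      apply hrad
      intro i
      rw [hA.add_left, hA.smul_left, hA.smul_left]
      by_cases hi : i = i0
      · rw [hi]; ring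
      · rw [hall i1 i hi1 hi, hall i2 i hi2 hi]; ring
    have hli := b.linearIndependent
    have h5 : f (b i2) (b i0) = 0 ∧ -(f (b i1) (b i0)) = 0 := by
      have h6 := congrArg (fun v => b.repr v i1) hv
      have h7 := congrArg (fun v => b.repr v i2) hv
      simp only [map_add, map_smul, Basis.repr_self, Finsupp.add_apply, Finsupp.smul_apply,
        Finsupp.single_eq_same, Finsupp.single_eq_of_ne h12, Finsupp.single_eq_of_ne h12.symm, map_zero,
        Finsupp.zero_apply, smul_eq_mul, mul_one, mul_zero, add_zero, zero_add] at h6 h7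
      exact ⟨h6, h7⟩
    apply b.ne_zero i1
    apply hrad
    intro i
    by_cases hi : i = i0
    · rw [hi]; exact neg_eq_zero.mp h5.2
    · exact hall i1 i hi1 hi

/-- Involutions of PSL_n(q) and the symplectic-type subgroups. Here `T = PSL_n(F)` for a field `F` with `q` elements, `n ≥ 4` even, `f` is a nondegenerate alternating form on `F^n`, and `H` is the subgroup of matrices of determinant 1 preserving `f` up to a scalar — a maximal subgroup of type Sp_n(q); Ω is the set of `T`-conjugates of `H` (cosets of `H`), so an element of `T` of prime order `r` (a matrix `x` of determinant 1 with `x^r` scalar, `x` not scalar) fixes a point of Ω when some conjugate of `x` by a matrix of determinant 1 preserves `f` up to a scalar. Suppose the index of `H` is even. Then every involution of `T` is conjugate in `T` into `H` if and only if `(q − 1)_2 ≤ (n)_2`. -/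
theorem result {F : Type*} [Field F] [Fintype F] {p : ℕ} [Fact p.Prime] [CharP F p] {q : ℕ} (hq : Fintype.card F = q)
    (n : ℕ) (hn : 4 ≤ n) (he : Even n) (f : (Fin n → F) → (Fin n → F) → F) (hf : Cfsg.Geo.IsSymplecticForm f)
    (hΩ : 2 ∣ ((Cfsg.Geo.similarityGroup f).comap (Matrix.SpecialLinearGroup.toGL : Matrix.SpecialLinearGroup (Fin n) F →* GL (Fin n) F)).index) :
    (∀ x : Matrix.SpecialLinearGroup (Fin n) F,
      (∃ z : F, ((x ^ 2 : Matrix.SpecialLinearGroup (Fin n) F) : Matrix (Fin n) (Fin n) F) = z • (1 : Matrix (Fin n) (Fin n) F)) →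
      (∀ z : F, (x : Matrix (Fin n) (Fin n) F) ≠ z • (1 : Matrix (Fin n) (Fin n) F)) →
      ∃ P : Matrix.SpecialLinearGroup (Fin n) F, P⁻¹ * x * P ∈ ((Cfsg.Geo.similarityGroup f).comap (Matrix.SpecialLinearGroup.toGL : Matrix.SpecialLinearGroup (Fin n) F →* GL (Fin n) F))) ↔
    padicValNat 2 (q - 1) ≤ padicValNat 2 n := by
  have hA := altForm_of hf
  have hn0 : n ≠ 0 := by omega
  subst hq
  constructor
  · intro hall
    by_contra hv
    push Not at hv
    have hodd : Odd (Fintype.card F) := by
      have h1 : padicValNat 2 (Fintype.card F - 1) ≠ 0 := by omega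
      have h2 : 2 ∣ Fintype.card F - 1 := by
        by_contra h
        exact h1 (padicValNat.eq_zero_of_not_dvd h)
      have h3 := Fintype.one_lt_card (α := F)
      obtain ⟨k, hk⟩ := h2
      exact ⟨k, by omega⟩
    have h2 : (2 : F) ≠ 0 := H99.two_ne_zero_of_odd hodd
    obtain ⟨w, hw⟩ := H99.exists_pow_eq_neg_one hn0 hodd hv
    have hw0 : w ≠ 0 := by
      rintro rfl
      rw [zero_pow hn0] at hw
      exact one_ne_zero (neg_eq_zero.mp hw.symm)
    set i0 : Fin n := ⟨0, by omega⟩ with hi0
    set d : Fin n → F := fun i => if i = i0 then -w else w with hd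
    have hdet : (Matrix.diagonal d).det = 1 := by
      rw [Matrix.det_diagonal, ← Finset.mul_prod_erase _ _ (Finset.mem_univ i0)]
      rw [Finset.prod_congr rfl (g := fun _ => w)]
      · rw [Finset.prod_const, Finset.card_erase_of_mem (Finset.mem_univ _), Finset.card_univ, Fintype.card_fin]
        simp only [hd, if_true]
        rw [neg_mul, ← pow_succ', Nat.sub_add_cancel (by omega), hw, neg_neg]
      · intro i hi
        simp only [hd, if_neg (Finset.mem_erase.mp hi).1]
    obtain ⟨X0, hX0⟩ : ∃ X0 : Matrix.SpecialLinearGroup (Fin n) F, (X0 : Matrix (Fin n) (Fin n) F) = Matrix.diagonal d :=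
      ⟨⟨Matrix.diagonal d, hdet⟩, rfl⟩
    obtain ⟨P, hP⟩ := hall X0 ⟨w * w, by
        rw [Matrix.SpecialLinearGroup.coe_pow, hX0]
        rw [Matrix.diagonal_pow, ← Matrix.diagonal_one, ← Matrix.diagonal_smul]
        congr 1
        funext i
        simp only [Pi.pow_apply, Pi.smul_apply, smul_eq_mul, mul_one, hd]
        split_ifs <;> ring⟩ (by
        intro z hz
        rw [hX0] at hz
        have h3 := congrFun (congrFun hz i0) i0
        have h4 := congrFun (congrFun hz ⟨1, by omega⟩) ⟨1, by omega⟩
        have h5 : (⟨1, by omega⟩ : Fin n) ≠ i0 := by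
          rw [hi0]; intro h; simp at h
        simp only [Matrix.diagonal_apply_eq, Matrix.smul_apply, Matrix.one_apply_eq, smul_eq_mul, mul_one, hd,
          if_true, if_neg h5] at h3 h4
        rw [← h3] at h4
        have : 2 * w = 0 := by linear_combination h4
        exact (mul_ne_zero h2 hw0) this)
    rw [Subgroup.mem_comap] at hP
    obtain ⟨c, hc⟩ := hP
    set y : (Fin n → F) →ₗ[F] (Fin n → F) := Matrix.toLin'
      ((P⁻¹ * X0 * P : Matrix.SpecialLinearGroup (Fin n) F) : Matrix (Fin n) (Fin n) F) with hy
    let eP : (Fin n → F) ≃ₗ[F] (Fin n → F) := Matrix.SpecialLinearGroup.toLin' P⁻¹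
    have heP : ∀ v, eP v = ((P⁻¹ : Matrix.SpecialLinearGroup (Fin n) F) : Matrix (Fin n) (Fin n) F) *ᵥ v := fun v => rfl
    have hyb : ∀ i, y (((Pi.basisFun F (Fin n)).map eP) i) = d i • ((Pi.basisFun F (Fin n)).map eP) i := by
      intro i
      rw [Basis.map_apply, heP, hy, Matrix.toLin'_apply, Matrix.mulVec_mulVec, ← Matrix.SpecialLinearGroup.coe_mul,
        mul_assoc, mul_inv_cancel, mul_one, Matrix.SpecialLinearGroup.coe_mul, ← Matrix.mulVec_mulVec, hX0]
      rw [show (Matrix.diagonal d) *ᵥ (Pi.basisFun F (Fin n) i) = d i • (Pi.basisFun F (Fin n) i) by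
        ext j
        rw [Matrix.mulVec_diagonal]
        by_cases hij : j = i
        · subst hij; simp
        · simp [hij]]
      rw [Matrix.mulVec_smul]
    refine not_similar hn hf w hw0 h2 y ((Pi.basisFun F (Fin n)).map eP) i0 ?_ ?_ c hc
    · rw [hyb]; simp [hd]
    · intro i hi
      rw [hyb]; simp [hd, hi]
  · intro hv x hx _
    obtain ⟨z, hz⟩ := hx
    rw [Matrix.SpecialLinearGroup.coe_pow] at hz
    have hz0 : z ≠ 0 := by
      rintro rfl
      have : Nonempty (Fin n) := ⟨⟨0, by omega⟩⟩
      have h3 := congrArg Matrix.det hz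
      rw [Matrix.det_pow, x.det_coe, one_pow, zero_smul, Matrix.det_zero] at h3
      exact one_ne_zero h3
    obtain ⟨c, κ, _, _, b, α, β, γ, δ, h1, h2, h3⟩ := H99.exists_pairBlock hn0 he hv x z hz
    have hND : H99.ND f (⊤ : Submodule F (Fin n → F)) := by
      intro w _ hw
      by_contra hne
      obtain ⟨u, hu⟩ := (hf.nondegenerate w hne).2
      exact hu (hw u Submodule.mem_top)
    obtain ⟨ι, _, _, s, hs⟩ := H99.exists_sympBasis hA hND
    have hcard : Fintype.card ι = Fintype.card κ := by
      have h4 := finrank_eq_card_basis b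
      have h5 := finrank_eq_card_basis s
      rw [h4, Fintype.card_sum, Fintype.card_sum] at h5
      omega
    let ε : ι ≃ κ := Fintype.equivOfCardEq hcard
    let e : (Fin n → F) ≃ₗ[F] (Fin n → F) := s.equiv b (Equiv.sumCongr ε ε)
    have hel : ∀ i, e (s (Sum.inl i)) = b (Sum.inl (ε i)) := fun i => by simp [e]
    have her : ∀ i, e (s (Sum.inr i)) = b (Sum.inr (ε i)) := fun i => by simp [e]
    have hel' : ∀ i, e.symm (b (Sum.inl (ε i))) = s (Sum.inl i) := fun i => by
      rw [← hel, LinearEquiv.symm_apply_apply]
    have her' : ∀ i, e.symm (b (Sum.inr (ε i))) = s (Sum.inr i) := fun i => by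
      rw [← her, LinearEquiv.symm_apply_apply]
    set X := Matrix.toLin' (x : Matrix (Fin n) (Fin n) F) with hX
    have hc0 : c ≠ 0 ∨ IsEmpty κ := by
      by_cases hk : IsEmpty κ
      · exact Or.inr hk
      · left
        rw [not_isEmpty_iff] at hk
        obtain ⟨i⟩ := hk
        rintro rfl
        -- the block is singular
        have hinj : Function.Injective X := by
          intro u v huv
          have := congrArg (fun t => X t) huv
          simp only [hX, Matrix.toLin'_apply, Matrix.mulVec_mulVec] at this
          rw [← pow_two, hz, Matrix.smul_mulVec, Matrix.one_mulVec, Matrix.smul_mulVec, Matrix.one_mulVec] at this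
          exact smul_right_injective _ hz0 this
        have h4 : X ((δ i) • b (Sum.inl i) + (-(β i)) • b (Sum.inr i)) = X 0 := by
          rw [map_add, map_smul, map_smul, h1, h2, map_zero, smul_add, smul_add, smul_smul, smul_smul, smul_smul,
            smul_smul]
          have h5 : (δ i * α i + -(β i) * γ i) • b (Sum.inl i) + (δ i * β i + -(β i) * δ i) • b (Sum.inr i) = 0 := by
            rw [show δ i * α i + -(β i) * γ i = 0 by linear_combination h3 i,
              show δ i * β i + -(β i) * δ i = 0 by ring]
            simp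
          rw [← h5]
          rw [add_smul, add_smul]
          abel
        have h6 := hinj h4
        have h7 := congrArg (fun v => b.repr v (Sum.inl i)) h6
        have h8 := congrArg (fun v => b.repr v (Sum.inr i)) h6
        simp only [map_add, map_smul, Basis.repr_self, Finsupp.add_apply, Finsupp.smul_apply,
          Finsupp.single_eq_same, Finsupp.single_eq_of_ne (Sum.inl_ne_inr : Sum.inl i ≠ Sum.inr i),
          Finsupp.single_eq_of_ne (Sum.inr_ne_inl : Sum.inr i ≠ Sum.inl i), map_zero,
          Finsupp.zero_apply, smul_eq_mul, mul_one, mul_zero, add_zero, zero_add] at h7 h8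
        have h9 : X (b (Sum.inl i)) = α i • b (Sum.inl i) := by
          rw [h1, neg_eq_zero.mp h8, zero_smul, add_zero]
        have h10 : X (b (Sum.inr i)) = γ i • b (Sum.inl i) := by
          rw [h2, h7, zero_smul, add_zero]
        have h11 : X (γ i • b (Sum.inl i) + (-(α i)) • b (Sum.inr i)) = X 0 := by
          rw [map_add, map_smul, map_smul, h9, h10, map_zero, smul_smul, smul_smul, ← add_smul]
          rw [show γ i * α i + -(α i) * γ i = 0 by ring, zero_smul]
        have h12 := hinj h11
        have h13 := congrArg (fun v => b.repr v (Sum.inr i)) h12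
        simp only [map_add, map_smul, Basis.repr_self, Finsupp.add_apply, Finsupp.smul_apply,
          Finsupp.single_eq_same, Finsupp.single_eq_of_ne (Sum.inl_ne_inr : Sum.inl i ≠ Sum.inr i),
          Finsupp.single_eq_of_ne (Sum.inr_ne_inl : Sum.inr i ≠ Sum.inl i), map_zero,
          Finsupp.zero_apply, smul_eq_mul, mul_one, mul_zero, add_zero, zero_add] at h13
        rw [neg_eq_zero.mp h13, zero_smul] at h9
        exact b.ne_zero _ (hinj (h9.trans (map_zero X).symm))
    have hc1 : c ≠ 0 := by
      rcases hc0 with h | h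
      · exact h
      · exfalso
        have h4 := finrank_eq_card_basis b
        have : Fintype.card κ = 0 := Fintype.card_eq_zero
        rw [Fintype.card_sum, this, Module.finrank_fin_fun] at h4
        omega
    refine H99.exists_conj_mem_comap' x (H99.centSurj_of_sq_eq (by omega) _ z hz0 hz) _
      (e.symm.toLinearMap ∘ₗ X ∘ₗ e.toLinearMap) ?_ e ?_
    · intro g hg
      refine ⟨Units.mk0 c hc1, fun u v => ?_⟩
      rw [hg, hg, Units.val_mk0]
      refine hs.similarity hA _ c (fun i => α (ε i)) (fun i => β (ε i)) (fun i => γ (ε i)) (fun i => δ (ε i)) ?_ ?_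
        (fun i => h3 (ε i)) u v
      · intro i
        simp only [LinearMap.comp_apply, LinearEquiv.coe_coe, hel, h1, map_add, map_smul, hel', her']
      · intro i
        simp only [LinearMap.comp_apply, LinearEquiv.coe_coe, her, h2, map_add, map_smul, hel', her']
    · intro v
      simp only [LinearMap.comp_apply, LinearEquiv.coe_coe, LinearEquiv.apply_symm_apply]
      rfl

end Cfsg.Agent.S5967
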