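import Cfsg.Statements.S5968
import Cfsg.Agent.H99.SympCard
import Cfsg.Agent.H99.SLOrder

set_option autoImplicit false
open scoped MatrixGroups
open Cfsg

namespace Cfsg.Agent.S5968

open Module Matrix Polynomial

section
variable {F : Type*} [Field F] {n : ℕ}

/-- the form transported by the conjugating matrix -/
lemma extract {f : (Fin n → F) → (Fin n → F) → F} (hf : Cfsg.Geo.IsSymplecticForm f) (x P : Matrix.SpecialLinearGroup (Fin n) F)
    (h : P⁻¹ * x * P ∈ ((Cfsg.Geo.similarityGroup f).comap (Matrix.SpecialLinearGroup.toGL : Matrix.SpecialLinearGroup (Fin n) F →* GL (Fin n) F))) :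
    ∃ B : (Fin n → F) → (Fin n → F) → F, H99.AltForm B ∧ (∀ u, (∀ v, B u v = 0) → u = 0) ∧
      ∃ μ : F, ∀ u v, B ((x : Matrix (Fin n) (Fin n) F) *ᵥ u) ((x : Matrix (Fin n) (Fin n) F) *ᵥ v) = μ * B u v := by
  have hA := H99.altForm_of_symplectic hf
  have hND := H99.ND_of_symplectic hf
  have h1 : ((P⁻¹ : Matrix.SpecialLinearGroup (Fin n) F) : Matrix (Fin n) (Fin n) F) * (P : Matrix (Fin n) (Fin n) F) = 1 := by
    rw [← Matrix.SpecialLinearGroup.coe_mul, inv_mul_cancel, Matrix.SpecialLinearGroup.coe_one]
  have h2 : (P : Matrix (Fin n) (Fin n) F) * ((P⁻¹ : Matrix.SpecialLinearGroup (Fin n) F) : Matrix (Fin n) (Fin n) F) = 1 := by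
    rw [← Matrix.SpecialLinearGroup.coe_mul, mul_inv_cancel, Matrix.SpecialLinearGroup.coe_one]
  refine ⟨fun u v => f (((P⁻¹ : Matrix.SpecialLinearGroup (Fin n) F) : Matrix (Fin n) (Fin n) F) *ᵥ u)
    (((P⁻¹ : Matrix.SpecialLinearGroup (Fin n) F) : Matrix (Fin n) (Fin n) F) *ᵥ v), ?_, ?_, ?_⟩
  · exact hA.comp (Matrix.toLin' ((P⁻¹ : Matrix.SpecialLinearGroup (Fin n) F) : Matrix (Fin n) (Fin n) F))
  · intro u hu
    have h3 : ((P⁻¹ : Matrix.SpecialLinearGroup (Fin n) F) : Matrix (Fin n) (Fin n) F) *ᵥ u = 0 := by
      apply hND _ Submodule.mem_top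
      intro v _
      have := hu ((P : Matrix (Fin n) (Fin n) F) *ᵥ v)
      beta_reduce at this
      rw [Matrix.mulVec_mulVec, h1, Matrix.one_mulVec] at this
      exact this
    have h4 := congrArg (fun w => (P : Matrix (Fin n) (Fin n) F) *ᵥ w) h3
    simp only [Matrix.mulVec_mulVec, h2, Matrix.one_mulVec, Matrix.mulVec_zero] at h4
    exact h4
  · rw [Subgroup.mem_comap] at h
    obtain ⟨c, hc⟩ := h
    refine ⟨c, ?_⟩
    intro u v
    have h3 := hc (((P⁻¹ : Matrix.SpecialLinearGroup (Fin n) F) : Matrix (Fin n) (Fin n) F) *ᵥ u)
      (((P⁻¹ : Matrix.SpecialLinearGroup (Fin n) F) : Matrix (Fin n) (Fin n) F) *ᵥ v)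
    have h4 : ∀ w, ((Matrix.SpecialLinearGroup.toGL (P⁻¹ * x * P) : GL (Fin n) F) : Matrix (Fin n) (Fin n) F) *ᵥ
        (((P⁻¹ : Matrix.SpecialLinearGroup (Fin n) F) : Matrix (Fin n) (Fin n) F) *ᵥ w) =
        ((P⁻¹ : Matrix.SpecialLinearGroup (Fin n) F) : Matrix (Fin n) (Fin n) F) *ᵥ ((x : Matrix (Fin n) (Fin n) F) *ᵥ w) := by
      intro w
      change ((P⁻¹ * x * P : Matrix.SpecialLinearGroup (Fin n) F) : Matrix (Fin n) (Fin n) F) *ᵥ _ = _
      rw [Matrix.SpecialLinearGroup.coe_mul, Matrix.SpecialLinearGroup.coe_mul, Matrix.mulVec_mulVec, Matrix.mulVec_mulVec,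
        Matrix.mul_assoc, h2, Matrix.mul_one]
    rw [h4, h4] at h3
    exact h3

variable {B : (Fin n → F) → (Fin n → F) → F}

lemma sum_left (hA : H99.AltForm B) (u w : Fin n → F) : B u w = ∑ j, u j * B (Pi.single j 1) w := by
  have h1 : u = ∑ j ∈ Finset.univ, u j • (Pi.single j (1 : F) : Fin n → F) := by
    funext k
    rw [Finset.sum_apply]
    simp [Pi.single_apply]
  nth_rw 1 [h1]
  exact hA.sum_left _ _ _ _

lemma sum_right (hA : H99.AltForm B) (u w : Fin n → F) : B u w = ∑ j, w j * B u (Pi.single j 1) := by
  rw [hA.skew, sum_left hA w u, ← Finset.sum_neg_distrib]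
  apply Finset.sum_congr rfl
  intro j _
  rw [hA.skew u]
  ring

/-- coordinate subspaces with partners in a smaller coordinate subspace -/
lemma card_le_of_pairing (hA : H99.AltForm B) (hND : ∀ u, (∀ v, B u v = 0) → u = 0) (S T : Finset (Fin n))
    (h : ∀ j ∈ S, ∀ k, k ∉ T → B (Pi.single j 1) (Pi.single k 1) = 0) : S.card ≤ T.card := by
  classical
  let φ : (S → F) →ₗ[F] (T → F) :=
    { toFun := fun a k => ∑ j : S, a j * B (Pi.single (j : Fin n) 1) (Pi.single (k : Fin n) 1)
      map_add' := fun a b => by
        funext k
        simp only [Pi.add_apply, add_mul, Finset.sum_add_distrib]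
      map_smul' := fun c a => by
        funext k
        simp only [Pi.smul_apply, smul_eq_mul, mul_assoc, Finset.mul_sum, RingHom.id_apply] }
  have hφ : Function.Injective φ := by
    rw [injective_iff_map_eq_zero]
    intro a ha
    let u : Fin n → F := ∑ j : S, a j • (Pi.single (j : Fin n) (1 : F) : Fin n → F)
    have hu : ∀ w, B u w = ∑ j : S, a j * B (Pi.single (j : Fin n) 1) w := fun w => hA.sum_left _ _ _ _
    have h0 : u = 0 := by
      apply hND
      intro v
      rw [sum_right hA]
      apply Finset.sum_eq_zero
      intro k _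
      by_cases hk : k ∈ T
      · have := congrFun ha ⟨k, hk⟩
        rw [hu]
        have h2 : ∑ j : S, a j * B (Pi.single (j : Fin n) 1) (Pi.single k 1) = 0 := this
        rw [h2, mul_zero]
      · rw [hu, Finset.sum_eq_zero, mul_zero]
        intro j _
        rw [h j j.2 k hk, mul_zero]
    funext j
    have h1 := congrFun h0 j
    simp only [u, Finset.sum_apply, Pi.smul_apply, Pi.single_apply, smul_eq_mul, mul_ite, mul_one, mul_zero, Pi.zero_apply] at h1
    rw [Finset.sum_eq_single j] at h1
    · simpa using h1
    · intro i _ hij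
      rw [if_neg]
      intro h
      exact hij (Subtype.ext h.symm)
    · intro h
      exact absurd (Finset.mem_univ _) h
  have h1 := LinearMap.finrank_le_finrank_of_injective hφ
  simpa using h1

/-- self-paired coordinate subspaces -/
lemma even_of_self_pairing (hA : H99.AltForm B) (hND : ∀ u, (∀ v, B u v = 0) → u = 0) (S : Finset (Fin n))
    (h : ∀ j ∈ S, ∀ k, k ∉ S → B (Pi.single j 1) (Pi.single k 1) = 0) : Even S.card := by
  classical
  let W : Submodule F (Fin n → F) := Submodule.span F (Set.range (fun j : S => (Pi.single (j : Fin n) (1 : F) : Fin n → F)))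
  have hli : LinearIndependent F (fun j : S => (Pi.single (j : Fin n) (1 : F) : Fin n → F)) := by
    have := (Pi.basisFun F (Fin n)).linearIndependent.comp (fun j : S => (j : Fin n)) Subtype.val_injective
    convert this using 1
    funext j
    simp
  have hW : finrank F W = S.card := by
    rw [finrank_span_eq_card hli, Fintype.card_coe]
  rw [← hW]
  apply hA.even_finrank_sub
  intro u hu huv
  apply hND
  intro v
  have hu2 : ∀ k, k ∉ S → u k = 0 := by
    intro k hk
    have h1 : W ≤ LinearMap.ker (LinearMap.proj k : (Fin n → F) →ₗ[F] F) := by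
      rw [Submodule.span_le]
      rintro _ ⟨j, rfl⟩
      rw [SetLike.mem_coe, LinearMap.mem_ker, LinearMap.proj_apply]
      beta_reduce
      rw [Pi.single_apply, if_neg]
      rintro rfl
      exact hk j.2
    exact h1 hu
  rw [sum_right hA]
  apply Finset.sum_eq_zero
  intro k _
  by_cases hk : k ∈ S
  · rw [huv (Pi.single k 1) (Submodule.subset_span ⟨⟨k, hk⟩, rfl⟩), mul_zero]
  · rw [sum_left hA, Finset.sum_eq_zero, mul_zero]
    intro j _
    by_cases hj : j ∈ S
    · rw [h j hj k hk, mul_zero]
    · rw [hu2 j hj, zero_mul]

lemma mu_pow {μ : F} (hn0 : 0 < n) (hND : ∀ u, (∀ v, B u v = 0) → u = 0) (M : Matrix (Fin n) (Fin n) F)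
    (h : ∀ u v, B (M *ᵥ u) (M *ᵥ v) = μ * B u v) (m : ℕ) (hM : M ^ m = 1) : μ ^ m = 1 := by
  have h1 : ∀ k : ℕ, ∀ u v, B ((M ^ k) *ᵥ u) ((M ^ k) *ᵥ v) = μ ^ k * B u v := by
    intro k
    induction k with
    | zero => intro u v; simp
    | succ k ih =>
      intro u v
      rw [pow_succ', ← Matrix.mulVec_mulVec, ← Matrix.mulVec_mulVec, h, ih, pow_succ]
      ring
  have : Nonempty (Fin n) := ⟨⟨0, hn0⟩⟩
  obtain ⟨u, hu⟩ := exists_ne (0 : Fin n → F)
  have h2 : ∃ v, B u v ≠ 0 := by
    by_contra hcon
    push Not at hcon
    exact hu (hND u hcon)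
  obtain ⟨v, hv⟩ := h2
  have h3 := h1 m u v
  rw [hM, Matrix.one_mulVec, Matrix.one_mulVec] at h3
  have h4 : (μ ^ m - 1) * B u v = 0 := by linear_combination -h3
  exact sub_eq_zero.mp ((mul_eq_zero.mp h4).resolve_right hv)

/-- pairing of eigenvectors -/
lemma diag_pairing (hA : H99.AltForm B) {c : Fin n → F} {μ : F}
    (h : ∀ u v, B (Matrix.diagonal c *ᵥ u) (Matrix.diagonal c *ᵥ v) = μ * B u v) (j k : Fin n) (hjk : c j * c k ≠ μ) :
    B (Pi.single j 1) (Pi.single k 1) = 0 := by
  have h1 := h (Pi.single j 1) (Pi.single k 1)
  have h2 : ∀ i, Matrix.diagonal c *ᵥ (Pi.single i 1) = c i • (Pi.single i (1 : F) : Fin n → F) := by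
    intro i
    rw [Matrix.diagonal_mulVec_single]
    funext l
    by_cases hl : l = i
    · rw [hl]
      simp
    · rw [Pi.single_eq_of_ne hl, Pi.smul_apply, Pi.single_eq_of_ne hl, smul_zero]
  rw [h2, h2, hA.smul_left, hA.smul_right] at h1
  have h3 : (c j * c k - μ) * B (Pi.single j 1) (Pi.single k 1) = 0 := by linear_combination h1
  exact (mul_eq_zero.mp h3).resolve_left (sub_ne_zero.mpr hjk)

end

/-- Derangements of odd prime order of PSL_n(q) on the cosets of a symplectic-type subgroup. Here `T = PSL_n(F)` for a field `F` with `q` elements, `n ≥ 4` even, `f` is a nondegenerate alternating form on `F^n`, and `H` is the subgroup of matrices of determinant 1 preserving `f` up to a scalar — a maximal subgroup of type Sp_n(q); Ω is the set of `T`-conjugates of `H` (cosets of `H`), so an element of `T` of prime order `r` (a matrix `x` of determinant 1 with `x^r` scalar, `x` not scalar) fixes a point of Ω when some conjugate of `x` by a matrix of determinant 1 preserves `f` up to a scalar. For every odd prime `r` dividing the index of `H`, with `(n, r) ≠ (6, 3)`, there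 is an element of `T` of order `r` with no conjugate in `H`. (For `n = 6`, `r = 3` this can fail: when `(q − 1)_3 = 3` every element of order 3 is conjugate into `H`.) -/
theorem result {F : Type*} [Field F] [Fintype F] {p : ℕ} [Fact p.Prime] [CharP F p] {q : ℕ} (hq : Fintype.card F = q)
    (n : ℕ) (hn : 4 ≤ n) (he : Even n) (f : (Fin n → F) → (Fin n → F) → F) (hf : Cfsg.Geo.IsSymplecticForm f)
    (r : ℕ) [Fact r.Prime] (hr2 : r ≠ 2) (hgap : ¬ (n = 6 ∧ r = 3)) (hΩ : r ∣ ((Cfsg.Geo.similarityGroup f).comap (Matrix.SpecialLinearGroup.toGL : Matrix.SpecialLinearGroup (Fin n) F →* GL (Fin n) F)).index) :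
    ∃ x : Matrix.SpecialLinearGroup (Fin n) F,
      (∃ z : F, ((x ^ r : Matrix.SpecialLinearGroup (Fin n) F) : Matrix (Fin n) (Fin n) F) = z • (1 : Matrix (Fin n) (Fin n) F)) ∧
      (∀ z : F, (x : Matrix (Fin n) (Fin n) F) ≠ z • (1 : Matrix (Fin n) (Fin n) F)) ∧
      ∀ P : Matrix.SpecialLinearGroup (Fin n) F, P⁻¹ * x * P ∉ ((Cfsg.Geo.similarityGroup f).comap (Matrix.SpecialLinearGroup.toGL : Matrix.SpecialLinearGroup (Fin n) F →* GL (Fin n) F)) := by
  classical
  subst hq
  have hr : r.Prime := Fact.out
  have hn0 : 0 < n := by omega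
  have hr3 : 3 ≤ r := by
    have := hr.two_le
    omega
  set i0 : Fin n := ⟨0, by omega⟩ with hi0
  set i1 : Fin n := ⟨1, by omega⟩ with hi1
  set i2 : Fin n := ⟨2, by omega⟩ with hi2
  set i3 : Fin n := ⟨3, by omega⟩ with hi3
  have h01 : i0 ≠ i1 := by simp [hi0, hi1]
  have h02 : i0 ≠ i2 := by simp [hi0, hi2]
  have h12 : i1 ≠ i2 := by simp [hi1, hi2]
  have h03 : i0 ≠ i3 := by simp [hi0, hi3]
  have h13 : i1 ≠ i3 := by simp [hi1, hi3]
  have h23 : i2 ≠ i3 := by simp [hi2, hi3]
  by_cases hrp : r = p
  · subst hrp
    -- the unipotent element with one block of size three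
    let M : Matrix (Fin n) (Fin n) F := Matrix.transvection i0 i1 1 * Matrix.transvection i1 i2 1
    let N : Matrix (Fin n) (Fin n) F := Matrix.single i0 i1 1 + Matrix.single i1 i2 1 + Matrix.single i0 i2 1
    have hMN : M = 1 + N := by
      simp only [M, N, Matrix.transvection, mul_add, add_mul, mul_one, one_mul, Matrix.single_mul_single_same]
      abel
    have hN2 : N ^ 2 = Matrix.single i0 i2 1 := by
      rw [pow_two]
      simp [N, mul_add, add_mul, Matrix.single_mul_single_of_ne, h01.symm, h02.symm, h12.symm]
    have hN3 : N ^ 3 = 0 := by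
      rw [pow_succ, hN2]
      simp [N, mul_add, Matrix.single_mul_single_of_ne, h02.symm, h12.symm]
    have hne : Nonempty (Fin n) := ⟨i0⟩
    have hMr : M ^ r = 1 := by
      have h1 : (1 + N) ^ r = 1 ^ r + N ^ r := add_pow_char_of_commute _ (Commute.one_left N)
      rw [hMN, h1, one_pow, show r = 3 + (r - 3) by omega, pow_add, hN3, zero_mul, add_zero]
    let x : Matrix.SpecialLinearGroup (Fin n) F := ⟨M, by
      rw [Matrix.det_mul, Matrix.det_transvection_of_ne _ _ h01, Matrix.det_transvection_of_ne _ _ h12, one_mul]⟩
    refine ⟨x, ⟨1, ?_⟩, ?_, ?_⟩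
    · rw [Matrix.SpecialLinearGroup.coe_pow]
      change M ^ r = _
      rw [hMr, one_smul]
    · intro z hz
      have h2 := congrFun (congrFun hz i0) i1
      change M i0 i1 = _ at h2
      rw [hMN] at h2
      simp [N, Matrix.single_apply, h01, h01.symm, h12, h12.symm] at h2
    · intro P hP
      obtain ⟨B, hA, hND, μ, hμ⟩ := extract hf x P hP
      change ∀ u v, B (M *ᵥ u) (M *ᵥ v) = μ * B u v at hμ
      have hμ1 : μ = 1 := by
        have h1 := mu_pow hn0 hND M hμ r hMr
        have h2 : (μ - 1) ^ r = 0 := by rw [sub_pow_char, h1, one_pow, sub_self]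
        exact sub_eq_zero.mp (pow_eq_zero_iff hr.ne_zero |>.mp h2)
      have hTT : ∀ u v, B (M *ᵥ u) (M *ᵥ v) = B u v := fun u v => by rw [hμ, hμ1, one_mul]
      have hD : ∀ u, M *ᵥ (M *ᵥ u) = (N ^ 2) *ᵥ u + (2 : F) • (M *ᵥ u) - u := by
        intro u
        have h1 : M * M = N ^ 2 + (2 : F) • M - 1 := by
          rw [hMN]
          have h2 : (2 : F) • (1 + N) = (1 + N) + (1 + N) := two_smul _ _
          rw [h2, pow_two]
          noncomm_ring
        rw [Matrix.mulVec_mulVec, h1, Matrix.sub_mulVec, Matrix.add_mulVec, Matrix.smul_mulVec, Matrix.one_mulVec]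
      have hMD : ∀ u, M *ᵥ ((N ^ 2) *ᵥ u) = (N ^ 2) *ᵥ u := by
        intro u
        rw [Matrix.mulVec_mulVec, hMN, add_mul, one_mul, ← pow_succ', hN3, add_zero]
      have hskew : ∀ u v, B ((N ^ 2) *ᵥ u) v = B u ((N ^ 2) *ᵥ v) := by
        intro u v
        have h1 : B ((N ^ 2) *ᵥ u) v = B ((N ^ 2) *ᵥ u) (M *ᵥ (M *ᵥ v)) := by
          conv_lhs => rw [← hTT, hMD, ← hTT, hMD]
        have h2 : (N ^ 2) *ᵥ u = M *ᵥ (M *ᵥ u) + ((-2 : F) • (M *ᵥ u) + u) := by
          rw [hD]
          module
        have h3 : (N ^ 2) *ᵥ v = M *ᵥ (M *ᵥ v) + ((-2 : F) • (M *ᵥ v) + v) := by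
          rw [hD]
          module
        rw [h1, h2, h3, hA.add_left, hA.add_left, hA.smul_left, hTT, hTT, hTT, hA.add_right, hA.add_right, hA.smul_right]
        ring
      have hN2v : ∀ v, (N ^ 2) *ᵥ v = v i2 • (Pi.single i0 (1 : F) : Fin n → F) := by
        intro v
        rw [hN2, Matrix.single_mulVec]
        funext k
        by_cases hk : k = i0
        · rw [hk]
          simp
        · simp [Pi.single_apply, hk]
      have h2F : (2 : F) ≠ 0 := by
        intro h
        have h1 : ((2 : ℕ) : F) = 0 := by exact_mod_cast h
        rw [CharP.cast_eq_zero_iff F r] at h1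
        have := Nat.le_of_dvd (by norm_num) h1
        omega
      have h1 : ∀ u v : Fin n → F, u i2 * B (Pi.single i0 1) v = - (v i2 * B (Pi.single i0 1) u) := by
        intro u v
        have := hskew u v
        rw [hN2v, hN2v, hA.smul_left, hA.smul_right, hA.skew u] at this
        rw [this]
        ring
      have h2 : B (Pi.single i0 1) (Pi.single i2 1) = 0 := by
        have := h1 (Pi.single i2 1) (Pi.single i2 1)
        rw [Pi.single_eq_same, one_mul] at this
        have h3 : 2 * B (Pi.single i0 1) (Pi.single i2 1) = 0 := by linear_combination this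
        exact (mul_eq_zero.mp h3).resolve_left h2F
      have h3 : (Pi.single i0 (1 : F) : Fin n → F) = 0 := by
        apply hND
        intro v
        have := h1 (Pi.single i2 1) v
        rw [Pi.single_eq_same, one_mul, h2, mul_zero, neg_zero] at this
        exact this
      have h4 := congrFun h3 i0
      rw [Pi.single_eq_same] at h4
      exact one_ne_zero h4
  · by_cases hrq : r ∣ Fintype.card F - 1
    · obtain ⟨ζ, hζ1, hζ⟩ := H99.exists_prim_root (F := F) hrq
      have hζ0 : ζ ≠ 0 := by
        rintro rfl
        rw [zero_pow hr.ne_zero] at hζ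
        exact zero_ne_one hζ
      have hord : ∀ k : ℕ, ζ ^ k = 1 → r ∣ k := fun k hk => H99.dvd_of_pow_eq_one hζ1 hζ hk
      have hζ2 : ζ ^ 2 ≠ 1 := by
        intro h
        have := Nat.le_of_dvd (by norm_num) (hord 2 h)
        omega
      let c : Fin n → F := fun j => (if j = i0 then ζ else 1) * (if j = i1 then ζ else 1) * (if j = i2 then (ζ ^ 2)⁻¹ else 1)
      have hc0 : c i0 = ζ := by simp [c, h01, h02]
      have hc1 : c i1 = ζ := by simp [c, h01.symm, h12]
      have hc2 : c i2 = (ζ ^ 2)⁻¹ := by simp [c, h02.symm, h12.symm]
      have hc3 : ∀ j, j ≠ i0 → j ≠ i1 → j ≠ i2 → c j = 1 := by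
        intro j h0 h1 h2
        simp [c, h0, h1, h2]
      obtain ⟨x, hx1, hx2⟩ := H99.sl_exists_diag c (by
        rw [Finset.prod_mul_distrib, Finset.prod_mul_distrib, Finset.prod_ite_eq' Finset.univ i0 (fun _ => ζ),
          Finset.prod_ite_eq' Finset.univ i1 (fun _ => ζ), Finset.prod_ite_eq' Finset.univ i2 (fun _ => (ζ ^ 2)⁻¹)]
        simp only [Finset.mem_univ, if_true]
        field_simp) r 1 (by
        intro j
        simp only [c, mul_pow]
        have h1 : ((ζ ^ 2)⁻¹) ^ r = 1 := by rw [inv_pow, ← pow_mul, mul_comm, pow_mul, hζ, one_pow, inv_one]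
        split_ifs <;> simp [hζ, h1])
      refine ⟨x, ⟨1, hx2⟩, ?_, ?_⟩
      · intro z hz
        rw [hx1, Matrix.smul_one_eq_diagonal, Matrix.diagonal_eq_diagonal_iff] at hz
        have e0 := hz i0
        have e3 := hz i3
        rw [hc0] at e0
        rw [hc3 i3 h03.symm h13.symm h23.symm] at e3
        exact hζ1 (e0.trans e3.symm)
      · intro P hP
        obtain ⟨B, hA, hND, μ, hμ⟩ := extract hf x P hP
        rw [hx1] at hμ
        have hpair := fun j k h => diag_pairing hA hμ j k h
        by_cases hr5 : r = 3
        · have hζ3 : (ζ ^ 2)⁻¹ = ζ := by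
            rw [inv_eq_iff_eq_inv, eq_comm, inv_eq_iff_eq_inv, eq_comm]
            rw [hr5] at hζ
            field_simp
            exact hζ.symm
          rw [hζ3] at hc2
          let S : Finset (Fin n) := {i0, i1, i2}
          have hScard : S.card = 3 := by
            rw [Finset.card_eq_three]
            exact ⟨i0, i1, i2, h01, h02, h12, rfl⟩
          have hcS : ∀ j ∈ S, c j = ζ := by
            intro j hj
            simp only [S, Finset.mem_insert, Finset.mem_singleton] at hj
            rcases hj with rfl | rfl | rfl
            · exact hc0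
            · exact hc1
            · exact hc2
          have hcS' : ∀ j, j ∉ S → c j = 1 := by
            intro j hj
            simp only [S, Finset.mem_insert, Finset.mem_singleton, not_or] at hj
            exact hc3 j hj.1 hj.2.1 hj.2.2
          by_cases hμ1 : μ = ζ
          · have h1 := card_le_of_pairing hA hND S Sᶜ (by
              intro j hj k hk
              rw [Finset.mem_compl, not_not] at hk
              apply hpair
              rw [hcS j hj, hcS k hk, hμ1]
              intro h
              apply hζ1
              exact mul_left_cancel₀ hζ0 (by rw [h, mul_one]))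
            have h2 := card_le_of_pairing hA hND Sᶜ S (by
              intro j hj k hk
              rw [Finset.mem_compl] at hj
              apply hpair
              rw [hcS' j hj, hcS' k hk, hμ1, one_mul]
              exact Ne.symm hζ1)
            have h3 := Finset.card_add_card_compl S
            rw [Fintype.card_fin] at h3
            exact hgap ⟨by omega, hr5⟩
          · by_cases hμ2 : μ = ζ ^ 2
            · have h1 := even_of_self_pairing hA hND S (by
                intro j hj k hk
                apply hpair
                rw [hcS j hj, hcS' k hk, hμ2, mul_one, pow_two]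
                intro h
                apply hζ1
                exact (mul_left_cancel₀ hζ0 (by rw [mul_one]; exact h)).symm)
              rw [hScard] at h1
              revert h1
              decide
            · have h1 := card_le_of_pairing hA hND S ∅ (by
                intro j hj k _
                apply hpair
                rw [hcS j hj]
                by_cases hk : k ∈ S
                · rw [hcS k hk, ← pow_two]
                  exact Ne.symm hμ2
                · rw [hcS' k hk, mul_one]
                  exact Ne.symm hμ1)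
              rw [hScard, Finset.card_empty] at h1
              omega
        · have hζ3 : ζ ^ 3 ≠ 1 := by
            intro h
            have := (Nat.prime_dvd_prime_iff_eq hr Nat.prime_three).mp (hord 3 h)
            exact hr5 this
          have hζ4 : ζ ^ 4 ≠ 1 := by
            intro h
            have h1 := hord 4 h
            rw [show (4 : ℕ) = 2 ^ 2 by norm_num] at h1
            have h2 := (Nat.prime_dvd_prime_iff_eq hr Nat.prime_two).mp (hr.dvd_of_dvd_pow h1)
            exact hr2 h2
          by_cases hμ1 : μ = ζ⁻¹
          · have h1 := card_le_of_pairing hA hND {i0, i1} {i2} (by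
              intro j hj k hk
              rw [Finset.mem_singleton] at hk
              have hcj : c j = ζ := by
                simp only [Finset.mem_insert, Finset.mem_singleton] at hj
                rcases hj with rfl | rfl
                · exact hc0
                · exact hc1
              apply hpair
              rw [hcj, hμ1]
              intro h
              by_cases hk0 : k = i0
              · rw [hk0, hc0] at h
                apply hζ3
                field_simp at h
                exact h
              · by_cases hk1 : k = i1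
                · rw [hk1, hc1] at h
                  apply hζ3
                  field_simp at h
                  exact h
                · rw [hc3 k hk0 hk1 hk, mul_one] at h
                  apply hζ2
                  field_simp at h
                  exact h)
            rw [Finset.card_pair h01, Finset.card_singleton] at h1
            omega
          · by_cases hμ2 : μ = (ζ ^ 2)⁻¹
            · have h1 := card_le_of_pairing hA hND {i0} ∅ (by
                intro j hj k _
                rw [Finset.mem_singleton] at hj
                apply hpair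
                rw [hj, hc0, hμ2]
                intro h
                by_cases hk0 : k = i0
                · rw [hk0, hc0] at h
                  apply hζ4
                  field_simp at h
                  exact h
                · by_cases hk1 : k = i1
                  · rw [hk1, hc1] at h
                    apply hζ4
                    field_simp at h
                    exact h
                  · by_cases hk2 : k = i2
                    · rw [hk2, hc2] at h
                      apply hζ1
                      field_simp at h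
                      exact h
                    · rw [hc3 k hk0 hk1 hk2, mul_one] at h
                      apply hζ3
                      field_simp at h
                      exact h)
              rw [Finset.card_singleton, Finset.card_empty] at h1
              omega
            · have h1 := even_of_self_pairing hA hND {i2} (by
                intro j hj k hk
                rw [Finset.mem_singleton] at hj hk
                apply hpair
                rw [hj, hc2]
                intro h
                by_cases hk0 : k = i0
                · rw [hk0, hc0] at h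
                  apply hμ1
                  rw [← h]
                  field_simp
                · by_cases hk1 : k = i1
                  · rw [hk1, hc1] at h
                    apply hμ1
                    rw [← h]
                    field_simp
                  · rw [hc3 k hk0 hk1 hk, mul_one] at h
                    exact hμ2 h.symm)
              rw [Finset.card_singleton] at h1
              revert h1
              decide
    · set i := orderOf ((Fintype.card F : ℕ) : ZMod r) with hi
      have hipos : 0 < i := H99.orderOf_pos_of_not_dvd (H99.prime_not_dvd_card hrp)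
      have hin := H99.order_le_of_dvd_index hrp _ hΩ
      have hodd : ¬ Even i := by
        intro hev
        obtain ⟨m, hm⟩ := he
        exact H99.not_dvd_index_of_even_order hf hn0 (m := m) (by omega) hrp hev hΩ
      obtain ⟨x, hx1, hx2, hx3, hx4⟩ := H99.sl_exists_order_eq (F := F) hn0 hrp hrq 1 one_pos (by rw [one_mul]; exact hin)
      refine ⟨x, ⟨1, hx1⟩, hx2, ?_⟩
      intro P hP
      obtain ⟨B, hA, hND, μ, hμ⟩ := extract hf x P hP
      have hxr : (x : Matrix (Fin n) (Fin n) F) ^ r = 1 := by
        rw [← Matrix.SpecialLinearGroup.coe_pow, hx1, one_smul]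
      have hμ1 : μ = 1 := H99.eq_one_of_pow_eq_one hrq (mu_pow hn0 hND _ hμ r hxr)
      set T := Matrix.toLin' (x : Matrix (Fin n) (Fin n) F) with hT
      have hTT : ∀ u v, B (T u) (T v) = B u v := fun u v => by
        rw [hT, Matrix.toLin'_apply, Matrix.toLin'_apply, hμ, hμ1, one_mul]
      have hsub : ∀ u v w, B (u - v) w = B u w - B v w := fun u v w => hA.oform.sub_left u v w
      have hsubr : ∀ u v w, B w (u - v) = B w u - B w v := fun u v w => by
        rw [hA.skew, hsub, hA.skew u, hA.skew v]
        ring
      have hW : finrank F (LinearMap.range (T - 1)) = i := by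
        have h1 := (T - 1).finrank_range_add_finrank_ker
        have h2 : finrank F (Fin n → F) = n := by simp
        omega
      apply hodd
      rw [← hW]
      apply hA.even_finrank_sub
      rintro w ⟨u, rfl⟩ hw
      apply H99.ker_sub_one_disjoint (r := r) (H99.natCast_ne_zero_of_ne hr hrp) T
      · have h1 : (aeval T (cyclotomic r F)) ((T - 1) u) = (aeval T (X ^ r - 1 : F[X])) u := by
          rw [← Polynomial.cyclotomic_prime_mul_X_sub_one F r, map_mul, Module.End.mul_apply]
          congr 1
          simp
        rw [h1, map_sub, map_pow, aeval_X, map_one, hx3, sub_self]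
        rfl
      · set w := (T - 1) u with hw'
        have h1 : ∀ v, B w (T v) = B w v := by
          intro v
          have := hw ((T - 1) v) ⟨v, rfl⟩
          rw [LinearMap.sub_apply, Module.End.one_apply, hsubr] at this
          exact sub_eq_zero.mp this
        have h2 : T w - w = 0 := by
          apply hND
          intro v
          have hTs : Function.Surjective T := by
            intro y
            refine ⟨(T ^ (r - 1)) y, ?_⟩
            rw [← Module.End.mul_apply, ← pow_succ', Nat.sub_add_cancel (by omega), hx3]
            rfl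
          obtain ⟨v, rfl⟩ := hTs v
          rw [hsub, hTT, h1, sub_self]
        exact sub_eq_zero.mp h2

end Cfsg.Agent.S5968
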