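import Cfsg.Statements.S5969
import Cfsg.Agent.H99.QuadSub
-- import your own Cfsg.Agent.* helpers here

set_option autoImplicit false
open scoped MatrixGroups
open Cfsg

namespace Cfsg.Agent.S5969

open Module Matrix

lemma exists_sq_ratio {F : Type*} [Field F] [Fintype F] (hodd : Odd (Fintype.card F)) (u z : F)
    (hu : ∀ w, w * w ≠ u) (hz : ∀ w, w * w ≠ z) : ∃ s : F, z = s * s * u := by
  have hu0 : u ≠ 0 := by
    rintro rfl
    exact hu 0 (by simp)
  have hz0 : z ≠ 0 := by
    rintro rfl
    exact hz 0 (by simp)
  have h2 : ringChar F ≠ 2 := by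
    intro h
    have := FiniteField.even_card_of_char_two h
    rw [Nat.odd_iff] at hodd
    omega
  have key : ∀ a : F, a ≠ 0 → (∀ w, w * w ≠ a) → a ^ (Fintype.card F / 2) = -1 := by
    intro a ha hsq
    rcases FiniteField.pow_dichotomy h2 ha with h | h
    · obtain ⟨w, hw⟩ := (FiniteField.isSquare_iff h2 ha).mpr h
      exact absurd hw.symm (hsq w)
    · exact h
  have h3 : (z / u) ^ (Fintype.card F / 2) = 1 := by
    rw [div_pow, key z hz0 hz, key u hu0 hu]
    norm_num
  obtain ⟨s, hs⟩ := (FiniteField.isSquare_iff h2 (div_ne_zero hz0 hu0)).mpr h3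
  refine ⟨s, ?_⟩
  rw [← hs, div_mul_cancel₀ _ hu0]

lemma sq_toLin {F : Type*} [Field F] {n : ℕ} (x : Matrix (Fin n) (Fin n) F) (z : F)
    (h : x ^ 2 = z • (1 : Matrix (Fin n) (Fin n) F)) (v : Fin n → F) : Matrix.toLin' x (Matrix.toLin' x v) = z • v := by
  have := congrArg (fun M => Matrix.toLin' M v) h
  simp only [pow_two, Matrix.toLin'_mul, LinearMap.comp_apply] at this
  rw [this]
  simp

/-- a nonscalar element of the normalizer with square `-1`, in dimension two -/
lemma exists_norm_invol {F : Type*} [Field F] [Fintype F] {K : Subalgebra F (Matrix (Fin 2) (Fin 2) F)}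
    (hK : Cfsg.Geo.IsFieldSubalgebra 2 K) :
    ∃ τ : (Fin 2 → F) →ₗ[F] (Fin 2 → F), (∀ v, τ (τ v) = (-1 : F) • v) ∧ (∀ c : F, ¬ ∀ v, τ v = c • v) ∧
      ∀ g : GL (Fin 2) F, (∀ v, (g : Matrix (Fin 2) (Fin 2) F) *ᵥ v = τ v) → g ∈ Cfsg.Geo.subalgebraNormalizer K := by
  obtain ⟨κ, hκ, hs, hgen⟩ := H99.quadSub_exists_gen (by norm_num) hK
  obtain ⟨d, t, hdt⟩ := hgen (κ * κ) (K.mul_mem hκ hκ)
  -- κ² = d + t κ
  have hv0 : (Pi.single 0 1 : Fin 2 → F) ≠ 0 := by
    intro h
    have := congrFun h 0
    simp at this
  set v0 : Fin 2 → F := Pi.single 0 1 with hv0d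
  have hli : LinearIndependent F ![v0, κ *ᵥ v0] := by
    rw [LinearIndependent.pair_iff' hv0]
    intro a h
    have h4 : (κ - a • (1 : Matrix (Fin 2) (Fin 2) F)) *ᵥ v0 = 0 := by
      rw [Matrix.sub_mulVec, Matrix.smul_mulVec, Matrix.one_mulVec, h, sub_self]
    have h5 := H99.fieldSub_mulVec_inj hK (K.sub_mem hκ (K.smul_mem K.one_mem _)) v0 hv0 h4
    exact hs _ (sub_eq_zero.mp h5)
  let b := basisOfLinearIndependentOfCardEqFinrank hli (by simp)
  have hb0 : b 0 = v0 := by simp [b]
  have hb1 : b 1 = κ *ᵥ v0 := by simp [b]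
  -- norm equation
  have hnorm : ∃ c0 c1 : F, c0 * c0 + t * (c0 * c1) - d * (c1 * c1) = -1 := by
    by_cases h2 : (2 : F) = 0
    · refine ⟨1, 0, ?_⟩
      have : (1 : F) + 1 = 0 := by rw [one_add_one_eq_two, h2]
      rw [eq_neg_of_add_eq_zero_left this]
      ring
    · have hodd : Fintype.card F % 2 = 1 := by
        apply FiniteField.odd_card_of_char_ne_two
        intro h
        apply h2
        have := ringChar.Nat.cast_ringChar (R := F)
        rw [h] at this
        exact_mod_cast this
      have hD : d + t * t / 4 ≠ 0 := by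
        intro hD
        have h3 : (κ - (t / 2) • (1 : Matrix (Fin 2) (Fin 2) F)) * (κ - (t / 2) • (1 : Matrix (Fin 2) (Fin 2) F)) = 0 := by
          have h4 : (κ - (t / 2) • (1 : Matrix (Fin 2) (Fin 2) F)) * (κ - (t / 2) • (1 : Matrix (Fin 2) (Fin 2) F))
              = (d + t * t / 4) • (1 : Matrix (Fin 2) (Fin 2) F) := by
            have : NeZero (2 : F) := ⟨h2⟩
            have h6 : (κ - (t / 2) • (1 : Matrix (Fin 2) (Fin 2) F)) * (κ - (t / 2) • (1 : Matrix (Fin 2) (Fin 2) F))
                = κ * κ - t • κ + (t / 2 * (t / 2)) • (1 : Matrix (Fin 2) (Fin 2) F) := by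
              rw [sub_mul, mul_sub, mul_sub, smul_mul_assoc, mul_smul_comm, one_mul, mul_one, smul_mul_smul_comm, mul_one]
              have h3 : t • κ = (t / 2) • κ + (t / 2) • κ := by
                rw [← add_smul, add_halves]
              rw [h3]
              abel
            rw [h6, hdt, add_sub_cancel_right, ← add_smul]
            congr 1
            have h4 : (4 : F) = 2 * 2 := by norm_num
            rw [h4]
            field_simp
          rw [h4, hD, zero_smul]
        by_cases h7 : κ - (t / 2) • (1 : Matrix (Fin 2) (Fin 2) F) = 0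
        · exact hs _ (sub_eq_zero.mp h7)
        · obtain ⟨y, hy, hyy⟩ := hK.inv _ (K.sub_mem hκ (K.smul_mem K.one_mem _)) h7
          rw [hK.comm _ (K.sub_mem hκ (K.smul_mem K.one_mem _)) y hy] at hyy
          have h5 := congrArg (fun M => y * M) h3
          simp only [← mul_assoc, hyy, one_mul, mul_zero] at h5
          exact h7 h5
      obtain ⟨a, c, hac⟩ := FiniteField.exists_root_sum_quadratic
        (f := Polynomial.C 1 * Polynomial.X ^ 2 + Polynomial.C 0 * Polynomial.X + Polynomial.C 1)
        (g := Polynomial.C (-(d + t * t / 4)) * Polynomial.X ^ 2 + Polynomial.C 0 * Polynomial.X + Polynomial.C 0)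
        (Polynomial.degree_quadratic one_ne_zero) (Polynomial.degree_quadratic (neg_ne_zero.mpr hD)) hodd
      simp only [Polynomial.eval_add, Polynomial.eval_mul, Polynomial.eval_C, Polynomial.eval_pow, Polynomial.eval_X] at hac
      refine ⟨a - t * c / 2, c, ?_⟩
      have h4 : (4 : F) = 2 * 2 := by norm_num
      have h5 : (a - t * c / 2) * (a - t * c / 2) + t * ((a - t * c / 2) * c) - d * (c * c)
          = a * a - (d + t * t / (2 * 2)) * (c * c) := by
        field_simp
        ring
      rw [h5, ← h4]
      linear_combination hac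
  obtain ⟨c0, c1, hc⟩ := hnorm
  -- c = c0 + c1 κ ; τ v0 = c v0 ; τ (κ v0) = c (t - κ) v0
  set c : Matrix (Fin 2) (Fin 2) F := c0 • (1 : Matrix (Fin 2) (Fin 2) F) + c1 • κ with hcd
  have hcK : c ∈ K := K.add_mem (K.smul_mem K.one_mem _) (K.smul_mem hκ _)
  set κb : Matrix (Fin 2) (Fin 2) F := t • (1 : Matrix (Fin 2) (Fin 2) F) - κ with hκb
  have hκbK : κb ∈ K := K.sub_mem (K.smul_mem K.one_mem _) hκ
  clear_value c κb
  set τ : (Fin 2 → F) →ₗ[F] (Fin 2 → F) := b.constr F ![c *ᵥ v0, (c * κb) *ᵥ v0] with hτ
  have hτ0 : τ v0 = c *ᵥ v0 := by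
    rw [← hb0, hτ, Basis.constr_basis, hb0]; rfl
  have hτ1 : τ (κ *ᵥ v0) = (c * κb) *ᵥ v0 := by
    rw [← hb1, hτ, Basis.constr_basis]; rfl
  have hprod : κb * κ = (-d) • (1 : Matrix (Fin 2) (Fin 2) F) := by
    rw [hκb, sub_mul, hdt, smul_mul_assoc, one_mul, neg_smul]
    abel
  have hκbsq : κb * κb = t • κb + d • (1 : Matrix (Fin 2) (Fin 2) F) := by
    nth_rewrite 2 [hκb]
    rw [mul_sub, hprod, mul_smul_comm, mul_one, neg_smul]
    abel
  -- τ (k v) = conj(k) c v
  have hτκ : ∀ v, τ (κ *ᵥ v) = κb *ᵥ (τ v) := by
    have h1 : τ ∘ₗ Matrix.toLin' κ = Matrix.toLin' κb ∘ₗ τ := by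
      apply b.ext
      intro i
      fin_cases i
      · simp only [Fin.zero_eta, LinearMap.comp_apply, Matrix.toLin'_apply, hb0, hτ1, hτ0, Matrix.mulVec_mulVec]
        rw [hK.comm c hcK κb hκbK]
      · simp only [Fin.mk_one, LinearMap.comp_apply, Matrix.toLin'_apply, hb1, hτ1, Matrix.mulVec_mulVec]
        rw [hdt, Matrix.add_mulVec, Matrix.smul_mulVec, Matrix.smul_mulVec, Matrix.one_mulVec, map_add, map_smul,
          map_smul, hτ0, hτ1, ← mul_assoc, hK.comm κb hκbK c hcK, mul_assoc, hκbsq, mul_add, Matrix.add_mulVec,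
          mul_smul_comm, mul_smul_comm, mul_one, Matrix.smul_mulVec, Matrix.smul_mulVec]
        abel
    intro v
    exact LinearMap.congr_fun h1 v
  have hκτ : ∀ v, τ (κb *ᵥ v) = κ *ᵥ (τ v) := by
    intro v
    rw [hκb, Matrix.sub_mulVec, Matrix.smul_mulVec, Matrix.one_mulVec, map_sub, map_smul, hτκ, hκb,
      Matrix.sub_mulVec, Matrix.smul_mulVec, Matrix.one_mulVec]
    abel
  set cb : Matrix (Fin 2) (Fin 2) F := c0 • (1 : Matrix (Fin 2) (Fin 2) F) + c1 • κb with hcbd
  have hcbK : cb ∈ K := K.add_mem (K.smul_mem K.one_mem _) (K.smul_mem hκbK _)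
  have hτc : ∀ v, τ (c *ᵥ v) = cb *ᵥ (τ v) := by
    intro v
    rw [hcd, Matrix.add_mulVec, Matrix.smul_mulVec, Matrix.one_mulVec, Matrix.smul_mulVec, map_add, map_smul,
      map_smul, hτκ, hcbd, Matrix.add_mulVec, Matrix.smul_mulVec, Matrix.one_mulVec, Matrix.smul_mulVec]
  have hcbc : cb * c = (-1 : F) • (1 : Matrix (Fin 2) (Fin 2) F) := by
    rw [hcbd, hcd, add_mul, mul_add, mul_add, smul_mul_assoc, smul_mul_assoc, smul_mul_assoc, smul_mul_assoc,
      one_mul, one_mul, mul_smul_comm, mul_smul_comm, mul_one, hprod, hκb, ← hc]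
    module
  have hττ : ∀ v, τ (τ v) = (-1 : F) • v := by
    have h1 : τ ∘ₗ τ = (-1 : F) • LinearMap.id := by
      apply b.ext
      intro i
      have h00 : τ (τ v0) = (-1 : F) • v0 := by
        rw [hτ0, hτc, hτ0, Matrix.mulVec_mulVec, hcbc, Matrix.smul_mulVec, Matrix.one_mulVec]
      fin_cases i
      · simp only [Fin.zero_eta, LinearMap.comp_apply, hb0, LinearMap.smul_apply, LinearMap.id_apply, h00]
      · simp only [Fin.mk_one, LinearMap.comp_apply, hb1, LinearMap.smul_apply, LinearMap.id_apply]
        rw [hτκ, hκτ, h00, Matrix.mulVec_smul]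
    intro v
    exact LinearMap.congr_fun h1 v
  refine ⟨τ, hττ, ?_, ?_⟩
  · intro r hr
    -- τ scalar would commute with κ, so κb = κ
    have h1 : κb = κ := by
      by_contra hne
      have h2 := hτκ v0
      rw [hr, hr, Matrix.mulVec_smul] at h2
      have hr0 : r ≠ 0 := by
        rintro rfl
        have := hττ v0
        rw [hr, zero_smul] at this
        exact hv0 (by simpa using this.symm)
      have h3 := smul_right_injective _ hr0 h2
      have h5 : (κ - κb) *ᵥ v0 = 0 := by
        rw [Matrix.sub_mulVec]
        exact sub_eq_zero.mpr h3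
      exact hne (sub_eq_zero.mp (H99.fieldSub_mulVec_inj hK (K.sub_mem hκ hκbK) v0 hv0 h5)).symm
    by_cases h2 : (2 : F) = 0
    · -- t = 0 and κ² = d is a square in F
      have ht : t = 0 := by
        have h3 : t • (1 : Matrix (Fin 2) (Fin 2) F) = (2 : F) • κ := by
          rw [two_smul]
          nth_rewrite 1 [← h1]
          rw [hκb]
          abel
        rw [h2, zero_smul] at h3
        have := congrFun (congrFun h3 0) 0
        simpa using this
      have : CharP F 2 := CharTwo.of_one_ne_zero_of_two_eq_zero one_ne_zero h2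
      obtain ⟨e, he⟩ := FiniteField.isSquare_of_char_two (ringChar.eq_iff.mpr this) d
      have h3 : (κ - e • (1 : Matrix (Fin 2) (Fin 2) F)) * (κ - e • (1 : Matrix (Fin 2) (Fin 2) F)) = 0 := by
        have h4 : e • κ + e • κ = 0 := by rw [← add_smul, ← two_mul, h2, zero_mul, zero_smul]
        have h5 : d • (1 : Matrix (Fin 2) (Fin 2) F) + d • (1 : Matrix (Fin 2) (Fin 2) F) = 0 := by
          rw [← add_smul, ← two_mul, h2, zero_mul, zero_smul]
        rw [sub_mul, mul_sub, mul_sub, smul_mul_assoc, mul_smul_comm, one_mul, mul_one, smul_mul_smul_comm, mul_one, hdt,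
          ht, zero_smul, add_zero, ← he]
        calc _ = (d • (1 : Matrix (Fin 2) (Fin 2) F) + d • (1 : Matrix (Fin 2) (Fin 2) F)) - (e • κ + e • κ) := by abel
          _ = 0 := by rw [h4, h5, sub_zero]
      by_cases h7 : κ - e • (1 : Matrix (Fin 2) (Fin 2) F) = 0
      · exact hs _ (sub_eq_zero.mp h7)
      · obtain ⟨y, hy, hyy⟩ := hK.inv _ (K.sub_mem hκ (K.smul_mem K.one_mem _)) h7
        rw [hK.comm _ (K.sub_mem hκ (K.smul_mem K.one_mem _)) y hy] at hyy
        have h5 := congrArg (fun M => y * M) h3
        simp only [← mul_assoc, hyy, one_mul, mul_zero] at h5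
        exact h7 h5
    · apply hs (t / 2)
      have h3 : (2 : F) • κ = t • (1 : Matrix (Fin 2) (Fin 2) F) := by
        rw [two_smul]
        nth_rewrite 1 [← h1]
        rw [hκb]
        abel
      have h4 : κ = (2 : F)⁻¹ • ((2 : F) • κ) := by rw [smul_smul, inv_mul_cancel₀ h2, one_smul]
      rw [h4, h3, smul_smul]
      congr 1
      rw [div_eq_inv_mul]
  · intro g hg
    apply H99.mem_normalizer_of_conj
    intro k hk
    obtain ⟨a, b', rfl⟩ := hgen k hk
    refine ⟨a • (1 : Matrix (Fin 2) (Fin 2) F) + b' • κb, K.add_mem (K.smul_mem K.one_mem _) (K.smul_mem hκbK _), ?_⟩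
    apply Matrix.toLin'.injective
    apply LinearMap.ext
    intro v
    rw [Matrix.toLin'_apply, Matrix.toLin'_apply, ← Matrix.mulVec_mulVec, ← Matrix.mulVec_mulVec, hg, hg,
      Matrix.add_mulVec, Matrix.smul_mulVec, Matrix.one_mulVec, Matrix.smul_mulVec, map_add, map_smul, map_smul, hτκ,
      Matrix.add_mulVec, Matrix.smul_mulVec, Matrix.one_mulVec, Matrix.smul_mulVec]

/-- two non-scalar maps of a plane with the same scalar square are conjugate -/
lemma exists_conj_dim_two {F : Type*} [Field F] (f g : (Fin 2 → F) →ₗ[F] (Fin 2 → F)) (z : F)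
    (hf : ∀ v, f (f v) = z • v) (hg : ∀ v, g (g v) = z • v) (hfs : ∀ c : F, ¬ ∀ v, f v = c • v)
    (hgs : ∀ c : F, ¬ ∀ v, g v = c • v) :
    ∃ e : (Fin 2 → F) ≃ₗ[F] (Fin 2 → F), ∀ v, e (g v) = f (e v) := by
  have key : ∀ f : (Fin 2 → F) →ₗ[F] (Fin 2 → F), (∀ v, f (f v) = z • v) → (∀ c : F, ¬ ∀ v, f v = c • v) →
      ∃ b : Basis (Fin 2) F (Fin 2 → F), f (b 0) = b 1 ∧ f (b 1) = z • b 0 := by
    intro f hf hfs
    have hex : ∃ v, ∀ c : F, f v ≠ c • v := by
      by_contra hcon
      push Not at hcon
      choose c hc using hcon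
      have hsc : ∀ u v : Fin 2 → F, u ≠ 0 → v ≠ 0 → c u = c v := by
        intro u v hu hv
        by_cases hli : ∃ a : F, a • u = v
        · obtain ⟨a, rfl⟩ := hli
          have h1 := hc (a • u)
          rw [map_smul, hc u, smul_smul, smul_smul] at h1
          have h2 : a * c u = c (a • u) * a := smul_left_injective F hu h1
          have ha : a ≠ 0 := by
            rintro rfl
            exact hv (zero_smul F u)
          have h3 : a * (c u - c (a • u)) = 0 := by linear_combination h2
          exact sub_eq_zero.mp ((mul_eq_zero.mp h3).resolve_left ha)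
        · push Not at hli
          have hli2 : LinearIndependent F ![u, v] := (LinearIndependent.pair_iff' hu).mpr hli
          have h1 := hc (u + v)
          rw [map_add, hc u, hc v, smul_add] at h1
          have h2 : (c u - c (u + v)) • u + (c v - c (u + v)) • v = 0 := by
            rw [sub_smul, sub_smul]
            have : c u • u + c v • v - (c (u + v) • u + c (u + v) • v) = 0 := by rw [h1, sub_self]
            rw [← this]
            abel
          obtain ⟨h3, h4⟩ := LinearIndependent.pair_iff.mp hli2 _ _ h2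
          rw [sub_eq_zero.mp h3, sub_eq_zero.mp h4]
      have hone : (Pi.single 0 1 : Fin 2 → F) ≠ 0 := by
        intro h
        have := congrFun h 0
        simp at this
      apply hfs (c (Pi.single 0 1))
      intro v
      by_cases hv : v = 0
      · rw [hv, map_zero, smul_zero]
      · rw [hsc _ v hone hv]
        exact hc v
    obtain ⟨v, hv⟩ := hex
    have hv0 : v ≠ 0 := by
      rintro rfl
      exact hv 0 (by simp)
    have hli : LinearIndependent F ![v, f v] := by
      rw [LinearIndependent.pair_iff' hv0]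
      intro a h
      exact hv a h.symm
    refine ⟨basisOfLinearIndependentOfCardEqFinrank hli (by simp), ?_, ?_⟩
    · simp
    · simp [hf]
  obtain ⟨b, h1, h2⟩ := key f hf hfs
  obtain ⟨b', h1', h2'⟩ := key g hg hgs
  refine ⟨b'.equiv b (Equiv.refl _), ?_⟩
  have h3 : (b'.equiv b (Equiv.refl _)).toLinearMap ∘ₗ g = f ∘ₗ (b'.equiv b (Equiv.refl _)).toLinearMap := by
    apply b'.ext
    intro i
    fin_cases i
    · simp only [Fin.zero_eta, LinearMap.comp_apply, LinearEquiv.coe_coe, h1', Basis.equiv_apply, Equiv.refl_apply, h1]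
    · simp only [Fin.mk_one, LinearMap.comp_apply, LinearEquiv.coe_coe, h2', map_smul, Basis.equiv_apply, Equiv.refl_apply, h2]
  intro v
  exact LinearMap.congr_fun h3 v

/-- Involutions of PSL_n(q) and extension-field subgroups of degree 2. Here `T = PSL_n(F)` for a field `F` with `q = p^f` elements (`n ≥ 2`, `(n, q) ≠ (2, 2), (2, 3)`), `k` is a prime dividing `n`, `K` is a subalgebra of the `n × n` matrices that is a field of degree `k` over `F` (an extension-field structure F_{q^k} on `F^n`), and `H` is the subgroup of matrices of determinant 1 normalizing `K` — a subgroup of type GL_{n/k}(q^k) (maximal except in some small cases; maximality is not assumed); Ω is the set of cosets of `H` in `T`, so an element of `T` of prime order `r` (a matrix `x` of determinant 1 with `x^r` scalar, `x` not scalar) fixes a point of Ω when some conjugate of `x` by a matrix of determinant 1 normalizes `K`. Take `k = 2` and suppose the index of `H` is even. Then every involution of `T` is conjugate in `T` into `H` if and only if `n = 2`, or `q` is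 odd and `(q − 1)_2 ≤ (n)_2`. -/
theorem result {F : Type*} [Field F] [Fintype F] {p : ℕ} [Fact p.Prime] [CharP F p] {q : ℕ} (hq : Fintype.card F = q)
    (n : ℕ) (hn : 2 ≤ n) (hT : (n, q) ≠ (2, 2) ∧ (n, q) ≠ (2, 3))
    (k : ℕ) (hk : k.Prime) (hkn : k ∣ n) (K : Subalgebra F (Matrix (Fin n) (Fin n) F)) (hK : Cfsg.Geo.IsFieldSubalgebra k K) (hk2 : k = 2) (hΩ : 2 ∣ ((Cfsg.Geo.subalgebraNormalizer K).comap (Matrix.SpecialLinearGroup.toGL : Matrix.SpecialLinearGroup (Fin n) F →* GL (Fin n) F)).index) :
    (∀ x : Matrix.SpecialLinearGroup (Fin n) F,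
      (∃ z : F, ((x ^ 2 : Matrix.SpecialLinearGroup (Fin n) F) : Matrix (Fin n) (Fin n) F) = z • (1 : Matrix (Fin n) (Fin n) F)) →
      (∀ z : F, (x : Matrix (Fin n) (Fin n) F) ≠ z • (1 : Matrix (Fin n) (Fin n) F)) →
      ∃ P : Matrix.SpecialLinearGroup (Fin n) F, P⁻¹ * x * P ∈ ((Cfsg.Geo.subalgebraNormalizer K).comap (Matrix.SpecialLinearGroup.toGL : Matrix.SpecialLinearGroup (Fin n) F →* GL (Fin n) F))) ↔
    (n = 2 ∨ (Odd q ∧ padicValNat 2 (q - 1) ≤ padicValNat 2 n)) := by
  subst hk2
  subst hq
  have hn0 : n ≠ 0 := by omega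
  have hpos : 0 < n := by omega
  constructor
  · intro hall
    by_cases hn2 : n = 2
    · exact Or.inl hn2
    right
    have hn3 : 3 ≤ n := by omega
    -- a non-example from a rank one perturbation
    have key : ∀ (x : Matrix.SpecialLinearGroup (Fin n) F) (w z : F) (φ : (Fin n → F) →ₗ[F] F) (u : Fin n → F),
        w ≠ 0 → φ ≠ 0 → u ≠ 0 → (x : Matrix (Fin n) (Fin n) F) ^ 2 = z • (1 : Matrix (Fin n) (Fin n) F) →
        (∀ v, (x : Matrix (Fin n) (Fin n) F) *ᵥ v = w • v + φ v • u) → False := by
      intro x w z φ u hw hφ hu hz hx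
      obtain ⟨P, hP⟩ := hall x ⟨z, by rw [Matrix.SpecialLinearGroup.coe_pow]; exact hz⟩ (by
        intro c hc
        have h1 : ∃ v, φ v = 0 ∧ v ≠ 0 := by
          have hker : LinearMap.ker φ ≠ ⊥ := by
            apply LinearMap.ker_ne_bot_of_finrank_lt
            simp only [Module.finrank_fin_fun, Module.finrank_self]
            omega
          obtain ⟨v, hv, hv0⟩ := Submodule.exists_mem_ne_zero_of_ne_bot hker
          exact ⟨v, hv, hv0⟩
        obtain ⟨v, hv, hv0⟩ := h1
        have h2 := hx v
        rw [hc, hv, zero_smul, add_zero, Matrix.smul_mulVec, Matrix.one_mulVec] at h2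
        have hcw : c = w := smul_left_injective F hv0 h2
        apply hφ
        apply LinearMap.ext
        intro v'
        have h3 := hx v'
        rw [hc, hcw, Matrix.smul_mulVec, Matrix.one_mulVec] at h3
        have h4 : φ v' • u = 0 := by
          have := add_eq_left.mp h3.symm
          exact this
        exact (smul_eq_zero.mp h4).resolve_right hu)
      rw [Subgroup.mem_comap] at hP
      set Pm : Matrix (Fin n) (Fin n) F := (P : Matrix (Fin n) (Fin n) F) with hPm
      set Pi' : Matrix (Fin n) (Fin n) F := ((P⁻¹ : Matrix.SpecialLinearGroup (Fin n) F) : Matrix (Fin n) (Fin n) F) with hPi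
      have hPP : Pi' * Pm = 1 := by
        rw [hPm, hPi, ← Matrix.SpecialLinearGroup.coe_mul, inv_mul_cancel, Matrix.SpecialLinearGroup.coe_one]
      have hPP' : Pm * Pi' = 1 := by
        rw [hPm, hPi, ← Matrix.SpecialLinearGroup.coe_mul, mul_inv_cancel, Matrix.SpecialLinearGroup.coe_one]
      refine H99.not_normalize_rankOne hn3 hK _ hP w hw (φ ∘ₗ Matrix.toLin' Pm) (Pi' *ᵥ u) ?_ ?_ ?_
      · intro h
        apply hφ
        apply LinearMap.ext
        intro v
        have h1 := LinearMap.congr_fun h (Pi' *ᵥ v)
        simp only [LinearMap.comp_apply, Matrix.toLin'_apply, Matrix.mulVec_mulVec, hPP', Matrix.one_mulVec] at h1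
        exact h1
      · intro h
        apply hu
        have := congrArg (fun v => Pm *ᵥ v) h
        simpa [Matrix.mulVec_mulVec, hPP'] using this
      · intro v
        change ((P⁻¹ * x * P : Matrix.SpecialLinearGroup (Fin n) F) : Matrix (Fin n) (Fin n) F) *ᵥ v = _
        rw [Matrix.SpecialLinearGroup.coe_mul, Matrix.SpecialLinearGroup.coe_mul, ← Matrix.mulVec_mulVec,
          ← Matrix.mulVec_mulVec, hx, Matrix.mulVec_add, Matrix.mulVec_smul, Matrix.mulVec_smul, Matrix.mulVec_mulVec]
        rw [← hPm, ← hPi, hPP, Matrix.one_mulVec]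
        rfl
    have hcard := Fintype.one_lt_card (α := F)
    have hodd : Odd (Fintype.card F) := by
      by_contra hcon
      rw [Nat.not_odd_iff_even] at hcon
      have h2 : (2 : F) = 0 := by
        obtain ⟨k, _, hk⟩ := FiniteField.card F p
        rw [hk] at hcon
        have : p = 2 := (Nat.Prime.even_iff Fact.out).mp (Nat.even_pow.mp hcon).1
        subst this
        exact_mod_cast CharP.cast_eq_zero F 2
      set i0 : Fin n := ⟨0, hpos⟩ with hi0
      set i1 : Fin n := ⟨1, by omega⟩ with hi1
      have hne : i0 ≠ i1 := by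
        rw [hi0, hi1]; intro h; simp at h
      obtain ⟨X, hX⟩ : ∃ X : Matrix.SpecialLinearGroup (Fin n) F,
          (X : Matrix (Fin n) (Fin n) F) = Matrix.transvection i0 i1 1 :=
        ⟨⟨Matrix.transvection i0 i1 1, Matrix.det_transvection_of_ne i0 i1 hne 1⟩, rfl⟩
      refine key X 1 1 (LinearMap.proj i1) (Pi.single i0 1) one_ne_zero ?_ ?_ ?_ ?_
      · intro h
        have := LinearMap.congr_fun h (Pi.single i1 1)
        simp at this
      · intro h
        have := congrFun h i0
        simp at this
      · rw [hX, pow_two, Matrix.transvection_mul_transvection_same (h := hne), one_add_one_eq_two, h2, one_smul]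
        simp [Matrix.transvection]
      · intro v
        rw [hX, Matrix.transvection, Matrix.add_mulVec, Matrix.one_mulVec, one_smul]
        congr 1
        ext j
        simp only [Matrix.mulVec, dotProduct, Matrix.single_apply, LinearMap.proj_apply, Pi.smul_apply, smul_eq_mul]
        by_cases hj : i0 = j
        · subst hj
          simp
        · simp [hj, Ne.symm hj]
    refine ⟨hodd, ?_⟩
    by_contra hv
    push Not at hv
    have h2 : (2 : F) ≠ 0 := H99.two_ne_zero_of_odd hodd
    obtain ⟨w, hw⟩ := H99.exists_pow_eq_neg_one hn0 hodd hv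
    have hw0 : w ≠ 0 := by
      rintro rfl
      rw [zero_pow hn0] at hw
      exact one_ne_zero (neg_eq_zero.mp hw.symm)
    set i0 : Fin n := ⟨0, by omega⟩ with hi0
    set d : Fin n → F := fun i => if i = i0 then -w else w with hd
    have hdet : (Matrix.diagonal d).det = 1 := by
      rw [Matrix.det_diagonal, ← Finset.mul_prod_erase _ _ (Finset.mem_univ i0)]
      rw [Finset.prod_congr rfl (g := fun _ => w)]
      · rw [Finset.prod_const, Finset.card_erase_of_mem (Finset.mem_univ _), Finset.card_univ, Fintype.card_fin]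
        simp only [hd, if_true]
        rw [neg_mul, ← pow_succ', Nat.sub_add_cancel (by omega), hw, neg_neg]
      · intro i hi
        simp only [hd, if_neg (Finset.mem_erase.mp hi).1]
    obtain ⟨X0, hX0⟩ : ∃ X0 : Matrix.SpecialLinearGroup (Fin n) F, (X0 : Matrix (Fin n) (Fin n) F) = Matrix.diagonal d :=
      ⟨⟨Matrix.diagonal d, hdet⟩, rfl⟩
    refine key X0 w (w * w) ((-(2 * w)) • LinearMap.proj i0) (Pi.single i0 1) hw0 ?_ ?_ ?_ ?_
    · intro h
      have := LinearMap.congr_fun h (Pi.single i0 1)
      simp only [LinearMap.smul_apply, LinearMap.proj_apply, Pi.single_eq_same, smul_eq_mul, mul_one,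
        LinearMap.zero_apply, neg_eq_zero] at this
      exact (mul_ne_zero h2 hw0) this
    · intro h
      have := congrFun h i0
      simp at this
    · rw [hX0, Matrix.diagonal_pow, ← Matrix.diagonal_one, ← Matrix.diagonal_smul]
      congr 1
      funext i
      simp only [Pi.pow_apply, Pi.smul_apply, smul_eq_mul, mul_one, hd]
      split_ifs <;> ring
    · intro v
      rw [hX0]
      ext j
      rw [Matrix.mulVec_diagonal]
      by_cases hj : j = i0
      · subst hj
        simp [hd]
        ring
      · simp [hd, hj]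
  · intro hor x hx hxs
    obtain ⟨z, hz⟩ := hx
    rw [Matrix.SpecialLinearGroup.coe_pow] at hz
    have hz0 : z ≠ 0 := by
      rintro rfl
      have : Nonempty (Fin n) := ⟨⟨0, by omega⟩⟩
      have h3 := congrArg Matrix.det hz
      rw [Matrix.det_pow, x.det_coe, one_pow, zero_smul, Matrix.det_zero] at h3
      exact one_ne_zero h3
    have hcs := H99.centSurj_of_sq_eq hpos _ z hz0 hz
    have hf := sq_toLin _ z hz
    set X := Matrix.toLin' (x : Matrix (Fin n) (Fin n) F) with hX
    rcases hor with hn2 | ⟨hodd, hv⟩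
    · subst hn2
      have hXs : ∀ c : F, ¬ ∀ v, X v = c • v := by
        intro c hc
        apply hxs c
        apply Matrix.toLin'.injective
        apply LinearMap.ext
        intro v
        rw [← hX, hc]
        simp
      have hz1 : z = -1 := by
        have h1 := Matrix.det_fin_two (x : Matrix (Fin 2) (Fin 2) F)
        rw [x.det_coe] at h1
        have h00 := congrFun (congrFun hz 0) 0
        have h01 := congrFun (congrFun hz 0) 1
        have h10 := congrFun (congrFun hz 1) 0
        have h11 := congrFun (congrFun hz 1) 1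
        simp only [pow_two, Matrix.mul_apply, Fin.sum_univ_two, Matrix.smul_apply, Matrix.one_apply_eq, smul_eq_mul,
          mul_one, Matrix.one_apply_ne (show (0 : Fin 2) ≠ 1 by decide), Matrix.one_apply_ne (show (1 : Fin 2) ≠ 0 by decide),
          mul_zero] at h00 h01 h10 h11
        set a := (x : Matrix (Fin 2) (Fin 2) F) 0 0
        set b := (x : Matrix (Fin 2) (Fin 2) F) 0 1
        set c := (x : Matrix (Fin 2) (Fin 2) F) 1 0
        set d := (x : Matrix (Fin 2) (Fin 2) F) 1 1
        by_cases had : a + d = 0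
        · linear_combination (-1 : F) * h00 + h1 + a * had
        · exfalso
          have hb : b = 0 := by
            have : b * (a + d) = 0 := by linear_combination h01
            exact (mul_eq_zero.mp this).resolve_right had
          have hc : c = 0 := by
            have : c * (a + d) = 0 := by linear_combination h10
            exact (mul_eq_zero.mp this).resolve_right had
          have hadd : a = d := by
            have : (a - d) * (a + d) = 0 := by
              linear_combination h00 - h11
            exact sub_eq_zero.mp ((mul_eq_zero.mp this).resolve_right had)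
          apply hxs a
          ext i j
          fin_cases i <;> fin_cases j
          · simp [a]
          · simpa using hb
          · simpa using hc
          · simpa [a] using hadd.symm
      subst hz1
      obtain ⟨τ, h1, h2, h3⟩ := exists_norm_invol hK
      obtain ⟨e, he⟩ := exists_conj_dim_two X τ (-1) hf h1 hXs h2
      exact H99.exists_conj_mem_comap' x hcs _ τ h3 e he
    · have h2 : (2 : F) ≠ 0 := H99.two_ne_zero_of_odd hodd
      obtain ⟨κ, hκ, u, hu, hus, hgen⟩ := H99.quadSub_exists_sq hpos h2 hK
      have hκu : ∀ v, Matrix.toLin' κ (Matrix.toLin' κ v) = u • v := sq_toLin κ u (by rw [pow_two]; exact hu)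
      by_cases hzs : ∀ w, w * w ≠ z
      · obtain ⟨s, hs⟩ := exists_sq_ratio hodd u z hus hzs
        have hs0 : s ≠ 0 := by
          rintro rfl
          apply hz0
          rw [hs]; ring
        have hζ : ∀ v, Matrix.toLin' (s • κ) (Matrix.toLin' (s • κ) v) = z • v := by
          intro v
          rw [map_smul, LinearMap.smul_apply, LinearMap.smul_apply, map_smul, hκu, smul_smul, smul_smul, hs]
        obtain ⟨κ₁, _, _, b, hb1, hb2⟩ := H99.sq_nonsquare_form z hzs (Fin n → F) X hf
        obtain ⟨κ₂, _, _, b', hb1', hb2'⟩ := H99.sq_nonsquare_form z hzs (Fin n → F) (Matrix.toLin' (s • κ)) hζ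
        have hcard : Fintype.card κ₂ = Fintype.card κ₁ := by
          have h4 := finrank_eq_card_basis b
          have h5 := finrank_eq_card_basis b'
          rw [h4, Fintype.card_sum, Fintype.card_sum] at h5
          omega
        let ε : κ₂ ≃ κ₁ := Fintype.equivOfCardEq hcard
        let e : (Fin n → F) ≃ₗ[F] (Fin n → F) := b'.equiv b (Equiv.sumCongr ε ε)
        refine H99.exists_conj_mem_comap' x hcs _ (Matrix.toLin' (s • κ)) ?_ e ?_
        · intro g hg
          apply H99.mem_normalizer_of_conj
          intro k hk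
          have hgk : (g : Matrix (Fin n) (Fin n) F) = s • κ := by
            apply Matrix.toLin'.injective
            apply LinearMap.ext
            intro v
            rw [Matrix.toLin'_apply]
            exact hg v
          exact ⟨k, hk, by rw [hgk]; exact hK.comm _ (K.smul_mem hκ s) k hk⟩
        · have h3 : e.toLinearMap ∘ₗ (Matrix.toLin' (s • κ)) = X ∘ₗ e.toLinearMap := by
            apply b'.ext
            rintro (i | i)
            · simp only [LinearMap.comp_apply, LinearEquiv.coe_coe, hb1', e, Basis.equiv_apply, Equiv.sumCongr_apply,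
                Sum.map_inl, Sum.map_inr, hb1]
            · rw [LinearMap.comp_apply, LinearMap.comp_apply, hb2', LinearEquiv.coe_coe, map_smul]
              simp only [e, Basis.equiv_apply, Equiv.sumCongr_apply, Sum.map_inl, Sum.map_inr, hb2]
          exact fun v => LinearMap.congr_fun h3 v
      · push Not at hzs
        obtain ⟨w, hw⟩ := hzs
        have hw0 : w ≠ 0 := by
          rintro rfl
          exact hz0 (by rw [← hw]; simp)
        obtain ⟨a, a', b, h3, h4⟩ := H99.sq_eigen_form z w hw hw0 h2 (Fin n → F) _ hf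
        have hdet : w ^ a * (-w) ^ a' = 1 := by
          have := H99.det_of_eigenbasis b X (Sum.elim (fun _ => w) (fun _ => -w)) (by
            rintro (i | i)
            · exact h3 i
            · exact h4 i)
          rw [hX, LinearMap.det_toLin', x.det_coe, Fintype.prod_sum_type] at this
          simpa using this.symm
        have haa : a + a' = n := by
          have := finrank_eq_card_basis b
          simpa using this.symm
        have ha' : Even a' := by
          by_contra hcon
          rw [Nat.not_even_iff_odd] at hcon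
          rw [neg_pow, hcon.neg_one_pow] at hdet
          apply H99.pow_ne_neg_one hn0 hodd hv w
          rw [← haa, pow_add]
          linear_combination -hdet
        have ha : Even a := by
          have he : Even n := even_iff_two_dvd.mpr hkn
          rw [← haa] at he
          exact (Nat.even_add.mp he).mpr ha'
        obtain ⟨k, rfl⟩ := ha
        obtain ⟨l, rfl⟩ := ha'
        let e0 : Fin (k + k) ⊕ Fin (l + l) ≃ (Fin k ⊕ Fin l) ⊕ (Fin k ⊕ Fin l) :=
          (Equiv.sumCongr finSumFinEquiv.symm finSumFinEquiv.symm).trans (Equiv.sumSumSumComm _ _ _ _)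
        set bx := b.reindex e0 with hbx
        set ε : Fin k ⊕ Fin l → F := Sum.elim (fun _ => w) (fun _ => -w) with hε
        have hxl : ∀ i, X (bx (Sum.inl i)) = ε i • bx (Sum.inl i) := by
          rintro (i | i)
          · rw [hbx, Basis.reindex_apply]
            exact h3 _
          · rw [hbx, Basis.reindex_apply]
            exact h4 _
        have hxr : ∀ i, X (bx (Sum.inr i)) = ε i • bx (Sum.inr i) := by
          rintro (i | i)
          · rw [hbx, Basis.reindex_apply]
            exact h3 _
          · rw [hbx, Basis.reindex_apply]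
            exact h4 _
        obtain ⟨κ₂, _, _, b', hb1', hb2'⟩ := H99.sq_nonsquare_form u hus (Fin n → F) (Matrix.toLin' κ) hκu
        have hcard : Fintype.card κ₂ = Fintype.card (Fin k ⊕ Fin l) := by
          have h4 := finrank_eq_card_basis bx
          have h5 := finrank_eq_card_basis b'
          rw [h4] at h5
          simp only [Fintype.card_sum] at h5 ⊢
          omega
        let δ : κ₂ ≃ Fin k ⊕ Fin l := Fintype.equivOfCardEq hcard
        let e : (Fin n → F) ≃ₗ[F] (Fin n → F) := b'.equiv bx (Equiv.sumCongr δ δ)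
        let y : (Fin n → F) →ₗ[F] (Fin n → F) := b'.constr F
          (Sum.elim (fun i => ε (δ i) • b' (Sum.inl i)) (fun i => ε (δ i) • b' (Sum.inr i)))
        have hy1 : ∀ i, y (b' (Sum.inl i)) = ε (δ i) • b' (Sum.inl i) := fun i => by
          simp only [y, Basis.constr_basis, Sum.elim_inl]
        have hy2 : ∀ i, y (b' (Sum.inr i)) = ε (δ i) • b' (Sum.inr i) := fun i => by
          simp only [y, Basis.constr_basis, Sum.elim_inr]
        refine H99.exists_conj_mem_comap' x hcs _ y ?_ e ?_
        · intro g hg
          apply H99.mem_normalizer_of_conj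
          intro k' hk'
          refine ⟨k', hk', ?_⟩
          obtain ⟨c1, c2, rfl⟩ := hgen k' hk'
          have hgκ : (g : Matrix (Fin n) (Fin n) F) * κ = κ * (g : Matrix (Fin n) (Fin n) F) := by
            have h6 : y ∘ₗ Matrix.toLin' κ = Matrix.toLin' κ ∘ₗ y := by
              apply b'.ext
              rintro (i | i)
              · simp only [LinearMap.comp_apply, hb1', hy1, hy2, map_smul]
              · simp only [LinearMap.comp_apply, hb2', hy1, hy2, map_smul]
                rw [smul_comm]
            apply Matrix.toLin'.injective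
            apply LinearMap.ext
            intro v
            have h7 := LinearMap.congr_fun h6 v
            simp only [LinearMap.comp_apply, ← hg, Matrix.toLin'_apply] at h7
            rw [Matrix.toLin'_apply, Matrix.toLin'_apply, ← Matrix.mulVec_mulVec, ← Matrix.mulVec_mulVec, h7]
          rw [mul_add, add_mul, mul_smul_comm, mul_smul_comm, smul_mul_assoc, smul_mul_assoc, hgκ, mul_one, one_mul]
        · have h6 : e.toLinearMap ∘ₗ y = X ∘ₗ e.toLinearMap := by
            apply b'.ext
            rintro (i | i)
            · simp only [LinearMap.comp_apply, LinearEquiv.coe_coe, hy1, e, map_smul, Basis.equiv_apply, Equiv.sumCongr_apply,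
                Sum.map_inl, hxl]
            · simp only [LinearMap.comp_apply, LinearEquiv.coe_coe, hy2, e, map_smul, Basis.equiv_apply, Equiv.sumCongr_apply,
                Sum.map_inr, hxr]
          exact fun v => LinearMap.congr_fun h6 v

end Cfsg.Agent.S5969
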