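import Cfsg.Statements.S5970
import Cfsg.Agent.H99.Singer
import Cfsg.Agent.H99.OrderEq
import Cfsg.Agent.H99.SLConj

set_option autoImplicit false
open scoped MatrixGroups
open Cfsg

namespace Cfsg.Agent.S5970

open Polynomial Matrix

section
variable {F : Type*} [Field F] {n : ℕ} {K : Subalgebra F (Matrix (Fin n) (Fin n) F)}

/-- conjugates into the normalizer have small eigenspaces -/
theorem eigen_le_one (hn : n.Prime) (hK : Cfsg.Geo.IsFieldSubalgebra n K) (x P : Matrix.SpecialLinearGroup (Fin n) F)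
    (hxs : ∀ z : F, (x : Matrix (Fin n) (Fin n) F) ≠ z • (1 : Matrix (Fin n) (Fin n) F))
    (hP : P⁻¹ * x * P ∈ ((Cfsg.Geo.subalgebraNormalizer K).comap (Matrix.SpecialLinearGroup.toGL : Matrix.SpecialLinearGroup (Fin n) F →* GL (Fin n) F)))
    (l : F) (u v : Fin n → F) (hu0 : u ≠ 0) (hu : (x : Matrix (Fin n) (Fin n) F) *ᵥ u = l • u)
    (hv : (x : Matrix (Fin n) (Fin n) F) *ᵥ v = l • v) : ∃ c : F, v = c • u := by
  rw [Subgroup.mem_comap] at hP
  have hval : ((Matrix.SpecialLinearGroup.toGL (P⁻¹ * x * P) : GL (Fin n) F) : Matrix (Fin n) (Fin n) F)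
      = ((P⁻¹ : Matrix.SpecialLinearGroup (Fin n) F) : Matrix (Fin n) (Fin n) F) * x * P := by
    change ((P⁻¹ * x * P : Matrix.SpecialLinearGroup (Fin n) F) : Matrix (Fin n) (Fin n) F) = _
    rw [Matrix.SpecialLinearGroup.coe_mul, Matrix.SpecialLinearGroup.coe_mul]
  have hPP : (P : Matrix (Fin n) (Fin n) F) * ((P⁻¹ : Matrix.SpecialLinearGroup (Fin n) F) : Matrix (Fin n) (Fin n) F) = 1 := by
    rw [← Matrix.SpecialLinearGroup.coe_mul, mul_inv_cancel, Matrix.SpecialLinearGroup.coe_one]
  have hPP' : ((P⁻¹ : Matrix.SpecialLinearGroup (Fin n) F) : Matrix (Fin n) (Fin n) F) * (P : Matrix (Fin n) (Fin n) F) = 1 := by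
    rw [← Matrix.SpecialLinearGroup.coe_mul, inv_mul_cancel, Matrix.SpecialLinearGroup.coe_one]
  set P' := ((P⁻¹ : Matrix.SpecialLinearGroup (Fin n) F) : Matrix (Fin n) (Fin n) F) with hP'
  have key : ∀ w : Fin n → F, (x : Matrix (Fin n) (Fin n) F) *ᵥ w = l • w →
      ((Matrix.SpecialLinearGroup.toGL (P⁻¹ * x * P) : GL (Fin n) F) : Matrix (Fin n) (Fin n) F) *ᵥ (P' *ᵥ w) = l • (P' *ᵥ w) := by
    intro w hw
    rw [hval, Matrix.mulVec_mulVec, mul_assoc, hPP, mul_one, ← Matrix.mulVec_mulVec, hw, Matrix.mulVec_smul]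
  obtain ⟨c, hc⟩ := H99.singer_eigenspace hn hK _ hP (by
    intro c hc
    apply hxs c
    rw [hval] at hc
    have h1 : (P : Matrix (Fin n) (Fin n) F) * (P' * (x : Matrix (Fin n) (Fin n) F) * P) * P' = x := by
      rw [mul_assoc, mul_assoc, hPP, mul_one, ← mul_assoc, hPP, one_mul]
    rw [← h1, hc]
    simp [hPP]) l (P' *ᵥ u) (P' *ᵥ v) (by
      intro h0
      apply hu0
      have h1 : (P : Matrix (Fin n) (Fin n) F) *ᵥ (P' *ᵥ u) = 0 := by rw [h0, Matrix.mulVec_zero]
      rwa [Matrix.mulVec_mulVec, hPP, Matrix.one_mulVec] at h1) (key u hu) (key v hv)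
  refine ⟨c, ?_⟩
  have h1 := congrArg (fun w => (P : Matrix (Fin n) (Fin n) F) *ᵥ w) hc
  simp only [Matrix.mulVec_smul, Matrix.mulVec_mulVec, hPP, Matrix.one_mulVec] at h1
  exact h1

/-- if `w⁻¹ x` is conjugate to `t` then `x` is conjugate in `SL` into `N(K)` -/
theorem conj_into [Fintype F] (hn : 0 < n) {p : ℕ} [Fact p.Prime] [CharP F p] (r : ℕ) [Fact r.Prime] (hrp : r ≠ p)
    (x : Matrix.SpecialLinearGroup (Fin n) F) (z : F) (hz0 : z ≠ 0)
    (hz : ((x ^ r : Matrix.SpecialLinearGroup (Fin n) F) : Matrix (Fin n) (Fin n) F) = z • (1 : Matrix (Fin n) (Fin n) F))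
    (w : F) (hw : w ≠ 0) (t : GL (Fin n) F) (ht : t ∈ Cfsg.Geo.subalgebraNormalizer K)
    (e : (Fin n → F) ≃ₗ[F] (Fin n → F)) (he : ∀ v, e ((w⁻¹ • Matrix.toLin' (x : Matrix (Fin n) (Fin n) F)) v)
      = Matrix.toLin' (t : Matrix (Fin n) (Fin n) F) (e v)) :
    ∃ P : Matrix.SpecialLinearGroup (Fin n) F, P⁻¹ * x * P ∈ ((Cfsg.Geo.subalgebraNormalizer K).comap (Matrix.SpecialLinearGroup.toGL : Matrix.SpecialLinearGroup (Fin n) F →* GL (Fin n) F)) := by
  have hcs : H99.CentSurj (x : Matrix (Fin n) (Fin n) F) := by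
    apply H99.centSurj_of_pow_eq hn _ r z hz0 (H99.natCast_ne_zero_of_ne (Fact.out : r.Prime) hrp)
    rw [← Matrix.SpecialLinearGroup.coe_pow, hz]
  let y : GL (Fin n) F := ⟨w • (t : Matrix (Fin n) (Fin n) F), w⁻¹ • ((t⁻¹ : GL (Fin n) F) : Matrix (Fin n) (Fin n) F), by
    rw [smul_mul_assoc, mul_smul_comm, smul_smul, mul_inv_cancel₀ hw, one_smul, ← Units.val_mul, mul_inv_cancel, Units.val_one], by
    rw [smul_mul_assoc, mul_smul_comm, smul_smul, inv_mul_cancel₀ hw, one_smul, ← Units.val_mul, inv_mul_cancel, Units.val_one]⟩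
  have hyt : y ∈ Cfsg.Geo.subalgebraNormalizer K := by
    intro k
    rw [ht k]
    have h1 : (y : Matrix (Fin n) (Fin n) F) = w • (t : Matrix (Fin n) (Fin n) F) := rfl
    have h2 : ((y⁻¹ : GL (Fin n) F) : Matrix (Fin n) (Fin n) F) = w⁻¹ • ((t⁻¹ : GL (Fin n) F) : Matrix (Fin n) (Fin n) F) := rfl
    rw [h1, h2, smul_mul_assoc, smul_mul_assoc, mul_smul_comm, smul_smul, mul_inv_cancel₀ hw, one_smul]
  refine H99.exists_conj_mem_comap x hcs _ _ hyt e.symm ?_
  intro v
  have h1 := he (e.symm v)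
  rw [LinearEquiv.apply_symm_apply, LinearMap.smul_apply, map_smul, Matrix.toLin'_apply, Matrix.toLin'_apply] at h1
  have h2 : (y : Matrix (Fin n) (Fin n) F) = w • (t : Matrix (Fin n) (Fin n) F) := rfl
  rw [h2, Matrix.smul_mulVec, ← h1, smul_smul, mul_inv_cancel₀ hw, one_smul, LinearEquiv.symm_apply_apply]

end

/-- Elements of order `n` of PSL_n(q), `n` prime, and the normalizer of a Singer cycle. Here `T = PSL_n(F)` for a field `F` with `q = p^f` elements (`n ≥ 2`, `(n, q) ≠ (2, 2), (2, 3)`), `k` is a prime dividing `n`, `K` is a subalgebra of the `n × n` matrices that is a field of degree `k` over `F` (an extension-field structure F_{q^k} on `F^n`), and `H` is the subgroup of matrices of determinant 1 normalizing `K` — a subgroup of type GL_{n/k}(q^k) (maximal except in some small cases; maximality is not assumed); Ω is the set of cosets of `H` in `T`, so an element of `T` of prime order `r` (a matrix `x` of determinant 1 with `x^r` scalar, `x` not scalar) fixes a point of Ω when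 some conjugate of `x` by a matrix of determinant 1 normalizes `K`. Take `k = n > 3` prime with `n ≠ p` (so `H` is the normalizer of a Singer cycle), and suppose `n` divides the index of `H`. Then every element of `T` of order `n` is conjugate in `T` into `H` if and only if the multiplicative order of `q` modulo `n` is `n − 1`. -/
theorem result {F : Type*} [Field F] [Fintype F] {p : ℕ} [Fact p.Prime] [CharP F p] {q : ℕ} (hq : Fintype.card F = q)
    (n : ℕ) (hn : 2 ≤ n) (hT : (n, q) ≠ (2, 2) ∧ (n, q) ≠ (2, 3))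
    (k : ℕ) (hk : k.Prime) (hkn : k ∣ n) (K : Subalgebra F (Matrix (Fin n) (Fin n) F)) (hK : Cfsg.Geo.IsFieldSubalgebra k K) (hkn' : k = n) (hn3 : 3 < n) (hnp : n ≠ p) (hΩ : n ∣ ((Cfsg.Geo.subalgebraNormalizer K).comap (Matrix.SpecialLinearGroup.toGL : Matrix.SpecialLinearGroup (Fin n) F →* GL (Fin n) F)).index) :
    (∀ x : Matrix.SpecialLinearGroup (Fin n) F,
      (∃ z : F, ((x ^ n : Matrix.SpecialLinearGroup (Fin n) F) : Matrix (Fin n) (Fin n) F) = z • (1 : Matrix (Fin n) (Fin n) F)) →
      (∀ z : F, (x : Matrix (Fin n) (Fin n) F) ≠ z • (1 : Matrix (Fin n) (Fin n) F)) →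
      ∃ P : Matrix.SpecialLinearGroup (Fin n) F, P⁻¹ * x * P ∈ ((Cfsg.Geo.subalgebraNormalizer K).comap (Matrix.SpecialLinearGroup.toGL : Matrix.SpecialLinearGroup (Fin n) F →* GL (Fin n) F))) ↔
    orderOf (q : ZMod n) = n - 1 := by
  subst hq
  subst hkn'
  have : Fact k.Prime := ⟨hk⟩
  have hfn : Module.finrank F (Fin k → F) = k := by simp
  have hkq : ¬ k ∣ Fintype.card F := H99.prime_not_dvd_card hnp
  have hi0 := H99.orderOf_pos_of_not_dvd hkq
  have hidvd := H99.orderOf_dvd_sub_one hkq
  constructor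
  · intro H
    by_contra hne
    rcases Nat.lt_or_ge 1 (orderOf ((Fintype.card F : ℕ) : ZMod k)) with h2 | h2
    · -- one nontrivial block
      have hnd : ¬ k ∣ Fintype.card F - 1 := by
        rw [H99.dvd_sub_one_iff_orderOf]
        omega
      obtain ⟨c, hc⟩ := hidvd
      have hc2 : 2 ≤ c := by
        by_contra hcon
        have : c = 0 ∨ c = 1 := by omega
        rcases this with rfl | rfl
        · omega
        · apply hne
          omega
      have h3 : 2 * orderOf ((Fintype.card F : ℕ) : ZMod k) ≤ k - 1 := by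
        rw [hc, mul_comm]
        exact Nat.mul_le_mul_left _ hc2
      obtain ⟨x, hx1, hx2, hx3, hx4⟩ := H99.sl_exists_order_eq (n := k) (by omega) hnp hnd 1 one_pos (by omega)
      obtain ⟨P, hP⟩ := H x ⟨1, hx1⟩ hx2
      have hker : 2 ≤ Module.finrank F (LinearMap.ker (Matrix.toLin' (x : Matrix (Fin k) (Fin k) F) - 1)) := by omega
      obtain ⟨u, v, huv⟩ : ∃ u v : LinearMap.ker (Matrix.toLin' (x : Matrix (Fin k) (Fin k) F) - 1), LinearIndependent F ![u, v] := by
        obtain ⟨s, hs⟩ := exists_linearIndependent_of_le_finrank hker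
        refine ⟨s 0, s 1, ?_⟩
        have : ![s 0, s 1] = s := by
          funext j
          fin_cases j <;> rfl
        rw [this]
        exact hs
      have hmem : ∀ u : LinearMap.ker (Matrix.toLin' (x : Matrix (Fin k) (Fin k) F) - 1),
          (x : Matrix (Fin k) (Fin k) F) *ᵥ (u : Fin k → F) = (1 : F) • (u : Fin k → F) := by
        intro u
        have h4 := u.2
        rw [LinearMap.mem_ker, LinearMap.sub_apply, Module.End.one_apply, sub_eq_zero] at h4
        rw [one_smul]
        exact h4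
      have hu0 : (u : Fin k → F) ≠ 0 := by
        intro h0
        have := huv.ne_zero 0
        exact this (Subtype.ext h0)
      obtain ⟨c, hc⟩ := eigen_le_one hk hK x P hx2 hP 1 u v hu0 (hmem u) (hmem v)
      have h5 := LinearIndependent.pair_iff.mp huv c (-1) (by
        apply Subtype.ext
        change c • (u : Fin k → F) + (-1 : F) • (v : Fin k → F) = 0
        rw [hc]
        module)
      exact neg_ne_zero.mpr one_ne_zero h5.2
    · -- diagonal element
      have hi1 : orderOf ((Fintype.card F : ℕ) : ZMod k) = 1 := by omega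
      obtain ⟨ζ, hζ1, hζ⟩ := H99.exists_prim_root (F := F) (r := k) (H99.dvd_sub_one_iff_orderOf.mpr hi1)
      have hζ0 : ζ ≠ 0 := by
        rintro rfl
        rw [zero_pow hk.ne_zero] at hζ
        exact zero_ne_one hζ
      let j0 : Fin k := ⟨0, by omega⟩
      let j1 : Fin k := ⟨1, by omega⟩
      let j2 : Fin k := ⟨2, by omega⟩
      let j3 : Fin k := ⟨3, by omega⟩
      have h01 : j0 ≠ j1 := by simp [j0, j1]
      have h02 : j2 ≠ j0 := by simp [j0, j2]
      have h12 : j2 ≠ j1 := by simp [j1, j2]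
      have h03 : j3 ≠ j0 := by simp [j0, j3]
      have h13 : j3 ≠ j1 := by simp [j1, j3]
      have h23 : j3 ≠ j2 := by simp [j2, j3]
      let c : Fin k → F := fun j => if j = j0 then ζ else if j = j1 then ζ⁻¹ else 1
      obtain ⟨x, hx1, hx2⟩ := H99.sl_exists_diag c (by
        rw [← Finset.mul_prod_erase Finset.univ c (Finset.mem_univ j0),
          ← Finset.mul_prod_erase (Finset.univ.erase j0) c (Finset.mem_erase.mpr ⟨h01.symm, Finset.mem_univ j1⟩)]
        rw [Finset.prod_eq_one (s := (Finset.univ.erase j0).erase j1) (by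
          intro j hj
          rw [Finset.mem_erase, Finset.mem_erase] at hj
          simp only [c]
          rw [if_neg hj.2.1, if_neg hj.1])]
        simp only [c, if_true]
        rw [if_neg h01.symm, mul_one, mul_inv_cancel₀ hζ0]) k 1 (by
          intro j
          simp only [c]
          split_ifs
          · exact hζ
          · rw [inv_pow, hζ, inv_one]
          · exact one_pow k)
      have hxs : ∀ z : F, (x : Matrix (Fin k) (Fin k) F) ≠ z • (1 : Matrix (Fin k) (Fin k) F) := by
        intro z hz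
        rw [hx1] at hz
        have h4 := congrFun (congrFun hz j0) j0
        have h5 := congrFun (congrFun hz j2) j2
        simp only [Matrix.diagonal_apply_eq, Matrix.smul_apply, Matrix.one_apply_eq, smul_eq_mul, mul_one, c, if_true] at h4 h5
        rw [if_neg h02, if_neg h12] at h5
        exact hζ1 (h4.trans h5.symm)
      obtain ⟨P, hP⟩ := H x ⟨1, hx2⟩ hxs
      have heig : ∀ j, j ≠ j0 → j ≠ j1 → (x : Matrix (Fin k) (Fin k) F) *ᵥ (Pi.single j 1) = (1 : F) • (Pi.single j 1 : Fin k → F) := by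
        intro j hj0 hj1
        rw [hx1]
        funext l
        rw [Matrix.mulVec_diagonal, Pi.smul_apply, smul_eq_mul, one_mul]
        by_cases hlj : l = j
        · subst hlj
          simp only [c]
          rw [if_neg hj0, if_neg hj1, one_mul]
        · rw [Pi.single_eq_of_ne hlj, mul_zero]
      obtain ⟨c', hc'⟩ := eigen_le_one hk hK x P hxs hP 1 (Pi.single j2 1) (Pi.single j3 1) (by
        intro h0
        have := congrFun h0 j2
        simp at this) (heig j2 h02 h12) (heig j3 h03 h13)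
      have h6 := congrFun hc' j3
      rw [Pi.single_eq_same, Pi.smul_apply, Pi.single_eq_of_ne h23, smul_zero] at h6
      exact one_ne_zero h6
  · intro hi x ⟨z, hz⟩ hxs
    have hnd : ¬ k ∣ Fintype.card F - 1 := by
      rw [H99.dvd_sub_one_iff_orderOf]
      omega
    have hz' := hz
    rw [Matrix.SpecialLinearGroup.coe_pow] at hz'
    have hz0 : z ≠ 0 := by
      rintro rfl
      have h1 := congrArg Matrix.det hz'
      have : Nonempty (Fin k) := ⟨⟨0, by omega⟩⟩
      rw [Matrix.det_pow, x.det_coe, one_pow, zero_smul, Matrix.det_zero] at h1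
      exact one_ne_zero h1
    rcases H99.exists_decomp_scalar (r := k) _ z hz0 (H99.toLin_pow_eq hz') with ⟨w, hw, hw0, hwf⟩ | ⟨-, hd, -⟩
    · obtain ⟨t, ht1, ht2, ht3⟩ := H99.exists_frobenius_elt (by omega) hK
      have hnes : ∀ (M : Matrix (Fin k) (Fin k) F) (a : F), a ≠ 0 → (∀ c : F, M ≠ c • (1 : Matrix (Fin k) (Fin k) F)) →
          a • Matrix.toLin' M ≠ 1 := by
        intro M a ha hM h
        apply hM a⁻¹
        apply Matrix.toLin'.injective
        rw [map_smul, Matrix.toLin'_one]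
        have h1 := congrArg (fun g => a⁻¹ • g) h
        simp only [smul_smul, inv_mul_cancel₀ ha, one_smul] at h1
        exact h1
      obtain ⟨e, he⟩ := H99.conj_of_order_eq_pred hnp (by omega) hi rfl _ _ hfn hwf ht2 (hnes _ _ (inv_ne_zero hw0) hxs)
        (by
          have := hnes _ 1 one_ne_zero ht3
          rwa [one_smul] at this)
      exact conj_into (by omega) k hnp x z hz0 hz w hw0 t ht1 e he
    · exact absurd hd hnd

end Cfsg.Agent.S5970
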