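import Cfsg.Statements.S5971
import Cfsg.Agent.S5970
import Cfsg.Agent.H4.CardSL

set_option autoImplicit false
open scoped MatrixGroups
open Cfsg

namespace Cfsg.Agent.S5971

open Polynomial Matrix

section
variable {F : Type*} [Field F] [Fintype F]

lemma nine_dvd {a b : ℕ} (h : 3 * b ∣ a) (h3 : 3 ∣ b) : 9 ∣ a := by
  obtain ⟨c, rfl⟩ := h3
  exact Dvd.dvd.trans ⟨c, by ring⟩ h

lemma nes {n : ℕ} (M : Matrix (Fin n) (Fin n) F) (a : F) (ha : a ≠ 0) (hM : ∀ c : F, M ≠ c • (1 : Matrix (Fin n) (Fin n) F)) :
    a • Matrix.toLin' M ≠ 1 := by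
  intro h
  apply hM a⁻¹
  apply Matrix.toLin'.injective
  rw [map_smul, Matrix.toLin'_one]
  have h1 := congrArg (fun g => a⁻¹ • g) h
  simp only [smul_smul, inv_mul_cancel₀ ha, one_smul] at h1
  exact h1

/-- determinant of the normalizing element -/
lemma root_eq_one (hnd : ¬ 3 ∣ Fintype.card F - 1) (u : F) (hu : u ^ 3 = 1) : u = 1 := by
  have hu0 : u ≠ 0 := by
    rintro rfl
    norm_num at hu
  have h1 : orderOf u ∣ 3 := orderOf_dvd_of_pow_eq_one hu
  have h2 : orderOf u ∣ Fintype.card F - 1 := orderOf_dvd_of_pow_eq_one (FiniteField.pow_card_sub_one_eq_one u hu0)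
  rcases (Nat.dvd_prime Nat.prime_three).mp h1 with h3 | h3
  · exact orderOf_eq_one_iff.mp h3
  · rw [h3] at h2
    exact absurd h2 hnd

/-- diagonal matrices with a repeated eigenvalue are not conjugate into the normalizer -/
lemma diag_not {K : Subalgebra F (Matrix (Fin 3) (Fin 3) F)} (hK : Cfsg.Geo.IsFieldSubalgebra 3 K)
    (x : Matrix.SpecialLinearGroup (Fin 3) F) (hxs : ∀ z : F, (x : Matrix (Fin 3) (Fin 3) F) ≠ z • (1 : Matrix (Fin 3) (Fin 3) F))
    (l : F) (u v : Fin 3 → F) (hu0 : u ≠ 0) (hu : (x : Matrix (Fin 3) (Fin 3) F) *ᵥ u = l • u)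
    (hv : (x : Matrix (Fin 3) (Fin 3) F) *ᵥ v = l • v) (huv : ∀ c : F, v ≠ c • u) :
    ¬ ∃ P : Matrix.SpecialLinearGroup (Fin 3) F, P⁻¹ * x * P ∈ ((Cfsg.Geo.subalgebraNormalizer K).comap (Matrix.SpecialLinearGroup.toGL : Matrix.SpecialLinearGroup (Fin 3) F →* GL (Fin 3) F)) := by
  rintro ⟨P, hP⟩
  obtain ⟨c, hc⟩ := S5970.eigen_le_one Nat.prime_three hK x P hxs hP l u v hu0 hu hv
  exact huv c hc

/-- three cube roots of unity: injectivity determines the fibres -/
lemma card_fiber_of_injective {c c' : Fin 3 → F} (hc : Function.Injective c) (hc' : Function.Injective c')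
    (h3 : ∀ j, c j ^ 3 = 1) (h3' : ∀ j, c' j ^ 3 = 1) (z : F) :
    Nat.card {j // c j = z} = Nat.card {j // c' j = z} := by
  classical
  have key : ∀ c : Fin 3 → F, Function.Injective c → (∀ j, c j ^ 3 = 1) →
      Nat.card {j // c j = z} = if z ^ 3 = 1 then 1 else 0 := by
    intro c hc h3
    split_ifs with hz
    · have h1 : z ∈ Finset.univ.image c := by
        have h2 : (Finset.univ.image c) = (Polynomial.nthRootsFinset 3 (1 : F)) := by
          apply Finset.eq_of_subset_of_card_le
          · intro y hy
            rw [Finset.mem_image] at hy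
            obtain ⟨j, _, rfl⟩ := hy
            rw [Polynomial.mem_nthRootsFinset (by norm_num)]
            exact h3 j
          · rw [Finset.card_image_of_injective _ hc, Finset.card_univ, Fintype.card_fin]
            unfold Polynomial.nthRootsFinset
            exact (Multiset.toFinset_card_le _).trans (Polynomial.card_nthRoots 3 1)
        rw [h2, Polynomial.mem_nthRootsFinset (by norm_num)]
        exact hz
      rw [Finset.mem_image] at h1
      obtain ⟨j, _, hj⟩ := h1
      have : Unique {j // c j = z} := ⟨⟨⟨j, hj⟩⟩, fun a => Subtype.ext (hc (a.2.trans hj.symm))⟩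
      exact Nat.card_unique
    · have : IsEmpty {j // c j = z} := ⟨fun a => hz (by rw [← a.2]; exact h3 _)⟩
      exact Nat.card_of_isEmpty
  rw [key c hc h3, key c' hc' h3']

end

/-- Elements of order 3 of PSL_3(q) and the normalizer of a Singer cycle. Here `T = PSL_n(F)` for a field `F` with `q = p^f` elements (`n ≥ 2`, `(n, q) ≠ (2, 2), (2, 3)`), `k` is a prime dividing `n`, `K` is a subalgebra of the `n × n` matrices that is a field of degree `k` over `F` (an extension-field structure F_{q^k} on `F^n`), and `H` is the subgroup of matrices of determinant 1 normalizing `K` — a subgroup of type GL_{n/k}(q^k) (maximal except in some small cases; maximality is not assumed); Ω is the set of cosets of `H` in `T`, so an element of `T` of prime order `r` (a matrix `x` of determinant 1 with `x^r` scalar, `x` not scalar) fixes a point of Ω when some conjugate of `x` by a matrix of determinant 1 normalizes `K`. Take `n = k = 3` and suppose 3 divides the index of `H`. Then every element of `T` of order 3 is conjugate in `T` into `H` if and only if `q ≡ 4, 7` or `8 (mod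 9)`. -/
theorem result {F : Type*} [Field F] [Fintype F] {p : ℕ} [Fact p.Prime] [CharP F p] {q : ℕ} (hq : Fintype.card F = q)
    (n : ℕ) (hn : n = 3) (k : ℕ) (hk : k.Prime) (hkn : k ∣ n) (K : Subalgebra F (Matrix (Fin n) (Fin n) F)) (hK : Cfsg.Geo.IsFieldSubalgebra k K) (hk3 : k = 3) (hΩ : 3 ∣ ((Cfsg.Geo.subalgebraNormalizer K).comap (Matrix.SpecialLinearGroup.toGL : Matrix.SpecialLinearGroup (Fin n) F →* GL (Fin n) F)).index) :
    (∀ x : Matrix.SpecialLinearGroup (Fin n) F,
      (∃ z : F, ((x ^ 3 : Matrix.SpecialLinearGroup (Fin n) F) : Matrix (Fin n) (Fin n) F) = z • (1 : Matrix (Fin n) (Fin n) F)) →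
      (∀ z : F, (x : Matrix (Fin n) (Fin n) F) ≠ z • (1 : Matrix (Fin n) (Fin n) F)) →
      ∃ P : Matrix.SpecialLinearGroup (Fin n) F, P⁻¹ * x * P ∈ ((Cfsg.Geo.subalgebraNormalizer K).comap (Matrix.SpecialLinearGroup.toGL : Matrix.SpecialLinearGroup (Fin n) F →* GL (Fin n) F))) ↔
    (q % 9 = 4 ∨ q % 9 = 7 ∨ q % 9 = 8) := by
  subst hn hk3
  have h3p : Fact (Nat.Prime 3) := ⟨Nat.prime_three⟩
  have hfn : Module.finrank F (Fin 3 → F) = 3 := by simp
  have hq1 : 1 < q := by rw [← hq]; exact Fintype.one_lt_card
  by_cases hp3 : p = 3
  · -- characteristic 3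
    subst hp3
    have hqd : 3 ∣ q := by
      obtain ⟨e, he⟩ := FiniteField.card F 3
      rw [← hq, he.2]
      exact dvd_pow_self _ e.2.ne'
    constructor
    · intro H
      exfalso
      let x : Matrix.SpecialLinearGroup (Fin 3) F := ⟨!![1, 1, 0; 0, 1, 0; 0, 0, 1], by
        rw [Matrix.det_fin_three]; simp⟩
      have hx : (x : Matrix (Fin 3) (Fin 3) F) = !![1, 1, 0; 0, 1, 0; 0, 0, 1] := rfl
      have h30 : (3 : F) = 0 := by
        have := CharP.cast_eq_zero F 3
        exact_mod_cast this
      have hx3 : ((x ^ 3 : Matrix.SpecialLinearGroup (Fin 3) F) : Matrix (Fin 3) (Fin 3) F) = (1 : F) • (1 : Matrix (Fin 3) (Fin 3) F) := by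
        rw [Matrix.SpecialLinearGroup.coe_pow, hx, one_smul]
        ext i j
        fin_cases i <;> fin_cases j <;> simp [pow_succ, Matrix.mul_apply, Fin.sum_univ_three]
        linear_combination h30
      have hxs : ∀ z : F, (x : Matrix (Fin 3) (Fin 3) F) ≠ z • (1 : Matrix (Fin 3) (Fin 3) F) := by
        intro z hz
        rw [hx] at hz
        have := congrFun (congrFun hz 0) 1
        simp at this
      refine diag_not hK x hxs 1 (![1, 0, 0]) (![0, 0, 1]) ?_ ?_ ?_ ?_ (H x ⟨1, hx3⟩ hxs)
      · intro h
        have := congrFun h 0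
        simp at this
      · rw [hx]
        funext j
        fin_cases j <;> simp [Matrix.mulVec, dotProduct, Fin.sum_univ_three]
      · rw [hx]
        funext j
        fin_cases j <;> simp [Matrix.mulVec, dotProduct, Fin.sum_univ_three]
      · intro c h
        have := congrFun h 2
        simp at this
    · intro h
      omega
  · have h3p' : (3 : ℕ) ≠ p := fun h => hp3 h.symm
    have h3q : ¬ 3 ∣ q := by rw [← hq]; exact H99.prime_not_dvd_card h3p'
    obtain ⟨t, ht1, ht2, ht3⟩ := H99.exists_frobenius_elt (by norm_num) hK
    have ht4 : (Matrix.toLin' (t : Matrix (Fin 3) (Fin 3) F)) ≠ 1 := by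
      have := nes _ 1 one_ne_zero ht3
      rwa [one_smul] at this
    by_cases hq3 : 3 ∣ q - 1
    · -- `q ≡ 1 mod 3`
      have hq3' : 3 ∣ Fintype.card F - 1 := by rw [hq]; exact hq3
      obtain ⟨ζ, hζ1, hζ⟩ := H99.exists_prim_root (F := F) (r := 3) hq3'
      have hζ0 : ζ ≠ 0 := by
        rintro rfl
        norm_num at hζ
      constructor
      · intro H
        by_contra hcon
        have hq9 : 9 ∣ q - 1 := by omega
        -- `ζ⁻¹` is a cube
        obtain ⟨w, hw⟩ : ∃ w : F, w ^ 3 = ζ⁻¹ := by
          obtain ⟨γ, hγ0, hγ, hgen⟩ := H99.exists_generator (F := F)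
          obtain ⟨m, hm⟩ := hgen ζ⁻¹ (inv_ne_zero hζ0)
          have h1 : γ ^ (m * 3) = 1 := by rw [pow_mul, ← hm, inv_pow, hζ, inv_one]
          rw [hγ, hq] at h1
          have h2 : 3 ∣ m := by
            obtain ⟨a, ha⟩ := hq9
            obtain ⟨b, hb⟩ := h1
            rw [ha] at hb
            exact ⟨a * b, by nlinarith⟩
          obtain ⟨m', rfl⟩ := h2
          exact ⟨γ ^ m', by rw [hm, ← pow_mul, mul_comm]⟩
        have hw0 : w ≠ 0 := by
          rintro rfl
          rw [zero_pow (by norm_num)] at hw
          exact inv_ne_zero hζ0 hw.symm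
        obtain ⟨x, hx1, hx2⟩ := H99.sl_exists_diag (F := F) (n := 3) ![w * ζ, w, w] (by
          rw [Fin.prod_univ_three]
          simp only [Matrix.cons_val_zero, Matrix.cons_val_one, Matrix.cons_val_two, Matrix.head_cons, Matrix.tail_cons]
          have : w * ζ * w * w = w ^ 3 * ζ := by ring
          rw [this, hw, inv_mul_cancel₀ hζ0]) 3 (ζ⁻¹) (by
          intro j
          fin_cases j
          · simp [mul_pow, hw, hζ]
          · simp [hw]
          · simp [hw])
        have hxs : ∀ z : F, (x : Matrix (Fin 3) (Fin 3) F) ≠ z • (1 : Matrix (Fin 3) (Fin 3) F) := by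
          intro z hz
          rw [hx1] at hz
          have h4 := congrFun (congrFun hz 0) 0
          have h5 := congrFun (congrFun hz 1) 1
          simp at h4 h5
          apply hζ1
          have : w * ζ = w * 1 := by rw [h4, mul_one, h5]
          exact mul_left_cancel₀ hw0 this
        refine diag_not hK x hxs w (![0, 1, 0]) (![0, 0, 1]) ?_ ?_ ?_ ?_ (H x ⟨ζ⁻¹, hx2⟩ hxs)
        · intro h
          have := congrFun h 1
          simp at this
        · rw [hx1]
          funext j
          rw [Matrix.mulVec_diagonal]
          fin_cases j <;> simp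
        · rw [hx1]
          funext j
          rw [Matrix.mulVec_diagonal]
          fin_cases j <;> simp
        · intro c h
          have := congrFun h 2
          simp at this
      · intro hq9 x ⟨z, hz⟩ hxs
        have hq9' : ¬ 9 ∣ q - 1 := by omega
        have hz' := hz
        rw [Matrix.SpecialLinearGroup.coe_pow] at hz'
        have hz0 : z ≠ 0 := by
          rintro rfl
          have h1 := congrArg Matrix.det hz'
          rw [Matrix.det_pow, x.det_coe, one_pow, zero_smul, Matrix.det_zero] at h1
          exact one_ne_zero h1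
        have hval : padicValNat 3 (Fintype.card F - 1) = 1 := by
          rw [hq]
          have h1 : 1 ≤ padicValNat 3 (q - 1) := one_le_padicValNat_of_dvd (by omega) hq3
          by_contra hne
          apply hq9'
          have h2 : 3 ^ 2 ∣ q - 1 := (padicValNat_dvd_iff_le (by omega)).mpr (by omega)
          norm_num at h2
          exact h2
        rcases H99.exists_decomp_scalar (r := 3) _ z hz0 (H99.toLin_pow_eq hz') with ⟨w, hw, hw0, hwf⟩ | ⟨hnp, -, -⟩
        · obtain ⟨b, c, hc3, hb⟩ := H99.exists_eigenbasis h3p' hq3' _ hwf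
          obtain ⟨b', c', hc3', hb'⟩ := H99.exists_eigenbasis h3p' hq3' _ ht2
          -- reindex to `Fin 3`
          let ε : Fin (Module.finrank F (Fin 3 → F)) ≃ Fin 3 := finCongr hfn
          have hbb : ∀ j, (w⁻¹ • Matrix.toLin' (x : Matrix (Fin 3) (Fin 3) F)) ((b.reindex ε) j) = c (ε.symm j) • (b.reindex ε) j := by
            intro j
            rw [Module.Basis.reindex_apply, hb]
          have hbb' : ∀ j, (Matrix.toLin' (t : Matrix (Fin 3) (Fin 3) F)) ((b'.reindex ε) j) = c' (ε.symm j) • (b'.reindex ε) j := by
            intro j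
            rw [Module.Basis.reindex_apply, hb']
          -- determinant of `w⁻¹ x`
          have hdet1 : ∏ j, c (ε.symm j) = 1 := by
            rw [← H99.det_of_eigenbasis _ _ _ hbb, LinearMap.det_smul, hfn, LinearMap.det_toLin', x.det_coe, mul_one]
            -- `w^3` is a cube with `w^9 = 1`
            have h1 : (w⁻¹ ^ 3) ^ 3 = 1 := by
              have h2 := congrArg LinearMap.det hwf
              rw [map_pow, LinearMap.det_smul, hfn, LinearMap.det_toLin', x.det_coe, mul_one, map_one] at h2
              exact h2
            by_contra hne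
            -- `w⁻¹` has order 9
            have hw9 : orderOf w⁻¹ ∣ 3 ^ 2 := by
              apply orderOf_dvd_of_pow_eq_one
              rw [show (3 ^ 2 : ℕ) = 3 * 3 from rfl, pow_mul]
              exact h1
            have hdvd : orderOf w⁻¹ ∣ q - 1 := by
              rw [← hq]
              exact orderOf_dvd_of_pow_eq_one (FiniteField.pow_card_sub_one_eq_one _ (inv_ne_zero hw0))
            obtain ⟨a, ha, hab⟩ := (Nat.dvd_prime_pow Nat.prime_three).mp hw9
            have ha2 : a = 2 := by
              by_contra h
              have h3 : a ≤ 1 := by omega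
              apply hne
              rw [← orderOf_dvd_iff_pow_eq_one, hab]
              exact (pow_dvd_pow 3 h3).trans (by norm_num)
            rw [hab, ha2] at hdvd
            norm_num at hdvd
            exact hq9' hdvd
          have hinj : Function.Injective (fun j => c (ε.symm j)) := by
            set d : Fin 3 → F := fun j => c (ε.symm j) with hd
            have hd3 : ∀ j, d j ^ 3 = 1 := fun j => hc3 _
            have hd0 : ∀ j, d j ≠ 0 := fun j h0 => by
              have := hd3 j
              rw [h0] at this
              norm_num at this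
            have hdet2 : d 0 * d 1 * d 2 = 1 := by
              rw [← hdet1, Fin.prod_univ_three]
            have hns : ¬ ∀ j, d j = d 0 := by
              intro hall
              apply hxs (w * d 0)
              apply Matrix.toLin'.injective
              apply (b.reindex ε).ext
              intro j
              have h4 := hbb j
              rw [LinearMap.smul_apply] at h4
              have h5 : Matrix.toLin' (x : Matrix (Fin 3) (Fin 3) F) ((b.reindex ε) j) = w • (w⁻¹ • Matrix.toLin' (x : Matrix (Fin 3) (Fin 3) F) ((b.reindex ε) j)) := by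
                rw [smul_smul, mul_inv_cancel₀ hw0, one_smul]
              rw [h5, h4]
              change w • d j • _ = _
              rw [hall j, smul_smul]
              simp
            -- two equal eigenvalues force all equal
            have key : ∀ a b c : F, a ^ 3 = 1 → a ≠ 0 → a * b * c = 1 → a = b → c = a := by
              intro a b c ha ha0 habc hab
              subst hab
              have h6 : a * a * c = a * a * a := by rw [habc, ← ha]; ring
              exact mul_left_cancel₀ (mul_ne_zero ha0 ha0) h6
            intro i j hij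
            have h01 : d 0 ≠ d 1 := by
              intro h
              apply hns
              have h2 := key (d 0) (d 1) (d 2) (hd3 0) (hd0 0) hdet2 h
              intro j
              fin_cases j
              · rfl
              · exact h.symm
              · exact h2
            have h02 : d 0 ≠ d 2 := by
              intro h
              apply hns
              have h2 := key (d 0) (d 2) (d 1) (hd3 0) (hd0 0) (by rw [← hdet2]; ring) h
              intro j
              fin_cases j
              · rfl
              · exact h2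
              · exact h.symm
            have h12 : d 1 ≠ d 2 := by
              intro h
              apply hns
              have h2 := key (d 1) (d 2) (d 0) (hd3 1) (hd0 1) (by rw [← hdet2]; ring) h
              intro j
              fin_cases j
              · rfl
              · exact h2.symm
              · exact (h2.trans h).symm
            fin_cases i <;> fin_cases j
            · rfl
            · exact absurd hij h01
            · exact absurd hij h02
            · exact absurd hij.symm h01
            · rfl
            · exact absurd hij h12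
            · exact absurd hij.symm h02
            · exact absurd hij.symm h12
            · rfl
          have hinj' : Function.Injective (fun j => c' (ε.symm j)) := by
            intro i j hij
            by_contra hne
            have h1 := hbb' i
            have h2 := hbb' j
            have hij' : c' (ε.symm i) = c' (ε.symm j) := hij
            rw [← hij'] at h2
            obtain ⟨a, ha⟩ := H99.singer_eigenspace Nat.prime_three hK t ht1 ht3 (c' (ε.symm i)) _ _
              ((b'.reindex ε).ne_zero i) h1 h2
            have h3 := congrArg (fun v => (b'.reindex ε).repr v j) ha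
            simp only [map_smul, Finsupp.smul_apply, Module.Basis.repr_self, Finsupp.single_eq_same] at h3
            rw [Finsupp.single_eq_of_ne (Ne.symm hne), smul_zero] at h3
            exact one_ne_zero h3
          obtain ⟨e, he⟩ := H99.conj_of_eigenbasis (b.reindex ε) (b'.reindex ε) _ _ hbb hbb'
            (fun z => card_fiber_of_injective hinj hinj' (fun j => hc3 _) (fun j => hc3' _) z)
          exact S5970.conj_into (by norm_num) 3 h3p' x z hz0 hz w hw0 t ht1 e he
        · exfalso
          have h1 := H99.det_of_nonpower Nat.prime_three z hnp _ (H99.toLin_pow_eq hz')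
          rw [LinearMap.det_toLin', x.det_coe, hfn] at h1
          exact H99.no_nonpower_of_cond (F := F) (n := 3) (r := 3) (by norm_num) (by norm_num) hq3'
            ⟨by rw [hval]; simp, by norm_num⟩ z hz0 hnp h1.2.symm
    · -- `q ≡ 2 mod 3`
      have hi : orderOf ((Fintype.card F : ℕ) : ZMod 3) = 3 - 1 := by
        have h1 := H99.orderOf_dvd_sub_one (q := Fintype.card F) (r := 3) (by rw [hq]; exact h3q)
        have h2 : orderOf ((Fintype.card F : ℕ) : ZMod 3) ≠ 1 := by
          intro h
          rw [← H99.dvd_sub_one_iff_orderOf, hq] at h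
          exact hq3 h
        rcases (Nat.dvd_prime Nat.prime_two).mp h1 with h | h
        · exact absurd h h2
        · exact h
      have hnd : ¬ 3 ∣ Fintype.card F - 1 := by rw [hq]; exact hq3
      -- the 3-part of the order
      have hq9 : q % 9 = 8 := by
        -- `t` has determinant one
        have htdet : (t : Matrix (Fin 3) (Fin 3) F).det = 1 := by
          apply root_eq_one hnd
          have h1 := congrArg LinearMap.det ht2
          rwa [map_pow, LinearMap.det_toLin', map_one] at h1
        let T : Matrix.SpecialLinearGroup (Fin 3) F := ⟨t, htdet⟩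
        set H := (Cfsg.Geo.subalgebraNormalizer K).comap (Matrix.SpecialLinearGroup.toGL : Matrix.SpecialLinearGroup (Fin 3) F →* GL (Fin 3) F) with hH
        have hTH : T ∈ H := by
          rw [hH, Subgroup.mem_comap]
          have : Matrix.SpecialLinearGroup.toGL T = t := Units.ext rfl
          rw [this]
          exact ht1
        have hT3 : T ^ 3 = 1 := by
          apply Subtype.ext
          rw [Matrix.SpecialLinearGroup.coe_pow]
          apply Matrix.toLin'.injective
          rw [Matrix.toLin'_pow]
          change (Matrix.toLin' (t : Matrix (Fin 3) (Fin 3) F)) ^ 3 = _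
          rw [ht2, Matrix.SpecialLinearGroup.coe_one, Matrix.toLin'_one]
          rfl
        have hT1 : T ≠ 1 := by
          intro h
          apply ht3 1
          rw [one_smul]
          exact congrArg (fun M : Matrix.SpecialLinearGroup (Fin 3) F => (M : Matrix (Fin 3) (Fin 3) F)) h
        have hord : orderOf T = 3 := by
          rcases (Nat.dvd_prime Nat.prime_three).mp (orderOf_dvd_of_pow_eq_one hT3) with h | h
          · exact absurd (orderOf_eq_one_iff.mp h) hT1
          · exact h
        have h3H : 3 ∣ Nat.card H := by
          have h := orderOf_dvd_natCard (⟨T, hTH⟩ : H)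
          rw [Subgroup.orderOf_mk, hord] at h
          exact h
        have h9 : 9 ∣ Nat.card (Matrix.SpecialLinearGroup (Fin 3) F) := by
          rw [← Subgroup.card_mul_index H]
          exact Nat.mul_dvd_mul h3H hΩ
        have h1 := Cfsg.Agent.H4.card_SL_mul (F := F) 3 (by norm_num)
        rw [Matrix.card_GL_field, Fin.prod_univ_three, hq] at h1
        simp only [Fin.val_zero, Fin.val_one, Fin.val_two, pow_zero, pow_one] at h1
        have h2 : 9 ∣ (q ^ 3 - 1) * (q ^ 3 - q) * (q ^ 3 - q ^ 2) := by
          rw [← h1]
          exact h9.mul_left _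
        have hq2 : q % 3 = 2 := by omega
        have hq9' : q % 9 = 2 ∨ q % 9 = 5 ∨ q % 9 = 8 := by omega
        rcases hq9' with h | h | h
        · exfalso
          obtain ⟨m, hm⟩ : ∃ m, q = 9 * m + 2 := ⟨q / 9, by omega⟩
          have e1 : q ^ 3 - 1 = 9 * (81 * m ^ 3 + 54 * m ^ 2 + 12 * m) + 7 := by
            rw [hm]
            have : (9 * m + 2) ^ 3 = 9 * (81 * m ^ 3 + 54 * m ^ 2 + 12 * m) + 7 + 1 := by ring
            omega
          have e2 : q ^ 3 - q = 9 * (81 * m ^ 3 + 54 * m ^ 2 + 11 * m) + 6 := by
            rw [hm]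
            have : (9 * m + 2) ^ 3 = 9 * (81 * m ^ 3 + 54 * m ^ 2 + 11 * m) + 6 + (9 * m + 2) := by ring
            omega
          have e3 : q ^ 3 - q ^ 2 = 9 * (81 * m ^ 3 + 45 * m ^ 2 + 8 * m) + 4 := by
            rw [hm]
            have : (9 * m + 2) ^ 3 = 9 * (81 * m ^ 3 + 45 * m ^ 2 + 8 * m) + 4 + (9 * m + 2) ^ 2 := by ring
            omega
          have h4 : ((q ^ 3 - 1) * (q ^ 3 - q) * (q ^ 3 - q ^ 2)) % 9 = 6 := by
            rw [e1, e2, e3]
            simp [Nat.mul_mod, Nat.add_mod]
          omega
        · exfalso
          obtain ⟨m, hm⟩ : ∃ m, q = 9 * m + 5 := ⟨q / 9, by omega⟩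
          have e1 : q ^ 3 - 1 = 9 * (81 * m ^ 3 + 135 * m ^ 2 + 75 * m + 13) + 7 := by
            rw [hm]
            have : (9 * m + 5) ^ 3 = 9 * (81 * m ^ 3 + 135 * m ^ 2 + 75 * m + 13) + 7 + 1 := by ring
            omega
          have e2 : q ^ 3 - q = 9 * (81 * m ^ 3 + 135 * m ^ 2 + 74 * m + 13) + 3 := by
            rw [hm]
            have : (9 * m + 5) ^ 3 = 9 * (81 * m ^ 3 + 135 * m ^ 2 + 74 * m + 13) + 3 + (9 * m + 5) := by ring
            omega
          have e3 : q ^ 3 - q ^ 2 = 9 * (81 * m ^ 3 + 126 * m ^ 2 + 65 * m + 11) + 1 := by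
            rw [hm]
            have : (9 * m + 5) ^ 3 = 9 * (81 * m ^ 3 + 126 * m ^ 2 + 65 * m + 11) + 1 + (9 * m + 5) ^ 2 := by ring
            omega
          have h4 : ((q ^ 3 - 1) * (q ^ 3 - q) * (q ^ 3 - q ^ 2)) % 9 = 3 := by
            rw [e1, e2, e3]
            simp [Nat.mul_mod, Nat.add_mod]
          omega
        · exact h
      refine ⟨fun _ => by omega, ?_⟩
      intro _ x ⟨z, hz⟩ hxs
      have hz' := hz
      rw [Matrix.SpecialLinearGroup.coe_pow] at hz'
      have hz0 : z ≠ 0 := by
        rintro rfl
        have h1 := congrArg Matrix.det hz'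
        rw [Matrix.det_pow, x.det_coe, one_pow, zero_smul, Matrix.det_zero] at h1
        exact one_ne_zero h1
      rcases H99.exists_decomp_scalar (r := 3) _ z hz0 (H99.toLin_pow_eq hz') with ⟨w, hw, hw0, hwf⟩ | ⟨-, hd, -⟩
      · obtain ⟨e, he⟩ := H99.conj_of_order_eq_pred (r := 3) h3p' (by norm_num) hi rfl _ _ hfn hwf ht2
          (nes _ _ (inv_ne_zero hw0) hxs) ht4
        exact S5970.conj_into (by norm_num) 3 h3p' x z hz0 hz w hw0 t ht1 e he
      · exact absurd hd hnd

end Cfsg.Agent.S5971
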