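import Cfsg.Statements.S5972
import Cfsg.Agent.H39.OT7

set_option autoImplicit false
open scoped MatrixGroups
open Cfsg

namespace Cfsg.Agent.S5972

/-- Elements of prime order of Ω_n(q), n = 2d+1 ≥ 7, q odd, with no fixed totally singular `m`-space. Here `T = Ω_n(q)` is realised as the commutator subgroup of the isometry group of the quadratic form `x₀² + Σ xᵢyᵢ` over the field `F` with `q` elements (it has trivial centre, so its elements of prime order `r` are used directly); let `1 ≤ m ≤ d` and let `r` be a prime dividing the number of totally singular `m`-spaces. For `r ≠ p` let `i` be the multiplicative order of `q` modulo `r`, `c = i` for `i` even and `c = 2i` for `i` odd, and write `k = n mod c`, `ℓ = m mod i`, `n' = ⌊n/i⌋`, `m' = ⌊m/i⌋`, `t = (r−1)/i`. Then every element of `T` of order `r` fixes some totally singular `m`-space if and only if either (i) `r = 2` and (`m < (n−1)/2` or `q ≡ 1 (mod 4)`); or (ii) `r ≠ p` is odd,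 `i ≤ m`, `k > 2ℓ`, and (`i` is odd or `n' − 2m' ≥ t`). -/
theorem result {F : Type*} [Field F] [Fintype F] {p : ℕ} [Fact p.Prime] [CharP F p] {q : ℕ} (hq : Fintype.card F = q) (hqodd : Odd q)
    (d m : ℕ) (hd : 3 ≤ d) (hm : 1 ≤ m) (hmd : m ≤ d)
    (r : ℕ) [Fact r.Prime]
    (hrΩ : r ∣ Nat.card {W : Submodule F (Unit ⊕ (Fin d ⊕ Fin d) → F) // Module.finrank F ↥W = m ∧ (∀ w ∈ W, Cfsg.quadFormOdd d F w = 0)})
    (i c : ℕ) (hi : i = orderOf (q : ZMod r)) (hc : c = if Even i then i else 2 * i) :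
    (∀ x : GL (Unit ⊕ (Fin d ⊕ Fin d)) F, x ∈ Cfsg.Geo.omegaGL (Cfsg.quadFormOdd d F) → orderOf x = r →
      ∃ W : Submodule F (Unit ⊕ (Fin d ⊕ Fin d) → F), Module.finrank F ↥W = m ∧ (∀ w ∈ W, Cfsg.quadFormOdd d F w = 0) ∧
        W.map (Matrix.toLin' (x : Matrix (Unit ⊕ (Fin d ⊕ Fin d)) (Unit ⊕ (Fin d ⊕ Fin d)) F)) ≤ W) ↔
    ((r = 2 ∧ (m < d ∨ q % 4 = 1)) ∨
     (r ≠ p ∧ 2 < r ∧ i ≤ m ∧ 2 * (m % i) < (2 * d + 1) % c ∧ (Odd i ∨ (r - 1) / i + 2 * (m / i) ≤ (2 * d + 1) / i))) := by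
  classical
  subst hq
  have hrpr : r.Prime := Fact.out
  have hppr : p.Prime := Fact.out
  obtain ⟨hpo, h2⟩ := H99.odd_char (F := F) (p := p) hqodd
  have hQ := Orth.qfOdd_nondegenerate d F h2
  have hfd := H39.OE.finrank_odd (F := F) d
  have hts : ∀ x : (Unit ⊕ (Fin d ⊕ Fin d) → F) →ₗ[F] (Unit ⊕ (Fin d ⊕ Fin d) → F),
      (∃ W : Submodule F (Unit ⊕ (Fin d ⊕ Fin d) → F), Module.finrank F ↥W = m ∧ (∀ w ∈ W, Cfsg.quadFormOdd d F w = 0) ∧ W.map x ≤ W) ↔
      H39.OE.TSf (Orth.qfOdd d F) x m := fun x => H39.OE.tsf_iff (Q := Orth.qfOdd d F)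
  simp only [hts]
  have hne : r ≠ p := by
    rintro rfl
    have h3 := H39.OE.card_ts_modEq (F := F) (p := r) m _ (Orth.qfOdd d F) hQ (by rw [hfd]; omega)
    have h4 := (Nat.modEq_zero_iff_dvd.mpr hrΩ).symm.trans h3
    have h5 := (Nat.modEq_iff_dvd' (by norm_num)).mp h4
    exact hrpr.one_lt.ne' (Nat.dvd_one.mp h5)
  obtain ⟨s1, s2⟩ := H39.OE.sq_facts (F := F) hqodd
  by_cases hr2 : r = 2
  · subst hr2
    refine Iff.trans (H39.OE.two_ts_odd h2 (Q := Orth.qfOdd d F) hQ hfd (by omega) hmd) ?_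
    rw [s1]
    constructor
    · intro h
      exact Or.inl ⟨rfl, h⟩
    · rintro (⟨-, h⟩ | ⟨-, h, -⟩)
      · exact h
      · omega
  · have hr3 : 2 < r := by
      have := hrpr.two_le
      omega
    refine Iff.trans (H39.OE.tsf_trans_order (Q := Orth.qfOdd d F) hQ (by rw [hfd]; omega) hr2) ?_
    have hcb := H39.OE.blk_eq (F := F) hi hc
    have hcE := H99.even_blk r (Fintype.card F)
    refine Iff.trans (H39.OE.ts_criterion (p := p) hr2 hne hQ (by rw [hfd]; omega) hrΩ hi hcb.symm) ?_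
    rw [hcb] at hcE
    rw [hfd]
    have e1 := H39.OE.odd_mod (a := 2 * d + 1) ⟨d, rfl⟩ hcE
    constructor
    · rintro ⟨h3, h4⟩
      right
      rcases h4 with ⟨ho, h4⟩ | ⟨he, h5, h4⟩
      · exact ⟨hne, hr3, h3, by omega, Or.inl ho⟩
      · have hci : c = i := by rw [hc, if_pos he]
        rw [hci] at h5
        exact ⟨hne, hr3, h3, by omega, Or.inr h5⟩
    · rintro (⟨h, -⟩ | ⟨-, -, h3, h4, h5⟩)
      · exact absurd h hr2
      · refine ⟨h3, ?_⟩
        rcases Nat.even_or_odd i with he | ho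
        · right
          have hci : c = i := by rw [hc, if_pos he]
          have h6 := h5.resolve_left (by rw [Nat.not_odd_iff_even]; exact he)
          refine ⟨he, by rw [hci]; exact h6, Or.inr (Or.inl h4)⟩
        · exact Or.inl ⟨ho, Or.inr (Or.inl h4)⟩

end Cfsg.Agent.S5972
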