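import Cfsg.Statements.S5973
import Cfsg.Agent.H39.OT7

set_option autoImplicit false
open scoped MatrixGroups
open Cfsg

namespace Cfsg.Agent.S5973

/-- Elements of prime order of PΩ⁺_n(q), n = 2d ≥ 8, with no fixed totally singular `m`-space, `m < n/2`. Here `T = PΩ⁺_n(q)` is realised through `Ω⁺_n(q)`, the commutator subgroup of the isometry group of the quadratic form `Σ xᵢyᵢ` over the field `F` with `q` elements; an element of `T` of prime order `r` is an element `x` of `Ω⁺_n(q)` with `x^r` scalar and `x` not scalar. Let `1 ≤ m < d` and let `r` be a prime dividing the number of totally singular `m`-spaces. For `r ≠ p` let `i` be the multiplicative order of `q` modulo `r`, `c = i` for `i` even and `c = 2i` for `i` odd, and write `k = n mod c`, `ℓ = m mod i`, `n' = ⌊n/i⌋`, `m' = ⌊m/i⌋`, `t = (r−1)/i`. Then every element of `T` of order `r` fixes some totally singular `m`-space if and only if one of: (i)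 `r = 2 ≠ p` and either `q ≡ 1 (mod 4)`, or `q ≡ 3 (mod 4)`, `m ≤ n/2 − 2` and (`m` even or `n ≡ 2 (mod 4)`); (ii) `r ≠ p` odd, `i` odd, `i ≤ m` and `k ≥ 2ℓ`; (iii) `r ≠ p` odd, `i` even, `i ≤ m`, `n' − 2m' ≥ t`, and one of: `i ≥ 2ℓ`, `k = 0`, `n/i` odd and `n' − 2m' > t`; or `k ≥ 2ℓ` and `n'` even; or `k > 2ℓ` and `n'` odd. -/
theorem result {F : Type*} [Field F] [Fintype F] {p : ℕ} [Fact p.Prime] [CharP F p] {q : ℕ} (hq : Fintype.card F = q)
    (d m : ℕ) (hd : 4 ≤ d) (hm : 1 ≤ m) (hmd : m < d)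
    (r : ℕ) [Fact r.Prime]
    (hrΩ : r ∣ Nat.card {W : Submodule F (Fin d ⊕ Fin d → F) // Module.finrank F ↥W = m ∧ (∀ w ∈ W, Cfsg.quadFormPlus d F w = 0)})
    (i c : ℕ) (hi : i = orderOf (q : ZMod r)) (hc : c = if Even i then i else 2 * i) :
    (∀ x : GL (Fin d ⊕ Fin d) F, x ∈ Cfsg.Geo.omegaGL (Cfsg.quadFormPlus d F) →
      (∃ z : F, ((x ^ r : GL (Fin d ⊕ Fin d) F) : Matrix (Fin d ⊕ Fin d) (Fin d ⊕ Fin d) F) = z • (1 : Matrix (Fin d ⊕ Fin d) (Fin d ⊕ Fin d) F)) →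
      (∀ z : F, (x : Matrix (Fin d ⊕ Fin d) (Fin d ⊕ Fin d) F) ≠ z • (1 : Matrix (Fin d ⊕ Fin d) (Fin d ⊕ Fin d) F)) →
      ∃ W : Submodule F (Fin d ⊕ Fin d → F), Module.finrank F ↥W = m ∧ (∀ w ∈ W, Cfsg.quadFormPlus d F w = 0) ∧
        W.map (Matrix.toLin' (x : Matrix (Fin d ⊕ Fin d) (Fin d ⊕ Fin d) F)) ≤ W) ↔
    ((r = 2 ∧ p ≠ 2 ∧ (q % 4 = 1 ∨ (q % 4 = 3 ∧ m + 2 ≤ d ∧ (Even m ∨ (2 * d) % 4 = 2)))) ∨
     (r ≠ p ∧ 2 < r ∧ Odd i ∧ i ≤ m ∧ 2 * (m % i) ≤ (2 * d) % c) ∨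
     (r ≠ p ∧ 2 < r ∧ Even i ∧ i ≤ m ∧ (r - 1) / i + 2 * (m / i) ≤ (2 * d) / i ∧
       ((2 * (m % i) ≤ i ∧ (2 * d) % c = 0 ∧ Odd ((2 * d) / i) ∧ (r - 1) / i + 2 * (m / i) < (2 * d) / i) ∨
        (2 * (m % i) ≤ (2 * d) % c ∧ Even ((2 * d) / i)) ∨
        (2 * (m % i) < (2 * d) % c ∧ Odd ((2 * d) / i))))) := by
  classical
  subst hq
  have hrpr : r.Prime := Fact.out
  have hppr : p.Prime := Fact.out
  have hQ := Orth.qfPlus_nondegenerate d F
  have hfd := Orth.finrank_V d F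
  have hPTQ : H39.OE.PT (Orth.qfPlus d F) ⊤ := ⟨Orth.U0 d F, le_top, Orth.TS_U0 d F, by rw [Orth.finrank_U0, finrank_top, hfd]⟩
  have hts : ∀ x : (Fin d ⊕ Fin d → F) →ₗ[F] (Fin d ⊕ Fin d → F),
      (∃ W : Submodule F (Fin d ⊕ Fin d → F), Module.finrank F ↥W = m ∧ (∀ w ∈ W, Cfsg.quadFormPlus d F w = 0) ∧ W.map x ≤ W) ↔
      H39.OE.TSf (Orth.qfPlus d F) x m := fun x => H39.OE.tsf_iff (Q := Orth.qfPlus d F)
  simp only [hts]
  have hne : r ≠ p := by
    rintro rfl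
    have h3 := H39.OE.card_ts_modEq (F := F) (p := r) m _ (Orth.qfPlus d F) hQ (by rw [hfd]; omega)
    have h4 := (Nat.modEq_zero_iff_dvd.mpr hrΩ).symm.trans h3
    have h5 := (Nat.modEq_iff_dvd' (by norm_num)).mp h4
    exact hrpr.one_lt.ne' (Nat.dvd_one.mp h5)
  by_cases hr2 : r = 2
  · subst hr2
    obtain ⟨hodd, h2⟩ : Odd (Fintype.card F) ∧ (2 : F) ≠ 0 := by
      have hpo : Odd p := hppr.odd_of_ne_two (Ne.symm hne)
      obtain ⟨n, hn, hc⟩ := FiniteField.card F p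
      have hodd : Odd (Fintype.card F) := by rw [hc]; exact hpo.pow
      exact ⟨hodd, (H99.odd_char (F := F) (p := p) hodd).2⟩
    obtain ⟨s1, s2⟩ := H39.OE.sq_facts (F := F) hodd
    refine Iff.trans (H39.OE.two_ts_plus h2 (Q := Orth.qfPlus d F) hQ hfd (by omega) hmd hPTQ) ?_
    rw [s1]
    have hq4 : Fintype.card F % 4 = 1 ∨ Fintype.card F % 4 = 3 := by
      obtain ⟨k, hk⟩ := hodd
      omega
    have hd4 : Odd d ↔ (2 * d) % 4 = 2 := by
      rw [Nat.odd_iff]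
      omega
    rw [hd4]
    constructor
    · intro h
      refine Or.inl ⟨rfl, Ne.symm hne, ?_⟩
      rcases h with h | h
      · exact Or.inl h
      · rcases hq4 with h3 | h3
        · exact Or.inl h3
        · exact Or.inr ⟨h3, h⟩
    · rintro (⟨-, -, h⟩ | ⟨-, h, -⟩ | ⟨-, h, -⟩)
      · rcases h with h | ⟨-, h⟩
        · exact Or.inl h
        · exact Or.inr h
      · omega
      · omega
  · have hr3 : 2 < r := by
      have := hrpr.two_le
      omega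
    refine Iff.trans (H39.OE.tsf_trans_scalar (Q := Orth.qfPlus d F) hQ (by rw [hfd]; omega) hr2) ?_
    have hcb := H39.OE.blk_eq (F := F) hi hc
    refine Iff.trans (H39.OE.ts_criterion (p := p) hr2 hne hQ (by rw [hfd]; omega) hrΩ hi hcb.symm) ?_
    rw [hfd]
    constructor
    · rintro ⟨h3, h4⟩
      right
      rcases h4 with ⟨ho, h4⟩ | ⟨he, h5, h4⟩
      · left
        refine ⟨hne, hr3, ho, h3, ?_⟩
        rcases h4 with ⟨-, h4⟩ | h4 | ⟨h4, -⟩
        · exact absurd hPTQ h4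
        · omega
        · omega
      · have hci : c = i := by rw [hc, if_pos he]
        rw [hci] at h5 h4
        right
        rw [hci]
        refine ⟨hne, hr3, he, h3, h5, ?_⟩
        rcases Nat.even_or_odd ((2 * d) / i) with hN | hN
        · right; left
          refine ⟨?_, hN⟩
          rcases h4 with ⟨-, h4, -⟩ | h4 | ⟨h4, -⟩
          · exact absurd ⟨fun _ => hN, fun _ => hPTQ⟩ h4
          · omega
          · omega
        · rcases h4 with ⟨h4, -, h6, h7⟩ | h4 | ⟨-, h4⟩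
          · exact Or.inl ⟨h6, h4, hN, h7⟩
          · exact Or.inr (Or.inr ⟨h4, hN⟩)
          · exact absurd (h4.mp hPTQ) (by rw [Nat.not_even_iff_odd]; exact hN)
    · rintro (⟨h, -⟩ | ⟨-, -, ho, h3, h4⟩ | ⟨-, -, he, h3, h5, h4⟩)
      · exact absurd h hr2
      · refine ⟨h3, Or.inl ⟨ho, ?_⟩⟩
        rcases Nat.lt_or_ge (2 * (m % i)) ((2 * d) % c) with h | h
        · exact Or.inr (Or.inl h)
        · exact Or.inr (Or.inr ⟨by omega, hPTQ⟩)
      · have hci : c = i := by rw [hc, if_pos he]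
        rw [hci] at h4 ⊢
        refine ⟨h3, Or.inr ⟨he, h5, ?_⟩⟩
        rcases h4 with ⟨h6, h7, h8, h9⟩ | ⟨h6, h7⟩ | ⟨h6, h7⟩
        · exact Or.inl ⟨h7, fun h => absurd (h.mp hPTQ) (by rw [Nat.not_even_iff_odd]; exact h8), h6, h9⟩
        · rcases Nat.lt_or_ge (2 * (m % i)) ((2 * d) % i) with h | h
          · exact Or.inr (Or.inl h)
          · exact Or.inr (Or.inr ⟨by omega, fun _ => h7, fun _ => hPTQ⟩)
        · exact Or.inr (Or.inl h6)

end Cfsg.Agent.S5973
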