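import Cfsg.Statements.S5974
import Cfsg.Agent.H39.OE15

set_option autoImplicit false
open scoped MatrixGroups
open Cfsg

namespace Cfsg.Agent.S5974

/-- Elements of prime order of PΩ⁺_n(q), n = 2d ≥ 8, with no fixed nondegenerate hyperbolic `m`-space. Here `T = PΩ⁺_n(q)` is realised through `Ω⁺_n(q)`, the commutator subgroup of the isometry group of `Q = Σ xᵢyᵢ` over the field `F` with `q` elements; an element of `T` of prime order `r` is an element `x` of `Ω⁺_n(q)` with `x^r` scalar and `x` not scalar. A hyperbolic `m`-space is a subspace `W` of even dimension `m` on which the polar form of `Q` is nondegenerate and which contains a totally singular subspace of dimension `m/2`. Let `m` be even with `2 ≤ m < n/2`, and let `r` be a prime dividing the number of hyperbolic `m`-spaces, with `r = 2` or `r ≠ p`. For `r ≠ p` let `i` be the multiplicative order of `q` modulo `r`, `c = i` for `i` even and `c = 2i` for `i` odd, and write `k = n mod c`, `ℓ' = m mod c`. Then every element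 of `T` of order `r` fixes some hyperbolic `m`-space if and only if one of: (i) `r = 2` and (`n ≡ 2 (mod 4)`, or `m ≡ 0 (mod 4)`, or `q ≡ 1 (mod 4)`); (ii) `r ≠ p` odd, `i` odd, `c ≤ m` and `k ≥ ℓ'`; (iii) `r ≠ p` odd, `i` even, and either `k = 0` and (`n/i` odd, or `ℓ' = 0` and `m/i` even), or `i ≤ m` and (`k > ℓ' > 0`, or `k = ℓ' > 0` and `(n + m − 2k)/i` even, or `k > ℓ' = 0` and `m/i` even). -/
theorem result {F : Type*} [Field F] [Fintype F] {p : ℕ} [Fact p.Prime] [CharP F p] {q : ℕ} (hq : Fintype.card F = q)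
    (d m : ℕ) (hd : 4 ≤ d) (hm : 2 ≤ m) (hme : Even m) (hmd : m < d)
    (r : ℕ) [Fact r.Prime] (hr : r = 2 ∨ r ≠ p)
    (hrΩ : r ∣ Nat.card {W : Submodule F (Fin d ⊕ Fin d → F) // (Module.finrank F ↥W = m ∧ (∀ u ∈ W, u ≠ 0 → ∃ v ∈ W, QuadraticMap.polar (Cfsg.quadFormPlus d F) u v ≠ 0) ∧
          ∃ U : Submodule F (Fin d ⊕ Fin d → F), U ≤ W ∧ 2 * Module.finrank F ↥U = m ∧ ∀ u ∈ U, Cfsg.quadFormPlus d F u = 0)})
    (i c : ℕ) (hi : i = orderOf (q : ZMod r)) (hc : c = if Even i then i else 2 * i) :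
    (∀ x : GL (Fin d ⊕ Fin d) F, x ∈ Cfsg.Geo.omegaGL (Cfsg.quadFormPlus d F) →
      (∃ z : F, ((x ^ r : GL (Fin d ⊕ Fin d) F) : Matrix (Fin d ⊕ Fin d) (Fin d ⊕ Fin d) F) = z • (1 : Matrix (Fin d ⊕ Fin d) (Fin d ⊕ Fin d) F)) →
      (∀ z : F, (x : Matrix (Fin d ⊕ Fin d) (Fin d ⊕ Fin d) F) ≠ z • (1 : Matrix (Fin d ⊕ Fin d) (Fin d ⊕ Fin d) F)) →
      ∃ W : Submodule F (Fin d ⊕ Fin d → F), (Module.finrank F ↥W = m ∧ (∀ u ∈ W, u ≠ 0 → ∃ v ∈ W, QuadraticMap.polar (Cfsg.quadFormPlus d F) u v ≠ 0) ∧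
          ∃ U : Submodule F (Fin d ⊕ Fin d → F), U ≤ W ∧ 2 * Module.finrank F ↥U = m ∧ ∀ u ∈ U, Cfsg.quadFormPlus d F u = 0) ∧
        W.map (Matrix.toLin' (x : Matrix (Fin d ⊕ Fin d) (Fin d ⊕ Fin d) F)) ≤ W) ↔
    ((r = 2 ∧ ((2 * d) % 4 = 2 ∨ m % 4 = 0 ∨ q % 4 = 1)) ∨
     (r ≠ p ∧ 2 < r ∧ Odd i ∧ c ≤ m ∧ m % c ≤ (2 * d) % c) ∨
     (r ≠ p ∧ 2 < r ∧ Even i ∧
       (((2 * d) % c = 0 ∧ (Odd ((2 * d) / i) ∨ (m % c = 0 ∧ Even (m / i)))) ∨
        (i ≤ m ∧ ((m % c < (2 * d) % c ∧ 0 < m % c) ∨
                  ((2 * d) % c = m % c ∧ 0 < m % c ∧ Even ((2 * d + m - 2 * ((2 * d) % c)) / i)) ∨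
                  (0 < (2 * d) % c ∧ m % c = 0 ∧ Even (m / i))))))) := by
  classical
  subst hq
  have hrpr : r.Prime := Fact.out
  have hppr : p.Prime := Fact.out
  obtain ⟨m', hm'⟩ := hme
  have hQ := Orth.qfPlus_nondegenerate d F
  have hfd := Orth.finrank_V d F
  have hPTQ : H39.OE.PT (Orth.qfPlus d F) ⊤ := ⟨Orth.U0 d F, le_top, Orth.TS_U0 d F, by rw [Orth.finrank_U0, finrank_top, hfd]⟩
  obtain ⟨ι', _, _, QT, hT, hTd, hTp⟩ := H39.OE.exists_model (F := F) (m := m') (by omega) True
  have hTm : Module.finrank F (ι' → F) = m := by omega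
  have hP : ∀ W : Submodule F (Fin d ⊕ Fin d → F), (Module.finrank F ↥W = m ∧ (∀ u ∈ W, u ≠ 0 → ∃ v ∈ W, QuadraticMap.polar (Cfsg.quadFormPlus d F) u v ≠ 0) ∧
          ∃ U : Submodule F (Fin d ⊕ Fin d → F), U ≤ W ∧ 2 * Module.finrank F ↥U = m ∧ ∀ u ∈ U, Cfsg.quadFormPlus d F u = 0) ↔
      H39.OE.IsoT QT (Orth.qfPlus d F) W := by
    intro W
    rw [H39.OE.isoT_iff hT hTd]
    constructor
    · rintro ⟨h1, h2, U, h3, h4, h5⟩
      refine ⟨by omega, fun u hu hu2 => ?_, fun _ => hTp.mpr trivial, fun _ => ⟨U, h3, h5, by omega⟩⟩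
      by_contra hu0
      obtain ⟨v, hv, hv2⟩ := h2 u hu hu0
      exact hv2 (hu2 v hv)
    · rintro ⟨h1, h2, h3⟩
      obtain ⟨U, u1, u2, u3⟩ := h3.mpr (hTp.mpr trivial)
      refine ⟨by omega, fun u hu hu0 => ?_, U, u1, by omega, u2⟩
      by_contra hcon
      push Not at hcon
      exact hu0 (h2 u hu hcon)
  by_cases hr2 : r = 2
  · subst hr2
    by_cases hp2 : p = 2
    · subst hp2
      have hqe : Fintype.card F % 2 = 0 := by
        obtain ⟨n, hn⟩ := FiniteField.card F 2
        rw [hn.2]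
        have := n.pos
        rw [← Nat.succ_pred_eq_of_pos this, pow_succ]
        omega
      constructor
      · intro hfix
        left
        refine ⟨rfl, ?_⟩
        by_contra hcon
        push Not at hcon
        obtain ⟨c1, c2, c3⟩ := hcon
        have hde : Even d := by
          rw [Nat.even_iff]
          omega
        obtain ⟨g, g1, g2, g3, g4⟩ := H39.OE.exists_bad_plus (F := F) hd
        obtain ⟨W, hW, hinv⟩ := hfix g g1 ⟨1, g2⟩ g3
        have hW' := (H39.OE.isoT_iff hT hTd).mp ((hP W).mp hW)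
        have := (g4 W hW'.2.1 hinv).2 hde
        rw [hW.1] at this
        exact c2 this
      · rintro (⟨-, h⟩ | ⟨h, -⟩ | ⟨h, -⟩)
        · rintro x x1 ⟨z, hz⟩ x3
          have hxi := H99.isom_of_mem_omegaGL x1
          have hxz := H39.OE.toLin_sq hz
          have hzz : z * z = 1 := H39.OE.scalar_sq hQ (by omega) (fun v => by rw [← hxz]; exact (hxi _).trans (hxi _))
          have hz1 := H99.scalar_eq_one_of_isom (F := F) (V := F) (by rw [pow_two]; exact hzz)
          subst hz1
          obtain ⟨W, w1, w2, w3⟩ := H39.OE.exists_two_plus hQ hfd hxi (fun v => by rw [hxz, one_smul]) hPTQ (m := m) ⟨m', hm'⟩ (by omega) (by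
            rcases h with h | h | h
            · right
              rw [Nat.odd_iff]
              omega
            · exact Or.inl h
            · omega)
          refine ⟨W, (hP W).mpr ((H39.OE.isoT_iff hT hTd).mpr ⟨by omega, w1.nd, fun _ => hTp.mpr trivial, fun _ => w3⟩), ?_⟩
          rintro _ ⟨v, hv, rfl⟩
          exact w1.inv v hv
        · exact absurd rfl h
        · exact absurd rfl h
    · have hpo : Odd p := hppr.odd_of_ne_two hp2
      have hodd : Odd (Fintype.card F) := by
        obtain ⟨n, hn⟩ := FiniteField.card F p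
        rw [hn.2]
        exact hpo.pow
      obtain ⟨-, h2⟩ := H99.odd_char (F := F) (p := p) hodd
      obtain ⟨s1, s2⟩ := H39.OE.sq_facts (F := F) hodd
      obtain ⟨l, hl⟩ := hodd
      have h3 := H39.OE.two_crit h2 (Q := Orth.qfPlus d F) hQ hfd (by rw [hfd]; omega) hT hTm (by omega) (by omega) hP
      refine Iff.trans h3 ?_
      rw [s1, s2, hTp]
      constructor
      · intro h
        left
        refine ⟨rfl, ?_⟩
        rcases Nat.even_or_odd d with hde | hdo
        · obtain ⟨k', hk', h4⟩ := h ⟨Or.inr hde, fun _ => Or.inr hde, fun _ => hPTQ⟩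
          rcases h4.mp trivial with h5 | ⟨t, ht⟩
          · exact Or.inr (Or.inr h5)
          · exact Or.inr (Or.inl (by omega))
        · left
          obtain ⟨t, ht⟩ := hdo
          omega
      · rintro (⟨-, h4⟩ | ⟨-, h4, -⟩ | ⟨-, h4, -⟩)
        · rintro ⟨h6, h7⟩
          refine ⟨m / 2, by omega, fun _ => ?_, fun _ => trivial⟩
          rcases h4 with h4 | h4 | h4
          · have h8 := h7.mp hPTQ
            left
            rcases h8 with h8 | ⟨t, ht⟩
            · exact h8
            · omega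
          · right
            rw [Nat.even_iff]
            omega
          · exact Or.inl h4
        · omega
        · omega
  · have hr3 : 2 < r := by
      have := hrpr.two_le
      omega
    have hrp : r ≠ p := hr.resolve_left hr2
    have h3 := H39.OE.trans_scalar (Q := Orth.qfPlus d F) hQ (by rw [hfd]; omega) hr2 hP
    obtain ⟨h4, h5⟩ := H39.OE.criterion (p := p) hr2 hrp hQ hT (Or.inr ⟨⟨d, by rw [hfd]; ring⟩, ⟨m', by omega⟩⟩) (Or.inl ⟨d, by rw [hfd]; ring⟩) (by omega) (by omega)
      (by rw [Nat.card_congr (Equiv.subtypeEquivRight hP)] at hrΩ; exact hrΩ)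
    refine Iff.trans (h3.trans h4) ?_
    have hcb := H39.OE.blk_eq (F := F) hi hc
    have hcE := H99.even_blk r (Fintype.card F)
    have hcpos := H39.OE.blk_pos (F := F) (p := p) hrp
    rw [hcb] at h5 hcE hcpos ⊢
    rw [← hi, hfd, hTm] at h5 ⊢
    have e1 := H39.OE.even_mod (a := m) ⟨m', hm'⟩ hcE
    have e2 := H39.OE.even_mod (a := 2 * d) ⟨d, by ring⟩ hcE
    have e3 := H39.OE.even_sub_iff (c := c) (m := m) (n := 2 * d) (by omega)
    have e4 := H39.OE.div_add_eq' (c := c) (m := m) (n := 2 * d) hcpos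
    have e5 : Even m := ⟨m', hm'⟩
    have e6 : Even (2 * d) := ⟨d, by ring⟩
    have hTt : H39.OE.PT QT ⊤ := hTp.mpr trivial
    rcases Nat.even_or_odd i with he | ho
    · have hci : c = i := by rw [hc, if_pos he]
      have hno : ¬ Odd i := Nat.not_odd_iff_even.mpr he
      rw [← hci] at hno h5 ⊢
      have hce : Even c := by rw [hci]; exact he
      constructor
      · intro h
        have hcm := h5 h
        right; right
        refine ⟨hrp, hr3, hce, ?_⟩
        rcases h with ⟨g1, g2⟩ | ⟨g1, g2, g3, g4⟩ | ⟨g1, g2, g3, g4⟩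
        · left
          refine ⟨g1, Or.inl ?_⟩
          rw [← Nat.not_even_iff_odd]
          intro h6
          exact g2 ⟨fun _ => Or.inr h6, fun _ => hPTQ⟩
        · left
          exact ⟨g1, Or.inr ⟨g3, (g4.mp hTt).resolve_left hno⟩⟩
        · right
          refine ⟨hcm, ?_⟩
          by_cases h6 : m % c = 0
          · right; right
            exact ⟨g1, h6, ((g3 h6).mp hTt).resolve_left hno⟩
          · by_cases h7 : m % c = (2 * d) % c
            · right; left
              refine ⟨h7.symm, by omega, ?_⟩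
              rw [e4 h7, ← e3]
              exact (((g4 h7 e6 e5).mp hPTQ).mp hTt).resolve_left hno
            · left
              exact ⟨by omega, by omega⟩
      · rintro (⟨h, -⟩ | ⟨-, -, h, -⟩ | ⟨-, -, -, h⟩)
        · exact absurd h hr2
        · exact absurd h hno
        · rcases h with ⟨g1, g2 | ⟨g2, g3⟩⟩ | ⟨g1, ⟨g2, g3⟩ | ⟨g2, g3, g4⟩ | ⟨g2, g3, g4⟩⟩
          · left
            refine ⟨g1, fun h => ?_⟩
            rcases h.mp hPTQ with h6 | h6
            · exact hno h6
            · exact absurd h6 (Nat.not_even_iff_odd.mpr g2)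
          · by_cases h6 : Even (2 * d / c)
            · right; left
              exact ⟨g1, ⟨fun _ => Or.inr h6, fun _ => hPTQ⟩, g2, fun _ => Or.inr g3, fun _ => hTt⟩
            · left
              refine ⟨g1, fun h => ?_⟩
              rcases h.mp hPTQ with h7 | h7
              · exact hno h7
              · exact h6 h7
          · right; right
            exact ⟨by omega, by omega, fun h => by omega, fun h => by omega⟩
          · right; right
            refine ⟨by omega, by omega, fun h => by omega, fun _ _ _ => ?_⟩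
            rw [e4 g2.symm, ← e3] at g4
            exact ⟨fun _ => ⟨fun _ => Or.inr g4, fun _ => hTt⟩, fun _ => hPTQ⟩
          · right; right
            exact ⟨by omega, by omega, fun _ => ⟨fun _ => Or.inr g4, fun _ => hTt⟩, fun h => by omega⟩
    · constructor
      · intro h
        have hcm := h5 h
        right; left
        refine ⟨hrp, hr3, ho, hcm, ?_⟩
        rcases h with ⟨g1, g2⟩ | ⟨g1, g2, g3, g4⟩ | ⟨g1, g2, g3, g4⟩
        · exact absurd ⟨fun _ => Or.inl ho, fun _ => hPTQ⟩ g2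
        · omega
        · exact g2
      · rintro (⟨h, -⟩ | ⟨-, -, -, g1, g2⟩ | ⟨-, -, h, -⟩)
        · exact absurd h hr2
        · by_cases hk : (2 * d) % c = 0
          · right; left
            exact ⟨hk, ⟨fun _ => Or.inl ho, fun _ => hPTQ⟩, by omega, fun _ => Or.inl ho, fun _ => hTt⟩
          · right; right
            exact ⟨by omega, by omega, fun _ => ⟨fun _ => Or.inl ho, fun _ => hTt⟩, fun _ _ _ => ⟨fun _ => ⟨fun _ => Or.inl ho, fun _ => hTt⟩, fun _ => hPTQ⟩⟩
        · exact absurd h (Nat.not_even_iff_odd.mpr ho)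

end Cfsg.Agent.S5974
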