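import Cfsg.Statements.S5975
import Cfsg.Agent.H99.FieldExtD

set_option autoImplicit false
open scoped MatrixGroups
open scoped Matrix
open Cfsg

namespace Cfsg.Agent.S5975


open Module Matrix Cfsg.Agent.H99 Cfsg.Agent.H99.FX

section
variable {F : Type*} [Field F] [Fintype F] {p : ℕ} [Fact p.Prime] [CharP F p] {d : ℕ}
variable {E : Type*} [Field E] [Algebra F E] [FiniteDimensional F E]

theorem odd_of_ne (hrp : (2 : ℕ) ≠ p) : Odd (Fintype.card F) := by
  obtain ⟨m, hp, hm⟩ := FiniteField.card F p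
  rw [hm]
  exact (hp.odd_of_ne_two (Ne.symm hrp)).pow

theorem sp_not_scalar {r : ℕ} (hr : Odd r) {x : GL (Fin d ⊕ Fin d) F} (hx : x ∈ Cfsg.spGL d F) (hxr : x ^ r = 1)
    (hfin : finrank F (LinearMap.ker (Matrix.toLin' (x : Matrix (Fin d ⊕ Fin d) (Fin d ⊕ Fin d) F) - (1 : F) • 1)) < 2 * d) (hd : 0 < d) :
    ∀ z : F, (x : Matrix (Fin d ⊕ Fin d) (Fin d ⊕ Fin d) F) ≠ z • (1 : Matrix (Fin d ⊕ Fin d) (Fin d ⊕ Fin d) F) := by
  intro z hz
  have hA := sympForm_altForm (F := F) d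
  obtain ⟨u, v, huv⟩ : ∃ u v, Cfsg.sympForm d F u v ≠ 0 := by
    by_contra hcon
    push Not at hcon
    have h3 : (⊤ : Submodule F (Fin d ⊕ Fin d → F)) = ⊥ := by
      rw [eq_bot_iff]
      intro u hu
      exact sympForm_ND d u hu (fun v _ => hcon u v)
    have h4 : finrank F (⊤ : Submodule F (Fin d ⊕ Fin d → F)) = 0 := by rw [h3, finrank_bot]
    rw [finrank_top, finrank_fintype_fun_eq_card, Fintype.card_sum, Fintype.card_fin] at h4
    omega
  have h3 := mem_spGL'.mp hx u v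
  rw [hz, Matrix.smul_mulVec, Matrix.smul_mulVec, Matrix.one_mulVec, Matrix.one_mulVec, hA.smul_left, hA.smul_right] at h3
  have h4 : z ^ 2 = 1 := by
    apply mul_right_cancel₀ huv
    rw [one_mul, pow_two, mul_assoc]
    exact h3
  have h5 : z ^ r = 1 := by
    have h6 := congrArg (fun g : GL (Fin d ⊕ Fin d) F => (g : Matrix (Fin d ⊕ Fin d) (Fin d ⊕ Fin d) F) *ᵥ u) hxr
    simp only [Units.val_pow_eq_pow_val, hz, _root_.smul_pow, one_pow, Matrix.smul_mulVec, Matrix.one_mulVec, Units.val_one] at h6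
    have hu0 : u ≠ 0 := by
      rintro rfl
      exact huv (hA.oform.zero_left v)
    have h7 : (z ^ r - 1) • u = 0 := by rw [sub_smul, one_smul, h6, sub_self]
    exact sub_eq_zero.mp ((smul_eq_zero.mp h7).resolve_right hu0)
  have h6 : z = 1 := by
    obtain ⟨m, hm⟩ := hr
    rw [hm, pow_succ, pow_mul, h4, one_pow, one_mul] at h5
    exact h5
  rw [hz, h6, one_smul] at hfin
  have h7 : (Matrix.toLin' (1 : Matrix (Fin d ⊕ Fin d) (Fin d ⊕ Fin d) F) - (1 : F) • 1 : (Fin d ⊕ Fin d → F) →ₗ[F] (Fin d ⊕ Fin d → F)) = 0 := by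
    rw [Matrix.toLin'_one, one_smul]
    exact sub_self _
  rw [h7, LinearMap.ker_zero, finrank_top, finrank_fintype_fun_eq_card, Fintype.card_sum, Fintype.card_fin] at hfin
  omega

theorem core_forward {p : ℕ} [Fact p.Prime] [CharP F p] (φ : E →ₐ[F] Matrix (Fin d ⊕ Fin d) (Fin d ⊕ Fin d) F)
    (hsa : ∀ (e : E) u v, Cfsg.sympForm d F u (φ e *ᵥ v) = Cfsg.sympForm d F (φ e *ᵥ u) v) (halt : ∀ (e : E) v, Cfsg.sympForm d F (φ e *ᵥ v) v = 0)
    {k : ℕ} (hk : k.Prime) (hkE : finrank F E = k) (hd : 2 ≤ d) {r : ℕ} [Fact r.Prime] (H : Subgroup (GL (Fin d ⊕ Fin d) F))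
    (hH : ∀ g : GL (Fin d ⊕ Fin d) F, g ∈ H ↔ ∀ e : E, ∃ e' : E, (g : Matrix (Fin d ⊕ Fin d) (Fin d ⊕ Fin d) F) * φ e = φ e' * (g : Matrix (Fin d ⊕ Fin d) (Fin d ⊕ Fin d) F))
    (hΩ : r ∣ H.relIndex (Cfsg.spGL d F))
    (h : ∀ x ∈ Cfsg.spGL d F, (∃ z : F, ((x ^ r : GL (Fin d ⊕ Fin d) F) : Matrix (Fin d ⊕ Fin d) (Fin d ⊕ Fin d) F) = z • (1 : Matrix (Fin d ⊕ Fin d) (Fin d ⊕ Fin d) F)) →
      (∀ z : F, (x : Matrix (Fin d ⊕ Fin d) (Fin d ⊕ Fin d) F) ≠ z • (1 : Matrix (Fin d ⊕ Fin d) (Fin d ⊕ Fin d) F)) →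
      ∃ g ∈ Cfsg.spGL d F, g⁻¹ * x * g ∈ H) : r = 2 ∧ d = 2 ∧ k = 2 ∧ Odd (Fintype.card F) := by
  classical
  have hr : r.Prime := Fact.out
  have hp : p.Prime := Fact.out
  have hcard : Fintype.card (Fin d ⊕ Fin d) = 2 * d := by
    rw [Fintype.card_sum, Fintype.card_fin]
    ring
  have hone : ∀ {x : GL (Fin d ⊕ Fin d) F}, x ^ r = 1 → ∃ z : F, ((x ^ r : GL (Fin d ⊕ Fin d) F) : Matrix (Fin d ⊕ Fin d) (Fin d ⊕ Fin d) F) = z • (1 : Matrix (Fin d ⊕ Fin d) (Fin d ⊕ Fin d) F) := by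
    intro x hx
    exact ⟨1, by rw [hx, Units.val_one, one_smul]⟩
  have hnonempty : Nonempty (Fin d ⊕ Fin d) := ⟨Sum.inl ⟨0, by omega⟩⟩
  have hk1 := hk.two_le
  -- dimension of the space
  have h1comm : ∀ e : E, ((1 : GL (Fin d ⊕ Fin d) F) : Matrix (Fin d ⊕ Fin d) (Fin d ⊕ Fin d) F) * φ e = φ e * ((1 : GL (Fin d ⊕ Fin d) F) : Matrix (Fin d ⊕ Fin d) (Fin d ⊕ Fin d) F) := by
    intro e
    rw [Units.val_one, one_mul, mul_one]
  by_cases hrp : r = p
  · exfalso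
    subst hrp
    obtain ⟨x, hx, hxr, hxk⟩ := exists_transvection (F := F) (p := r) (d := d) (by omega)
    obtain ⟨g, hg, hgH⟩ := h x hx (hone hxr) (not_scalar_of_ker (c := 1) (by omega) (by omega))
    have hyk := conj_ker x g 1
    rw [hH] at hgH
    rcases norm_dichotomy φ _ hgH 1 with h1 | h1
    · have h2 := dvd_ker φ h1 1
      rw [hyk, hkE] at h2
      have h3 := dvd_ker φ h1comm (0 : F)
      have h4 : finrank F E ∣ 2 * d := by
        have h5 := AschCases.finrank_dvd_of_algHom (((Matrix.toLinAlgEquiv' : Matrix (Fin d ⊕ Fin d) (Fin d ⊕ Fin d) F ≃ₐ[F] _).toAlgHom.comp φ : E →ₐ[F] _))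
        rwa [finrank_fintype_fun_eq_card, hcard] at h5
      rw [hkE, ← hxk] at h4
      have h5 := (Nat.dvd_add_right h2).mp h4
      have := Nat.le_of_dvd one_pos h5
      omega
    · rw [hyk, hcard] at h1
      omega
  obtain ⟨j, hj0, hjd, hkj, hrj⟩ := core_index_sa (by omega) φ hsa halt hrp H (fun g hg => (hH g).mpr (fun e => ⟨e, hg e⟩)) hΩ hkE
  have hdk : 2 * k ∣ 2 * d := by
    have h3 := core_even_sa φ hsa halt hrp (y := 1) (Subgroup.one_mem _) (one_pow r) h1comm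
    have h4 : LinearMap.ker (Matrix.toLin' ((1 : GL (Fin d ⊕ Fin d) F) : Matrix (Fin d ⊕ Fin d) (Fin d ⊕ Fin d) F) - 1) = ⊤ := by
      rw [Units.val_one, Matrix.toLin'_one]
      have : (LinearMap.id - 1 : (Fin d ⊕ Fin d → F) →ₗ[F] (Fin d ⊕ Fin d → F)) = 0 := sub_self _
      rw [this, LinearMap.ker_zero]
    rw [h4, finrank_top, finrank_fintype_fun_eq_card, hcard, hkE] at h3
    exact h3
  by_cases hr2 : r = 2
  · subst hr2
    have hodd : Odd (Fintype.card F) := odd_of_ne hrp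
    have h2F : (2 : F) ≠ 0 := by
      intro h0
      apply hrp
      have h1 : CharP F 2 := CharTwo.of_one_ne_zero_of_two_eq_zero one_ne_zero h0
      exact CharP.eq F h1 ‹CharP F p›
    obtain ⟨x, hx, hxr, hxk, hxk'⟩ := exists_plane (F := F) (d := d) h2F (by omega)
    obtain ⟨g, hg, hgH⟩ := h x hx (hone hxr) (not_scalar_of_ker (c := -1) (by omega) (by omega))
    have hyk := conj_ker x g (-1)
    have hyk' := conj_ker x g 1
    set y : GL (Fin d ⊕ Fin d) F := g⁻¹ * x * g with hy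
    have hyG : y ∈ Cfsg.spGL d F := Subgroup.mul_mem _ (Subgroup.mul_mem _ (Subgroup.inv_mem _ hg) hx) hg
    have hyr : y ^ 2 = 1 := GL_conj_pow hxr
    rw [hH] at hgH
    have hncomm : ¬ ∀ e : E, (y : Matrix (Fin d ⊕ Fin d) (Fin d ⊕ Fin d) F) * φ e = φ e * (y : Matrix (Fin d ⊕ Fin d) (Fin d ⊕ Fin d) F) := by
      intro hc
      have hnG : -y ∈ Cfsg.spGL d F := by
        rw [mem_spGL']
        intro u v
        rw [Units.val_neg, Matrix.neg_mulVec, Matrix.neg_mulVec]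
        have hA := (sympForm_altForm (F := F) d)
        have h3 := hA.smul_left (-1) ((y : Matrix (Fin d ⊕ Fin d) (Fin d ⊕ Fin d) F) *ᵥ u) (-((y : Matrix (Fin d ⊕ Fin d) (Fin d ⊕ Fin d) F) *ᵥ v))
        have h4 := hA.smul_right (-1) ((y : Matrix (Fin d ⊕ Fin d) (Fin d ⊕ Fin d) F) *ᵥ u) ((y : Matrix (Fin d ⊕ Fin d) (Fin d ⊕ Fin d) F) *ᵥ v)
        rw [neg_smul, one_smul] at h3 h4
        rw [h3, h4, mem_spGL'.mp hyG]
        ring
      have h3 := core_even_sa φ hsa halt hrp (y := -y) hnG (by rw [neg_sq]; exact hyr) (fun e => by rw [Units.val_neg, neg_mul, mul_neg, hc e])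
      have h4 : LinearMap.ker (Matrix.toLin' ((-y : GL (Fin d ⊕ Fin d) F) : Matrix (Fin d ⊕ Fin d) (Fin d ⊕ Fin d) F) - 1) =
          LinearMap.ker (Matrix.toLin' (y : Matrix (Fin d ⊕ Fin d) (Fin d ⊕ Fin d) F) - (-1 : F) • 1) := by
        ext v
        rw [FX.mem_ker_iff, LinearMap.mem_ker, LinearMap.sub_apply, sub_eq_zero, Matrix.toLin'_apply, Units.val_neg, Matrix.neg_mulVec, Module.End.one_apply, neg_smul, one_smul]
        constructor
        · intro h; exact neg_eq_iff_eq_neg.mp h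
        · intro h; exact neg_eq_iff_eq_neg.mpr h
      rw [h4, hyk, hxk, hkE] at h3
      have := Nat.le_of_dvd (by norm_num) h3
      omega
    have h5 := (norm_dichotomy φ _ hgH 1).resolve_left hncomm
    rw [hyk', hcard] at h5
    have hk2 : k = 2 := by
      by_contra hne
      exact hncomm (norm_aut φ y hgH hr hyr hk hkE (Ne.symm hne))
    exact ⟨rfl, by omega, hk2, hodd⟩
  · exfalso
    have hQ : ¬ r ∣ Fintype.card F := prime_not_dvd_card hrp
    have hipos := orderOf_pos_of_not_dvd (r := r) hQ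
    set i := orderOf ((Fintype.card F : ℕ) : ZMod r) with hi
    have hij : i ∣ 2 * j := by
      rw [dvd_pow_sub_one_iff Fintype.card_pos] at hrj
      exact hrj
    have hblk : blk r (Fintype.card F) ∣ 2 * j := by
      unfold blk
      rw [← hi]
      split_ifs with he
      · exact hij
      · rw [Nat.not_even_iff_odd] at he
        exact Nat.mul_dvd_mul_left 2 ((Nat.Coprime.dvd_mul_left (Nat.coprime_two_right.mpr he)).mp hij)
    have hblk2 : Even (blk r (Fintype.card F)) := even_blk _ _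
    have h2j : 0 < 2 * j := by
      clear_value i
      omega
    have hble1 : blk r (Fintype.card F) ≤ 2 * j := Nat.le_of_dvd h2j hblk
    have hble : blk r (Fintype.card F) ≤ 2 * d := hble1.trans (Nat.mul_le_mul_left 2 hjd)
    have hbr := blk_le hQ hr2
    have hb0 : 0 < blk r (Fintype.card F) := Nat.pos_of_dvd_of_pos hblk h2j
    obtain ⟨x, hx, hxr, hxk⟩ := exists_block (F := F) (d := d) hr2 hrp hble
    have hfin : finrank F (LinearMap.ker (Matrix.toLin' (x : Matrix (Fin d ⊕ Fin d) (Fin d ⊕ Fin d) F) - (1 : F) • 1)) < 2 * d := by omega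
    have hrodd : Odd r := hr.odd_of_ne_two hr2
    have hxns : ∀ z : F, (x : Matrix (Fin d ⊕ Fin d) (Fin d ⊕ Fin d) F) ≠ z • (1 : Matrix (Fin d ⊕ Fin d) (Fin d ⊕ Fin d) F) :=
      sp_not_scalar hrodd hx hxr hfin (by omega)
    obtain ⟨g, hg, hgH⟩ := h x hx (hone hxr) hxns
    have hyk := conj_ker x g 1
    set y : GL (Fin d ⊕ Fin d) F := g⁻¹ * x * g with hy
    have hyG : y ∈ Cfsg.spGL d F := Subgroup.mul_mem _ (Subgroup.mul_mem _ (Subgroup.inv_mem _ hg) hx) hg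
    have hyr : y ^ r = 1 := GL_conj_pow hxr
    rw [hH] at hgH
    rcases norm_dichotomy φ _ hgH 1 with h1 | h1
    · have h3 := core_even_sa φ hsa halt hrp hyG hyr h1
      rw [one_smul] at hyk
      rw [hyk, hkE] at h3
      rw [one_smul] at hxk
      have h4 : 2 * k ∣ blk r (Fintype.card F) := by
        rw [← hxk] at hdk
        exact (Nat.dvd_add_right h3).mp hdk
      apply hkj
      have h5 : 2 * k ∣ 2 * j := h4.trans hblk
      exact Nat.dvd_of_mul_dvd_mul_left (by norm_num) h5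
    · rw [hyk, hcard] at h1
      have hrk : r = k := by
        by_contra hne
        have h3 := norm_aut φ y hgH hr hyr hk hkE hne
        have h3 := core_even_sa φ hsa halt hrp hyG hyr h3
        rw [one_smul] at hyk
        rw [hyk, hkE] at h3
        rw [one_smul] at hxk
        have h4 : 2 * k ∣ blk r (Fintype.card F) := by
          rw [← hxk] at hdk
          exact (Nat.dvd_add_right h3).mp hdk
        apply hkj
        have h5 : 2 * k ∣ 2 * j := h4.trans hblk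
        exact Nat.dvd_of_mul_dvd_mul_left (by norm_num) h5
      have h5 : k ∣ d := Nat.dvd_of_mul_dvd_mul_left (by norm_num) hdk
      have h6 := Nat.le_of_dvd (by omega) h5
      omega

end

section
variable {F : Type*} [Field F] [Fintype F]
variable {E : Type*} [Field E] [Algebra F E] [FiniteDimensional F E]

theorem core_backward (φ : E →ₐ[F] Matrix (Fin 2 ⊕ Fin 2) (Fin 2 ⊕ Fin 2) F)
    (hsa : ∀ (e : E) u v, Cfsg.sympForm 2 F u (φ e *ᵥ v) = Cfsg.sympForm 2 F (φ e *ᵥ u) v) (halt : ∀ (e : E) v, Cfsg.sympForm 2 F (φ e *ᵥ v) v = 0)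
    (hkE : finrank F E = 2) (h2F : (2 : F) ≠ 0) (H : Subgroup (GL (Fin 2 ⊕ Fin 2) F))
    (hH : ∀ g : GL (Fin 2 ⊕ Fin 2) F, g ∈ H ↔ ∀ e : E, ∃ e' : E, (g : Matrix (Fin 2 ⊕ Fin 2) (Fin 2 ⊕ Fin 2) F) * φ e = φ e' * (g : Matrix (Fin 2 ⊕ Fin 2) (Fin 2 ⊕ Fin 2) F))
    {x : GL (Fin 2 ⊕ Fin 2) F} (hx : x ∈ Cfsg.spGL 2 F) {z : F} (hz : ((x ^ 2 : GL (Fin 2 ⊕ Fin 2) F) : Matrix (Fin 2 ⊕ Fin 2) (Fin 2 ⊕ Fin 2) F) = z • (1 : Matrix (Fin 2 ⊕ Fin 2) (Fin 2 ⊕ Fin 2) F))
    (hns : ∀ z : F, (x : Matrix (Fin 2 ⊕ Fin 2) (Fin 2 ⊕ Fin 2) F) ≠ z • (1 : Matrix (Fin 2 ⊕ Fin 2) (Fin 2 ⊕ Fin 2) F)) :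
    ∃ g ∈ Cfsg.spGL 2 F, g⁻¹ * x * g ∈ H := by
  classical
  have hEfin : Finite E := Module.finite_of_finite F
  have : Fintype E := Fintype.ofFinite E
  have hA := sympForm_altForm (F := F) 2
  letI := modOf φ
  haveI := modOf_tower φ
  haveI : FiniteDimensional E (Fin 2 ⊕ Fin 2 → F) := FiniteDimensional.right F E (Fin 2 ⊕ Fin 2 → F)
  obtain ⟨g, hg1, hg2, hg3⟩ := exists_alt_trace φ hsa halt
  have hdim := Module.finrank_mul_finrank F E (Fin 2 ⊕ Fin 2 → F)
  rw [hkE, finrank_fintype_fun_eq_card, Fintype.card_sum, Fintype.card_fin] at hdim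
  obtain ⟨T, hT⟩ := exists_equiv_sympForm hg2 hg3 (m := 1) (by omega)
  have hform : ∀ u v, Cfsg.sympForm 2 F (T u) (T v) = Algebra.trace F E (Cfsg.sympForm 1 E u v) := by
    intro u v
    have h1 := hg1 1 (T u) (T v)
    rw [map_one, Matrix.one_mulVec, mul_one, hT] at h1
    exact h1
  -- the scalar
  obtain ⟨u₀, v₀, huv₀⟩ : ∃ u v, Cfsg.sympForm 2 F u v ≠ 0 := by
    by_contra hcon
    push Not at hcon
    have h3 : (⊤ : Submodule F (Fin 2 ⊕ Fin 2 → F)) = ⊥ := by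
      rw [eq_bot_iff]
      intro u hu
      exact sympForm_ND 2 u hu (fun v _ => hcon u v)
    have h4 : finrank F (⊤ : Submodule F (Fin 2 ⊕ Fin 2 → F)) = 0 := by rw [h3, finrank_bot]
    rw [finrank_top, finrank_fintype_fun_eq_card, Fintype.card_sum, Fintype.card_fin] at h4
    omega
  have hzz : z = 1 ∨ z = -1 := by
    have hx2 : x ^ 2 ∈ Cfsg.spGL 2 F := Subgroup.pow_mem _ hx 2
    have h3 := mem_spGL'.mp hx2 u₀ v₀
    rw [hz, Matrix.smul_mulVec, Matrix.smul_mulVec, Matrix.one_mulVec, Matrix.one_mulVec, hA.smul_left, hA.smul_right] at h3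
    apply mul_self_eq_one_iff.mp
    apply mul_right_cancel₀ huv₀
    rw [one_mul, mul_assoc]
    exact h3
  have hneg1 : (-1 : F) ≠ 1 := by
    intro h
    apply h2F
    linear_combination -h
  rcases hzz with rfl | rfl
  · have hxx : x * x = 1 := by
      apply Units.ext
      rw [← pow_two, hz, one_smul, Units.val_one]
    -- the semilinear involution
    obtain ⟨σ, hσ1, hσ2⟩ : ∃ σ : E ≃ₐ[F] E, σ ≠ 1 ∧ σ * σ = 1 := by
      have hcard : Nat.card (E ≃ₐ[F] E) = 2 := by rw [IsGalois.card_aut_eq_finrank, hkE]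
      have : Nontrivial (E ≃ₐ[F] E) := by
        have := Finite.one_lt_card_iff_nontrivial (α := E ≃ₐ[F] E)
        rw [← this, hcard]
        norm_num
      obtain ⟨σ, hσ⟩ := exists_ne (1 : E ≃ₐ[F] E)
      refine ⟨σ, hσ, ?_⟩
      rw [← pow_two, ← hcard]
      exact pow_card_eq_one'
    have hσσ : ∀ a, σ (σ a) = a := by
      intro a
      have := congrArg (fun τ : E ≃ₐ[F] E => τ a) hσ2
      simpa using this
    let S : (Fin 1 ⊕ Fin 1 → E) ≃ₗ[F] (Fin 1 ⊕ Fin 1 → E) := LinearEquiv.piCongrRight (fun _ => σ.toLinearEquiv)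
    have hS : ∀ w i, S w i = σ (w i) := fun _ _ => rfl
    let TF : (Fin 1 ⊕ Fin 1 → E) ≃ₗ[F] (Fin 2 ⊕ Fin 2 → F) := T.restrictScalars F
    have hTF : ∀ w, TF w = T w := fun _ => rfl
    let e : (Fin 2 ⊕ Fin 2 → F) ≃ₗ[F] (Fin 2 ⊕ Fin 2 → F) := TF.symm ≪≫ₗ S ≪≫ₗ TF
    have he : ∀ w, e (T w) = T (S w) := by
      intro w
      change TF (S (TF.symm (TF w))) = _
      rw [TF.symm_apply_apply]
      rfl
    obtain ⟨y, hy, hyv⟩ := exists_spGL_of_equiv e (by
      intro u v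
      obtain ⟨u', rfl⟩ := T.surjective u
      obtain ⟨v', rfl⟩ := T.surjective v
      rw [he, he, hform, hform]
      have h1 : Cfsg.sympForm 1 E (S u') (S v') = σ (Cfsg.sympForm 1 E u' v') := by
        rw [sympForm_eq, sympForm_eq, map_sum]
        apply Finset.sum_congr rfl
        intro i _
        rw [hS, hS, hS, hS, map_sub, map_mul, map_mul]
      rw [h1, Algebra.trace_eq_of_algEquiv])
    have hSS : ∀ w, S (S w) = w := by
      intro w
      funext i
      rw [hS, hS, hσσ]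
    have hyy : y * y = 1 := by
      apply Units.ext
      apply mat_ext'
      intro v
      obtain ⟨w, rfl⟩ := T.surjective v
      rw [Units.val_mul, ← Matrix.mulVec_mulVec, hyv, hyv, he, he, hSS, Units.val_one, Matrix.one_mulVec]
    have hyφ : ∀ a : E, (y : Matrix (Fin 2 ⊕ Fin 2) (Fin 2 ⊕ Fin 2) F) * φ a = φ (σ a) * (y : Matrix (Fin 2 ⊕ Fin 2) (Fin 2 ⊕ Fin 2) F) := by
      intro a
      apply mat_ext'
      intro v
      obtain ⟨w, rfl⟩ := T.surjective v
      rw [← Matrix.mulVec_mulVec, ← Matrix.mulVec_mulVec, hyv, ← modOf_smul φ a, ← modOf_smul φ (σ a), hyv, he, ← map_smul, he, ← map_smul]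
      congr 1
      funext i
      rw [hS, Pi.smul_apply, Pi.smul_apply, smul_eq_mul, smul_eq_mul, map_mul, hS]
    have hyH : y ∈ H := (hH y).mpr (fun a => ⟨σ a, hyφ a⟩)
    have hyn : ¬ ∀ a : E, (y : Matrix (Fin 2 ⊕ Fin 2) (Fin 2 ⊕ Fin 2) F) * φ a = φ a * (y : Matrix (Fin 2 ⊕ Fin 2) (Fin 2 ⊕ Fin 2) F) := by
      intro h
      apply hσ1
      apply AlgEquiv.ext
      intro a
      have h1 : φ (σ a) * (y : Matrix (Fin 2 ⊕ Fin 2) (Fin 2 ⊕ Fin 2) F) = φ a * (y : Matrix (Fin 2 ⊕ Fin 2) (Fin 2 ⊕ Fin 2) F) := by rw [← hyφ, h]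
      have h2 : φ (σ a) = φ a := by
        have h3 := congrArg (fun m => m * ((y⁻¹ : GL (Fin 2 ⊕ Fin 2) F) : Matrix (Fin 2 ⊕ Fin 2) (Fin 2 ⊕ Fin 2) F)) h1
        simp only [mul_assoc] at h3
        rw [← Units.val_mul, mul_inv_cancel, Units.val_one, mul_one, mul_one] at h3
        exact h3
      exact φ.toRingHom.injective h2
    have hvv : ∀ {z : GL (Fin 2 ⊕ Fin 2) F}, z * z = 1 → ∀ v, (z : Matrix (Fin 2 ⊕ Fin 2) (Fin 2 ⊕ Fin 2) F) *ᵥ ((z : Matrix (Fin 2 ⊕ Fin 2) (Fin 2 ⊕ Fin 2) F) *ᵥ v) = v := by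
      intro z hz v
      rw [Matrix.mulVec_mulVec, ← Units.val_mul, hz, Units.val_one, Matrix.one_mulVec]
    have h1 := (norm_dichotomy φ y (fun a => ⟨σ a, hyφ a⟩) 1).resolve_left hyn
    have h2 := (norm_dichotomy φ y (fun a => ⟨σ a, hyφ a⟩) (-1)).resolve_left hyn
    have h3 := Submodule.finrank_add_eq_of_isCompl (invol_eig h2F hy (hvv hyy)).1
    rw [finrank_fintype_fun_eq_card] at h3
    simp only [Fintype.card_sum, Fintype.card_fin] at h1 h2 h3
    obtain ⟨hc, n1, n2, -⟩ := invol_eig h2F hx (hvv hxx)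
    have h4 := Submodule.finrank_add_eq_of_isCompl hc
    rw [finrank_fintype_fun_eq_card] at h4
    simp only [Fintype.card_sum, Fintype.card_fin] at h4
    obtain ⟨a, ha⟩ := hA.even_finrank_sub n1
    obtain ⟨b, hb⟩ := hA.even_finrank_sub n2
    have hbad : ∀ c : F, finrank F (LinearMap.ker (Matrix.toLin' (x : Matrix (Fin 2 ⊕ Fin 2) (Fin 2 ⊕ Fin 2) F) - c • 1)) ≠ 4 := by
      intro c hc4
      apply hns c
      have h5 : LinearMap.ker (Matrix.toLin' (x : Matrix (Fin 2 ⊕ Fin 2) (Fin 2 ⊕ Fin 2) F) - c • 1) = ⊤ := by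
        apply Submodule.eq_top_of_finrank_eq
        rw [hc4, finrank_fintype_fun_eq_card]
        rfl
      apply mat_ext'
      intro v
      have h6 : v ∈ LinearMap.ker (Matrix.toLin' (x : Matrix (Fin 2 ⊕ Fin 2) (Fin 2 ⊕ Fin 2) F) - c • 1) := by rw [h5]; exact Submodule.mem_top
      rw [FX.mem_ker_iff] at h6
      rw [h6, Matrix.smul_mulVec, Matrix.one_mulVec]
    have hb1 := hbad 1
    have hb2 := hbad (-1)
    obtain ⟨g', hg', hgg⟩ := sp_conj_involution h2F hx hy hxx hyy (by omega)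
    exact ⟨g', hg', by rw [hgg]; exact hyH⟩
  · have hxx : x * x = -1 := by
      apply Units.ext
      rw [← pow_two, hz, neg_smul, one_smul, Units.val_neg, Units.val_one]
    let act : Matrix.symplecticGroup (Fin 1) E →* Module.End E (Fin 1 ⊕ Fin 1 → E) :=
      { toFun := fun A => Matrix.toLin' (A : Matrix (Fin 1 ⊕ Fin 1) (Fin 1 ⊕ Fin 1) E)
        map_one' := Matrix.toLin'_one
        map_mul' := fun A B => Matrix.toLin'_mul _ _ }
    have hact : Function.Injective act := by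
      intro A B hAB
      apply Subtype.ext
      exact Matrix.toLin'.injective hAB
    obtain ⟨ψ, hψ1, hψ2, hψ3⟩ := exists_hom_of_act φ act hact T
    let J₀ : Matrix.symplecticGroup (Fin 1) E := ⟨Matrix.J (Fin 1) E, SymplecticGroup.J_mem _ _⟩
    have hyG : ψ J₀ ∈ Cfsg.spGL 2 F := by
      rw [mem_spGL']
      intro u v
      obtain ⟨u', rfl⟩ := T.surjective u
      obtain ⟨v', rfl⟩ := T.surjective v
      rw [hψ2, hψ2, hform, hform]
      congr 1
      exact sympForm_toLin' 1 J₀.2 u' v'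
    have hyy : ψ J₀ * ψ J₀ = -1 := by
      apply Units.ext
      apply mat_ext'
      intro v
      obtain ⟨w, rfl⟩ := T.surjective v
      rw [Units.val_mul, ← Matrix.mulVec_mulVec, hψ2, hψ2, Units.val_neg, Units.val_one, Matrix.neg_mulVec, Matrix.one_mulVec, ← map_neg]
      congr 1
      change Matrix.J (Fin 1) E *ᵥ (Matrix.J (Fin 1) E *ᵥ w) = -w
      rw [Matrix.mulVec_mulVec, Matrix.J_squared, Matrix.neg_mulVec, Matrix.one_mulVec]
    obtain ⟨g', hg', hgg⟩ := sp_conj_neg h2F hx hyG hxx hyy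
    refine ⟨g', hg', ?_⟩
    rw [hgg, hH]
    exact fun a => ⟨a, hψ3 J₀ a⟩

end



/-- Elements of prime order of PSp_n(q) and the field-extension subgroups of type Sp_{n/k}(q^k). Here `T = PSp_{2d}(F)` for a field `F` with `q` elements (`d ≥ 2`, `(d, q) ≠ (2, 2)`), realised through the matrices preserving the standard alternating form `f`; `k` is a prime and `K` is a subalgebra of the `2d × 2d` matrices that is a field of degree `k` over `F` whose elements are self-adjoint for `f` and satisfy `f(a v, v) = 0` (so `F^{2d}` becomes a vector space over `K ≅ F_{q^k}` on which `f` is the trace of a `K`-bilinear alternating form); `H` is the subgroup of `T` normalizing `K` — the symplectic maps that are `K`-linear or `K`-semilinear, a subgroup of type Sp_{2d/k}(q^k) (maximality is not assumed). Ω is the set of cosets of `H` in `T`, so an element of `T` of prime order `r` (`x ∈ T` with `x^r` scalar, `x` not scalar) fixes a point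 of Ω exactly when some `T`-conjugate of `x` normalizes `K`. Let `r` be a prime dividing the index of `H`. Then every element of `T` of order `r` fixes a point of Ω if and only if `r = 2`, `d = 2`, `k = 2` and `q` is odd. -/
theorem result {F : Type*} [Field F] [Fintype F] {p : ℕ} [Fact p.Prime] [CharP F p] {q : ℕ} (hq : Fintype.card F = q)
    (d : ℕ) (hd : 2 ≤ d) (hT : (d, q) ≠ (2, 2)) (k : ℕ) (hk : k.Prime)
    (K : Subalgebra F (Matrix (Fin d ⊕ Fin d) (Fin d ⊕ Fin d) F)) (hK : Cfsg.Geo.IsFieldSubalgebra k K)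
    (hKf : Cfsg.Geo.IsSelfAdjointFor (Cfsg.sympForm d F) K) (hKalt : ∀ a ∈ K, ∀ v : Fin d ⊕ Fin d → F, Cfsg.sympForm d F (a *ᵥ v) v = 0)
    (r : ℕ) [Fact r.Prime]
    (hΩ : r ∣ (Cfsg.Geo.subalgebraNormalizer K).relIndex (Cfsg.spGL d F)) :
    (∀ x ∈ Cfsg.spGL d F, (∃ z : F, ((x ^ r : GL (Fin d ⊕ Fin d) F) : Matrix (Fin d ⊕ Fin d) (Fin d ⊕ Fin d) F) = z • (1 : Matrix (Fin d ⊕ Fin d) (Fin d ⊕ Fin d) F)) →
      (∀ z : F, (x : Matrix (Fin d ⊕ Fin d) (Fin d ⊕ Fin d) F) ≠ z • (1 : Matrix (Fin d ⊕ Fin d) (Fin d ⊕ Fin d) F)) →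
      ∃ g ∈ Cfsg.spGL d F, g⁻¹ * x * g ∈ Cfsg.Geo.subalgebraNormalizer K) ↔
    (r = 2 ∧ d = 2 ∧ k = 2 ∧ Odd q) := by
  subst hq
  have : Nonempty (Fin d ⊕ Fin d) := ⟨Sum.inl ⟨0, by omega⟩⟩
  obtain ⟨E, _, _, φ, hfd, hkE, hφ⟩ := exists_field hK
  have hsa : ∀ (e : E) u v, Cfsg.sympForm d F u (φ e *ᵥ v) = Cfsg.sympForm d F (φ e *ᵥ u) v :=
    fun e u v => (hKf _ ((hφ _).mpr ⟨e, rfl⟩) u v).symm
  have halt : ∀ (e : E) v, Cfsg.sympForm d F (φ e *ᵥ v) v = 0 := fun e v => hKalt _ ((hφ _).mpr ⟨e, rfl⟩) v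
  constructor
  · intro h
    exact core_forward (p := p) φ hsa halt hk hkE hd _ (fun g => mem_normalizer_iff_of hφ g) hΩ h
  · rintro ⟨rfl, rfl, rfl, hodd⟩ x hx ⟨z, hz⟩ hns
    have h2F : (2 : F) ≠ 0 := by
      intro h0
      have h1 : CharP F 2 := CharTwo.of_one_ne_zero_of_two_eq_zero one_ne_zero h0
      obtain ⟨m, hp, hm⟩ := FiniteField.card F 2
      rw [hm] at hodd
      exact absurd hodd (Nat.not_odd_iff_even.mpr ((even_two).pow_of_ne_zero m.2.ne'))
    exact core_backward φ hsa halt hkE h2F _ (fun g => mem_normalizer_iff_of hφ g) hx hz hns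


end Cfsg.Agent.S5975
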