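import Cfsg.Statements.S5976
import Cfsg.Agent.H99.FieldExtE
import Cfsg.Agent.Uni.Gen2

set_option autoImplicit false
open scoped MatrixGroups
open Cfsg

namespace Cfsg.Agent.S5976


open Module Matrix Cfsg.Agent.H99 Cfsg.Agent.H99.FX

section
variable {F : Type*} [Field F] [Fintype F] {p : ℕ} [Fact p.Prime] [CharP F p] {d : ℕ}
variable {E : Type*} [Field E] [Algebra F E] [FiniteDimensional F E]

theorem zmod_sub {r : ℕ} (q n : ℕ) (hq : 0 < q) : r ∣ q ^ n - 1 ↔ ((q : ℕ) : ZMod r) ^ n = 1 := by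
  rw [← CharP.cast_eq_zero_iff (ZMod r) r, Nat.cast_sub (Nat.one_le_pow _ _ hq), Nat.cast_pow, Nat.cast_one, sub_eq_zero]

theorem zmod_add {r : ℕ} (q n : ℕ) : r ∣ q ^ n + 1 ↔ ((q : ℕ) : ZMod r) ^ n = -1 := by
  rw [← CharP.cast_eq_zero_iff (ZMod r) r, Nat.cast_add, Nat.cast_pow, Nat.cast_one, add_eq_zero_iff_eq_neg]

theorem arith {r q i : ℕ} [Fact r.Prime] (hr2 : r ≠ 2) (hq : 0 < q)
    (hi : r ∣ (if Even i then q ^ (i + 1) - 1 else q ^ (i + 1) + 1)) :
    orderOf ((q : ℕ) : ZMod r) ∣ 2 * (i + 1) ∧ ¬ SelfDual r q (q ^ 2) := by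
  have hr : r.Prime := Fact.out
  have hne : (1 : ZMod r) ≠ -1 := by
    intro h
    have h1 : ((2 : ℕ) : ZMod r) = 0 := by
      push_cast
      linear_combination h
    rw [CharP.cast_eq_zero_iff (ZMod r) r] at h1
    exact hr2 ((Nat.prime_dvd_prime_iff_eq hr Nat.prime_two).mp h1)
  split_ifs at hi with he
  · rw [zmod_sub _ _ hq] at hi
    refine ⟨?_, ?_⟩
    · exact (orderOf_dvd_iff_pow_eq_one.mpr hi).trans (Dvd.intro_left 2 rfl)
    · rintro ⟨j, hj⟩
      have h1 : q * (q ^ 2) ^ j = q ^ (2 * j + 1) := by rw [← pow_mul, pow_succ, mul_comm]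
      rw [h1, zmod_add] at hj
      apply hne
      have h2 : ((q : ZMod r) ^ (i + 1)) ^ (2 * j + 1) = ((q : ZMod r) ^ (2 * j + 1)) ^ (i + 1) := by
        rw [← pow_mul, ← pow_mul, mul_comm]
      rw [hi, hj, one_pow, he.add_one.neg_one_pow] at h2
      exact h2
  · rw [zmod_add] at hi
    rw [Nat.not_even_iff_odd] at he
    refine ⟨?_, ?_⟩
    · apply orderOf_dvd_iff_pow_eq_one.mpr
      rw [mul_comm, pow_mul, hi]
      ring
    · rintro ⟨j, hj⟩
      have h1 : q * (q ^ 2) ^ j = q ^ (2 * j + 1) := by rw [← pow_mul, pow_succ, mul_comm]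
      rw [h1, zmod_add] at hj
      apply hne
      have h2 : ((q : ZMod r) ^ (i + 1)) ^ (2 * j + 1) = ((q : ZMod r) ^ (2 * j + 1)) ^ (i + 1) := by
        rw [← pow_mul, ← pow_mul, mul_comm]
      rw [hi, hj, he.add_one.neg_one_pow, Odd.neg_one_pow ⟨j, rfl⟩] at h2
      exact h2.symm

theorem blk_lt_four {r q : ℕ} [Fact r.Prime] (hQ : ¬ r ∣ q) : blk r q < 4 * orderOf ((q ^ 2 : ℕ) : ZMod r) := by
  have h0 := orderOf_pos_of_not_dvd (r := r) hQ
  have h1 : orderOf ((q ^ 2 : ℕ) : ZMod r) = orderOf ((q : ℕ) : ZMod r) / Nat.gcd (orderOf ((q : ℕ) : ZMod r)) 2 := by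
    rw [Nat.cast_pow, orderOf_pow' _ (by norm_num)]
  rw [h1]
  unfold blk
  split_ifs with he
  · rw [Nat.gcd_eq_right he.two_dvd]
    obtain ⟨m, hm⟩ := he
    omega
  · rw [Nat.not_even_iff_odd] at he
    rw [(Nat.coprime_two_right.mpr he : Nat.gcd _ _ = 1), Nat.div_one]
    omega

theorem sp_not_scalar {r : ℕ} (hr : Odd r) {x : GL (Fin d ⊕ Fin d) F} (hx : x ∈ Cfsg.spGL d F) (hxr : x ^ r = 1)
    (hfin : finrank F (LinearMap.ker (Matrix.toLin' (x : Matrix (Fin d ⊕ Fin d) (Fin d ⊕ Fin d) F) - (1 : F) • 1)) < 2 * d) (hd : 0 < d) :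
    ∀ z : F, (x : Matrix (Fin d ⊕ Fin d) (Fin d ⊕ Fin d) F) ≠ z • (1 : Matrix (Fin d ⊕ Fin d) (Fin d ⊕ Fin d) F) := by
  intro z hz
  have hA := sympForm_altForm (F := F) d
  obtain ⟨u, v, huv⟩ : ∃ u v, Cfsg.sympForm d F u v ≠ 0 := by
    by_contra hcon
    push Not at hcon
    have h3 : (⊤ : Submodule F (Fin d ⊕ Fin d → F)) = ⊥ := by
      rw [eq_bot_iff]
      intro u hu
      exact sympForm_ND d u hu (fun v _ => hcon u v)
    have h4 : finrank F (⊤ : Submodule F (Fin d ⊕ Fin d → F)) = 0 := by rw [h3, finrank_bot]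
    rw [finrank_top, finrank_fintype_fun_eq_card, Fintype.card_sum, Fintype.card_fin] at h4
    omega
  have h3 := mem_spGL'.mp hx u v
  rw [hz, Matrix.smul_mulVec, Matrix.smul_mulVec, Matrix.one_mulVec, Matrix.one_mulVec, hA.smul_left, hA.smul_right] at h3
  have h4 : z ^ 2 = 1 := by
    apply mul_right_cancel₀ huv
    rw [one_mul, pow_two, mul_assoc]
    exact h3
  have h5 : z ^ r = 1 := by
    have h6 := congrArg (fun g : GL (Fin d ⊕ Fin d) F => (g : Matrix (Fin d ⊕ Fin d) (Fin d ⊕ Fin d) F) *ᵥ u) hxr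
    simp only [Units.val_pow_eq_pow_val, hz, _root_.smul_pow, one_pow, Matrix.smul_mulVec, Matrix.one_mulVec, Units.val_one] at h6
    have hu0 : u ≠ 0 := by
      rintro rfl
      exact huv (hA.oform.zero_left v)
    have h7 : (z ^ r - 1) • u = 0 := by rw [sub_smul, one_smul, h6, sub_self]
    exact sub_eq_zero.mp ((smul_eq_zero.mp h7).resolve_right hu0)
  have h6 : z = 1 := by
    obtain ⟨m, hm⟩ := hr
    rw [hm, pow_succ, pow_mul, h4, one_pow, one_mul] at h5
    exact h5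
  rw [hz, h6, one_smul] at hfin
  have h7 : (Matrix.toLin' (1 : Matrix (Fin d ⊕ Fin d) (Fin d ⊕ Fin d) F) - (1 : F) • 1 : (Fin d ⊕ Fin d → F) →ₗ[F] (Fin d ⊕ Fin d → F)) = 0 := by
    rw [Matrix.toLin'_one, one_smul]
    exact sub_self _
  rw [h7, LinearMap.ker_zero, finrank_top, finrank_fintype_fun_eq_card, Fintype.card_sum, Fintype.card_fin] at hfin
  omega


theorem core_forward {p : ℕ} [Fact p.Prime] [CharP F p] (φ : E →ₐ[F] Matrix (Fin d ⊕ Fin d) (Fin d ⊕ Fin d) F)
    {σ : E ≃ₐ[F] E} (hσ2 : ∀ e, σ (σ e) = e) (hσ : ∃ a, σ a ≠ a)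
    (hkE : finrank F E = 2)
    (hadj : ∀ (e : E) u v, Cfsg.sympForm d F u (φ e *ᵥ v) = Cfsg.sympForm d F (φ (σ e) *ᵥ u) v)
    (hd : 2 ≤ d) {r : ℕ} [Fact r.Prime] (H : Subgroup (GL (Fin d ⊕ Fin d) F))
    (hH : ∀ g : GL (Fin d ⊕ Fin d) F, g ∈ H ↔ ∀ e : E, ∃ e' : E, (g : Matrix (Fin d ⊕ Fin d) (Fin d ⊕ Fin d) F) * φ e = φ e' * (g : Matrix (Fin d ⊕ Fin d) (Fin d ⊕ Fin d) F))
    (hΩ : r ∣ H.relIndex (Cfsg.spGL d F))
    (h : ∀ x ∈ Cfsg.spGL d F, (∃ z : F, ((x ^ r : GL (Fin d ⊕ Fin d) F) : Matrix (Fin d ⊕ Fin d) (Fin d ⊕ Fin d) F) = z • (1 : Matrix (Fin d ⊕ Fin d) (Fin d ⊕ Fin d) F)) →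
      (∀ z : F, (x : Matrix (Fin d ⊕ Fin d) (Fin d ⊕ Fin d) F) ≠ z • (1 : Matrix (Fin d ⊕ Fin d) (Fin d ⊕ Fin d) F)) →
      ∃ g ∈ Cfsg.spGL d F, g⁻¹ * x * g ∈ H) : r = 2 := by
  classical
  by_contra hr2
  have hr : r.Prime := Fact.out
  have hp : p.Prime := Fact.out
  have hcard : Fintype.card (Fin d ⊕ Fin d) = 2 * d := by
    rw [Fintype.card_sum, Fintype.card_fin]
    ring
  have hone : ∀ {x : GL (Fin d ⊕ Fin d) F}, x ^ r = 1 → ∃ z : F, ((x ^ r : GL (Fin d ⊕ Fin d) F) : Matrix (Fin d ⊕ Fin d) (Fin d ⊕ Fin d) F) = z • (1 : Matrix (Fin d ⊕ Fin d) (Fin d ⊕ Fin d) F) := by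
    intro x hx
    exact ⟨1, by rw [hx, Units.val_one, one_smul]⟩
  have hnonempty : Nonempty (Fin d ⊕ Fin d) := ⟨Sum.inl ⟨0, by omega⟩⟩
  by_cases hrp : r = p
  · subst hrp
    obtain ⟨x, hx, hxr, hxk⟩ := exists_transvection (F := F) (p := r) (d := d) (by omega)
    obtain ⟨g, hg, hgH⟩ := h x hx (hone hxr) (not_scalar_of_ker (c := 1) (by omega) (by omega))
    have hyk := conj_ker x g 1
    rw [hH] at hgH
    rcases norm_dichotomy φ _ hgH 1 with h1 | h1
    · have h2 := dvd_ker φ h1 1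
      rw [hyk, hkE] at h2
      omega
    · rw [hyk, hcard] at h1
      omega
  obtain ⟨i, hid, hi⟩ := core_index_ac (by omega) φ hσ2 hσ hkE hadj hrp H (fun g hg => (hH g).mpr (fun e => ⟨e, hg e⟩)) hΩ
  obtain ⟨hij, hsd⟩ := arith hr2 Fintype.card_pos hi
  have hQ : ¬ r ∣ Fintype.card F := prime_not_dvd_card hrp
  have hblk : blk r (Fintype.card F) ∣ 2 * (i + 1) := by
    unfold blk
    split_ifs with he
    · exact hij
    · rw [Nat.not_even_iff_odd] at he
      exact Nat.mul_dvd_mul_left 2 ((Nat.Coprime.dvd_mul_left (Nat.coprime_two_right.mpr he)).mp hij)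
  have hble1 : blk r (Fintype.card F) ≤ 2 * (i + 1) := Nat.le_of_dvd (by omega) hblk
  have hble : blk r (Fintype.card F) ≤ 2 * d := by omega
  have hb0 : 0 < blk r (Fintype.card F) := Nat.pos_of_dvd_of_pos hblk (by omega)
  obtain ⟨x, hx, hxr, hxk⟩ := exists_block (F := F) (d := d) hr2 hrp hble
  have hfin : finrank F (LinearMap.ker (Matrix.toLin' (x : Matrix (Fin d ⊕ Fin d) (Fin d ⊕ Fin d) F) - (1 : F) • 1)) < 2 * d := by omega
  have hrodd : Odd r := hr.odd_of_ne_two hr2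
  have hxns : ∀ z : F, (x : Matrix (Fin d ⊕ Fin d) (Fin d ⊕ Fin d) F) ≠ z • (1 : Matrix (Fin d ⊕ Fin d) (Fin d ⊕ Fin d) F) :=
    sp_not_scalar hrodd hx hxr hfin (by omega)
  obtain ⟨g, hg, hgH⟩ := h x hx (hone hxr) hxns
  have hyk := conj_ker x g 1
  set y : GL (Fin d ⊕ Fin d) F := g⁻¹ * x * g with hy
  have hyG : y ∈ Cfsg.spGL d F := Subgroup.mul_mem _ (Subgroup.mul_mem _ (Subgroup.inv_mem _ hg) hx) hg
  have hyr : y ^ r = 1 := GL_conj_pow hxr
  rw [hH] at hgH
  have h3 := norm_aut φ y hgH hr hyr Nat.prime_two hkE hr2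
  obtain ⟨m, hm⟩ := core_four_ac (p := p) φ hσ2 hσ hkE hadj hrp hsd hyG hyr h3
  have hlt := blk_lt_four (q := Fintype.card F) hQ
  rw [one_smul] at hyk
  rw [hyk] at hm
  rw [one_smul] at hxk
  have hm0 : m ≠ 0 := by
    rintro rfl
    omega
  have : 1 * (4 * orderOf ((Fintype.card F ^ 2 : ℕ) : ZMod r)) ≤ m * (4 * orderOf ((Fintype.card F ^ 2 : ℕ) : ZMod r)) :=
    Nat.mul_le_mul_right _ (Nat.one_le_iff_ne_zero.mpr hm0)
  omega

theorem core_backward (φ : E →ₐ[F] Matrix (Fin d ⊕ Fin d) (Fin d ⊕ Fin d) F) {σ : E ≃ₐ[F] E} (hσ2 : ∀ e, σ (σ e) = e) (hσ : ∃ a, σ a ≠ a)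
    (hkE : finrank F E = 2)
    (hadj : ∀ (e : E) u v, Cfsg.sympForm d F u (φ e *ᵥ v) = Cfsg.sympForm d F (φ (σ e) *ᵥ u) v)
    (hd : 0 < d) (h2F : (2 : F) ≠ 0) (H : Subgroup (GL (Fin d ⊕ Fin d) F))
    (hH : ∀ g : GL (Fin d ⊕ Fin d) F, g ∈ H ↔ ∀ e : E, ∃ e' : E, (g : Matrix (Fin d ⊕ Fin d) (Fin d ⊕ Fin d) F) * φ e = φ e' * (g : Matrix (Fin d ⊕ Fin d) (Fin d ⊕ Fin d) F))
    {x : GL (Fin d ⊕ Fin d) F} (hx : x ∈ Cfsg.spGL d F) {z : F} (hz : ((x ^ 2 : GL (Fin d ⊕ Fin d) F) : Matrix (Fin d ⊕ Fin d) (Fin d ⊕ Fin d) F) = z • (1 : Matrix (Fin d ⊕ Fin d) (Fin d ⊕ Fin d) F)) :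
    ∃ g ∈ Cfsg.spGL d F, g⁻¹ * x * g ∈ H := by
  classical
  have hEfin : Finite E := Module.finite_of_finite F
  have : Fintype E := Fintype.ofFinite E
  have hA := sympForm_altForm (F := F) d
  set q := Fintype.card F with hq
  have hcE : Fintype.card E = q ^ 2 := by
    have := Module.card_eq_pow_finrank (K := F) (V := E)
    rw [this, hkE]
  obtain ⟨ε, T, hε0, hε, hform⟩ := exists_uni_model φ hσ2 hσ hkE hadj
  letI := modOf φ
  haveI := modOf_tower φ
  haveI : FiniteDimensional E (Fin d ⊕ Fin d → F) := FiniteDimensional.right F E (Fin d ⊕ Fin d → F)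
  -- the scalar
  obtain ⟨u₀, v₀, huv₀⟩ : ∃ u v, Cfsg.sympForm d F u v ≠ 0 := by
    by_contra hcon
    push Not at hcon
    have h3 : (⊤ : Submodule F (Fin d ⊕ Fin d → F)) = ⊥ := by
      rw [eq_bot_iff]
      intro u hu
      exact sympForm_ND d u hu (fun v _ => hcon u v)
    have h4 : finrank F (⊤ : Submodule F (Fin d ⊕ Fin d → F)) = 0 := by rw [h3, finrank_bot]
    rw [finrank_top, finrank_fintype_fun_eq_card, Fintype.card_sum, Fintype.card_fin] at h4
    omega
  have hzz : z = 1 ∨ z = -1 := by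
    have hx2 : x ^ 2 ∈ Cfsg.spGL d F := Subgroup.pow_mem _ hx 2
    have h3 := mem_spGL'.mp hx2 u₀ v₀
    rw [hz, Matrix.smul_mulVec, Matrix.smul_mulVec, Matrix.one_mulVec, Matrix.one_mulVec, hA.smul_left, hA.smul_right] at h3
    apply mul_self_eq_one_iff.mp
    apply mul_right_cancel₀ huv₀
    rw [one_mul, mul_assoc]
    exact h3
  rcases hzz with rfl | rfl
  · have hxx : x * x = 1 := by
      apply Units.ext
      rw [← pow_two, hz, one_smul, Units.val_one]
    have hvv : ∀ v, (x : Matrix (Fin d ⊕ Fin d) (Fin d ⊕ Fin d) F) *ᵥ ((x : Matrix (Fin d ⊕ Fin d) (Fin d ⊕ Fin d) F) *ᵥ v) = v := by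
      intro v
      rw [Matrix.mulVec_mulVec, ← Units.val_mul, hxx, Units.val_one, Matrix.one_mulVec]
    obtain ⟨hc, n1, n2, -⟩ := invol_eig h2F hx hvv
    obtain ⟨b, hb⟩ := hA.even_finrank_sub n2
    have hbd : b ≤ d := by
      have h1 := Submodule.finrank_le (LinearMap.ker (Matrix.toLin' (x : Matrix (Fin d ⊕ Fin d) (Fin d ⊕ Fin d) F) - (-1 : F) • 1))
      rw [hb, finrank_fintype_fun_eq_card, Fintype.card_sum, Fintype.card_fin] at h1
      omega
    let c : Fin d → E := fun i => if (i : ℕ) < b then -1 else 1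
    have hcc : ∀ i, c i * c i = 1 := by
      intro i
      simp only [c]
      split_ifs <;> ring
    let D : (Fin d → E) →ₗ[E] (Fin d → E) := Matrix.toLin' (Matrix.diagonal c)
    have hD : ∀ w i, D w i = c i * w i := by
      intro w i
      simp only [D, Matrix.toLin'_apply, Matrix.mulVec_diagonal]
    have hDD : ∀ w, D (D w) = w := by
      intro w
      funext i
      rw [hD, hD, ← mul_assoc, hcc, one_mul]
    let De : (Fin d → E) ≃ₗ[E] (Fin d → E) := LinearEquiv.ofLinearMap D D (LinearMap.ext hDD) (LinearMap.ext hDD)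
    let TF : (Fin d → E) ≃ₗ[F] (Fin d ⊕ Fin d → F) := T.restrictScalars F
    let e : (Fin d ⊕ Fin d → F) ≃ₗ[F] (Fin d ⊕ Fin d → F) := TF.symm ≪≫ₗ De.restrictScalars F ≪≫ₗ TF
    have he : ∀ w, e (T w) = T (D w) := by
      intro w
      change TF (D (TF.symm (TF w))) = _
      rw [TF.symm_apply_apply]
      rfl
    have hcq : ∀ i, c i ^ q = c i := by
      intro i
      have hq2 : Odd q := by
        rcases Nat.even_or_odd q with h | h
        · exfalso
          apply h2F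
          obtain ⟨p, hp⟩ := CharP.exists F
          have hpp : p.Prime := CharP.char_is_prime F p
          have h3 : p ∣ q := by
            obtain ⟨m, hp', hm⟩ := FiniteField.card F p
            rw [hq, hm]
            exact dvd_pow_self _ m.2.ne'
          obtain ⟨m, hp', hm⟩ := FiniteField.card F p
          have h4 : 2 ∣ p := Nat.prime_two.dvd_of_dvd_pow (by rw [← hm, ← hq]; exact h.two_dvd)
          have h5 : p = 2 := ((Nat.prime_dvd_prime_iff_eq Nat.prime_two hpp).mp h4).symm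
          subst h5
          exact CharTwo.two_eq_zero
        · exact h
      simp only [c]
      split_ifs
      · exact hq2.neg_one_pow
      · exact one_pow q
    obtain ⟨y, hy, hyv⟩ := exists_spGL_of_equiv e (by
      intro u v
      obtain ⟨u', rfl⟩ := T.surjective u
      obtain ⟨v', rfl⟩ := T.surjective v
      rw [he, he, hform, hform]
      have h1 : Cfsg.hermForm d E q (D u') (D v') = Cfsg.hermForm d E q u' v' := by
        unfold Cfsg.hermForm
        apply Finset.sum_congr rfl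
        intro i _
        rw [hD, hD, mul_pow, hcq]
        calc c i * u' i * (c i * v' i ^ q) = (c i * c i) * (u' i * v' i ^ q) := by ring
          _ = _ := by rw [hcc, one_mul]
      rw [h1])
    have hyy : y * y = 1 := by
      apply Units.ext
      apply mat_ext'
      intro v
      obtain ⟨w, rfl⟩ := T.surjective v
      rw [Units.val_mul, ← Matrix.mulVec_mulVec, hyv, hyv, he, he, hDD, Units.val_one, Matrix.one_mulVec]
    have hyφ : ∀ a : E, (y : Matrix (Fin d ⊕ Fin d) (Fin d ⊕ Fin d) F) * φ a = φ a * (y : Matrix (Fin d ⊕ Fin d) (Fin d ⊕ Fin d) F) := by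
      intro a
      apply mat_ext'
      intro v
      obtain ⟨w, rfl⟩ := T.surjective v
      rw [← Matrix.mulVec_mulVec, ← Matrix.mulVec_mulVec, hyv, ← modOf_smul φ a, hyv, he, ← map_smul, he, map_smul, map_smul, modOf_smul φ a]
    have hk1 : finrank F (LinearMap.ker (Matrix.toLin' (y : Matrix (Fin d ⊕ Fin d) (Fin d ⊕ Fin d) F) - (-1 : F) • 1)) = 2 * b := by
      have h1 : finrank E (LinearMap.ker (D - (-1 : E) • 1)) = b := by
        rw [finrank_ker_diagonal]
        have hne : (1 : E) ≠ -1 := by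
          intro h
          apply h2F
          apply (algebraMap F E).injective
          rw [map_ofNat, map_zero]
          linear_combination h
        have h2 : ∀ i : Fin d, c i = -1 ↔ (i : ℕ) < b := by
          intro i
          simp only [c]
          split_ifs with h
          · simp [h]
          · simp [h, hne]
        rw [Nat.card_congr (Equiv.subtypeEquivRight h2)]
        let e₁ : {i : Fin d // (i : ℕ) < b} ≃ Fin b :=
          { toFun := fun i => ⟨i.1, i.2⟩
            invFun := fun j => ⟨⟨j, lt_of_lt_of_le j.2 hbd⟩, j.2⟩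
            left_inv := fun _ => rfl
            right_inv := fun _ => rfl }
        rw [Nat.card_congr e₁, Nat.card_eq_fintype_card, Fintype.card_fin]
      have h2 := Module.finrank_mul_finrank F E (LinearMap.ker (D - (-1 : E) • 1))
      rw [hkE, h1] at h2
      rw [h2]
      have hiff : ∀ w, w ∈ LinearMap.ker (D - (-1 : E) • 1) ↔ TF w ∈ LinearMap.ker (Matrix.toLin' (y : Matrix (Fin d ⊕ Fin d) (Fin d ⊕ Fin d) F) - (-1 : F) • 1) := by
        intro w
        rw [FX.mem_ker_iff, LinearMap.mem_ker, LinearMap.sub_apply, sub_eq_zero, LinearMap.smul_apply, Module.End.one_apply]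
        change _ ↔ (y : Matrix (Fin d ⊕ Fin d) (Fin d ⊕ Fin d) F) *ᵥ T w = (-1 : F) • T w
        rw [hyv, he, neg_smul, one_smul, neg_smul, one_smul, ← map_neg, T.injective.eq_iff]
        exact Iff.rfl
      let e' : LinearMap.ker (D - (-1 : E) • 1) ≃ₗ[F] LinearMap.ker (Matrix.toLin' (y : Matrix (Fin d ⊕ Fin d) (Fin d ⊕ Fin d) F) - (-1 : F) • 1) :=
        { toFun := fun w => ⟨TF w.1, (hiff _).mp w.2⟩
          invFun := fun v => ⟨TF.symm v.1, (hiff _).mpr (by rw [TF.apply_symm_apply]; exact v.2)⟩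
          map_add' := fun _ _ => Subtype.ext (map_add TF _ _)
          map_smul' := fun _ _ => Subtype.ext (map_smul TF _ _)
          left_inv := fun _ => Subtype.ext (TF.symm_apply_apply _)
          right_inv := fun _ => Subtype.ext (TF.apply_symm_apply _) }
      exact e'.finrank_eq.symm
    obtain ⟨g', hg', hgg⟩ := sp_conj_involution h2F hx hy hxx hyy (by rw [hk1, hb, two_mul])
    exact ⟨g', hg', by rw [hgg, hH]; exact fun a => ⟨a, hyφ a⟩⟩
  · have hxx : x * x = -1 := by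
      apply Units.ext
      rw [← pow_two, hz, neg_smul, one_smul, Units.val_neg, Units.val_one]
    obtain ⟨c, hc⟩ : ∃ c : E, c * σ c = -1 := by
      obtain ⟨c, hc⟩ := Uni.exists_norm_neg_one hcE
      refine ⟨c, ?_⟩
      rw [aut_frob hkE hσ2 hσ, ← pow_succ']
      exact hc
    let S : (Fin d → E) →ₗ[F] (Fin d → E) :=
      { toFun := fun w i => c * σ (w i)
        map_add' := fun u v => by
          funext i
          rw [Pi.add_apply, Pi.add_apply, map_add, mul_add]
        map_smul' := fun a u => by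
          funext i
          rw [Pi.smul_apply, Pi.smul_apply, map_smul, mul_smul_comm, RingHom.id_apply] }
    have hS : ∀ w i, S w i = c * σ (w i) := fun _ _ => rfl
    have hSS : ∀ w, S (S w) = -w := by
      intro w
      funext i
      rw [hS, hS, map_mul, hσ2, ← mul_assoc, hc, neg_one_mul, Pi.neg_apply]
    let Se : (Fin d → E) ≃ₗ[F] (Fin d → E) := LinearEquiv.ofLinearMap S (-S)
      (by
        apply LinearMap.ext
        intro w
        change S (-(S w)) = w
        rw [map_neg, hSS, neg_neg])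
      (by
        apply LinearMap.ext
        intro w
        change -(S (S w)) = w
        rw [hSS, neg_neg])
    let TF : (Fin d → E) ≃ₗ[F] (Fin d ⊕ Fin d → F) := T.restrictScalars F
    let e : (Fin d ⊕ Fin d → F) ≃ₗ[F] (Fin d ⊕ Fin d → F) := TF.symm ≪≫ₗ Se ≪≫ₗ TF
    have he : ∀ w, e (T w) = T (S w) := by
      intro w
      change TF (S (TF.symm (TF w))) = _
      rw [TF.symm_apply_apply]
      rfl
    obtain ⟨y, hy, hyv⟩ := exists_spGL_of_equiv e (by
      intro u v
      obtain ⟨u', rfl⟩ := T.surjective u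
      obtain ⟨v', rfl⟩ := T.surjective v
      rw [he, he, hform, hform]
      have h1 : Cfsg.hermForm d E q (S u') (S v') = - σ (Cfsg.hermForm d E q u' v') := by
        unfold Cfsg.hermForm
        rw [map_sum, ← Finset.sum_neg_distrib]
        apply Finset.sum_congr rfl
        intro i _
        rw [hS, hS, mul_pow, map_mul, map_pow]
        have h3 : c ^ q = σ c := (aut_frob hkE hσ2 hσ c).symm
        rw [h3]
        calc c * σ (u' i) * (σ c * σ (v' i) ^ q) = (c * σ c) * (σ (u' i) * σ (v' i) ^ q) := by ring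
          _ = _ := by rw [hc, neg_one_mul]
      rw [h1]
      have h2 : ε * -σ (Cfsg.hermForm d E q u' v') = σ (ε * Cfsg.hermForm d E q u' v') := by
        rw [map_mul, hε]
        ring
      rw [h2, Algebra.trace_eq_of_algEquiv])
    have hyy : y * y = -1 := by
      apply Units.ext
      apply mat_ext'
      intro v
      obtain ⟨w, rfl⟩ := T.surjective v
      rw [Units.val_mul, ← Matrix.mulVec_mulVec, hyv, hyv, he, he, hSS, Units.val_neg, Units.val_one, Matrix.neg_mulVec, Matrix.one_mulVec, map_neg]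
    have hyφ : ∀ a : E, (y : Matrix (Fin d ⊕ Fin d) (Fin d ⊕ Fin d) F) * φ a = φ (σ a) * (y : Matrix (Fin d ⊕ Fin d) (Fin d ⊕ Fin d) F) := by
      intro a
      apply mat_ext'
      intro v
      obtain ⟨w, rfl⟩ := T.surjective v
      rw [← Matrix.mulVec_mulVec, ← Matrix.mulVec_mulVec, hyv, ← modOf_smul φ a, ← modOf_smul φ (σ a), hyv, he, ← map_smul, he, ← map_smul]
      congr 1
      funext i
      rw [hS, Pi.smul_apply, Pi.smul_apply, smul_eq_mul, smul_eq_mul, map_mul, hS]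
      ring
    obtain ⟨g', hg', hgg⟩ := sp_conj_neg h2F hx hy hxx hyy
    exact ⟨g', hg', by rw [hgg, hH]; exact fun a => ⟨σ a, hyφ a⟩⟩

end


/-- Elements of prime order of PSp_n(q), q odd, and the subgroups of type GU_{n/2}(q). Here `T = PSp_{2d}(F)` for a field `F` with `q` elements, `q` odd, `d ≥ 2`, realised through the matrices preserving the standard alternating form `f`; `K` is a subalgebra of the `2d × 2d` matrices that is a field of degree 2 over `F`, closed under taking adjoints for `f` but not consisting of self-adjoint elements (so `F^{2d}` becomes a `d`-dimensional space over `K ≅ F_{q²}` on which `f` is the trace of a multiple of a non-degenerate hermitian form); `H` is the subgroup of `T` normalizing `K` — the symplectic maps that are `K`-linear or `K`-semilinear, a subgroup of type GU_d(q) (maximality is not assumed). Ω is the set of cosets of `H` in `T`, so an element of `T` of prime order `r` (`x ∈ T` with `x^r` scalar, `x`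 not scalar) fixes a point of Ω exactly when some `T`-conjugate of `x` normalizes `K`. Let `r` be a prime dividing the index of `H`. Then every element of `T` of order `r` fixes a point of Ω if and only if `r = 2`. -/
theorem result {F : Type*} [Field F] [Fintype F] {p : ℕ} [Fact p.Prime] [CharP F p] {q : ℕ} (hq : Fintype.card F = q)
    (hodd : Odd q) (d : ℕ) (hd : 2 ≤ d)
    (K : Subalgebra F (Matrix (Fin d ⊕ Fin d) (Fin d ⊕ Fin d) F)) (hK : Cfsg.Geo.IsFieldSubalgebra 2 K)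
    (hKf : Cfsg.Geo.IsAdjointClosedFor (Cfsg.sympForm d F) K) (hKns : ¬ Cfsg.Geo.IsSelfAdjointFor (Cfsg.sympForm d F) K)
    (r : ℕ) [Fact r.Prime]
    (hΩ : r ∣ (Cfsg.Geo.subalgebraNormalizer K).relIndex (Cfsg.spGL d F)) :
    (∀ x ∈ Cfsg.spGL d F, (∃ z : F, ((x ^ r : GL (Fin d ⊕ Fin d) F) : Matrix (Fin d ⊕ Fin d) (Fin d ⊕ Fin d) F) = z • (1 : Matrix (Fin d ⊕ Fin d) (Fin d ⊕ Fin d) F)) →
      (∀ z : F, (x : Matrix (Fin d ⊕ Fin d) (Fin d ⊕ Fin d) F) ≠ z • (1 : Matrix (Fin d ⊕ Fin d) (Fin d ⊕ Fin d) F)) →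
      ∃ g ∈ Cfsg.spGL d F, g⁻¹ * x * g ∈ Cfsg.Geo.subalgebraNormalizer K) ↔ r = 2 := by
  subst hq
  have : Nonempty (Fin d ⊕ Fin d) := ⟨Sum.inl ⟨0, by omega⟩⟩
  obtain ⟨E, _, _, φ, hfd, hkE, hφ⟩ := exists_field hK
  obtain ⟨σ, hσ2, hadj⟩ := exists_adj_aut (sympForm_altForm (F := F) d) (sympForm_ND d) φ (fun e => by
    obtain ⟨k', hk', h⟩ := hKf _ ((hφ _).mpr ⟨e, rfl⟩)
    obtain ⟨e', rfl⟩ := (hφ _).mp hk'
    exact ⟨e', h⟩)
  have hσ : ∃ a, σ a ≠ a := by
    by_contra hcon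
    push Not at hcon
    apply hKns
    intro k hk u v
    obtain ⟨e, rfl⟩ := (hφ _).mp hk
    rw [hadj, hcon]
  constructor
  · intro h
    exact core_forward (p := p) φ hσ2 hσ hkE hadj hd _ (fun g => mem_normalizer_iff_of hφ g) hΩ h
  · rintro rfl x hx ⟨z, hz⟩ hns
    have h2F : (2 : F) ≠ 0 := by
      intro h0
      have h1 : CharP F 2 := CharTwo.of_one_ne_zero_of_two_eq_zero one_ne_zero h0
      obtain ⟨m, hp, hm⟩ := FiniteField.card F 2
      rw [hm] at hodd
      exact absurd hodd (Nat.not_odd_iff_even.mpr ((even_two).pow_of_ne_zero m.2.ne'))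
    exact core_backward φ hσ2 hσ hkE hadj (by omega) h2F _ (fun g => mem_normalizer_iff_of hφ g) hx hz


end Cfsg.Agent.S5976
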