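import Cfsg.Statements.S5979
import Cfsg.Agent.H99.TensorDec
import Cfsg.Agent.H99.SLOrder
import Cfsg.Agent.H99.ConjType
import Cfsg.Agent.H99.FinFieldTwo

set_option autoImplicit false
open scoped MatrixGroups
open Cfsg

namespace Cfsg.Agent.S5979

open Module Matrix Polynomial
open scoped Kronecker

section
variable {F : Type*} [Field F] {a b : ℕ}

lemma kron_pow (A : Matrix (Fin a) (Fin a) F) (B : Matrix (Fin b) (Fin b) F) (m : ℕ) :
    (A ⊗ₖ B) ^ m = (A ^ m) ⊗ₖ (B ^ m) := by
  induction m with
  | zero => simp
  | succ m ih => rw [pow_succ, pow_succ, pow_succ, ih, Matrix.mul_kronecker_mul]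

/-- summary for elements with a conjugate in the stabilizer of a tensor decomposition -/
structure TensorData (a b n : ℕ) (f : (Fin n → F) →ₗ[F] (Fin n → F)) where
  A : GL (Fin a) F
  B : GL (Fin b) F
  φ : (Fin n → F) ≃ₗ[F] (Fin a × Fin b → F)
  hφ : ∀ v, φ (f v) = Matrix.toLin' ((A : Matrix (Fin a) (Fin a) F) ⊗ₖ (B : Matrix (Fin b) (Fin b) F)) (φ v)

lemma inj_mulVec {m : ℕ} (A : GL (Fin m) F) : Function.Injective ((A : Matrix (Fin m) (Fin m) F).mulVec) := by
  intro v w h
  have h1 := congrArg (fun u => ((A⁻¹ : GL (Fin m) F) : Matrix (Fin m) (Fin m) F) *ᵥ u) h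
  simp only [Matrix.mulVec_mulVec, ← Units.val_mul, inv_mul_cancel, Units.val_one, Matrix.one_mulVec] at h1
  exact h1

variable {n : ℕ} {f : (Fin n → F) →ₗ[F] (Fin n → F)}

lemma TensorData.left (D : TensorData a b n f) (hA : ∀ c : F, (D.A : Matrix (Fin a) (Fin a) F) ≠ c • (1 : Matrix (Fin a) (Fin a) F)) (l : F) :
    finrank F (LinearMap.ker (f - l • (1 : (Fin n → F) →ₗ[F] (Fin n → F)))) + b ≤ a * b := by
  rw [H99.finrank_ker_conj f _ D.φ D.hφ l]
  exact H99.finrank_ker_kron_left _ _ hA (inj_mulVec _) l

lemma TensorData.right (D : TensorData a b n f) (hB : ∀ c : F, (D.B : Matrix (Fin b) (Fin b) F) ≠ c • (1 : Matrix (Fin b) (Fin b) F)) (l : F) :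
    finrank F (LinearMap.ker (f - l • (1 : (Fin n → F) →ₗ[F] (Fin n → F)))) + a ≤ a * b := by
  rw [H99.finrank_ker_conj f _ D.φ D.hφ l]
  exact H99.finrank_ker_kron_right _ _ hB (inj_mulVec _) l

lemma TensorData.ker_of_left (D : TensorData a b n f) {c : F} (hA : (D.A : Matrix (Fin a) (Fin a) F) = c • (1 : Matrix (Fin a) (Fin a) F)) (l : F) :
    finrank F (LinearMap.ker (f - l • (1 : (Fin n → F) →ₗ[F] (Fin n → F)))) =
      a * finrank F (LinearMap.ker (Matrix.toLin' (c • (D.B : Matrix (Fin b) (Fin b) F)) - l • (1 : (Fin b → F) →ₗ[F] (Fin b → F)))) := by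
  rw [H99.finrank_ker_conj f _ D.φ D.hφ l, hA, Matrix.smul_kronecker, ← Matrix.kronecker_smul]
  exact H99.finrank_ker_one_kron _ l

/-- not both factors are scalar -/
lemma TensorData.not_scalar (D : TensorData a b n f) (hf : ∀ c : F, ¬ ∀ v, f v = c • v) {c d : F}
    (hA : (D.A : Matrix (Fin a) (Fin a) F) = c • (1 : Matrix (Fin a) (Fin a) F))
    (hB : (D.B : Matrix (Fin b) (Fin b) F) = d • (1 : Matrix (Fin b) (Fin b) F)) : False := by
  apply hf (c * d)
  intro v
  apply D.φ.injective
  rw [D.hφ, hA, hB, Matrix.smul_kronecker, Matrix.kronecker_smul, smul_smul, Matrix.one_kronecker_one, map_smul]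
  simp

lemma TensorData.general (D : TensorData a b n f) (hf : ∀ c : F, ¬ ∀ v, f v = c • v) (hab : a ≤ b) (l : F) :
    finrank F (LinearMap.ker (f - l • (1 : (Fin n → F) →ₗ[F] (Fin n → F)))) + a ≤ a * b := by
  by_cases hB : ∃ d : F, (D.B : Matrix (Fin b) (Fin b) F) = d • (1 : Matrix (Fin b) (Fin b) F)
  · obtain ⟨d, hd⟩ := hB
    by_cases hA : ∃ c : F, (D.A : Matrix (Fin a) (Fin a) F) = c • (1 : Matrix (Fin a) (Fin a) F)
    · obtain ⟨c, hc⟩ := hA
      exact (D.not_scalar hf hc hd).elim
    · push Not at hA
      have := D.left hA l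
      omega
  · push Not at hB
    exact D.right hB l

lemma TensorData.pow (D : TensorData a b n f) {m : ℕ} (hf : f ^ m = 1) :
    ((D.A : Matrix (Fin a) (Fin a) F) ^ m) ⊗ₖ ((D.B : Matrix (Fin b) (Fin b) F) ^ m) = 1 := by
  rw [← kron_pow]
  apply Matrix.toLin'.injective
  rw [Matrix.toLin'_pow]
  have h1 : ∀ (k : ℕ) (v : Fin n → F), D.φ ((f ^ k) v) = ((Matrix.toLin' ((D.A : Matrix (Fin a) (Fin a) F) ⊗ₖ (D.B : Matrix (Fin b) (Fin b) F))) ^ k) (D.φ v) := by
    intro k
    induction k with
    | zero => intro v; rfl
    | succ k ih => intro v; rw [pow_succ, pow_succ, Module.End.mul_apply, Module.End.mul_apply, ih, D.hφ]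
  apply LinearMap.ext
  intro w
  obtain ⟨v, rfl⟩ := D.φ.surjective w
  rw [← h1, hf]
  simp

end

section
variable {F : Type*} [Field F] {a b n : ℕ}

lemma exists_diag_two [Fintype F] (i0 i1 : Fin n) (w u u' : F) (hd : w ^ n * (u * u') = 1) (m : ℕ) (hu : u ^ m = 1) (hu' : u' ^ m = 1) :
    ∃ x : Matrix.SpecialLinearGroup (Fin n) F,
      (x : Matrix (Fin n) (Fin n) F) = Matrix.diagonal (fun j => w * ((if j = i0 then u else 1) * (if j = i1 then u' else 1))) ∧
      ((x ^ m : Matrix.SpecialLinearGroup (Fin n) F) : Matrix (Fin n) (Fin n) F) = w ^ m • (1 : Matrix (Fin n) (Fin n) F) := by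
  apply H99.sl_exists_diag
  · rw [Finset.prod_mul_distrib, Finset.prod_mul_distrib, Finset.prod_const, Finset.card_univ, Fintype.card_fin,
      Finset.prod_ite_eq' Finset.univ i0 (fun _ => u), Finset.prod_ite_eq' Finset.univ i1 (fun _ => u')]
    simpa using hd
  · intro j
    rw [mul_pow, mul_pow]
    split_ifs <;> simp [hu, hu']

lemma card_sum {ι : Type*} [Finite ι] (hm1 : (-1 : F) ≠ 1) (c : ι → F) (hc : ∀ j, c j = 1 ∨ c j = -1) :
    Nat.card {j // c j = 1} + Nat.card {j // c j = -1} = Nat.card ι := by
  classical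
  have := Fintype.ofFinite ι
  rw [Nat.card_congr (Equiv.subtypeEquivRight (q := fun j => ¬ c j = -1) (p := fun j => c j = 1) (by
    intro j
    rcases hc j with h | h
    · rw [h]
      simp [Ne.symm hm1]
    · rw [h]
      simp [hm1])), Nat.card_eq_fintype_card, Nat.card_eq_fintype_card, Nat.card_eq_fintype_card, Fintype.card_subtype_compl]
  exact Nat.sub_add_cancel (Fintype.card_subtype_le _)

lemma eq_one_of_one_kron {M : Matrix (Fin b) (Fin b) F} (ha : 0 < a) (h : (1 : Matrix (Fin a) (Fin a) F) ⊗ₖ M = 1) : M = 1 := by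
  ext j j'
  have h1 := congrFun (congrFun h (⟨0, ha⟩, j)) (⟨0, ha⟩, j')
  rw [kroneckerMap_apply, Matrix.one_apply_eq, one_mul] at h1
  rw [h1, Matrix.one_apply, Matrix.one_apply]
  simp

lemma scalar_of_kron_eq_one {A : Matrix (Fin a) (Fin a) F} {B : Matrix (Fin b) (Fin b) F} (hb : 0 < b) (h : A ⊗ₖ B = 1) :
    ∃ c : F, A = c • (1 : Matrix (Fin a) (Fin a) F) := by
  by_cases ha : a = 0
  · subst ha
    exact ⟨0, Subsingleton.elim _ _⟩
  let j : Fin b := ⟨0, hb⟩
  have h1 : ∀ i i', A i i' * B j j = (1 : Matrix (Fin a) (Fin a) F) i i' := by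
    intro i i'
    have h2 := congrFun (congrFun h (i, j)) (i', j)
    rw [kroneckerMap_apply] at h2
    rw [h2, Matrix.one_apply, Matrix.one_apply]
    simp
  let i : Fin a := ⟨0, by omega⟩
  have h2 : B j j ≠ 0 := by
    intro h0
    have := h1 i i
    rw [h0, mul_zero, Matrix.one_apply_eq] at this
    exact zero_ne_one this
  refine ⟨(B j j)⁻¹, ?_⟩
  ext i i'
  rw [Matrix.smul_apply, ← h1, smul_eq_mul]
  field_simp

end

/-- Elements of prime order of PSL_n(q) and the stabilizers of tensor decompositions with factors of different dimensions. Here `T = PSL_n(F)` for a field `F` with `q` elements and `n = a·b` with `2 ≤ a < b`; a tensor decomposition `F^n ≅ F^a ⊗ F^b` is given by a bijection `e` of index sets and a change of basis `P`, and `H` is the subgroup of matrices of determinant 1 in its stabilizer (the conjugate by `P` of the group of Kronecker products `g₁ ⊗ g₂`) — a subgroup of type GL_a(q) ⊗ GL_b(q) (maximality is not assumed); Ω is the set of cosets of `H` in `T`, so an element of `T` of prime order `r` (a matrix `x` of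 determinant 1 with `x^r` scalar, `x` not scalar) fixes a point of Ω exactly when some conjugate of `x` by a matrix of determinant 1 lies in `H`. Let `r` be a prime dividing the index of `H`. Then every element of `T` of order `r` fixes a point of Ω if and only if `r = 2`, `a = 2`, `q` is odd and `(q − 1)_2 ≤ (n)_2` (2-parts). -/
theorem result {F : Type*} [Field F] [Fintype F] {p : ℕ} [Fact p.Prime] [CharP F p] {q : ℕ} (hq : Fintype.card F = q)
    (n a b : ℕ) (hab : n = a * b) (ha : 2 ≤ a) (hlt : a < b) (e : Fin n ≃ Fin a × Fin b) (P : GL (Fin n) F)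
    (r : ℕ) [Fact r.Prime]
    (hΩ : r ∣ (Cfsg.Geo.tensorProductSubgroup a b e P).relIndex (Cfsg.Geo.specialLinear (Fin n) F)) :
    (∀ x ∈ Cfsg.Geo.specialLinear (Fin n) F, (∃ z : F, ((x ^ r : GL (Fin n) F) : Matrix (Fin n) (Fin n) F) = z • (1 : Matrix (Fin n) (Fin n) F)) →
      (∀ z : F, (x : Matrix (Fin n) (Fin n) F) ≠ z • (1 : Matrix (Fin n) (Fin n) F)) →
      ∃ g ∈ Cfsg.Geo.specialLinear (Fin n) F, g⁻¹ * x * g ∈ Cfsg.Geo.tensorProductSubgroup a b e P) ↔
    (r = 2 ∧ a = 2 ∧ Odd q ∧ padicValNat 2 (q - 1) ≤ padicValNat 2 n) := by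
  classical
  subst hq
  have hr : r.Prime := Fact.out
  have hn4 : 6 ≤ n := by
    rw [hab]
    nlinarith
  have hn0 : 0 < n := by omega
  have hne : Nonempty (Fin n) := ⟨⟨0, hn0⟩⟩
  have hfn : finrank F (Fin n → F) = n := by simp
  constructor
  · intro H
    -- extraction
    have hex : ∀ x : Matrix.SpecialLinearGroup (Fin n) F, (∃ z : F, ((x ^ r : Matrix.SpecialLinearGroup (Fin n) F) : Matrix (Fin n) (Fin n) F) = z • (1 : Matrix (Fin n) (Fin n) F)) →
        (∀ z : F, (x : Matrix (Fin n) (Fin n) F) ≠ z • (1 : Matrix (Fin n) (Fin n) F)) →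
        (∀ c : F, ¬ ∀ v, (Matrix.toLin' (x : Matrix (Fin n) (Fin n) F)) v = c • v) ∧
        Nonempty (TensorData a b n (Matrix.toLin' (x : Matrix (Fin n) (Fin n) F))) := by
      intro x hx1 hx2
      refine ⟨?_, ?_⟩
      · intro c hc
        apply hx2 c
        apply Matrix.toLin'.injective
        apply LinearMap.ext
        intro v
        rw [hc]
        simp
      · obtain ⟨g, -, hg⟩ := H (Matrix.SpecialLinearGroup.toGL x) (by
          change Matrix.GeneralLinearGroup.det (Matrix.SpecialLinearGroup.toGL x) = 1
          apply Units.ext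
          exact x.det_coe) (by
          obtain ⟨z, hz⟩ := hx1
          refine ⟨z, ?_⟩
          rw [← map_pow, ← hz]
          rfl) hx2
        obtain ⟨A, B, φ, hφ⟩ := H99.exists_kron_of_mem e P _ g hg
        exact ⟨⟨A, B, φ, hφ⟩⟩
    -- counterexamples
    have key : ∀ x : Matrix.SpecialLinearGroup (Fin n) F, (∃ z : F, ((x ^ r : Matrix.SpecialLinearGroup (Fin n) F) : Matrix (Fin n) (Fin n) F) = z • (1 : Matrix (Fin n) (Fin n) F)) →
        (∀ z : F, (x : Matrix (Fin n) (Fin n) F) ≠ z • (1 : Matrix (Fin n) (Fin n) F)) →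
        ∀ (S : Finset (Fin n)) (l : F), (∀ v : Fin n → F, (∀ j ∈ S, v j = 0) → (x : Matrix (Fin n) (Fin n) F) *ᵥ v = l • v) → a ≤ S.card := by
      intro x hx1 hx2 S l hS
      obtain ⟨h1, ⟨D⟩⟩ := hex x hx1 hx2
      have h2 := D.general h1 hlt.le l
      have h3 := H99.le_finrank_ker_add S (Matrix.toLin' (x : Matrix (Fin n) (Fin n) F) - l • (1 : (Fin n → F) →ₗ[F] (Fin n → F))) (by
        intro v hv
        rw [LinearMap.sub_apply, LinearMap.smul_apply, Module.End.one_apply, sub_eq_zero, Matrix.toLin'_apply]
        exact hS v hv)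
      omega
    have hi01 : (⟨0, by omega⟩ : Fin n) ≠ ⟨1, by omega⟩ := by
      intro h
      have := congrArg Fin.val h
      simp at this
    set i0 : Fin n := ⟨0, by omega⟩ with hi0
    set i1 : Fin n := ⟨1, by omega⟩ with hi1
    let i2 : Fin n := ⟨2, by omega⟩
    have hi20 : i2 ≠ i0 := by
      intro h
      have := congrArg Fin.val h
      simp [i2, hi0] at this
    have hi21 : i2 ≠ i1 := by
      intro h
      have := congrArg Fin.val h
      simp [i2, hi1] at this
    by_cases hrp : r = p
    · exfalso
      subst hrp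
      have hpow : ∀ k : ℕ, (Matrix.transvection i0 i1 (1 : F)) ^ k = Matrix.transvection i0 i1 (k : F) := by
        intro k
        induction k with
        | zero => simp
        | succ k ih =>
          rw [pow_succ, ih, Matrix.transvection_mul_transvection_same _ _ hi01]
          push_cast
          rfl
      let x : Matrix.SpecialLinearGroup (Fin n) F := ⟨Matrix.transvection i0 i1 1, Matrix.det_transvection_of_ne _ _ hi01 _⟩
      have h1 := key x ⟨1, by
        rw [Matrix.SpecialLinearGroup.coe_pow]
        change (Matrix.transvection i0 i1 (1 : F)) ^ r = _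
        rw [hpow, CharP.cast_eq_zero, Matrix.transvection_zero, one_smul]⟩ (by
        intro z hz
        have h2 := congrFun (congrFun hz i0) i1
        change Matrix.transvection i0 i1 (1 : F) i0 i1 = _ at h2
        rw [Matrix.transvection, Matrix.add_apply, Matrix.one_apply_ne hi01, Matrix.single_apply_same, Matrix.smul_apply,
          Matrix.one_apply_ne hi01, smul_zero, zero_add] at h2
        exact one_ne_zero h2) {i1} 1 (by
        intro v hv
        change Matrix.transvection i0 i1 (1 : F) *ᵥ v = _
        rw [Matrix.transvection, Matrix.add_mulVec, Matrix.one_mulVec, one_smul, Matrix.single_mulVec, hv i1 (by simp)]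
        simp)
      rw [Finset.card_singleton] at h1
      omega
    have hnscal : ∀ (w u u' : F) (x : Matrix.SpecialLinearGroup (Fin n) F), w ≠ 0 → u ≠ 1 →
        (x : Matrix (Fin n) (Fin n) F) = Matrix.diagonal (fun j => w * ((if j = i0 then u else 1) * (if j = i1 then u' else 1))) →
        ∀ z : F, (x : Matrix (Fin n) (Fin n) F) ≠ z • (1 : Matrix (Fin n) (Fin n) F) := by
      intro w u u' x hw hu hx z hz
      rw [hx, Matrix.smul_one_eq_diagonal, Matrix.diagonal_eq_diagonal_iff] at hz
      have h1 := hz i0
      have h2 := hz i2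
      rw [if_pos rfl, if_neg hi01, mul_one] at h1
      rw [if_neg hi20, if_neg hi21, mul_one, mul_one] at h2
      apply hu
      exact mul_left_cancel₀ hw (by rw [h1, mul_one, h2])
    by_cases hrq : r ∣ Fintype.card F - 1
    · by_cases hr2 : r = 2
      · subst hr2
        have hodd : Odd (Fintype.card F) := by
          have h1 := Fintype.one_lt_card (α := F)
          rcases Nat.even_or_odd (Fintype.card F) with h | h
          · exfalso
            obtain ⟨m, hm⟩ := h
            obtain ⟨m', hm'⟩ := hrq
            omega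
          · exact h
        have hm1 : (-1 : F) ≠ 1 := H99.neg_one_ne_one_of_odd hodd
        have ha2 : a = 2 := by
          by_contra hcon
          obtain ⟨x, hx1, hx2⟩ := exists_diag_two i0 i1 (1 : F) (-1) (-1) (by simp) 2 (by simp) (by simp)
          have h1 := key x ⟨_, hx2⟩ (hnscal 1 (-1) (-1) x one_ne_zero hm1 hx1) {i0, i1} 1 (by
            intro v hv
            rw [hx1]
            funext j
            rw [Matrix.mulVec_diagonal, one_smul]
            by_cases hj : j = i0 ∨ j = i1
            · rw [hv j (by simpa using hj), mul_zero]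
            · push Not at hj
              rw [if_neg hj.1, if_neg hj.2]
              ring)
          rw [Finset.card_pair hi01] at h1
          omega
        refine ⟨rfl, ha2, hodd, ?_⟩
        by_contra hcon
        push Not at hcon
        obtain ⟨w, hw⟩ := H99.exists_pow_eq_neg_one hn0.ne' hodd hcon
        have hw0 : w ≠ 0 := by
          rintro rfl
          rw [zero_pow hn0.ne'] at hw
          exact one_ne_zero (neg_eq_zero.mp hw.symm)
        obtain ⟨x, hx1, hx2⟩ := exists_diag_two i0 i1 w (-1) 1 (by rw [hw]; simp) 2 (by simp) (by simp)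
        have h1 := key x ⟨_, hx2⟩ (hnscal w (-1) 1 x hw0 hm1 hx1) {i0} w (by
          intro v hv
          rw [hx1]
          funext j
          rw [Matrix.mulVec_diagonal, Pi.smul_apply, smul_eq_mul]
          by_cases hj : j = i0
          · rw [hv j (by simpa using hj), mul_zero, mul_zero]
          · rw [if_neg hj]
            simp)
        rw [Finset.card_singleton] at h1
        omega
      · exfalso
        obtain ⟨ζ, hζ1, hζ⟩ := H99.exists_prim_root (F := F) hrq
        have hζ0 : ζ ≠ 0 := by
          rintro rfl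
          rw [zero_pow hr.ne_zero] at hζ
          exact zero_ne_one hζ
        have hζi : ζ⁻¹ ≠ ζ := by
          intro h
          have h1 : ζ ^ 2 = 1 := by
            rw [pow_two]
            nth_rw 1 [← h]
            exact inv_mul_cancel₀ hζ0
          have h2 : orderOf ζ ∣ 2 := orderOf_dvd_of_pow_eq_one h1
          have h3 : orderOf ζ ∣ r := orderOf_dvd_of_pow_eq_one hζ
          have h4 : Nat.Coprime 2 r := (Nat.coprime_primes Nat.prime_two hr).mpr (Ne.symm hr2)
          have h5 : orderOf ζ = 1 := Nat.eq_one_of_dvd_coprimes h4 h2 h3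
          exact hζ1 (orderOf_eq_one_iff.mp h5)
        obtain ⟨x, hx1, hx2⟩ := exists_diag_two i0 i1 (1 : F) ζ ζ⁻¹ (by rw [mul_inv_cancel₀ hζ0]; simp) r hζ (by rw [inv_pow, hζ, inv_one])
        have hns := hnscal 1 ζ ζ⁻¹ x one_ne_zero hζ1 hx1
        have hS : ∀ v : Fin n → F, (∀ j ∈ ({i0, i1} : Finset (Fin n)), v j = 0) → (x : Matrix (Fin n) (Fin n) F) *ᵥ v = (1 : F) • v := by
          intro v hv
          rw [hx1]
          funext j
          rw [Matrix.mulVec_diagonal, one_smul]
          by_cases hj : j = i0 ∨ j = i1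
          · rw [hv j (by simpa using hj), mul_zero]
          · push Not at hj
            rw [if_neg hj.1, if_neg hj.2]
            ring
        have h1 := key x ⟨_, hx2⟩ hns {i0, i1} 1 hS
        rw [Finset.card_pair hi01] at h1
        have ha2 : a = 2 := by omega
        obtain ⟨h2, ⟨D⟩⟩ := hex x ⟨_, hx2⟩ hns
        have h3 := H99.le_finrank_ker_add {i0, i1} (Matrix.toLin' (x : Matrix (Fin n) (Fin n) F) - (1 : F) • (1 : (Fin n → F) →ₗ[F] (Fin n → F))) (by
          intro v hv
          rw [LinearMap.sub_apply, LinearMap.smul_apply, Module.End.one_apply, sub_eq_zero, Matrix.toLin'_apply]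
          exact hS v hv)
        rw [Finset.card_pair hi01] at h3
        have hA : ∃ c : F, (D.A : Matrix (Fin a) (Fin a) F) = c • (1 : Matrix (Fin a) (Fin a) F) := by
          by_contra hcon
          push Not at hcon
          have := D.left hcon 1
          omega
        obtain ⟨c, hc⟩ := hA
        have h4 := D.ker_of_left hc ζ
        have h5 : LinearMap.ker (Matrix.toLin' (x : Matrix (Fin n) (Fin n) F) - ζ • (1 : (Fin n → F) →ₗ[F] (Fin n → F))) = Submodule.span F {Pi.single i0 1} := by
          apply le_antisymm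
          · intro v hv
            rw [LinearMap.mem_ker, LinearMap.sub_apply, LinearMap.smul_apply, Module.End.one_apply, sub_eq_zero, Matrix.toLin'_apply, hx1] at hv
            rw [Submodule.mem_span_singleton]
            refine ⟨v i0, ?_⟩
            funext j
            by_cases hj : j = i0
            · rw [hj]
              simp
            · rw [Pi.smul_apply, Pi.single_eq_of_ne hj, smul_zero]
              have h6 := congrFun hv j
              rw [Matrix.mulVec_diagonal, if_neg hj, one_mul, one_mul, Pi.smul_apply, smul_eq_mul] at h6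
              by_contra hcon
              by_cases hj1 : j = i1
              · rw [if_pos hj1] at h6
                exact hζi (mul_right_cancel₀ (Ne.symm hcon) h6)
              · rw [if_neg hj1] at h6
                exact hζ1 (mul_right_cancel₀ (Ne.symm hcon) h6).symm
          · rw [Submodule.span_le, Set.singleton_subset_iff, SetLike.mem_coe, LinearMap.mem_ker, LinearMap.sub_apply, LinearMap.smul_apply,
              Module.End.one_apply, sub_eq_zero, Matrix.toLin'_apply, hx1]
            funext j
            rw [Matrix.mulVec_diagonal, Pi.smul_apply, smul_eq_mul]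
            by_cases hj : j = i0
            · rw [hj, if_pos rfl, if_neg hi01]
              simp
            · rw [Pi.single_eq_of_ne hj, mul_zero, mul_zero]
        rw [h5, finrank_span_singleton (by
          intro h0
          have := congrFun h0 i0
          rw [Pi.single_eq_same] at this
          exact one_ne_zero this)] at h4
        have h6 := Nat.le_of_dvd one_pos ⟨_, h4⟩
        omega
    · exfalso
      have hin := H99.order_le_of_dvd_relIndex hrp _ _ hΩ
      obtain ⟨x, hx1, hx2, hx3, hx4⟩ := H99.sl_exists_order_eq (F := F) hn0 hrp hrq 1 one_pos (by rw [one_mul]; exact hin)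
      rw [one_mul] at hx4
      obtain ⟨h2, ⟨D⟩⟩ := hex x ⟨1, hx1⟩ hx2
      have h1s : ∀ m : ℕ, ((1 : F) • (1 : (Fin m → F) →ₗ[F] (Fin m → F))) = 1 := fun m => one_smul _ _
      set i := orderOf ((Fintype.card F : ℕ) : ZMod r) with hi
      have hipos : 0 < i := H99.orderOf_pos_of_not_dvd (H99.prime_not_dvd_card hrp)
      have hpw := D.pow hx3
      by_cases hA : ∃ c : F, (D.A : Matrix (Fin a) (Fin a) F) = c • (1 : Matrix (Fin a) (Fin a) F)
      · obtain ⟨c, hc⟩ := hA
        have h4 := D.ker_of_left hc 1
        rw [h1s, h1s] at h4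
        have h5 : (Matrix.toLin' (c • (D.B : Matrix (Fin b) (Fin b) F))) ^ r = 1 := by
          have h6 : (c • (D.B : Matrix (Fin b) (Fin b) F)) ^ r = 1 := by
            apply eq_one_of_one_kron (a := a) (by omega)
            rw [← hpw, hc, _root_.smul_pow, _root_.smul_pow, one_pow, Matrix.smul_kronecker, Matrix.kronecker_smul]
          rw [← Matrix.toLin'_pow, h6, Matrix.toLin'_one]
          rfl
        have h6 : (Matrix.toLin' (c • (D.B : Matrix (Fin b) (Fin b) F))) ≠ 1 := by
          intro h7
          have h8 : c • (D.B : Matrix (Fin b) (Fin b) F) = 1 := by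
            apply Matrix.toLin'.injective
            rw [h7, Matrix.toLin'_one]
            rfl
          have hc0 : c ≠ 0 := by
            rintro rfl
            rw [zero_smul] at h8
            have h9 := congrFun (congrFun h8 ⟨0, by omega⟩) ⟨0, by omega⟩
            rw [Matrix.one_apply_eq] at h9
            exact zero_ne_one h9
          apply D.not_scalar h2 hc (d := c⁻¹)
          rw [← h8, smul_smul, inv_mul_cancel₀ hc0, one_smul]
        have h7 := H99.order_le_of_ne_one hrp _ h5 h6
        have h8 : finrank F (Fin b → F) = b := by simp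
        rw [← hi, h8] at h7
        rw [h4] at hx4
        have h9 : a * finrank F (LinearMap.ker (Matrix.toLin' (c • (D.B : Matrix (Fin b) (Fin b) F)) - 1)) + a * i ≤ a * b := by
          rw [← mul_add]
          exact Nat.mul_le_mul_left a h7
        have h10 : a * i ≤ i := by omega
        nlinarith
      · push Not at hA
        have h4 := D.left hA 1
        rw [h1s] at h4
        obtain ⟨c, hc⟩ := scalar_of_kron_eq_one (by omega) hpw
        have hc0 : c ≠ 0 := by
          rintro rfl
          rw [hc, zero_smul, Matrix.zero_kronecker] at hpw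
          have h9 := congrFun (congrFun hpw (⟨0, by omega⟩, ⟨0, by omega⟩)) (⟨0, by omega⟩, ⟨0, by omega⟩)
          rw [Matrix.one_apply_eq] at h9
          exact zero_ne_one h9
        obtain ⟨γ, hγ⟩ := H99.exists_root_of_not_dvd hrq c
        have hγ0 : γ ≠ 0 := by
          rintro rfl
          rw [zero_pow hr.ne_zero] at hγ
          exact hc0 hγ.symm
        have h5 : (Matrix.toLin' (γ⁻¹ • (D.A : Matrix (Fin a) (Fin a) F))) ^ r = 1 := by
          rw [← Matrix.toLin'_pow, _root_.smul_pow, hc, smul_smul, inv_pow, hγ, inv_mul_cancel₀ hc0, one_smul, Matrix.toLin'_one]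
          rfl
        have h6 : (Matrix.toLin' (γ⁻¹ • (D.A : Matrix (Fin a) (Fin a) F))) ≠ 1 := by
          intro h7
          apply hA γ
          have h8 : γ⁻¹ • (D.A : Matrix (Fin a) (Fin a) F) = 1 := by
            apply Matrix.toLin'.injective
            rw [h7, Matrix.toLin'_one]
            rfl
          rw [← h8, smul_smul, mul_inv_cancel₀ hγ0, one_smul]
        have h7 := H99.order_le_of_ne_one hrp _ h5 h6
        have h8 : finrank F (Fin a → F) = a := by simp
        rw [← hi, h8] at h7
        omega
  · rintro ⟨rfl, rfl, hodd, hv⟩ x hx ⟨z, hxz⟩ hxn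
    have hdet : (x : Matrix (Fin n) (Fin n) F).det = 1 := congrArg Units.val (show Matrix.GeneralLinearGroup.det x = 1 from hx)
    let x' : Matrix.SpecialLinearGroup (Fin n) F := ⟨(x : Matrix (Fin n) (Fin n) F), hdet⟩
    have hxx : Matrix.SpecialLinearGroup.toGL x' = x := Units.ext rfl
    have hsq : (x : Matrix (Fin n) (Fin n) F) ^ 2 = z • (1 : Matrix (Fin n) (Fin n) F) := by rw [← hxz, Units.val_pow_eq_pow_val]
    have hz0 : z ≠ 0 := by
      rintro rfl
      have h1 := congrArg Matrix.det hsq
      rw [Matrix.det_pow, hdet, one_pow, zero_smul, Matrix.det_zero] at h1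
      · exact one_ne_zero h1
    have hcs : H99.CentSurj (x' : Matrix (Fin n) (Fin n) F) := H99.centSurj_of_sq_eq hn0 _ z hz0 hsq
    have hF2 : (2 : F) ≠ 0 := H99.two_ne_zero_of_odd hodd
    have hp2 : 2 ≠ p := by
      rintro rfl
      exact hF2 (by exact_mod_cast CharP.cast_eq_zero F 2)
    have h2q : 2 ∣ Fintype.card F - 1 := by
      obtain ⟨m, hm⟩ := hodd
      exact ⟨m, by omega⟩
    set f := Matrix.toLin' (x : Matrix (Fin n) (Fin n) F) with hf
    have hf2 : f ^ 2 = z • (1 : (Fin n → F) →ₗ[F] (Fin n → F)) := by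
      rw [hf, ← Matrix.toLin'_pow, hsq]
      ext v
      simp
    have main : ∃ (A : GL (Fin 2) F) (B : GL (Fin b) F) (ψ : (Fin n → F) ≃ₗ[F] (Fin 2 × Fin b → F)),
        ∀ v, ψ (f v) = Matrix.toLin' ((A : Matrix (Fin 2) (Fin 2) F) ⊗ₖ (B : Matrix (Fin b) (Fin b) F)) (ψ v) := by
      by_cases hzs : ∃ w : F, w ^ 2 = z
      · obtain ⟨w, hw⟩ := hzs
        have hw0 : w ≠ 0 := by
          rintro rfl
          rw [zero_pow two_ne_zero] at hw
          exact hz0 hw.symm
        have hg2 : (w⁻¹ • f) ^ 2 = 1 := by
          rw [_root_.smul_pow, hf2, smul_smul, inv_pow, hw, inv_mul_cancel₀ hz0, one_smul]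
        obtain ⟨b0, c, hc1, hc2⟩ := H99.exists_eigenbasis hp2 h2q (w⁻¹ • f) hg2
        have hm1 : (-1 : F) ≠ 1 := H99.neg_one_ne_one_of_odd hodd
        have hc3 : ∀ j, c j = 1 ∨ c j = -1 := fun j => mul_self_eq_one_iff.mp (by rw [← pow_two]; exact hc1 j)
        set m := Nat.card {j // c j = -1} with hm
        have hdet1 : LinearMap.det (w⁻¹ • f) = (w⁻¹) ^ n := by
          rw [LinearMap.det_smul, hf, LinearMap.det_toLin', hdet, mul_one, hfn]
        have hdet2 : LinearMap.det (w⁻¹ • f) = (-1) ^ m := by
          rw [H99.det_of_eigenbasis b0 _ c hc2, hm, Nat.card_eq_fintype_card, Fintype.card_subtype, ← Finset.prod_const,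
            Finset.prod_filter]
          apply Finset.prod_congr rfl
          intro j _
          rcases hc3 j with h | h
          · rw [h, if_neg (fun h => hm1 h.symm)]
          · rw [h, if_pos rfl]
        have hmeven : Even m := by
          by_contra hcon
          rw [Nat.not_even_iff_odd] at hcon
          apply H99.pow_ne_neg_one hn0.ne' hodd hv w⁻¹
          rw [← hdet1, hdet2, hcon.neg_one_pow]
        obtain ⟨m', hm'⟩ := hmeven
        have hsum := card_sum hm1 c hc3
        rw [← hm, Nat.card_fin] at hsum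
        have hsum := hsum.trans hfn
        have hm'b : m' ≤ b := by omega
        let d : Fin b → F := fun j => if (j : ℕ) < m' then -1 else 1
        have hd3 : ∀ j, d j = 1 ∨ d j = -1 := by
          intro j
          by_cases h : (j : ℕ) < m'
          · right
            simp [d, h]
          · left
            simp [d, h]
        have hd1 : Nat.card {j // d j = -1} = m' := by
          rw [Nat.card_congr (Equiv.subtypeEquivRight (q := fun j : Fin b => (j : ℕ) < m') (by
            intro j
            by_cases h : (j : ℕ) < m'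
            · simp [d, h]
            · simp [d, h, Ne.symm hm1])), Nat.card_eq_fintype_card, Fintype.card_fin_lt_of_le hm'b]
        have hdsum := card_sum hm1 d hd3
        rw [hd1, Nat.card_fin] at hdsum
        have hprod : ∀ z : F, Nat.card {p : Fin 2 × Fin b // d p.2 = z} = 2 * Nat.card {j // d j = z} := by
          intro z
          have e1 : {p : Fin 2 × Fin b // d p.2 = z} ≃ Fin 2 × {j // d j = z} :=
            { toFun := fun x => (x.1.1, ⟨x.1.2, x.2⟩)
              invFun := fun x => ⟨(x.1, x.2.1), x.2.2⟩
              left_inv := fun x => rfl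
              right_inv := fun x => rfl }
          rw [Nat.card_congr e1, Nat.card_prod]
          simp
        let g' : (Fin 2 × Fin b → F) →ₗ[F] (Fin 2 × Fin b → F) := Matrix.toLin' (Matrix.diagonal (fun p : Fin 2 × Fin b => d p.2))
        obtain ⟨ψ, hψ⟩ := H99.conj_of_eigenbasis (g := g') b0 (Pi.basisFun F (Fin 2 × Fin b)) c (fun p => d p.2) hc2 (by
          intro p
          rw [Pi.basisFun_apply]
          change Matrix.diagonal (fun p : Fin 2 × Fin b => d p.2) *ᵥ (Pi.single p 1) = _
          rw [Matrix.diagonal_mulVec_single]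
          funext p'
          by_cases h : p' = p
          · rw [h]
            simp
          · rw [Pi.single_eq_of_ne h, Pi.smul_apply, Pi.single_eq_of_ne h, smul_zero]) (by
          intro z
          rw [hprod]
          by_cases h1 : z = 1
          · rw [h1]
            omega
          · by_cases h2 : z = -1
            · rw [h2, hd1]
              omega
            · have e1 : IsEmpty {j // c j = z} := ⟨fun x => by
                rcases hc3 x.1 with h | h
                · exact h1 (x.2.symm.trans h)
                · exact h2 (x.2.symm.trans h)⟩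
              have e2 : IsEmpty {j // d j = z} := ⟨fun x => by
                rcases hd3 x.1 with h | h
                · exact h1 (x.2.symm.trans h)
                · exact h2 (x.2.symm.trans h)⟩
              rw [Nat.card_of_isEmpty, Nat.card_of_isEmpty])
        have hBd : (Matrix.diagonal (fun j => w * d j)).det ≠ 0 := by
          rw [Matrix.det_diagonal, Finset.prod_ne_zero_iff]
          intro j _
          apply mul_ne_zero hw0
          rcases hd3 j with h | h
          · rw [h]
            exact one_ne_zero
          · rw [h]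
            exact neg_ne_zero.mpr one_ne_zero
        let B : GL (Fin b) F := Matrix.GeneralLinearGroup.mkOfDetNeZero (Matrix.diagonal (fun j => w * d j)) hBd
        refine ⟨1, B, ψ, ?_⟩
        intro v
        have h1 : ((1 : GL (Fin 2) F) : Matrix (Fin 2) (Fin 2) F) ⊗ₖ (B : Matrix (Fin b) (Fin b) F) =
            w • Matrix.diagonal (fun p : Fin 2 × Fin b => d p.2) := by
          rw [Units.val_one, ← Matrix.diagonal_one]
          change Matrix.diagonal _ ⊗ₖ Matrix.diagonal (fun j => w * d j) = _
          rw [Matrix.diagonal_kronecker_diagonal, ← Matrix.diagonal_smul]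
          congr 1
          funext p
          simp
        rw [h1, map_smul, LinearMap.smul_apply]
        have h2 := hψ v
        rw [LinearMap.smul_apply, map_smul] at h2
        change ψ (f v) = w • g' (ψ v)
        rw [← h2, smul_smul, mul_inv_cancel₀ hw0, one_smul]
      · push Not at hzs
        have hirr := X_pow_sub_C_irreducible_of_prime Nat.prime_two hzs
        obtain ⟨k, ⟨D⟩⟩ := H99.exists_decomp_irred f _ (monic_X_pow_sub_C z two_ne_zero) hirr (by
          rw [map_sub, map_pow, aeval_X, aeval_C, hf2, sub_eq_zero]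
          ext v
          simp [Module.algebraMap_end_apply])
        let C0 : Matrix (Fin 2) (Fin 2) F := !![0, z; 1, 0]
        have hC : C0 ^ 2 = z • (1 : Matrix (Fin 2) (Fin 2) F) := by
          rw [pow_two]
          ext i j
          fin_cases i <;> fin_cases j <;> simp [C0, Matrix.mul_apply]
        have hCd : C0.det ≠ 0 := by
          rw [Matrix.det_fin_two_of]
          simpa using hz0
        let A : GL (Fin 2) F := Matrix.GeneralLinearGroup.mkOfDetNeZero C0 hCd
        set T := Matrix.toLin' ((A : Matrix (Fin 2) (Fin 2) F) ⊗ₖ ((1 : GL (Fin b) F) : Matrix (Fin b) (Fin b) F)) with hT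
        have hT2 : T ^ 2 = z • (1 : (Fin 2 × Fin b → F) →ₗ[F] (Fin 2 × Fin b → F)) := by
          rw [hT, ← Matrix.toLin'_pow, kron_pow]
          have h1 : (A : Matrix (Fin 2) (Fin 2) F) ^ 2 = z • (1 : Matrix (Fin 2) (Fin 2) F) := hC
          rw [h1, Units.val_one, one_pow, Matrix.smul_kronecker, Matrix.one_kronecker_one]
          ext v
          simp
        obtain ⟨k', ⟨D'⟩⟩ := H99.exists_decomp_irred T _ (monic_X_pow_sub_C z two_ne_zero) hirr (by
          rw [map_sub, map_pow, aeval_X, aeval_C, hT2, sub_eq_zero]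
          ext v
          simp [Module.algebraMap_end_apply])
        have hk := D.finrank_eq
        have hk' := D'.finrank_eq
        simp only [natDegree_X_pow_sub_C, Finset.sum_const, Finset.card_univ, Fintype.card_fin, smul_eq_mul, finrank_fintype_fun_eq_card,
          Fintype.card_prod] at hk hk'
        have hkk : k = k' := by omega
        subst hkk
        obtain ⟨ψ, hψ, -⟩ := D.conj D'
        exact ⟨A, 1, ψ, hψ⟩
    obtain ⟨A, B, ψ, hψ⟩ := main
    obtain ⟨y, hy, φ, hφ⟩ := H99.exists_mem_of_kron e P A B
    obtain ⟨g, hg⟩ := H99.exists_conj_mem_comap x' hcs _ y hy (φ.trans ψ.symm) (by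
      intro v
      change ψ.symm (φ _) = f (ψ.symm (φ v))
      rw [LinearEquiv.symm_apply_eq, hψ, LinearEquiv.apply_symm_apply, hφ, Matrix.toLin'_apply])
    refine ⟨Matrix.SpecialLinearGroup.toGL g, ?_, ?_⟩
    · change Matrix.GeneralLinearGroup.det (Matrix.SpecialLinearGroup.toGL g) = 1
      apply Units.ext
      exact g.det_coe
    · rw [Subgroup.mem_comap, map_mul, map_mul, map_inv, hxx] at hg
      exact hg

end Cfsg.Agent.S5979
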