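import Cfsg.Statements.S5980
import Cfsg.Agent.H43.TensSp3

set_option autoImplicit false
open scoped MatrixGroups
open Cfsg

namespace Cfsg.Agent.S5980

/-- Elements of prime order of PSp_n(q), q odd, and the stabilizers of tensor decompositions Sp_a(q) ⊗ O_b(q). Here `T = PSp_{2d}(F)` for a field `F` with `q` elements, `q` odd, `d ≥ 2`, realised through the matrices preserving the standard alternating form `f`; `2d = a·b` with `a` even, `b ≥ 3`, and the bijection `e` and change of basis `P` exhibit `f` as a non-zero scalar multiple of the tensor product of a non-degenerate alternating form `f₁` on `F^a` and a non-degenerate symmetric bilinear form `f₂` on `F^b`; `H` is the subgroup of `T` stabilizing this tensor decomposition (the elements of `T` in the conjugate by `P` of the group of Kronecker products) — a subgroup of type Sp_a(q) ⊗ O^ε_b(q) (maximality is not assumed). Ω is the set of cosets of `H` in `T`, so an element of `T` of prime order `r` (`x ∈ T` with `x^r` scalar,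 `x` not scalar) fixes a point of Ω exactly when some `T`-conjugate of `x` lies in `H`. Let `r` be a prime dividing the index of `H`. Then every element of `T` of order `r` fixes a point of Ω if and only if `r = 2` and `a = 2`. -/
theorem result {F : Type*} [Field F] [Fintype F] {p : ℕ} [Fact p.Prime] [CharP F p] {q : ℕ} (hq : Fintype.card F = q)
    (hodd : Odd q) (d : ℕ) (hd : 2 ≤ d) (a b : ℕ) (hab : 2 * d = a * b) (ha : Even a) (ha2 : 2 ≤ a) (hb : 3 ≤ b)
    (e : (Fin d ⊕ Fin d) ≃ Fin a × Fin b) (P : GL (Fin d ⊕ Fin d) F)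
    (f₁ : (Fin a → F) → (Fin a → F) → F) (f₂ : (Fin b → F) → (Fin b → F) → F)
    (hf₁ : Cfsg.Geo.IsSymplecticForm f₁) (hf₂ : Cfsg.Geo.IsSymmetricForm f₂)
    (hS : Cfsg.Geo.IsTensorFormStructure id (Cfsg.sympForm d F) f₁ f₂ e P)
    (r : ℕ) [Fact r.Prime]
    (hΩ : r ∣ (Cfsg.Geo.tensorProductSubgroup a b e P).relIndex (Cfsg.spGL d F)) :
    (∀ x ∈ Cfsg.spGL d F, (∃ z : F, ((x ^ r : GL (Fin d ⊕ Fin d) F) : Matrix (Fin d ⊕ Fin d) (Fin d ⊕ Fin d) F) = z • (1 : Matrix (Fin d ⊕ Fin d) (Fin d ⊕ Fin d) F)) →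
      (∀ z : F, (x : Matrix (Fin d ⊕ Fin d) (Fin d ⊕ Fin d) F) ≠ z • (1 : Matrix (Fin d ⊕ Fin d) (Fin d ⊕ Fin d) F)) →
      ∃ g ∈ Cfsg.spGL d F, g⁻¹ * x * g ∈ Cfsg.Geo.tensorProductSubgroup a b e P) ↔ (r = 2 ∧ a = 2) := by
  have hodd' : Odd (Fintype.card F) := by rw [hq]; exact hodd
  have hrd : r ∣ Nat.card (Matrix.symplecticGroup (Fin d) F) := by
    have h1 : (Cfsg.Geo.tensorProductSubgroup a b e P).relIndex (Cfsg.spGL d F) ∣ Nat.card (Cfsg.spGL d F) :=
      Subgroup.index_dvd_card _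
    have h2 : Nat.card (Cfsg.spGL d F) = Nat.card (Matrix.symplecticGroup (Fin d) F) := by
      apply Nat.card_congr
      refine Equiv.symm (Equiv.ofBijective (fun x => ⟨(H43.TensSp.exists_gl_of_symp x).choose, (H43.TensSp.exists_gl_of_symp x).choose_spec.1⟩) ⟨?_, ?_⟩)
      · intro x y hxy
        apply Subtype.ext
        rw [← (H43.TensSp.exists_gl_of_symp x).choose_spec.2, ← (H43.TensSp.exists_gl_of_symp y).choose_spec.2]
        exact congrArg (fun z : Cfsg.spGL d F => ((z : GL (Fin d ⊕ Fin d) F) : Matrix (Fin d ⊕ Fin d) (Fin d ⊕ Fin d) F)) hxy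
      · intro X
        obtain ⟨x, hx⟩ := H99.exists_symp_of_isometry (Matrix.toLin' ((X : GL (Fin d ⊕ Fin d) F) : Matrix (Fin d ⊕ Fin d) (Fin d ⊕ Fin d) F))
          (H43.TensSp.mem_spGL.mp X.2)
        refine ⟨x, ?_⟩
        apply Subtype.ext
        apply Units.ext
        change (((H43.TensSp.exists_gl_of_symp x).choose : GL (Fin d ⊕ Fin d) F) : Matrix (Fin d ⊕ Fin d) (Fin d ⊕ Fin d) F) = _
        rw [(H43.TensSp.exists_gl_of_symp x).choose_spec.2]
        exact Matrix.toLin'.injective hx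
    rw [← h2]
    exact hΩ.trans h1
  constructor
  · intro H
    exact H43.TensSp.forward hodd' hd hab ha2 ha hb e P hf₁ hf₂ hS r hrd H
  · rintro ⟨rfl, rfl⟩ x hx hz -
    obtain rfl : d = b := by omega
    exact H43.TensSp.backward hodd' hd e P hf₁ hf₂ hS x hx hz

end Cfsg.Agent.S5980
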