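import Cfsg.Statements.S5981
import Cfsg.Agent.H99.SimOrt5

set_option autoImplicit false
open scoped MatrixGroups
open Cfsg

namespace Cfsg.Agent.S5981


open Module Matrix Polynomial Cfsg.Agent.H99 Cfsg.Agent.H99.SD

section
variable {F : Type*} [Field F] [Fintype F] {n : ℕ}

theorem mem_sl (x : Matrix.SpecialLinearGroup (Fin n) F) : Matrix.SpecialLinearGroup.toGL x ∈ Cfsg.Geo.specialLinear (Fin n) F := by
  rw [Cfsg.Geo.specialLinear, MonoidHom.mem_ker]
  apply Units.ext
  exact x.det_coe

theorem exists_sl {x : GL (Fin n) F} (hx : x ∈ Cfsg.Geo.specialLinear (Fin n) F) : ∃ y : Matrix.SpecialLinearGroup (Fin n) F, Matrix.SpecialLinearGroup.toGL y = x := by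
  rw [Cfsg.Geo.specialLinear, MonoidHom.mem_ker] at hx
  exact ⟨⟨x, congrArg Units.val hx⟩, Units.ext rfl⟩

end


/-- Elements of prime order of PSL_n(q), q odd, and the subgroups of orthogonal type. Here `T = PSL_n(F)` for a field `F` with `q` elements, `q` odd, `n ≥ 3`; `Q` is a non-degenerate quadratic form on `F^n` (of either type when `n` is even) and `H` is the subgroup of matrices of determinant 1 that preserve `Q` up to a scalar — a subgroup of type O^ε_n(q) (maximality is not assumed); Ω is the set of cosets of `H` in `T`, so an element of `T` of prime order `r` (a matrix `x` of determinant 1 with `x^r` scalar, `x` not scalar) fixes a point of Ω exactly when some conjugate of `x` by a matrix of determinant 1 preserves `Q` up to a scalar. Let `r` be a prime dividing the index of `H`, with `(n, r) ≠ (6, 3)`. Then every element of `T` of order `r` fixes a point of Ω if and only if `r = 2`, or `r ∈ {3, 5}`, `n = r` and `(q − 1)_r = r` (the `r`-part of `q − 1` is exactly `r`). The case `(n, r)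 = (6, 3)` is not covered by this statement. -/
theorem result {F : Type*} [Field F] [Fintype F] {p : ℕ} [Fact p.Prime] [CharP F p] {q : ℕ} (hq : Fintype.card F = q)
    (hodd : Odd q) (n : ℕ) (hn : 3 ≤ n) (Q : (Fin n → F) → F) (hQ : Cfsg.Geo.IsNondegenerateQuadraticForm Q)
    (r : ℕ) [Fact r.Prime] (hgap : ¬ (n = 6 ∧ r = 3))
    (hΩ : r ∣ (Cfsg.Geo.quadSimilarityGroup Q).relIndex (Cfsg.Geo.specialLinear (Fin n) F)) :
    (∀ x ∈ Cfsg.Geo.specialLinear (Fin n) F, (∃ z : F, ((x ^ r : GL (Fin n) F) : Matrix (Fin n) (Fin n) F) = z • (1 : Matrix (Fin n) (Fin n) F)) →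
      (∀ z : F, (x : Matrix (Fin n) (Fin n) F) ≠ z • (1 : Matrix (Fin n) (Fin n) F)) →
      ∃ g ∈ Cfsg.Geo.specialLinear (Fin n) F, g⁻¹ * x * g ∈ Cfsg.Geo.quadSimilarityGroup Q) ↔
    (r = 2 ∨ ((r = 3 ∨ r = 5) ∧ n = r ∧ padicValNat r (q - 1) = 1)) := by

  classical
  have hrr : r.Prime := Fact.out
  have hp : p.Prime := Fact.out
  have hfd : finrank F (Fin n → F) = n := by rw [finrank_fintype_fun_eq_card, Fintype.card_fin]
  subst hq
  have h2 : (2 : F) ≠ 0 := Cfsg.Agent.GeoMax.Ort.two_ne_zero_of_odd hodd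
  constructor
  · intro hfix
    by_cases hr2 : r = 2
    · left; exact hr2
    · right
      have hfix1 : ∀ x : Matrix.SpecialLinearGroup (Fin n) F,
          (∃ z : F, ((x ^ r : Matrix.SpecialLinearGroup (Fin n) F) : Matrix (Fin n) (Fin n) F) = z • (1 : Matrix (Fin n) (Fin n) F)) →
          (∀ z : F, (x : Matrix (Fin n) (Fin n) F) ≠ z • (1 : Matrix (Fin n) (Fin n) F)) →
          ∃ g : GL (Fin n) F, g⁻¹ * Matrix.SpecialLinearGroup.toGL x * g ∈ Cfsg.Geo.quadSimilarityGroup Q := by
        intro x ⟨z, hz⟩ hns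
        obtain ⟨g, -, hg⟩ := hfix (Matrix.SpecialLinearGroup.toGL x) (mem_sl x) ⟨z, by
          rw [← map_pow]
          exact hz⟩ hns
        exact ⟨g, hg⟩
      have hfix' : ∀ x : Matrix.SpecialLinearGroup (Fin n) F,
          (∃ z : F, ((x ^ r : Matrix.SpecialLinearGroup (Fin n) F) : Matrix (Fin n) (Fin n) F) = z • (1 : Matrix (Fin n) (Fin n) F)) →
          (∀ z : F, (x : Matrix (Fin n) (Fin n) F) ≠ z • (1 : Matrix (Fin n) (Fin n) F)) → Sml (RingHom.id F) (Matrix.toLin' (x : Matrix (Fin n) (Fin n) F)) := by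
        intro x hx hns
        obtain ⟨g, hg⟩ := hfix1 x hx hns
        exact sml_of_conjQ hQ (Matrix.SpecialLinearGroup.toGL x) g hg
      by_cases hrp : r = p
      · subst hrp
        exact (forward_p h2 (by omega) hfix').elim
      · by_cases hrq : r ∣ Fintype.card F - 1
        · exact forward_e1 (σ := RingHom.id F) hr2 hrq (fun c _ => rfl) hn hgap hfix'
        · exfalso
          rcases Nat.even_or_odd (orderOf ((Fintype.card F : ℕ) : ZMod r)) with he | he
          · have hidx : r ∣ (Cfsg.Geo.quadSimilarityGroup Q).index := by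
              have h3 := relIndex_inf_SL_dvd (Cfsg.Geo.quadSimilarityGroup Q) (⊤ : Subgroup (GL (Fin n) F))
              rw [top_inf_eq, Subgroup.relIndex_top_right] at h3
              exact hΩ.trans h3
            exact forward_even_e h2 hr2 hrp hrq (by omega) hQ he hidx (fun x hx hns => hfix1 x ⟨1, by rw [hx, one_smul]; rfl⟩ hns)
          · exact forward_odd_e hr2 hrp hrq (by omega) he (order_le_of_dvd_relIndex (F := F) hrp _ _ hΩ) hfix'
  · intro hcond x hx ⟨z, hz⟩ hns
    obtain ⟨y, rfl⟩ := exists_sl hx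
    have hz' : ((y ^ r : Matrix.SpecialLinearGroup (Fin n) F) : Matrix (Fin n) (Fin n) F) = z • (1 : Matrix (Fin n) (Fin n) F) := by
      rw [← map_pow] at hz
      exact hz
    have hz0 : z ≠ 0 := by
      rintro rfl
      have h1 := congrArg Matrix.det hz'
      have hne : Nonempty (Fin n) := ⟨⟨0, by omega⟩⟩
      rw [Matrix.SpecialLinearGroup.det_coe, zero_smul, Matrix.det_zero] at h1
      exact one_ne_zero h1
    have hfin : (∃ P : Matrix.SpecialLinearGroup (Fin n) F,
        P⁻¹ * y * P ∈ (Cfsg.Geo.quadSimilarityGroup Q).comap (Matrix.SpecialLinearGroup.toGL : Matrix.SpecialLinearGroup (Fin n) F →* GL (Fin n) F)) →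
        ∃ g ∈ Cfsg.Geo.specialLinear (Fin n) F, g⁻¹ * Matrix.SpecialLinearGroup.toGL y * g ∈ Cfsg.Geo.quadSimilarityGroup Q := by
      rintro ⟨P, hP⟩
      refine ⟨Matrix.SpecialLinearGroup.toGL P, mem_sl P, ?_⟩
      rw [Subgroup.mem_comap, map_mul, map_mul, map_inv] at hP
      exact hP
    apply hfin
    rcases hcond with rfl | ⟨hc1, hc2, hc3⟩
    · rw [Matrix.SpecialLinearGroup.coe_pow] at hz'
      exact back_two h2 (by omega) hQ y hz0 hz'
    · have hr2 : r ≠ 2 := by omega
      subst hc2
      have hrq : n ∣ Fintype.card F - 1 := by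
        by_contra h
        rw [padicValNat.eq_zero_of_not_dvd h] at hc3
        omega
      have hrp : n ≠ p := by
        rintro rfl
        have h3 : n ∣ Fintype.card F := by
          obtain ⟨e, he⟩ := FiniteField.card F n
          rw [he.2]
          exact dvd_pow_self n e.2.ne'
        have h4 := (Nat.dvd_sub_iff_right Fintype.one_lt_card.le h3).mp hrq
        exact hrr.one_lt.ne' (Nat.dvd_one.mp h4)
      have hz'' := hz'
      rw [Matrix.SpecialLinearGroup.coe_pow] at hz''
      apply conj_of_sml_odd h2 (by rcases hc1 with h | h <;> rw [h] <;> decide) hQ y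
      · exact centSurj_of_pow_eq (by omega) _ n z hz0 (natCast_ne_zero_of_ne hrr hrp) hz''
      · exact backward_e1 (p := p) (σ := RingHom.id F) (fun a => rfl) hrp hr2 hrq (fun c _ => rfl) hc1 hc3 y z hz'


end Cfsg.Agent.S5981
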