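import Cfsg.Statements.S5982
import Cfsg.Agent.H99.SimUni

set_option autoImplicit false
open scoped MatrixGroups
open Cfsg

namespace Cfsg.Agent.S5982


open Module Matrix Polynomial Cfsg.Agent.H99 Cfsg.Agent.H99.SD

section
variable {F : Type*} [Field F] [Fintype F] {q n : ℕ}

theorem padic_conv {r : ℕ} [Fact r.Prime] (hr2 : r ≠ 2) (hq : 2 ≤ q) (h : r ∣ q - 1) : padicValNat r (q ^ 2 - 1) = padicValNat r (q - 1) := by
  have hr : r.Prime := Fact.out
  have h1 : q ^ 2 - 1 = (q + 1) * (q - 1) := by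
    have := Nat.sq_sub_sq q 1
    rwa [one_pow] at this
  have h2 : ¬ r ∣ q + 1 := by
    intro h3
    have h4 : r ∣ 2 := by
      have h5 := Nat.dvd_sub h3 h
      have h6 : q + 1 - (q - 1) = 2 := by omega
      rwa [h6] at h5
    exact hr2 ((Nat.prime_dvd_prime_iff_eq hr Nat.prime_two).mp h4)
  rw [h1, padicValNat.mul (by omega) (by omega), padicValNat.eq_zero_of_not_dvd h2, zero_add]

theorem conj_fix (hF : Fintype.card F = q ^ 2) (hq : 2 ≤ q) {r : ℕ} (h : r ∣ q - 1) (c : F) (hc : c ^ r = 1) : Uni.conjHom hF c = c := by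
  obtain ⟨k, hk⟩ := h
  have h1 : q = r * k + 1 := by omega
  rw [Uni.conjHom_apply]
  conv_lhs => rw [h1]
  rw [pow_succ, pow_mul, hc, one_pow, one_mul]

theorem mem_sl (x : Matrix.SpecialLinearGroup (Fin n) F) : Matrix.SpecialLinearGroup.toGL x ∈ Cfsg.Geo.specialLinear (Fin n) F := by
  rw [Cfsg.Geo.specialLinear, MonoidHom.mem_ker]
  apply Units.ext
  exact x.det_coe

theorem exists_sl {x : GL (Fin n) F} (hx : x ∈ Cfsg.Geo.specialLinear (Fin n) F) : ∃ y : Matrix.SpecialLinearGroup (Fin n) F, Matrix.SpecialLinearGroup.toGL y = x := by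
  rw [Cfsg.Geo.specialLinear, MonoidHom.mem_ker] at hx
  exact ⟨⟨x, congrArg Units.val hx⟩, Units.ext rfl⟩

end


/-- Elements of prime order of PSL_n(q), q = q₀², and the subgroups of unitary type. Here `T = PSL_n(F)` for a field `F` with `q = q₀²` elements (`n ≥ 3`), `f` is a non-degenerate unitary form on `F^n` for the involutory automorphism `x ↦ x^{q₀}`, and `H` is the subgroup of matrices of determinant 1 that preserve `f` up to a scalar — a subgroup of type GU_n(q₀) (maximality is not assumed); Ω is the set of cosets of `H` in `T`, so an element of `T` of prime order `r` (a matrix `x` of determinant 1 with `x^r` scalar, `x` not scalar) fixes a point of Ω exactly when some conjugate of `x` by a matrix of determinant 1 preserves `f` up to a scalar. Let `r` be a prime dividing the index of `H`, with `r = 2` or `r` different from the characteristic `p`, and with `(n, r) ≠ (6, 3)`. Then every element of `T` of order `r` fixes a point of Ω if and only if either `r = 2` and (`p = 2` or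 `(n)_2 ≤ (q − 1)_2`), or `r ∈ {3, 5}`, `n = r` and `(q₀ − 1)_r = r`. (Odd `r = p` and the case `(n, r) = (6, 3)` are not covered by this statement.) -/
theorem result {F : Type*} [Field F] [Fintype F] {p : ℕ} [Fact p.Prime] [CharP F p] {q : ℕ} (hq : Fintype.card F = q)
    (q₀ : ℕ) (hq₀ : q = q₀ ^ 2) (n : ℕ) (hn : 3 ≤ n) (f : (Fin n → F) → (Fin n → F) → F) (hf : Cfsg.Geo.IsUnitaryFormPow q₀ f)
    (r : ℕ) [Fact r.Prime] (hr : r = 2 ∨ r ≠ p) (hgap : ¬ (n = 6 ∧ r = 3))
    (hΩ : r ∣ (Cfsg.Geo.similarityGroup f).relIndex (Cfsg.Geo.specialLinear (Fin n) F)) :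
    (∀ x ∈ Cfsg.Geo.specialLinear (Fin n) F, (∃ z : F, ((x ^ r : GL (Fin n) F) : Matrix (Fin n) (Fin n) F) = z • (1 : Matrix (Fin n) (Fin n) F)) →
      (∀ z : F, (x : Matrix (Fin n) (Fin n) F) ≠ z • (1 : Matrix (Fin n) (Fin n) F)) →
      ∃ g ∈ Cfsg.Geo.specialLinear (Fin n) F, g⁻¹ * x * g ∈ Cfsg.Geo.similarityGroup f) ↔
    ((r = 2 ∧ (p = 2 ∨ padicValNat 2 n ≤ padicValNat 2 (q - 1))) ∨ ((r = 3 ∨ r = 5) ∧ n = r ∧ padicValNat r (q₀ - 1) = 1)) := by

  classical
  have hF : Fintype.card F = q₀ ^ 2 := by rw [hq, hq₀]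
  have hrr : r.Prime := Fact.out
  have hp : p.Prime := Fact.out
  have hq2 := Uni.two_le_q hF
  have hfd : finrank F (Fin n → F) = n := by rw [finrank_fintype_fun_eq_card, Fintype.card_fin]
  subst hq₀
  have hsq : q₀ ^ 2 - 1 = (q₀ + 1) * (q₀ - 1) := by
    have := Nat.sq_sub_sq q₀ 1
    rwa [one_pow] at this
  have h2F_of : p ≠ 2 → (2 : F) ≠ 0 := by
    intro hp2 h
    have h3 : ((2 : ℕ) : F) = 0 := by exact_mod_cast h
    rw [CharP.cast_eq_zero_iff F p] at h3
    have := Nat.le_of_dvd (by norm_num) h3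
    have := hp.two_le
    omega
  constructor
  · intro hfix
    have hfix' : ∀ x : Matrix.SpecialLinearGroup (Fin n) F,
        (∃ z : F, ((x ^ r : Matrix.SpecialLinearGroup (Fin n) F) : Matrix (Fin n) (Fin n) F) = z • (1 : Matrix (Fin n) (Fin n) F)) →
        (∀ z : F, (x : Matrix (Fin n) (Fin n) F) ≠ z • (1 : Matrix (Fin n) (Fin n) F)) → Sml (Uni.conjHom hF) (Matrix.toLin' (x : Matrix (Fin n) (Fin n) F)) := by
      intro x ⟨z, hz⟩ hns
      obtain ⟨g, -, hg⟩ := hfix (Matrix.SpecialLinearGroup.toGL x) (mem_sl x) ⟨z, by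
        rw [← map_pow]
        exact hz⟩ hns
      exact sml_of_conj hF hf (Matrix.SpecialLinearGroup.toGL x) g hg
    by_cases hr2 : r = 2
    · subst hr2
      left
      refine ⟨rfl, ?_⟩
      by_contra hcon
      push Not at hcon
      obtain ⟨hp2, hv⟩ := hcon
      have h2F := h2F_of hp2
      obtain ⟨k, hk⟩ := UT.odd_q hF h2F
      have hcard : Fintype.card F = 4 * (k * (k + 1)) + 1 := by rw [hF, hk]; ring
      obtain ⟨hrn, z, hz0, hznp, hzd⟩ := exists_nonpower_of_not_cond (F := F) (r := 2) (n := n) (by omega) (by rw [hcard]; omega) (by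
        rintro ⟨h, -⟩
        rw [hF] at h
        omega)
      obtain ⟨x, hx1, hx2, -⟩ := sl_exists_nonpower z hznp hrn hzd
      have hne : Nonempty (Fin n) := ⟨⟨0, by omega⟩⟩
      apply not_sml_two hF h2F (x := Matrix.toLin' (x : Matrix (Fin n) (Fin n) F)) (z := z) _ hznp (hfix' x ⟨z, hx1⟩ (hx2 (by omega)))
      intro v
      rw [Matrix.SpecialLinearGroup.coe_pow] at hx1
      have h1 : (Matrix.toLin' (x : Matrix (Fin n) (Fin n) F)) ^ 2 = z • (1 : (Fin n → F) →ₗ[F] (Fin n → F)) := toLin_pow_eq hx1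
      have h2 := LinearMap.congr_fun h1 v
      rw [pow_two, Module.End.mul_apply] at h2
      exact h2
    · right
      have hrp : r ≠ p := hr.resolve_left hr2
      have hQ : ¬ r ∣ q₀ := UT.not_dvd_q hF hrp
      obtain ⟨j, hj1, hjn, hj⟩ := uni_sim_index hF (by omega) hf hQ hΩ
      by_cases hrq : r ∣ Fintype.card F - 1
      · have hrq0 : r ∣ q₀ - 1 := by
          have h1 : ((q₀ : ℕ) : ZMod r) * ((q₀ : ℕ) : ZMod r) = 1 := by
            rw [hF] at hrq
            rw [UT.zmod_sub _ _ (by omega)] at hrq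
            rw [← pow_two, hrq]
          rcases mul_self_eq_one_iff.mp h1 with h2 | h2
          · have h3 := (UT.zmod_sub (r := r) q₀ 1 (by omega)).mpr (by rw [pow_one, h2])
            rwa [pow_one] at h3
          · exfalso
            rw [h2] at hj
            have h3 : ((-1 : ZMod r) ^ j) ≠ 0 := pow_ne_zero _ (neg_ne_zero.mpr one_ne_zero)
            have h4 : (2 : ZMod r) * (-1) ^ j = 0 := by linear_combination hj
            have h5 := (mul_eq_zero.mp h4).resolve_right h3
            have h6 : ((2 : ℕ) : ZMod r) = 0 := by exact_mod_cast h5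
            rw [CharP.cast_eq_zero_iff (ZMod r) r] at h6
            exact hr2 ((Nat.prime_dvd_prime_iff_eq hrr Nat.prime_two).mp h6)
        obtain ⟨h1, h2, h3⟩ := forward_e1 (σ := Uni.conjHom hF) hr2 hrq (conj_fix hF hq2 hrq0) hn hgap hfix'
        refine ⟨h1, h2, ?_⟩
        rw [hF, padic_conv hr2 hq2 hrq0] at h3
        exact h3
      · exfalso
        have hen := order_le_of_dvd_relIndex (F := F) hrp _ _ hΩ
        have hepos : 0 < orderOf ((Fintype.card F : ℕ) : ZMod r) := orderOf_pos_of_not_dvd (prime_not_dvd_card (F := F) hrp)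
        obtain ⟨x, hx1, hx2, hx3, hx4⟩ := exists_block_elt (F := F) (n := n) hrp hrq 1 one_pos (by rw [one_mul]; exact hen)
        obtain ⟨B, hE, hND, l, hl, hB⟩ := hfix' x ⟨1, by rw [hx1, one_smul]; rfl⟩ hx3
        set y := Matrix.toLin' (x : Matrix (Fin n) (Fin n) F) with hy
        have hne : Nontrivial (Fin n → F) := by
          have : Nonempty (Fin n) := ⟨⟨0, by omega⟩⟩
          infer_instance
        obtain ⟨u, hu⟩ := exists_ne (0 : Fin n → F)
        obtain ⟨v, huv⟩ : ∃ v, B u v ≠ 0 := by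
          by_contra hcon
          push Not at hcon
          exact hu (hND u Submodule.mem_top (fun v _ => hcon v))
        have hlr : l = 1 := by
          apply eq_one_of_pow_eq_one hrq
          have h1 : ∀ k : ℕ, B ((y ^ k) u) ((y ^ k) v) = l ^ k * B u v := by
            intro k
            induction k with
            | zero => rw [pow_zero, pow_zero, one_mul]; rfl
            | succ k ih => rw [pow_succ', Module.End.mul_apply, Module.End.mul_apply, hB, ih, pow_succ']; ring
          have h2 := h1 r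
          rw [hx2] at h2
          have h3 : (l ^ r - 1) * B u v = 0 := by
            have h4 : B u v = l ^ r * B u v := h2
            linear_combination -h4
          exact sub_eq_zero.mp ((mul_eq_zero.mp h3).resolve_right huv)
        rw [hlr] at hB
        simp only [one_mul] at hB
        obtain ⟨s1, s2, s3, s4, s5⟩ := split_fixed hrp hE hB hx2 (W := ⊤) (fun _ _ => Submodule.mem_top) hND
        obtain ⟨hdvd, -⟩ := UT.isoBlocks hF hr2 hrp (c := 2 * orderOf ((q₀ ^ 2 : ℕ) : ZMod r)) (Or.inr ⟨not_selfDual_of hr2 hj, rfl⟩) hE hB hx2 s2 s3 s4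
        rw [top_inf_eq, top_inf_eq, finrank_top, hfd] at s5
        rw [top_inf_eq, top_inf_eq] at hdvd
        rw [one_mul] at hx4
        have h1 : finrank F (orth hE.oform (LinearMap.ker (y - 1)) : Submodule F (Fin n → F)) = orderOf ((Fintype.card F : ℕ) : ZMod r) := by omega
        rw [h1, hF] at hdvd
        rw [hF] at hepos
        have := Nat.le_of_dvd hepos hdvd
        omega
  · intro hcond x hx ⟨z, hz⟩ hns
    obtain ⟨y, rfl⟩ := exists_sl hx
    have hz' : ((y ^ r : Matrix.SpecialLinearGroup (Fin n) F) : Matrix (Fin n) (Fin n) F) = z • (1 : Matrix (Fin n) (Fin n) F) := by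
      rw [← map_pow] at hz
      exact hz
    have hz0 : z ≠ 0 := by
      rintro rfl
      have h1 := congrArg Matrix.det hz'
      have hne : Nonempty (Fin n) := ⟨⟨0, by omega⟩⟩
      rw [Matrix.SpecialLinearGroup.det_coe, zero_smul, Matrix.det_zero] at h1
      exact one_ne_zero h1
    have hfin : CentSurj (y : Matrix (Fin n) (Fin n) F) → Sml (Uni.conjHom hF) (Matrix.toLin' (y : Matrix (Fin n) (Fin n) F)) →
        ∃ g ∈ Cfsg.Geo.specialLinear (Fin n) F, g⁻¹ * Matrix.SpecialLinearGroup.toGL y * g ∈ Cfsg.Geo.similarityGroup f := by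
      intro h1 h2
      obtain ⟨P, hP⟩ := conj_of_sml hF hf y h1 h2
      refine ⟨Matrix.SpecialLinearGroup.toGL P, mem_sl P, ?_⟩
      rw [Subgroup.mem_comap, map_mul, map_mul, map_inv] at hP
      exact hP
    rcases hcond with ⟨rfl, hc⟩ | ⟨hc1, hc2, hc3⟩
    · rw [Matrix.SpecialLinearGroup.coe_pow] at hz'
      apply hfin (centSurj_of_sq_eq (by omega) _ z hz0 hz')
      apply sml_two_back hF (p := p) (by omega) y hz' hz0
      rw [hF]
      exact hc
    · have hr2 : r ≠ 2 := by omega
      have hrp : r ≠ p := hr.resolve_left hr2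
      subst hc2
      have hrq0 : n ∣ q₀ - 1 := by
        by_contra h
        rw [padicValNat.eq_zero_of_not_dvd h] at hc3
        omega
      have hrq : n ∣ Fintype.card F - 1 := by
        rw [hF, hsq]
        exact hrq0.mul_left _
      have hz'' := hz'
      rw [Matrix.SpecialLinearGroup.coe_pow] at hz''
      apply hfin (centSurj_of_pow_eq (by omega) _ n z hz0 (natCast_ne_zero_of_ne hrr hrp) hz'')
      exact backward_e1 (p := p) (fun a => Uni.pow_q_pow_q hF a) hrp hr2 hrq (conj_fix hF hq2 hrq0) hc1 (by rw [hF, padic_conv hr2 hq2 hrq0]; exact hc3) y z hz'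


end Cfsg.Agent.S5982
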