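import Cfsg.Statements.S5983
import Cfsg.Agent.H99.CharTwoSp
import Cfsg.Agent.H99.SympInvol

set_option autoImplicit false
open scoped MatrixGroups
open Cfsg

namespace Cfsg.Agent.S5983

open Module Matrix Polynomial
open QuadraticMap (polar polarBilin)

section
variable {F : Type*} [Field F] [Fintype F] [CharP F 2] {d : ℕ} {Q : (Fin d ⊕ Fin d → F) → F}

lemma mem_spGL_iff {x : GL (Fin d ⊕ Fin d) F} : x ∈ Cfsg.spGL d F ↔
    ∀ u v, Cfsg.sympForm d F ((x : Matrix (Fin d ⊕ Fin d) (Fin d ⊕ Fin d) F) *ᵥ u) ((x : Matrix (Fin d ⊕ Fin d) (Fin d ⊕ Fin d) F) *ᵥ v) = Cfsg.sympForm d F u v := Iff.rfl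

/-- a fixed point gives an invariant form -/
lemma exists_form_of_fixed (hQ : Cfsg.Geo.IsNondegenerateQuadraticForm Q) (hd : 0 < d) (hQf : ∀ u v, QuadraticMap.polar Q u v = Cfsg.sympForm d F u v) {x : GL (Fin d ⊕ Fin d) F} (hx : x ∈ Cfsg.spGL d F)
    (hfix : ∃ g ∈ Cfsg.spGL d F, g⁻¹ * x * g ∈ Cfsg.Geo.quadSimilarityGroup Q) :
    ∃ Q' : QuadraticForm F (Fin d ⊕ Fin d → F), (∀ u v, polar Q' u v = Cfsg.sympForm d F u v) ∧
      (∀ v, Q' (Matrix.toLin' (x : Matrix (Fin d ⊕ Fin d) (Fin d ⊕ Fin d) F) v) = Q' v) ∧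
      ∃ g : (Fin d ⊕ Fin d → F) ≃ₗ[F] (Fin d ⊕ Fin d → F), ∀ v, Q (g v) = Q' v := by
  obtain ⟨g, hg, c, hc⟩ := hfix
  have hgi : g⁻¹ ∈ Cfsg.spGL d F := Subgroup.inv_mem _ hg
  have hy : g⁻¹ * x * g ∈ Cfsg.spGL d F := Subgroup.mul_mem _ (Subgroup.mul_mem _ hgi hx) hg
  set y := g⁻¹ * x * g with hyd
  have hc' : ∀ v, Q ((y : Matrix (Fin d ⊕ Fin d) (Fin d ⊕ Fin d) F) *ᵥ v) = (c : F) * Q v := hc
  have hc1 : (c : F) = 1 := by
    obtain ⟨a, b, hab⟩ := H99.exists_symp_ne_zero (F := F) (d := d) hd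
    have h3 := mem_spGL_iff.mp hy a b
    rw [← hQf] at h3
    unfold polar at h3
    rw [← Matrix.mulVec_add, hc', hc', hc', ← hQf] at h3
    have h4 : ((c : F) - 1) * polar Q a b = 0 := by
      unfold polar
      unfold polar at h3
      linear_combination h3
    rw [hQf] at h4
    exact sub_eq_zero.mp ((mul_eq_zero.mp h4).resolve_right hab)
  refine ⟨(H99.qOfFun hQ).comp (Matrix.toLin' ((g⁻¹ : GL (Fin d ⊕ Fin d) F) : Matrix (Fin d ⊕ Fin d) (Fin d ⊕ Fin d) F)), ?_, ?_, ?_⟩
  · intro u v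
    rw [← mem_spGL_iff.mp hgi u v, ← hQf]
    unfold polar
    rw [← Matrix.mulVec_add]
    rfl
  · intro v
    change Q (((g⁻¹ : GL (Fin d ⊕ Fin d) F) : Matrix (Fin d ⊕ Fin d) (Fin d ⊕ Fin d) F) *ᵥ ((x : Matrix (Fin d ⊕ Fin d) (Fin d ⊕ Fin d) F) *ᵥ v)) = Q (((g⁻¹ : GL (Fin d ⊕ Fin d) F) : Matrix (Fin d ⊕ Fin d) (Fin d ⊕ Fin d) F) *ᵥ v)
    have h1 := hc' (((g⁻¹ : GL (Fin d ⊕ Fin d) F) : Matrix (Fin d ⊕ Fin d) (Fin d ⊕ Fin d) F) *ᵥ v)
    rw [hc1, one_mul, Matrix.mulVec_mulVec, ← Units.val_mul] at h1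
    have h2 : y * g⁻¹ = g⁻¹ * x := by rw [hyd]; group
    rw [h2, Units.val_mul, ← Matrix.mulVec_mulVec] at h1
    exact h1
  · refine ⟨Orth.glE (Fin d ⊕ Fin d) F g⁻¹, ?_⟩
    intro v
    rw [Orth.glE_apply]
    rfl

/-- an invariant form of the right type gives a fixed point -/
lemma fixed_of_form (hQf : ∀ u v, QuadraticMap.polar Q u v = Cfsg.sympForm d F u v) {x : GL (Fin d ⊕ Fin d) F}
    {Q' : QuadraticForm F (Fin d ⊕ Fin d → F)} (hQ' : ∀ u v, polar Q' u v = Cfsg.sympForm d F u v)
    (hinv : ∀ v, Q' (Matrix.toLin' (x : Matrix (Fin d ⊕ Fin d) (Fin d ⊕ Fin d) F) v) = Q' v)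
    (g : (Fin d ⊕ Fin d → F) ≃ₗ[F] (Fin d ⊕ Fin d → F)) (hg : ∀ v, Q (g v) = Q' v) :
    ∃ g ∈ Cfsg.spGL d F, g⁻¹ * x * g ∈ Cfsg.Geo.quadSimilarityGroup Q := by
  let h : GL (Fin d ⊕ Fin d) F := (Orth.glE (Fin d ⊕ Fin d) F).symm g
  have hh : ∀ v, (h : Matrix (Fin d ⊕ Fin d) (Fin d ⊕ Fin d) F) *ᵥ v = g v := by
    intro v
    rw [← Orth.glE_apply, (Orth.glE (Fin d ⊕ Fin d) F).apply_symm_apply]
  have hsp : h ∈ Cfsg.spGL d F := by
    rw [mem_spGL_iff]
    intro u v
    rw [hh, hh, ← hQf, ← hQ']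
    unfold polar
    rw [← map_add, hg, hg, hg]
  refine ⟨h⁻¹, Subgroup.inv_mem _ hsp, 1, ?_⟩
  intro v
  rw [inv_inv, Units.val_one, one_mul]
  have h1 : ∀ w, Q ((h : Matrix (Fin d ⊕ Fin d) (Fin d ⊕ Fin d) F) *ᵥ w) = Q' w := fun w => by rw [hh, hg]
  rw [Units.val_mul, Units.val_mul, ← Matrix.mulVec_mulVec, ← Matrix.mulVec_mulVec, h1]
  have h2 := hinv (((h⁻¹ : GL (Fin d ⊕ Fin d) F) : Matrix (Fin d ⊕ Fin d) (Fin d ⊕ Fin d) F) *ᵥ v)
  rw [Matrix.toLin'_apply] at h2
  rw [h2, ← h1, Matrix.mulVec_mulVec, ← Units.val_mul, mul_inv_cancel, Units.val_one, Matrix.one_mulVec]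

lemma exists_GL_of_isom {f : (Fin d ⊕ Fin d → F) →ₗ[F] (Fin d ⊕ Fin d → F)} (hf : ∀ u v, Cfsg.sympForm d F (f u) (f v) = Cfsg.sympForm d F u v) :
    ∃ x ∈ Cfsg.spGL d F, Matrix.toLin' (x : Matrix (Fin d ⊕ Fin d) (Fin d ⊕ Fin d) F) = f := by
  have hinj := H99.isom_injective (H99.sympForm_altForm (F := F) d).oform (H99.sympForm_ND d) f hf
  let e : (Fin d ⊕ Fin d → F) ≃ₗ[F] (Fin d ⊕ Fin d → F) := LinearEquiv.ofInjectiveEndo f hinj
  let x : GL (Fin d ⊕ Fin d) F := (Orth.glE (Fin d ⊕ Fin d) F).symm e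
  have hx : ∀ v, (x : Matrix (Fin d ⊕ Fin d) (Fin d ⊕ Fin d) F) *ᵥ v = f v := by
    intro v
    rw [← Orth.glE_apply, (Orth.glE (Fin d ⊕ Fin d) F).apply_symm_apply]
    rfl
  refine ⟨x, ?_, ?_⟩
  · rw [mem_spGL_iff]
    intro u v
    rw [hx, hx, hf]
  · apply LinearMap.ext
    intro v
    rw [Matrix.toLin'_apply, hx]

lemma pow_eq_one_of_lin {x : GL (Fin d ⊕ Fin d) F} {f : (Fin d ⊕ Fin d → F) →ₗ[F] (Fin d ⊕ Fin d → F)} (h : Matrix.toLin' (x : Matrix (Fin d ⊕ Fin d) (Fin d ⊕ Fin d) F) = f) {r : ℕ}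
    (hf : f ^ r = 1) : ((x ^ r : GL (Fin d ⊕ Fin d) F) : Matrix (Fin d ⊕ Fin d) (Fin d ⊕ Fin d) F) = (1 : F) • (1 : Matrix (Fin d ⊕ Fin d) (Fin d ⊕ Fin d) F) := by
  rw [one_smul]
  apply Matrix.toLin'.injective
  rw [Units.val_pow_eq_pow_val, Matrix.toLin'_pow, h, Matrix.toLin'_one, hf]
  rfl

/-- scalars in the symplectic group of even characteristic -/
lemma not_scalar_of_ne_one (hd : 0 < d) {x : GL (Fin d ⊕ Fin d) F} (hx : x ∈ Cfsg.spGL d F) (hx1 : Matrix.toLin' (x : Matrix (Fin d ⊕ Fin d) (Fin d ⊕ Fin d) F) ≠ 1) (z : F) :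
    (x : Matrix (Fin d ⊕ Fin d) (Fin d ⊕ Fin d) F) ≠ z • (1 : Matrix (Fin d ⊕ Fin d) (Fin d ⊕ Fin d) F) := by
  intro hz
  have hA := H99.sympForm_altForm (F := F) d
  obtain ⟨a, b, hab⟩ := H99.exists_symp_ne_zero (F := F) (d := d) hd
  have h1 := mem_spGL_iff.mp hx a b
  rw [hz, Matrix.smul_mulVec, Matrix.smul_mulVec, Matrix.one_mulVec, Matrix.one_mulVec, hA.smul_left, hA.smul_right] at h1
  have h2 : (z ^ 2 - 1) * Cfsg.sympForm d F a b = 0 := by linear_combination h1
  have h3 := H99.scalar_eq_one_of_isom (V := F) (sub_eq_zero.mp ((mul_eq_zero.mp h2).resolve_right hab))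
  apply hx1
  rw [hz, h3, one_smul, Matrix.toLin'_one]
  rfl

end


/-- Elements of prime order of PSp_n(q), q even, and the subgroups of orthogonal type. Here `T = Sp_{2d}(F)` for a field `F` of characteristic 2 with `q` elements (`d ≥ 2`, `(d, q) ≠ (2, 2)`), realised as the invertible matrices preserving the standard alternating form; `Q` is a non-degenerate quadratic form on `F^{2d}` whose polar form is that alternating form, and `H` is the subgroup of `T` preserving `Q` up to a scalar (equivalently preserving `Q`) — a subgroup of type O^±_{2d}(q) (maximality is not assumed); `Q` is of plus type when `F^{2d}` contains a `d`-dimensional subspace on which `Q` vanishes, of minus type otherwise. Ω is the set of cosets of `H` in `T`, so an element of `T` of prime order `r` (`x ∈ T` with `x^r` scalar, `x` not scalar) fixes a point of Ω exactly when some `T`-conjugate of `x` preserves `Q`. Let `r` be a prime dividing the index of `H`. Then every element of `T` of order `r` fixes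 a point of Ω if and only if `r = 2` and either `Q` is of plus type or `d` is odd. -/
theorem result {F : Type*} [Field F] [Fintype F] {p : ℕ} [Fact p.Prime] [CharP F p] {q : ℕ} (hq : Fintype.card F = q)
    (hp : p = 2) (d : ℕ) (hd : 2 ≤ d) (hT : (d, q) ≠ (2, 2)) (Q : (Fin d ⊕ Fin d → F) → F) (hQ : Cfsg.Geo.IsNondegenerateQuadraticForm Q)
    (hQf : ∀ u v, QuadraticMap.polar Q u v = Cfsg.sympForm d F u v)
    (r : ℕ) [Fact r.Prime]
    (hΩ : r ∣ (Cfsg.Geo.quadSimilarityGroup Q).relIndex (Cfsg.spGL d F)) :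
    (∀ x ∈ Cfsg.spGL d F, (∃ z : F, ((x ^ r : GL (Fin d ⊕ Fin d) F) : Matrix (Fin d ⊕ Fin d) (Fin d ⊕ Fin d) F) = z • (1 : Matrix (Fin d ⊕ Fin d) (Fin d ⊕ Fin d) F)) →
      (∀ z : F, (x : Matrix (Fin d ⊕ Fin d) (Fin d ⊕ Fin d) F) ≠ z • (1 : Matrix (Fin d ⊕ Fin d) (Fin d ⊕ Fin d) F)) →
      ∃ g ∈ Cfsg.spGL d F, g⁻¹ * x * g ∈ Cfsg.Geo.quadSimilarityGroup Q) ↔
    (r = 2 ∧ (Cfsg.Geo.IsPlusTypeOn Q ⊤ ∨ Odd d)) := by
  classical
  subst hq hp
  have hr : r.Prime := Fact.out
  have hd0 : 0 < d := by omega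
  have hA := H99.sympForm_altForm (F := F) d
  have hND := H99.sympForm_ND (F := F) d
  have hfd : finrank F (Fin d ⊕ Fin d → F) = 2 * d := H99.finrank_symp d F
  have h20 : (2 : F) = 0 := CharTwo.two_eq_zero
  have hQN := H99.qOfFun_nondegenerate hQ
  have hNof : ∀ Q' : QuadraticForm F (Fin d ⊕ Fin d → F), (∀ u v, polar Q' u v = Cfsg.sympForm d F u v) → (polarBilin Q').Nondegenerate := by
    intro Q' h
    apply H99.nondegenerate_of_ND
    intro u hu hu2
    exact hND u hu (fun v hv => by rw [← h]; exact hu2 v hv)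
  have hplus : Cfsg.Geo.IsPlusTypeOn Q ⊤ ↔ ∃ U : Submodule F (Fin d ⊕ Fin d → F), Orth.TS (H99.qOfFun hQ) U ∧ finrank F U = d := by
    constructor
    · rintro ⟨U, -, h1, h2⟩
      rw [finrank_top, hfd] at h2
      exact ⟨U, h1, by omega⟩
    · rintro ⟨U, h1, h2⟩
      exact ⟨U, le_top, h1, by rw [finrank_top, hfd, h2]⟩
  have hq1 := Fintype.one_lt_card (α := F)
  constructor
  · intro hfix
    by_cases hr2 : r = 2
    · subst hr2
      refine ⟨rfl, ?_⟩
      by_contra hcon
      push Not at hcon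
      obtain ⟨hcon1, hcon2⟩ := hcon
      rw [Nat.not_odd_iff_even] at hcon2
      obtain ⟨y, k1, k2, k3⟩ := H99.exists_invol_alt (F := F) (d := d) hcon2
      set f := Matrix.toLin' (y : Matrix (Fin d ⊕ Fin d) (Fin d ⊕ Fin d) F) with hf
      obtain ⟨x, hx1, hx2⟩ := exists_GL_of_isom (H99.sympForm_toLin' d y.2)
      rw [← hf] at hx2
      have hfv : ∀ v, f v = v + (f - 1) v := fun v => by rw [LinearMap.sub_apply, Module.End.one_apply]; abel
      have hff : f ^ 2 = 1 := by
        apply LinearMap.ext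
        intro v
        rw [pow_two, Module.End.mul_apply, Module.End.one_apply]
        have h1 := k1 v
        rw [hfv (f v), hfv v, map_add, h1, add_zero, add_assoc, ← two_smul F ((f - 1) v), h20, zero_smul, add_zero]
      have hf1 : f ≠ 1 := by
        intro h
        rw [h, sub_self, LinearMap.ker_zero, finrank_top, hfd] at k3
        omega
      obtain ⟨Q', g1, g2, g, g3⟩ := exists_form_of_fixed hQ hd0 hQf hx1 (hfix x hx1 ⟨1, pow_eq_one_of_lin hx2 hff⟩ (not_scalar_of_ne_one hd0 hx1 (by rw [hx2]; exact hf1)))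
      rw [hx2] at g2
      apply hcon1
      rw [hplus]
      have hTS : Orth.TS Q' (LinearMap.range (f - 1)) := by
        rintro _ ⟨v, rfl⟩
        have h1 := g2 v
        rw [hfv v, Orth.qadd, g1, k2] at h1
        linear_combination h1
      refine ⟨_, hTS.map_isom (Q' := H99.qOfFun hQ) g g3, ?_⟩
      rw [LinearEquiv.finrank_map_eq]
      have h1 := LinearMap.finrank_range_add_finrank_ker (f - 1)
      omega
    · exfalso
      have hrq : ¬ r ∣ Fintype.card F := H99.prime_not_dvd_card (p := 2) hr2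
      have hqd : 1 ≤ Fintype.card F ^ d := Nat.one_le_pow _ _ (by omega)
      have hro := hr.odd_of_ne_two hr2
      by_cases hpl : ∃ U : Submodule F (Fin d ⊕ Fin d → F), Orth.TS (H99.qOfFun hQ) U ∧ finrank F U = d
      · obtain ⟨U, hU, hUd⟩ := hpl
        have h1 := H99.index_orth (by omega) hQ hQf (ε := fun n => n - 1) (ε' := Fintype.card F ^ d + 1) (H99.order_of_plus (by omega) hQN hU hUd) (by
          rw [Nat.sub_mul, mul_add, mul_one, one_mul, mul_comm 2 d, pow_mul, pow_two]
          omega) (by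
          have := Nat.one_lt_pow (n := d) (by omega) hq1
          omega)
        have h2 : r ∣ Fintype.card F ^ d * (Fintype.card F ^ d + 1) := by
          rw [← h1]
          exact hΩ.mul_right _
        have hrm : r ∣ Fintype.card F ^ d + 1 := by
          rcases hr.dvd_mul.mp h2 with h6 | h6
          · exact absurd (hr.dvd_of_dvd_pow h6) hrq
          · exact h6
        obtain ⟨Q'', f, k1, k2, k3, k4, -⟩ := H99.exists_fixfree_form (F := F) (m := d) (by omega) hr2 hrm
        have hfi : ∀ u v, Cfsg.sympForm d F (f u) (f v) = Cfsg.sympForm d F u v := by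
          intro u v
          rw [← k1, ← k1]
          exact Orth.polar_of_isom (Q := Q'') (Q' := Q'') (f := f) k2 u v
        obtain ⟨x, hx1, hx2⟩ := exists_GL_of_isom hfi
        have hnt : Nontrivial (Fin d ⊕ Fin d → F) := Module.nontrivial_of_finrank_pos (R := F) (by omega)
        obtain ⟨v₀, hv₀⟩ := exists_ne (0 : Fin d ⊕ Fin d → F)
        have hf1 : f ≠ 1 := fun h => hv₀ (k4 v₀ (by rw [h]; rfl))
        obtain ⟨Q', g1, g2, g, g3⟩ := exists_form_of_fixed hQ hd0 hQf hx1 (hfix x hx1 ⟨1, pow_eq_one_of_lin hx2 k3⟩ (not_scalar_of_ne_one hd0 hx1 (by rw [hx2]; exact hf1)))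
        rw [hx2] at g2
        have h3 := H99.minus_of_fixfree (by omega) hfd (hNof Q' g1) g2 hr2 k3 k4 (by rw [Nat.card_eq_fintype_card]; exact hrm)
        have h4 := h3 _ (hU.map_isom (Q' := Q') g.symm (fun v => by rw [← g3, g.apply_symm_apply]; rfl))
        rw [LinearEquiv.finrank_map_eq, hUd] at h4
        exact lt_irrefl _ h4
      · have hmin : ∀ U : Submodule F (Fin d ⊕ Fin d → F), Orth.TS (H99.qOfFun hQ) U → finrank F U < d := by
          intro U hU
          by_contra h
          push Not at h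
          obtain ⟨U', hU', hU'm⟩ := H99.exists_sub_finrank U h
          exact hpl ⟨U', hU.mono hU', hU'm⟩
        have h1 := H99.index_orth (by omega) hQ hQf (ε := fun n => n + 1) (ε' := Fintype.card F ^ d - 1) (H99.order_of_minus (by omega) hQN hmin) (by
          rw [Nat.mul_sub, mul_one, add_mul, one_mul, mul_comm 2 d, pow_mul, pow_two]
          omega) (by omega)
        have h2 : r ∣ Fintype.card F ^ d * (Fintype.card F ^ d - 1) := by
          rw [← h1]
          exact hΩ.mul_right _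
        have hrm : r ∣ Fintype.card F ^ d - 1 := by
          rcases hr.dvd_mul.mp h2 with h6 | h6
          · exact absurd (hr.dvd_of_dvd_pow h6) hrq
          · exact h6
        rw [H99.dvd_pow_sub_one_iff Fintype.card_pos] at hrm
        obtain ⟨a, ha⟩ := hrm
        obtain ⟨f, hf1, hf2, -⟩ := H99.exists_endo_order (F := F) (p := 2) (r := r) (V := Fin d → F) hr2 a (by rw [finrank_fintype_fun_eq_card, Fintype.card_fin, mul_comm, ← ha])
        rw [finrank_fintype_fun_eq_card, Fintype.card_fin, mul_comm a, ← ha] at hf2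
        have hfker : LinearMap.ker (f - 1) = ⊥ := Submodule.finrank_eq_zero.mp (by omega)
        have hffix : ∀ v, f v = v → v = 0 := by
          intro v hv
          have h5 : v ∈ LinearMap.ker (f - 1) := by
            rw [LinearMap.mem_ker, LinearMap.sub_apply, Module.End.one_apply, hv, sub_self]
          rw [hfker] at h5
          exact (Submodule.mem_bot F).mp h5
        set M := LinearMap.toMatrix' f with hM
        have hMr : M ^ r = 1 := by
          rw [hM]
          apply Matrix.toLin'.injective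
          rw [Matrix.toLin'_pow, Matrix.toLin'_toMatrix', hf1, Matrix.toLin'_one]
          rfl
        have hMdet : M.det ≠ 0 := by
          intro h0
          have h6 := congrArg Matrix.det hMr
          rw [Matrix.det_pow, h0, Matrix.det_one, zero_pow hr.ne_zero] at h6
          exact zero_ne_one h6
        set y := Matrix.toLin' (Matrix.fromBlocks M 0 0 (M⁻¹).transpose) with hy
        have hyv : ∀ v, y v = Orth.levF M v := fun v => Orth.fromBlocks_mulVec_levF M v
        have hy1 : ∀ v, Orth.qfPlus d F (y v) = Orth.qfPlus d F v := fun v => by rw [hyv, Orth.q_levF hMdet]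
        have hypow : ∀ (k : ℕ) v, (y ^ k) v = Orth.levF (M ^ k) v := by
          intro k
          induction k with
          | zero => intro v; rw [pow_zero, pow_zero, Orth.levF_one]; rfl
          | succ k ih => intro v; rw [pow_succ', Module.End.mul_apply, ih, hyv, pow_succ', Orth.levF_mul]
        have hy2 : y ^ r = 1 := by
          apply LinearMap.ext
          intro v
          rw [hypow, hMr, Orth.levF_one]
          rfl
        have hMf : ∀ w, M *ᵥ w = f w := by
          intro w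
          rw [← Matrix.toLin'_apply, hM, Matrix.toLin'_toMatrix']
        have hyU : ∀ v ∈ Orth.U0 d F, y v ∈ Orth.U0 d F := by
          intro v hv
          rw [Orth.mem_U0] at hv ⊢
          intro i
          rw [hyv]
          change ((M⁻¹).transpose *ᵥ (v ∘ Sum.inr)) i = 0
          have h6 : v ∘ Sum.inr = 0 := funext hv
          rw [h6, Matrix.mulVec_zero]
          rfl
        have hyfix : ∀ v ∈ Orth.U0 d F, y v = v → v = 0 := by
          intro v hv hvv
          rw [Orth.mem_U0] at hv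
          rw [hyv] at hvv
          have e1 : M *ᵥ (v ∘ Sum.inl) = v ∘ Sum.inl := by
            funext i
            exact congrFun hvv (Sum.inl i)
          have e3 : v ∘ Sum.inl = 0 := hffix _ (by rw [← hMf]; exact e1)
          funext s
          rcases s with i | i
          · exact congrFun e3 i
          · exact hv i
        have hfi : ∀ u v, Cfsg.sympForm d F (y u) (y v) = Cfsg.sympForm d F u v := by
          intro u v
          rw [← H99.polar_qfPlus_eq, ← H99.polar_qfPlus_eq]
          exact Orth.polar_of_isom (Q := Orth.qfPlus d F) (Q' := Orth.qfPlus d F) (f := y) hy1 u v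
        obtain ⟨x, hx1, hx2⟩ := exists_GL_of_isom hfi
        have hU0 : Orth.U0 d F ≠ ⊥ := by
          intro h
          have h6 := Orth.finrank_U0 d F
          rw [h, finrank_bot] at h6
          omega
        obtain ⟨v₀, hv₀, hv₀'⟩ := Submodule.exists_mem_ne_zero_of_ne_bot hU0
        have hy1' : y ≠ 1 := fun h => hv₀' (hyfix v₀ hv₀ (by rw [h]; rfl))
        obtain ⟨Q', g1, g2, g, g3⟩ := exists_form_of_fixed hQ hd0 hQf hx1 (hfix x hx1 ⟨1, pow_eq_one_of_lin hx2 hy2⟩ (not_scalar_of_ne_one hd0 hx1 (by rw [hx2]; exact hy1')))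
        rw [hx2] at g2
        -- `Q'` vanishes on `U0`
        have hTS : Orth.TS Q' (Orth.U0 d F) := by
          intro u hu
          have hpowU : ∀ k, (y ^ k) u ∈ Orth.U0 d F := by
            intro k
            induction k with
            | zero => exact hu
            | succ k ih => rw [pow_succ', Module.End.mul_apply]; exact hyU _ ih
          have hQpow : ∀ k, Q' ((y ^ k) u) = Q' u := by
            intro k
            induction k with
            | zero => rfl
            | succ k ih => rw [pow_succ', Module.End.mul_apply, g2, ih]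
          have hpol : ∀ a ∈ Orth.U0 d F, ∀ b ∈ Orth.U0 d F, polar Q' a b = 0 := by
            intro a ha b hb
            rw [g1, ← H99.polar_qfPlus_eq]
            exact (Orth.TS_U0 d F).polar ha hb
          have hsum : ∀ n, (∑ k ∈ Finset.range n, (y ^ k) u) ∈ Orth.U0 d F ∧ Q' (∑ k ∈ Finset.range n, (y ^ k) u) = n * Q' u := by
            intro n
            induction n with
            | zero => simp
            | succ n ih =>
              rw [Finset.sum_range_succ]
              refine ⟨Submodule.add_mem _ ih.1 (hpowU n), ?_⟩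
              rw [Orth.qadd, ih.2, hQpow, hpol _ ih.1 _ (hpowU n)]
              push_cast
              ring
          have hzero : ∑ k ∈ Finset.range r, (y ^ k) u = 0 := by
            apply hyfix _ (hsum r).1
            rw [map_sum]
            have h6 : ∀ k, y ((y ^ k) u) = (y ^ (k + 1)) u := fun k => by rw [pow_succ']; rfl
            simp only [h6]
            have h7 := Finset.sum_range_succ (fun k => (y ^ k) u) r
            have h8 := Finset.sum_range_succ' (fun k => (y ^ k) u) r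
            rw [h7, hy2, pow_zero] at h8
            exact (add_right_cancel h8).symm
          have h6 := (hsum r).2
          rw [hzero, QuadraticMap.map_zero] at h6
          obtain ⟨k, hk⟩ := hro
          rw [hk] at h6
          push_cast at h6
          rw [h20, zero_mul, zero_add, one_mul] at h6
          exact h6.symm
        have h6 := hmin _ (hTS.map_isom (Q' := H99.qOfFun hQ) g g3)
        rw [LinearEquiv.finrank_map_eq, Orth.finrank_U0] at h6
        exact lt_irrefl _ h6
  · rintro ⟨rfl, hcase⟩ x hx ⟨z, hz⟩ hns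
    set f := Matrix.toLin' (x : Matrix (Fin d ⊕ Fin d) (Fin d ⊕ Fin d) F) with hf
    have hfi : ∀ u v, Cfsg.sympForm d F (f u) (f v) = Cfsg.sympForm d F u v := fun u v => mem_spGL_iff.mp hx u v
    have hff : ∀ v, f (f v) = z • v := by
      intro v
      have h1 : (x : Matrix (Fin d ⊕ Fin d) (Fin d ⊕ Fin d) F) * (x : Matrix (Fin d ⊕ Fin d) (Fin d ⊕ Fin d) F) = z • 1 := by
        rw [← hz, pow_two]
        rfl
      rw [hf, ← LinearMap.comp_apply, ← Matrix.toLin'_mul, h1]
      simp
    have hz1 : z = 1 := by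
      obtain ⟨a, b, hab⟩ := H99.exists_symp_ne_zero (F := F) (d := d) hd0
      have h1 : Cfsg.sympForm d F (f (f a)) (f (f b)) = Cfsg.sympForm d F a b := by rw [hfi, hfi]
      rw [hff, hff, hA.smul_left, hA.smul_right] at h1
      have h2 : (z ^ 2 - 1) * Cfsg.sympForm d F a b = 0 := by linear_combination h1
      exact H99.scalar_eq_one_of_isom (V := F) (sub_eq_zero.mp ((mul_eq_zero.mp h2).resolve_right hab))
    subst hz1
    have hff' : ∀ v, f (f v) = v := fun v => by rw [hff, one_smul]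
    obtain ⟨hn, hk⟩ := H99.invol_ker hff'
    rw [hfd] at hk
    have hpolQ : ∀ u v, polar (H99.qOfFun hQ) u v = Cfsg.sympForm d F u v := hQf
    obtain ⟨w, hw⟩ := H99.exists_inv_quad hQN (x := f) (fun u v => by rw [hpolQ, hpolQ, hfi]) hff'
    set Q₁ := H99.addSq (H99.qOfFun hQ) (polarBilin (H99.qOfFun hQ) w) with hQ₁
    have hpol₁ : ∀ u v, polar Q₁ u v = Cfsg.sympForm d F u v := fun u v => by rw [hQ₁, H99.polar_addSq, hpolQ]
    -- isometry of forms of plus type
    have hplusiso : ∀ Q₂ : QuadraticForm F (Fin d ⊕ Fin d → F), (∀ u v, polar Q₂ u v = Cfsg.sympForm d F u v) → (∀ v, Q₂ (f v) = Q₂ v) →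
        (∃ U : Submodule F (Fin d ⊕ Fin d → F), Orth.TS (H99.qOfFun hQ) U ∧ finrank F U = d) → (∃ U : Submodule F (Fin d ⊕ Fin d → F), Orth.TS Q₂ U ∧ finrank F U = d) →
        ∃ g ∈ Cfsg.spGL d F, g⁻¹ * x * g ∈ Cfsg.Geo.quadSimilarityGroup Q := by
      rintro Q₂ h1 h2 ⟨U, hU, hUd⟩ ⟨U₂, hU₂, hU₂d⟩
      obtain ⟨g, hg⟩ := Orth.exists_isom_plus (by omega) hfd hQN hU hUd
      obtain ⟨g₂, hg₂⟩ := Orth.exists_isom_plus (by omega) hfd (hNof Q₂ h1) hU₂ hU₂d
      exact fixed_of_form hQf h1 h2 (g₂.trans g.symm) (fun v => by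
        have h3 := hg (g.symm (g₂ v))
        rw [g.apply_symm_apply, hg₂] at h3
        exact h3.symm)
    by_cases hex : ∃ u ∈ LinearMap.ker (f - 1), Q₁ u ≠ 0
    · obtain ⟨u, hu, hQu⟩ := hex
      have hfu : f u = u := by
        rw [LinearMap.mem_ker, LinearMap.sub_apply, Module.End.one_apply, sub_eq_zero] at hu
        exact hu
      obtain ⟨⟨s, U, hU, hUd⟩, s', hmin⟩ := H99.exists_both_types (by omega) hfd (hNof Q₁ hpol₁) hQu
      have hinv : ∀ (s : F) v, H99.addSq Q₁ (s • polarBilin Q₁ u) (f v) = H99.addSq Q₁ (s • polarBilin Q₁ u) v := by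
        intro s v
        have hw1 : Q₁ (f v) = Q₁ v := hw v
        change Q₁ (f v) + (s * polar Q₁ u (f v)) * (s * polar Q₁ u (f v)) = Q₁ v + (s * polar Q₁ u v) * (s * polar Q₁ u v)
        have h1 : polar Q₁ u (f v) = polar Q₁ u v := by
          rw [hpol₁, hpol₁]
          conv_lhs => rw [← hfu]
          rw [hfi]
        rw [h1, hw1]
      by_cases hpl : ∃ U : Submodule F (Fin d ⊕ Fin d → F), Orth.TS (H99.qOfFun hQ) U ∧ finrank F U = d
      · exact hplusiso _ (fun a b => by rw [H99.polar_addSq, hpol₁]) (hinv s) hpl ⟨U, hU, hUd⟩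
      · have hmin' : ∀ U : Submodule F (Fin d ⊕ Fin d → F), Orth.TS (H99.qOfFun hQ) U → finrank F U < d := by
          intro U hU
          by_contra h
          push Not at h
          obtain ⟨U', hU', hU'm⟩ := H99.exists_sub_finrank U h
          exact hpl ⟨U', hU.mono hU', hU'm⟩
        obtain ⟨g, hg⟩ := Orth.exists_isom_elliptic (m := d) (by omega) hfd hfd (hNof _ (fun a b => by rw [H99.polar_addSq, hpol₁])) hQN hmin hmin'
        exact fixed_of_form hQf (fun a b => by rw [H99.polar_addSq, hpol₁]) (hinv s') g hg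
    · push Not at hex
      have hTS : Orth.TS Q₁ (LinearMap.ker (f - 1)) := hex
      obtain ⟨U', hU', hU'm⟩ := H99.exists_sub_finrank (LinearMap.ker (f - 1)) (show d ≤ _ by omega)
      by_cases hpl : ∃ U : Submodule F (Fin d ⊕ Fin d → F), Orth.TS (H99.qOfFun hQ) U ∧ finrank F U = d
      · exact hplusiso _ hpol₁ hw hpl ⟨U', hTS.mono hU', hU'm⟩
      · exfalso
        rcases hcase with h | hdo
        · exact hpl (hplus.mp h)
        · have h3 := hA.eform.two_mul_finrank_le hND (LinearMap.ker (f - 1)) (fun u hu v hv => by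
            rw [← hpol₁]
            exact hTS.polar hu hv)
          rw [hfd] at h3
          have h4 := H99.dvd_four_of_inv hA hND hfi hn (by
            intro v
            have h5 := hw v
            have h6 : f v = v + (f - 1) v := by rw [LinearMap.sub_apply, Module.End.one_apply]; abel
            rw [h6, Orth.qadd, hTS _ (hn v), hpol₁] at h5
            linear_combination h5) (by rw [hfd]; omega) (U := ⊤) (fun _ _ => Submodule.mem_top) hND
          rw [finrank_top, hfd] at h4
          obtain ⟨k, hk⟩ := hdo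
          omega


end Cfsg.Agent.S5983
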