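import Cfsg.Statements.S5984
import Cfsg.Agent.H99.UniElt

set_option autoImplicit false
open scoped MatrixGroups
open Cfsg

namespace Cfsg.Agent.S5984


open Module Matrix Cfsg.Agent.Uni
open Cfsg.Agent.H99 hiding ND

section
variable {F : Type*} [Field F]

/-- kernels of conjugates -/
theorem conj_ker {n : ℕ} (x g : GL (Fin n) F) (c : F) :
    finrank F (LinearMap.ker (Matrix.toLin' ((g⁻¹ * x * g : GL (Fin n) F) : Matrix (Fin n) (Fin n) F) - c • 1)) =
    finrank F (LinearMap.ker (Matrix.toLin' (x : Matrix (Fin n) (Fin n) F) - c • 1)) := by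
  exact finrank_ker_conj (F := F) (V := Fin n → F) (W := Fin n → F)
    (Matrix.toLin' ((g⁻¹ * x * g : GL (Fin n) F) : Matrix (Fin n) (Fin n) F)) (Matrix.toLin' (x : Matrix (Fin n) (Fin n) F))
    (LinearEquiv.ofBijective (Matrix.toLin' (g : Matrix (Fin n) (Fin n) F)) (by
      rw [Function.bijective_iff_has_inverse]
      refine ⟨Matrix.toLin' ((g⁻¹ : GL (Fin n) F) : Matrix (Fin n) (Fin n) F), ?_, ?_⟩
      · intro v
        rw [Matrix.toLin'_apply, Matrix.toLin'_apply, Matrix.mulVec_mulVec, ← Units.val_mul, inv_mul_cancel, Units.val_one, Matrix.one_mulVec]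
      · intro v
        rw [Matrix.toLin'_apply, Matrix.toLin'_apply, Matrix.mulVec_mulVec, ← Units.val_mul, mul_inv_cancel, Units.val_one, Matrix.one_mulVec]))
    (by
      intro v
      simp only [LinearEquiv.ofBijective_apply, Matrix.toLin'_apply]
      rw [Matrix.mulVec_mulVec, Matrix.mulVec_mulVec, ← Units.val_mul, ← Units.val_mul]
      congr 2
      group) c

theorem not_scalar_of_ker {n : ℕ} {x : Matrix (Fin n) (Fin n) F} {c : F} (h0 : 0 < finrank F (LinearMap.ker (Matrix.toLin' x - c • 1)))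
    (h1 : finrank F (LinearMap.ker (Matrix.toLin' x - c • 1)) < n) : ∀ z : F, x ≠ z • (1 : Matrix (Fin n) (Fin n) F) := by
  intro z hz
  have h2 : Matrix.toLin' x - c • 1 = (z - c) • 1 := by
    rw [hz]
    apply LinearMap.ext
    intro v
    rw [LinearMap.sub_apply, LinearMap.smul_apply, LinearMap.smul_apply, Module.End.one_apply, Matrix.toLin'_apply, Matrix.smul_mulVec, Matrix.one_mulVec, sub_smul]
  rw [h2] at h0 h1
  by_cases h3 : z - c = 0
  · rw [h3, zero_smul, LinearMap.ker_zero, finrank_top, finrank_fintype_fun_eq_card, Fintype.card_fin] at h1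
    exact lt_irrefl _ h1
  · rw [LinearMap.ker_smul _ _ h3] at h0
    have h4 : LinearMap.ker (1 : (Fin n → F) →ₗ[F] (Fin n → F)) = ⊥ := LinearMap.ker_id
    rw [h4, finrank_bot] at h0
    exact lt_irrefl _ h0

end

section
variable {F : Type*} [Field F] [Fintype F] {q n : ℕ}

theorem decomp_compl {k : ℕ} {D : Fin 2 → Submodule F (Fin n → F)} (hD : Cfsg.Geo.IsMDecomposition k D) : IsCompl (D 0) (D 1) := by
  constructor
  · exact hD.indep.pairwiseDisjoint (by decide : (0 : Fin 2) ≠ 1)
  · rw [codisjoint_iff, eq_top_iff, ← hD.iSup_eq_top]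
    apply iSup_le
    intro i
    fin_cases i
    · exact le_sup_left
    · exact le_sup_right

/-- an element with an odd eigenspace fixes no polar pair -/
theorem no_fix (hF : Fintype.card F = q ^ 2) {k : ℕ} (hn : n = 2 * k) (hk : 2 ≤ k) {D : Fin 2 → Submodule F (Fin n → F)}
    (hD : Cfsg.Geo.IsMDecomposition k D) (hDs : ∀ i, Cfsg.Geo.IsTotallySingularFor (Cfsg.hermForm n F q) (D i))
    {x g : GL (Fin n) F} (hx : x ∈ Cfsg.GU n F q) (hg : g ∈ Cfsg.GU n F q) {c : F} (hc : c ^ (q + 1) = 1)
    (hker : ¬ Even (finrank F (LinearMap.ker (Matrix.toLin' (x : Matrix (Fin n) (Fin n) F) - c • 1))))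
    (hsw : n < k + finrank F (LinearMap.ker (Matrix.toLin' (x : Matrix (Fin n) (Fin n) F) - c • 1)) ∨ ∃ r, Odd r ∧ x ^ r = 1)
    (h : g⁻¹ * x * g ∈ Cfsg.Geo.decompositionStabilizer D) : False := by
  have hcD := decomp_compl hD
  set y : GL (Fin n) F := g⁻¹ * x * g with hy
  have hyG : y ∈ Cfsg.GU n F q := Subgroup.mul_mem _ (Subgroup.mul_mem _ (Subgroup.inv_mem _ hg) hx) hg
  have hyker := conj_ker x g c
  rw [← hy] at hyker
  rw [← hyker] at hker hsw
  set f := Matrix.toLin' (y : Matrix (Fin n) (Fin n) F) with hf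
  have hfi : ∀ u v, Cfsg.hermForm n F q (f u) (f v) = Cfsg.hermForm n F q u v := fun u v => mem_GU.mp hyG u v
  have hinj : Function.Injective f := by
    intro a b hab
    rw [← sub_eq_zero]
    apply hermForm_nondeg hF
    intro v
    rw [← hfi, map_sub, hab, sub_self, hermForm_zero_left]
  obtain ⟨σ, hσ⟩ := h
  have h0 := hσ 0
  have h1 := hσ 1
  have hfin : ∀ i : Fin 2, i = 0 ∨ i = 1 := by decide
  rcases hfin (σ 0) with hs | hs
  · have hs1 : σ 1 = 1 := by
      rcases hfin (σ 1) with h2 | h2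
      · exact absurd (σ.injective (h2.trans hs.symm)) (by decide)
      · exact h2
    rw [hs] at h0
    rw [hs1] at h1
    apply hker
    apply uni_pair_even hF hn hcD (hDs 1) (hD.finrank_eq 0) (hD.finrank_eq 1) hfi _ _ hc
    · intro w hw
      rw [← h0]
      exact ⟨w, hw, rfl⟩
    · intro w hw
      rw [← h1]
      exact ⟨w, hw, rfl⟩
  · have hs1 : σ 1 = 0 := by
      rcases hfin (σ 1) with h2 | h2
      · exact h2
      · exact absurd (σ.injective (h2.trans hs.symm)) (by decide)
    rw [hs] at h0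
    rw [hs1] at h1
    rcases hsw with h2 | ⟨r, hr, hxr⟩
    · have h3 := uni_swap_ker hcD hinj (fun w hw => by rw [← h0]; exact ⟨w, hw, rfl⟩) c
      rw [hD.finrank_eq 0] at h3
      omega
    · have hyr : y ^ r = 1 := GL_conj_pow hxr
      have hfr : f ^ r = 1 := by
        rw [hf, ← Matrix.toLin'_pow, ← Units.val_pow_eq_pow_val, hyr, Units.val_one, Matrix.toLin'_one]
        rfl
      have h3 : ∀ k : ℕ, (D 0).map (f ^ (2 * k)) = D 0 := by
        intro k
        induction k with
        | zero => exact Submodule.map_id _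
        | succ k ih =>
          have h4 : f ^ (2 * (k + 1)) = f ∘ₗ f ∘ₗ f ^ (2 * k) := by
            rw [mul_add, mul_one, show 2 * k + 2 = 2 * k + 1 + 1 by ring, pow_succ', pow_succ']
            rfl
          rw [h4, Submodule.map_comp, Submodule.map_comp, ih, h0, h1]
      obtain ⟨j, hj⟩ := hr
      have h4 : (D 0).map (f ^ r) = D 1 := by
        have h5 : f ^ r = f ∘ₗ f ^ (2 * j) := by
          rw [hj, pow_succ']
          rfl
        rw [h5, Submodule.map_comp, h3, h0]
      rw [hfr] at h4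
      have h5 : D 0 = D 1 := by
        rw [← h4]
        exact (Submodule.map_id _).symm
      have h6 := hcD.disjoint
      rw [h5, disjoint_self] at h6
      have h7 := hD.finrank_eq 1
      rw [h6, finrank_bot] at h7
      omega

/-- an element fixing some polar pair has a conjugate in the stabilizer -/
theorem fix_of_pair (hF : Fintype.card F = q ^ 2) {k : ℕ} (hk : 0 < k) {D : Fin 2 → Submodule F (Fin n → F)}
    (hD : Cfsg.Geo.IsMDecomposition k D) (hDs : ∀ i, Cfsg.Geo.IsTotallySingularFor (Cfsg.hermForm n F q) (D i))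
    {x : GL (Fin n) F} (hx : x ∈ Cfsg.GU n F q) {Y Y' : Submodule F (Fin n → F)} (hc : IsCompl Y Y')
    (hY : ∀ u ∈ Y, ∀ v ∈ Y, hermForm n F q u v = 0) (hY' : ∀ u ∈ Y', ∀ v ∈ Y', hermForm n F q u v = 0)
    (hYd : finrank F Y = k) (hYd' : finrank F Y' = k) (h1 : ∀ v ∈ Y, (x : Matrix (Fin n) (Fin n) F) *ᵥ v ∈ Y)
    (h2 : ∀ v ∈ Y', (x : Matrix (Fin n) (Fin n) F) *ᵥ v ∈ Y') :
    ∃ g ∈ Cfsg.GU n F q ⊓ Cfsg.Geo.specialLinear (Fin n) F, g⁻¹ * x * g ∈ Cfsg.Geo.decompositionStabilizer D := by
  obtain ⟨g, hg, hg1, hg2⟩ := exists_SU_pair hF hk (decomp_compl hD) hc (hDs 0) (hDs 1) hY hY' (hD.finrank_eq 0) (hD.finrank_eq 1) hYd hYd'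
  refine ⟨g, hg, 1, ?_⟩
  have hxm : ∀ Z : Submodule F (Fin n → F), (∀ v ∈ Z, (x : Matrix (Fin n) (Fin n) F) *ᵥ v ∈ Z) → Z.map (Matrix.toLin' (x : Matrix (Fin n) (Fin n) F)) = Z := by
    intro Z hZ
    apply Submodule.eq_of_le_of_finrank_eq
    · rintro _ ⟨v, hv, rfl⟩
      exact hZ v hv
    · exact finrank_map_gmap (⟨x, hx⟩ : GU n F q) Z
  have key : ∀ (Z Z' : Submodule F (Fin n → F)), Z'.map (Matrix.toLin' (g : Matrix (Fin n) (Fin n) F)) = Z →
      Z.map (Matrix.toLin' (x : Matrix (Fin n) (Fin n) F)) = Z →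
      Z'.map (Matrix.toLin' ((g⁻¹ * x * g : GL (Fin n) F) : Matrix (Fin n) (Fin n) F)) = Z' := by
    intro Z Z' h3 h4
    rw [mul_assoc, Units.val_mul, Units.val_mul, Matrix.toLin'_mul, Matrix.toLin'_mul, Submodule.map_comp, Submodule.map_comp, h3, h4, ← h3,
      ← Submodule.map_comp, ← Matrix.toLin'_mul, ← Units.val_mul, inv_mul_cancel, Units.val_one, Matrix.toLin'_one, Submodule.map_id]
  intro i
  fin_cases i
  · exact key Y (D 0) hg1 (hxm Y h1)
  · exact key Y' (D 1) hg2 (hxm Y' h2)

theorem two_ne_zero_of_odd (hF : Fintype.card F = q ^ 2) (hq : Odd q) : (2 : F) ≠ 0 := by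
  intro h
  have h1 : CharP F 2 := CharTwo.of_one_ne_zero_of_two_eq_zero one_ne_zero h
  obtain ⟨m, hp, hm⟩ := FiniteField.card F 2
  have h2 : Even (q ^ 2) := by
    rw [← hF, hm]
    exact (even_two).pow_of_ne_zero m.ne_zero
  have h3 := hq.pow (n := 2)
  exact (Nat.not_even_iff_odd.mpr h3) h2

theorem exists_w (hF : Fintype.card F = q ^ 2) (hn : 0 < n) (hq : Odd q) (hlt : padicValNat 2 n < padicValNat 2 (q + 1)) :
    ∃ w : F, w ^ (q + 1) = 1 ∧ w ^ n = -1 := by
  have hq0 := Uni.q_pos hF
  obtain ⟨m, hm⟩ : 2 ^ (padicValNat 2 n + 1) ∣ q + 1 :=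
    (padicValNat_dvd_iff_le (by omega)).mpr hlt
  obtain ⟨g, hg⟩ := IsCyclic.exists_generator (α := Fˣ)
  have hN : orderOf g = (q + 1) * (q - 1) := by
    rw [orderOf_eq_card_of_forall_mem_zpowers hg, Uni.card_units hF]
  have hm0 : 0 < m := by
    rcases Nat.eq_zero_or_pos m with h | h
    · rw [h] at hm; omega
    · exact h
  have hqm1 : 0 < q - 1 := by
    have := Uni.two_le_q hF
    omega
  set v := padicValNat 2 n with hv
  have h1 : (g ^ (m * (q - 1))) ^ 2 ^ (v + 1) = 1 := by
    rw [← pow_mul]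
    have : m * (q - 1) * 2 ^ (v + 1) = orderOf g := by rw [hN, hm]; ring
    rw [this, pow_orderOf_eq_one]
  have h2 : (g ^ (m * (q - 1))) ^ 2 ^ v ≠ 1 := by
    rw [← pow_mul]
    intro h3
    have h4 := orderOf_dvd_of_pow_eq_one h3
    rw [hN, hm] at h4
    have h5 : 2 ^ (v + 1) * m * (q - 1) = 2 * (m * (q - 1) * 2 ^ v) := by rw [pow_succ]; ring
    rw [h5] at h4
    have h6 : 0 < m * (q - 1) * 2 ^ v := by positivity
    have h7 := Nat.le_of_dvd h6 h4
    omega
  refine ⟨((g ^ (m * (q - 1)) : Fˣ) : F), ?_, ?_⟩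
  · rw [hm, pow_mul, ← Units.val_pow_eq_pow_val _ (2 ^ (v + 1)), h1, Units.val_one, one_pow]
  · have h3 : (((g ^ (m * (q - 1)) : Fˣ) : F) ^ 2 ^ v) = -1 := by
      have h4 : (((g ^ (m * (q - 1)) : Fˣ) : F) ^ 2 ^ v) ^ 2 = 1 := by
        rw [← pow_mul, ← pow_succ, ← Units.val_pow_eq_pow_val, h1, Units.val_one]
      rw [pow_two] at h4
      rcases mul_self_eq_one_iff.mp h4 with h5 | h5
      · exfalso
        apply h2
        apply Units.ext
        rw [Units.val_pow_eq_pow_val, h5, Units.val_one]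
      · exact h5
    obtain ⟨t, ht⟩ : 2 ^ v ∣ n := pow_padicValNat_dvd
    have hto : Odd t := by
      rw [← Nat.not_even_iff_odd]
      rintro ⟨s, hs⟩
      have h6 : 2 ^ (v + 1) ∣ n := ⟨s, by rw [ht, hs, pow_succ]; ring⟩
      have h7 := (padicValNat_dvd_iff_le (p := 2) (by omega)).mp h6
      omega
    have h8 : ∀ a : F, a ^ n = (a ^ 2 ^ v) ^ t := by
      intro a
      rw [← pow_mul, ← ht]
    rw [h8, h3, hto.neg_one_pow]

theorem no_w (hn : 0 < n) (h2 : (2 : F) ≠ 0) (hle : padicValNat 2 (q + 1) ≤ padicValNat 2 n) {w : F} (h1 : w ^ (q + 1) = 1) (h3 : w ^ n = -1) : False := by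
  obtain ⟨s, hs⟩ : 2 ^ padicValNat 2 (q + 1) ∣ q + 1 := pow_padicValNat_dvd
  have hso : Odd s := by
    rw [← Nat.not_even_iff_odd]
    rintro ⟨t, ht⟩
    have h6 : 2 ^ (padicValNat 2 (q + 1) + 1) ∣ q + 1 := ⟨t, by rw [pow_succ]; rw [ht] at hs; rw [mul_assoc, two_mul]; exact hs⟩
    have h7 := (padicValNat_dvd_iff_le (p := 2) (by omega)).mp h6
    omega
  obtain ⟨t, ht⟩ : 2 ^ padicValNat 2 (q + 1) ∣ n := (padicValNat_dvd_iff_le (by omega)).mpr hle
  have h4 : w ^ (n * s) = 1 := by
    have : n * s = (q + 1) * t := by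
      nth_rewrite 1 [ht]
      nth_rewrite 2 [hs]
      ring
    rw [this, pow_mul, h1, one_pow]
  rw [pow_mul, h3, hso.neg_one_pow] at h4
  apply h2
  linear_combination -h4

theorem hermForm_self_pos (hF : Fintype.card F = q ^ 2) (hn : 0 < n) : ∃ u : Fin n → F, Cfsg.hermForm n F q u u = 1 :=
  ⟨Pi.single ⟨0, hn⟩ 1, by rw [IsON.single hF, if_pos rfl]⟩

theorem order_odd (hF : Fintype.card F = q ^ 2) {r : ℕ} [Fact r.Prime] (hr2 : r ≠ 2) {j : ℕ} (hrj : r ∣ q ^ (2 * j + 1) + 1) :
    Odd (orderOf ((Fintype.card F : ℕ) : ZMod r)) ∧ orderOf ((Fintype.card F : ℕ) : ZMod r) ≤ 2 * j + 1 ∧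
      r ∣ q ^ (orderOf ((Fintype.card F : ℕ) : ZMod r)) + 1 := by
  have hr : r.Prime := Fact.out
  have h1 : (q : ZMod r) ^ (2 * j + 1) = -1 := by
    have h2 : ((q ^ (2 * j + 1) + 1 : ℕ) : ZMod r) = 0 := (ZMod.natCast_eq_zero_iff _ _).mpr hrj
    push_cast at h2
    linear_combination h2
  have h2 : ((Fintype.card F : ℕ) : ZMod r) ^ (2 * j + 1) = 1 := by
    rw [hF]
    push_cast
    rw [← pow_mul, mul_comm, pow_mul, h1]
    ring
  have h3 := orderOf_dvd_of_pow_eq_one h2
  set b := orderOf ((Fintype.card F : ℕ) : ZMod r) with hb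
  have hbo : Odd b := Odd.of_dvd_nat (odd_two_mul_add_one j) h3
  refine ⟨hbo, Nat.le_of_dvd (by omega) h3, ?_⟩
  have h4 : ((q : ZMod r) ^ b) ^ 2 = 1 := by
    have h5 : ((Fintype.card F : ℕ) : ZMod r) ^ b = 1 := pow_orderOf_eq_one _
    rw [hF] at h5
    push_cast at h5
    rw [← pow_mul, mul_comm, pow_mul, h5]
  have h5 : (q : ZMod r) ^ b = -1 := by
    rw [pow_two] at h4
    rcases mul_self_eq_one_iff.mp h4 with h6 | h6
    · exfalso
      obtain ⟨t, ht⟩ := h3
      rw [ht, pow_mul, h6, one_pow] at h1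
      have h7 : ((2 : ℕ) : ZMod r) = 0 := by
        push_cast
        linear_combination h1
      rw [ZMod.natCast_eq_zero_iff] at h7
      exact hr2 ((Nat.prime_dvd_prime_iff_eq hr Nat.prime_two).mp h7)
    · exact h6
  rw [← ZMod.natCast_eq_zero_iff]
  push_cast
  rw [h5]
  ring

/-- eigenspaces of an element with scalar square -/
theorem eig_compl {x : GL (Fin n) F} {w z : F} (h2 : (2 : F) ≠ 0) (hw0 : w ≠ 0) (hw : w ^ 2 = z)
    (hz : ∀ v, (x : Matrix (Fin n) (Fin n) F) *ᵥ ((x : Matrix (Fin n) (Fin n) F) *ᵥ v) = z • v) :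
    IsCompl (LinearMap.ker (Matrix.toLin' (x : Matrix (Fin n) (Fin n) F) - w • 1)) (LinearMap.ker (Matrix.toLin' (x : Matrix (Fin n) (Fin n) F) - (-w) • 1)) := by
  have hmem : ∀ (c : F) v, v ∈ LinearMap.ker (Matrix.toLin' (x : Matrix (Fin n) (Fin n) F) - c • 1) ↔ (x : Matrix (Fin n) (Fin n) F) *ᵥ v = c • v := by
    intro c v
    rw [LinearMap.mem_ker, LinearMap.sub_apply, LinearMap.smul_apply, Module.End.one_apply, Matrix.toLin'_apply, sub_eq_zero]
  constructor
  · rw [Submodule.disjoint_def]
    intro v h3 h4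
    rw [hmem] at h3 h4
    rw [h3, neg_smul] at h4
    have h5 : (2 * w) • v = 0 := by
      rw [two_mul, add_smul]
      nth_rewrite 1 [h4]
      exact neg_add_cancel _
    exact (smul_eq_zero.mp h5).resolve_left (mul_ne_zero h2 hw0)
  · rw [codisjoint_iff, eq_top_iff]
    intro v _
    have h3 : v = (2⁻¹ : F) • (v + w⁻¹ • ((x : Matrix (Fin n) (Fin n) F) *ᵥ v)) + (2⁻¹ : F) • (v - w⁻¹ • ((x : Matrix (Fin n) (Fin n) F) *ᵥ v)) := by
      rw [← smul_add, add_add_sub_cancel, ← two_smul F, smul_smul, inv_mul_cancel₀ h2, one_smul]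
    rw [h3]
    have e : w⁻¹ * z = w := by rw [← hw, pow_two, inv_mul_cancel_left₀ hw0]
    apply Submodule.add_mem_sup
    · apply Submodule.smul_mem
      rw [hmem, Matrix.mulVec_add, Matrix.mulVec_smul, hz, smul_smul, e, smul_add, smul_smul, mul_inv_cancel₀ hw0, one_smul, add_comm]
    · apply Submodule.smul_mem
      rw [hmem, Matrix.mulVec_sub, Matrix.mulVec_smul, hz, smul_smul, e, smul_sub, smul_smul, neg_mul, mul_inv_cancel₀ hw0, neg_smul, neg_smul, one_smul]
      abel

end


/-- Elements of prime order of PSU_n(q) and the stabilizers of pairs of complementary totally singular subspaces. Here `T = PSU_n(q)` is realised through `SU_n(q)`, the matrices of determinant 1 over the field `F` with `q²` elements preserving the hermitian form `Σ uᵢ vᵢ^q`, with `n ≥ 4` even; `D` is a pair of complementary subspaces of dimension `n/2` on each of which the form vanishes identically, and `H` is the subgroup of `SU_n(q)` fixing or interchanging the two members — a subgroup of type GL_{n/2}(q²).2 (maximality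 is not assumed). Ω is the set of cosets of `H`, so an element of `T` of prime order `r` (`x ∈ SU_n(q)` with `x^r` scalar, `x` not scalar) fixes a point of Ω exactly when some `SU_n(q)`-conjugate of `x` lies in `H`. Let `r` be a prime dividing the index of `H`. Then every element of `T` of order `r` fixes a point of Ω if and only if `r = 2`, `q` is odd and `(q + 1)_2 ≤ (n)_2` (2-parts). -/
theorem result {F : Type*} [Field F] [Fintype F] {p : ℕ} [Fact p.Prime] [CharP F p] {q : ℕ} (hq : Fintype.card F = q ^ 2)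
    (n : ℕ) (hn : 4 ≤ n) (he : Even n) (D : Fin 2 → Submodule F (Fin n → F)) (hD : Cfsg.Geo.IsMDecomposition (n / 2) D)
    (hDs : ∀ i, Cfsg.Geo.IsTotallySingularFor (Cfsg.hermForm n F q) (D i))
    (r : ℕ) [Fact r.Prime]
    (hΩ : r ∣ (Cfsg.Geo.decompositionStabilizer D).relIndex (Cfsg.GU n F q ⊓ Cfsg.Geo.specialLinear (Fin n) F)) :
    (∀ x ∈ Cfsg.GU n F q ⊓ Cfsg.Geo.specialLinear (Fin n) F, (∃ z : F, ((x ^ r : GL (Fin n) F) : Matrix (Fin n) (Fin n) F) = z • (1 : Matrix (Fin n) (Fin n) F)) →
      (∀ z : F, (x : Matrix (Fin n) (Fin n) F) ≠ z • (1 : Matrix (Fin n) (Fin n) F)) →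
      ∃ g ∈ Cfsg.GU n F q ⊓ Cfsg.Geo.specialLinear (Fin n) F, g⁻¹ * x * g ∈ Cfsg.Geo.decompositionStabilizer D) ↔
    (r = 2 ∧ Odd q ∧ padicValNat 2 (q + 1) ≤ padicValNat 2 n) := by
  classical
  have hr : r.Prime := Fact.out
  have hp : p.Prime := Fact.out
  obtain ⟨k, hnk⟩ : ∃ k, n = 2 * k := by
    obtain ⟨k, hk⟩ := he
    exact ⟨k, by omega⟩
  have hn2 : n / 2 = k := by omega
  have hk2 : 2 ≤ k := by omega
  rw [hn2] at hD
  have hcD := decomp_compl hD
  have hcq : ∀ c : F, c ^ (q + 1) = 1 → c ≠ 0 := by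
    rintro c hc rfl
    rw [zero_pow (by omega)] at hc
    exact zero_ne_one hc
  obtain ⟨e₀, he₀⟩ : ∃ e₀, q = p ^ e₀ := by
    obtain ⟨p', e', hp', hch, -, h⟩ := q_prime_pow hq
    have := hp'
    have h1 : p' = p := CharP.eq F hch ‹CharP F p›
    exact ⟨e', by rw [h, h1]⟩
  constructor
  · intro h
    by_cases hrp : r = p
    · exfalso
      subst hrp
      obtain ⟨x, hx, hxp, hxk⟩ := exists_transv_SU' (n := n) hq (p := r) (by omega)
      have hxk1 : finrank F (LinearMap.ker (Matrix.toLin' (x : Matrix (Fin n) (Fin n) F) - (1 : F) • 1)) + 1 = n := by rw [one_smul]; exact hxk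
      obtain ⟨g, hg, hgD⟩ := h x hx ⟨1, by rw [hxp, Units.val_one, one_smul]⟩ (not_scalar_of_ker (c := 1) (by omega) (by omega))
      refine no_fix hq hnk hk2 hD hDs hx.1 hg.1 (c := 1) (one_pow _) ?_ (Or.inl (by omega)) hgD
      rw [Nat.not_even_iff_odd]
      exact ⟨k - 1, by omega⟩
    by_cases hr2 : r = 2
    · subst hr2
      have hqodd : Odd q := by
        rw [he₀]
        exact (hp.odd_of_ne_two (Ne.symm hrp)).pow
      refine ⟨rfl, hqodd, ?_⟩
      by_contra hcon
      push Not at hcon
      obtain ⟨w, hw1, hw2⟩ := exists_w hq (by omega) hqodd hcon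
      have hw0 := hcq w hw1
      have h2F : (2 : F) ≠ 0 := two_ne_zero_of_odd hq hqodd
      let i₀ : Fin n := ⟨0, by omega⟩
      let d : Fin n → F := fun i => w * (if i = i₀ then -1 else 1)
      have hd0 : ∀ i, d i ≠ 0 := by
        intro i
        apply mul_ne_zero hw0
        split_ifs
        · exact neg_ne_zero.mpr one_ne_zero
        · exact one_ne_zero
      obtain ⟨x, hx, -⟩ := exists_diagGL hd0
      have hxG : x ∈ Cfsg.GU n F q := by
        rw [mem_GU, hx]
        apply pres_diagonal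
        intro i
        change (w * (if i = i₀ then -1 else 1)) ^ (q + 1) = 1
        rw [mul_pow, hw1, one_mul]
        split_ifs
        · exact hqodd.add_one.neg_one_pow
        · exact one_pow _
      have hxS : x ∈ Cfsg.Geo.specialLinear (Fin n) F := by
        rw [mem_SL, hx, Matrix.det_diagonal, Finset.prod_mul_distrib, Finset.prod_const, Finset.card_univ, Fintype.card_fin, hw2,
          Finset.prod_ite_eq' Finset.univ i₀ (fun _ => (-1 : F)), if_pos (Finset.mem_univ _)]
        ring
      have hcard : Nat.card {i // d i = w} + 1 = n := by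
        have h3 : Nat.card {i // d i = w} = Nat.card {i // ¬ i = i₀} := by
          apply Nat.card_congr
          apply Equiv.subtypeEquivRight
          intro i
          change w * (if i = i₀ then -1 else 1) = w ↔ _
          by_cases h4 : i = i₀
          · rw [if_pos h4]
            constructor
            · intro h5
              exfalso
              apply h2F
              apply mul_left_cancel₀ hw0
              linear_combination -h5
            · intro h5
              exact absurd h4 h5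
          · rw [if_neg h4]
            simp [h4]
        rw [h3, Nat.card_eq_fintype_card, Fintype.card_subtype_compl, Fintype.card_fin, Fintype.card_subtype_eq]
        omega
      have hker : finrank F (LinearMap.ker (Matrix.toLin' (x : Matrix (Fin n) (Fin n) F) - w • 1)) + 1 = n := by
        rw [hx, finrank_ker_diagonal]
        exact hcard
      have hx2 : ((x ^ 2 : GL (Fin n) F) : Matrix (Fin n) (Fin n) F) = (w ^ 2) • (1 : Matrix (Fin n) (Fin n) F) := by
        rw [Units.val_pow_eq_pow_val, hx, pow_two, Matrix.diagonal_mul_diagonal, Matrix.smul_one_eq_diagonal]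
        congr 1
        funext i
        change w * (if i = i₀ then -1 else 1) * (w * (if i = i₀ then -1 else 1)) = w ^ 2
        split_ifs <;> ring
      obtain ⟨g, hg, hgD⟩ := h x ⟨hxG, hxS⟩ ⟨_, hx2⟩ (not_scalar_of_ker (c := w) (by omega) (by omega))
      refine no_fix hq hnk hk2 hD hDs hxG hg.1 hw1 ?_ (Or.inl (by omega)) hgD
      rw [Nat.not_even_iff_odd]
      exact ⟨k - 1, by omega⟩
    · exfalso
      have hrq : ¬ r ∣ q := by
        intro h3
        rw [he₀] at h3
        exact hrp ((Nat.prime_dvd_prime_iff_eq hr hp).mp (hr.dvd_of_dvd_pow h3))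
      obtain ⟨j, hj, hrj⟩ := uni_pair_index hq hr hnk hcD (hDs 0) (hDs 1) (hD.finrank_eq 0) (hD.finrank_eq 1) hrq (Cfsg.Geo.decompositionStabilizer D)
        (fun g h0 h1 => ⟨1, fun i => by fin_cases i; exact h0; exact h1⟩) hΩ
      obtain ⟨hbo, hbj, hrb⟩ := order_odd hq hr2 hrj
      set b := orderOf ((Fintype.card F : ℕ) : ZMod r) with hb
      have hrodd : Odd r := hr.odd_of_ne_two hr2
      by_cases hb1 : b = 1
      · rw [hb1, pow_one] at hrb
        have hrF : r ∣ Fintype.card F - 1 := by
          rw [hq]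
          have h3 : q ^ 2 - 1 = (q + 1) * (q - 1) := by
            have h4 := Uni.q_pos hq
            obtain ⟨m, hm⟩ : ∃ m, q = m + 1 := ⟨q - 1, by omega⟩
            rw [hm, Nat.add_sub_cancel]
            have : (m + 1) ^ 2 = (m + 1 + 1) * m + 1 := by ring
            omega
          rw [h3]
          exact hrb.mul_right _
        obtain ⟨ζ, hζ1, hζr⟩ := exists_prim_root (F := F) hrF
        have hζ0 : ζ ≠ 0 := by
          rintro rfl
          rw [zero_pow hr.ne_zero] at hζr
          exact zero_ne_one hζr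
        have hζq : ζ ^ (q + 1) = 1 := by
          obtain ⟨m, hm⟩ := hrb
          rw [hm, pow_mul, hζr, one_pow]
        let i₀ : Fin n := ⟨0, by omega⟩
        let i₁ : Fin n := ⟨1, by omega⟩
        have h01 : i₀ ≠ i₁ := by
          intro h3
          have := congrArg Fin.val h3
          simp [i₀, i₁] at this
        let d : Fin n → F := fun i => (if i = i₀ then ζ else 1) * (if i = i₁ then ζ⁻¹ else 1)
        have hdr : ∀ (m : ℕ), ζ ^ m = 1 → ∀ i, d i ^ m = 1 := by
          intro m hm i
          change ((if i = i₀ then ζ else 1) * (if i = i₁ then ζ⁻¹ else 1)) ^ m = 1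
          rw [mul_pow]
          split_ifs <;> simp [hm]
        have hd0 : ∀ i, d i ≠ 0 := by
          intro i h3
          have h4 := hdr r hζr i
          rw [h3, zero_pow hr.ne_zero] at h4
          exact zero_ne_one h4
        obtain ⟨x, hx, -⟩ := exists_diagGL hd0
        have hxG : x ∈ Cfsg.GU n F q := by
          rw [mem_GU, hx]
          exact pres_diagonal _ (hdr _ hζq)
        have hxS : x ∈ Cfsg.Geo.specialLinear (Fin n) F := by
          rw [mem_SL, hx, Matrix.det_diagonal, Finset.prod_mul_distrib,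
            Finset.prod_ite_eq' Finset.univ i₀ (fun _ => ζ), Finset.prod_ite_eq' Finset.univ i₁ (fun _ => ζ⁻¹), if_pos (Finset.mem_univ _),
            if_pos (Finset.mem_univ _), mul_inv_cancel₀ hζ0]
        have hcard : Nat.card {i // d i = ζ} = 1 := by
          have h3 : Nat.card {i // d i = ζ} = Nat.card {i // i = i₀} := by
            apply Nat.card_congr
            apply Equiv.subtypeEquivRight
            intro i
            change (if i = i₀ then ζ else 1) * (if i = i₁ then ζ⁻¹ else 1) = ζ ↔ _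
            by_cases h4 : i = i₀
            · rw [if_pos h4, if_neg (by rw [h4]; exact h01), mul_one]
              simp [h4]
            · rw [if_neg h4, one_mul]
              by_cases h5 : i = i₁
              · rw [if_pos h5]
                constructor
                · intro h6
                  exfalso
                  apply hζ1
                  have h7 : ζ ^ 2 = 1 := by
                    rw [pow_two]
                    nth_rewrite 1 [← h6]
                    exact inv_mul_cancel₀ hζ0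
                  have h8 : orderOf ζ ∣ 2 := orderOf_dvd_of_pow_eq_one h7
                  have h9 : orderOf ζ ∣ r := orderOf_dvd_of_pow_eq_one hζr
                  have h10 : Nat.Coprime 2 r := (Nat.coprime_primes Nat.prime_two hr).mpr (Ne.symm hr2)
                  exact orderOf_eq_one_iff.mp (Nat.eq_one_of_dvd_coprimes h10 h8 h9)
                · intro h6
                  exact absurd h6 h4
              · rw [if_neg h5]
                constructor
                · intro h6
                  exact absurd h6.symm hζ1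
                · intro h6
                  exact absurd h6 h4
          rw [h3, Nat.card_eq_fintype_card, Fintype.card_subtype_eq]
        have hker : finrank F (LinearMap.ker (Matrix.toLin' (x : Matrix (Fin n) (Fin n) F) - ζ • 1)) = 1 := by
          rw [hx, finrank_ker_diagonal]
          exact hcard
        have hxr : x ^ r = 1 := by
          apply Units.ext
          rw [Units.val_pow_eq_pow_val, hx, Matrix.diagonal_pow, Units.val_one, ← Matrix.diagonal_one]
          congr 1
          funext i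
          exact hdr r hζr i
        obtain ⟨g, hg, hgD⟩ := h x ⟨hxG, hxS⟩ ⟨1, by rw [hxr, Units.val_one, one_smul]⟩ (not_scalar_of_ker (c := ζ) (by omega) (by omega))
        refine no_fix hq hnk hk2 hD hDs hxG hg.1 hζq ?_ (Or.inr ⟨r, hrodd, hxr⟩) hgD
        rw [hker]
        exact Nat.not_even_one
      · have hbn : b ≤ n := by omega
        obtain ⟨x₀, hx₀r, hx₀k⟩ := exists_GU_block (n := n) hq hrp hbn hbo hrb hb.symm
        have hxr : (x₀ : GL (Fin n) F) ^ r = 1 := by
          rw [← Subgroup.coe_pow, hx₀r]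
          rfl
        have hxS : (x₀ : GL (Fin n) F) ∈ Cfsg.Geo.specialLinear (Fin n) F := by
          rw [mem_SL]
          have h3 : ((x₀ : GL (Fin n) F) : Matrix (Fin n) (Fin n) F).det ^ r = 1 := by
            rw [← Matrix.det_pow, ← Units.val_pow_eq_pow_val, hxr, Units.val_one, Matrix.det_one]
          have h4 : ((x₀ : GL (Fin n) F) : Matrix (Fin n) (Fin n) F).det ^ (q + 1) = 1 := (GU_pres x₀).det_norm hq
          have h5 : orderOf (((x₀ : GL (Fin n) F) : Matrix (Fin n) (Fin n) F).det) ∣ r := orderOf_dvd_of_pow_eq_one h3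
          have h6 : orderOf (((x₀ : GL (Fin n) F) : Matrix (Fin n) (Fin n) F).det) ∣ q + 1 := orderOf_dvd_of_pow_eq_one h4
          have h7 : Nat.Coprime r (q + 1) := by
            rw [hr.coprime_iff_not_dvd]
            intro h8
            apply hb1
            rw [hb, ← dvd_sub_one_iff_orderOf, hq]
            have h3 : q ^ 2 - 1 = (q + 1) * (q - 1) := by
              have h4 := Uni.q_pos hq
              obtain ⟨m, hm⟩ : ∃ m, q = m + 1 := ⟨q - 1, by omega⟩
              rw [hm, Nat.add_sub_cancel]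
              have : (m + 1) ^ 2 = (m + 1 + 1) * m + 1 := by ring
              omega
            rw [h3]
            exact h8.mul_right _
          exact orderOf_eq_one_iff.mp (Nat.eq_one_of_dvd_coprimes h7 h5 h6)
        have hker : finrank F (LinearMap.ker (Matrix.toLin' ((x₀ : GL (Fin n) F) : Matrix (Fin n) (Fin n) F) - (1 : F) • 1)) + b = n := by
          rw [one_smul]
          exact hx₀k
        obtain ⟨m, hm⟩ := hbo
        obtain ⟨g, hg, hgD⟩ := h (x₀ : GL (Fin n) F) ⟨x₀.2, hxS⟩ ⟨1, by rw [hxr, Units.val_one, one_smul]⟩ (not_scalar_of_ker (c := 1) (by omega) (by omega))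
        refine no_fix hq hnk hk2 hD hDs x₀.2 hg.1 (one_pow _) ?_ (Or.inr ⟨r, hrodd, hxr⟩) hgD
        rw [Nat.not_even_iff_odd]
        exact ⟨k - m - 1, by omega⟩
  · rintro ⟨rfl, hodd, hv⟩ x hx ⟨z, hz⟩ hns
    have h2F : (2 : F) ≠ 0 := two_ne_zero_of_odd hq hodd
    have hp2 : (2 : ℕ) ≠ p := by
      rintro rfl
      apply h2F
      exact_mod_cast CharP.cast_eq_zero F 2
    have hxG := hx.1
    have hxx : ∀ v, (x : Matrix (Fin n) (Fin n) F) *ᵥ ((x : Matrix (Fin n) (Fin n) F) *ᵥ v) = z • v := by
      intro v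
      rw [Matrix.mulVec_mulVec, ← pow_two, ← Units.val_pow_eq_pow_val, hz, Matrix.smul_mulVec, Matrix.one_mulVec]
    have hzq : z ^ (q + 1) = 1 := by
      have h3 := hermForm_self_pos hq (n := n) (by omega)
      obtain ⟨u, hu⟩ := h3
      have h4 := (mem_GU.mp hxG) ((x : Matrix (Fin n) (Fin n) F) *ᵥ u) ((x : Matrix (Fin n) (Fin n) F) *ᵥ u)
      rw [hxx, (mem_GU.mp hxG), hermForm_smul_left, hermForm_smul_right, hu, mul_one] at h4
      rw [pow_succ']
      exact h4
    have hz0 := hcq z hzq
    -- a square root of z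
    obtain ⟨w, hw⟩ : ∃ w : F, w ^ 2 = z := by
      obtain ⟨a, ha0, ha⟩ := exists_hilbert90 hq hzq
      obtain ⟨m, hm⟩ := hodd
      refine ⟨(a ^ m)⁻¹, ?_⟩
      rw [inv_pow, ← pow_mul, mul_comm m 2]
      have h3 : a = z * (a ^ (2 * m) * a) := by
        rw [← pow_succ, ← hm]
        exact ha
      have h4 : z * a ^ (2 * m) = 1 := by
        apply mul_right_cancel₀ ha0
        rw [one_mul, mul_assoc]
        exact h3.symm
      exact (eq_inv_of_mul_eq_one_left h4).symm
    have hw0 : w ≠ 0 := by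
      rintro rfl
      rw [zero_pow two_ne_zero] at hw
      exact hz0 hw.symm
    have hcomp := eig_compl h2F hw0 hw hxx
    have hmem : ∀ (c : F) v, v ∈ LinearMap.ker (Matrix.toLin' (x : Matrix (Fin n) (Fin n) F) - c • 1) ↔ (x : Matrix (Fin n) (Fin n) F) *ᵥ v = c • v := by
      intro c v
      rw [LinearMap.mem_ker, LinearMap.sub_apply, LinearMap.smul_apply, Module.End.one_apply, Matrix.toLin'_apply, sub_eq_zero]
    have hform : ∀ (c d : F) (u v : Fin n → F), (x : Matrix (Fin n) (Fin n) F) *ᵥ u = c • u → (x : Matrix (Fin n) (Fin n) F) *ᵥ v = d • v →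
        c * (d ^ q * Cfsg.hermForm n F q u v) = Cfsg.hermForm n F q u v := by
      intro c d u v hu hv
      have h3 := (mem_GU.mp hxG) u v
      rwa [hu, hv, hermForm_smul_left, hermForm_smul_right] at h3
    have hww : w ^ (q + 1) = 1 ∨ w ^ (q + 1) = -1 := by
      apply mul_self_eq_one_iff.mp
      rw [← pow_two, ← pow_mul, mul_comm, pow_mul, hw, hzq]
    set A := LinearMap.ker (Matrix.toLin' (x : Matrix (Fin n) (Fin n) F) - w • 1) with hA
    set B := LinearMap.ker (Matrix.toLin' (x : Matrix (Fin n) (Fin n) F) - (-w) • 1) with hB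
    have hAB := Submodule.finrank_add_eq_of_isCompl hcomp
    rw [finrank_fintype_fun_eq_card, Fintype.card_fin] at hAB
    have hneg : (-w) ^ q = - w ^ q := hodd.neg_pow w
    rcases hww with hw1 | hw1
    · -- orthogonal eigenspaces
      have hw1' : w * w ^ q = 1 := by rw [← pow_succ']; exact hw1
      have hAo : ∀ u ∈ A, ∀ v ∈ B, Cfsg.hermForm n F q u v = 0 := by
        intro u hu v hv
        rw [hA, hmem] at hu
        rw [hB, hmem] at hv
        have h3 := hform _ _ u v hu hv
        rw [hneg] at h3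
        have h4 : 2 * Cfsg.hermForm n F q u v = 0 := by
          linear_combination (-1 : F) * h3 - Cfsg.hermForm n F q u v * hw1'
        exact (mul_eq_zero.mp h4).resolve_left h2F
      have hAN : Uni.ND q A := by
        intro u hu h3
        apply hermForm_nondeg hq
        intro v
        have h4 : v ∈ A ⊔ B := by rw [hcomp.sup_eq_top]; exact Submodule.mem_top
        obtain ⟨a, ha, b, hb, rfl⟩ := Submodule.mem_sup.mp h4
        rw [hermForm_add_right hq, h3 a ha, hAo u hu b hb, add_zero]
      have hBN : Uni.ND q B := by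
        intro u hu h3
        apply hermForm_nondeg hq
        intro v
        have h4 : v ∈ A ⊔ B := by rw [hcomp.sup_eq_top]; exact Submodule.mem_top
        obtain ⟨a, ha, b, hb, rfl⟩ := Submodule.mem_sup.mp h4
        rw [hermForm_add_right hq, h3 b hb, (hermForm_eq_zero_comm hq).mp (hAo a ha u hu), add_zero]
      -- the dimension of B is even
      have hBe : Even (finrank F B) := by
        have hM : Pres q (w⁻¹ • (x : Matrix (Fin n) (Fin n) F)) := by
          intro u v
          rw [Matrix.smul_mulVec, Matrix.smul_mulVec, hermForm_smul_left, hermForm_smul_right, (mem_GU.mp hxG), ← mul_assoc, ← pow_succ', inv_pow, hw1, inv_one, one_mul]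
        have hM2 : (w⁻¹ • (x : Matrix (Fin n) (Fin n) F)) ^ 2 = 1 := by
          rw [smul_pow, ← Units.val_pow_eq_pow_val, hz, smul_smul, inv_pow, hw, inv_mul_cancel₀ hz0, one_smul]
        obtain ⟨g, c, hg, hgc, hc⟩ := exists_GU_diag hq (r := 2) (p := p) hp2 (by
          obtain ⟨m, hm⟩ := hodd
          exact ⟨m + 1, by omega⟩) hM hM2
        have hc' : ∀ i, c i = 1 ∨ c i = -1 := fun i => mul_self_eq_one_iff.mp (by rw [← pow_two]; exact hc i)
        have hdet : ∏ i, c i = (w⁻¹) ^ n := by
          have h3 := congrArg Matrix.det hgc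
          rw [Matrix.det_mul, Matrix.det_mul, Matrix.det_diagonal, Matrix.det_smul, mem_SL.mp hx.2, mul_one, Fintype.card_fin, mul_comm] at h3
          exact (mul_left_cancel₀ ((Matrix.isUnit_iff_isUnit_det _).mp g.isUnit).ne_zero h3).symm
        have hprod : ∏ i, c i = (-1) ^ Nat.card {i // c i = -1} := by
          have h3 : ∀ i, c i = if c i = -1 then -1 else 1 := by
            intro i
            split_ifs with h4
            · exact h4
            · exact (hc' i).resolve_right h4
          rw [Finset.prod_congr rfl (fun i _ => h3 i), Finset.prod_ite, Finset.prod_const, Finset.prod_const_one, mul_one, Nat.card_eq_fintype_card,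
            Fintype.card_subtype]
        have hBc : finrank F B = Nat.card {i // c i = -1} := by
          rw [← finrank_ker_diagonal c (-1)]
          have h4 : (g⁻¹ * (Units.mk0 w hw0)⁻¹ • x * g : GL (Fin n) F) = g⁻¹ * ((Units.mk0 w hw0)⁻¹ • x) * g := rfl
          have h5 := finrank_ker_conj (F := F) (V := Fin n → F) (W := Fin n → F) (Matrix.toLin' (Matrix.diagonal c)) (Matrix.toLin' (w⁻¹ • (x : Matrix (Fin n) (Fin n) F)))
            (LinearEquiv.ofBijective (Matrix.toLin' (g : Matrix (Fin n) (Fin n) F)) (by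
              rw [Function.bijective_iff_has_inverse]
              refine ⟨Matrix.toLin' ((g⁻¹ : GL (Fin n) F) : Matrix (Fin n) (Fin n) F), ?_, ?_⟩
              · intro v
                rw [Matrix.toLin'_apply, Matrix.toLin'_apply, Matrix.mulVec_mulVec, ← Units.val_mul, inv_mul_cancel, Units.val_one, Matrix.one_mulVec]
              · intro v
                rw [Matrix.toLin'_apply, Matrix.toLin'_apply, Matrix.mulVec_mulVec, ← Units.val_mul, mul_inv_cancel, Units.val_one, Matrix.one_mulVec]))
            (by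
              intro v
              simp only [LinearEquiv.ofBijective_apply, Matrix.toLin'_apply]
              rw [Matrix.mulVec_mulVec, Matrix.mulVec_mulVec, hgc]) (-1)
          have hBB : LinearMap.ker (Matrix.toLin' (w⁻¹ • (x : Matrix (Fin n) (Fin n) F)) - (-1 : F) • 1) = B := by
            apply Submodule.ext
            intro v
            symm
            rw [hB, hmem, LinearMap.mem_ker, LinearMap.sub_apply, LinearMap.smul_apply, Module.End.one_apply, Matrix.toLin'_apply, sub_eq_zero, Matrix.smul_mulVec]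
            constructor
            · intro h6
              rw [h6, smul_smul, mul_neg, inv_mul_cancel₀ hw0]
            · intro h6
              have h7 := congrArg (fun u => w • u) h6
              simp only [smul_smul, mul_inv_cancel₀ hw0, one_smul] at h7
              rw [h7, mul_neg, mul_one]
          rw [h5, hBB]
        rw [hBc]
        by_contra hodd'
        rw [Nat.not_even_iff_odd] at hodd'
        rw [hprod, hodd'.neg_one_pow] at hdet
        have hwn : w ^ n = -1 := by
          rw [inv_pow] at hdet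
          have h3 := congrArg (fun a => a⁻¹) hdet
          simp only [inv_inv] at h3
          rw [← h3, inv_neg, inv_one]
        exact no_w (by omega) h2F hv hw1 hwn
      obtain ⟨m, hm⟩ := hBe
      obtain ⟨B₁, B₂, b1, b2, b3, b4, b5⟩ := uni_hyperbolic hq m hBN (by omega)
      obtain ⟨A₁, A₂, a1, a2, a3, a4, a5⟩ := uni_hyperbolic hq (k - m) hAN (by omega)
      have hTI : ∀ A₁ ≤ A, ∀ B₁ ≤ B, (∀ u ∈ A₁, ∀ v ∈ A₁, hermForm n F q u v = 0) → (∀ u ∈ B₁, ∀ v ∈ B₁, hermForm n F q u v = 0) →
          ∀ u ∈ A₁ ⊔ B₁, ∀ v ∈ A₁ ⊔ B₁, hermForm n F q u v = 0 := by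
        intro A₁ hA₁ B₁ hB₁ h3 h4 u hu v hv
        obtain ⟨a, ha, b, hb, rfl⟩ := Submodule.mem_sup.mp hu
        obtain ⟨c, hc, d, hd, rfl⟩ := Submodule.mem_sup.mp hv
        rw [hermForm_add_left, hermForm_add_right hq, hermForm_add_right hq, h3 a ha c hc, h4 b hb d hd, hAo a (hA₁ ha) d (hB₁ hd),
          (hermForm_eq_zero_comm hq).mp (hAo c (hA₁ hc) b (hB₁ hb))]
        ring
      have hst : ∀ A₁ ≤ A, ∀ B₁ ≤ B, ∀ v ∈ A₁ ⊔ B₁, (x : Matrix (Fin n) (Fin n) F) *ᵥ v ∈ A₁ ⊔ B₁ := by
        intro A₁ hA₁ B₁ hB₁ v hv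
        obtain ⟨a, ha, b, hb, rfl⟩ := Submodule.mem_sup.mp hv
        rw [Matrix.mulVec_add, (hmem _ _).mp (hA₁ ha), (hmem _ _).mp (hB₁ hb)]
        exact Submodule.add_mem_sup (A₁.smul_mem _ ha) (B₁.smul_mem _ hb)
      have hA1 : A₁ ≤ A := le_sup_left.trans a3.le
      have hA2 : A₂ ≤ A := le_sup_right.trans a3.le
      have hB1 : B₁ ≤ B := le_sup_left.trans b3.le
      have hB2 : B₂ ≤ B := le_sup_right.trans b3.le
      have hsup : (A₁ ⊔ B₁) ⊔ (A₂ ⊔ B₂) = ⊤ := by
        rw [sup_sup_sup_comm, a3, b3, hcomp.sup_eq_top]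
      have hd1 : finrank F (A₁ ⊔ B₁ : Submodule F (Fin n → F)) ≤ k := by
        have := Submodule.finrank_add_le_finrank_add_finrank A₁ B₁
        omega
      have hd2 : finrank F (A₂ ⊔ B₂ : Submodule F (Fin n → F)) ≤ k := by
        have := Submodule.finrank_add_le_finrank_add_finrank A₂ B₂
        omega
      have hd3 := Submodule.finrank_sup_add_finrank_inf_eq (A₁ ⊔ B₁) (A₂ ⊔ B₂)
      rw [hsup, finrank_top, finrank_fintype_fun_eq_card, Fintype.card_fin] at hd3
      have hdisj : (A₁ ⊔ B₁) ⊓ (A₂ ⊔ B₂) = ⊥ := Submodule.finrank_eq_zero.mp (by omega)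
      exact fix_of_pair hq (by omega) hD hDs hxG ⟨disjoint_iff.mpr hdisj, codisjoint_iff.mpr hsup⟩ (hTI _ hA1 _ hB1 a1 b1) (hTI _ hA2 _ hB2 a2 b2) (by omega) (by omega)
        (hst _ hA1 _ hB1) (hst _ hA2 _ hB2)
    · -- totally isotropic eigenspaces
      have hw1' : w * w ^ q = -1 := by rw [← pow_succ']; exact hw1
      have hA0 : ∀ u ∈ A, ∀ v ∈ A, Cfsg.hermForm n F q u v = 0 := by
        intro u hu v hv
        rw [hA, hmem] at hu hv
        have h3 := hform _ _ u v hu hv
        have h4 : 2 * Cfsg.hermForm n F q u v = 0 := by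
          linear_combination (-1 : F) * h3 + Cfsg.hermForm n F q u v * hw1'
        exact (mul_eq_zero.mp h4).resolve_left h2F
      have hB0 : ∀ u ∈ B, ∀ v ∈ B, Cfsg.hermForm n F q u v = 0 := by
        intro u hu v hv
        rw [hB, hmem] at hu hv
        have h3 := hform _ _ u v hu hv
        rw [hneg] at h3
        have h4 : 2 * Cfsg.hermForm n F q u v = 0 := by
          linear_combination (-1 : F) * h3 + Cfsg.hermForm n F q u v * hw1'
        exact (mul_eq_zero.mp h4).resolve_left h2F
      have hle : ∀ Z : Submodule F (Fin n → F), (∀ u ∈ Z, ∀ v ∈ Z, hermForm n F q u v = 0) → finrank F Z ≤ k := by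
        intro Z hZ
        have h3 : Z ≤ perp q Z := fun u hu v hv => hZ u hu v hv
        have h4 := Submodule.finrank_mono h3
        have h5 := Uni.finrank_perp hq Z
        omega
      have h3 := hle A hA0
      have h4 := hle B hB0
      refine fix_of_pair hq (by omega) hD hDs hxG hcomp hA0 hB0 (by omega) (by omega) ?_ ?_
      · intro v hv
        rw [(hmem _ _).mp hv]
        exact A.smul_mem _ hv
      · intro v hv
        rw [(hmem _ _).mp hv]
        exact B.smul_mem _ hv


end Cfsg.Agent.S5984
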