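import Cfsg.Statements.S5985
import Cfsg.Agent.H99.CharTwoQ
import Cfsg.Agent.H99.SympInvol

set_option autoImplicit false
open scoped MatrixGroups
open Cfsg

namespace Cfsg.Agent.S5985

open Module Matrix Polynomial
open QuadraticMap (polar polarBilin)


/-- Elements of prime order of Ω⁺_n(q), q even, with no fixed nonsingular 1-space. Here `T = PΩ⁺_n(F)`, `n = 2d ≥ 8`, realised through `Ω⁺_n(q)`, the commutator subgroup of the isometry group of `Q = Σ xᵢyᵢ` over the field `F` with `q` elements; an element of `T` of prime order `r` is an element `x` of `Ω⁺_n(q)` with `x^r` scalar and `x` not scalar; `q` is even (so the centre is trivial). Let Ω be the set of 1-dimensional subspaces spanned by a vector `v` with `Q(v) ≠ 0`, and let `r` be a prime dividing their number. Then every element of `T` of order `r` fixes some nonsingular 1-space if and only if `r = 2` and `n ≡ 2 (mod 4)` (that is, `d` is odd). -/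
theorem result {F : Type*} [Field F] [Fintype F] {p : ℕ} [Fact p.Prime] [CharP F p] {q : ℕ} (hq : Fintype.card F = q)
    (hp : p = 2) (d : ℕ) (hd : 4 ≤ d) (r : ℕ) [Fact r.Prime]
    (hrΩ : r ∣ Nat.card {W : Submodule F (Fin d ⊕ Fin d → F) // Module.finrank F ↥W = 1 ∧ ∃ v ∈ W, Cfsg.quadFormPlus d F v ≠ 0}) :
    (∀ x : GL (Fin d ⊕ Fin d) F, x ∈ Cfsg.Geo.omegaGL (Cfsg.quadFormPlus d F) →
      (∃ z : F, ((x ^ r : GL (Fin d ⊕ Fin d) F) : Matrix (Fin d ⊕ Fin d) (Fin d ⊕ Fin d) F) = z • (1 : Matrix (Fin d ⊕ Fin d) (Fin d ⊕ Fin d) F)) →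
      (∀ z : F, (x : Matrix (Fin d ⊕ Fin d) (Fin d ⊕ Fin d) F) ≠ z • (1 : Matrix (Fin d ⊕ Fin d) (Fin d ⊕ Fin d) F)) →
      ∃ W : Submodule F (Fin d ⊕ Fin d → F), (Module.finrank F ↥W = 1 ∧ ∃ v ∈ W, Cfsg.quadFormPlus d F v ≠ 0) ∧ W.map (Matrix.toLin' (x : Matrix (Fin d ⊕ Fin d) (Fin d ⊕ Fin d) F)) ≤ W) ↔ (r = 2 ∧ Odd d) := by
  classical
  subst hq hp
  have hr : r.Prime := Fact.out
  have hQ := Orth.qfPlus_nondegenerate d F
  have hfd : finrank F (Fin d ⊕ Fin d → F) = 2 * d := H99.finrank_symp d F
  have hQs : ∀ (c : F) v, Cfsg.quadFormPlus d F (c • v) = c ^ 2 * Cfsg.quadFormPlus d F v := by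
    intro c v
    have := Orth.qsmul (Orth.qfPlus d F) c v
    rw [pow_two]
    exact this
  have hA := H99.sympForm_altForm (F := F) d
  have hND := H99.sympForm_ND (F := F) d
  have hnt : Nontrivial (Fin d ⊕ Fin d → F) := Module.nontrivial_of_finrank_pos (R := F) (by omega)
  -- elements without fixed nonsingular vectors
  have key : ∀ y : (Fin d ⊕ Fin d → F) →ₗ[F] (Fin d ⊕ Fin d → F), (∀ v, Orth.qfPlus d F (y v) = Orth.qfPlus d F v) → y ≠ 1 →
      (∀ v, y v = v → Orth.qfPlus d F v = 0) → ∀ z : F, y ≠ z • 1 := by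
    intro y hy1 hy2 hy3 z h6
    obtain ⟨v, hv⟩ := Orth.exists_q_ne_zero hQ hnt
    have h7 := hy1 v
    rw [h6, LinearMap.smul_apply, Module.End.one_apply, Orth.qsmul] at h7
    have h8 : z ^ 2 = 1 := by
      have h9 : (z ^ 2 - 1) * Orth.qfPlus d F v = 0 := by linear_combination h7
      exact sub_eq_zero.mp ((mul_eq_zero.mp h9).resolve_right hv)
    have h9 := H99.scalar_eq_one_of_isom (V := F) h8
    apply hy2
    rw [h6, h9, one_smul]
  constructor
  · intro hfix
    by_cases hr2 : r = 2
    · subst hr2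
      refine ⟨rfl, ?_⟩
      by_contra hdo
      rw [Nat.not_odd_iff_even] at hdo
      -- an involution with totally singular fixed space
      let y : (Fin d ⊕ Fin d → F) →ₗ[F] (Fin d ⊕ Fin d → F) := {
        toFun := fun v s => Sum.elim (fun i => v (Sum.inl i) + v (Sum.inr i.rev)) (fun i => v (Sum.inr i)) s
        map_add' := by
          intro u v
          funext s
          rcases s with i | i
          · simp only [Sum.elim_inl, Pi.add_apply]; ring
          · simp only [Sum.elim_inr, Pi.add_apply]
        map_smul' := by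
          intro c v
          funext s
          rcases s with i | i
          · simp only [Sum.elim_inl, Pi.smul_apply, smul_eq_mul, RingHom.id_apply]; ring
          · simp only [Sum.elim_inr, Pi.smul_apply, smul_eq_mul, RingHom.id_apply] }
      have hyl : ∀ v i, y v (Sum.inl i) = v (Sum.inl i) + v (Sum.inr i.rev) := fun v i => rfl
      have hyr : ∀ v i, y v (Sum.inr i) = v (Sum.inr i) := fun v i => rfl
      have hzero : ∀ v : Fin d ⊕ Fin d → F, ∑ i : Fin d, v (Sum.inr i.rev) * v (Sum.inr i) = 0 := by
        intro v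
        refine Finset.sum_involution (fun i _ => i.rev) ?_ ?_ (fun i _ => Finset.mem_univ _) (fun i _ => Fin.rev_rev i)
        · intro i _
          rw [Fin.rev_rev, mul_comm (v (Sum.inr i)), ← two_mul, CharTwo.two_eq_zero, zero_mul]
        · intro i _ _ h
          have h1 := congrArg Fin.val h
          rw [Fin.val_rev] at h1
          obtain ⟨e, he⟩ := hdo
          have := i.2
          omega
      have hy1 : ∀ v, Orth.qfPlus d F (y v) = Orth.qfPlus d F v := by
        intro v
        rw [Orth.qfPlus_apply, Orth.qfPlus_apply]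
        simp only [hyl, hyr]
        have h1 : ∑ i : Fin d, (v (Sum.inl i) + v (Sum.inr i.rev)) * v (Sum.inr i) = ∑ i : Fin d, v (Sum.inl i) * v (Sum.inr i) + ∑ i : Fin d, v (Sum.inr i.rev) * v (Sum.inr i) := by
          rw [← Finset.sum_add_distrib]
          apply Finset.sum_congr rfl
          intro i _
          ring
        rw [h1, hzero, add_zero]
      have hyy : ∀ v, y (y v) = v := by
        intro v
        funext s
        rcases s with i | i
        · rw [hyl, hyl, hyr, add_assoc, ← two_mul, CharTwo.two_eq_zero, zero_mul, add_zero]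
        · rw [hyr, hyr]
      have hyfix : ∀ v, y v = v → Orth.qfPlus d F v = 0 := by
        intro v hv
        rw [Orth.qfPlus_apply]
        apply Finset.sum_eq_zero
        intro i _
        have h1 := congrFun hv (Sum.inl i.rev)
        rw [hyl, Fin.rev_rev] at h1
        have h2 : v (Sum.inr i) = 0 := by linear_combination h1
        rw [h2, mul_zero]
      have hy1' : y ≠ 1 := by
        intro h
        obtain ⟨v, hv⟩ := Orth.exists_q_ne_zero hQ hnt
        exact hv (hyfix v (by rw [h]; rfl))
      -- membership in `Ω`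
      have hinj := Orth.injective_of_isom hQ hy1
      let e : (Fin d ⊕ Fin d → F) ≃ₗ[F] (Fin d ⊕ Fin d → F) := LinearEquiv.ofInjectiveEndo y hinj
      let h : Orth.OGrp (Orth.qfPlus d F) := ⟨e, fun v => hy1 v⟩
      let g := (Orth.bridge (Orth.qfPlus d F)).symm h
      have hg : Orth.bridge (Orth.qfPlus d F) g = h := (Orth.bridge (Orth.qfPlus d F)).apply_symm_apply h
      have hgx : Matrix.toLin' ((g : GL (Fin d ⊕ Fin d) F) : Matrix (Fin d ⊕ Fin d) (Fin d ⊕ Fin d) F) = y := by
        apply LinearMap.ext
        intro v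
        rw [Matrix.toLin'_apply]
        exact (Orth.bridge_eq_iff (Orth.qfPlus d F) g h).mp hg v
      have hR := Orth.RGrp_eq_top hQ (Or.inr (by rw [hfd]; omega))
      have hmem : g ∈ Cfsg.Omega F ⇑(Orth.qfPlus d F) := by
        rw [Orth.mem_Omega_iff, hg]
        obtain ⟨l, hl⟩ := Orth.exists_reflProd hR h
        rw [Orth.mem_commutator_iff_homs hQ hR]
        have h1 := Orth.parity_TS hQ hfd (Orth.TS_W0 d F) (Orth.finrank_W0 d F) l
        have h2 : Orth.W0 d F ⊓ (Orth.W0 d F).map ((Orth.reflProd (Orth.qfPlus d F) l : (Fin d ⊕ Fin d → F) ≃ₗ[F] (Fin d ⊕ Fin d → F)) : (Fin d ⊕ Fin d → F) →ₗ[F] (Fin d ⊕ Fin d → F)) = ⊥ := by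
          rw [hl, eq_bot_iff]
          rintro _ ⟨hw, w, hw2, rfl⟩
          rw [SetLike.mem_coe, Orth.mem_W0] at hw hw2
          have h3 : ∀ i, w (Sum.inr i) = 0 := by
            intro i
            have h4 := hw i.rev
            change w (Sum.inl i.rev) + w (Sum.inr i.rev.rev) = 0 at h4
            rw [hw2, zero_add, Fin.rev_rev] at h4
            exact h4
          have h4 : w = 0 := by
            funext s
            rcases s with i | i
            · exact hw2 i
            · exact h3 i
          rw [h4, map_zero]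
          exact Submodule.zero_mem _
        rw [h2, finrank_bot, Nat.sub_zero] at h1
        have h3 := h1.mp hdo
        rw [← hl, Orth.parityHom_reflProd, Orth.spinHom_reflProd, h3.neg_one_pow]
        refine ⟨rfl, ?_⟩
        exact if_pos (Orth.isSquare_of_two_eq_zero CharTwo.two_eq_zero _)
      have hG : (g : GL (Fin d ⊕ Fin d) F) ∈ Cfsg.Geo.omegaGL (Cfsg.quadFormPlus d F) := ⟨g, hmem, rfl⟩
      obtain ⟨W, ⟨w1, v, hv, hQv⟩, w2⟩ := hfix (g : GL (Fin d ⊕ Fin d) F) hG ⟨1, by
        rw [one_smul]
        apply Matrix.toLin'.injective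
        rw [Units.val_pow_eq_pow_val, Matrix.toLin'_pow, hgx, Matrix.toLin'_one, pow_two]
        apply LinearMap.ext
        intro v
        exact hyy v⟩ (by
        intro z hz
        apply key y hy1 hy1' hyfix z
        rw [← hgx, hz, map_smul, Matrix.toLin'_one]
        rfl)
      rw [hgx] at w2
      exact hQv (hyfix v (H99.fixed_of_point hQs hy1 w1 hv hQv w2))
    · exfalso
      have hrq : ¬ r ∣ Fintype.card F := H99.prime_not_dvd_card (p := 2) hr2
      have h1 := H99.card_points hQs
      have h2 := H99.card_ne_zero_add (Q := Cfsg.quadFormPlus d F)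
      have h3 := H99.zeros_plus' (m := d) (by omega) hfd hQ (Orth.TS_W0 d F) (Orth.finrank_W0 d F)
      rw [hfd] at h2
      rw [Nat.card_eq_fintype_card (α := F)] at h1 h2 h3
      set N := Nat.card {W : Submodule F (Fin d ⊕ Fin d → F) // finrank F W = 1 ∧ ∃ v ∈ W, Cfsg.quadFormPlus d F v ≠ 0} with hN
      set Z := Nat.card {v // Orth.qfPlus d F v = 0} with hZ
      have h2' : Nat.card {v // Cfsg.quadFormPlus d F v ≠ 0} + Z = Fintype.card F ^ (2 * d) := h2
      rw [← h1] at h2'
      obtain ⟨k, hk⟩ : ∃ k, Fintype.card F = k + 1 := ⟨Fintype.card F - 1, by have := Fintype.card_pos (α := F); omega⟩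
      have hk0 : 0 < k := by
        have := Fintype.one_lt_card (α := F)
        omega
      rw [hk, Nat.add_sub_cancel] at h2'
      rw [hk] at h3
      have h4 : (k + 1) * N + (k + 1) ^ d = (k + 1) ^ (2 * d) := by
        apply Nat.eq_of_mul_eq_mul_left hk0
        zify at h2' h3 ⊢
        rw [pow_mul' _ 2 d] at h2' h3 ⊢
        rw [pow_succ _ d] at h3
        linear_combination ((k : ℤ) + 1) * h2' - h3
      have h5 : r ∣ Fintype.card F ^ d * (Fintype.card F ^ d - 1) := by
        have h6 : Fintype.card F ^ d * (Fintype.card F ^ d - 1) = (k + 1) * N := by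
          rw [hk, Nat.mul_sub, mul_one, ← pow_add, ← two_mul, ← h4, Nat.add_sub_cancel]
        rw [h6]
        exact hrΩ.mul_left _
      have hrm : r ∣ Fintype.card F ^ d - 1 := by
        rcases hr.dvd_mul.mp h5 with h6 | h6
        · exact absurd (hr.dvd_of_dvd_pow h6) hrq
        · exact h6
      rw [H99.dvd_pow_sub_one_iff Fintype.card_pos] at hrm
      obtain ⟨a, ha⟩ := hrm
      obtain ⟨f, hf1, hf2, -⟩ := H99.exists_endo_order (F := F) (p := 2) (r := r) (V := Fin d → F) hr2 a (by rw [finrank_fintype_fun_eq_card, Fintype.card_fin, mul_comm, ← ha])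
      rw [finrank_fintype_fun_eq_card, Fintype.card_fin, mul_comm a, ← ha] at hf2
      have hfker : LinearMap.ker (f - 1) = ⊥ := Submodule.finrank_eq_zero.mp (by omega)
      have hffix : ∀ v, f v = v → v = 0 := by
        intro v hv
        have h5 : v ∈ LinearMap.ker (f - 1) := by
          rw [LinearMap.mem_ker, LinearMap.sub_apply, Module.End.one_apply, hv, sub_self]
        rw [hfker] at h5
        exact (Submodule.mem_bot F).mp h5
      have hfsurj : Function.Surjective ((f - 1 : (Fin d → F) →ₗ[F] (Fin d → F)) : (Fin d → F) → (Fin d → F)) := LinearMap.injective_iff_surjective.mp (LinearMap.ker_eq_bot.mp hfker)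
      set M := LinearMap.toMatrix' f with hM
      have hMr : M ^ r = 1 := by
        rw [hM]
        apply Matrix.toLin'.injective
        rw [Matrix.toLin'_pow, Matrix.toLin'_toMatrix', hf1, Matrix.toLin'_one]
        rfl
      have hMdet : M.det ≠ 0 := by
        intro h0
        have h6 := congrArg Matrix.det hMr
        rw [Matrix.det_pow, h0, Matrix.det_one, zero_pow hr.ne_zero] at h6
        exact zero_ne_one h6
      set y := Matrix.toLin' (Matrix.fromBlocks M 0 0 (M⁻¹).transpose) with hy
      have hyv : ∀ v, y v = Orth.levF M v := fun v => Orth.fromBlocks_mulVec_levF M v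
      have hy1 : ∀ v, Orth.qfPlus d F (y v) = Orth.qfPlus d F v := fun v => by rw [hyv, Orth.q_levF hMdet]
      have hypow : ∀ (k : ℕ) v, (y ^ k) v = Orth.levF (M ^ k) v := by
        intro k
        induction k with
        | zero => intro v; rw [pow_zero, pow_zero, Orth.levF_one]; rfl
        | succ k ih => intro v; rw [pow_succ', Module.End.mul_apply, ih, hyv, pow_succ', Orth.levF_mul]
      have hy2 : y ^ r = 1 := by
        apply LinearMap.ext
        intro v
        rw [hypow, hMr, Orth.levF_one]
        rfl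
      have hMf : ∀ w, M *ᵥ w = f w := by
        intro w
        rw [← Matrix.toLin'_apply, hM, Matrix.toLin'_toMatrix']
      have hy3 : ∀ v, y v = v → v = 0 := by
        intro v hv
        rw [hyv] at hv
        have e1 : M *ᵥ (v ∘ Sum.inl) = v ∘ Sum.inl := by
          funext i
          exact congrFun hv (Sum.inl i)
        have e2 : (M⁻¹).transpose *ᵥ (v ∘ Sum.inr) = v ∘ Sum.inr := by
          funext i
          exact congrFun hv (Sum.inr i)
        have e3 : v ∘ Sum.inl = 0 := hffix _ (by rw [← hMf]; exact e1)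
        have e4 : M.transpose *ᵥ (v ∘ Sum.inr) = v ∘ Sum.inr := by
          conv_lhs => rw [← e2]
          rw [Matrix.mulVec_mulVec, ← Matrix.transpose_mul, Matrix.nonsing_inv_mul _ (isUnit_iff_ne_zero.2 hMdet), Matrix.transpose_one, Matrix.one_mulVec]
        have e5 : v ∘ Sum.inr = 0 := by
          have h6 : ∀ w : Fin d → F, (v ∘ Sum.inr) ⬝ᵥ w = 0 := by
            intro w
            obtain ⟨w', rfl⟩ := hfsurj w
            rw [LinearMap.sub_apply, Module.End.one_apply, dotProduct_sub, ← hMf, Matrix.dotProduct_mulVec, ← Matrix.mulVec_transpose, e4, sub_self]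
          funext i
          have h7 := h6 (Pi.single i 1)
          rw [dotProduct_single, mul_one] at h7
          exact h7
        funext s
        rcases s with i | i
        · exact congrFun e3 i
        · exact congrFun e5 i
      obtain ⟨G, hG1, hG2, hG3⟩ := H99.exists_mem_omegaGL_two hQ (by rw [hfd]; omega) hy1 (hr.odd_of_ne_two hr2) hy2
      obtain ⟨W, ⟨w1, v, hv, hQv⟩, w2⟩ := hfix G hG1 ⟨1, by rw [hG2, one_smul]; rfl⟩ (by
        intro z hz
        apply key y hy1 _ (fun v hv => by rw [hy3 v hv, QuadraticMap.map_zero]) z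
        · rw [← hG3, hz, map_smul, Matrix.toLin'_one]
          rfl
        · intro h
          obtain ⟨v, hv⟩ := exists_ne (0 : Fin d ⊕ Fin d → F)
          exact hv (hy3 v (by rw [h]; rfl)))
      rw [hG3] at w2
      have h6 := hy3 v (H99.fixed_of_point hQs hy1 w1 hv hQv w2)
      apply hQv
      rw [h6]
      exact QuadraticMap.map_zero (Orth.qfPlus d F)
  · rintro ⟨rfl, hdo⟩ x hx ⟨z, hz⟩ hns
    have hxQ := H99.isom_of_mem_omegaGL hx
    set f := Matrix.toLin' (x : Matrix (Fin d ⊕ Fin d) (Fin d ⊕ Fin d) F) with hf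
    have hff : ∀ v, f (f v) = z • v := by
      intro v
      have h1 : (x : Matrix (Fin d ⊕ Fin d) (Fin d ⊕ Fin d) F) * (x : Matrix (Fin d ⊕ Fin d) (Fin d ⊕ Fin d) F) = z • 1 := by
        rw [← hz, pow_two]
        rfl
      rw [hf, ← LinearMap.comp_apply, ← Matrix.toLin'_mul, h1]
      simp
    have hz1 : z = 1 := by
      obtain ⟨v, hv⟩ := Orth.exists_q_ne_zero hQ hnt
      have h2 : Cfsg.quadFormPlus d F (f (f v)) = Cfsg.quadFormPlus d F v := by rw [hxQ, hxQ]
      rw [hff, hQs] at h2
      have hv' : Cfsg.quadFormPlus d F v ≠ 0 := hv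
      have h3 : (z ^ 2 - 1) * Cfsg.quadFormPlus d F v = 0 := by linear_combination h2
      exact H99.scalar_eq_one_of_isom (V := F) (sub_eq_zero.mp ((mul_eq_zero.mp h3).resolve_right hv'))
    subst hz1
    obtain ⟨hn, h1⟩ := H99.invol_ker (x := f) (fun v => by rw [hff, one_smul])
    rw [hfd] at h1
    have hfp : ∀ u v, Cfsg.sympForm d F (f u) (f v) = Cfsg.sympForm d F u v := by
      intro u v
      rw [← H99.polar_qfPlus_eq, ← H99.polar_qfPlus_eq]
      exact Orth.polar_of_isom (Q := Orth.qfPlus d F) (Q' := Orth.qfPlus d F) (f := f) hxQ u v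
    have h2 : ∃ v ∈ LinearMap.ker (f - 1), Cfsg.quadFormPlus d F v ≠ 0 := by
      by_contra hcon
      push Not at hcon
      have hTS : Orth.TS (Orth.qfPlus d F) (LinearMap.ker (f - 1)) := hcon
      have h3 := hA.eform.two_mul_finrank_le hND (LinearMap.ker (f - 1)) (fun u hu v hv => by
        rw [← H99.polar_qfPlus_eq]
        exact hTS.polar hu hv)
      rw [hfd] at h3
      have h4 := H99.dvd_four_of_inv hA hND hfp hn (by
        intro v
        have h5 : Orth.qfPlus d F (f v) = Orth.qfPlus d F v := hxQ v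
        have h6 : f v = v + (f - 1) v := by rw [LinearMap.sub_apply, Module.End.one_apply]; abel
        rw [h6, Orth.qadd, hTS _ (hn v), H99.polar_qfPlus_eq] at h5
        linear_combination h5) (by rw [hfd]; omega) (U := ⊤) (fun _ _ => Submodule.mem_top) hND
      rw [finrank_top, hfd] at h4
      obtain ⟨k, hk⟩ := hdo
      omega
    obtain ⟨v, hv, hQv⟩ := h2
    have hv0 : v ≠ 0 := by
      rintro rfl
      exact hQv (QuadraticMap.map_zero (Orth.qfPlus d F))
    have hfv : f v = v := by
      rw [LinearMap.mem_ker, LinearMap.sub_apply, Module.End.one_apply, sub_eq_zero] at hv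
      exact hv
    refine ⟨Submodule.span F {v}, ⟨finrank_span_singleton hv0, v, Submodule.mem_span_singleton_self v, hQv⟩, ?_⟩
    rw [Submodule.map_span, Submodule.span_le]
    rintro _ ⟨w, rfl, rfl⟩
    rw [hfv]
    exact Submodule.mem_span_singleton_self _

end Cfsg.Agent.S5985
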