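import Cfsg.Statements.S5986
import Cfsg.Agent.H99.CharTwoQ

set_option autoImplicit false
open scoped MatrixGroups
open Cfsg

namespace Cfsg.Agent.S5986

open Module Matrix Polynomial
open QuadraticMap (polar polarBilin)


/-- Elements of prime order of Ω⁻_n(q), q even, with no fixed nonsingular 1-space. Here `T = PΩ⁻_n(F)`, `n = 2d ≥ 8`, realised through `Ω⁻_n(q)`, the commutator subgroup of the isometry group of `Q = Σ_{i<d−1} xᵢyᵢ + z₁² + a z₁z₂ + b z₂²` with `z₁² + a z₁z₂ + b z₂²` anisotropic, over the field `F` with `q` elements; an element of `T` of prime order `r` is an element `x` of `Ω⁻_n(q)` with `x^r` scalar and `x` not scalar; `q` is even (so the centre is trivial). Let Ω be the set of 1-dimensional subspaces spanned by a vector `v` with `Q(v) ≠ 0`, and let `r` be a prime dividing their number. Then every element of `T` of order `r` fixes some nonsingular 1-space if and only if `r = 2`. -/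
theorem result {F : Type*} [Field F] [Fintype F] {p : ℕ} [Fact p.Prime] [CharP F p] {q : ℕ} (hq : Fintype.card F = q)
    (hp : p = 2) (d : ℕ) (hd : 4 ≤ d) (a b : F) (hab : ∀ x y : F, x ^ 2 + a * x * y + b * y ^ 2 = 0 → x = 0 ∧ y = 0) (r : ℕ) [Fact r.Prime]
    (hrΩ : r ∣ Nat.card {W : Submodule F ((Fin (d - 1) ⊕ Fin (d - 1)) ⊕ Fin 2 → F) // Module.finrank F ↥W = 1 ∧ ∃ v ∈ W, Cfsg.quadFormMinus (d - 1) F a b v ≠ 0}) :
    (∀ x : GL ((Fin (d - 1) ⊕ Fin (d - 1)) ⊕ Fin 2) F, x ∈ Cfsg.Geo.omegaGL (Cfsg.quadFormMinus (d - 1) F a b) →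
      (∃ z : F, ((x ^ r : GL ((Fin (d - 1) ⊕ Fin (d - 1)) ⊕ Fin 2) F) : Matrix ((Fin (d - 1) ⊕ Fin (d - 1)) ⊕ Fin 2) ((Fin (d - 1) ⊕ Fin (d - 1)) ⊕ Fin 2) F) = z • (1 : Matrix ((Fin (d - 1) ⊕ Fin (d - 1)) ⊕ Fin 2) ((Fin (d - 1) ⊕ Fin (d - 1)) ⊕ Fin 2) F)) →
      (∀ z : F, (x : Matrix ((Fin (d - 1) ⊕ Fin (d - 1)) ⊕ Fin 2) ((Fin (d - 1) ⊕ Fin (d - 1)) ⊕ Fin 2) F) ≠ z • (1 : Matrix ((Fin (d - 1) ⊕ Fin (d - 1)) ⊕ Fin 2) ((Fin (d - 1) ⊕ Fin (d - 1)) ⊕ Fin 2) F)) →
      ∃ W : Submodule F ((Fin (d - 1) ⊕ Fin (d - 1)) ⊕ Fin 2 → F), (Module.finrank F ↥W = 1 ∧ ∃ v ∈ W, Cfsg.quadFormMinus (d - 1) F a b v ≠ 0) ∧ W.map (Matrix.toLin' (x : Matrix ((Fin (d - 1) ⊕ Fin (d - 1)) ⊕ Fin 2) ((Fin (d - 1) ⊕ Fin (d - 1)) ⊕ Fin 2) F)) ≤ W) ↔ r = 2 := by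
  classical
  subst hq hp
  have hr : r.Prime := Fact.out
  have hQ := Orth.qfMinus_nondegenerate (d - 1) F (Orth.disc_ne_zero_of_aniso hab)
  have hfd : finrank F ((Fin (d - 1) ⊕ Fin (d - 1)) ⊕ Fin 2 → F) = 2 * d := by
    rw [finrank_fintype_fun_eq_card, Fintype.card_sum, Fintype.card_sum, Fintype.card_fin, Fintype.card_fin]
    omega
  have hQs : ∀ (c : F) v, Cfsg.quadFormMinus (d - 1) F a b (c • v) = c ^ 2 * Cfsg.quadFormMinus (d - 1) F a b v := by
    intro c v
    have := Orth.qsmul (Orth.qfMinus (d - 1) F a b) c v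
    rw [pow_two]
    exact this
  constructor
  · intro hfix
    by_contra hr2
    -- `r` divides `q ^ d + 1`
    have hrq : ¬ r ∣ Fintype.card F := H99.prime_not_dvd_card (p := 2) hr2
    have h1 := H99.card_points hQs
    have h2 := H99.card_ne_zero_add (Q := Cfsg.quadFormMinus (d - 1) F a b)
    have h3 := H99.zeros_minus' (m := d) (by omega) hfd hQ (fun U hU => Orth.TS_lt_minus (by omega) hab U hU)
    rw [hfd] at h2
    rw [Nat.card_eq_fintype_card (α := F)] at h1 h2 h3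
    set N := Nat.card {W : Submodule F ((Fin (d - 1) ⊕ Fin (d - 1)) ⊕ Fin 2 → F) // finrank F W = 1 ∧ ∃ v ∈ W, Cfsg.quadFormMinus (d - 1) F a b v ≠ 0} with hN
    set Z := Nat.card {v // Orth.qfMinus (d - 1) F a b v = 0} with hZ
    have h2' : Nat.card {v // Cfsg.quadFormMinus (d - 1) F a b v ≠ 0} + Z = Fintype.card F ^ (2 * d) := h2
    rw [← h1] at h2'
    obtain ⟨k, hk⟩ : ∃ k, Fintype.card F = k + 1 := ⟨Fintype.card F - 1, by have := Fintype.card_pos (α := F); omega⟩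
    have hk0 : 0 < k := by
      have := Fintype.one_lt_card (α := F)
      omega
    rw [hk, Nat.add_sub_cancel] at h2'
    rw [hk] at h3
    have h4 : (k + 1) * N = (k + 1) ^ d * ((k + 1) ^ d + 1) := by
      apply Nat.eq_of_mul_eq_mul_left hk0
      zify at h2' h3 ⊢
      rw [pow_mul' _ 2 d] at h2' h3
      rw [pow_succ _ d] at h3
      linear_combination ((k : ℤ) + 1) * h2' - h3
    have h5 : r ∣ (k + 1) ^ d * ((k + 1) ^ d + 1) := by
      rw [← h4]
      exact hrΩ.mul_left _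
    rw [← hk] at h5
    have hrm : r ∣ Fintype.card F ^ d + 1 := by
      rcases hr.dvd_mul.mp h5 with h6 | h6
      · exact absurd (hr.dvd_of_dvd_pow h6) hrq
      · exact h6
    obtain ⟨Q', x, k1, k2, k3, k4, k5⟩ := H99.exists_fixfree_form (F := F) (m := d) (by omega) hr2 hrm
    have hQ' : (polarBilin Q').Nondegenerate := H99.nondegenerate_of_ND (by
      intro u hu hu2
      exact H99.sympForm_ND d u hu (fun v hv => by rw [← k1]; exact hu2 v hv))
    obtain ⟨g, hg⟩ := Orth.exists_isom_elliptic (m := d) (by omega) (H99.finrank_symp d F) hfd hQ' hQ k5 (fun U hU => Orth.TS_lt_minus (by omega) hab U hU)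
    set y : ((Fin (d - 1) ⊕ Fin (d - 1)) ⊕ Fin 2 → F) →ₗ[F] ((Fin (d - 1) ⊕ Fin (d - 1)) ⊕ Fin 2 → F) := g.toLinearMap ∘ₗ x ∘ₗ g.symm.toLinearMap with hy
    have hyv : ∀ v, y v = g (x (g.symm v)) := fun v => rfl
    have hy1 : ∀ v, Orth.qfMinus (d - 1) F a b (y v) = Orth.qfMinus (d - 1) F a b v := by
      intro v
      rw [hyv, hg, k2, ← hg, g.apply_symm_apply]
    have hypow : ∀ (k : ℕ) v, (y ^ k) v = g ((x ^ k) (g.symm v)) := by
      intro k
      induction k with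
      | zero => intro v; simp
      | succ k ih =>
        intro v
        rw [pow_succ', Module.End.mul_apply, ih, hyv, g.symm_apply_apply, ← Module.End.mul_apply x, ← pow_succ']
    have hy2 : y ^ r = 1 := by
      apply LinearMap.ext
      intro v
      rw [hypow, k3]
      simp
    have hy3 : ∀ v, y v = v → v = 0 := by
      intro v hv
      rw [hyv] at hv
      have h6 : x (g.symm v) = g.symm v := by
        apply g.injective
        rw [hv, g.apply_symm_apply]
      have h7 := k4 _ h6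
      rw [← g.apply_symm_apply v, h7, map_zero]
    obtain ⟨G, hG1, hG2, hG3⟩ := H99.exists_mem_omegaGL_two hQ (by rw [hfd]; omega) hy1 (hr.odd_of_ne_two hr2) hy2
    have hnt : Nontrivial ((Fin (d - 1) ⊕ Fin (d - 1)) ⊕ Fin 2 → F) := Module.nontrivial_of_finrank_pos (R := F) (by omega)
    obtain ⟨W, ⟨w1, v, hv, hQv⟩, w2⟩ := hfix G hG1 ⟨1, by rw [hG2, one_smul]; rfl⟩ (by
      intro z hz
      obtain ⟨v, hv⟩ := Orth.exists_q_ne_zero hQ hnt
      have h6 : y = z • 1 := by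
        rw [← hG3, hz, map_smul, Matrix.toLin'_one]
        rfl
      have h7 := hy1 v
      rw [h6, LinearMap.smul_apply, Module.End.one_apply, Orth.qsmul] at h7
      have h8 : z ^ 2 = 1 := by
        have h9 : (z ^ 2 - 1) * Orth.qfMinus (d - 1) F a b v = 0 := by linear_combination h7
        exact sub_eq_zero.mp ((mul_eq_zero.mp h9).resolve_right hv)
      have h9 := H99.scalar_eq_one_of_isom (V := F) h8
      have h10 : y v = v := by rw [h6, h9, one_smul, Module.End.one_apply]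
      apply hv
      rw [hy3 v h10, QuadraticMap.map_zero])
    rw [hG3] at w2
    have h6 := hy3 v (H99.fixed_of_point hQs hy1 w1 hv hQv w2)
    apply hQv
    rw [h6]
    exact QuadraticMap.map_zero (Orth.qfMinus (d - 1) F a b)
  · rintro rfl x hx ⟨z, hz⟩ hns
    have hxQ := H99.isom_of_mem_omegaGL hx
    set f := Matrix.toLin' (x : Matrix ((Fin (d - 1) ⊕ Fin (d - 1)) ⊕ Fin 2) ((Fin (d - 1) ⊕ Fin (d - 1)) ⊕ Fin 2) F) with hf
    have hff : ∀ v, f (f v) = z • v := by
      intro v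
      have h1 : (x : Matrix ((Fin (d - 1) ⊕ Fin (d - 1)) ⊕ Fin 2) ((Fin (d - 1) ⊕ Fin (d - 1)) ⊕ Fin 2) F) * (x : Matrix ((Fin (d - 1) ⊕ Fin (d - 1)) ⊕ Fin 2) ((Fin (d - 1) ⊕ Fin (d - 1)) ⊕ Fin 2) F) = z • 1 := by
        rw [← hz, pow_two]
        rfl
      rw [hf, ← LinearMap.comp_apply, ← Matrix.toLin'_mul, h1]
      simp
    have hnt : Nontrivial ((Fin (d - 1) ⊕ Fin (d - 1)) ⊕ Fin 2 → F) := Module.nontrivial_of_finrank_pos (R := F) (by omega)
    have hz1 : z = 1 := by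
      obtain ⟨v, hv⟩ := Orth.exists_q_ne_zero hQ hnt
      have h2 : Cfsg.quadFormMinus (d - 1) F a b (f (f v)) = Cfsg.quadFormMinus (d - 1) F a b v := by rw [hxQ, hxQ]
      rw [hff, hQs] at h2
      have hv' : Cfsg.quadFormMinus (d - 1) F a b v ≠ 0 := hv
      have h3 : (z ^ 2 - 1) * Cfsg.quadFormMinus (d - 1) F a b v = 0 := by linear_combination h2
      exact H99.scalar_eq_one_of_isom (V := F) (sub_eq_zero.mp ((mul_eq_zero.mp h3).resolve_right hv'))
    subst hz1
    obtain ⟨-, h1⟩ := H99.invol_ker (x := f) (fun v => by rw [hff, one_smul])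
    rw [hfd] at h1
    have h2 : ∃ v ∈ LinearMap.ker (f - 1), Cfsg.quadFormMinus (d - 1) F a b v ≠ 0 := by
      by_contra hcon
      push Not at hcon
      have h3 := Orth.TS_lt_minus (m := d) (by omega) hab (LinearMap.ker (f - 1)) hcon
      omega
    obtain ⟨v, hv, hQv⟩ := h2
    have hv0 : v ≠ 0 := by
      rintro rfl
      exact hQv (QuadraticMap.map_zero (Orth.qfMinus (d - 1) F a b))
    have hfv : f v = v := by
      rw [LinearMap.mem_ker, LinearMap.sub_apply, Module.End.one_apply, sub_eq_zero] at hv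
      exact hv
    refine ⟨Submodule.span F {v}, ⟨finrank_span_singleton hv0, v, Submodule.mem_span_singleton_self v, hQv⟩, ?_⟩
    rw [Submodule.map_span, Submodule.span_le]
    rintro _ ⟨w, rfl, rfl⟩
    rw [hfv]
    exact Submodule.mem_span_singleton_self _


end Cfsg.Agent.S5986
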