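import Cfsg.Statements.S5988
import Cfsg.Agent.H39.OE15

set_option autoImplicit false
open scoped MatrixGroups
open Cfsg

namespace Cfsg.Agent.S5988

/-- Elements of prime order of PΩ⁺_n(q) with no fixed elliptic `m`-space. Here `T = PΩ⁺_n(F)`, `n = 2d ≥ 8`, realised through `Ω⁺_n(q)`, the commutator subgroup of the isometry group of `Q = Σ xᵢyᵢ` over the field `F` with `q` elements; an element of `T` of prime order `r` is an element `x` of `Ω⁺_n(q)` with `x^r` scalar and `x` not scalar; a nondegenerate `m`-space (even `m`) is a subspace on which the polar form of `Q` is nondegenerate; it is hyperbolic if it contains an `m/2`-dimensional subspace on which `Q` vanishes, elliptic otherwise. Let `m` be even with `2 ≤ m < n/2` and let `r` be a prime dividing the number of elliptic `m`-spaces; for `r ≠ p` let `i` be the multiplicative order of `q` modulo `r`, `c = i` for `i` even and `c = 2i` for `i` odd, and write `k = n mod c`, `ℓ = m mod i`, `ℓ' = m mod c`, `n' = ⌊n/i⌋`, `m'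 = ⌊m/i⌋`, `t = (r−1)/i`. Then every element of `T` of order `r` fixes some elliptic `m`-space if and only if one of: (i) `r = 2 ≠ p` and either `n ≡ 0 (mod 4)`, `q ≡ 3 (mod 4)` and `m ≡ 2 (mod 4)`, or `n ≡ 2 (mod 4)` and `q ≢ 1 (mod 8)`; (ii) `r ≠ p` odd, `i` odd, `c ≤ m` and `k > ℓ' > 0`; (iii) `r ≠ p` odd, `i` even, and either `k = 0` and (`n/i` odd, or `ℓ' = 0` and `m/i` odd), or `i ≤ m` and (`k > ℓ' > 0`, or `k = ℓ' > 0` and `(n + m − 2k)/i` odd, or `k > ℓ' = 0` and `m/i` odd). (For `r = p` there is always an element of order `p` fixing no elliptic `m`-space.) -/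
theorem result {F : Type*} [Field F] [Fintype F] {p : ℕ} [Fact p.Prime] [CharP F p] {q : ℕ} (hq : Fintype.card F = q)
    (d m : ℕ) (hd : 4 ≤ d) (hm : 2 ≤ m) (hme : Even m) (hmd : m < d)
    (r : ℕ) [Fact r.Prime]
    (hrΩ : r ∣ Nat.card {W : Submodule F (Fin d ⊕ Fin d → F) // Module.finrank F ↥W = m ∧ Cfsg.Geo.IsNondegenerateOn (QuadraticMap.polar (Cfsg.quadFormPlus d F)) W ∧ ¬ Cfsg.Geo.IsPlusTypeOn (Cfsg.quadFormPlus d F) W})
    (i c : ℕ) (hi : i = orderOf (q : ZMod r)) (hc : c = if Even i then i else 2 * i) :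
    (∀ x : GL (Fin d ⊕ Fin d) F, x ∈ Cfsg.Geo.omegaGL (Cfsg.quadFormPlus d F) →
      (∃ z : F, ((x ^ r : GL (Fin d ⊕ Fin d) F) : Matrix (Fin d ⊕ Fin d) (Fin d ⊕ Fin d) F) = z • (1 : Matrix (Fin d ⊕ Fin d) (Fin d ⊕ Fin d) F)) →
      (∀ z : F, (x : Matrix (Fin d ⊕ Fin d) (Fin d ⊕ Fin d) F) ≠ z • (1 : Matrix (Fin d ⊕ Fin d) (Fin d ⊕ Fin d) F)) →
      ∃ W : Submodule F (Fin d ⊕ Fin d → F), (Module.finrank F ↥W = m ∧ Cfsg.Geo.IsNondegenerateOn (QuadraticMap.polar (Cfsg.quadFormPlus d F)) W ∧ ¬ Cfsg.Geo.IsPlusTypeOn (Cfsg.quadFormPlus d F) W) ∧ W.map (Matrix.toLin' (x : Matrix (Fin d ⊕ Fin d) (Fin d ⊕ Fin d) F)) ≤ W) ↔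
    ((r = 2 ∧ p ≠ 2 ∧ ((Even d ∧ q % 4 = 3 ∧ m % 4 = 2) ∨ (Odd d ∧ q % 8 ≠ 1))) ∨
     (r ≠ p ∧ 2 < r ∧ Odd i ∧ c ≤ m ∧ 0 < m % c ∧ m % c < (2 * d) % c) ∨
     (r ≠ p ∧ 2 < r ∧ Even i ∧
       (((2 * d) % c = 0 ∧ (Odd ((2 * d) / i) ∨ (m % c = 0 ∧ Odd (m / i)))) ∨
        (i ≤ m ∧ ((0 < m % c ∧ m % c < (2 * d) % c) ∨
                  (0 < m % c ∧ m % c = (2 * d) % c ∧ Odd ((2 * d + m - 2 * ((2 * d) % c)) / i)) ∨
                  (m % c = 0 ∧ 0 < (2 * d) % c ∧ Odd (m / i))))))) := by
  classical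
  subst hq
  have hrpr : r.Prime := Fact.out
  have hppr : p.Prime := Fact.out
  obtain ⟨m', hm'⟩ := hme
  have hQ := Orth.qfPlus_nondegenerate d F
  have hfd := Orth.finrank_V d F
  have hPTQ : H39.OE.PT (Orth.qfPlus d F) ⊤ := ⟨Orth.U0 d F, le_top, Orth.TS_U0 d F, by rw [Orth.finrank_U0, finrank_top, hfd]⟩
  obtain ⟨ι', _, _, QT, hT, hTd, hTp⟩ := H39.OE.exists_model (F := F) (m := m') (by omega) False
  have hTm : Module.finrank F (ι' → F) = m := by omega
  have hP : ∀ W : Submodule F (Fin d ⊕ Fin d → F), (Module.finrank F ↥W = m ∧ Cfsg.Geo.IsNondegenerateOn (QuadraticMap.polar (Cfsg.quadFormPlus d F)) W ∧ ¬ Cfsg.Geo.IsPlusTypeOn (Cfsg.quadFormPlus d F) W) ↔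
      H39.OE.IsoT QT (Orth.qfPlus d F) W := by
    intro W
    rw [H39.OE.isoT_iff hT hTd]
    constructor
    · rintro ⟨h1, h2, h3⟩
      exact ⟨by omega, H39.OE.nondegOn_iff.mp h2, fun h => absurd (H39.OE.plusOn_iff.mpr h) h3, fun h => absurd (hTp.mp h) id⟩
    · rintro ⟨h1, h2, h3⟩
      exact ⟨by omega, H39.OE.nondegOn_iff.mpr h2, fun h => hTp.mp (h3.mp (H39.OE.plusOn_iff.mp h))⟩
  by_cases hr2 : r = 2
  · subst hr2
    by_cases hp2 : p = 2
    · subst hp2
      constructor
      · intro hfix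
        exfalso
        obtain ⟨g, g1, g2, g3, g4⟩ := H39.OE.exists_bad_plus (F := F) hd
        obtain ⟨W, hW, hinv⟩ := hfix g g1 ⟨1, g2⟩ g3
        exact hW.2.2 (H39.OE.plusOn_iff.mpr (g4 W (H39.OE.nondegOn_iff.mp hW.2.1) hinv).1)
      · rintro (⟨-, h, -⟩ | ⟨h, -⟩ | ⟨h, -⟩)
        · exact absurd rfl h
        · exact absurd rfl h
        · exact absurd rfl h
    · have hpo : Odd p := hppr.odd_of_ne_two hp2
      have hodd : Odd (Fintype.card F) := by
        obtain ⟨n, hn⟩ := FiniteField.card F p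
        rw [hn.2]
        exact hpo.pow
      obtain ⟨-, h2⟩ := H99.odd_char (F := F) (p := p) hodd
      obtain ⟨s1, s2⟩ := H39.OE.sq_facts (F := F) hodd
      obtain ⟨l, hl⟩ := hodd
      have h3 := H39.OE.two_crit h2 (Q := Orth.qfPlus d F) hQ hfd (by rw [hfd]; omega) hT hTm (by omega) (by omega) hP
      refine Iff.trans h3 ?_
      rw [s1, s2, hTp]
      constructor
      · intro h
        left
        refine ⟨rfl, hp2, ?_⟩
        rcases Nat.even_or_odd d with hde | hdo
        · left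
          obtain ⟨k', hk', h4⟩ := h ⟨Or.inr hde, fun _ => Or.inr hde, fun _ => hPTQ⟩
          have h5 : ¬ (Fintype.card F % 4 = 1 ∨ Even k') := fun h6 => h4.mpr h6
          push Not at h5
          obtain ⟨h6, h7⟩ := h5
          obtain ⟨t, ht⟩ := Nat.not_even_iff_odd.mp (by simpa using h7)
          exact ⟨hde, by omega, by omega⟩
        · right
          refine ⟨hdo, fun h8 => ?_⟩
          obtain ⟨k', hk', h4⟩ := h ⟨Or.inl (Or.inl h8), fun _ => Or.inl (by omega), fun _ => hPTQ⟩
          exact h4.mpr (Or.inl (by omega))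
      · rintro (⟨-, -, ⟨h4, h5, h6⟩ | ⟨h4, h5⟩⟩ | ⟨-, h4, -⟩ | ⟨-, h4, -⟩)
        · rintro -
          refine ⟨m / 2, by omega, fun h => absurd h id, fun h => ?_⟩
          rcases h with h | ⟨t, ht⟩
          · omega
          · omega
        · rintro ⟨h6, h7⟩
          exfalso
          have h8 := (h7.mp hPTQ)
          have h9 : ¬ Even d := Nat.not_even_iff_odd.mpr h4
          have h10 := h6.resolve_right h9
          have h11 := h8.resolve_right h9
          omega
        · omega
        · omega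
  · have hr3 : 2 < r := by
      have := hrpr.two_le
      omega
    by_cases hrp : r = p
    · subst hrp
      have hpo : Odd r := hrpr.odd_of_ne_two hr2
      have hodd : Odd (Fintype.card F) := by
        obtain ⟨n, hn⟩ := FiniteField.card F r
        rw [hn.2]
        exact hpo.pow
      obtain ⟨-, h2⟩ := H99.odd_char (F := F) (p := r) hodd
      constructor
      · intro hfix
        exfalso
        rcases Nat.even_or_odd d with hde | hdo
        · obtain ⟨g, g1, g2, g3, g4⟩ := H39.OE.unip_plus_even (F := F) h2 hpo hde hd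
          obtain ⟨W, hW, hinv⟩ := hfix g g1 ⟨1, g2⟩ g3
          exact hW.2.2 (H39.OE.plusOn_iff.mpr (g4 W (H39.OE.nondegOn_iff.mp hW.2.1) hinv).2)
        · obtain ⟨g, g1, g2, g3, g4⟩ := H39.OE.unip_plus_odd (p := r) h2 hpo hQ hfd hdo hd hPTQ
          obtain ⟨W, hW, hinv⟩ := hfix g g1 ⟨1, g2⟩ g3
          exact hW.2.2 (H39.OE.plusOn_iff.mpr (g4 W (H39.OE.nondegOn_iff.mp hW.2.1) hinv ⟨m', by rw [hW.1, hm']⟩))
      · rintro (⟨h, -⟩ | ⟨h, -⟩ | ⟨h, -⟩)
        · exact absurd h hr2
        · exact absurd rfl h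
        · exact absurd rfl h
    have h3 := H39.OE.trans_scalar (Q := Orth.qfPlus d F) hQ (by rw [hfd]; omega) hr2 hP
    obtain ⟨h4, h5⟩ := H39.OE.criterion (p := p) hr2 hrp hQ hT (Or.inr ⟨⟨d, by rw [hfd]; ring⟩, ⟨m', by omega⟩⟩) (Or.inl ⟨d, by rw [hfd]; ring⟩) (by omega) (by omega)
      (by rw [Nat.card_congr (Equiv.subtypeEquivRight hP)] at hrΩ; exact hrΩ)
    refine Iff.trans (h3.trans h4) ?_
    have hcb := H39.OE.blk_eq (F := F) hi hc
    have hcE := H99.even_blk r (Fintype.card F)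
    have hcpos := H39.OE.blk_pos (F := F) (p := p) hrp
    rw [hcb] at h5 hcE hcpos ⊢
    rw [← hi, hfd, hTm] at h5 ⊢
    have e1 := H39.OE.even_mod (a := m) ⟨m', hm'⟩ hcE
    have e2 := H39.OE.even_mod (a := 2 * d) ⟨d, by ring⟩ hcE
    have e3 := H39.OE.even_sub_iff (c := c) (m := m) (n := 2 * d) (by omega)
    have e4 := H39.OE.div_add_eq' (c := c) (m := m) (n := 2 * d) hcpos
    have e5 : Even m := ⟨m', hm'⟩
    have e6 : Even (2 * d) := ⟨d, by ring⟩
    rcases Nat.even_or_odd i with he | ho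
    · have hci : c = i := by rw [hc, if_pos he]
      have hno : ¬ Odd i := Nat.not_odd_iff_even.mpr he
      rw [← hci] at hno h5 ⊢
      have hce : Even c := by rw [hci]; exact he
      constructor
      · intro h
        have hcm := h5 h
        right; right
        refine ⟨hrp, hr3, hce, ?_⟩
        rcases h with ⟨g1, g2⟩ | ⟨g1, g2, g3, g4⟩ | ⟨g1, g2, g3, g4⟩
        · left
          refine ⟨g1, Or.inl ?_⟩
          rw [← Nat.not_even_iff_odd]
          intro h6
          exact g2 ⟨fun _ => Or.inr h6, fun _ => hPTQ⟩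
        · left
          refine ⟨g1, Or.inr ⟨g3, ?_⟩⟩
          rw [← Nat.not_even_iff_odd]
          intro h6
          exact hTp.mp (g4.mpr (Or.inr h6))
        · right
          refine ⟨hcm, ?_⟩
          by_cases h6 : m % c = 0
          · right; right
            refine ⟨h6, g1, ?_⟩
            rw [← Nat.not_even_iff_odd]
            intro h7
            exact hTp.mp ((g3 h6).mpr (Or.inr h7))
          · by_cases h7 : m % c = (2 * d) % c
            · right; left
              refine ⟨by omega, h7, ?_⟩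
              rw [e4 h7, ← Nat.not_even_iff_odd, ← e3]
              intro h8
              have h9 := (g4 h7 e6 e5).mp hPTQ
              exact hTp.mp (h9.mpr (Or.inr h8))
            · left
              exact ⟨by omega, by omega⟩
      · rintro (⟨h, -⟩ | ⟨-, -, h, -⟩ | ⟨-, -, -, h⟩)
        · exact absurd h hr2
        · exact absurd h hno
        · rcases h with ⟨g1, g2 | ⟨g2, g3⟩⟩ | ⟨g1, ⟨g2, g3⟩ | ⟨g2, g3, g4⟩ | ⟨g2, g3, g4⟩⟩
          · left
            refine ⟨g1, fun h => ?_⟩
            rcases h.mp hPTQ with h6 | h6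
            · exact hno h6
            · exact absurd h6 (Nat.not_even_iff_odd.mpr g2)
          · by_cases h6 : Even (2 * d / c)
            · right; left
              refine ⟨g1, ⟨fun _ => Or.inr h6, fun _ => hPTQ⟩, g2, fun h => absurd (hTp.mp h) id, fun h => ?_⟩
              rcases h with h7 | h7
              · exact absurd h7 hno
              · exact absurd h7 (Nat.not_even_iff_odd.mpr g3)
            · left
              refine ⟨g1, fun h => ?_⟩
              rcases h.mp hPTQ with h7 | h7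
              · exact hno h7
              · exact h6 h7
          · right; right
            exact ⟨by omega, by omega, fun h => by omega, fun h => by omega⟩
          · right; right
            refine ⟨by omega, by omega, fun h => by omega, fun _ _ _ => ?_⟩
            rw [e4 g3, ← Nat.not_even_iff_odd, ← e3] at g4
            refine ⟨fun _ => ⟨fun h => absurd (hTp.mp h) id, fun h => ?_⟩, fun _ => hPTQ⟩
            rcases h with h7 | h7
            · exact absurd h7 hno
            · exact absurd h7 g4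
          · right; right
            refine ⟨by omega, by omega, fun _ => ⟨fun h => absurd (hTp.mp h) id, fun h => ?_⟩, fun h => by omega⟩
            rcases h with h7 | h7
            · exact absurd h7 hno
            · exact absurd h7 (Nat.not_even_iff_odd.mpr g4)
    · constructor
      · intro h
        have hcm := h5 h
        right; left
        refine ⟨hrp, hr3, ho, hcm, ?_⟩
        rcases h with ⟨g1, g2⟩ | ⟨g1, g2, g3, g4⟩ | ⟨g1, g2, g3, g4⟩
        · exact absurd ⟨fun _ => Or.inl ho, fun _ => hPTQ⟩ g2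
        · exact absurd (g4.mpr (Or.inl ho)) (fun h => hTp.mp h)
        · have h6 : m % c ≠ 0 := fun h6 => hTp.mp ((g3 h6).mpr (Or.inl ho))
          have h7 : m % c ≠ (2 * d) % c := fun h7 => hTp.mp (((g4 h7 e6 e5).mp hPTQ).mpr (Or.inl ho))
          exact ⟨by omega, by omega⟩
      · rintro (⟨h, -⟩ | ⟨-, -, -, g1, g2, g3⟩ | ⟨-, -, h, -⟩)
        · exact absurd h hr2
        · right; right
          exact ⟨by omega, by omega, fun h => by omega, fun h => by omega⟩
        · exact absurd h (Nat.not_even_iff_odd.mpr ho)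

end Cfsg.Agent.S5988
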