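import Cfsg.Statements.S5989
import Cfsg.Agent.H39.OE11

set_option autoImplicit false
open scoped MatrixGroups
open Cfsg

namespace Cfsg.Agent.S5989

/-- Elements of prime order of PΩ⁺_n(q), q odd, with no fixed nondegenerate `m`-space of odd dimension. Here `T = PΩ⁺_n(F)`, `n = 2d ≥ 8`, realised through `Ω⁺_n(q)`, the commutator subgroup of the isometry group of `Q = Σ xᵢyᵢ` over the field `F` with `q` elements; an element of `T` of prime order `r` is an element `x` of `Ω⁺_n(q)` with `x^r` scalar and `x` not scalar; `q` and `m` are odd, `1 ≤ m < n/2`. The nondegenerate `m`-spaces (subspaces on which the polar form is nondegenerate) fall into two isometry classes, each an orbit of `T`, and the two actions are equivalent; fix one such space `W₀` and let Ω be the set of nondegenerate `m`-spaces isometric to `W₀` (some linear isomorphism preserves `Q`). Let `r` be a prime dividing the size of Ω; for `r ≠ p` let `i` be the multiplicative order of `q` modulo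 `r`, `c = i` for `i` even and `c = 2i` for `i` odd, and write `k = n mod c`, `ℓ = m mod i`, `ℓ' = m mod c`, `n' = ⌊n/i⌋`, `m' = ⌊m/i⌋`, `t = (r−1)/i`. Then every element of `T` of order `r` fixes a member of Ω if and only if one of: (i) `r = 2`, `n ≡ 2 (mod 4)` and `q ≢ 1 (mod 8)`; (ii) `r ≠ p` odd, `i` odd, `c ≤ m` and `k > ℓ' > 0`; (iii) `r ≠ p` odd, `i` even, and either `k = 0` and `n/i` odd, or `i ≤ m` and `k > ℓ' > 0`. (For `r = p` there is always an element of order `p` fixing no member of Ω.) -/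
theorem result {F : Type*} [Field F] [Fintype F] {p : ℕ} [Fact p.Prime] [CharP F p] {q : ℕ} (hq : Fintype.card F = q)
    (hodd : Odd q) (d m : ℕ) (hd : 4 ≤ d) (hm : Odd m) (hmd : m < d)
    (W₀ : Submodule F (Fin d ⊕ Fin d → F)) (hW₀ : Module.finrank F ↥W₀ = m ∧ Cfsg.Geo.IsNondegenerateOn (QuadraticMap.polar (Cfsg.quadFormPlus d F)) W₀)
    (r : ℕ) [Fact r.Prime]
    (hrΩ : r ∣ Nat.card {W : Submodule F (Fin d ⊕ Fin d → F) // Module.finrank F ↥W = m ∧ Cfsg.Geo.IsNondegenerateOn (QuadraticMap.polar (Cfsg.quadFormPlus d F)) W ∧ Cfsg.Geo.AreIsometricFor (Cfsg.quadFormPlus d F) W W₀})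
    (i c : ℕ) (hi : i = orderOf (q : ZMod r)) (hc : c = if Even i then i else 2 * i) :
    (∀ x : GL (Fin d ⊕ Fin d) F, x ∈ Cfsg.Geo.omegaGL (Cfsg.quadFormPlus d F) →
      (∃ z : F, ((x ^ r : GL (Fin d ⊕ Fin d) F) : Matrix (Fin d ⊕ Fin d) (Fin d ⊕ Fin d) F) = z • (1 : Matrix (Fin d ⊕ Fin d) (Fin d ⊕ Fin d) F)) →
      (∀ z : F, (x : Matrix (Fin d ⊕ Fin d) (Fin d ⊕ Fin d) F) ≠ z • (1 : Matrix (Fin d ⊕ Fin d) (Fin d ⊕ Fin d) F)) →
      ∃ W : Submodule F (Fin d ⊕ Fin d → F), (Module.finrank F ↥W = m ∧ Cfsg.Geo.IsNondegenerateOn (QuadraticMap.polar (Cfsg.quadFormPlus d F)) W ∧ Cfsg.Geo.AreIsometricFor (Cfsg.quadFormPlus d F) W W₀) ∧ W.map (Matrix.toLin' (x : Matrix (Fin d ⊕ Fin d) (Fin d ⊕ Fin d) F)) ≤ W) ↔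
    ((r = 2 ∧ Odd d ∧ q % 8 ≠ 1) ∨
     (r ≠ p ∧ 2 < r ∧ Odd i ∧ c ≤ m ∧ 0 < m % c ∧ m % c < (2 * d) % c) ∨
     (r ≠ p ∧ 2 < r ∧ Even i ∧ (((2 * d) % c = 0 ∧ Odd ((2 * d) / i)) ∨ (i ≤ m ∧ 0 < m % c ∧ m % c < (2 * d) % c)))) := by
  classical
  subst hq
  have hrpr : r.Prime := Fact.out
  obtain ⟨hpo, h2⟩ := H99.odd_char (F := F) (p := p) hodd
  have hQ := Orth.qfPlus_nondegenerate d F
  have hfd := Orth.finrank_V d F
  have hPTQ : H39.OE.PT (Orth.qfPlus d F) ⊤ := ⟨Orth.U0 d F, le_top, Orth.TS_U0 d F, by rw [Orth.finrank_U0, finrank_top, hfd]⟩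
  have hN0 : H39.OE.Nd (Orth.qfPlus d F) W₀ := H39.OE.nondegOn_iff.mp hW₀.2
  have hT := H39.OE.nd_restrict hN0
  have hTd : Module.finrank F W₀ = m := hW₀.1
  have hP : ∀ W : Submodule F (Fin d ⊕ Fin d → F), (Module.finrank F ↥W = m ∧ Cfsg.Geo.IsNondegenerateOn (QuadraticMap.polar (Cfsg.quadFormPlus d F)) W ∧ Cfsg.Geo.AreIsometricFor (Cfsg.quadFormPlus d F) W W₀) ↔
      H39.OE.IsoT ((Orth.qfPlus d F).restrict W₀) (Orth.qfPlus d F) W := fun W => H39.OE.isoT_sub (Q := Orth.qfPlus d F) hW₀ W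
  obtain ⟨s1, s2⟩ := H39.OE.sq_facts (F := F) hodd
  obtain ⟨l, hl⟩ := hm
  by_cases hr2 : r = 2
  · subst hr2
    have h3 := H39.OE.two_crit h2 (Q := Orth.qfPlus d F) hQ hfd (by rw [hfd]; omega) hT hTd (by omega) (by omega) hP
    refine Iff.trans h3 ?_
    rw [s1, s2]
    constructor
    · intro h
      left
      refine ⟨rfl, ?_⟩
      by_contra hcon
      obtain ⟨k', hk', -⟩ := h (by
        by_cases hde : Even d
        · exact ⟨Or.inr hde, fun _ => Or.inr hde, fun _ => hPTQ⟩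
        · have hdo := Nat.not_even_iff_odd.mp hde
          have h8 : Fintype.card F % 8 = 1 := by
            by_contra h9
            exact hcon ⟨hdo, h9⟩
          exact ⟨Or.inl (Or.inl h8), fun _ => Or.inl (by omega), fun _ => hPTQ⟩)
      omega
    · rintro (⟨-, h4, h5⟩ | ⟨-, h4, -⟩ | ⟨-, h4, -⟩)
      · rintro ⟨h6, h7⟩
        exfalso
        have h8 := (h7.mp hPTQ)
        have h9 : ¬ Even d := Nat.not_even_iff_odd.mpr h4
        have h10 := h6.resolve_right h9
        have h11 := h8.resolve_right h9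
        omega
      · omega
      · omega
  · have hr3 : 2 < r := by
      have := hrpr.two_le
      omega
    by_cases hrp : r = p
    · subst hrp
      constructor
      · intro hfix
        exfalso
        rcases Nat.even_or_odd d with hde | hdo
        · obtain ⟨g, g1, g2, g3, g4⟩ := H39.OE.unip_plus_even (F := F) h2 hpo hde hd
          obtain ⟨W, hW, hinv⟩ := hfix g g1 ⟨1, g2⟩ g3
          have h5 := (g4 W (H39.OE.nondegOn_iff.mp hW.2.1) hinv).1
          rw [hW.1, hl] at h5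
          exact absurd h5 (by rw [Nat.not_even_iff_odd]; exact ⟨l, rfl⟩)
        · obtain ⟨g, g1, g2, g3, g4⟩ := H39.OE.unip_odd_odd (p := r) h2 hpo hQ hfd hdo hd (m := m) ⟨l, hl⟩
          obtain ⟨W, hW, hinv⟩ := hfix g g1 ⟨1, g2⟩ g3
          exact g4 W (H39.OE.nondegOn_iff.mp hW.2.1) hinv hW.1
      · rintro (⟨h, -⟩ | ⟨h, -⟩ | ⟨h, -⟩)
        · exact absurd h hr2
        · exact absurd rfl h
        · exact absurd rfl h
    have h3 := H39.OE.trans_scalar (Q := Orth.qfPlus d F) hQ (by rw [hfd]; omega) hr2 hP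
    obtain ⟨h4, h5⟩ := H39.OE.criterion (p := p) hr2 hrp hQ hT (Or.inl h2) (Or.inl ⟨d, by rw [hfd]; ring⟩) (by omega) (by omega)
      (by rw [Nat.card_congr (Equiv.subtypeEquivRight hP)] at hrΩ; exact hrΩ)
    refine Iff.trans (h3.trans h4) ?_
    have hcb := H39.OE.blk_eq (F := F) hi hc
    have hcE := H99.even_blk r (Fintype.card F)
    rw [hcb] at h5 hcE ⊢
    rw [← hi, hfd, hTd] at h5 ⊢
    have e1 := H39.OE.odd_mod (a := m) ⟨l, hl⟩ hcE
    have e2 := H39.OE.even_mod (a := 2 * d) ⟨d, by ring⟩ hcE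
    have e3 : ¬ Even m := by rw [Nat.not_even_iff_odd]; exact ⟨l, hl⟩
    constructor
    · intro h
      have hcm := h5 h
      rcases h with ⟨g1, g2⟩ | ⟨g1, g2, g3, -⟩ | ⟨g1, g2, g3, -⟩
      · right; right
        refine ⟨hrp, hr3, ?_⟩
        have he : Even i := by
          by_contra hodd'
          exact g2 ⟨fun _ => Or.inl (Nat.not_even_iff_odd.mp hodd'), fun _ => hPTQ⟩
        have hci : c = i := by rw [hc, if_pos he]
        refine ⟨he, Or.inl ⟨g1, ?_⟩⟩
        rw [← hci, ← Nat.not_even_iff_odd]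
        intro h6
        exact g2 ⟨fun _ => Or.inr h6, fun _ => hPTQ⟩
      · omega
      · right
        rcases Nat.even_or_odd i with he | ho
        · right
          have hci : c = i := by rw [hc, if_pos he]
          exact ⟨hrp, hr3, he, Or.inr ⟨by omega, by omega, by omega⟩⟩
        · left
          exact ⟨hrp, hr3, ho, hcm, by omega, by omega⟩
    · rintro (⟨h, -⟩ | ⟨-, -, ho, g1, g2, g3⟩ | ⟨-, -, he, ⟨g1, g2⟩ | ⟨g1, g2, g3⟩⟩)
      · exact absurd h hr2
      · right; right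
        exact ⟨by omega, by omega, fun h => by omega, fun _ _ h => absurd h e3⟩
      · left
        have hci : c = i := by rw [hc, if_pos he]
        refine ⟨g1, fun h => ?_⟩
        rcases h.mp hPTQ with h6 | h6
        · exact absurd h6 (Nat.not_odd_iff_even.mpr he)
        · rw [hci] at h6
          exact absurd h6 (Nat.not_even_iff_odd.mpr g2)
      · right; right
        exact ⟨by omega, by omega, fun h => by omega, fun _ _ h => absurd h e3⟩

end Cfsg.Agent.S5989
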