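import Cfsg.Statements.S5990
import Cfsg.Agent.H39.OE15

set_option autoImplicit false
open scoped MatrixGroups
open Cfsg

namespace Cfsg.Agent.S5990

/-- Elements of prime order of PΩ⁻_n(q) with no fixed elliptic `m`-space. Here `T = PΩ⁻_n(F)`, `n = 2d ≥ 8`, realised through `Ω⁻_n(q)`, the commutator subgroup of the isometry group of `Q = Σ_{i<d−1} xᵢyᵢ + z₁² + a z₁z₂ + b z₂²` with `z₁² + a z₁z₂ + b z₂²` anisotropic, over the field `F` with `q` elements; an element of `T` of prime order `r` is an element `x` of `Ω⁻_n(q)` with `x^r` scalar and `x` not scalar; a nondegenerate `m`-space (even `m`) is a subspace on which the polar form of `Q` is nondegenerate; it is hyperbolic if it contains an `m/2`-dimensional subspace on which `Q` vanishes, elliptic otherwise. Let `m` be even with `2 ≤ m ≤ n − 2` (no restriction `m < n/2`: fixing an elliptic `m`-space is the same as fixing its hyperbolic orthogonal complement) and let `r` be a prime dividing the number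 of elliptic `m`-spaces, with `r = 2` or `r ≠ p`; for `r ≠ p` let `i` be the multiplicative order of `q` modulo `r`, `c = i` for `i` even and `c = 2i` for `i` odd, and write `k = n mod c`, `ℓ = m mod i`, `ℓ' = m mod c`, `n' = ⌊n/i⌋`, `m' = ⌊m/i⌋`, `t = (r−1)/i`. Then every element of `T` of order `r` fixes some elliptic `m`-space if and only if one of: (i) `r = p = 2` and (`n ≡ 0 (mod 4)` or `m ≡ 2 (mod 4)`); (ii) `r = 2 ≠ p` and (`n ≡ 0 (mod 4)`, or `q ≢ 7 (mod 8)`, or `m ≡ 2 (mod 4)`); (iii) `r ≠ p` odd, `i` odd, and `k = 0` or (`c ≤ m` and `k ≥ ℓ' > 0`); (iv) `r ≠ p` odd, `i` even, and either `k = 0` and (`n/i` even, or `ℓ' = 0` and `m/i` odd), or `k > 0`, `i ≤ m` and (`k > ℓ' > 0`, or `ℓ' = 0` and `m/i` odd, or `k = ℓ'` and `(n + m − 2k)/i` even). (Odd `r = p` is not covered by this statement.) -/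
theorem result {F : Type*} [Field F] [Fintype F] {p : ℕ} [Fact p.Prime] [CharP F p] {q : ℕ} (hq : Fintype.card F = q)
    (d m : ℕ) (hd : 4 ≤ d) (hm : 2 ≤ m) (hme : Even m) (hmn : m + 2 ≤ 2 * d) (a b : F) (hab : ∀ x y : F, x ^ 2 + a * x * y + b * y ^ 2 = 0 → x = 0 ∧ y = 0)
    (r : ℕ) [Fact r.Prime] (hr : r = 2 ∨ r ≠ p)
    (hrΩ : r ∣ Nat.card {W : Submodule F ((Fin (d - 1) ⊕ Fin (d - 1)) ⊕ Fin 2 → F) // Module.finrank F ↥W = m ∧ Cfsg.Geo.IsNondegenerateOn (QuadraticMap.polar (Cfsg.quadFormMinus (d - 1) F a b)) W ∧ ¬ Cfsg.Geo.IsPlusTypeOn (Cfsg.quadFormMinus (d - 1) F a b) W})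
    (i c : ℕ) (hi : i = orderOf (q : ZMod r)) (hc : c = if Even i then i else 2 * i) :
    (∀ x : GL ((Fin (d - 1) ⊕ Fin (d - 1)) ⊕ Fin 2) F, x ∈ Cfsg.Geo.omegaGL (Cfsg.quadFormMinus (d - 1) F a b) →
      (∃ z : F, ((x ^ r : GL ((Fin (d - 1) ⊕ Fin (d - 1)) ⊕ Fin 2) F) : Matrix ((Fin (d - 1) ⊕ Fin (d - 1)) ⊕ Fin 2) ((Fin (d - 1) ⊕ Fin (d - 1)) ⊕ Fin 2) F) = z • (1 : Matrix ((Fin (d - 1) ⊕ Fin (d - 1)) ⊕ Fin 2) ((Fin (d - 1) ⊕ Fin (d - 1)) ⊕ Fin 2) F)) →
      (∀ z : F, (x : Matrix ((Fin (d - 1) ⊕ Fin (d - 1)) ⊕ Fin 2) ((Fin (d - 1) ⊕ Fin (d - 1)) ⊕ Fin 2) F) ≠ z • (1 : Matrix ((Fin (d - 1) ⊕ Fin (d - 1)) ⊕ Fin 2) ((Fin (d - 1) ⊕ Fin (d - 1)) ⊕ Fin 2) F)) →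
      ∃ W : Submodule F ((Fin (d - 1) ⊕ Fin (d - 1)) ⊕ Fin 2 → F), (Module.finrank F ↥W = m ∧ Cfsg.Geo.IsNondegenerateOn (QuadraticMap.polar (Cfsg.quadFormMinus (d - 1) F a b)) W ∧ ¬ Cfsg.Geo.IsPlusTypeOn (Cfsg.quadFormMinus (d - 1) F a b) W) ∧ W.map (Matrix.toLin' (x : Matrix ((Fin (d - 1) ⊕ Fin (d - 1)) ⊕ Fin 2) ((Fin (d - 1) ⊕ Fin (d - 1)) ⊕ Fin 2) F)) ≤ W) ↔
    ((r = 2 ∧ p = 2 ∧ (Even d ∨ m % 4 = 2)) ∨
     (r = 2 ∧ p ≠ 2 ∧ (Even d ∨ q % 8 ≠ 7 ∨ m % 4 = 2)) ∨
     (r ≠ p ∧ 2 < r ∧ Odd i ∧ ((2 * d) % c = 0 ∨ (c ≤ m ∧ 0 < m % c ∧ m % c ≤ (2 * d) % c))) ∨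
     (r ≠ p ∧ 2 < r ∧ Even i ∧
       (((2 * d) % c = 0 ∧ (Even ((2 * d) / i) ∨ (m % c = 0 ∧ Odd (m / i)))) ∨
        (0 < (2 * d) % c ∧ i ≤ m ∧ ((0 < m % c ∧ m % c < (2 * d) % c) ∨ (m % c = 0 ∧ Odd (m / i)) ∨
                                    (m % c = (2 * d) % c ∧ Even ((2 * d + m - 2 * ((2 * d) % c)) / i))))))) := by
  classical
  subst hq
  have hrpr : r.Prime := Fact.out
  have hppr : p.Prime := Fact.out
  obtain ⟨m', hm'⟩ := hme
  have hQ := Orth.qfMinus_nondegenerate (d - 1) F (Orth.disc_ne_zero_of_aniso hab)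
  have hfd : Module.finrank F ((Fin (d - 1) ⊕ Fin (d - 1)) ⊕ Fin 2 → F) = 2 * d := Orth.finrank_Vm (by omega)
  have hPTQ : ¬ H39.OE.PT (Orth.qfMinus (d - 1) F a b) ⊤ := by
    rw [H39.OE.not_pt_iff hfd]
    exact fun U hU => Orth.TS_lt_minus (m := d) (by omega) hab U hU
  obtain ⟨ι', _, _, QT, hT, hTd, hTp⟩ := H39.OE.exists_model (F := F) (m := m') (by omega) False
  have hTm : Module.finrank F (ι' → F) = m := by omega
  have hTt : ¬ H39.OE.PT QT ⊤ := fun h => hTp.mp h
  have hP : ∀ W : Submodule F ((Fin (d - 1) ⊕ Fin (d - 1)) ⊕ Fin 2 → F), (Module.finrank F ↥W = m ∧ Cfsg.Geo.IsNondegenerateOn (QuadraticMap.polar (Cfsg.quadFormMinus (d - 1) F a b)) W ∧ ¬ Cfsg.Geo.IsPlusTypeOn (Cfsg.quadFormMinus (d - 1) F a b) W) ↔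
      H39.OE.IsoT QT (Orth.qfMinus (d - 1) F a b) W := by
    intro W
    rw [H39.OE.isoT_iff hT hTd]
    constructor
    · rintro ⟨h1, h2, h3⟩
      exact ⟨by omega, H39.OE.nondegOn_iff.mp h2, fun h => absurd (H39.OE.plusOn_iff.mpr h) h3, fun h => absurd (hTp.mp h) id⟩
    · rintro ⟨h1, h2, h3⟩
      exact ⟨by omega, H39.OE.nondegOn_iff.mpr h2, fun h => hTp.mp (h3.mp (H39.OE.plusOn_iff.mp h))⟩
  by_cases hr2 : r = 2
  · subst hr2
    by_cases hp2 : p = 2
    · subst hp2
      constructor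
      · intro hfix
        left
        refine ⟨rfl, rfl, ?_⟩
        by_contra hcon
        push Not at hcon
        obtain ⟨c1, c2⟩ := hcon
        obtain ⟨k, hk⟩ := Nat.not_even_iff_odd.mp (by simpa using c1)
        obtain ⟨g, g1, g2, g3, g4⟩ := H39.OE.exists_bad_minus (F := F) (e := d - 1) (by omega) ⟨k, by omega⟩ hab
        obtain ⟨W, hW, hinv⟩ := hfix g g1 ⟨1, g2⟩ g3
        exact hW.2.2 (H39.OE.plusOn_iff.mpr (g4 W (H39.OE.nondegOn_iff.mp hW.2.1) hinv (by rw [hW.1]; omega)))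
      · rintro (⟨-, -, h⟩ | ⟨-, h, -⟩ | ⟨h, -⟩ | ⟨h, -⟩)
        · rintro x x1 ⟨z, hz⟩ x3
          have hxi := H99.isom_of_mem_omegaGL x1
          have hxz := H39.OE.toLin_sq hz
          have hzz : z * z = 1 := H39.OE.scalar_sq hQ (by omega) (fun v => by rw [← hxz]; exact (hxi _).trans (hxi _))
          have hz1 := H99.scalar_eq_one_of_isom (F := F) (V := F) (by rw [pow_two]; exact hzz)
          subst hz1
          obtain ⟨W, w1, w2, w3⟩ := H39.OE.exists_two_minus hQ hfd hxi (fun v => by rw [hxz, one_smul]) hPTQ (m := m) ⟨m', hm'⟩ (by omega) (by omega) h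
          refine ⟨W, (hP W).mpr ((H39.OE.isoT_iff hT hTd).mpr ⟨by omega, w1.nd, fun h => absurd h w3, fun h => absurd h hTt⟩), ?_⟩
          rintro _ ⟨v, hv, rfl⟩
          exact w1.inv v hv
        · exact absurd rfl h
        · exact absurd rfl h
        · exact absurd rfl h
    · have hpo : Odd p := hppr.odd_of_ne_two hp2
      have hodd : Odd (Fintype.card F) := by
        obtain ⟨n, hn⟩ := FiniteField.card F p
        rw [hn.2]
        exact hpo.pow
      obtain ⟨-, h2⟩ := H99.odd_char (F := F) (p := p) hodd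
      obtain ⟨s1, s2⟩ := H39.OE.sq_facts (F := F) hodd
      obtain ⟨l, hl⟩ := hodd
      have h3 := H39.OE.two_crit h2 (Q := Orth.qfMinus (d - 1) F a b) hQ hfd (by rw [hfd]; omega) hT hTm (by omega) (by omega) hP
      refine Iff.trans h3 ?_
      rw [s1, s2]
      constructor
      · intro h
        right; left
        refine ⟨rfl, hp2, ?_⟩
        by_contra hcon
        push Not at hcon
        obtain ⟨c1, c2, c3⟩ := hcon
        have c1' : ¬ Even d := c1
        obtain ⟨k', hk', h4⟩ := h ⟨Or.inl (Or.inr c2), fun h => absurd h hPTQ, fun h => by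
          exfalso
          rcases h with h | h
          · omega
          · exact c1' h⟩
        have h5 : ¬ (Fintype.card F % 4 = 1 ∨ Even k') := fun h6 => hTt (h4.mpr h6)
        apply c3
        have h6 : ¬ Even k' := fun h7 => h5 (Or.inr h7)
        obtain ⟨t, ht⟩ := Nat.not_even_iff_odd.mp h6
        omega
      · rintro (⟨-, h4, -⟩ | ⟨-, -, h4⟩ | ⟨-, h4, -⟩ | ⟨-, h4, -⟩)
        · exact absurd h4 hp2
        · rintro ⟨h6, h7⟩
          have h8 : ¬ (Fintype.card F % 4 = 1 ∨ Even d) := fun h => hPTQ (h7.mpr h)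
          have h9 : ¬ Even d := fun h => h8 (Or.inr h)
          have h10 : Fintype.card F % 4 ≠ 1 := fun h => h8 (Or.inl h)
          have h11 := h6.resolve_right h9
          rcases h4 with h4 | h4 | h4
          · exact absurd h4 h9
          · omega
          · refine ⟨m / 2, by omega, fun h => absurd h hTt, fun h => ?_⟩
            exfalso
            rcases h with h | ⟨t, ht⟩
            · exact h10 h
            · omega
        · omega
        · omega
  · have hr3 : 2 < r := by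
      have := hrpr.two_le
      omega
    have hrp : r ≠ p := hr.resolve_left hr2
    have h3 := H39.OE.trans_scalar (Q := Orth.qfMinus (d - 1) F a b) hQ (by rw [hfd]; omega) hr2 hP
    obtain ⟨h4, h5⟩ := H39.OE.criterion (p := p) hr2 hrp hQ hT (Or.inr ⟨⟨d, by rw [hfd]; ring⟩, ⟨m', by omega⟩⟩) (Or.inl ⟨d, by rw [hfd]; ring⟩) (by omega) (by omega)
      (by rw [Nat.card_congr (Equiv.subtypeEquivRight hP)] at hrΩ; exact hrΩ)
    refine Iff.trans (h3.trans h4) ?_
    have hcb := H39.OE.blk_eq (F := F) hi hc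
    have hcE := H99.even_blk r (Fintype.card F)
    have hcpos := H39.OE.blk_pos (F := F) (p := p) hrp
    rw [hcb] at h5 hcE hcpos ⊢
    rw [← hi, hfd, hTm] at h5 ⊢
    have e1 := H39.OE.even_mod (a := m) ⟨m', hm'⟩ hcE
    have e2 := H39.OE.even_mod (a := 2 * d) ⟨d, by ring⟩ hcE
    have e3 := H39.OE.even_sub_iff (c := c) (m := m) (n := 2 * d) (by omega)
    have e4 := H39.OE.div_add_eq' (c := c) (m := m) (n := 2 * d) hcpos
    have e5 : Even m := ⟨m', hm'⟩
    have e6 : Even (2 * d) := ⟨d, by ring⟩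
    rcases Nat.even_or_odd i with he | ho
    · have hci : c = i := by rw [hc, if_pos he]
      have hno : ¬ Odd i := Nat.not_odd_iff_even.mpr he
      rw [← hci] at hno h5 ⊢
      have hce : Even c := by rw [hci]; exact he
      constructor
      · intro h
        have hcm := h5 h
        right; right; right
        refine ⟨hrp, hr3, hce, ?_⟩
        rcases h with ⟨g1, g2⟩ | ⟨g1, g2, g3, g4⟩ | ⟨g1, g2, g3, g4⟩
        · left
          refine ⟨g1, Or.inl ?_⟩
          by_contra h6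
          exact g2 ⟨fun h => absurd h hPTQ, fun h => absurd h (fun h => h.elim hno h6)⟩
        · left
          refine ⟨g1, Or.inr ⟨g3, ?_⟩⟩
          rw [← Nat.not_even_iff_odd]
          intro h6
          exact hTt (g4.mpr (Or.inr h6))
        · right
          refine ⟨g1, hcm, ?_⟩
          by_cases h6 : m % c = 0
          · right; left
            refine ⟨h6, ?_⟩
            rw [← Nat.not_even_iff_odd]
            intro h7
            exact hTt ((g3 h6).mpr (Or.inr h7))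
          · by_cases h7 : m % c = (2 * d) % c
            · right; right
              refine ⟨h7, ?_⟩
              rw [e4 h7, ← e3]
              by_contra h8
              exact hPTQ ((g4 h7 e6 e5).mpr ⟨fun h => absurd h hTt, fun h => absurd h (fun h => h.elim hno h8)⟩)
            · left
              exact ⟨by omega, by omega⟩
      · rintro (⟨h, -⟩ | ⟨h, -⟩ | ⟨-, -, h, -⟩ | ⟨-, -, -, h⟩)
        · exact absurd h hr2
        · exact absurd h hr2
        · exact absurd h hno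
        · rcases h with ⟨g1, g2 | ⟨g2, g3⟩⟩ | ⟨g0, g1, ⟨g2, g3⟩ | ⟨g2, g3⟩ | ⟨g2, g3⟩⟩
          · left
            exact ⟨g1, fun h => hPTQ (h.mpr (Or.inr g2))⟩
          · by_cases h6 : Even (2 * d / c)
            · left
              exact ⟨g1, fun h => hPTQ (h.mpr (Or.inr h6))⟩
            · right; left
              refine ⟨g1, ⟨fun h => absurd h hPTQ, fun h => absurd h (fun h => h.elim hno h6)⟩, g2, fun h => absurd h hTt, fun h => ?_⟩
              exact absurd h (fun h => h.elim hno (Nat.not_even_iff_odd.mpr g3))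
          · right; right
            exact ⟨by omega, by omega, fun h => by omega, fun h => by omega⟩
          · right; right
            refine ⟨by omega, by omega, fun _ => ⟨fun h => absurd h hTt, fun h => ?_⟩, fun h => by omega⟩
            exact absurd h (fun h => h.elim hno (Nat.not_even_iff_odd.mpr g3))
          · right; right
            refine ⟨by omega, by omega, fun h => by omega, fun _ _ _ => ?_⟩
            rw [e4 g2, ← e3] at g3
            exact ⟨fun h => absurd h hPTQ, fun h => absurd (h.mpr (Or.inr g3)) hTt⟩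
    · constructor
      · intro h
        have hcm := h5 h
        right; right; left
        refine ⟨hrp, hr3, ho, ?_⟩
        rcases h with ⟨g1, g2⟩ | ⟨g1, g2, g3, g4⟩ | ⟨g1, g2, g3, g4⟩
        · exact Or.inl g1
        · exact Or.inl g1
        · right
          have h6 : m % c ≠ 0 := fun h6 => hTt ((g3 h6).mpr (Or.inl ho))
          exact ⟨hcm, by omega, by omega⟩
      · rintro (⟨h, -⟩ | ⟨h, -⟩ | ⟨-, -, -, g1 | ⟨g1, g2, g3⟩⟩ | ⟨-, -, h, -⟩)
        · exact absurd h hr2
        · exact absurd h hr2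
        · left
          exact ⟨g1, fun h => hPTQ (h.mpr (Or.inl ho))⟩
        · right; right
          exact ⟨by omega, by omega, fun h => by omega, fun _ _ _ => ⟨fun h => absurd h hPTQ, fun h => absurd (h.mpr (Or.inl ho)) hTt⟩⟩
        · exact absurd h (Nat.not_even_iff_odd.mpr ho)

end Cfsg.Agent.S5990
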