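import Cfsg.Statements.S5991
import Cfsg.Agent.H39.OE17

set_option autoImplicit false
open scoped MatrixGroups
open Cfsg

namespace Cfsg.Agent.S5991

/-- Elements of prime order of PΩ⁻_n(q), q odd, with no fixed nondegenerate `m`-space of odd dimension. Here `T = PΩ⁻_n(F)`, `n = 2d ≥ 8`, realised through `Ω⁻_n(q)`, the commutator subgroup of the isometry group of `Q = Σ_{i<d−1} xᵢyᵢ + z₁² + a z₁z₂ + b z₂²` with `z₁² + a z₁z₂ + b z₂²` anisotropic, over the field `F` with `q` elements; an element of `T` of prime order `r` is an element `x` of `Ω⁻_n(q)` with `x^r` scalar and `x` not scalar; `q` and `m` are odd, `1 ≤ m < n/2`. The nondegenerate `m`-spaces fall into two isometry classes, each an orbit of `T`, with equivalent actions; fix one such space `W₀` and let Ω be the set of nondegenerate `m`-spaces isometric to `W₀`. Let `r` be a prime dividing the size of Ω; for `r ≠ p` let `i` be the multiplicative order of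 `q` modulo `r`, `c = i` for `i` even and `c = 2i` for `i` odd, and write `k = n mod c`, `ℓ = m mod i`, `ℓ' = m mod c`, `n' = ⌊n/i⌋`, `m' = ⌊m/i⌋`, `t = (r−1)/i`. Then every element of `T` of order `r` fixes a member of Ω if and only if one of: (i) `r = 2` and (`n ≡ 0 (mod 4)` or `q ≢ 7 (mod 8)`); (ii) `r ≠ p` odd, `i` odd, and `k = 0` or (`c ≤ m` and `k > ℓ' > 0`); (iii) `r ≠ p` odd, `i` even, and either `k = 0` and `n/i` even, or `k > 0`, `i ≤ m` and `k > ℓ' > 0`. (For `r = p` there is always an element of order `p` fixing no member of Ω.) -/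
theorem result {F : Type*} [Field F] [Fintype F] {p : ℕ} [Fact p.Prime] [CharP F p] {q : ℕ} (hq : Fintype.card F = q)
    (hodd : Odd q) (d m : ℕ) (hd : 4 ≤ d) (hm : Odd m) (hmd : m < d) (a b : F) (hab : ∀ x y : F, x ^ 2 + a * x * y + b * y ^ 2 = 0 → x = 0 ∧ y = 0)
    (W₀ : Submodule F ((Fin (d - 1) ⊕ Fin (d - 1)) ⊕ Fin 2 → F)) (hW₀ : Module.finrank F ↥W₀ = m ∧ Cfsg.Geo.IsNondegenerateOn (QuadraticMap.polar (Cfsg.quadFormMinus (d - 1) F a b)) W₀)
    (r : ℕ) [Fact r.Prime]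
    (hrΩ : r ∣ Nat.card {W : Submodule F ((Fin (d - 1) ⊕ Fin (d - 1)) ⊕ Fin 2 → F) // Module.finrank F ↥W = m ∧ Cfsg.Geo.IsNondegenerateOn (QuadraticMap.polar (Cfsg.quadFormMinus (d - 1) F a b)) W ∧ Cfsg.Geo.AreIsometricFor (Cfsg.quadFormMinus (d - 1) F a b) W W₀})
    (i c : ℕ) (hi : i = orderOf (q : ZMod r)) (hc : c = if Even i then i else 2 * i) :
    (∀ x : GL ((Fin (d - 1) ⊕ Fin (d - 1)) ⊕ Fin 2) F, x ∈ Cfsg.Geo.omegaGL (Cfsg.quadFormMinus (d - 1) F a b) →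
      (∃ z : F, ((x ^ r : GL ((Fin (d - 1) ⊕ Fin (d - 1)) ⊕ Fin 2) F) : Matrix ((Fin (d - 1) ⊕ Fin (d - 1)) ⊕ Fin 2) ((Fin (d - 1) ⊕ Fin (d - 1)) ⊕ Fin 2) F) = z • (1 : Matrix ((Fin (d - 1) ⊕ Fin (d - 1)) ⊕ Fin 2) ((Fin (d - 1) ⊕ Fin (d - 1)) ⊕ Fin 2) F)) →
      (∀ z : F, (x : Matrix ((Fin (d - 1) ⊕ Fin (d - 1)) ⊕ Fin 2) ((Fin (d - 1) ⊕ Fin (d - 1)) ⊕ Fin 2) F) ≠ z • (1 : Matrix ((Fin (d - 1) ⊕ Fin (d - 1)) ⊕ Fin 2) ((Fin (d - 1) ⊕ Fin (d - 1)) ⊕ Fin 2) F)) →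
      ∃ W : Submodule F ((Fin (d - 1) ⊕ Fin (d - 1)) ⊕ Fin 2 → F), (Module.finrank F ↥W = m ∧ Cfsg.Geo.IsNondegenerateOn (QuadraticMap.polar (Cfsg.quadFormMinus (d - 1) F a b)) W ∧ Cfsg.Geo.AreIsometricFor (Cfsg.quadFormMinus (d - 1) F a b) W W₀) ∧ W.map (Matrix.toLin' (x : Matrix ((Fin (d - 1) ⊕ Fin (d - 1)) ⊕ Fin 2) ((Fin (d - 1) ⊕ Fin (d - 1)) ⊕ Fin 2) F)) ≤ W) ↔
    ((r = 2 ∧ (Even d ∨ q % 8 ≠ 7)) ∨
     (r ≠ p ∧ 2 < r ∧ Odd i ∧ ((2 * d) % c = 0 ∨ (c ≤ m ∧ 0 < m % c ∧ m % c < (2 * d) % c))) ∨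
     (r ≠ p ∧ 2 < r ∧ Even i ∧ (((2 * d) % c = 0 ∧ Even ((2 * d) / i)) ∨ (0 < (2 * d) % c ∧ i ≤ m ∧ 0 < m % c ∧ m % c < (2 * d) % c)))) := by
  classical
  subst hq
  have hrpr : r.Prime := Fact.out
  obtain ⟨hpo, h2⟩ := H99.odd_char (F := F) (p := p) hodd
  have hQ := Orth.qfMinus_nondegenerate (d - 1) F (Orth.disc_ne_zero_of_aniso hab)
  have hfd : Module.finrank F ((Fin (d - 1) ⊕ Fin (d - 1)) ⊕ Fin 2 → F) = 2 * d := Orth.finrank_Vm (by omega)
  have hPTQ : ¬ H39.OE.PT (Orth.qfMinus (d - 1) F a b) ⊤ := by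
    rw [H39.OE.not_pt_iff hfd]
    exact fun U hU => Orth.TS_lt_minus (m := d) (by omega) hab U hU
  have hN0 : H39.OE.Nd (Orth.qfMinus (d - 1) F a b) W₀ := H39.OE.nondegOn_iff.mp hW₀.2
  have hT := H39.OE.nd_restrict hN0
  have hTd : Module.finrank F W₀ = m := hW₀.1
  have hP : ∀ W : Submodule F ((Fin (d - 1) ⊕ Fin (d - 1)) ⊕ Fin 2 → F), (Module.finrank F ↥W = m ∧ Cfsg.Geo.IsNondegenerateOn (QuadraticMap.polar (Cfsg.quadFormMinus (d - 1) F a b)) W ∧ Cfsg.Geo.AreIsometricFor (Cfsg.quadFormMinus (d - 1) F a b) W W₀) ↔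
      H39.OE.IsoT ((Orth.qfMinus (d - 1) F a b).restrict W₀) (Orth.qfMinus (d - 1) F a b) W := fun W => H39.OE.isoT_sub (Q := Orth.qfMinus (d - 1) F a b) hW₀ W
  obtain ⟨s1, s2⟩ := H39.OE.sq_facts (F := F) hodd
  obtain ⟨l, hl⟩ := hm
  by_cases hr2 : r = 2
  · subst hr2
    have h3 := H39.OE.two_crit h2 (Q := Orth.qfMinus (d - 1) F a b) hQ hfd (by rw [hfd]; omega) hT hTd (by omega) (by omega) hP
    refine Iff.trans h3 ?_
    rw [s1, s2]
    obtain ⟨w, hw⟩ := hodd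
    constructor
    · intro h
      left
      refine ⟨rfl, ?_⟩
      by_contra hcon
      push Not at hcon
      obtain ⟨c1, c2⟩ := hcon
      have c1' : ¬ Even d := c1
      obtain ⟨k', hk', -⟩ := h ⟨Or.inl (Or.inr c2), fun h => absurd h hPTQ, fun h => by
        exfalso
        rcases h with h | h
        · omega
        · exact c1' h⟩
      omega
    · rintro (⟨-, h4⟩ | ⟨-, h4, -⟩ | ⟨-, h4, -⟩)
      · rintro ⟨h6, h7⟩
        exfalso
        have h8 : ¬ (Fintype.card F % 4 = 1 ∨ Even d) := fun h => hPTQ (h7.mpr h)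
        have h9 : ¬ Even d := fun h => h8 (Or.inr h)
        have h10 : Fintype.card F % 4 ≠ 1 := fun h => h8 (Or.inl h)
        have h11 := h6.resolve_right h9
        have h12 := h4.resolve_left h9
        omega
      · omega
      · omega
  · have hr3 : 2 < r := by
      have := hrpr.two_le
      omega
    by_cases hrp : r = p
    · subst hrp
      constructor
      · intro hfix
        exfalso
        rcases Nat.even_or_odd d with hde | hdo
        · obtain ⟨g, g1, g2, g3, g4⟩ := H39.OE.unip_even_odd (p := r) h2 hpo hQ hfd hde hd (m := m) ⟨l, hl⟩ hN0 hTd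
          obtain ⟨W, hW, hinv⟩ := hfix g g1 ⟨1, g2⟩ g3
          exact g4 W ((hP W).mp hW) hinv
        · obtain ⟨g, g1, g2, g3, g4⟩ := H39.OE.unip_odd_odd (p := r) h2 hpo hQ hfd hdo hd (m := m) ⟨l, hl⟩
          obtain ⟨W, hW, hinv⟩ := hfix g g1 ⟨1, g2⟩ g3
          exact g4 W (H39.OE.nondegOn_iff.mp hW.2.1) hinv hW.1
      · rintro (⟨h, -⟩ | ⟨h, -⟩ | ⟨h, -⟩)
        · exact absurd h hr2
        · exact absurd rfl h
        · exact absurd rfl h
    have h3 := H39.OE.trans_scalar (Q := Orth.qfMinus (d - 1) F a b) hQ (by rw [hfd]; omega) hr2 hP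
    obtain ⟨h4, h5⟩ := H39.OE.criterion (p := p) hr2 hrp hQ hT (Or.inl h2) (Or.inl ⟨d, by rw [hfd]; ring⟩) (by omega) (by omega)
      (by rw [Nat.card_congr (Equiv.subtypeEquivRight hP)] at hrΩ; exact hrΩ)
    refine Iff.trans (h3.trans h4) ?_
    have hcb := H39.OE.blk_eq (F := F) hi hc
    have hcE := H99.even_blk r (Fintype.card F)
    rw [hcb] at h5 hcE ⊢
    rw [← hi, hfd, hTd] at h5 ⊢
    have e1 := H39.OE.odd_mod (a := m) ⟨l, hl⟩ hcE
    have e2 := H39.OE.even_mod (a := 2 * d) ⟨d, by ring⟩ hcE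
    have e3 : ¬ Even m := by rw [Nat.not_even_iff_odd]; exact ⟨l, hl⟩
    constructor
    · intro h
      have hcm := h5 h
      rcases h with ⟨g1, g2⟩ | ⟨g1, g2, g3, -⟩ | ⟨g1, g2, g3, -⟩
      · right
        rcases Nat.even_or_odd i with he | ho
        · right
          have hci : c = i := by rw [hc, if_pos he]
          refine ⟨hrp, hr3, he, Or.inl ⟨g1, ?_⟩⟩
          rw [← hci]
          by_contra h6
          exact g2 ⟨fun h => absurd h hPTQ, fun h => absurd h (fun h => h.elim (Nat.not_odd_iff_even.mpr he) h6)⟩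
        · left
          exact ⟨hrp, hr3, ho, Or.inl g1⟩
      · omega
      · right
        rcases Nat.even_or_odd i with he | ho
        · right
          have hci : c = i := by rw [hc, if_pos he]
          exact ⟨hrp, hr3, he, Or.inr ⟨by omega, by omega, by omega, by omega⟩⟩
        · left
          exact ⟨hrp, hr3, ho, Or.inr ⟨hcm, by omega, by omega⟩⟩
    · rintro (⟨h, -⟩ | ⟨-, -, ho, g1 | ⟨g1, g2, g3⟩⟩ | ⟨-, -, he, ⟨g1, g2⟩ | ⟨g0, g1, g2, g3⟩⟩)
      · exact absurd h hr2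
      · left
        exact ⟨g1, fun h => hPTQ (h.mpr (Or.inl ho))⟩
      · right; right
        exact ⟨by omega, by omega, fun h => by omega, fun _ _ h => absurd h e3⟩
      · left
        have hci : c = i := by rw [hc, if_pos he]
        rw [← hci] at g2
        exact ⟨g1, fun h => hPTQ (h.mpr (Or.inr g2))⟩
      · right; right
        exact ⟨by omega, by omega, fun h => by omega, fun _ _ h => absurd h e3⟩

end Cfsg.Agent.S5991
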