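import Cfsg.Statements.S5992
import Cfsg.Agent.H39.OE8

set_option autoImplicit false
open scoped MatrixGroups
open Cfsg

namespace Cfsg.Agent.S5992

/-- Elements of prime order r ≠ p of Ω_n(q), nq odd, with no fixed hyperbolic `m`-space. Here `T = Ω_n(F)`, `n = 2d+1 ≥ 7`, `q` odd, realised as the commutator subgroup of the isometry group of `Q = x₀² + Σ xᵢyᵢ` over the field `F` with `q` elements (trivial centre, so its elements of prime order `r` are used directly); a nondegenerate `m`-space (even `m`) is a subspace on which the polar form of `Q` is nondegenerate; it is hyperbolic if it contains an `m/2`-dimensional subspace on which `Q` vanishes, elliptic otherwise. Let `m` be even with `2 ≤ m ≤ n − 1` (no restriction `m < n/2`) and let `r ≠ p` be a prime dividing the number of hyperbolic `m`-spaces; for `r ≠ p` let `i` be the multiplicative order of `q` modulo `r`, `c = i` for `i` even and `c = 2i` for `i` odd, and write `k = n mod c`, `ℓ' = m mod c`. Then every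 element of `T` of order `r` fixes some hyperbolic `m`-space if and only if `r = 2`, or `r` is odd and one of: (i) `i` odd, `c ≤ m` and either `k > ℓ' > 0` or `ℓ' = 0`; (ii) `i` even, `i ≤ m`, `k > ℓ'`, and `m/i` even whenever `ℓ' = 0`. (`r = p` is not covered by this statement.) -/
theorem result {F : Type*} [Field F] [Fintype F] {p : ℕ} [Fact p.Prime] [CharP F p] {q : ℕ} (hq : Fintype.card F = q) (hqodd : Odd q)
    (d m : ℕ) (hd : 3 ≤ d) (hm : 2 ≤ m) (hme : Even m) (hmn : m ≤ 2 * d)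
    (r : ℕ) [Fact r.Prime] (hrp : r ≠ p)
    (hrΩ : r ∣ Nat.card {W : Submodule F (Unit ⊕ (Fin d ⊕ Fin d) → F) // Module.finrank F ↥W = m ∧ Cfsg.Geo.IsNondegenerateOn (QuadraticMap.polar (Cfsg.quadFormOdd d F)) W ∧ Cfsg.Geo.IsPlusTypeOn (Cfsg.quadFormOdd d F) W})
    (i c : ℕ) (hi : i = orderOf (q : ZMod r)) (hc : c = if Even i then i else 2 * i) :
    (∀ x : GL (Unit ⊕ (Fin d ⊕ Fin d)) F, x ∈ Cfsg.Geo.omegaGL (Cfsg.quadFormOdd d F) → orderOf x = r →
      ∃ W : Submodule F (Unit ⊕ (Fin d ⊕ Fin d) → F), (Module.finrank F ↥W = m ∧ Cfsg.Geo.IsNondegenerateOn (QuadraticMap.polar (Cfsg.quadFormOdd d F)) W ∧ Cfsg.Geo.IsPlusTypeOn (Cfsg.quadFormOdd d F) W) ∧ W.map (Matrix.toLin' (x : Matrix (Unit ⊕ (Fin d ⊕ Fin d)) (Unit ⊕ (Fin d ⊕ Fin d)) F)) ≤ W) ↔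
    (r = 2 ∨
     (2 < r ∧ Odd i ∧ c ≤ m ∧ (m % c = 0 ∨ (0 < m % c ∧ m % c < (2 * d + 1) % c))) ∨
     (2 < r ∧ Even i ∧ i ≤ m ∧ m % c < (2 * d + 1) % c ∧ (0 < m % c ∨ Even (m / i)))) := by
  classical
  subst hq
  have hrpr : r.Prime := Fact.out
  obtain ⟨hpo, h2⟩ := H99.odd_char (F := F) (p := p) hqodd
  have hQ := Orth.qfOdd_nondegenerate d F h2
  have hfd := H39.OE.finrank_odd (F := F) d
  obtain ⟨m', hm'⟩ := hme
  obtain ⟨ι', _, _, QT, hT, hTd, hTt⟩ := H39.OE.exists_model (F := F) (m := m') (by omega) True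
  have hP : ∀ W : Submodule F (Unit ⊕ (Fin d ⊕ Fin d) → F), (Module.finrank F ↥W = m ∧ Cfsg.Geo.IsNondegenerateOn (QuadraticMap.polar (Cfsg.quadFormOdd d F)) W ∧ Cfsg.Geo.IsPlusTypeOn (Cfsg.quadFormOdd d F) W) ↔
      H39.OE.IsoT QT (Orth.qfOdd d F) W := by
    intro W
    rw [H39.OE.isoT_iff hT hTd, ← Orth.coe_qfOdd, H39.OE.nondegOn_iff, H39.OE.plusOn_iff, hTt]
    simp only [iff_true]
    rw [hm', ← two_mul]
  by_cases hr2 : r = 2
  · refine ⟨fun _ => Or.inl hr2, fun _ x hx hx2 => ?_⟩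
    exact H39.OE.exists_of_fx hP (H39.OE.invol_odd h2 hQ hfd hT (m := m) (by omega) (by omega) hmn hx (by rw [hx2, hr2]))
  · have h3 := H39.OE.trans_order (Q := Orth.qfOdd d F) hQ (by rw [hfd]; omega) hr2 hP
    have hr3 : 2 < r := by
      have := hrpr.two_le
      omega
    obtain ⟨h4, h5⟩ := H39.OE.criterion (p := p) hr2 hrp hQ hT (Or.inl h2) (Or.inr ⟨m', by rw [hTd]; ring⟩) (by omega) (by omega)
      (by rw [Nat.card_congr (Equiv.subtypeEquivRight hP)] at hrΩ; exact hrΩ)
    refine Iff.trans (h3.trans h4) ?_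
    have hcb : H99.blk r (Fintype.card F) = c := by
      rw [hc, hi]
      rfl
    have hcE := H99.even_blk r (Fintype.card F)
    rw [hcb] at h5 hcE ⊢
    have hmm : 2 * m' = m := by omega
    rw [← hi, hfd, hTd, hmm] at h5 ⊢
    have e1 := H39.OE.even_mod (a := m) ⟨m', hm'⟩ hcE
    have e2 := H39.OE.odd_mod (a := 2 * d + 1) ⟨d, rfl⟩ hcE
    have e3 : ¬ Even (2 * d + 1) := by rw [Nat.not_even_iff_odd]; exact ⟨d, rfl⟩
    constructor
    · intro h
      have hcm := h5 h
      rcases h with ⟨g1, -⟩ | ⟨g1, -⟩ | ⟨g1, g2, g3, -⟩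
      · omega
      · omega
      · right
        rcases Nat.even_or_odd i with he | ho
        · right
          have hci : c = i := by rw [hc, if_pos he]
          refine ⟨hr3, he, by omega, by omega, ?_⟩
          rcases Nat.eq_zero_or_pos (m % c) with h0 | h0
          · right
            rw [← hci]
            exact ((g3 h0).mp (hTt.mpr trivial)).resolve_left (Nat.not_odd_iff_even.mpr he)
          · exact Or.inl h0
        · left
          refine ⟨hr3, ho, hcm, ?_⟩
          omega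
    · rintro (h | ⟨-, ho, g1, g2⟩ | ⟨-, he, g1, g2, g3⟩)
      · exact absurd h hr2
      · right; right
        refine ⟨by omega, by omega, fun _ => ⟨fun _ => Or.inl ho, fun _ => hTt.mpr trivial⟩, fun _ h => absurd h e3⟩
      · right; right
        have hci : c = i := by rw [hc, if_pos he]
        refine ⟨by omega, by omega, fun h0 => ⟨fun _ => Or.inr ?_, fun _ => hTt.mpr trivial⟩, fun _ h => absurd h e3⟩
        rw [hci]
        exact g3.resolve_left (by omega)

end Cfsg.Agent.S5992
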