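import Cfsg.Statements.S5993
import Cfsg.Agent.H39.OE8

set_option autoImplicit false
open scoped MatrixGroups
open Cfsg

namespace Cfsg.Agent.S5993

/-- Elements of prime order of Ω_n(q), nq odd, with no fixed elliptic `m`-space. Here `T = Ω_n(F)`, `n = 2d+1 ≥ 7`, `q` odd, realised as the commutator subgroup of the isometry group of `Q = x₀² + Σ xᵢyᵢ` over the field `F` with `q` elements (trivial centre, so its elements of prime order `r` are used directly); a nondegenerate `m`-space (even `m`) is a subspace on which the polar form of `Q` is nondegenerate; it is hyperbolic if it contains an `m/2`-dimensional subspace on which `Q` vanishes, elliptic otherwise. Let `m` be even with `2 ≤ m ≤ n − 1` (no restriction `m < n/2`) and let `r` be a prime dividing the number of elliptic `m`-spaces; for `r ≠ p` let `i` be the multiplicative order of `q` modulo `r`, `c = i` for `i` even and `c = 2i` for `i` odd, and write `k = n mod c`, `ℓ' = m mod c`. Then every element of `T` of order `r` fixes some elliptic `m`-space if and only if `r = 2`, or `r ≠ p` is odd and one of: (i) `i` odd, `c ≤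 m` and `k > ℓ' > 0`; (ii) `i` even, `i ≤ m`, `k > ℓ'`, and `m/i` odd whenever `ℓ' = 0`. (For `r = p` there is always an element of order `p` fixing no elliptic `m`-space.) -/
theorem result {F : Type*} [Field F] [Fintype F] {p : ℕ} [Fact p.Prime] [CharP F p] {q : ℕ} (hq : Fintype.card F = q) (hqodd : Odd q)
    (d m : ℕ) (hd : 3 ≤ d) (hm : 2 ≤ m) (hme : Even m) (hmn : m ≤ 2 * d)
    (r : ℕ) [Fact r.Prime]
    (hrΩ : r ∣ Nat.card {W : Submodule F (Unit ⊕ (Fin d ⊕ Fin d) → F) // Module.finrank F ↥W = m ∧ Cfsg.Geo.IsNondegenerateOn (QuadraticMap.polar (Cfsg.quadFormOdd d F)) W ∧ ¬ Cfsg.Geo.IsPlusTypeOn (Cfsg.quadFormOdd d F) W})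
    (i c : ℕ) (hi : i = orderOf (q : ZMod r)) (hc : c = if Even i then i else 2 * i) :
    (∀ x : GL (Unit ⊕ (Fin d ⊕ Fin d)) F, x ∈ Cfsg.Geo.omegaGL (Cfsg.quadFormOdd d F) → orderOf x = r →
      ∃ W : Submodule F (Unit ⊕ (Fin d ⊕ Fin d) → F), (Module.finrank F ↥W = m ∧ Cfsg.Geo.IsNondegenerateOn (QuadraticMap.polar (Cfsg.quadFormOdd d F)) W ∧ ¬ Cfsg.Geo.IsPlusTypeOn (Cfsg.quadFormOdd d F) W) ∧ W.map (Matrix.toLin' (x : Matrix (Unit ⊕ (Fin d ⊕ Fin d)) (Unit ⊕ (Fin d ⊕ Fin d)) F)) ≤ W) ↔
    (r = 2 ∨
     (r ≠ p ∧ 2 < r ∧ Odd i ∧ c ≤ m ∧ 0 < m % c ∧ m % c < (2 * d + 1) % c) ∨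
     (r ≠ p ∧ 2 < r ∧ Even i ∧ i ≤ m ∧ m % c < (2 * d + 1) % c ∧ (0 < m % c ∨ Odd (m / i)))) := by
  classical
  subst hq
  have hrpr : r.Prime := Fact.out
  obtain ⟨hpo, h2⟩ := H99.odd_char (F := F) (p := p) hqodd
  have hQ := Orth.qfOdd_nondegenerate d F h2
  have hfd := H39.OE.finrank_odd (F := F) d
  obtain ⟨m', hm'⟩ := hme
  obtain ⟨ι', _, _, QT, hT, hTd, hTt⟩ := H39.OE.exists_model (F := F) (m := m') (by omega) False
  have hP : ∀ W : Submodule F (Unit ⊕ (Fin d ⊕ Fin d) → F), (Module.finrank F ↥W = m ∧ Cfsg.Geo.IsNondegenerateOn (QuadraticMap.polar (Cfsg.quadFormOdd d F)) W ∧ ¬ Cfsg.Geo.IsPlusTypeOn (Cfsg.quadFormOdd d F) W) ↔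
      H39.OE.IsoT QT (Orth.qfOdd d F) W := by
    intro W
    rw [H39.OE.isoT_iff hT hTd, ← Orth.coe_qfOdd, H39.OE.nondegOn_iff, H39.OE.plusOn_iff, hTt]
    simp only [iff_false]
    rw [hm', ← two_mul]
  have hnT : ¬ H39.OE.PT QT ⊤ := fun h => hTt.mp h
  by_cases hr2 : r = 2
  · refine ⟨fun _ => Or.inl hr2, fun _ x hx hx2 => ?_⟩
    exact H39.OE.exists_of_fx hP (H39.OE.invol_odd h2 hQ hfd hT (m := m) (by omega) (by omega) hmn hx (by rw [hx2, hr2]))
  · have hr3 : 2 < r := by
      have := hrpr.two_le
      omega
    by_cases hrp : r = p
    · subst hrp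
      constructor
      · intro hfix
        exfalso
        obtain ⟨x, hx1, hx2, hx3⟩ := H99.exists_orth_jordan h2 hQ (if Even d then Multiset.replicate d 2 + {1} else Multiset.replicate (d - 1) 2 + {3}) (by
            intro a ha
            split_ifs at ha
            · rcases Multiset.mem_add.mp ha with h | h
              · rw [Multiset.eq_of_mem_replicate h]; omega
              · rw [Multiset.mem_singleton.mp h]; omega
            · rcases Multiset.mem_add.mp ha with h | h
              · rw [Multiset.eq_of_mem_replicate h]; omega
              · rw [Multiset.mem_singleton.mp h]; omega) (by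
            intro e he
            split_ifs with hde
            · rw [Multiset.count_add, Multiset.count_replicate, Multiset.count_singleton]
              have h3 : e ≠ 1 := by rintro rfl; exact absurd he (by decide)
              rw [if_neg h3, add_zero]
              split_ifs
              · exact hde
              · exact Even.zero
            · rw [Multiset.count_add, Multiset.count_replicate, Multiset.count_singleton]
              have h3 : e ≠ 3 := by rintro rfl; exact absurd he (by decide)
              rw [if_neg h3, add_zero]
              rw [Nat.not_even_iff_odd] at hde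
              split_ifs
              · obtain ⟨k, hk⟩ := hde
                exact ⟨k, by omega⟩
              · exact Even.zero) (by
            rw [hfd]
            split_ifs
            · rw [Multiset.sum_add, Multiset.sum_replicate, Multiset.sum_singleton, smul_eq_mul]; ring
            · rw [Multiset.sum_add, Multiset.sum_replicate, Multiset.sum_singleton, smul_eq_mul]; omega) (P := r) (by
            intro a ha
            split_ifs at ha
            · rcases Multiset.mem_add.mp ha with h | h
              · rw [Multiset.eq_of_mem_replicate h]; omega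
              · rw [Multiset.mem_singleton.mp h]; omega
            · rcases Multiset.mem_add.mp ha with h | h
              · rw [Multiset.eq_of_mem_replicate h]; omega
              · rw [Multiset.mem_singleton.mp h]; omega) (by
            split_ifs
            · exact ⟨1, by simp, odd_one⟩
            · exact ⟨3, by simp, by decide⟩)
        have hinj := Orth.injective_of_isom hQ hx1
        have hxp := fun u v => Orth.polar_of_isom (Q := Orth.qfOdd d F) (Q' := Orth.qfOdd d F) (f := x) hx1 u v
        obtain ⟨g, hg1, hg2, hg3, hg4, hg5⟩ := H99.exists_omega_elt h2 hQ (by rw [hfd]; omega) hpo hx1 hx2 hx3 (by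
          refine ⟨2, ?_, by omega⟩
          split_ifs
          · exact Multiset.mem_add.mpr (Or.inl (Multiset.mem_replicate.mpr ⟨by omega, rfl⟩))
          · exact Multiset.mem_add.mpr (Or.inl (Multiset.mem_replicate.mpr ⟨by omega, rfl⟩)))
        obtain ⟨W, ⟨w1, w2, w3⟩, w4⟩ := hfix g hg1 (orderOf_eq_prime hg2 hg3)
        rw [hg5] at w4
        have hWN : H99.ND (fun u v => QuadraticMap.polar (Orth.qfOdd d F) u v) W := H39.OE.nondegOn_iff.mp w2
        obtain ⟨ν, n1, n2, n3⟩ := H99.exists_sub_type h2 (H99.polar_eform _) (H99.ND_polar hQ) hinj hxp hx2 hx3 (fun v hv => w4 ⟨v, hv, rfl⟩) hWN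
        have hev : ∀ a ∈ ν, Even a := by
          by_contra hcon
          push Not at hcon
          obtain ⟨a, ha, hao⟩ := hcon
          have h3 := n3.finrank_eq
          have hle := Multiset.le_iff_count.mp n1
          have hsub := Multiset.subset_of_le n1
          split_ifs at n1 hle hsub with hde
          · have h4 := H99.sum_count_of_le n1 {1, 2} (by
              intro e he
              rcases Multiset.mem_add.mp he with he | he
              · rw [Multiset.eq_of_mem_replicate he]; simp
              · rw [Multiset.mem_singleton.mp he]; simp)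
            rw [Finset.sum_pair (by norm_num)] at h4
            have h5 := hle 1
            rw [Multiset.count_add, Multiset.count_replicate, Multiset.count_singleton, if_neg (by norm_num), if_pos rfl] at h5
            have h6 : a = 1 := by
              rcases Multiset.mem_add.mp (hsub ha) with he | he
              · rw [Multiset.eq_of_mem_replicate he] at hao
                exact absurd even_two hao
              · exact Multiset.mem_singleton.mp he
            rw [h6, ← Multiset.count_pos] at ha
            omega
          · have h4 := H99.sum_count_of_le n1 {3, 2} (by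
              intro e he
              rcases Multiset.mem_add.mp he with he | he
              · rw [Multiset.eq_of_mem_replicate he]; simp
              · rw [Multiset.mem_singleton.mp he]; simp)
            rw [Finset.sum_pair (by norm_num)] at h4
            have h5 := hle 3
            rw [Multiset.count_add, Multiset.count_replicate, Multiset.count_singleton, if_neg (by norm_num), if_pos rfl] at h5
            have h6 : a = 3 := by
              rcases Multiset.mem_add.mp (hsub ha) with he | he
              · rw [Multiset.eq_of_mem_replicate he] at hao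
                exact absurd even_two hao
              · exact Multiset.mem_singleton.mp he
            rw [h6, ← Multiset.count_pos] at ha
            omega
        obtain ⟨L, l1, l2, l3⟩ := H99.exists_ts_half h2 (H99.polar_eform _) hinj hxp hx2 _ W ν (fun v hv => w4 ⟨v, hv, rfl⟩) hWN n3 hev rfl
        apply w3
        refine ⟨L, l1, ?_, l3⟩
        intro u hu
        have h3 : QuadraticMap.polar (Orth.qfOdd d F) u u = 0 := l2 u hu u hu
        rw [Orth.pself] at h3
        exact (mul_eq_zero.mp h3).resolve_left h2
      · rintro (h | ⟨h, -⟩ | ⟨h, -⟩)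
        · exact absurd h hr2
        · exact absurd rfl h
        · exact absurd rfl h
    have h3 := H39.OE.trans_order (Q := Orth.qfOdd d F) hQ (by rw [hfd]; omega) hr2 hP
    obtain ⟨h4, h5⟩ := H39.OE.criterion (p := p) hr2 hrp hQ hT (Or.inl h2) (Or.inr ⟨m', by rw [hTd]; ring⟩) (by omega) (by omega)
      (by rw [Nat.card_congr (Equiv.subtypeEquivRight hP)] at hrΩ; exact hrΩ)
    refine Iff.trans (h3.trans h4) ?_
    have hcb : H99.blk r (Fintype.card F) = c := by
      rw [hc, hi]
      rfl
    have hcE := H99.even_blk r (Fintype.card F)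
    rw [hcb] at h5 hcE ⊢
    have hmm : 2 * m' = m := by omega
    rw [← hi, hfd, hTd, hmm] at h5 ⊢
    have e1 := H39.OE.even_mod (a := m) ⟨m', hm'⟩ hcE
    have e2 := H39.OE.odd_mod (a := 2 * d + 1) ⟨d, rfl⟩ hcE
    have e3 : ¬ Even (2 * d + 1) := by rw [Nat.not_even_iff_odd]; exact ⟨d, rfl⟩
    constructor
    · intro h
      have hcm := h5 h
      rcases h with ⟨g1, -⟩ | ⟨g1, -⟩ | ⟨g1, g2, g3, -⟩
      · omega
      · omega
      · right
        rcases Nat.even_or_odd i with he | ho
        · right
          have hci : c = i := by rw [hc, if_pos he]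
          refine ⟨hrp, hr3, he, by omega, by omega, ?_⟩
          rcases Nat.eq_zero_or_pos (m % c) with h0 | h0
          · right
            rw [← hci, ← Nat.not_even_iff_odd]
            intro h1
            exact hnT ((g3 h0).mpr (Or.inr h1))
          · exact Or.inl h0
        · left
          refine ⟨hrp, hr3, ho, hcm, ?_, by omega⟩
          by_contra h0
          exact hnT ((g3 (by omega)).mpr (Or.inl ho))
    · rintro (h | ⟨-, -, ho, g1, g2, g3⟩ | ⟨-, -, he, g1, g2, g3⟩)
      · exact absurd h hr2
      · right; right
        exact ⟨by omega, by omega, fun h => by omega, fun _ h => absurd h e3⟩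
      · right; right
        have hci : c = i := by rw [hc, if_pos he]
        refine ⟨by omega, by omega, fun h0 => ⟨fun h => absurd h hnT, ?_⟩, fun _ h => absurd h e3⟩
        rw [hci]
        rintro (h | h)
        · exact absurd h (Nat.not_odd_iff_even.mpr he)
        · exact absurd h (Nat.not_even_iff_odd.mpr (g3.resolve_left (by omega)))

end Cfsg.Agent.S5993
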