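import Cfsg.Statements.S5994
import Cfsg.Agent.H99.OrthUnip

set_option autoImplicit false
open scoped MatrixGroups
open Cfsg

namespace Cfsg.Agent.S5994

open Module Matrix Polynomial
open QuadraticMap (polar polarBilin)


/-- A necessary condition for every element of order p of PΩ⁻_n(q), q odd, to fix an elliptic `m`-space. Here `T = PΩ⁻_n(F)`, `n = 2d ≥ 8`, realised through `Ω⁻_n(q)`, the commutator subgroup of the isometry group of `Q = Σ_{i<d−1} xᵢyᵢ + z₁² + a z₁z₂ + b z₂²` with `z₁² + a z₁z₂ + b z₂²` anisotropic, over the field `F` with `q` elements; an element of `T` of prime order `r` is an element `x` of `Ω⁻_n(q)` with `x^r` scalar and `x` not scalar; `q` is odd; a nondegenerate `m`-space (even `m`) is a subspace on which the polar form of `Q` is nondegenerate; it is hyperbolic if it contains an `m/2`-dimensional subspace on which `Q` vanishes, elliptic otherwise. Let `m` be even with `2 ≤ m ≤ n − 2` and suppose `p` divides the number of elliptic `m`-spaces. If every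 element of `T` of order `p` fixes some elliptic `m`-space, then `n ≡ m (mod 4)` and every partition of `n` into parts of size at most `p` in which every even part has even multiplicity contains (as a sub-multiset) a partition of `m` in which every even part has even multiplicity. -/
theorem result {F : Type*} [Field F] [Fintype F] {p : ℕ} [Fact p.Prime] [CharP F p] {q : ℕ} (hq : Fintype.card F = q) (hqodd : Odd q)
    (d m : ℕ) (hd : 4 ≤ d) (hm : 2 ≤ m) (hme : Even m) (hmn : m + 2 ≤ 2 * d) (a b : F) (hab : ∀ x y : F, x ^ 2 + a * x * y + b * y ^ 2 = 0 → x = 0 ∧ y = 0)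
    (hpΩ : p ∣ Nat.card {W : Submodule F ((Fin (d - 1) ⊕ Fin (d - 1)) ⊕ Fin 2 → F) // Module.finrank F ↥W = m ∧ Cfsg.Geo.IsNondegenerateOn (QuadraticMap.polar (Cfsg.quadFormMinus (d - 1) F a b)) W ∧ ¬ Cfsg.Geo.IsPlusTypeOn (Cfsg.quadFormMinus (d - 1) F a b) W}) :
    (∀ x : GL ((Fin (d - 1) ⊕ Fin (d - 1)) ⊕ Fin 2) F, x ∈ Cfsg.Geo.omegaGL (Cfsg.quadFormMinus (d - 1) F a b) →
      (∃ z : F, ((x ^ p : GL ((Fin (d - 1) ⊕ Fin (d - 1)) ⊕ Fin 2) F) : Matrix ((Fin (d - 1) ⊕ Fin (d - 1)) ⊕ Fin 2) ((Fin (d - 1) ⊕ Fin (d - 1)) ⊕ Fin 2) F) = z • (1 : Matrix ((Fin (d - 1) ⊕ Fin (d - 1)) ⊕ Fin 2) ((Fin (d - 1) ⊕ Fin (d - 1)) ⊕ Fin 2) F)) →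
      (∀ z : F, (x : Matrix ((Fin (d - 1) ⊕ Fin (d - 1)) ⊕ Fin 2) ((Fin (d - 1) ⊕ Fin (d - 1)) ⊕ Fin 2) F) ≠ z • (1 : Matrix ((Fin (d - 1) ⊕ Fin (d - 1)) ⊕ Fin 2) ((Fin (d - 1) ⊕ Fin (d - 1)) ⊕ Fin 2) F)) →
      ∃ W : Submodule F ((Fin (d - 1) ⊕ Fin (d - 1)) ⊕ Fin 2 → F), (Module.finrank F ↥W = m ∧ Cfsg.Geo.IsNondegenerateOn (QuadraticMap.polar (Cfsg.quadFormMinus (d - 1) F a b)) W ∧ ¬ Cfsg.Geo.IsPlusTypeOn (Cfsg.quadFormMinus (d - 1) F a b) W) ∧ W.map (Matrix.toLin' (x : Matrix ((Fin (d - 1) ⊕ Fin (d - 1)) ⊕ Fin 2) ((Fin (d - 1) ⊕ Fin (d - 1)) ⊕ Fin 2) F)) ≤ W) →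
    ((2 * d) % 4 = m % 4 ∧ (∀ μ : Multiset ℕ, (∀ e ∈ μ, 0 < e ∧ e ≤ p) → (∀ e : ℕ, Even e → Even (μ.count e)) → μ.sum = 2 * d →
        ∃ ν : Multiset ℕ, ν ≤ μ ∧ ν.sum = m ∧ ∀ e : ℕ, Even e → Even (ν.count e))) := by
  classical
  subst hq
  intro hfix
  have hp : p.Prime := Fact.out
  obtain ⟨hpo, h2⟩ := H99.odd_char (F := F) (p := p) hqodd
  have hp3 : 3 ≤ p := by
    have := hp.two_le
    obtain ⟨k, hk⟩ := hpo
    omega
  have hQ := Orth.qfMinus_nondegenerate (d - 1) F (Orth.disc_ne_zero_of_aniso hab)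
  have hfd : finrank F ((Fin (d - 1) ⊕ Fin (d - 1)) ⊕ Fin 2 → F) = 2 * d := by
    rw [finrank_fintype_fun_eq_card, Fintype.card_sum, Fintype.card_sum, Fintype.card_fin, Fintype.card_fin]
    omega
  -- types with an odd part
  have key : ∀ μ : Multiset ℕ, (∀ e ∈ μ, 0 < e ∧ e ≤ p) → (∀ e : ℕ, Even e → Even (μ.count e)) → μ.sum = 2 * d → (∃ e ∈ μ, Odd e) → (∃ e ∈ μ, e ≠ 1) →
        ∃ ν : Multiset ℕ, ν ≤ μ ∧ ν.sum = m ∧ (∀ e : ℕ, Even e → Even (ν.count e)) ∧ ∃ e ∈ ν, Odd e := by
    intro μ hμ1 hμ2 hμ3 ho hall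
    obtain ⟨x, hx1, hx2, hx3⟩ := H99.exists_orth_jordan h2 hQ μ (fun a ha => (hμ1 a ha).1) hμ2 (by rw [hμ3, hfd]) (fun a ha => (hμ1 a ha).2) ho
    have hinj := Orth.injective_of_isom hQ hx1
    have hxp := fun u v => Orth.polar_of_isom (Q := Orth.qfMinus (d - 1) F a b) (Q' := Orth.qfMinus (d - 1) F a b) (f := x) hx1 u v
    obtain ⟨g, hg1, hg2, hg3, hg4, hg5⟩ := H99.exists_omega_elt h2 hQ (by rw [hfd]; omega) hpo hx1 hx2 hx3 hall
    obtain ⟨W, ⟨w1, w2, w3⟩, w4⟩ := hfix g hg1 ⟨1, by rw [hg2, one_smul]; rfl⟩ hg4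
    rw [hg5] at w4
    have hWN : H99.ND (fun u v => polar (Orth.qfMinus (d - 1) F a b) u v) W := by
      intro u hu hu2
      by_contra hne
      obtain ⟨-, v, hv, hv2⟩ := w2 u hu hne
      exact hv2 (hu2 v hv)
    obtain ⟨ν, n1, n2, n3⟩ := H99.exists_sub_type h2 (H99.polar_eform _) (H99.ND_polar hQ) hinj hxp hx2 hx3 (fun v hv => w4 ⟨v, hv, rfl⟩) hWN
    refine ⟨ν, n1, by rw [← n3.finrank_eq, w1], n2, ?_⟩
    by_contra hcon
    push Not at hcon
    obtain ⟨L, l1, l2, l3⟩ := H99.exists_ts_half h2 (H99.polar_eform (Orth.qfMinus (d - 1) F a b)) hinj hxp hx2 _ W ν (fun v hv => w4 ⟨v, hv, rfl⟩) hWN n3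
      (fun e he => Nat.not_odd_iff_even.mp (hcon e he)) rfl
    apply w3
    refine ⟨L, l1, ?_, l3⟩
    intro v hv
    have h3 := l2 v hv v hv
    rw [Orth.pself] at h3
    exact (mul_eq_zero.mp h3).resolve_left h2
  -- the congruence
  have hcong : (2 * d) % 4 = m % 4 := by
    rcases Nat.even_or_odd d with hde | hdo
    · obtain ⟨ν, n1, n2, n3, -⟩ := key (Multiset.replicate (d - 2) 2 + {1, 3}) (by
        intro e he
        rcases Multiset.mem_add.mp he with he | he
        · rw [Multiset.eq_of_mem_replicate he]; omega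
        · rw [Multiset.insert_eq_cons, Multiset.mem_cons, Multiset.mem_singleton] at he
          rcases he with rfl | rfl <;> omega) (by
        intro e he
        have h3 : e ≠ 1 := by rintro rfl; exact absurd he (by decide)
        have h4 : e ≠ 3 := by rintro rfl; exact absurd he (by decide)
        rw [Multiset.count_add, Multiset.count_replicate, Multiset.insert_eq_cons, Multiset.count_cons, Multiset.count_singleton, if_neg h3, if_neg h4, add_zero, add_zero]
        split_ifs
        · obtain ⟨k, hk⟩ := hde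
          exact ⟨k - 1, by omega⟩
        · exact Even.zero) (by
        rw [Multiset.sum_add, Multiset.sum_replicate, Multiset.insert_eq_cons, Multiset.sum_cons, Multiset.sum_singleton, smul_eq_mul]; omega)
        ⟨1, Multiset.mem_add.mpr (Or.inr (by simp)), odd_one⟩ ⟨3, Multiset.mem_add.mpr (Or.inr (by simp)), by norm_num⟩
      have h3 := H99.sum_count_of_le n1 {1, 3, 2} (by
        intro e he
        rcases Multiset.mem_add.mp he with he | he
        · rw [Multiset.eq_of_mem_replicate he]; simp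
        · rw [Multiset.insert_eq_cons, Multiset.mem_cons, Multiset.mem_singleton] at he
          rcases he with rfl | rfl <;> simp)
      rw [Finset.sum_insert (by simp), Finset.sum_pair (by norm_num)] at h3
      have h4 := (Multiset.le_iff_count.mp n1) 1
      have h5 := (Multiset.le_iff_count.mp n1) 3
      rw [Multiset.count_add, Multiset.count_replicate, Multiset.insert_eq_cons, Multiset.count_cons, Multiset.count_singleton, if_neg (by norm_num), if_neg (by norm_num), if_pos rfl] at h4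
      rw [Multiset.count_add, Multiset.count_replicate, Multiset.insert_eq_cons, Multiset.count_cons, Multiset.count_singleton, if_neg (by norm_num), if_pos rfl, if_neg (by norm_num)] at h5
      obtain ⟨k, hk⟩ := n3 2 even_two
      obtain ⟨l, hl⟩ := hme
      obtain ⟨j, hj⟩ := hde
      have h6 : ν.count 3 = 0 ∨ ν.count 3 = 1 := by omega
      have h7 : ν.count 1 = 0 ∨ ν.count 1 = 1 := by omega
      rcases h6 with h6 | h6 <;> rcases h7 with h7 | h7 <;> rw [h6, h7] at h3 <;> omega
    · obtain ⟨ν, n1, n2, n3, e, he, heo⟩ := key (Multiset.replicate (d - 1) 2 + {1, 1}) (by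
        intro e he
        rcases Multiset.mem_add.mp he with he | he
        · rw [Multiset.eq_of_mem_replicate he]; omega
        · rw [Multiset.insert_eq_cons, Multiset.mem_cons, Multiset.mem_singleton] at he
          rcases he with rfl | rfl <;> omega) (by
        intro e he
        have h3 : e ≠ 1 := by rintro rfl; exact absurd he (by decide)
        rw [Multiset.count_add, Multiset.count_replicate, Multiset.insert_eq_cons, Multiset.count_cons, Multiset.count_singleton, if_neg h3, add_zero, add_zero]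
        split_ifs
        · obtain ⟨k, hk⟩ := hdo
          exact ⟨k, by omega⟩
        · exact Even.zero) (by
        rw [Multiset.sum_add, Multiset.sum_replicate, Multiset.insert_eq_cons, Multiset.sum_cons, Multiset.sum_singleton, smul_eq_mul]; omega)
        ⟨1, Multiset.mem_add.mpr (Or.inr (by simp)), odd_one⟩ ⟨2, Multiset.mem_add.mpr (Or.inl (by rw [Multiset.mem_replicate]; omega)), by norm_num⟩
      have h3 := H99.sum_count_of_le n1 {1, 2} (by
        intro e he
        rcases Multiset.mem_add.mp he with he | he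
        · rw [Multiset.eq_of_mem_replicate he]; simp
        · rw [Multiset.insert_eq_cons, Multiset.mem_cons, Multiset.mem_singleton] at he
          rcases he with rfl | rfl <;> simp)
      rw [Finset.sum_pair (by norm_num)] at h3
      have h4 := (Multiset.le_iff_count.mp n1) 1
      rw [Multiset.count_add, Multiset.count_replicate, Multiset.insert_eq_cons, Multiset.count_cons, Multiset.count_singleton, if_neg (by norm_num), if_pos rfl] at h4
      have h5 : e = 1 := by
        have h6 := Multiset.mem_of_le n1 he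
        rcases Multiset.mem_add.mp h6 with h6 | h6
        · rw [Multiset.eq_of_mem_replicate h6] at heo
          exact absurd heo (by decide)
        · rw [Multiset.insert_eq_cons, Multiset.mem_cons, Multiset.mem_singleton] at h6
          rcases h6 with h6 | h6 <;> exact h6
      have h6 : 0 < ν.count 1 := Multiset.count_pos.mpr (h5 ▸ he)
      obtain ⟨k, hk⟩ := n3 2 even_two
      obtain ⟨l, hl⟩ := hme
      obtain ⟨j, hj⟩ := hdo
      omega
  have key2 : ∀ μ : Multiset ℕ, (∀ e ∈ μ, 0 < e ∧ e ≤ p) → (∀ e : ℕ, Even e → Even (μ.count e)) → μ.sum = 2 * d → (∃ e ∈ μ, Odd e) →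
        ∃ ν : Multiset ℕ, ν ≤ μ ∧ ν.sum = m ∧ (∀ e : ℕ, Even e → Even (ν.count e)) := by
    intro μ hμ1 hμ2 hμ3 ho
    by_cases hall : ∀ a ∈ μ, a = 1
    · refine ⟨Multiset.replicate m 1, ?_, by rw [Multiset.sum_replicate, smul_eq_mul, mul_one], ?_⟩
      · rw [← Multiset.le_count_iff_replicate_le]
        have h1 := Multiset.eq_replicate_of_mem hall
        rw [h1, Multiset.sum_replicate, smul_eq_mul, mul_one] at hμ3
        rw [h1, Multiset.count_replicate_self, hμ3]
        omega
      · intro a _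
        rw [Multiset.count_replicate]
        split_ifs
        · exact hme
        · exact Even.zero
    · push Not at hall
      obtain ⟨ν, n1, n2, n3, -⟩ := key μ hμ1 hμ2 hμ3 ho hall
      exact ⟨ν, n1, n2, n3⟩
  refine ⟨hcong, ?_⟩
  intro μ hμ1 hμ2 hμ3
  by_cases ho : ∃ e ∈ μ, Odd e
  · exact key2 μ hμ1 hμ2 hμ3 ho
  · push Not at ho
    apply H99.exists_sub_of_swap hpo hme hμ1 hμ2 (fun e he => Nat.not_odd_iff_even.mp (ho e he))
    · rintro rfl
      rw [Multiset.sum_zero] at hμ3
      omega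
    · intro ρ h3 h4 h5 h6
      exact key2 ρ h3 h4 (h5.trans hμ3) h6


end Cfsg.Agent.S5994
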