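import Cfsg.Statements.S5995
import Cfsg.Agent.H99.OrthUnip

set_option autoImplicit false
open scoped MatrixGroups
open Cfsg

namespace Cfsg.Agent.S5995

open Module Matrix Polynomial
open QuadraticMap (polar polarBilin)


/-- A necessary condition for every element of order p of Ω_n(q), nq odd, to fix a hyperbolic `m`-space. Here `T = Ω_n(F)`, `n = 2d+1 ≥ 7`, `q` odd, realised as the commutator subgroup of the isometry group of `Q = x₀² + Σ xᵢyᵢ` over the field `F` with `q` elements (trivial centre, so its elements of prime order `r` are used directly); a nondegenerate `m`-space (even `m`) is a subspace on which the polar form of `Q` is nondegenerate; it is hyperbolic if it contains an `m/2`-dimensional subspace on which `Q` vanishes, elliptic otherwise. Let `m` be even with `2 ≤ m ≤ n − 1` and suppose `p` divides the number of hyperbolic `m`-spaces. If every element of `T` of order `p` fixes some hyperbolic `m`-space, then `m ≡ 0 (mod 4)` and every partition of `n` into parts of size at most `p` in which every even part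 has even multiplicity contains (as a sub-multiset) a partition of `m` in which every even part has even multiplicity. -/
theorem result {F : Type*} [Field F] [Fintype F] {p : ℕ} [Fact p.Prime] [CharP F p] {q : ℕ} (hq : Fintype.card F = q) (hqodd : Odd q)
    (d m : ℕ) (hd : 3 ≤ d) (hm : 2 ≤ m) (hme : Even m) (hmn : m ≤ 2 * d)
    (hpΩ : p ∣ Nat.card {W : Submodule F (Unit ⊕ (Fin d ⊕ Fin d) → F) // Module.finrank F ↥W = m ∧ Cfsg.Geo.IsNondegenerateOn (QuadraticMap.polar (Cfsg.quadFormOdd d F)) W ∧ Cfsg.Geo.IsPlusTypeOn (Cfsg.quadFormOdd d F) W}) :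
    (∀ x : GL (Unit ⊕ (Fin d ⊕ Fin d)) F, x ∈ Cfsg.Geo.omegaGL (Cfsg.quadFormOdd d F) → orderOf x = p →
      ∃ W : Submodule F (Unit ⊕ (Fin d ⊕ Fin d) → F), (Module.finrank F ↥W = m ∧ Cfsg.Geo.IsNondegenerateOn (QuadraticMap.polar (Cfsg.quadFormOdd d F)) W ∧ Cfsg.Geo.IsPlusTypeOn (Cfsg.quadFormOdd d F) W) ∧ W.map (Matrix.toLin' (x : Matrix (Unit ⊕ (Fin d ⊕ Fin d)) (Unit ⊕ (Fin d ⊕ Fin d)) F)) ≤ W) →
    (m % 4 = 0 ∧ (∀ μ : Multiset ℕ, (∀ e ∈ μ, 0 < e ∧ e ≤ p) → (∀ e : ℕ, Even e → Even (μ.count e)) → μ.sum = 2 * d + 1 →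
        ∃ ν : Multiset ℕ, ν ≤ μ ∧ ν.sum = m ∧ ∀ e : ℕ, Even e → Even (ν.count e))) := by
  classical
  subst hq
  intro hfix
  have hp : p.Prime := Fact.out
  obtain ⟨hpo, h2⟩ := H99.odd_char (F := F) (p := p) hqodd
  have hp3 : 3 ≤ p := by
    have := hp.two_le
    obtain ⟨k, hk⟩ := hpo
    omega
  have hQ := Orth.qfOdd_nondegenerate d F h2
  have hfd : finrank F (Unit ⊕ (Fin d ⊕ Fin d) → F) = 2 * d + 1 := by
    rw [finrank_fintype_fun_eq_card, Fintype.card_sum, Fintype.card_sum, Fintype.card_fin, Fintype.card_unit]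
    ring
  have key : ∀ μ : Multiset ℕ, (∀ e ∈ μ, 0 < e ∧ e ≤ p) → (∀ e : ℕ, Even e → Even (μ.count e)) → μ.sum = 2 * d + 1 →
        ∃ ν : Multiset ℕ, ν ≤ μ ∧ ν.sum = m ∧ ∀ e : ℕ, Even e → Even (ν.count e) := by
    intro μ hμ1 hμ2 hμ3
    by_cases hall : ∀ a ∈ μ, a = 1
    · refine ⟨Multiset.replicate m 1, ?_, by rw [Multiset.sum_replicate, smul_eq_mul, mul_one], ?_⟩
      · rw [← Multiset.le_count_iff_replicate_le]
        have h1 := Multiset.eq_replicate_of_mem hall
        rw [h1, Multiset.sum_replicate, smul_eq_mul, mul_one] at hμ3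
        rw [h1, Multiset.count_replicate_self, hμ3]
        omega
      · intro a _
        rw [Multiset.count_replicate]
        split_ifs
        · exact hme
        · exact Even.zero
    · push Not at hall
      have ho : ∃ a ∈ μ, Odd a := by
        by_contra hcon
        push Not at hcon
        have h3 : Even μ.sum := by
          rw [even_iff_two_dvd]
          apply Multiset.dvd_sum
          intro e he
          exact even_iff_two_dvd.mp (Nat.not_odd_iff_even.mp (hcon e he))
        obtain ⟨k, hk⟩ := h3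
        omega
      obtain ⟨x, hx1, hx2, hx3⟩ := H99.exists_orth_jordan h2 hQ μ (fun a ha => (hμ1 a ha).1) hμ2 (by rw [hμ3, hfd]) (fun a ha => (hμ1 a ha).2) ho
      have hinj := Orth.injective_of_isom hQ hx1
      have hxp := fun u v => Orth.polar_of_isom (Q := Orth.qfOdd d F) (Q' := Orth.qfOdd d F) (f := x) hx1 u v
      obtain ⟨g, hg1, hg2, hg3, hg4, hg5⟩ := H99.exists_omega_elt h2 hQ (by rw [hfd]; omega) hpo hx1 hx2 hx3 hall
      obtain ⟨W, ⟨w1, w2, w3⟩, w4⟩ := hfix g hg1 (orderOf_eq_prime hg2 hg3)
      rw [hg5] at w4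
      have hWN : H99.ND (fun u v => polar (Orth.qfOdd d F) u v) W := by
        intro u hu hu2
        by_contra hne
        obtain ⟨-, v, hv, hv2⟩ := w2 u hu hne
        exact hv2 (hu2 v hv)
      obtain ⟨ν, n1, n2, n3⟩ := H99.exists_sub_type h2 (H99.polar_eform _) (H99.ND_polar hQ) hinj hxp hx2 hx3 (fun v hv => w4 ⟨v, hv, rfl⟩) hWN
      exact ⟨ν, n1, by rw [← n3.finrank_eq, w1], n2⟩
  refine ⟨?_, key⟩
  rcases Nat.even_or_odd d with hde | hdo
  · obtain ⟨ν, n1, n2, n3⟩ := key (Multiset.replicate d 2 + {1}) (by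
      intro e he
      rcases Multiset.mem_add.mp he with he | he
      · rw [Multiset.eq_of_mem_replicate he]; omega
      · rw [Multiset.mem_singleton.mp he]; omega) (by
      intro e he
      rw [Multiset.count_add, Multiset.count_replicate, Multiset.count_singleton]
      have h3 : e ≠ 1 := by rintro rfl; exact absurd he (by decide)
      rw [if_neg h3, add_zero]
      split_ifs
      · exact hde
      · exact Even.zero) (by rw [Multiset.sum_add, Multiset.sum_replicate, Multiset.sum_singleton, smul_eq_mul]; ring)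
    have h3 := H99.sum_count_of_le n1 {1, 2} (by
      intro e he
      rcases Multiset.mem_add.mp he with he | he
      · rw [Multiset.eq_of_mem_replicate he]; simp
      · rw [Multiset.mem_singleton.mp he]; simp)
    rw [Finset.sum_pair (by norm_num)] at h3
    have h4 := (Multiset.le_iff_count.mp n1) 1
    rw [Multiset.count_add, Multiset.count_replicate, Multiset.count_singleton, if_neg (by norm_num), if_pos rfl] at h4
    obtain ⟨k, hk⟩ := n3 2 even_two
    obtain ⟨l, hl⟩ := hme
    omega
  · obtain ⟨ν, n1, n2, n3⟩ := key (Multiset.replicate (d - 1) 2 + {3}) (by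
      intro e he
      rcases Multiset.mem_add.mp he with he | he
      · rw [Multiset.eq_of_mem_replicate he]; omega
      · rw [Multiset.mem_singleton.mp he]; omega) (by
      intro e he
      rw [Multiset.count_add, Multiset.count_replicate, Multiset.count_singleton]
      have h3 : e ≠ 3 := by rintro rfl; exact absurd he (by decide)
      rw [if_neg h3, add_zero]
      split_ifs
      · obtain ⟨k, hk⟩ := hdo
        exact ⟨k, by omega⟩
      · exact Even.zero) (by rw [Multiset.sum_add, Multiset.sum_replicate, Multiset.sum_singleton, smul_eq_mul]; omega)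
    have h3 := H99.sum_count_of_le n1 {3, 2} (by
      intro e he
      rcases Multiset.mem_add.mp he with he | he
      · rw [Multiset.eq_of_mem_replicate he]; simp
      · rw [Multiset.mem_singleton.mp he]; simp)
    rw [Finset.sum_pair (by norm_num)] at h3
    have h4 := (Multiset.le_iff_count.mp n1) 3
    rw [Multiset.count_add, Multiset.count_replicate, Multiset.count_singleton, if_neg (by norm_num), if_pos rfl] at h4
    obtain ⟨k, hk⟩ := n3 2 even_two
    obtain ⟨l, hl⟩ := hme
    omega


end Cfsg.Agent.S5995
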