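import Cfsg.Statements.S5996
import Cfsg.Agent.H99.OrthUnip

set_option autoImplicit false
open scoped MatrixGroups
open Cfsg

namespace Cfsg.Agent.S5996

open Module Matrix Polynomial
open QuadraticMap (polar polarBilin)


/-- A necessary condition for every element of order p of PΩ⁺_n(q), q odd, to fix a hyperbolic `m`-space. Here `T = PΩ⁺_n(F)`, `n = 2d ≥ 8`, realised through `Ω⁺_n(q)`, the commutator subgroup of the isometry group of `Q = Σ xᵢyᵢ` over the field `F` with `q` elements; an element of `T` of prime order `r` is an element `x` of `Ω⁺_n(q)` with `x^r` scalar and `x` not scalar; `q` is odd; a nondegenerate `m`-space (even `m`) is a subspace on which the polar form of `Q` is nondegenerate; it is hyperbolic if it contains an `m/2`-dimensional subspace on which `Q` vanishes, elliptic otherwise. Let `m` be even with `2 ≤ m < n/2` and suppose `p` divides the number of hyperbolic `m`-spaces. If every element of `T` of order `p` fixes some hyperbolic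 `m`-space, then every partition of `n` into parts of size at most `p` in which every even part has even multiplicity contains (as a sub-multiset) a partition of `m` in which every even part has even multiplicity. -/
theorem result {F : Type*} [Field F] [Fintype F] {p : ℕ} [Fact p.Prime] [CharP F p] {q : ℕ} (hq : Fintype.card F = q) (hqodd : Odd q)
    (d m : ℕ) (hd : 4 ≤ d) (hm : 2 ≤ m) (hme : Even m) (hmd : m < d)
    (hpΩ : p ∣ Nat.card {W : Submodule F (Fin d ⊕ Fin d → F) // Module.finrank F ↥W = m ∧ Cfsg.Geo.IsNondegenerateOn (QuadraticMap.polar (Cfsg.quadFormPlus d F)) W ∧ Cfsg.Geo.IsPlusTypeOn (Cfsg.quadFormPlus d F) W}) :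
    (∀ x : GL (Fin d ⊕ Fin d) F, x ∈ Cfsg.Geo.omegaGL (Cfsg.quadFormPlus d F) →
      (∃ z : F, ((x ^ p : GL (Fin d ⊕ Fin d) F) : Matrix (Fin d ⊕ Fin d) (Fin d ⊕ Fin d) F) = z • (1 : Matrix (Fin d ⊕ Fin d) (Fin d ⊕ Fin d) F)) →
      (∀ z : F, (x : Matrix (Fin d ⊕ Fin d) (Fin d ⊕ Fin d) F) ≠ z • (1 : Matrix (Fin d ⊕ Fin d) (Fin d ⊕ Fin d) F)) →
      ∃ W : Submodule F (Fin d ⊕ Fin d → F), (Module.finrank F ↥W = m ∧ Cfsg.Geo.IsNondegenerateOn (QuadraticMap.polar (Cfsg.quadFormPlus d F)) W ∧ Cfsg.Geo.IsPlusTypeOn (Cfsg.quadFormPlus d F) W) ∧ W.map (Matrix.toLin' (x : Matrix (Fin d ⊕ Fin d) (Fin d ⊕ Fin d) F)) ≤ W) →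
    (∀ μ : Multiset ℕ, (∀ e ∈ μ, 0 < e ∧ e ≤ p) → (∀ e : ℕ, Even e → Even (μ.count e)) → μ.sum = 2 * d →
        ∃ ν : Multiset ℕ, ν ≤ μ ∧ ν.sum = m ∧ ∀ e : ℕ, Even e → Even (ν.count e)) := by
  classical
  subst hq
  intro hfix μ hμ1 hμ2 hμ3
  have hp : p.Prime := Fact.out
  obtain ⟨hpo, h2⟩ := H99.odd_char (F := F) (p := p) hqodd
  have hQ := Orth.qfPlus_nondegenerate d F
  have hfd : finrank F (Fin d ⊕ Fin d → F) = 2 * d := by
    rw [finrank_fintype_fun_eq_card, Fintype.card_sum, Fintype.card_fin]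
    ring
  by_cases hall : ∀ a ∈ μ, a = 1
  · refine ⟨Multiset.replicate m 1, ?_, by rw [Multiset.sum_replicate, smul_eq_mul, mul_one], ?_⟩
    · rw [← Multiset.le_count_iff_replicate_le]
      have h1 := Multiset.eq_replicate_of_mem hall
      rw [h1, Multiset.sum_replicate, smul_eq_mul, mul_one] at hμ3
      rw [h1, Multiset.count_replicate_self, hμ3]
      omega
    · intro a _
      rw [Multiset.count_replicate]
      split_ifs
      · exact hme
      · exact Even.zero
  · push Not at hall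
    have hx : ∃ x : (Fin d ⊕ Fin d → F) →ₗ[F] (Fin d ⊕ Fin d → F), (∀ v, Orth.qfPlus d F (x v) = Orth.qfPlus d F v) ∧ (x - 1) ^ p = 0 ∧ H99.JT (x - 1) ⊤ μ := by
      by_cases ho : ∃ a ∈ μ, Odd a
      · exact H99.exists_orth_jordan h2 hQ μ (fun a ha => (hμ1 a ha).1) hμ2 (by rw [hμ3, hfd]) (fun a ha => (hμ1 a ha).2) ho
      · push Not at ho
        exact H99.exists_orth_jordan_plus h2 (by omega) μ (fun a ha => (hμ1 a ha).1) hμ2 hμ3 (fun a ha => (hμ1 a ha).2) (fun a ha => Nat.not_odd_iff_even.mp (ho a ha))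
    obtain ⟨x, hx1, hx2, hx3⟩ := hx
    have hinj := Orth.injective_of_isom hQ hx1
    have hxp := fun u v => Orth.polar_of_isom (Q := Orth.qfPlus d F) (Q' := Orth.qfPlus d F) (f := x) hx1 u v
    obtain ⟨g, hg1, hg2, hg3, hg4, hg5⟩ := H99.exists_omega_elt h2 hQ (by rw [hfd]; omega) hpo hx1 hx2 hx3 hall
    obtain ⟨W, ⟨w1, w2, w3⟩, w4⟩ := hfix g hg1 ⟨1, by rw [hg2, one_smul]; rfl⟩ hg4
    rw [hg5] at w4
    have hWN : H99.ND (fun u v => polar (Orth.qfPlus d F) u v) W := by
      intro u hu hu2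
      by_contra hne
      obtain ⟨-, v, hv, hv2⟩ := w2 u hu hne
      exact hv2 (hu2 v hv)
    obtain ⟨ν, n1, n2, n3⟩ := H99.exists_sub_type h2 (H99.polar_eform _) (H99.ND_polar hQ) hinj hxp hx2 hx3 (fun v hv => w4 ⟨v, hv, rfl⟩) hWN
    exact ⟨ν, n1, by rw [← n3.finrank_eq, w1], n2⟩


end Cfsg.Agent.S5996
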