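import Cfsg.Statements.S5997
import Cfsg.Agent.H99.Dim2

set_option autoImplicit false
open scoped MatrixGroups
open Cfsg

namespace Cfsg.Agent.S5997

open Module Matrix

section
variable {F : Type*} [Field F]

/-- conclusion step: conjugating into the normalizer -/
lemma conj_into [Finite F] {R : Subgroup (GL (Fin 2) F)} (x : GL (Fin 2) F) (hx : x ∈ Cfsg.Geo.specialLinear (Fin 2) F)
    (hcs : H99.CentSurj (x : Matrix (Fin 2) (Fin 2) F))
    (hxs : ∀ z : F, (x : Matrix (Fin 2) (Fin 2) F) ≠ z • (1 : Matrix (Fin 2) (Fin 2) F))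
    (y : GL (Fin 2) F) (hy : y ∈ Cfsg.Geo.subgroupNormalizer R)
    (hys : ∀ z : F, (y : Matrix (Fin 2) (Fin 2) F) ≠ z • (1 : Matrix (Fin 2) (Fin 2) F)) (a z : F)
    (hxr : (x : Matrix (Fin 2) (Fin 2) F) * x = a • (x : Matrix (Fin 2) (Fin 2) F) + z • (1 : Matrix (Fin 2) (Fin 2) F))
    (hyr : (y : Matrix (Fin 2) (Fin 2) F) * y = a • (y : Matrix (Fin 2) (Fin 2) F) + z • (1 : Matrix (Fin 2) (Fin 2) F)) :
    ∃ g ∈ Cfsg.Geo.specialLinear (Fin 2) F, g⁻¹ * x * g ∈ Cfsg.Geo.subgroupNormalizer R := by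
  have hdet : (x : Matrix (Fin 2) (Fin 2) F).det = 1 := by
    have h1 : Matrix.GeneralLinearGroup.det x = 1 := hx
    have h2 := congrArg Units.val h1
    simpa using h2
  let X : Matrix.SpecialLinearGroup (Fin 2) F := ⟨x, hdet⟩
  have hX : (X : Matrix (Fin 2) (Fin 2) F) = x := rfl
  obtain ⟨e, he⟩ := H99.exists_conj_dim_two (Matrix.toLin' (x : Matrix (Fin 2) (Fin 2) F)) (Matrix.toLin' (y : Matrix (Fin 2) (Fin 2) F)) a z
    (fun v => by
      rw [Matrix.toLin'_apply, Matrix.toLin'_apply, Matrix.mulVec_mulVec, hxr, Matrix.add_mulVec, Matrix.smul_mulVec,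
        Matrix.smul_mulVec, Matrix.one_mulVec])
    (fun v => by
      rw [Matrix.toLin'_apply, Matrix.toLin'_apply, Matrix.mulVec_mulVec, hyr, Matrix.add_mulVec, Matrix.smul_mulVec,
        Matrix.smul_mulVec, Matrix.one_mulVec])
    (H99.not_scalar_toLin hxs) (H99.not_scalar_toLin hys)
  obtain ⟨P, hP⟩ := H99.exists_conj_mem_comap X hcs (Cfsg.Geo.subgroupNormalizer R) y hy e (fun v => he v)
  refine ⟨Matrix.SpecialLinearGroup.toGL P, ?_, ?_⟩
  · change Matrix.GeneralLinearGroup.det (Matrix.SpecialLinearGroup.toGL P) = 1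
    apply Units.ext
    simp
  · rw [Subgroup.mem_comap, map_mul, map_mul, map_inv] at hP
    have hXx : Matrix.SpecialLinearGroup.toGL X = x := Units.ext rfl
    rw [hXx] at hP
    exact hP

end

section
variable {F : Type*} [Field F] {R : Subgroup (GL (Fin 2) F)}

/-- the matrices I and J generating R -/
theorem quat_gens (hR : Nonempty (↥R ≃* QuaternionGroup 2)) :
    ∃ I J : GL (Fin 2) F, I ∈ R ∧ J ∈ R ∧
      (I : Matrix (Fin 2) (Fin 2) F) * I = -1 ∧ (J : Matrix (Fin 2) (Fin 2) F) * J = -1 ∧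
      (I : Matrix (Fin 2) (Fin 2) F) * J = -(J * I) ∧
      (∀ z : F, (I : Matrix (Fin 2) (Fin 2) F) ≠ z • (1 : Matrix (Fin 2) (Fin 2) F)) ∧
      I * J ≠ J * I ∧
      (∀ x ∈ R, ∃ i j : ℕ, x = I ^ i * J ^ j) ∧ Nat.card R = 8 := by
  obtain ⟨φ⟩ := hR
  set I : R := φ.symm (QuaternionGroup.a 1) with hI
  set J : R := φ.symm (QuaternionGroup.xa 0) with hJ
  set c : R := φ.symm (QuaternionGroup.a 2) with hc
  have hII : I * I = c := by
    rw [hI, hc, ← map_mul]; congr 1
  have hJJ : J * J = c := by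
    rw [hJ, hc, ← map_mul]; congr 1
  have hIJ : I * J = c * (J * I) := by
    rw [hI, hJ, hc, ← map_mul, ← map_mul, ← map_mul]; congr 1
  have hcc : c * c = 1 := by
    rw [hc, ← map_mul, ← map_one φ.symm]; congr 1
  have hc1 : c ≠ 1 := by
    rw [hc, ← map_one φ.symm]
    intro h
    have := φ.symm.injective h
    revert this
    decide
  have hIJne : I * J ≠ J * I := by
    intro h
    rw [hIJ] at h
    apply hc1
    have h2 : c * (J * I) = 1 * (J * I) := by rw [h, one_mul]
    exact mul_right_cancel h2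
  have hne : (I : GL (Fin 2) F) * (J : GL (Fin 2) F) ≠ (J : GL (Fin 2) F) * (I : GL (Fin 2) F) := by
    intro h
    exact hIJne (Subtype.ext h)
  have hmne : ((I : GL (Fin 2) F) : Matrix (Fin 2) (Fin 2) F) * ((J : GL (Fin 2) F) : Matrix (Fin 2) (Fin 2) F)
      ≠ ((J : GL (Fin 2) F) : Matrix (Fin 2) (Fin 2) F) * ((I : GL (Fin 2) F) : Matrix (Fin 2) (Fin 2) F) := by
    intro h
    exact hne (Units.ext h)
  -- c is scalar
  have hcI : ((I : GL (Fin 2) F) : Matrix (Fin 2) (Fin 2) F) * ((c : GL (Fin 2) F) : Matrix (Fin 2) (Fin 2) F)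
      = ((c : GL (Fin 2) F) : Matrix (Fin 2) (Fin 2) F) * ((I : GL (Fin 2) F) : Matrix (Fin 2) (Fin 2) F) := by
    have h : I * c = c * I := by rw [← hII, mul_assoc]
    have h2 := congrArg (fun t : R => ((t : GL (Fin 2) F) : Matrix (Fin 2) (Fin 2) F)) h
    exact h2
  have hcJ : ((J : GL (Fin 2) F) : Matrix (Fin 2) (Fin 2) F) * ((c : GL (Fin 2) F) : Matrix (Fin 2) (Fin 2) F)
      = ((c : GL (Fin 2) F) : Matrix (Fin 2) (Fin 2) F) * ((J : GL (Fin 2) F) : Matrix (Fin 2) (Fin 2) F) := by
    have h : J * c = c * J := by rw [← hJJ, mul_assoc]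
    have h2 := congrArg (fun t : R => ((t : GL (Fin 2) F) : Matrix (Fin 2) (Fin 2) F)) h
    exact h2
  have hcs : ∃ z : F, ((c : GL (Fin 2) F) : Matrix (Fin 2) (Fin 2) F) = z • (1 : Matrix (Fin 2) (Fin 2) F) := by
    by_contra hcon
    push Not at hcon
    exact hmne (H99.cent_comm hcon hcI hcJ)
  obtain ⟨z, hz⟩ := hcs
  have hcm : ((c : GL (Fin 2) F) : Matrix (Fin 2) (Fin 2) F) = -1 := by
    have h1 : ((c : GL (Fin 2) F) : Matrix (Fin 2) (Fin 2) F) * ((c : GL (Fin 2) F) : Matrix (Fin 2) (Fin 2) F) = 1 := by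
      have h2 := congrArg (fun t : R => ((t : GL (Fin 2) F) : Matrix (Fin 2) (Fin 2) F)) hcc
      exact h2
    rw [hz] at h1
    have h3 : z * z = 1 := by
      have h2 := congrFun (congrFun h1 0) 0
      simpa using h2
    have h4 : (z - 1) * (z + 1) = 0 := by linear_combination h3
    rcases mul_eq_zero.mp h4 with h5 | h5
    · exfalso
      apply hc1
      apply Subtype.ext
      apply Units.ext
      rw [hz, sub_eq_zero.mp h5, one_smul]
      rfl
    · rw [hz, eq_neg_of_add_eq_zero_left h5, neg_smul, one_smul]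
  refine ⟨I, J, I.2, J.2, ?_, ?_, ?_, ?_, hne, ?_, ?_⟩
  · have h2 := congrArg (fun t : R => ((t : GL (Fin 2) F) : Matrix (Fin 2) (Fin 2) F)) hII
    exact h2.trans hcm
  · have h2 := congrArg (fun t : R => ((t : GL (Fin 2) F) : Matrix (Fin 2) (Fin 2) F)) hJJ
    exact h2.trans hcm
  · have h2 := congrArg (fun t : R => ((t : GL (Fin 2) F) : Matrix (Fin 2) (Fin 2) F)) hIJ
    refine h2.trans ?_
    change ((c : GL (Fin 2) F) : Matrix (Fin 2) (Fin 2) F) * (((J : GL (Fin 2) F) : Matrix (Fin 2) (Fin 2) F) * ((I : GL (Fin 2) F) : Matrix (Fin 2) (Fin 2) F)) = _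
    rw [hcm, neg_one_mul]
  · intro z hz
    apply hmne
    rw [hz]
    simp
  · intro x hx
    have key : ∀ q : QuaternionGroup 2, ∃ i : Fin 4, ∃ j : Fin 2,
        q = (QuaternionGroup.a 1)^(i:ℕ) * (QuaternionGroup.xa 0)^(j:ℕ) := by decide
    obtain ⟨i, j, hij⟩ := key (φ ⟨x, hx⟩)
    refine ⟨i, j, ?_⟩
    have h1 : (⟨x, hx⟩ : R) = I ^ (i : ℕ) * J ^ (j : ℕ) := by
      rw [hI, hJ, ← map_pow, ← map_pow, ← map_mul, ← hij, MulEquiv.symm_apply_apply]
    have h2 := congrArg Subtype.val h1
    simpa using h2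
  · rw [Nat.card_congr φ.toEquiv, Nat.card_eq_fintype_card, QuaternionGroup.card]

end

theorem result {F : Type*} [Field F] [Fintype F] {p : ℕ} [Fact p.Prime] [CharP F p] (hF : Fintype.card F = p) (hp : 5 ≤ p)
    (R : Subgroup (GL (Fin 2) F)) (hR : Nonempty (↥R ≃* QuaternionGroup 2))
    (r : ℕ) [Fact r.Prime]
    (hΩ : r ∣ (Cfsg.Geo.subgroupNormalizer R).relIndex (Cfsg.Geo.specialLinear (Fin 2) F)) :
    (∀ x ∈ Cfsg.Geo.specialLinear (Fin 2) F, (∃ z : F, ((x ^ r : GL (Fin 2) F) : Matrix (Fin 2) (Fin 2) F) = z • (1 : Matrix (Fin 2) (Fin 2) F)) →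
      (∀ z : F, (x : Matrix (Fin 2) (Fin 2) F) ≠ z • (1 : Matrix (Fin 2) (Fin 2) F)) →
      ∃ g ∈ Cfsg.Geo.specialLinear (Fin 2) F, g⁻¹ * x * g ∈ Cfsg.Geo.subgroupNormalizer R) ↔ (r = 2 ∨ r = 3) := by
  have hrp : r.Prime := Fact.out
  have hpp : p.Prime := Fact.out
  have h2F : (2 : F) ≠ 0 := by
    intro h
    have : ((2 : ℕ) : F) = 0 := by exact_mod_cast h
    have := (CharP.cast_eq_zero_iff F p 2).mp this
    have := Nat.le_of_dvd (by norm_num) this
    omega
  have h3F : (3 : F) ≠ 0 := by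
    intro h
    have : ((3 : ℕ) : F) = 0 := by exact_mod_cast h
    have := (CharP.cast_eq_zero_iff F p 3).mp this
    have := Nat.le_of_dvd (by norm_num) this
    omega
  obtain ⟨I, J, hIR, hJR, hII, hJJ, hIJ, hIs, hne, hgen, hcard⟩ := quat_gens hR
  have hfin : Finite R := Nat.finite_of_card_ne_zero (by rw [hcard]; norm_num)
  have hdetx : ∀ x : GL (Fin 2) F, x ∈ Cfsg.Geo.specialLinear (Fin 2) F → (x : Matrix (Fin 2) (Fin 2) F).det = 1 := by
    intro x hx
    have h1 : Matrix.GeneralLinearGroup.det x = 1 := hx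
    have h2 := congrArg Units.val h1
    simpa using h2
  constructor
  · intro H
    by_contra hcon
    push Not at hcon
    obtain ⟨hr2, hr3⟩ := hcon
    have hr5 : 5 ≤ r := by
      by_contra h
      have : r = 0 ∨ r = 1 ∨ r = 2 ∨ r = 3 ∨ r = 4 := by omega
      rcases this with h | h | h | h | h <;> subst h <;> revert hrp <;> norm_num at * 
    -- an element of order r
    have hdvd : r ∣ Nat.card (Cfsg.Geo.specialLinear (Fin 2) F) := by
      refine hΩ.trans ?_
      rw [Subgroup.relIndex]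
      exact Subgroup.index_dvd_card _
    obtain ⟨⟨x, hxS⟩, hx⟩ := exists_prime_orderOf_dvd_card' r hdvd
    have hxr : x ^ r = 1 := by
      have := pow_orderOf_eq_one (⟨x, hxS⟩ : Cfsg.Geo.specialLinear (Fin 2) F)
      rw [hx] at this
      have h2 := congrArg Subtype.val this
      simpa using h2
    have hx1 : x ≠ 1 := by
      intro h
      have h2 : (⟨x, hxS⟩ : Cfsg.Geo.specialLinear (Fin 2) F) = 1 := Subtype.ext h
      rw [h2, orderOf_one] at hx
      omega
    have hxs : ∀ z : F, (x : Matrix (Fin 2) (Fin 2) F) ≠ z • (1 : Matrix (Fin 2) (Fin 2) F) := by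
      intro z hz
      have hd := hdetx x hxS
      rw [hz, Matrix.det_smul, Matrix.det_one, mul_one, Fintype.card_fin] at hd
      have h2 : x ^ 2 = 1 := by
        apply Units.ext
        rw [Units.val_pow_eq_pow_val, hz, smul_pow, hd, one_smul, one_pow]
        rfl
      have h3 : orderOf x ∣ 2 := orderOf_dvd_of_pow_eq_one h2
      have h4 : orderOf x ∣ r := orderOf_dvd_of_pow_eq_one hxr
      rcases (Nat.dvd_prime Nat.prime_two).mp h3 with h5 | h5
      · exact hx1 (orderOf_eq_one_iff.mp h5)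
      · rw [h5] at h4
        rcases (Nat.dvd_prime hrp).mp h4 with h6 | h6 <;> omega
    obtain ⟨g, hgS, hg⟩ := H x hxS ⟨1, by rw [hxr, one_smul]; rfl⟩ hxs
    set y := g⁻¹ * x * g with hy
    have hyr : y ^ r = 1 := by
      have : y = g⁻¹ * x * (g⁻¹)⁻¹ := by rw [inv_inv]
      rw [this, conj_pow, hxr]
      simp
    have hmod := H99.card_cent_modEq hg r hyr
    rw [hcard] at hmod
    -- count of fixed points
    have hcd : Nat.card {t : R // y * t = t * y} ∣ 8 := by
      have h1 : Nat.card {t : R // y * t = t * y} = Nat.card ((Subgroup.centralizer {y}).subgroupOf R) := by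
        apply Nat.card_congr
        apply Equiv.subtypeEquivRight
        intro t
        rw [Subgroup.mem_subgroupOf, Subgroup.mem_centralizer_singleton_iff]
        exact ⟨fun h => h.symm, fun h => h.symm⟩
      rw [h1, ← hcard]
      exact Subgroup.card_subgroup_dvd_card _
    have hge : 2 ≤ Nat.card {t : R // y * t = t * y} := by
      have hm1 : I * I ∈ R := R.mul_mem hIR hIR
      have hIIv : ((I * I : GL (Fin 2) F) : Matrix (Fin 2) (Fin 2) F) = -1 := hII
      have hc1' : ∀ y : GL (Fin 2) F, y * (I * I) = (I * I) * y := by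
        intro y
        apply Units.ext
        change (y : Matrix (Fin 2) (Fin 2) F) * ((I : Matrix (Fin 2) (Fin 2) F) * I) = (I : Matrix (Fin 2) (Fin 2) F) * I * y
        rw [hII, mul_neg, neg_mul, mul_one, one_mul]
      have hc1 := hc1' y
      have hne1 : (⟨⟨I * I, hm1⟩, hc1⟩ : {t : R // y * t = t * y}) ≠ ⟨⟨1, R.one_mem⟩, by simp⟩ := by
        intro h
        have h1 : I * I = 1 := congrArg (fun t : {t : R // y * t = t * y} => ((t : R) : GL (Fin 2) F)) h
        have h2 : (-1 : Matrix (Fin 2) (Fin 2) F) = 1 := by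
          rw [← hII, ← Units.val_mul, h1]; rfl
        have h3 := congrFun (congrFun h2 0) 0
        simp at h3
        apply h2F
        linear_combination -h3
      have : Nontrivial {t : R // y * t = t * y} := ⟨_, _, hne1⟩
      have := Finite.one_lt_card (α := {t : R // y * t = t * y})
      omega
    have h8 : Nat.card {t : R // y * t = t * y} = 8 := by
      set k := Nat.card {t : R // y * t = t * y} with hk
      have hk8 : k ≤ 8 := Nat.le_of_dvd (by norm_num) hcd
      have h1 : r ∣ 8 - k := (Nat.modEq_iff_dvd' hk8).mp hmod.symm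
      by_contra hne8
      have h2 : r ≤ 8 - k := Nat.le_of_dvd (by omega) h1
      have h3 : k = 2 ∨ k = 3 ∨ k = 4 ∨ k = 5 ∨ k = 6 ∨ k = 7 := by omega
      rcases h3 with h3 | h3 | h3 | h3 | h3 | h3
      · rw [h3] at h1
        have h4 : r = 6 ∨ r = 5 := by omega
        rcases h4 with h4 | h4
        · rw [h4] at hrp
          revert hrp
          norm_num
        · rw [h4] at h1
          revert h1
          norm_num
      · rw [h3] at hcd
        revert hcd
        norm_num
      all_goals omega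
    have hall : ∀ t : R, y * t = t * y := by
      have h1 : Nat.card {t : R // y * t = t * y} = Nat.card R := by rw [h8, hcard]
      have h2 : Function.Injective (Subtype.val : {t : R // y * t = t * y} → R) := Subtype.val_injective
      have h3 : Function.Bijective (Subtype.val : {t : R // y * t = t * y} → R) :=
        (Nat.bijective_iff_injective_and_card _).mpr ⟨h2, h1⟩
      intro t
      obtain ⟨⟨s, hs⟩, rfl⟩ := h3.2 t
      exact hs
    apply hne
    apply Units.ext
    rw [Units.val_mul, Units.val_mul]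
    have hys : ∀ z : F, (y : Matrix (Fin 2) (Fin 2) F) ≠ z • (1 : Matrix (Fin 2) (Fin 2) F) := by
      intro z hz
      apply hxs z
      have h1 : x = g * y * g⁻¹ := by rw [hy]; group
      rw [h1, Units.val_mul, Units.val_mul, hz, mul_smul_comm, mul_one, smul_mul_assoc, ← Units.val_mul,
        mul_inv_cancel]
      rfl
    refine H99.cent_comm hys ?_ ?_
    · have h1 := congrArg (fun t : GL (Fin 2) F => (t : Matrix (Fin 2) (Fin 2) F)) (hall ⟨I, hIR⟩)
      exact h1.symm
    · have h1 := congrArg (fun t : GL (Fin 2) F => (t : Matrix (Fin 2) (Fin 2) F)) (hall ⟨J, hJR⟩)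
      exact h1.symm
  · intro hr x hxS ⟨z, hz⟩ hxs
    rw [Units.val_pow_eq_pow_val] at hz
    have hd := hdetx x hxS
    have hCH := H99.sq_eq_trace hd
    have hz2 : z ^ 2 = 1 := by
      have h1 := congrArg Matrix.det hz
      rw [Matrix.det_pow, hd, one_pow, Matrix.det_smul, Matrix.det_one, mul_one, Fintype.card_fin] at h1
      exact h1.symm
    have hz0 : z ≠ 0 := by
      rintro rfl
      norm_num at hz2
    rcases hr with rfl | rfl
    · -- r = 2
      have h1 : (x : Matrix (Fin 2) (Fin 2) F).trace = 0 := by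
        by_contra ht
        rw [pow_two, hCH] at hz
        apply hxs ((x : Matrix (Fin 2) (Fin 2) F).trace⁻¹ * (z + 1))
        rw [mul_smul, add_smul, one_smul, ← hz, sub_add_cancel, smul_smul, inv_mul_cancel₀ ht, one_smul]
      rw [h1, zero_smul, zero_sub] at hCH
      refine conj_into x hxS (H99.centSurj_of_sq_eq (by norm_num) _ z hz0 hz) hxs I
        (Subgroup.le_normalizer hIR) hIs 0 (-1) ?_ ?_
      · rw [hCH, zero_smul, zero_add, neg_smul, one_smul]
      · rw [hII, zero_smul, zero_add, neg_smul, one_smul]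
    · -- r = 3
      set t := (x : Matrix (Fin 2) (Fin 2) F).trace with ht
      have h3 : (t ^ 2 - 1) • (x : Matrix (Fin 2) (Fin 2) F) = (z + t) • (1 : Matrix (Fin 2) (Fin 2) F) := by
        have h4 : (x : Matrix (Fin 2) (Fin 2) F) ^ 3 = (t ^ 2 - 1) • (x : Matrix (Fin 2) (Fin 2) F) - t • (1 : Matrix (Fin 2) (Fin 2) F) := by
          rw [pow_succ, pow_two, hCH, sub_mul, smul_mul_assoc, hCH, one_mul]
          module
        rw [h4] at hz
        rw [add_smul, ← hz]
        module
      have ht2 : t ^ 2 = 1 := by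
        by_contra hne2
        have hne3 : t ^ 2 - 1 ≠ 0 := sub_ne_zero.mpr hne2
        apply hxs ((t ^ 2 - 1)⁻¹ * (z + t))
        rw [mul_smul, ← h3, smul_smul, inv_mul_cancel₀ hne3, one_smul]
      set I' := (I : Matrix (Fin 2) (Fin 2) F) with hI'
      set J' := (J : Matrix (Fin 2) (Fin 2) F) with hJ'
      have hJI : J' * I' = -(I' * J') := by rw [hIJ, neg_neg]
      have hIJI : I' * J' * I' = J' := by
        rw [mul_assoc, hJI, mul_neg, ← mul_assoc, hII, neg_one_mul, neg_neg]
      have hIJJ : I' * J' * J' = -I' := by rw [mul_assoc, hJJ, mul_neg, mul_one]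
      have hIIJ : I' * (I' * J') = -J' := by rw [← mul_assoc, hII, neg_one_mul]
      have hJIJ : J' * (I' * J') = I' := by rw [← mul_assoc, hJI, neg_mul, hIJJ, neg_neg]
      have hIJIJ : I' * J' * (I' * J') = -1 := by rw [← mul_assoc, hIJI, hJJ]
      set w : Matrix (Fin 2) (Fin 2) F := 1 + I' + J' + I' * J' with hw
      have hwI : w * I' = J' * w := by
        rw [hw]
        simp only [add_mul, mul_add, one_mul, mul_one, hII, hJJ, hJI, hIJI, hJIJ]
        abel
      have hwJ : w * J' = (I' * J') * w := by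
        rw [hw]
        simp only [add_mul, mul_add, one_mul, mul_one, hII, hJJ, hJI, hIJI, hIJJ, hIJIJ]
        abel
      have hww : w * w = (2 : F) • w - (4 : F) • (1 : Matrix (Fin 2) (Fin 2) F) := by
        rw [hw]
        simp only [add_mul, mul_add, one_mul, mul_one, hII, hJJ, hJI, hIJI, hIJJ, hIIJ, hJIJ, hIJIJ]
        module
      have hyy : ((t / 2) • w) * ((t / 2) • w) = t • ((t / 2) • w) + (-1 : F) • (1 : Matrix (Fin 2) (Fin 2) F) := by
        rw [smul_mul_assoc, mul_smul_comm, hww, smul_smul, smul_sub, smul_smul, smul_smul, smul_smul]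
        have e1 : t / 2 * (t / 2) * 2 = t * (t / 2) := by field_simp
        have e2 : t / 2 * (t / 2) * 4 = 1 := by field_simp; linear_combination 4 * ht2
        rw [e1, e2]
        module
      have hinv : ((t / 2) • w) * (t • (1 : Matrix (Fin 2) (Fin 2) F) - (t / 2) • w) = 1 := by
        rw [mul_sub, hyy, mul_smul_comm, mul_one]
        module
      have hinv' : (t • (1 : Matrix (Fin 2) (Fin 2) F) - (t / 2) • w) * ((t / 2) • w) = 1 := by
        rw [sub_mul, hyy, smul_mul_assoc, one_mul]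
        module
      let y : GL (Fin 2) F := ⟨(t / 2) • w, t • (1 : Matrix (Fin 2) (Fin 2) F) - (t / 2) • w, hinv, hinv'⟩
      have hyv : (y : Matrix (Fin 2) (Fin 2) F) = (t / 2) • w := rfl
      have hyI : y * I = J * y := by
        apply Units.ext
        rw [Units.val_mul, Units.val_mul, hyv, smul_mul_assoc, mul_smul_comm, hwI]
      have hyJ : y * J = (I * J) * y := by
        apply Units.ext
        rw [Units.val_mul, Units.val_mul, Units.val_mul, hyv, smul_mul_assoc, mul_smul_comm, hwJ]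
      have hyN : y ∈ Cfsg.Geo.subgroupNormalizer R := by
        apply H99.mem_normalizer_of_conj_mem
        intro u hu
        obtain ⟨i, j, rfl⟩ := hgen u hu
        have h1 : y * (I ^ i * J ^ j) * y⁻¹ = (y * I * y⁻¹) ^ i * (y * J * y⁻¹) ^ j := by
          rw [conj_pow, conj_pow]
          group
        have h2 : y * I * y⁻¹ = J := by rw [hyI]; group
        have h3 : y * J * y⁻¹ = I * J := by rw [hyJ]; group
        rw [h1, h2, h3]
        exact R.mul_mem (R.pow_mem hJR i) (R.pow_mem (R.mul_mem hIR hJR) j)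
      have hys : ∀ c : F, (y : Matrix (Fin 2) (Fin 2) F) ≠ c • (1 : Matrix (Fin 2) (Fin 2) F) := by
        intro c hc
        have h1 : y * I = I * y := by
          apply Units.ext
          rw [Units.val_mul, Units.val_mul, hc]
          simp
        rw [hyI] at h1
        have h2 : J = I := mul_right_cancel h1
        apply hne
        rw [h2]
      refine conj_into x hxS (H99.centSurj_of_pow_eq (by norm_num) _ 3 z hz0 (by exact_mod_cast h3F) hz) hxs y hyN hys t (-1) ?_ hyy
      rw [hCH]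
      module

end Cfsg.Agent.S5997
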