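import Cfsg.Statements.S5998
import Cfsg.Agent.H99.ExtraThreeN
import Cfsg.Agent.Orth.Bridge

set_option autoImplicit false
open scoped MatrixGroups
open Cfsg

namespace Cfsg.Agent.S5998

open Module Matrix

set_option maxHeartbeats 4000000

universe u

section
variable {F : Type u} [Field F]

/-- conclusion step: conjugating into the normalizer -/
lemma conj_into [Finite F] {R : Subgroup (GL (Fin 3) F)} (x : GL (Fin 3) F) (hx : x ∈ Cfsg.Geo.specialLinear (Fin 3) F)
    (hcs : H99.CentSurj (x : Matrix (Fin 3) (Fin 3) F))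
    (y : GL (Fin 3) F) (hy : y ∈ Cfsg.Geo.subgroupNormalizer R)
    (he : ∃ e : (Fin 3 → F) ≃ₗ[F] (Fin 3 → F), ∀ v, e (Matrix.toLin' (y : Matrix (Fin 3) (Fin 3) F) v) = Matrix.toLin' (x : Matrix (Fin 3) (Fin 3) F) (e v)) :
    ∃ g ∈ Cfsg.Geo.specialLinear (Fin 3) F, g⁻¹ * x * g ∈ Cfsg.Geo.subgroupNormalizer R := by
  obtain ⟨e, he⟩ := he
  have hdet : (x : Matrix (Fin 3) (Fin 3) F).det = 1 := by
    have h1 : Matrix.GeneralLinearGroup.det x = 1 := hx
    have h2 := congrArg Units.val h1
    simpa using h2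
  let X : Matrix.SpecialLinearGroup (Fin 3) F := ⟨x, hdet⟩
  obtain ⟨P, hP⟩ := H99.exists_conj_mem_comap X hcs (Cfsg.Geo.subgroupNormalizer R) y hy e (fun v => he v)
  refine ⟨Matrix.SpecialLinearGroup.toGL P, ?_, ?_⟩
  · change Matrix.GeneralLinearGroup.det (Matrix.SpecialLinearGroup.toGL P) = 1
    apply Units.ext
    simp
  · rw [Subgroup.mem_comap, map_mul, map_mul, map_inv] at hP
    have hXx : Matrix.SpecialLinearGroup.toGL X = x := Units.ext rfl
    rw [hXx] at hP
    exact hP

open Classical in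
noncomputable def ind (a z : F) : ℕ := if a = z then 1 else 0

/-- the counting function of a diagonal matrix -/
noncomputable def cnt (c : Fin 3 → F) (z : F) : ℕ := ind (c 0) z + ind (c 1) z + ind (c 2) z

lemma card_eq_cnt (c : Fin 3 → F) (z : F) : Nat.card {j // c j = z} = cnt c z := by
  classical
  rw [Nat.card_eq_fintype_card, Fintype.card_subtype, Finset.card_filter, Fin.sum_univ_three]
  unfold cnt ind
  congr!

lemma exists_eigenbasis3 [Fintype F] {p : ℕ} [Fact p.Prime] [CharP F p] {r : ℕ} [Fact r.Prime] (hrp : r ≠ p) (hrq : r ∣ Fintype.card F - 1)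
    (f : (Fin 3 → F) →ₗ[F] (Fin 3 → F)) (hf : f ^ r = 1) :
    ∃ (b : Basis (Fin 3) F (Fin 3 → F)) (c : Fin 3 → F), (∀ j, c j ^ r = 1) ∧ ∀ j, f (b j) = c j • b j := by
  obtain ⟨b, c, h1, h2⟩ := H99.exists_eigenbasis hrp hrq f hf
  have h3 : finrank F (Fin 3 → F) = 3 := by rw [finrank_fintype_fun_eq_card, Fintype.card_fin]
  let ε : Fin (finrank F (Fin 3 → F)) ≃ Fin 3 := finCongr h3
  refine ⟨b.reindex ε, fun j => c (ε.symm j), fun j => h1 _, fun j => ?_⟩
  rw [Basis.reindex_apply, h2]

lemma conj_of_cnt (b b' : Basis (Fin 3) F (Fin 3 → F)) (f g : (Fin 3 → F) →ₗ[F] (Fin 3 → F)) (c c' : Fin 3 → F)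
    (hb : ∀ j, f (b j) = c j • b j) (hb' : ∀ j, g (b' j) = c' j • b' j)
    (h : ∀ z, cnt c z = cnt c' z) : ∃ e : (Fin 3 → F) ≃ₗ[F] (Fin 3 → F), ∀ v, e (f v) = g (e v) :=
  H99.conj_of_eigenbasis b b' c c' hb hb' (fun z => by rw [card_eq_cnt, card_eq_cnt, h])

/-- involutions of determinant one -/
lemma cnt_invol (h2 : (2 : F) ≠ 0) {c : Fin 3 → F} (hc : ∀ j, c j ^ 2 = 1) (hprod : ∏ j, c j = 1) (hne : ¬ ∀ j, c j = 1) (z : F) :
    cnt c z = ind 1 z + ind (-1) z + ind (-1) z := by
  have h1 : ∀ j, c j = 1 ∨ c j = -1 := fun j => by rcases mul_eq_zero.mp (show (c j - 1) * (c j + 1) = 0 by linear_combination hc j) with h | h; exacts [Or.inl (sub_eq_zero.mp h), Or.inr (eq_neg_of_add_eq_zero_left h)]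
  rw [Fin.prod_univ_three] at hprod
  have hm : (-1 : F) ≠ 1 := by
    intro h
    apply h2
    linear_combination -h
  unfold cnt
  rcases h1 0 with h3 | h3 <;> rcases h1 1 with h4 | h4 <;> rcases h1 2 with h5 | h5 <;> rw [h3, h4, h5] at hprod ⊢
  all_goals first
    | ring1
    | (exfalso; apply hm; linear_combination hprod)
    | (exfalso; exact hne (fun j => by fin_cases j <;> assumption))

lemma cube_cases {η : F} (hη : η ^ 2 + η + 1 = 0) {c : F} (hc : c ^ 3 = 1) : c = 1 ∨ c = η ∨ c = η ^ 2 := by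
  have h : (c - 1) * ((c - η) * (c - η ^ 2)) = 0 := by
    have h1 := H99.cube_root hη
    linear_combination hc + (c - c ^ 2) * hη + (c - 1) * h1
  rcases mul_eq_zero.mp h with h | h
  · left; exact sub_eq_zero.mp h
  · rcases mul_eq_zero.mp h with h | h
    · right; left; exact sub_eq_zero.mp h
    · right; right; exact sub_eq_zero.mp h

/-- elements of order three with distinct eigenvalues -/
lemma cnt_distinct {η : F} (hη : η ^ 2 + η + 1 = 0) {c : Fin 3 → F} (hc : ∀ j, c j ^ 3 = 1) (h01 : c 0 ≠ c 1) (h02 : c 0 ≠ c 2) (h12 : c 1 ≠ c 2) (z : F) :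
    cnt c z = ind 1 z + ind η z + ind (η ^ 2) z := by
  unfold cnt
  rcases cube_cases hη (hc 0) with h3 | h3 | h3 <;> rcases cube_cases hη (hc 1) with h4 | h4 | h4 <;> rcases cube_cases hη (hc 2) with h5 | h5 | h5 <;>
    rw [h3, h4, h5]
  all_goals first
    | ring1
    | exact absurd (h3.trans h4.symm) h01
    | exact absurd (h3.trans h5.symm) h02
    | exact absurd (h4.trans h5.symm) h12

lemma prod_of_distinct (h3 : (3 : F) ≠ 0) {η : F} (hη : η ^ 2 + η + 1 = 0) {c : Fin 3 → F} (hc : ∀ j, c j ^ 3 = 1) (h01 : c 0 ≠ c 1) (h02 : c 0 ≠ c 2) (h12 : c 1 ≠ c 2) :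
    ∏ j, c j = 1 := by
  have hη3 := H99.cube_root hη
  rw [Fin.prod_univ_three]
  rcases cube_cases hη (hc 0) with h3 | h3 | h3 <;> rcases cube_cases hη (hc 1) with h4 | h4 | h4 <;> rcases cube_cases hη (hc 2) with h5 | h5 | h5 <;>
    rw [h3, h4, h5]
  all_goals first
    | linear_combination hη3
    | exact absurd (h3.trans h4.symm) h01
    | exact absurd (h3.trans h5.symm) h02
    | exact absurd (h4.trans h5.symm) h12

lemma two_equal {c : Fin 3 → F} {ε : F} (hc : ∀ j, c j ^ 3 = 1) (hprod : ∏ j, c j = ε) (h : c 0 = c 1 ∨ c 0 = c 2 ∨ c 1 = c 2) :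
    ∃ α : F, α ^ 3 = 1 ∧ ∀ z, cnt c z = ind α z + ind α z + ind (ε * α) z := by
  rw [Fin.prod_univ_three] at hprod
  rcases h with h | h | h
  · refine ⟨c 0, hc 0, fun z => ?_⟩
    have h1 : c 2 = ε * c 0 := by
      rw [← hprod, ← h]
      linear_combination -(c 2) * hc 0
    unfold cnt
    rw [h1, ← h]
  · refine ⟨c 0, hc 0, fun z => ?_⟩
    have h1 : c 1 = ε * c 0 := by
      rw [← hprod, ← h]
      linear_combination -(c 1) * hc 0
    unfold cnt
    rw [h1, ← h]
    ring
  · refine ⟨c 1, hc 1, fun z => ?_⟩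
    have h1 : c 0 = ε * c 1 := by
      rw [← hprod, ← h]
      linear_combination -(c 0) * hc 1
    unfold cnt
    rw [h1, ← h]
    ring

/-- conjugates of diagonal matrices -/
lemma eigenbasis_conj_diag (g : GL (Fin 3) F) {y : GL (Fin 3) F} {d : Fin 3 → F} (hy : (y : Matrix (Fin 3) (Fin 3) F) * g = g * Matrix.diagonal d) :
    ∃ b : Basis (Fin 3) F (Fin 3 → F), ∀ j, Matrix.toLin' (y : Matrix (Fin 3) (Fin 3) F) (b j) = d j • b j := by
  refine ⟨(Pi.basisFun F (Fin 3)).map (Orth.glE (Fin 3) F g), fun j => ?_⟩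
  rw [Basis.map_apply, Orth.glE_apply, Pi.basisFun_apply, Matrix.toLin'_apply, Matrix.mulVec_mulVec, hy, ← Matrix.mulVec_mulVec]
  have : Matrix.diagonal d *ᵥ Pi.single j (1 : F) = d j • Pi.single j (1 : F) := by
    ext i
    rw [Matrix.mulVec_diagonal]
    by_cases hij : i = j
    · subst hij; simp
    · simp [Pi.single_eq_of_ne hij]
  rw [this, Matrix.mulVec_smul]


lemma calc_sq {M : Type*} [Monoid M] {y a g P T : M} (hy : y * g = g * T) (ha : a * g = g * P) (hTP : T * P = P * P * T) : y * a * g = a * a * y * g := by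
  calc y * a * g = y * g * P := by rw [mul_assoc, ha, ← mul_assoc]
    _ = g * (T * P) := by rw [hy, mul_assoc]
    _ = g * P * P * T := by rw [hTP]; simp only [mul_assoc]
    _ = a * g * P * T := by rw [← ha]
    _ = a * (g * P) * T := by rw [mul_assoc a g P]
    _ = a * (a * g) * T := by rw [ha]
    _ = a * a * y * g := by rw [← mul_assoc a a g, mul_assoc (a * a) g T, ← hy, ← mul_assoc]

lemma mk_conj (g : GL (Fin 3) F) (M : Matrix (Fin 3) (Fin 3) F) (hM : M.det ≠ 0) : ∃ y : GL (Fin 3) F, (y : Matrix (Fin 3) (Fin 3) F) * g = g * M := by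
  refine ⟨g * Matrix.GeneralLinearGroup.mkOfDetNeZero M hM * g⁻¹, ?_⟩
  rw [← Units.val_mul, inv_mul_cancel_right]
  rfl

lemma eq_of_mul_g {g u w : GL (Fin 3) F} (h : (u : Matrix (Fin 3) (Fin 3) F) * g = w * g) : u = w := by
  have h1 : u * g = w * g := Units.ext h
  exact mul_right_cancel h1

lemma smul_mem {R : Subgroup (GL (Fin 3) F)} {y₀ : GL (Fin 3) F} (hy : y₀ ∈ Cfsg.Geo.subgroupNormalizer R) {c : F} (hc : c ≠ 0) :
    ∃ y ∈ Cfsg.Geo.subgroupNormalizer R, (y : Matrix (Fin 3) (Fin 3) F) = c • (y₀ : Matrix (Fin 3) (Fin 3) F) := by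
  let s : GL (Fin 3) F := ⟨c • 1, c⁻¹ • 1, by rw [smul_mul_smul_comm, mul_inv_cancel₀ hc, one_smul, mul_one], by rw [smul_mul_smul_comm, inv_mul_cancel₀ hc, one_smul, mul_one]⟩
  have hs : ∀ x : GL (Fin 3) F, s * x = x * s := by
    intro x
    apply Units.ext
    change (c • (1 : Matrix (Fin 3) (Fin 3) F)) * (x : Matrix (Fin 3) (Fin 3) F) = (x : Matrix (Fin 3) (Fin 3) F) * (c • (1 : Matrix (Fin 3) (Fin 3) F))
    rw [smul_mul_assoc, mul_smul_comm, one_mul, mul_one]
  have hsN : s ∈ Cfsg.Geo.subgroupNormalizer R := by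
    change s ∈ Subgroup.normalizer (R : Set (GL (Fin 3) F))
    rw [Subgroup.mem_normalizer_iff]
    intro x
    rw [hs x, mul_inv_cancel_right]
  refine ⟨s * y₀, Subgroup.mul_mem _ hsN hy, ?_⟩
  change (c • (1 : Matrix (Fin 3) (Fin 3) F)) * (y₀ : Matrix (Fin 3) (Fin 3) F) = _
  rw [smul_mul_assoc, one_mul]

lemma det_eq_one {x : GL (Fin 3) F} (hx : x ∈ Cfsg.Geo.specialLinear (Fin 3) F) : (x : Matrix (Fin 3) (Fin 3) F).det = 1 := by
  have h1 : Matrix.GeneralLinearGroup.det x = 1 := hx
  have h2 := congrArg Units.val h1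
  simpa using h2

lemma mem_SL {x : GL (Fin 3) F} (hx : (x : Matrix (Fin 3) (Fin 3) F).det = 1) : x ∈ Cfsg.Geo.specialLinear (Fin 3) F := by
  change Matrix.GeneralLinearGroup.det x = 1
  apply Units.ext
  simpa using hx

lemma card_SL3 [Fintype F] : Nat.card (Cfsg.Geo.specialLinear (Fin 3) F) = Fintype.card F ^ 3 * (Fintype.card F ^ 3 - 1) * (Fintype.card F ^ 2 - 1) := by
  classical
  set q := Fintype.card F with hq
  have hq1 : 1 < q := Fintype.one_lt_card
  have hsurj : Function.Surjective (Matrix.GeneralLinearGroup.det : GL (Fin 3) F →* Fˣ) := by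
    intro δ
    refine ⟨Matrix.GeneralLinearGroup.mkOfDetNeZero (Matrix.diagonal ![(δ : F), 1, 1]) ?_, ?_⟩
    · rw [Matrix.det_diagonal, Fin.prod_univ_three]
      simp
    · apply Units.ext
      change (Matrix.diagonal ![(δ : F), 1, 1]).det = δ
      rw [Matrix.det_diagonal, Fin.prod_univ_three]
      simp
  have h1 := Subgroup.card_mul_index (Cfsg.Geo.specialLinear (Fin 3) F)
  have h2 : (Cfsg.Geo.specialLinear (Fin 3) F).index = q - 1 := by
    change (Matrix.GeneralLinearGroup.det : GL (Fin 3) F →* Fˣ).ker.index = _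
    rw [Subgroup.index_ker, MonoidHom.range_eq_top.mpr hsurj, Subgroup.card_top, Nat.card_eq_fintype_card, Fintype.card_units]
  rw [h2, Matrix.card_GL_field, Fin.prod_univ_three, ← hq] at h1
  simp only [Fin.val_zero, Fin.val_one, Fin.val_two, pow_zero, pow_one] at h1
  obtain ⟨t, ht⟩ : ∃ t, q = t + 2 := ⟨q - 2, by omega⟩
  have e1 : q ^ 3 - q = q * (q ^ 2 - 1) := by rw [Nat.mul_sub, mul_one]; congr 1; ring
  have e1' : q ^ 3 = q * q ^ 2 := by ring
  have e2 : q ^ 3 - q ^ 2 = q ^ 2 * (q - 1) := by rw [Nat.mul_sub, mul_one]; congr 1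
  rw [e1, e2] at h1
  have h3 : 0 < q - 1 := by omega
  apply Nat.eq_of_mul_eq_mul_right h3
  rw [h1]
  ring

end


/-- Elements of prime order of PSL_3(p), p ≡ 1 (mod 3), and the normalizer of an extraspecial subgroup of order 27. Here `T = PSL_3(F)` for the field `F` with `p` elements, `p` a prime with `p ≡ 1 (mod 3)`; `R` is a non-abelian subgroup of GL_3(F) of order 27 and exponent 3 (an extraspecial group 3^{1+2}, acting absolutely irreducibly), and `H` is the subgroup of matrices of determinant 1 normalizing `R` — a subgroup of type 3^{1+2}.Sp₂(3) (maximality is not assumed). Ω is the set of cosets of `H` in `T`, so an element of `T` of prime order `r` (a matrix `x` of determinant 1 with `x^r` scalar, `x` not scalar) fixes a point of Ω exactly when some conjugate of `x` by a matrix of determinant 1 normalizes `R`. Let `r` be a prime dividing the index of `H`. Then every element of `T` of order `r` fixes a point of Ω if and only if `r = 2`, or `r = 3` and `p ≡ 1 (mod 9)`. -/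
theorem result {F : Type*} [Field F] [Fintype F] {p : ℕ} [Fact p.Prime] [CharP F p] (hF : Fintype.card F = p) (hp3 : p % 3 = 1)
    (R : Subgroup (GL (Fin 3) F)) (hR : Nat.card R = 27) (hRe : Monoid.exponent R = 3) (hRna : ¬ IsMulCommutative R)
    (r : ℕ) [Fact r.Prime]
    (hΩ : r ∣ (Cfsg.Geo.subgroupNormalizer R).relIndex (Cfsg.Geo.specialLinear (Fin 3) F)) :
    (∀ x ∈ Cfsg.Geo.specialLinear (Fin 3) F, (∃ z : F, ((x ^ r : GL (Fin 3) F) : Matrix (Fin 3) (Fin 3) F) = z • (1 : Matrix (Fin 3) (Fin 3) F)) →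
      (∀ z : F, (x : Matrix (Fin 3) (Fin 3) F) ≠ z • (1 : Matrix (Fin 3) (Fin 3) F)) →
      ∃ g ∈ Cfsg.Geo.specialLinear (Fin 3) F, g⁻¹ * x * g ∈ Cfsg.Geo.subgroupNormalizer R) ↔ (r = 2 ∨ (r = 3 ∧ p % 9 = 1)) := by
  classical
  have hrp : r.Prime := Fact.out
  have hpp : p.Prime := Fact.out
  have hp7 : 4 ≤ p := by
    have := hpp.two_le
    omega
  have hodd : p % 2 = 1 := hpp.eq_two_or_odd.resolve_left (by omega)
  have h2F : (2 : F) ≠ 0 := by
    intro h
    have : ((2 : ℕ) : F) = 0 := by exact_mod_cast h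
    have := (CharP.cast_eq_zero_iff F p 2).mp this
    have := Nat.le_of_dvd (by norm_num) this
    omega
  have h3F : (3 : F) ≠ 0 := by
    intro h
    have : ((3 : ℕ) : F) = 0 := by exact_mod_cast h
    have := (CharP.cast_eq_zero_iff F p 3).mp this
    have := Nat.le_of_dvd (by norm_num) this
    omega
  have h3q : 3 ∣ Fintype.card F - 1 := by rw [hF]; omega
  have h2q : 2 ∣ Fintype.card F - 1 := by rw [hF]; omega
  obtain ⟨γ, hγ0, hγ1, hγ2⟩ := H99.exists_generator (F := F)
  obtain ⟨ω, hω⟩ : ∃ ω : F, ω ^ 2 + ω + 1 = 0 := by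
    obtain ⟨m, hm⟩ := h3q
    have h1 : (γ ^ m) ^ 3 = 1 := by rw [← pow_mul, mul_comm, ← hm, hγ1]
    have h2 : γ ^ m ≠ 1 := by
      intro h
      rw [hγ1, hm] at h
      have hm0 : 0 < m := by
        rw [hF] at hm
        omega
      have := Nat.le_of_dvd hm0 h
      omega
    refine ⟨γ ^ m, ?_⟩
    have h3 : (γ ^ m - 1) * ((γ ^ m) ^ 2 + γ ^ m + 1) = 0 := by linear_combination h1
    exact (mul_eq_zero.mp h3).resolve_left (sub_ne_zero.mpr h2)
  obtain ⟨a, b, η, v, haR, hbR, hcl, hη, ha3, hb3, hba, hv0, hbv⟩ := H99.extraThree h3F hω R hR hRe hRna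
  obtain ⟨g, hg, hag, hbg⟩ := H99.extraThree_basis h3F hη ha3 hba hv0 hbv
  have hη3 := H99.cube_root hη
  have hη1 := H99.cube_root_ne_one h3F hη
  have hfin : Finite R := Nat.finite_of_card_ne_zero (by rw [hR]; norm_num)
  have hgdet : (g : Matrix (Fin 3) (Fin 3) F).det ≠ 0 := by
    have := g.isUnit
    rw [Matrix.isUnit_iff_isUnit_det] at this
    exact this.ne_zero
  have hdetP : (H99.matP F).det = 1 := by
    rw [Matrix.det_fin_three]
    simp [H99.matP]
  have hadet : (a : Matrix (Fin 3) (Fin 3) F).det = 1 := by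
    have h1 := congrArg Matrix.det hag
    rw [Matrix.det_mul, Matrix.det_mul, hdetP, mul_one] at h1
    exact mul_right_cancel₀ hgdet (by rw [h1, one_mul])
  have hbdet : (b : Matrix (Fin 3) (Fin 3) F).det = 1 := by
    have h1 := congrArg Matrix.det hbg
    rw [Matrix.det_mul, Matrix.det_mul, Matrix.det_diagonal, Fin.prod_univ_three] at h1
    simp only [Matrix.cons_val_zero, Matrix.cons_val_one, Matrix.cons_val] at h1
    rw [one_mul, ← pow_succ', hη3, mul_one] at h1
    exact mul_right_cancel₀ hgdet (by rw [h1, one_mul])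
  have hRSL : R ≤ Cfsg.Geo.specialLinear (Fin 3) F := by
    rw [← hcl, Subgroup.closure_le]
    rintro x (rfl | hx)
    · exact mem_SL hadet
    · rw [Set.mem_singleton_iff] at hx
      rw [hx]
      exact mem_SL hbdet
  have hRN : R ≤ Cfsg.Geo.subgroupNormalizer R := Subgroup.le_normalizer
  constructor
  · intro H
    by_contra hcon
    push Not at hcon
    obtain ⟨hr2, hr3⟩ := hcon
    by_cases h3 : r = 3
    · -- the index is prime to three
      subst h3
      have hp9 : p % 9 ≠ 1 := hr3 rfl
      have h1 : Nat.card R ∣ Nat.card ((Cfsg.Geo.subgroupNormalizer R).subgroupOf (Cfsg.Geo.specialLinear (Fin 3) F)) := by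
        have h2 : Nat.card ((Cfsg.Geo.subgroupNormalizer R).subgroupOf (Cfsg.Geo.specialLinear (Fin 3) F)) =
            Nat.card (Cfsg.Geo.subgroupNormalizer R ⊓ Cfsg.Geo.specialLinear (Fin 3) F : Subgroup (GL (Fin 3) F)) := by
          rw [← Subgroup.inf_subgroupOf_right]
          exact Nat.card_congr (Subgroup.subgroupOfEquivOfLe inf_le_right).toEquiv
        rw [h2]
        exact Subgroup.card_dvd_of_le (le_inf hRN hRSL)
      have h2 := Subgroup.card_mul_index ((Cfsg.Geo.subgroupNormalizer R).subgroupOf (Cfsg.Geo.specialLinear (Fin 3) F))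
      rw [card_SL3, hF] at h2
      have h4 : 27 * 3 ∣ p ^ 3 * (p ^ 3 - 1) * (p ^ 2 - 1) := by
        rw [← h2]
        exact Nat.mul_dvd_mul (by rw [← hR]; exact h1) hΩ
      obtain ⟨k, hk⟩ : ∃ k, p = 9 * k + 4 ∨ p = 9 * k + 7 := ⟨p / 9, by omega⟩
      rcases hk with hk | hk
      · have e1 : p ^ 3 - 1 = 9 * (81 * k ^ 3 + 108 * k ^ 2 + 48 * k + 7) := by
          rw [hk]
          have : (9 * k + 4) ^ 3 = 9 * (81 * k ^ 3 + 108 * k ^ 2 + 48 * k + 7) + 1 := by ring
          omega
        have e2 : p ^ 2 - 1 = 3 * (27 * k ^ 2 + 24 * k + 5) := by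
          rw [hk]
          have : (9 * k + 4) ^ 2 = 3 * (27 * k ^ 2 + 24 * k + 5) + 1 := by ring
          omega
        rw [e1, e2] at h4
        have e3 : p ^ 3 * (9 * (81 * k ^ 3 + 108 * k ^ 2 + 48 * k + 7)) * (3 * (27 * k ^ 2 + 24 * k + 5)) = 27 * (p ^ 3 * (81 * k ^ 3 + 108 * k ^ 2 + 48 * k + 7) * (27 * k ^ 2 + 24 * k + 5)) := by ring
        rw [e3] at h4
        have h5 := Nat.dvd_of_mul_dvd_mul_left (by norm_num) h4
        have hP3 : Nat.Prime 3 := Nat.prime_three
        rcases hP3.dvd_mul.mp h5 with h6 | h6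
        · rcases hP3.dvd_mul.mp h6 with h7 | h7
          · have := hP3.dvd_of_dvd_pow h7
            omega
          · omega
        · omega
      · have e1 : p ^ 3 - 1 = 9 * (81 * k ^ 3 + 189 * k ^ 2 + 147 * k + 38) := by
          rw [hk]
          have : (9 * k + 7) ^ 3 = 9 * (81 * k ^ 3 + 189 * k ^ 2 + 147 * k + 38) + 1 := by ring
          omega
        have e2 : p ^ 2 - 1 = 3 * (27 * k ^ 2 + 42 * k + 16) := by
          rw [hk]
          have : (9 * k + 7) ^ 2 = 3 * (27 * k ^ 2 + 42 * k + 16) + 1 := by ring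
          omega
        rw [e1, e2] at h4
        have e3 : p ^ 3 * (9 * (81 * k ^ 3 + 189 * k ^ 2 + 147 * k + 38)) * (3 * (27 * k ^ 2 + 42 * k + 16)) = 27 * (p ^ 3 * (81 * k ^ 3 + 189 * k ^ 2 + 147 * k + 38) * (27 * k ^ 2 + 42 * k + 16)) := by ring
        rw [e3] at h4
        have h5 := Nat.dvd_of_mul_dvd_mul_left (by norm_num) h4
        have hP3 : Nat.Prime 3 := Nat.prime_three
        rcases hP3.dvd_mul.mp h5 with h6 | h6
        · rcases hP3.dvd_mul.mp h6 with h7 | h7
          · have := hP3.dvd_of_dvd_pow h7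
            omega
          · omega
        · omega
    have hr5 : 5 ≤ r := by
      by_contra h
      have : r = 0 ∨ r = 1 ∨ r = 2 ∨ r = 3 ∨ r = 4 := by omega
      rcases this with h | h | h | h | h <;> subst h <;> revert hrp <;> norm_num at *
    -- an element of order r
    have hdvd : r ∣ Nat.card (Cfsg.Geo.specialLinear (Fin 3) F) := by
      refine hΩ.trans ?_
      rw [Subgroup.relIndex]
      exact Subgroup.index_dvd_card _
    obtain ⟨⟨x, hxS⟩, hx⟩ := exists_prime_orderOf_dvd_card' r hdvd
    have hxr : x ^ r = 1 := by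
      have := pow_orderOf_eq_one (⟨x, hxS⟩ : Cfsg.Geo.specialLinear (Fin 3) F)
      rw [hx] at this
      have h2 := congrArg Subtype.val this
      simpa using h2
    have hx1 : x ≠ 1 := by
      intro h
      have h2 : (⟨x, hxS⟩ : Cfsg.Geo.specialLinear (Fin 3) F) = 1 := Subtype.ext h
      rw [h2, orderOf_one] at hx
      omega
    have hxs : ∀ z : F, (x : Matrix (Fin 3) (Fin 3) F) ≠ z • (1 : Matrix (Fin 3) (Fin 3) F) := by
      intro z hz
      have hd := det_eq_one hxS
      rw [hz, Matrix.det_smul, Matrix.det_one, mul_one, Fintype.card_fin] at hd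
      have h2 : x ^ 3 = 1 := by
        apply Units.ext
        rw [Units.val_pow_eq_pow_val, hz, smul_pow, hd, one_smul, one_pow]
        rfl
      have h3 : orderOf x ∣ 3 := orderOf_dvd_of_pow_eq_one h2
      have h4 : orderOf x ∣ r := orderOf_dvd_of_pow_eq_one hxr
      rcases (Nat.dvd_prime Nat.prime_three).mp h3 with h5 | h5
      · exact hx1 (orderOf_eq_one_iff.mp h5)
      · rw [h5] at h4
        rcases (Nat.dvd_prime hrp).mp h4 with h6 | h6 <;> omega
    obtain ⟨g', hgS, hg'⟩ := H x hxS ⟨1, by rw [hxr, one_smul]; rfl⟩ hxs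
    set y := g'⁻¹ * x * g' with hy
    have hyr : y ^ r = 1 := by
      have : y = g'⁻¹ * x * (g'⁻¹)⁻¹ := by rw [inv_inv]
      rw [this, conj_pow, hxr]
      simp
    have hmod := H99.card_cent_modEq hg' r hyr
    rw [hR] at hmod
    have hcd : Nat.card {t : R // y * t = t * y} ∣ 27 := by
      have h1 : Nat.card {t : R // y * t = t * y} = Nat.card ((Subgroup.centralizer {y}).subgroupOf R) := by
        apply Nat.card_congr
        apply Equiv.subtypeEquivRight
        intro t
        rw [Subgroup.mem_subgroupOf, Subgroup.mem_centralizer_singleton_iff]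
        exact ⟨fun h => h.symm, fun h => h.symm⟩
      rw [h1, ← hR]
      exact Subgroup.card_subgroup_dvd_card _
    have hge : 1 < Nat.card {t : R // y * t = t * y} := by
      set c : GL (Fin 3) F := b * a * (a * b)⁻¹ with hc
      have hcR : c ∈ R := R.mul_mem (R.mul_mem hbR haR) (R.inv_mem (R.mul_mem haR hbR))
      have hcv : (c : Matrix (Fin 3) (Fin 3) F) = η • (1 : Matrix (Fin 3) (Fin 3) F) := by
        rw [hc, Units.val_mul, Units.val_mul, hba, smul_mul_assoc, ← Units.val_mul, ← Units.val_mul, mul_inv_cancel]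
        rfl
      have hcc : y * c = c * y := by
        apply Units.ext
        change (y : Matrix (Fin 3) (Fin 3) F) * (c : Matrix (Fin 3) (Fin 3) F) = (c : Matrix (Fin 3) (Fin 3) F) * (y : Matrix (Fin 3) (Fin 3) F)
        rw [hcv, mul_smul_comm, smul_mul_assoc, mul_one, one_mul]
      have hne1 : (⟨⟨c, hcR⟩, hcc⟩ : {t : R // y * t = t * y}) ≠ ⟨⟨1, R.one_mem⟩, by simp⟩ := by
        intro h
        have h1 : c = 1 := congrArg (fun t : {t : R // y * t = t * y} => ((t : R) : GL (Fin 3) F)) h
        rw [h1] at hcv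
        apply hη1
        have h2 := congrFun (congrFun hcv 0) 0
        simpa using h2.symm
      have : Nontrivial {t : R // y * t = t * y} := ⟨_, _, hne1⟩
      exact Finite.one_lt_card
    have h27 : Nat.card {t : R // y * t = t * y} = 27 := by
      set k := Nat.card {t : R // y * t = t * y} with hk
      have h4 : k ∈ Nat.divisors 27 := Nat.mem_divisors.mpr ⟨hcd, by norm_num⟩
      rw [show Nat.divisors 27 = {1, 3, 9, 27} by decide] at h4
      simp only [Finset.mem_insert, Finset.mem_singleton] at h4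
      have hk27 : k ≤ 27 := Nat.le_of_dvd (by norm_num) hcd
      have h1 : r ∣ 27 - k := (Nat.modEq_iff_dvd' hk27).mp hmod.symm
      rcases h4 with h4 | h4 | h4 | h4
      · omega
      · rw [h4] at h1
        exfalso
        have h5 : r ∣ 2 ^ 3 * 3 := h1
        rcases hrp.dvd_mul.mp h5 with h6 | h6
        · have := Nat.le_of_dvd (by norm_num) (hrp.dvd_of_dvd_pow h6)
          omega
        · have := Nat.le_of_dvd (by norm_num) h6
          omega
      · rw [h4] at h1
        exfalso
        have h5 : r ∣ 3 ^ 2 * 2 := h1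
        rcases hrp.dvd_mul.mp h5 with h6 | h6
        · have := Nat.le_of_dvd (by norm_num) (hrp.dvd_of_dvd_pow h6)
          omega
        · have := Nat.le_of_dvd (by norm_num) h6
          omega
      · exact h4
    have hall : ∀ t : R, y * t = t * y := by
      have h1 : Nat.card {t : R // y * t = t * y} = Nat.card R := by rw [h27, hR]
      have h2 : Function.Injective (Subtype.val : {t : R // y * t = t * y} → R) := Subtype.val_injective
      have h3 : Function.Bijective (Subtype.val : {t : R // y * t = t * y} → R) :=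
        (Nat.bijective_iff_injective_and_card _).mpr ⟨h2, h1⟩
      intro t
      obtain ⟨⟨s, hs⟩, rfl⟩ := h3.2 t
      exact hs
    -- `y` is scalar
    set M : GL (Fin 3) F := g⁻¹ * y * g with hM
    have hyM : (y : Matrix (Fin 3) (Fin 3) F) * g = g * M := by
      rw [← Units.val_mul, ← Units.val_mul]
      congr 1
      rw [hM]
      group
    have hMD : (M : Matrix (Fin 3) (Fin 3) F) * Matrix.diagonal ![1, η, η ^ 2] = Matrix.diagonal ![1, η, η ^ 2] * M := by
      have h1 := congrArg Units.val (hall ⟨b, hbR⟩)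
      change (y : Matrix (Fin 3) (Fin 3) F) * b = b * y at h1
      have h2 : (g : Matrix (Fin 3) (Fin 3) F) * (M * Matrix.diagonal ![1, η, η ^ 2]) = g * (Matrix.diagonal ![1, η, η ^ 2] * M) := by
        calc (g : Matrix (Fin 3) (Fin 3) F) * (M * Matrix.diagonal ![1, η, η ^ 2]) = (g * M) * Matrix.diagonal ![1, η, η ^ 2] := by rw [mul_assoc]
          _ = y * (g * Matrix.diagonal ![1, η, η ^ 2]) := by rw [← hyM, mul_assoc]
          _ = (y * b) * g := by rw [← hbg, mul_assoc]
          _ = b * (y * g) := by rw [h1, mul_assoc]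
          _ = (b * g) * M := by rw [hyM, mul_assoc]
          _ = g * (Matrix.diagonal ![1, η, η ^ 2] * M) := by rw [hbg, mul_assoc]
      have h3 := congrArg (fun t => ((g⁻¹ : GL (Fin 3) F) : Matrix (Fin 3) (Fin 3) F) * t) h2
      simp only [← mul_assoc] at h3
      rw [← Units.val_mul, inv_mul_cancel, Units.val_one, one_mul, one_mul] at h3
      exact h3
    have hMP : (M : Matrix (Fin 3) (Fin 3) F) * H99.matP F = H99.matP F * M := by
      have h1 := congrArg Units.val (hall ⟨a, haR⟩)
      change (y : Matrix (Fin 3) (Fin 3) F) * a = a * y at h1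
      have h2 : (g : Matrix (Fin 3) (Fin 3) F) * (M * H99.matP F) = g * (H99.matP F * M) := by
        calc (g : Matrix (Fin 3) (Fin 3) F) * (M * H99.matP F) = (g * M) * H99.matP F := by rw [mul_assoc]
          _ = y * (g * H99.matP F) := by rw [← hyM, mul_assoc]
          _ = (y * a) * g := by rw [← hag, mul_assoc]
          _ = a * (y * g) := by rw [h1, mul_assoc]
          _ = (a * g) * M := by rw [hyM, mul_assoc]
          _ = g * (H99.matP F * M) := by rw [hag, mul_assoc]
      have h3 := congrArg (fun t => ((g⁻¹ : GL (Fin 3) F) : Matrix (Fin 3) (Fin 3) F) * t) h2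
      simp only [← mul_assoc] at h3
      rw [← Units.val_mul, inv_mul_cancel, Units.val_one, one_mul, one_mul] at h3
      exact h3
    have hη2 : η ^ 2 ≠ 1 := by
      intro h
      rw [pow_succ, h, one_mul] at hη3
      exact hη1 hη3
    have hη12 : η - η ^ 2 ≠ 0 := by
      intro h
      apply hη1
      have h4 : η ^ 3 - η ^ 4 = 0 := by linear_combination η ^ 2 * h
      linear_combination -h4 - (η - 1) * hη3
    have hoff : ∀ i j, i ≠ j → (M : Matrix (Fin 3) (Fin 3) F) i j = 0 := by
      intro i j hij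
      have h1 := congrFun (congrFun hMD i) j
      rw [Matrix.mul_diagonal, Matrix.diagonal_mul] at h1
      have h2 : ((![1, η, η ^ 2] : Fin 3 → F) j - (![1, η, η ^ 2] : Fin 3 → F) i) * (M : Matrix (Fin 3) (Fin 3) F) i j = 0 := by linear_combination h1
      refine (mul_eq_zero.mp h2).resolve_left ?_
      fin_cases i <;> fin_cases j
      all_goals first
        | exact absurd rfl hij
        | (intro h; exact hη1 (sub_eq_zero.mp h))
        | (intro h; exact hη1 (sub_eq_zero.mp h).symm)
        | (intro h; exact hη2 (sub_eq_zero.mp h))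
        | (intro h; exact hη2 (sub_eq_zero.mp h).symm)
        | (intro h; exact hη12 h)
        | (intro h; exact hη12 (sub_eq_zero.mpr (sub_eq_zero.mp h).symm))
    have hdiag : ∀ i, (M : Matrix (Fin 3) (Fin 3) F) i i = (M : Matrix (Fin 3) (Fin 3) F) 0 0 := by
      have h1 := congrFun (congrFun hMP 1) 0
      have h2 := congrFun (congrFun hMP 2) 1
      rw [Matrix.mul_apply, Matrix.mul_apply, Fin.sum_univ_three, Fin.sum_univ_three] at h1 h2
      simp [H99.matP] at h1 h2
      intro i
      fin_cases i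
      · rfl
      · exact h1
      · exact h2.trans h1
    have hMs : (M : Matrix (Fin 3) (Fin 3) F) = ((M : Matrix (Fin 3) (Fin 3) F) 0 0) • (1 : Matrix (Fin 3) (Fin 3) F) := by
      ext i j
      by_cases hij : i = j
      · subst hij
        rw [hdiag i, Matrix.smul_apply, Matrix.one_apply_eq, smul_eq_mul, mul_one]
      · rw [hoff i j hij, Matrix.smul_apply, Matrix.one_apply_ne hij, smul_zero]
    apply hxs ((M : Matrix (Fin 3) (Fin 3) F) 0 0)
    have h1 : x = g' * g * M * (g' * g)⁻¹ := by rw [hM, hy]; group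
    rw [h1, Units.val_mul, Units.val_mul, hMs, mul_smul_comm, mul_one, smul_mul_assoc, ← Units.val_mul, mul_inv_cancel]
    simp
  · intro hr x hxS ⟨z, hz⟩ hxs
    rw [Units.val_pow_eq_pow_val] at hz
    have hd := det_eq_one hxS
    have hz3 : z ^ 3 = 1 := by
      have h1 := congrArg Matrix.det hz
      rw [Matrix.det_pow, hd, one_pow, Matrix.det_smul, Matrix.det_one, mul_one, Fintype.card_fin] at h1
      exact h1.symm
    have hz0 : z ≠ 0 := by
      rintro rfl
      rw [zero_pow (by norm_num)] at hz3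
      exact zero_ne_one hz3
    set f := Matrix.toLin' (x : Matrix (Fin 3) (Fin 3) F) with hf
    have hfdet : LinearMap.det f = 1 := by rw [hf, LinearMap.det_toLin', hd]
    have hfpow : f ^ r = z • (1 : (Fin 3 → F) →ₗ[F] (Fin 3 → F)) := by
      rw [hf, ← Matrix.toLin'_pow, hz, map_smul, Matrix.toLin'_one]
      rfl
    have hfns : ∀ s : F, f ≠ s • (1 : (Fin 3 → F) →ₗ[F] (Fin 3 → F)) := by
      intro s hs
      apply hxs s
      apply Matrix.toLin'.injective
      rw [← hf, hs, map_smul, Matrix.toLin'_one]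
      rfl
    have hscal : ∀ (s : F) (m : ℕ), (s • f) ^ m = s ^ m • f ^ m := fun s m => smul_pow s f m
    have hsdet : ∀ s : F, LinearMap.det (s • f) = s ^ 3 := by
      intro s
      rw [LinearMap.det_smul, finrank_fintype_fun_eq_card, Fintype.card_fin, hfdet, mul_one]
    -- transfer to scalar multiples
    have htrans : ∀ (s : F), s ≠ 0 → ∀ y₀ ∈ Cfsg.Geo.subgroupNormalizer R, (∃ e : (Fin 3 → F) ≃ₗ[F] (Fin 3 → F), ∀ v, e (Matrix.toLin' (y₀ : Matrix (Fin 3) (Fin 3) F) v) = (s • f) (e v)) →
        ∃ g ∈ Cfsg.Geo.specialLinear (Fin 3) F, g⁻¹ * x * g ∈ Cfsg.Geo.subgroupNormalizer R := by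
      rintro s hs y₀ hy₀ ⟨e, he⟩
      obtain ⟨y, hy, hyv⟩ := smul_mem hy₀ (inv_ne_zero hs)
      refine conj_into x hxS ?_ y hy ⟨e, fun v => ?_⟩
      · rcases hr with rfl | ⟨rfl, -⟩
        · exact H99.centSurj_of_sq_eq (by norm_num) _ z hz0 hz
        · exact H99.centSurj_of_pow_eq (by norm_num) _ 3 z hz0 (by exact_mod_cast h3F) hz
      · rw [hyv, map_smul, LinearMap.smul_apply, map_smul, he, LinearMap.smul_apply, smul_smul, inv_mul_cancel₀ hs, one_smul]
    rcases hr with rfl | ⟨rfl, hp9⟩
    · -- involutions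
      have : Fact (Nat.Prime 2) := ⟨Nat.prime_two⟩
      have hr2p : (2 : ℕ) ≠ p := by omega
      obtain ⟨y₀, hy₀⟩ := mk_conj g (H99.matT F) (by
        intro h0
        have h1 := congrArg Matrix.det (H99.matT_sq (F := F))
        rw [Matrix.det_mul, h0, zero_mul, Matrix.det_one] at h1
        exact zero_ne_one h1)
      have hya : y₀ * a = a * a * y₀ := by
        apply eq_of_mul_g (g := g)
        exact calc_sq hy₀ hag H99.matT_P
      have hyb : y₀ * b = b * b * y₀ := by
        apply eq_of_mul_g (g := g)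
        exact calc_sq hy₀ hbg (H99.matT_D hη3)
      have hyN : y₀ ∈ Cfsg.Geo.subgroupNormalizer R := by
        apply H99.mem_normalizer_of_gens hcl
        · rw [hya, mul_inv_cancel_right]
          exact R.mul_mem haR haR
        · rw [hyb, mul_inv_cancel_right]
          exact R.mul_mem hbR hbR
      have hyy : y₀ * y₀ = 1 := by
        apply eq_of_mul_g (g := g)
        simp only [Units.val_mul, Units.val_one]
        rw [mul_assoc, hy₀, ← mul_assoc, hy₀, mul_assoc, H99.matT_sq, mul_one, one_mul]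
      have hy₀det : (y₀ : Matrix (Fin 3) (Fin 3) F).det = 1 := by
        have h1 := congrArg Matrix.det hy₀
        have h2 : (H99.matT F).det = 1 := by
          rw [Matrix.det_fin_three]
          simp [H99.matT]
        rw [Matrix.det_mul, Matrix.det_mul, h2, mul_one] at h1
        exact mul_right_cancel₀ hgdet (by rw [h1, one_mul])
      have hfy : (Matrix.toLin' (y₀ : Matrix (Fin 3) (Fin 3) F)) ^ 2 = 1 := by
        rw [← Matrix.toLin'_pow, pow_two, ← Units.val_mul, hyy, Units.val_one, Matrix.toLin'_one]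
        rfl
      obtain ⟨b₁, c₁, h11, h12⟩ := exists_eigenbasis3 hr2p h2q (Matrix.toLin' (y₀ : Matrix (Fin 3) (Fin 3) F)) hfy
      have hzf : (z • f) ^ 2 = 1 := by
        rw [hscal, hfpow, smul_smul, ← pow_succ, hz3, one_smul]
      obtain ⟨b₂, c₂, h21, h22⟩ := exists_eigenbasis3 hr2p h2q (z • f) hzf
      apply htrans z hz0 y₀ hyN
      apply conj_of_cnt b₁ b₂ _ _ c₁ c₂ h12 h22
      intro w
      rw [cnt_invol h2F h11 (by rw [← H99.det_of_eigenbasis b₁ _ c₁ h12, LinearMap.det_toLin', hy₀det]) (by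
          intro hall
          have h1 : Matrix.toLin' (y₀ : Matrix (Fin 3) (Fin 3) F) = 1 := by
            apply b₁.ext
            intro j
            rw [h12, hall, one_smul]
            rfl
          have h2 : (y₀ : Matrix (Fin 3) (Fin 3) F) = 1 := by
            apply Matrix.toLin'.injective
            rw [h1, Matrix.toLin'_one]
            rfl
          rw [h2, one_mul] at hy₀
          have h3 : H99.matT F = 1 := by
            have h4 := congrArg (fun t => ((g⁻¹ : GL (Fin 3) F) : Matrix (Fin 3) (Fin 3) F) * t) hy₀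
            simp only [← mul_assoc] at h4
            rw [← Units.val_mul, inv_mul_cancel, Units.val_one, one_mul] at h4
            exact h4.symm
          have h5 := congrFun (congrFun h3 1) 2
          simp [H99.matT] at h5) w,
        cnt_invol h2F h21 (by rw [← H99.det_of_eigenbasis b₂ _ c₂ h22, hsdet, hz3]) (by
          intro hall
          apply hfns z⁻¹
          have h1 : z • f = 1 := by
            apply b₂.ext
            intro j
            rw [h22, hall, one_smul]
            rfl
          rw [← h1, smul_smul, inv_mul_cancel₀ hz0, one_smul]) w]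
    · -- elements of order three
      have : Fact (Nat.Prime 3) := ⟨Nat.prime_three⟩
      have hr3p : (3 : ℕ) ≠ p := by omega
      by_cases hz1 : z = 1
      · subst hz1
        rw [one_smul] at hfpow
        obtain ⟨b₂, c₂, h21, h22⟩ := exists_eigenbasis3 hr3p h3q f hfpow
        have hprod : ∏ j, c₂ j = 1 := by rw [← H99.det_of_eigenbasis b₂ _ c₂ h22, hfdet]
        obtain ⟨b₁, h12⟩ := eigenbasis_conj_diag g hbg
        apply htrans 1 one_ne_zero b (hRN hbR)
        rw [one_smul]
        apply conj_of_cnt b₁ b₂ _ _ _ c₂ h12 h22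
        intro w
        have hnall : ¬ ∀ j, c₂ j = c₂ 0 := by
          intro hall
          apply hfns (c₂ 0)
          apply b₂.ext
          intro j
          rw [h22, hall]
          rfl
        rw [Fin.prod_univ_three] at hprod
        rw [cnt_distinct hη h21 (by
            intro h
            apply hnall
            intro j
            fin_cases j
            · rfl
            · exact h.symm
            · change c₂ 2 = c₂ 0
              rw [← h] at hprod
              linear_combination -(c₂ 2) * h21 0 + c₂ 0 * hprod) (by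
            intro h
            apply hnall
            intro j
            fin_cases j
            · rfl
            · change c₂ 1 = c₂ 0
              rw [← h] at hprod
              linear_combination -(c₂ 1) * h21 0 + c₂ 0 * hprod
            · exact h.symm) (by
            intro h
            have h0 : c₂ 0 = c₂ 1 := by
              rw [← h] at hprod
              linear_combination -(c₂ 0) * h21 1 + c₂ 1 * hprod
            apply hnall
            intro j
            fin_cases j
            · rfl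
            · exact h0.symm
            · exact (h0.trans h).symm)]
        rfl
      · -- not a cube
        obtain ⟨k, hk⟩ := hγ2 z hz0
        have h3k : 3 ∣ k := by
          have h1 : γ ^ (k * 3) = 1 := by rw [pow_mul, ← hk, hz3]
          rw [hγ1, hF] at h1
          obtain ⟨m, hm⟩ := h1
          have h2 : p - 1 = 9 * (p / 9) := by omega
          rw [h2] at hm
          refine ⟨p / 9 * m, ?_⟩
          have h3 : k * 3 = 3 * (3 * (p / 9 * m)) := by rw [hm]; ring
          omega
        obtain ⟨k', hk'⟩ := h3k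
        set ζ := γ ^ k' with hζ
        have hζ3 : ζ ^ 3 = z := by rw [hζ, ← pow_mul, mul_comm, ← hk', hk]
        have hζ0 : ζ ≠ 0 := pow_ne_zero _ hγ0
        have hzf : (ζ⁻¹ • f) ^ 3 = 1 := by
          rw [hscal, hfpow, smul_smul, inv_pow, hζ3, inv_mul_cancel₀ hz0, one_smul]
        obtain ⟨b₂, c₂, h21, h22⟩ := exists_eigenbasis3 hr3p h3q (ζ⁻¹ • f) hzf
        have hprod : ∏ j, c₂ j = z⁻¹ := by rw [← H99.det_of_eigenbasis b₂ _ c₂ h22, hsdet, inv_pow, hζ3]
        set ε := z⁻¹ with hε
        have hε3 : ε ^ 3 = 1 := by rw [hε, inv_pow, hz3, inv_one]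
        have hε1 : ε ≠ 1 := by
          intro h
          apply hz1
          rw [hε, inv_eq_one] at h
          exact h
        obtain ⟨α, hα, hcnt⟩ := two_equal h21 hprod (by
          by_contra hcon
          push Not at hcon
          apply hε1
          rw [← hprod]
          exact prod_of_distinct h3F hη h21 hcon.1 hcon.2.1 hcon.2.2)
        have hα0 : α ≠ 0 := by
          rintro rfl
          rw [zero_pow (by norm_num)] at hα
          exact zero_ne_one hα
        have hε0 : ε ≠ 0 := inv_ne_zero hz0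
        obtain ⟨y₀, hy₀⟩ := mk_conj g (Matrix.diagonal ![1, 1, ε]) (by
          rw [Matrix.det_diagonal, Fin.prod_univ_three]
          simpa using hε0)
        -- `ε` is a power of `η`
        obtain ⟨j, hj⟩ : ∃ j : ℕ, ε = η ^ j := by
          rcases cube_cases hη hε3 with h | h | h
          · exact ⟨0, by rw [h, pow_zero]⟩
          · exact ⟨1, by rw [h, pow_one]⟩
          · exact ⟨2, h⟩
        have hbj : ∀ j : ℕ, ((b ^ j : GL (Fin 3) F) : Matrix (Fin 3) (Fin 3) F) * g = g * Matrix.diagonal ![1, η ^ j, (η ^ j) ^ 2] := by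
          intro j
          induction j with
          | zero =>
            rw [pow_zero, Units.val_one, one_mul, pow_zero, one_pow]
            have : Matrix.diagonal ![(1 : F), 1, 1] = 1 := by
              ext i j
              fin_cases i <;> fin_cases j <;> simp
            rw [this, mul_one]
          | succ j ih =>
            rw [pow_succ', Units.val_mul, mul_assoc, ih, ← mul_assoc, hbg, mul_assoc, Matrix.diagonal_mul_diagonal]
            congr 2
            funext i
            fin_cases i
            · simp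
            · simp [pow_succ']
            · change η ^ 2 * (η ^ j) ^ 2 = (η ^ (j + 1)) ^ 2
              ring
        have hPE : Matrix.diagonal ![1, 1, ε] * H99.matP F = H99.matP F * Matrix.diagonal ![1, ε, ε ^ 2] * Matrix.diagonal ![1, 1, ε] := by
          have h4 : ε ^ 2 * ε = 1 := by rw [← pow_succ]; exact hε3
          rw [mul_assoc, Matrix.diagonal_mul_diagonal]
          ext i j
          rw [Matrix.diagonal_mul, Matrix.mul_diagonal]
          fin_cases i <;> fin_cases j <;> simp [H99.matP, h4]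
        have hya : y₀ * a = a * b ^ j * y₀ := by
          apply eq_of_mul_g (g := g)
          have hbj' := hbj j
          rw [← hj] at hbj'
          rw [Units.val_mul, Units.val_mul, Units.val_mul]
          calc (y₀ : Matrix (Fin 3) (Fin 3) F) * a * g = y₀ * (a * g) := by rw [mul_assoc]
            _ = (y₀ * g) * H99.matP F := by rw [hag, mul_assoc]
            _ = g * (Matrix.diagonal ![1, 1, ε] * H99.matP F) := by rw [hy₀, mul_assoc]
            _ = (g * H99.matP F) * Matrix.diagonal ![1, ε, ε ^ 2] * Matrix.diagonal ![1, 1, ε] := by rw [hPE]; simp only [mul_assoc]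
            _ = a * (g * Matrix.diagonal ![1, ε, ε ^ 2]) * Matrix.diagonal ![1, 1, ε] := by rw [← hag]; simp only [mul_assoc]
            _ = a * ((b ^ j : GL (Fin 3) F) * (g * Matrix.diagonal ![1, 1, ε])) := by rw [← hbj']; simp only [mul_assoc]
            _ = a * (b ^ j : GL (Fin 3) F) * y₀ * g := by rw [← hy₀]; simp only [mul_assoc]
        have hyb : y₀ * b = b * y₀ := by
          apply eq_of_mul_g (g := g)
          simp only [Units.val_mul]
          calc (y₀ : Matrix (Fin 3) (Fin 3) F) * b * g = y₀ * (b * g) := by rw [mul_assoc]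
            _ = (y₀ * g) * Matrix.diagonal ![1, η, η ^ 2] := by rw [hbg, mul_assoc]
            _ = g * (Matrix.diagonal ![1, 1, ε] * Matrix.diagonal ![1, η, η ^ 2]) := by rw [hy₀, mul_assoc]
            _ = (g * Matrix.diagonal ![1, η, η ^ 2]) * Matrix.diagonal ![1, 1, ε] := by
              rw [mul_assoc, Matrix.diagonal_mul_diagonal, Matrix.diagonal_mul_diagonal]
              congr 2
              funext i
              ring
            _ = b * (g * Matrix.diagonal ![1, 1, ε]) := by rw [← hbg, mul_assoc]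
            _ = b * y₀ * g := by rw [← hy₀, mul_assoc]
        have hyN : y₀ ∈ Cfsg.Geo.subgroupNormalizer R := by
          apply H99.mem_normalizer_of_gens hcl
          · rw [hya, mul_inv_cancel_right]
            exact R.mul_mem haR (R.pow_mem hbR j)
          · rw [hyb, mul_inv_cancel_right]
            exact hbR
        obtain ⟨y₁, hy₁N, hy₁⟩ := smul_mem hyN hα0
        obtain ⟨b₁, h12⟩ := eigenbasis_conj_diag g hy₀
        apply htrans ζ⁻¹ (inv_ne_zero hζ0) y₁ hy₁N
        apply conj_of_cnt b₁ b₂ _ _ (fun j => α * (![1, 1, ε] : Fin 3 → F) j) c₂ (fun j => by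
          rw [hy₁, map_smul, LinearMap.smul_apply, h12, smul_smul]) h22
        intro w
        rw [hcnt]
        unfold cnt
        simp only [Matrix.cons_val_zero, Matrix.cons_val_one, Matrix.cons_val]
        rw [mul_one, mul_comm ε]

end Cfsg.Agent.S5998
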