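import Cfsg.Statements.S5999
import Cfsg.Agent.H99.ExtraThreeN
import Cfsg.Agent.H99.UniEig
import Cfsg.Agent.H99.Dim2
import Cfsg.Agent.H99.FinFieldTwo

set_option autoImplicit false
open scoped MatrixGroups
open Cfsg

namespace Cfsg.Agent.S5999

open Module Matrix Uni

set_option maxHeartbeats 4000000

universe u

section
variable {F : Type u} [Field F]

open Classical in
noncomputable def ind (a z : F) : ℕ := if a = z then 1 else 0

/-- the counting function of a diagonal matrix -/
noncomputable def cnt (c : Fin 3 → F) (z : F) : ℕ := ind (c 0) z + ind (c 1) z + ind (c 2) z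

lemma card_eq_cnt (c : Fin 3 → F) (z : F) : Nat.card {j // c j = z} = cnt c z := by
  classical
  rw [Nat.card_eq_fintype_card, Fintype.card_subtype, Finset.card_filter, Fin.sum_univ_three]
  unfold cnt ind
  congr!

/-- involutions of determinant one -/
lemma cnt_invol (h2 : (2 : F) ≠ 0) {c : Fin 3 → F} (hc : ∀ j, c j ^ 2 = 1) (hprod : ∏ j, c j = 1) (hne : ¬ ∀ j, c j = 1) (z : F) :
    cnt c z = ind 1 z + ind (-1) z + ind (-1) z := by
  have h1 : ∀ j, c j = 1 ∨ c j = -1 := fun j => by rcases mul_eq_zero.mp (show (c j - 1) * (c j + 1) = 0 by linear_combination hc j) with h | h; exacts [Or.inl (sub_eq_zero.mp h), Or.inr (eq_neg_of_add_eq_zero_left h)]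
  rw [Fin.prod_univ_three] at hprod
  have hm : (-1 : F) ≠ 1 := by
    intro h
    apply h2
    linear_combination -h
  unfold cnt
  rcases h1 0 with h3 | h3 <;> rcases h1 1 with h4 | h4 <;> rcases h1 2 with h5 | h5 <;> rw [h3, h4, h5] at hprod ⊢
  all_goals first
    | ring1
    | (exfalso; apply hm; linear_combination hprod)
    | (exfalso; exact hne (fun j => by fin_cases j <;> assumption))

lemma cube_cases {η : F} (hη : η ^ 2 + η + 1 = 0) {c : F} (hc : c ^ 3 = 1) : c = 1 ∨ c = η ∨ c = η ^ 2 := by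
  have h : (c - 1) * ((c - η) * (c - η ^ 2)) = 0 := by
    have h1 := H99.cube_root hη
    linear_combination hc + (c - c ^ 2) * hη + (c - 1) * h1
  rcases mul_eq_zero.mp h with h | h
  · left; exact sub_eq_zero.mp h
  · rcases mul_eq_zero.mp h with h | h
    · right; left; exact sub_eq_zero.mp h
    · right; right; exact sub_eq_zero.mp h

/-- elements of order three with distinct eigenvalues -/
lemma cnt_distinct {η : F} (hη : η ^ 2 + η + 1 = 0) {c : Fin 3 → F} (hc : ∀ j, c j ^ 3 = 1) (h01 : c 0 ≠ c 1) (h02 : c 0 ≠ c 2) (h12 : c 1 ≠ c 2) (z : F) :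
    cnt c z = ind 1 z + ind η z + ind (η ^ 2) z := by
  unfold cnt
  rcases cube_cases hη (hc 0) with h3 | h3 | h3 <;> rcases cube_cases hη (hc 1) with h4 | h4 | h4 <;> rcases cube_cases hη (hc 2) with h5 | h5 | h5 <;>
    rw [h3, h4, h5]
  all_goals first
    | ring1
    | exact absurd (h3.trans h4.symm) h01
    | exact absurd (h3.trans h5.symm) h02
    | exact absurd (h4.trans h5.symm) h12

lemma prod_of_distinct (h3 : (3 : F) ≠ 0) {η : F} (hη : η ^ 2 + η + 1 = 0) {c : Fin 3 → F} (hc : ∀ j, c j ^ 3 = 1) (h01 : c 0 ≠ c 1) (h02 : c 0 ≠ c 2) (h12 : c 1 ≠ c 2) :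
    ∏ j, c j = 1 := by
  have hη3 := H99.cube_root hη
  rw [Fin.prod_univ_three]
  rcases cube_cases hη (hc 0) with h3 | h3 | h3 <;> rcases cube_cases hη (hc 1) with h4 | h4 | h4 <;> rcases cube_cases hη (hc 2) with h5 | h5 | h5 <;>
    rw [h3, h4, h5]
  all_goals first
    | linear_combination hη3
    | exact absurd (h3.trans h4.symm) h01
    | exact absurd (h3.trans h5.symm) h02
    | exact absurd (h4.trans h5.symm) h12

lemma two_equal {c : Fin 3 → F} {ε : F} (hc : ∀ j, c j ^ 3 = 1) (hprod : ∏ j, c j = ε) (h : c 0 = c 1 ∨ c 0 = c 2 ∨ c 1 = c 2) :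
    ∃ α : F, α ^ 3 = 1 ∧ ∀ z, cnt c z = ind α z + ind α z + ind (ε * α) z := by
  rw [Fin.prod_univ_three] at hprod
  rcases h with h | h | h
  · refine ⟨c 0, hc 0, fun z => ?_⟩
    have h1 : c 2 = ε * c 0 := by
      rw [← hprod, ← h]
      linear_combination -(c 2) * hc 0
    unfold cnt
    rw [h1, ← h]
  · refine ⟨c 0, hc 0, fun z => ?_⟩
    have h1 : c 1 = ε * c 0 := by
      rw [← hprod, ← h]
      linear_combination -(c 1) * hc 0
    unfold cnt
    rw [h1, ← h]
    ring
  · refine ⟨c 1, hc 1, fun z => ?_⟩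
    have h1 : c 0 = ε * c 1 := by
      rw [← hprod, ← h]
      linear_combination -(c 0) * hc 1
    unfold cnt
    rw [h1, ← h]
    ring


lemma calc_sq {M : Type*} [Monoid M] {y a g P T : M} (hy : y * g = g * T) (ha : a * g = g * P) (hTP : T * P = P * P * T) : y * a * g = a * a * y * g := by
  calc y * a * g = y * g * P := by rw [mul_assoc, ha, ← mul_assoc]
    _ = g * (T * P) := by rw [hy, mul_assoc]
    _ = g * P * P * T := by rw [hTP]; simp only [mul_assoc]
    _ = a * g * P * T := by rw [← ha]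
    _ = a * (g * P) * T := by rw [mul_assoc a g P]
    _ = a * (a * g) * T := by rw [ha]
    _ = a * a * y * g := by rw [← mul_assoc a a g, mul_assoc (a * a) g T, ← hy, ← mul_assoc]

lemma mk_conj (g : GL (Fin 3) F) (M : Matrix (Fin 3) (Fin 3) F) (hM : M.det ≠ 0) : ∃ y : GL (Fin 3) F, (y : Matrix (Fin 3) (Fin 3) F) * g = g * M := by
  refine ⟨g * Matrix.GeneralLinearGroup.mkOfDetNeZero M hM * g⁻¹, ?_⟩
  rw [← Units.val_mul, inv_mul_cancel_right]
  rfl

lemma eq_of_mul_g {g u w : GL (Fin 3) F} (h : (u : Matrix (Fin 3) (Fin 3) F) * g = w * g) : u = w := by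
  have h1 : u * g = w * g := Units.ext h
  exact mul_right_cancel h1

lemma smul_mem {R : Subgroup (GL (Fin 3) F)} {y₀ : GL (Fin 3) F} (hy : y₀ ∈ Cfsg.Geo.subgroupNormalizer R) {c : F} (hc : c ≠ 0) :
    ∃ y ∈ Cfsg.Geo.subgroupNormalizer R, (y : Matrix (Fin 3) (Fin 3) F) = c • (y₀ : Matrix (Fin 3) (Fin 3) F) := by
  let s : GL (Fin 3) F := ⟨c • 1, c⁻¹ • 1, by rw [smul_mul_smul_comm, mul_inv_cancel₀ hc, one_smul, mul_one], by rw [smul_mul_smul_comm, inv_mul_cancel₀ hc, one_smul, mul_one]⟩
  have hs : ∀ x : GL (Fin 3) F, s * x = x * s := by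
    intro x
    apply Units.ext
    change (c • (1 : Matrix (Fin 3) (Fin 3) F)) * (x : Matrix (Fin 3) (Fin 3) F) = (x : Matrix (Fin 3) (Fin 3) F) * (c • (1 : Matrix (Fin 3) (Fin 3) F))
    rw [smul_mul_assoc, mul_smul_comm, one_mul, mul_one]
  have hsN : s ∈ Cfsg.Geo.subgroupNormalizer R := by
    change s ∈ Subgroup.normalizer (R : Set (GL (Fin 3) F))
    rw [Subgroup.mem_normalizer_iff]
    intro x
    rw [hs x, mul_inv_cancel_right]
  refine ⟨s * y₀, Subgroup.mul_mem _ hsN hy, ?_⟩
  change (c • (1 : Matrix (Fin 3) (Fin 3) F)) * (y₀ : Matrix (Fin 3) (Fin 3) F) = _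
  rw [smul_mul_assoc, one_mul]

lemma det_eq_one {x : GL (Fin 3) F} (hx : x ∈ Cfsg.Geo.specialLinear (Fin 3) F) : (x : Matrix (Fin 3) (Fin 3) F).det = 1 := by
  have h1 : Matrix.GeneralLinearGroup.det x = 1 := hx
  have h2 := congrArg Units.val h1
  simpa using h2

lemma mem_SL {x : GL (Fin 3) F} (hx : (x : Matrix (Fin 3) (Fin 3) F).det = 1) : x ∈ Cfsg.Geo.specialLinear (Fin 3) F := by
  change Matrix.GeneralLinearGroup.det x = 1
  apply Units.ext
  simpa using hx


lemma pres_smul [Fintype F] {q : ℕ} {s : F} (hs : s ^ (q + 1) = 1) {M : Matrix (Fin 3) (Fin 3) F} (hM : Pres q M) : Pres q (s • M) := by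
  intro u v
  rw [Matrix.smul_mulVec, Matrix.smul_mulVec, hermForm_smul_left, hermForm_smul_right, hM, ← mul_assoc, ← pow_succ', hs, one_mul]

lemma pres_matT [Fintype F] {q : ℕ} (hF : Fintype.card F = q ^ 2) : Pres q (H99.matT F) := by
  intro u v
  rw [hermForm_def, hermForm_def, Fin.sum_univ_three, Fin.sum_univ_three]
  simp [H99.matT, Matrix.mulVec, dotProduct, Fin.sum_univ_three, neg_pow_q hF]
  ring

lemma pow_of_cube {η : F} (hη : η ^ 3 = 1) {q : ℕ} (hq : 3 ∣ q + 1) : η ^ (q + 1) = 1 := by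
  obtain ⟨m, hm⟩ := hq
  rw [hm, pow_mul, hη, one_pow]

/-- an orthonormal basis adapted to the extraspecial group -/
lemma exists_good [Fintype F] {q : ℕ} (hF : Fintype.card F = q ^ 2) (hq3 : 3 ∣ q + 1) (h3 : (3 : F) ≠ 0) {a b : GL (Fin 3) F} {η : F} {v : Fin 3 → F}
    (hη : η ^ 2 + η + 1 = 0) (ha : a ^ 3 = 1) (haU : a ∈ GU 3 F q) (hbU : b ∈ GU 3 F q)
    (hba : (b : Matrix (Fin 3) (Fin 3) F) * a = η • ((a : Matrix (Fin 3) (Fin 3) F) * b)) (hv0 : v ≠ 0) (hbv : (b : Matrix (Fin 3) (Fin 3) F) *ᵥ v = v) :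
    ∃ g : GL (Fin 3) F, g ∈ GU 3 F q ∧
      (a : Matrix (Fin 3) (Fin 3) F) * g = g * H99.matP F ∧ (b : Matrix (Fin 3) (Fin 3) F) * g = g * Matrix.diagonal ![1, η, η ^ 2] := by
  have hη3 := H99.cube_root hη
  have hη1 := H99.cube_root_ne_one h3 hη
  have hη2 : η ^ 2 ≠ 1 := by
    intro h
    rw [pow_succ, h, one_mul] at hη3
    exact hη1 hη3
  have hη12 : η ≠ η ^ 2 := by
    intro h
    apply hη1
    have h0 : η ≠ 0 := by
      rintro rfl
      rw [zero_pow (by norm_num)] at hη3
      exact zero_ne_one hη3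
    have h4 : η * 1 = η * η := by rw [mul_one, ← pow_two]; exact h
    exact (mul_left_cancel₀ h0 h4).symm
  have hμ : ∀ i, (![1, η, η ^ 2] : Fin 3 → F) i ^ (q + 1) = 1 := by
    intro i
    fin_cases i
    · simp
    · exact pow_of_cube hη3 hq3
    · change (η ^ 2) ^ (q + 1) = 1
      rw [← pow_mul, mul_comm, pow_mul, pow_of_cube hη3 hq3, one_pow]
  have hμne : ∀ i j, i ≠ j → (![1, η, η ^ 2] : Fin 3 → F) i ≠ (![1, η, η ^ 2] : Fin 3 → F) j := by
    intro i j hij
    fin_cases i <;> fin_cases j
    all_goals first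
      | exact absurd rfl hij
      | exact fun h => hη1 h.symm
      | exact fun h => hη2 h.symm
      | exact hη1
      | exact hη2
      | exact hη12
      | exact hη12.symm
  -- orthogonality of the columns, for every choice of `v`
  have key : ∀ v : Fin 3 → F, v ≠ 0 → (b : Matrix (Fin 3) (Fin 3) F) *ᵥ v = v → ∃ g : GL (Fin 3) F,
      (∀ j, (fun r => (g : Matrix (Fin 3) (Fin 3) F) r j) = (![v, (a : Matrix (Fin 3) (Fin 3) F) *ᵥ v, (a : Matrix (Fin 3) (Fin 3) F) *ᵥ ((a : Matrix (Fin 3) (Fin 3) F) *ᵥ v)] : Fin 3 → Fin 3 → F) j) ∧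
      (a : Matrix (Fin 3) (Fin 3) F) * g = g * H99.matP F ∧ (b : Matrix (Fin 3) (Fin 3) F) * g = g * Matrix.diagonal ![1, η, η ^ 2] ∧
      ∀ i j, i ≠ j → hermForm 3 F q (fun r => (g : Matrix (Fin 3) (Fin 3) F) r i) (fun r => (g : Matrix (Fin 3) (Fin 3) F) r j) = 0 := by
    intro v hv0 hbv
    obtain ⟨g, hg, hag, hbg⟩ := H99.extraThree_basis h3 hη ha hba hv0 hbv
    refine ⟨g, fun j => by rw [hg]; rfl, hag, hbg, fun i j hij => ?_⟩
    have heig : ∀ j, (b : Matrix (Fin 3) (Fin 3) F) *ᵥ (fun r => (g : Matrix (Fin 3) (Fin 3) F) r j) = (![1, η, η ^ 2] : Fin 3 → F) j • (fun r => (g : Matrix (Fin 3) (Fin 3) F) r j) := by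
      intro j
      funext r
      have h1 := congrFun (congrFun hbg r) j
      rw [Matrix.mul_diagonal] at h1
      rw [Pi.smul_apply, smul_eq_mul, mul_comm, ← h1]
      rfl
    have h1 := hbU (fun r => (g : Matrix (Fin 3) (Fin 3) F) r i) (fun r => (g : Matrix (Fin 3) (Fin 3) F) r j)
    change hermForm 3 F q ((b : Matrix (Fin 3) (Fin 3) F) *ᵥ _) ((b : Matrix (Fin 3) (Fin 3) F) *ᵥ _) = _ at h1
    rw [heig, heig, hermForm_smul_left, hermForm_smul_right] at h1
    by_contra hne
    apply hμne i j hij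
    have h2 : (![1, η, η ^ 2] : Fin 3 → F) i * (![1, η, η ^ 2] : Fin 3 → F) j ^ q = 1 := by
      apply mul_right_cancel₀ hne
      rw [one_mul, mul_assoc]
      exact h1
    have h3 := hμ j
    rw [pow_succ'] at h3
    have h4 : (![1, η, η ^ 2] : Fin 3 → F) j ^ q ≠ 0 := by
      intro h
      rw [h, mul_zero] at h2
      exact zero_ne_one h2
    exact mul_right_cancel₀ h4 (h2.trans h3.symm)
  have hnorm : ∀ v : Fin 3 → F, hermForm 3 F q ((a : Matrix (Fin 3) (Fin 3) F) *ᵥ v) ((a : Matrix (Fin 3) (Fin 3) F) *ᵥ v) = hermForm 3 F q v v := fun v => haU v v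
  have hδ : hermForm 3 F q v v ≠ 0 := by
    intro h0
    obtain ⟨g, hgc, -, -, hor⟩ := key v hv0 hbv
    apply hv0
    apply hermForm_nondeg hF
    intro x
    have hx : x = (g : Matrix (Fin 3) (Fin 3) F) *ᵥ (((g⁻¹ : GL (Fin 3) F) : Matrix (Fin 3) (Fin 3) F) *ᵥ x) := (gl_mulVec_inv g x).symm
    rw [hx, Uni.mulVec_eq_sum, hermForm_sum_right hF]
    apply Finset.sum_eq_zero
    intro i _
    rw [hermForm_smul_right]
    have hv' : v = (fun r => (g : Matrix (Fin 3) (Fin 3) F) r 0) := (hgc 0).symm
    by_cases hi : i = 0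
    · rw [hi, ← hv', h0, mul_zero]
    · rw [hv', hor 0 i (Ne.symm hi), mul_zero]
  obtain ⟨s, hs0, -, hs1⟩ := exists_unit_of_ne_zero hF (⊤ : Submodule F (Fin 3 → F)) (Submodule.mem_top (x := v)) hδ
  have hv'0 : s • v ≠ 0 := smul_ne_zero hs0 hv0
  have hbv' : (b : Matrix (Fin 3) (Fin 3) F) *ᵥ (s • v) = s • v := by rw [Matrix.mulVec_smul, hbv]
  obtain ⟨g, hgc, hag, hbg, hor⟩ := key (s • v) hv'0 hbv'
  refine ⟨g, ?_, hag, hbg⟩
  change ∀ u v, hermForm 3 F q ((g : Matrix (Fin 3) (Fin 3) F) *ᵥ u) ((g : Matrix (Fin 3) (Fin 3) F) *ᵥ v) = hermForm 3 F q u v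
  rw [preserves_iff hF]
  intro i j
  by_cases hij : i = j
  · rw [if_pos hij, ← hij]
    change hermForm 3 F q (fun r => (g : Matrix (Fin 3) (Fin 3) F) r i) (fun r => (g : Matrix (Fin 3) (Fin 3) F) r i) = 1
    rw [hgc i]
    fin_cases i
    · exact hs1
    · change hermForm 3 F q ((a : Matrix (Fin 3) (Fin 3) F) *ᵥ (s • v)) ((a : Matrix (Fin 3) (Fin 3) F) *ᵥ (s • v)) = 1
      rw [hnorm, hs1]
    · change hermForm 3 F q ((a : Matrix (Fin 3) (Fin 3) F) *ᵥ ((a : Matrix (Fin 3) (Fin 3) F) *ᵥ (s • v))) ((a : Matrix (Fin 3) (Fin 3) F) *ᵥ ((a : Matrix (Fin 3) (Fin 3) F) *ᵥ (s • v))) = 1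
      rw [hnorm, hnorm, hs1]
  · rw [if_neg hij]
    exact hor i j hij

lemma card_T [Fintype F] {q : ℕ} (hF : Fintype.card F = q ^ 2) :
    Nat.card (GU 3 F q ⊓ Cfsg.Geo.specialLinear (Fin 3) F : Subgroup (GL (Fin 3) F)) = q ^ 3 * (q ^ 2 - 1) * (q ^ 3 + 1) := by
  have h1 : Nat.card (GU 3 F q ⊓ Cfsg.Geo.specialLinear (Fin 3) F : Subgroup (GL (Fin 3) F)) = Nat.card (SU 3 F q) := by
    apply Nat.card_congr
    refine ⟨fun x => mkSU (x : GL (Fin 3) F) x.2.1 (det_eq_one x.2.2), fun y => ⟨Matrix.SpecialLinearGroup.toGL (y : Matrix.SpecialLinearGroup (Fin 3) F), SU_pres y, mem_SL (by simp)⟩, fun x => ?_, fun y => ?_⟩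
    · apply Subtype.ext
      apply Units.ext
      rfl
    · apply SU_ext
      rfl
  rw [h1]
  have h2 := card_SU (F := F) (n := 3) hF (by norm_num)
  rw [Finset.prod_range_succ, Finset.prod_range_succ, Finset.prod_range_succ, Finset.prod_range_zero] at h2
  have e0 : Even 0 := ⟨0, rfl⟩
  have e1 : ¬ Even 1 := by decide
  have e2 : Even 2 := ⟨1, rfl⟩
  rw [if_pos e0, if_neg e1, if_pos e2] at h2
  apply Nat.eq_of_mul_eq_mul_left (show 0 < q + 1 by omega)
  rw [h2]
  simp only [Nat.reduceAdd, Nat.reduceMul, Nat.reduceSub, Nat.reduceDiv]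
  ring

/-- conclusion step -/
lemma conj_into [Fintype F] {q : ℕ} {R : Subgroup (GL (Fin 3) F)} {x : GL (Fin 3) F} {s : F} (hs : s ≠ 0)
    {y₀ : GL (Fin 3) F} (hy₀ : y₀ ∈ Cfsg.Geo.subgroupNormalizer R)
    {u : GL (Fin 3) F} (hu : u ∈ GU 3 F q) (hudet : (u : Matrix (Fin 3) (Fin 3) F).det = 1)
    (h : (s • (x : Matrix (Fin 3) (Fin 3) F)) * u = u * y₀) :
    ∃ g ∈ GU 3 F q ⊓ Cfsg.Geo.specialLinear (Fin 3) F, g⁻¹ * x * g ∈ Cfsg.Geo.subgroupNormalizer R := by
  refine ⟨u, ⟨hu, mem_SL hudet⟩, ?_⟩
  obtain ⟨y, hy, hyv⟩ := smul_mem hy₀ (inv_ne_zero hs)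
  have h1 : x * u = u * y := by
    apply Units.ext
    rw [Units.val_mul, Units.val_mul, hyv, mul_smul_comm, ← h, smul_mul_assoc, smul_smul, inv_mul_cancel₀ hs, one_smul]
  have h2 : u⁻¹ * x * u = y := by rw [mul_assoc, h1, inv_mul_cancel_left]
  rw [h2]
  exact hy

lemma cnt_eq_card {c d : Fin 3 → F} (h : ∀ z, cnt c z = cnt d z) (z : F) : Nat.card {j // c j = z} = Nat.card {j // d j = z} := by
  rw [card_eq_cnt, card_eq_cnt, h]


end


/-- Elements of prime order of PSU_3(p), p ≡ 2 (mod 3), and the normalizer of an extraspecial subgroup of order 27. Here `T = PSU_3(p)` for a prime `p ≥ 5` with `p ≡ 2 (mod 3)`, realised through `SU_3(p)`, the matrices of determinant 1 over the field `F` with `p²` elements preserving the hermitian form `Σ uᵢvᵢ^p`; `R` is a non-abelian subgroup of order 27 and exponent 3 of the full unitary group of that form (an extraspecial group 3^{1+2}, acting absolutely irreducibly), and `H` is the subgroup of `SU_3(p)` normalizing `R` — a subgroup of type 3^{1+2}.Sp₂(3)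 (maximality is not assumed). Ω is the set of cosets of `H`, so an element of `T` of prime order `r` (`x ∈ SU_3(p)` with `x^r` scalar, `x` not scalar) fixes a point of Ω exactly when some `SU_3(p)`-conjugate of `x` normalizes `R`. Let `r` be a prime dividing the index of `H`. Then every element of `T` of order `r` fixes a point of Ω if and only if `r = 2`, or `r = 3` and `p ≡ 8 (mod 9)`. -/
theorem result {F : Type*} [Field F] [Fintype F] {p : ℕ} [Fact p.Prime] [CharP F p] (hF : Fintype.card F = p ^ 2) (hp : 5 ≤ p) (hp3 : p % 3 = 2)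
    (R : Subgroup (GL (Fin 3) F)) (hRU : R ≤ Cfsg.GU 3 F p) (hR : Nat.card R = 27) (hRe : Monoid.exponent R = 3) (hRna : ¬ IsMulCommutative R)
    (r : ℕ) [Fact r.Prime]
    (hΩ : r ∣ (Cfsg.Geo.subgroupNormalizer R).relIndex (Cfsg.GU 3 F p ⊓ Cfsg.Geo.specialLinear (Fin 3) F)) :
    (∀ x ∈ Cfsg.GU 3 F p ⊓ Cfsg.Geo.specialLinear (Fin 3) F, (∃ z : F, ((x ^ r : GL (Fin 3) F) : Matrix (Fin 3) (Fin 3) F) = z • (1 : Matrix (Fin 3) (Fin 3) F)) →
      (∀ z : F, (x : Matrix (Fin 3) (Fin 3) F) ≠ z • (1 : Matrix (Fin 3) (Fin 3) F)) →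
      ∃ g ∈ Cfsg.GU 3 F p ⊓ Cfsg.Geo.specialLinear (Fin 3) F, g⁻¹ * x * g ∈ Cfsg.Geo.subgroupNormalizer R) ↔ (r = 2 ∨ (r = 3 ∧ p % 9 = 8)) := by
  classical
  have hrp : r.Prime := Fact.out
  have hpp : p.Prime := Fact.out
  have hodd : p % 2 = 1 := hpp.eq_two_or_odd.resolve_left (by omega)
  have h2F : (2 : F) ≠ 0 := by
    intro h
    have : ((2 : ℕ) : F) = 0 := by exact_mod_cast h
    have := (CharP.cast_eq_zero_iff F p 2).mp this
    have := Nat.le_of_dvd (by norm_num) this
    omega
  have h3F : (3 : F) ≠ 0 := by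
    intro h
    have : ((3 : ℕ) : F) = 0 := by exact_mod_cast h
    have := (CharP.cast_eq_zero_iff F p 3).mp this
    have := Nat.le_of_dvd (by norm_num) this
    omega
  have h3q : 3 ∣ p + 1 := by omega
  have h2q : 2 ∣ p + 1 := by omega
  have hFm : Fintype.card F - 1 = (p - 1) * (p + 1) := by
    rw [hF]
    obtain ⟨t, rfl⟩ : ∃ t, p = t + 1 := ⟨p - 1, by omega⟩
    have : (t + 1) ^ 2 = t * (t + 1 + 1) + 1 := by ring
    rw [this]
    simp
  obtain ⟨γ, hγ0, hγ1, hγ2⟩ := H99.exists_generator (F := F)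
  obtain ⟨ω, hω⟩ : ∃ ω : F, ω ^ 2 + ω + 1 = 0 := by
    have h3q' : 3 ∣ Fintype.card F - 1 := by rw [hFm]; exact Dvd.dvd.mul_left h3q _
    obtain ⟨m, hm⟩ := h3q'
    have h1 : (γ ^ m) ^ 3 = 1 := by rw [← pow_mul, mul_comm, ← hm, hγ1]
    have h2 : γ ^ m ≠ 1 := by
      intro h
      rw [hγ1, hm] at h
      have hm0 : 0 < m := by
        by_contra h0
        have : m = 0 := by omega
        rw [this, hFm] at hm
        have : 0 < (p - 1) * (p + 1) := Nat.mul_pos (by omega) (by omega)
        omega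
      have := Nat.le_of_dvd hm0 h
      omega
    refine ⟨γ ^ m, ?_⟩
    have h3 : (γ ^ m - 1) * ((γ ^ m) ^ 2 + γ ^ m + 1) = 0 := by linear_combination h1
    exact (mul_eq_zero.mp h3).resolve_left (sub_ne_zero.mpr h2)
  obtain ⟨a, b, η, v, haR, hbR, hcl, hη, ha3, hb3, hba, hv0, hbv⟩ := H99.extraThree h3F hω R hR hRe hRna
  obtain ⟨g, hgU, hag, hbg⟩ := exists_good hF h3q h3F hη ha3 (hRU haR) (hRU hbR) hba hv0 hbv
  have hη3 := H99.cube_root hη
  have hη1 := H99.cube_root_ne_one h3F hη
  have hfin : Finite R := Nat.finite_of_card_ne_zero (by rw [hR]; norm_num)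
  have hgdet : (g : Matrix (Fin 3) (Fin 3) F).det ≠ 0 := by
    have := g.isUnit
    rw [Matrix.isUnit_iff_isUnit_det] at this
    exact this.ne_zero
  have hdetP : (H99.matP F).det = 1 := by
    rw [Matrix.det_fin_three]
    simp [H99.matP]
  have hadet : (a : Matrix (Fin 3) (Fin 3) F).det = 1 := by
    have h1 := congrArg Matrix.det hag
    rw [Matrix.det_mul, Matrix.det_mul, hdetP, mul_one] at h1
    exact mul_right_cancel₀ hgdet (by rw [h1, one_mul])
  have hbdet : (b : Matrix (Fin 3) (Fin 3) F).det = 1 := by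
    have h1 := congrArg Matrix.det hbg
    rw [Matrix.det_mul, Matrix.det_mul, Matrix.det_diagonal, Fin.prod_univ_three] at h1
    simp only [Matrix.cons_val_zero, Matrix.cons_val_one, Matrix.cons_val] at h1
    rw [one_mul, ← pow_succ', hη3, mul_one] at h1
    exact mul_right_cancel₀ hgdet (by rw [h1, one_mul])
  have hRSL : R ≤ Cfsg.Geo.specialLinear (Fin 3) F := by
    rw [← hcl, Subgroup.closure_le]
    rintro x (rfl | hx)
    · exact mem_SL hadet
    · rw [Set.mem_singleton_iff] at hx
      rw [hx]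
      exact mem_SL hbdet
  have hRN : R ≤ Cfsg.Geo.subgroupNormalizer R := Subgroup.le_normalizer
  set T : Subgroup (GL (Fin 3) F) := GU 3 F p ⊓ Cfsg.Geo.specialLinear (Fin 3) F with hT
  constructor
  · intro H
    by_contra hcon
    push Not at hcon
    obtain ⟨hr2, hr3⟩ := hcon
    by_cases h3 : r = 3
    · -- the index is prime to three
      subst h3
      have hp9 : p % 9 ≠ 8 := hr3 rfl
      have h1 : Nat.card R ∣ Nat.card ((Cfsg.Geo.subgroupNormalizer R).subgroupOf T) := by
        have h2 : Nat.card ((Cfsg.Geo.subgroupNormalizer R).subgroupOf T) =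
            Nat.card (Cfsg.Geo.subgroupNormalizer R ⊓ T : Subgroup (GL (Fin 3) F)) := by
          rw [← Subgroup.inf_subgroupOf_right]
          exact Nat.card_congr (Subgroup.subgroupOfEquivOfLe inf_le_right).toEquiv
        rw [h2]
        exact Subgroup.card_dvd_of_le (le_inf hRN (le_inf hRU hRSL))
      have h2 := Subgroup.card_mul_index ((Cfsg.Geo.subgroupNormalizer R).subgroupOf T)
      rw [hT, card_T hF, ← hT] at h2
      have h4 : 27 * 3 ∣ p ^ 3 * (p ^ 2 - 1) * (p ^ 3 + 1) := by
        rw [← h2]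
        exact Nat.mul_dvd_mul (by rw [← hR]; exact h1) hΩ
      have hP3 : Nat.Prime 3 := Nat.prime_three
      obtain ⟨k, hk⟩ : ∃ k, p = 9 * k + 2 ∨ p = 9 * k + 5 := ⟨p / 9, by omega⟩
      rcases hk with hk | hk
      · have e1 : p ^ 3 + 1 = 9 * (81 * k ^ 3 + 54 * k ^ 2 + 12 * k + 1) := by
          rw [hk]
          ring
        have e2 : p ^ 2 - 1 = 3 * (27 * k ^ 2 + 12 * k + 1) := by
          rw [hk]
          have : (9 * k + 2) ^ 2 = 3 * (27 * k ^ 2 + 12 * k + 1) + 1 := by ring
          omega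
        rw [e1, e2] at h4
        have e3 : p ^ 3 * (3 * (27 * k ^ 2 + 12 * k + 1)) * (9 * (81 * k ^ 3 + 54 * k ^ 2 + 12 * k + 1)) = 27 * (p ^ 3 * (27 * k ^ 2 + 12 * k + 1) * (81 * k ^ 3 + 54 * k ^ 2 + 12 * k + 1)) := by ring
        rw [e3] at h4
        have h5 := Nat.dvd_of_mul_dvd_mul_left (by norm_num) h4
        rcases hP3.dvd_mul.mp h5 with h6 | h6
        · rcases hP3.dvd_mul.mp h6 with h7 | h7
          · have := hP3.dvd_of_dvd_pow h7
            omega
          · omega
        · omega
      · have e1 : p ^ 3 + 1 = 9 * (81 * k ^ 3 + 135 * k ^ 2 + 75 * k + 14) := by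
          rw [hk]
          ring
        have e2 : p ^ 2 - 1 = 3 * (27 * k ^ 2 + 30 * k + 8) := by
          rw [hk]
          have : (9 * k + 5) ^ 2 = 3 * (27 * k ^ 2 + 30 * k + 8) + 1 := by ring
          omega
        rw [e1, e2] at h4
        have e3 : p ^ 3 * (3 * (27 * k ^ 2 + 30 * k + 8)) * (9 * (81 * k ^ 3 + 135 * k ^ 2 + 75 * k + 14)) = 27 * (p ^ 3 * (27 * k ^ 2 + 30 * k + 8) * (81 * k ^ 3 + 135 * k ^ 2 + 75 * k + 14)) := by ring
        rw [e3] at h4
        have h5 := Nat.dvd_of_mul_dvd_mul_left (by norm_num) h4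
        rcases hP3.dvd_mul.mp h5 with h6 | h6
        · rcases hP3.dvd_mul.mp h6 with h7 | h7
          · have := hP3.dvd_of_dvd_pow h7
            omega
          · omega
        · omega
    have hr5 : 5 ≤ r := by
      by_contra h
      have : r = 0 ∨ r = 1 ∨ r = 2 ∨ r = 3 ∨ r = 4 := by omega
      rcases this with h | h | h | h | h <;> subst h <;> revert hrp <;> norm_num at *
    -- an element of order r
    have hdvd : r ∣ Nat.card T := by
      refine hΩ.trans ?_
      rw [Subgroup.relIndex]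
      exact Subgroup.index_dvd_card _
    obtain ⟨⟨x, hxS⟩, hx⟩ := exists_prime_orderOf_dvd_card' r hdvd
    have hxr : x ^ r = 1 := by
      have := pow_orderOf_eq_one (⟨x, hxS⟩ : T)
      rw [hx] at this
      have h2 := congrArg Subtype.val this
      simpa using h2
    have hx1 : x ≠ 1 := by
      intro h
      have h2 : (⟨x, hxS⟩ : T) = 1 := Subtype.ext h
      rw [h2, orderOf_one] at hx
      omega
    have hxs : ∀ z : F, (x : Matrix (Fin 3) (Fin 3) F) ≠ z • (1 : Matrix (Fin 3) (Fin 3) F) := by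
      intro z hz
      have hd := det_eq_one hxS.2
      rw [hz, Matrix.det_smul, Matrix.det_one, mul_one, Fintype.card_fin] at hd
      have h2 : x ^ 3 = 1 := by
        apply Units.ext
        rw [Units.val_pow_eq_pow_val, hz, smul_pow, hd, one_smul, one_pow]
        rfl
      have h3 : orderOf x ∣ 3 := orderOf_dvd_of_pow_eq_one h2
      have h4 : orderOf x ∣ r := orderOf_dvd_of_pow_eq_one hxr
      rcases (Nat.dvd_prime Nat.prime_three).mp h3 with h5 | h5
      · exact hx1 (orderOf_eq_one_iff.mp h5)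
      · rw [h5] at h4
        rcases (Nat.dvd_prime hrp).mp h4 with h6 | h6 <;> omega
    obtain ⟨g', hgS, hg'⟩ := H x hxS ⟨1, by rw [hxr, one_smul]; rfl⟩ hxs
    set y := g'⁻¹ * x * g' with hy
    have hyr : y ^ r = 1 := by
      have : y = g'⁻¹ * x * (g'⁻¹)⁻¹ := by rw [inv_inv]
      rw [this, conj_pow, hxr]
      simp
    have hmod := H99.card_cent_modEq hg' r hyr
    rw [hR] at hmod
    have hcd : Nat.card {t : R // y * t = t * y} ∣ 27 := by
      have h1 : Nat.card {t : R // y * t = t * y} = Nat.card ((Subgroup.centralizer {y}).subgroupOf R) := by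
        apply Nat.card_congr
        apply Equiv.subtypeEquivRight
        intro t
        rw [Subgroup.mem_subgroupOf, Subgroup.mem_centralizer_singleton_iff]
        exact ⟨fun h => h.symm, fun h => h.symm⟩
      rw [h1, ← hR]
      exact Subgroup.card_subgroup_dvd_card _
    have hge : 1 < Nat.card {t : R // y * t = t * y} := by
      set c : GL (Fin 3) F := b * a * (a * b)⁻¹ with hc
      have hcR : c ∈ R := R.mul_mem (R.mul_mem hbR haR) (R.inv_mem (R.mul_mem haR hbR))
      have hcv : (c : Matrix (Fin 3) (Fin 3) F) = η • (1 : Matrix (Fin 3) (Fin 3) F) := by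
        rw [hc, Units.val_mul, Units.val_mul, hba, smul_mul_assoc, ← Units.val_mul, ← Units.val_mul, mul_inv_cancel]
        rfl
      have hcc : y * c = c * y := by
        apply Units.ext
        change (y : Matrix (Fin 3) (Fin 3) F) * (c : Matrix (Fin 3) (Fin 3) F) = (c : Matrix (Fin 3) (Fin 3) F) * (y : Matrix (Fin 3) (Fin 3) F)
        rw [hcv, mul_smul_comm, smul_mul_assoc, mul_one, one_mul]
      have hne1 : (⟨⟨c, hcR⟩, hcc⟩ : {t : R // y * t = t * y}) ≠ ⟨⟨1, R.one_mem⟩, by simp⟩ := by
        intro h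
        have h1 : c = 1 := congrArg (fun t : {t : R // y * t = t * y} => ((t : R) : GL (Fin 3) F)) h
        rw [h1] at hcv
        apply hη1
        have h2 := congrFun (congrFun hcv 0) 0
        simpa using h2.symm
      have : Nontrivial {t : R // y * t = t * y} := ⟨_, _, hne1⟩
      exact Finite.one_lt_card
    have h27 : Nat.card {t : R // y * t = t * y} = 27 := by
      set k := Nat.card {t : R // y * t = t * y} with hk
      have h4 : k ∈ Nat.divisors 27 := Nat.mem_divisors.mpr ⟨hcd, by norm_num⟩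
      rw [show Nat.divisors 27 = {1, 3, 9, 27} by decide] at h4
      simp only [Finset.mem_insert, Finset.mem_singleton] at h4
      have hk27 : k ≤ 27 := Nat.le_of_dvd (by norm_num) hcd
      have h1 : r ∣ 27 - k := (Nat.modEq_iff_dvd' hk27).mp hmod.symm
      rcases h4 with h4 | h4 | h4 | h4
      · omega
      · rw [h4] at h1
        exfalso
        have h5 : r ∣ 2 ^ 3 * 3 := h1
        rcases hrp.dvd_mul.mp h5 with h6 | h6
        · have := Nat.le_of_dvd (by norm_num) (hrp.dvd_of_dvd_pow h6)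
          omega
        · have := Nat.le_of_dvd (by norm_num) h6
          omega
      · rw [h4] at h1
        exfalso
        have h5 : r ∣ 3 ^ 2 * 2 := h1
        rcases hrp.dvd_mul.mp h5 with h6 | h6
        · have := Nat.le_of_dvd (by norm_num) (hrp.dvd_of_dvd_pow h6)
          omega
        · have := Nat.le_of_dvd (by norm_num) h6
          omega
      · exact h4
    have hall : ∀ t : R, y * t = t * y := by
      have h1 : Nat.card {t : R // y * t = t * y} = Nat.card R := by rw [h27, hR]
      have h2 : Function.Injective (Subtype.val : {t : R // y * t = t * y} → R) := Subtype.val_injective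
      have h3 : Function.Bijective (Subtype.val : {t : R // y * t = t * y} → R) :=
        (Nat.bijective_iff_injective_and_card _).mpr ⟨h2, h1⟩
      intro t
      obtain ⟨⟨s, hs⟩, rfl⟩ := h3.2 t
      exact hs
    -- `y` is scalar
    set M : GL (Fin 3) F := g⁻¹ * y * g with hM
    have hyM : (y : Matrix (Fin 3) (Fin 3) F) * g = g * M := by
      rw [← Units.val_mul, ← Units.val_mul]
      congr 1
      rw [hM]
      group
    have hMD : (M : Matrix (Fin 3) (Fin 3) F) * Matrix.diagonal ![1, η, η ^ 2] = Matrix.diagonal ![1, η, η ^ 2] * M := by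
      have h1 := congrArg Units.val (hall ⟨b, hbR⟩)
      change (y : Matrix (Fin 3) (Fin 3) F) * b = b * y at h1
      have h2 : (g : Matrix (Fin 3) (Fin 3) F) * (M * Matrix.diagonal ![1, η, η ^ 2]) = g * (Matrix.diagonal ![1, η, η ^ 2] * M) := by
        calc (g : Matrix (Fin 3) (Fin 3) F) * (M * Matrix.diagonal ![1, η, η ^ 2]) = (g * M) * Matrix.diagonal ![1, η, η ^ 2] := by rw [mul_assoc]
          _ = y * (g * Matrix.diagonal ![1, η, η ^ 2]) := by rw [← hyM, mul_assoc]
          _ = (y * b) * g := by rw [← hbg, mul_assoc]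
          _ = b * (y * g) := by rw [h1, mul_assoc]
          _ = (b * g) * M := by rw [hyM, mul_assoc]
          _ = g * (Matrix.diagonal ![1, η, η ^ 2] * M) := by rw [hbg, mul_assoc]
      have h3 := congrArg (fun t => ((g⁻¹ : GL (Fin 3) F) : Matrix (Fin 3) (Fin 3) F) * t) h2
      simp only [← mul_assoc] at h3
      rw [← Units.val_mul, inv_mul_cancel, Units.val_one, one_mul, one_mul] at h3
      exact h3
    have hMP : (M : Matrix (Fin 3) (Fin 3) F) * H99.matP F = H99.matP F * M := by
      have h1 := congrArg Units.val (hall ⟨a, haR⟩)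
      change (y : Matrix (Fin 3) (Fin 3) F) * a = a * y at h1
      have h2 : (g : Matrix (Fin 3) (Fin 3) F) * (M * H99.matP F) = g * (H99.matP F * M) := by
        calc (g : Matrix (Fin 3) (Fin 3) F) * (M * H99.matP F) = (g * M) * H99.matP F := by rw [mul_assoc]
          _ = y * (g * H99.matP F) := by rw [← hyM, mul_assoc]
          _ = (y * a) * g := by rw [← hag, mul_assoc]
          _ = a * (y * g) := by rw [h1, mul_assoc]
          _ = (a * g) * M := by rw [hyM, mul_assoc]
          _ = g * (H99.matP F * M) := by rw [hag, mul_assoc]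
      have h3 := congrArg (fun t => ((g⁻¹ : GL (Fin 3) F) : Matrix (Fin 3) (Fin 3) F) * t) h2
      simp only [← mul_assoc] at h3
      rw [← Units.val_mul, inv_mul_cancel, Units.val_one, one_mul, one_mul] at h3
      exact h3
    have hη2 : η ^ 2 ≠ 1 := by
      intro h
      rw [pow_succ, h, one_mul] at hη3
      exact hη1 hη3
    have hη12 : η - η ^ 2 ≠ 0 := by
      intro h
      apply hη1
      have h4 : η ^ 3 - η ^ 4 = 0 := by linear_combination η ^ 2 * h
      linear_combination -h4 - (η - 1) * hη3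
    have hoff : ∀ i j, i ≠ j → (M : Matrix (Fin 3) (Fin 3) F) i j = 0 := by
      intro i j hij
      have h1 := congrFun (congrFun hMD i) j
      rw [Matrix.mul_diagonal, Matrix.diagonal_mul] at h1
      have h2 : ((![1, η, η ^ 2] : Fin 3 → F) j - (![1, η, η ^ 2] : Fin 3 → F) i) * (M : Matrix (Fin 3) (Fin 3) F) i j = 0 := by linear_combination h1
      refine (mul_eq_zero.mp h2).resolve_left ?_
      fin_cases i <;> fin_cases j
      all_goals first
        | exact absurd rfl hij
        | (intro h; exact hη1 (sub_eq_zero.mp h))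
        | (intro h; exact hη1 (sub_eq_zero.mp h).symm)
        | (intro h; exact hη2 (sub_eq_zero.mp h))
        | (intro h; exact hη2 (sub_eq_zero.mp h).symm)
        | (intro h; exact hη12 h)
        | (intro h; exact hη12 (sub_eq_zero.mpr (sub_eq_zero.mp h).symm))
    have hdiag : ∀ i, (M : Matrix (Fin 3) (Fin 3) F) i i = (M : Matrix (Fin 3) (Fin 3) F) 0 0 := by
      have h1 := congrFun (congrFun hMP 1) 0
      have h2 := congrFun (congrFun hMP 2) 1
      rw [Matrix.mul_apply, Matrix.mul_apply, Fin.sum_univ_three, Fin.sum_univ_three] at h1 h2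
      simp [H99.matP] at h1 h2
      intro i
      fin_cases i
      · rfl
      · exact h1
      · exact h2.trans h1
    have hMs : (M : Matrix (Fin 3) (Fin 3) F) = ((M : Matrix (Fin 3) (Fin 3) F) 0 0) • (1 : Matrix (Fin 3) (Fin 3) F) := by
      ext i j
      by_cases hij : i = j
      · subst hij
        rw [hdiag i, Matrix.smul_apply, Matrix.one_apply_eq, smul_eq_mul, mul_one]
      · rw [hoff i j hij, Matrix.smul_apply, Matrix.one_apply_ne hij, smul_zero]
    apply hxs ((M : Matrix (Fin 3) (Fin 3) F) 0 0)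
    have h1 : x = g' * g * M * (g' * g)⁻¹ := by rw [hM, hy]; group
    rw [h1, Units.val_mul, Units.val_mul, hMs, mul_smul_comm, mul_one, smul_mul_assoc, ← Units.val_mul, mul_inv_cancel]
    simp
  · intro hr x hxS ⟨z, hz⟩ hxs
    rw [Units.val_pow_eq_pow_val] at hz
    have hd := det_eq_one hxS.2
    have hxU : Pres p (x : Matrix (Fin 3) (Fin 3) F) := hxS.1
    have hz3 : z ^ 3 = 1 := by
      have h1 := congrArg Matrix.det hz
      rw [Matrix.det_pow, hd, one_pow, Matrix.det_smul, Matrix.det_one, mul_one, Fintype.card_fin] at h1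
      exact h1.symm
    have hz0 : z ≠ 0 := by
      rintro rfl
      rw [zero_pow (by norm_num)] at hz3
      exact zero_ne_one hz3
    have hzn : z ^ (p + 1) = 1 := pow_of_cube hz3 h3q
    rcases hr with rfl | ⟨rfl, hp9⟩
    · -- involutions
      have : Fact (Nat.Prime 2) := ⟨Nat.prime_two⟩
      have hr2p : (2 : ℕ) ≠ p := by omega
      obtain ⟨y₀, hy₀⟩ := mk_conj g (H99.matT F) (by
        intro h0
        have h1 := congrArg Matrix.det (H99.matT_sq (F := F))
        rw [Matrix.det_mul, h0, zero_mul, Matrix.det_one] at h1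
        exact zero_ne_one h1)
      have hya : y₀ * a = a * a * y₀ := by
        apply eq_of_mul_g (g := g)
        exact calc_sq hy₀ hag H99.matT_P
      have hyb : y₀ * b = b * b * y₀ := by
        apply eq_of_mul_g (g := g)
        exact calc_sq hy₀ hbg (H99.matT_D hη3)
      have hyN : y₀ ∈ Cfsg.Geo.subgroupNormalizer R := by
        apply H99.mem_normalizer_of_gens hcl
        · rw [hya, mul_inv_cancel_right]
          exact R.mul_mem haR haR
        · rw [hyb, mul_inv_cancel_right]
          exact R.mul_mem hbR hbR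
      have hyy : y₀ * y₀ = 1 := by
        apply eq_of_mul_g (g := g)
        simp only [Units.val_mul, Units.val_one]
        rw [mul_assoc, hy₀, ← mul_assoc, hy₀, mul_assoc, H99.matT_sq, mul_one, one_mul]
      have hy₀det : (y₀ : Matrix (Fin 3) (Fin 3) F).det = 1 := by
        have h1 := congrArg Matrix.det hy₀
        have h2 : (H99.matT F).det = 1 := by
          rw [Matrix.det_fin_three]
          simp [H99.matT]
        rw [Matrix.det_mul, Matrix.det_mul, h2, mul_one] at h1
        exact mul_right_cancel₀ hgdet (by rw [h1, one_mul])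
      have hy₀ne : (y₀ : Matrix (Fin 3) (Fin 3) F) ≠ 1 := by
        intro h2
        rw [h2, one_mul] at hy₀
        have h3 : H99.matT F = 1 := by
          have h4 := congrArg (fun t => ((g⁻¹ : GL (Fin 3) F) : Matrix (Fin 3) (Fin 3) F) * t) hy₀
          simp only [← mul_assoc] at h4
          rw [← Units.val_mul, inv_mul_cancel, Units.val_one, one_mul] at h4
          exact h4.symm
        have h5 := congrFun (congrFun h3 1) 2
        simp [H99.matT] at h5
      have hy₀U : Pres p (y₀ : Matrix (Fin 3) (Fin 3) F) := by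
        have h1 : (y₀ : Matrix (Fin 3) (Fin 3) F) = (g : Matrix (Fin 3) (Fin 3) F) * H99.matT F * ((g⁻¹ : GL (Fin 3) F) : Matrix (Fin 3) (Fin 3) F) := by
          rw [← hy₀, mul_assoc, ← Units.val_mul, mul_inv_cancel, Units.val_one, mul_one]
        rw [h1]
        exact Pres.mul (Pres.mul hgU (pres_matT hF)) ((GU 3 F p).inv_mem hgU)
      obtain ⟨g₁, c₁, hg₁, h12, h11⟩ := H99.exists_GU_diag hF hr2p h2q hy₀U (by rw [pow_two, ← Units.val_mul, hyy, Units.val_one])
      have hMr : (z • (x : Matrix (Fin 3) (Fin 3) F)) ^ 2 = 1 := by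
        rw [smul_pow, hz, smul_smul, ← pow_succ, hz3, one_smul]
      obtain ⟨g₂, c₂, hg₂, h22, h21⟩ := H99.exists_GU_diag hF hr2p h2q (pres_smul hzn hxU) hMr
      have hprod : ∀ {M : Matrix (Fin 3) (Fin 3) F} {h : GL (Fin 3) F} {c : Fin 3 → F}, M * h = h * Matrix.diagonal c → ∏ j, c j = M.det := by
        intro M h c hMh
        have h1 := congrArg Matrix.det hMh
        rw [Matrix.det_mul, Matrix.det_mul, Matrix.det_diagonal, mul_comm] at h1
        have hu : (h : Matrix (Fin 3) (Fin 3) F).det ≠ 0 := by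
          have := h.isUnit
          rw [Matrix.isUnit_iff_isUnit_det] at this
          exact this.ne_zero
        exact (mul_left_cancel₀ hu h1).symm
      have hone : ∀ {M : Matrix (Fin 3) (Fin 3) F} {h : GL (Fin 3) F} {c : Fin 3 → F}, M * h = h * Matrix.diagonal c → (∀ j, c j = 1) → M = 1 := by
        intro M h c hMh hc
        have hcd : Matrix.diagonal c = 1 := by
          rw [← Matrix.diagonal_one]
          congr 1
          funext j
          exact hc j
        rw [hcd, mul_one] at hMh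
        have h4 := congrArg (fun t => t * ((h⁻¹ : GL (Fin 3) F) : Matrix (Fin 3) (Fin 3) F)) hMh
        simp only [mul_assoc] at h4
        rw [← Units.val_mul, mul_inv_cancel, Units.val_one, mul_one] at h4
        exact h4
      obtain ⟨u, hu, hudet, hMu⟩ := H99.conj_SU hF (by norm_num) hg₂ hg₁ h22 h12 (cnt_eq_card (fun w => by
        rw [cnt_invol h2F h21 (by rw [hprod h22, Matrix.det_smul, hd, mul_one, Fintype.card_fin, hz3]) (by
            intro hall
            have h1 := hone h22 hall
            apply hxs z⁻¹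
            rw [← h1, smul_smul, inv_mul_cancel₀ hz0, one_smul]) w,
          cnt_invol h2F h11 (by rw [hprod h12, hy₀det]) (fun hall => hy₀ne (hone h12 hall)) w]))
      exact conj_into hz0 hyN hu hudet hMu
    · -- elements of order three
      have : Fact (Nat.Prime 3) := ⟨Nat.prime_three⟩
      have hr3p : (3 : ℕ) ≠ p := by omega
      have hprod : ∀ {M : Matrix (Fin 3) (Fin 3) F} {h : GL (Fin 3) F} {c : Fin 3 → F}, M * h = h * Matrix.diagonal c → ∏ j, c j = M.det := by
        intro M h c hMh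
        have h1 := congrArg Matrix.det hMh
        rw [Matrix.det_mul, Matrix.det_mul, Matrix.det_diagonal, mul_comm] at h1
        have hu : (h : Matrix (Fin 3) (Fin 3) F).det ≠ 0 := by
          have := h.isUnit
          rw [Matrix.isUnit_iff_isUnit_det] at this
          exact this.ne_zero
        exact (mul_left_cancel₀ hu h1).symm
      by_cases hz1 : z = 1
      · subst hz1
        have hMr : ((1 : F) • (x : Matrix (Fin 3) (Fin 3) F)) ^ 3 = 1 := by
          rw [smul_pow, hz, one_pow, one_smul, one_smul]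
        obtain ⟨g₂, c₂, hg₂, h22, h21⟩ := H99.exists_GU_diag hF hr3p h3q (pres_smul (one_pow _) hxU) hMr
        have hprod' : ∏ j, c₂ j = 1 := by rw [hprod h22, one_smul, hd]
        have hnall : ¬ ∀ j, c₂ j = c₂ 0 := by
          intro hall
          apply hxs (c₂ 0)
          have hcd : Matrix.diagonal c₂ = c₂ 0 • (1 : Matrix (Fin 3) (Fin 3) F) := by
            rw [← Matrix.diagonal_one, ← Matrix.diagonal_smul]
            congr 1
            funext j
            rw [hall j]
            simp
          rw [hcd, one_smul, mul_smul_comm, mul_one] at h22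
          have h4 := congrArg (fun t => t * ((g₂⁻¹ : GL (Fin 3) F) : Matrix (Fin 3) (Fin 3) F)) h22
          simp only [mul_assoc, smul_mul_assoc] at h4
          rw [← Units.val_mul, mul_inv_cancel, Units.val_one, mul_one] at h4
          exact h4
        rw [Fin.prod_univ_three] at hprod'
        obtain ⟨u, hu, hudet, hMu⟩ := H99.conj_SU hF (by norm_num) hg₂ hgU h22 hbg (cnt_eq_card (fun w => by
          rw [cnt_distinct hη h21 (by
            intro h
            apply hnall
            intro j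
            fin_cases j
            · rfl
            · exact h.symm
            · change c₂ 2 = c₂ 0
              rw [← h] at hprod'
              linear_combination -(c₂ 2) * h21 0 + c₂ 0 * hprod') (by
            intro h
            apply hnall
            intro j
            fin_cases j
            · rfl
            · change c₂ 1 = c₂ 0
              rw [← h] at hprod'
              linear_combination -(c₂ 1) * h21 0 + c₂ 0 * hprod'
            · exact h.symm) (by
            intro h
            have h0 : c₂ 0 = c₂ 1 := by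
              rw [← h] at hprod'
              linear_combination -(c₂ 0) * h21 1 + c₂ 1 * hprod'
            apply hnall
            intro j
            fin_cases j
            · rfl
            · exact h0.symm
            · exact (h0.trans h).symm)]
          rfl))
        exact conj_into one_ne_zero (hRN hbR) hu hudet hMu
      · -- not a cube
        obtain ⟨k, hk⟩ := hγ2 z hz0
        obtain ⟨k', hk', hk'n⟩ : ∃ k', k = 3 * k' ∧ p - 1 ∣ k' := by
          have h1 : γ ^ (k * 3) = 1 := by rw [pow_mul, ← hk, hz3]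
          rw [hγ1, hFm] at h1
          obtain ⟨m, hm⟩ := h1
          have h2 : p + 1 = 9 * ((p + 1) / 9) := by omega
          refine ⟨(p - 1) * ((p + 1) / 9 * m), ?_, Dvd.intro _ rfl⟩
          rw [h2] at hm
          have h3 : 3 * k = 3 * (3 * ((p - 1) * ((p + 1) / 9 * m))) := by rw [mul_comm 3 k, hm]; ring
          omega
        set ζ := γ ^ k' with hζ
        have hζ3 : ζ ^ 3 = z := by rw [hζ, ← pow_mul, mul_comm, ← hk', hk]
        have hζ0 : ζ ≠ 0 := pow_ne_zero _ hγ0
        have hζn : ζ ^ (p + 1) = 1 := by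
          obtain ⟨m, hm⟩ := hk'n
          rw [hζ, ← pow_mul, hγ1, hFm, hm]
          exact ⟨m, by ring⟩
        have hζn' : ζ⁻¹ ^ (p + 1) = 1 := by rw [inv_pow, hζn, inv_one]
        have hMr : (ζ⁻¹ • (x : Matrix (Fin 3) (Fin 3) F)) ^ 3 = 1 := by
          rw [smul_pow, hz, smul_smul, inv_pow, hζ3, inv_mul_cancel₀ hz0, one_smul]
        obtain ⟨g₂, c₂, hg₂, h22, h21⟩ := H99.exists_GU_diag hF hr3p h3q (pres_smul hζn' hxU) hMr
        have hprod' : ∏ j, c₂ j = z⁻¹ := by rw [hprod h22, Matrix.det_smul, hd, mul_one, Fintype.card_fin, inv_pow, hζ3]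
        set ε := z⁻¹ with hε
        have hε3 : ε ^ 3 = 1 := by rw [hε, inv_pow, hz3, inv_one]
        have hε1 : ε ≠ 1 := by
          intro h
          apply hz1
          rw [hε, inv_eq_one] at h
          exact h
        obtain ⟨α, hα, hcnt⟩ := two_equal h21 hprod' (by
          by_contra hcon
          push Not at hcon
          apply hε1
          rw [← hprod']
          exact prod_of_distinct h3F hη h21 hcon.1 hcon.2.1 hcon.2.2)
        have hα0 : α ≠ 0 := by
          rintro rfl
          rw [zero_pow (by norm_num)] at hα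
          exact zero_ne_one hα
        have hε0 : ε ≠ 0 := inv_ne_zero hz0
        obtain ⟨y₀, hy₀⟩ := mk_conj g (Matrix.diagonal ![1, 1, ε]) (by
          rw [Matrix.det_diagonal, Fin.prod_univ_three]
          simpa using hε0)
        -- `ε` is a power of `η`
        obtain ⟨j, hj⟩ : ∃ j : ℕ, ε = η ^ j := by
          rcases cube_cases hη hε3 with h | h | h
          · exact ⟨0, by rw [h, pow_zero]⟩
          · exact ⟨1, by rw [h, pow_one]⟩
          · exact ⟨2, h⟩
        have hbj : ∀ j : ℕ, ((b ^ j : GL (Fin 3) F) : Matrix (Fin 3) (Fin 3) F) * g = g * Matrix.diagonal ![1, η ^ j, (η ^ j) ^ 2] := by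
          intro j
          induction j with
          | zero =>
            rw [pow_zero, Units.val_one, one_mul, pow_zero, one_pow]
            have : Matrix.diagonal ![(1 : F), 1, 1] = 1 := by
              ext i j
              fin_cases i <;> fin_cases j <;> simp
            rw [this, mul_one]
          | succ j ih =>
            rw [pow_succ', Units.val_mul, mul_assoc, ih, ← mul_assoc, hbg, mul_assoc, Matrix.diagonal_mul_diagonal]
            congr 2
            funext i
            fin_cases i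
            · simp
            · simp [pow_succ']
            · change η ^ 2 * (η ^ j) ^ 2 = (η ^ (j + 1)) ^ 2
              ring
        have hPE : Matrix.diagonal ![1, 1, ε] * H99.matP F = H99.matP F * Matrix.diagonal ![1, ε, ε ^ 2] * Matrix.diagonal ![1, 1, ε] := by
          have h4 : ε ^ 2 * ε = 1 := by rw [← pow_succ]; exact hε3
          rw [mul_assoc, Matrix.diagonal_mul_diagonal]
          ext i j
          rw [Matrix.diagonal_mul, Matrix.mul_diagonal]
          fin_cases i <;> fin_cases j <;> simp [H99.matP, h4]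
        have hya : y₀ * a = a * b ^ j * y₀ := by
          apply eq_of_mul_g (g := g)
          have hbj' := hbj j
          rw [← hj] at hbj'
          rw [Units.val_mul, Units.val_mul, Units.val_mul]
          calc (y₀ : Matrix (Fin 3) (Fin 3) F) * a * g = y₀ * (a * g) := by rw [mul_assoc]
            _ = (y₀ * g) * H99.matP F := by rw [hag, mul_assoc]
            _ = g * (Matrix.diagonal ![1, 1, ε] * H99.matP F) := by rw [hy₀, mul_assoc]
            _ = (g * H99.matP F) * Matrix.diagonal ![1, ε, ε ^ 2] * Matrix.diagonal ![1, 1, ε] := by rw [hPE]; simp only [mul_assoc]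
            _ = a * (g * Matrix.diagonal ![1, ε, ε ^ 2]) * Matrix.diagonal ![1, 1, ε] := by rw [← hag]; simp only [mul_assoc]
            _ = a * ((b ^ j : GL (Fin 3) F) * (g * Matrix.diagonal ![1, 1, ε])) := by rw [← hbj']; simp only [mul_assoc]
            _ = a * (b ^ j : GL (Fin 3) F) * y₀ * g := by rw [← hy₀]; simp only [mul_assoc]
        have hyb : y₀ * b = b * y₀ := by
          apply eq_of_mul_g (g := g)
          simp only [Units.val_mul]
          calc (y₀ : Matrix (Fin 3) (Fin 3) F) * b * g = y₀ * (b * g) := by rw [mul_assoc]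
            _ = (y₀ * g) * Matrix.diagonal ![1, η, η ^ 2] := by rw [hbg, mul_assoc]
            _ = g * (Matrix.diagonal ![1, 1, ε] * Matrix.diagonal ![1, η, η ^ 2]) := by rw [hy₀, mul_assoc]
            _ = (g * Matrix.diagonal ![1, η, η ^ 2]) * Matrix.diagonal ![1, 1, ε] := by
              rw [mul_assoc, Matrix.diagonal_mul_diagonal, Matrix.diagonal_mul_diagonal]
              congr 2
              funext i
              ring
            _ = b * (g * Matrix.diagonal ![1, 1, ε]) := by rw [← hbg, mul_assoc]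
            _ = b * y₀ * g := by rw [← hy₀, mul_assoc]
        have hyN : y₀ ∈ Cfsg.Geo.subgroupNormalizer R := by
          apply H99.mem_normalizer_of_gens hcl
          · rw [hya, mul_inv_cancel_right]
            exact R.mul_mem haR (R.pow_mem hbR j)
          · rw [hyb, mul_inv_cancel_right]
            exact hbR
        obtain ⟨y₁, hy₁N, hy₁⟩ := smul_mem hyN hα0
        have hy₁g : (y₁ : Matrix (Fin 3) (Fin 3) F) * g = g * Matrix.diagonal (fun j => α * (![1, 1, ε] : Fin 3 → F) j) := by
          rw [hy₁, smul_mul_assoc, hy₀, ← mul_smul_comm, ← Matrix.diagonal_smul]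
          rfl
        obtain ⟨u, hu, hudet, hMu⟩ := H99.conj_SU hF (by norm_num) hg₂ hgU h22 hy₁g (cnt_eq_card (fun w => by
          rw [hcnt]
          change ind α w + ind α w + ind (ε * α) w = ind (α * 1) w + ind (α * 1) w + ind (α * ε) w
          rw [mul_one, mul_comm α ε]))
        exact conj_into (inv_ne_zero hζ0) hy₁N hu hudet hMu


end Cfsg.Agent.S5999
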