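import Cfsg.Statements.S6000
import Cfsg.Agent.H99.PauliM

set_option autoImplicit false
open scoped MatrixGroups
open Cfsg

namespace Cfsg.Agent.S6000


set_option maxHeartbeats 4000000

open Module Cfsg.Agent.H99
open scoped Matrix

theorem no_fix {F : Type*} [Field F] [Fintype F] {p : ℕ} [Fact p.Prime] [CharP F p] (hF : Fintype.card F = p) (hp4 : p % 4 = 1)
    {R : Subgroup (GL (Fin 4) F)} (hP : PGrp R)
    (hR5 : Nat.card R = 2 ^ 6) (hRZ : Nat.card (Subgroup.center R) = 4)
    (r : ℕ) [Fact r.Prime] (hr2 : r ≠ 2)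
    (hΩ : r ∣ (Cfsg.Geo.subgroupNormalizer R).relIndex (Cfsg.Geo.specialLinear (Fin 4) F))
    (H : ∀ x ∈ Cfsg.Geo.specialLinear (Fin 4) F, x ^ r = 1 → x ≠ 1 → ∃ g ∈ Cfsg.Geo.specialLinear (Fin 4) F, g⁻¹ * x * g ∈ Cfsg.Geo.subgroupNormalizer R) :
    (r = 3 ∧ p % 3 = 2) ∨ (r = 5 ∧ orderOf (p : ZMod 5) = 4) := by
  have hp : p.Prime := Fact.out
  have hr : r.Prime := Fact.out
  have hrodd : Odd r := hr.odd_of_ne_two hr2
  have hpF : ∀ m : ℕ, (m : F) = 0 → p ∣ m := fun m hm => (CharP.cast_eq_zero_iff F p m).mp hm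
  have h2 : (2 : F) ≠ 0 := by
    intro h
    have h1 := hpF 2 (by exact_mod_cast h)
    have := (Nat.prime_dvd_prime_iff_eq hp Nat.prime_two).mp h1
    omega
  have hp3 : p ≠ 3 := by omega
  have hcard4 : Fintype.card (Fin 4) = 4 := by simp
  -- the key facts on conjugates in the normaliser
  have key : ∀ x ∈ Cfsg.Geo.specialLinear (Fin 4) F, x ^ r = 1 → x ≠ 1 → ∃ y ∈ Cfsg.Geo.subgroupNormalizer R, ∃ g : GL (Fin 4) F, y = g⁻¹ * x * g ∧ y ^ r = 1 ∧
      (∀ v ∈ R, y ^ r * v = v * y ^ r) ∧ ¬ (∀ v ∈ R, y * v = v * y) := by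
    intro x hx hxr hx1
    obtain ⟨g, hg, hgN⟩ := H x hx hxr hx1
    have hyr : (g⁻¹ * x * g) ^ r = 1 := GL_conj_pow hxr
    refine ⟨_, hgN, g, rfl, hyr, fun v _ => by rw [hyr, one_mul, mul_one], ?_⟩
    intro hcom
    obtain ⟨z, hz⟩ := scalar_of_comm_R hP hcom
    exact hx1 (SL4_scalar_eq_one hx hrodd hxr (GL_conj_scalar hz))
  have hcases : ∀ y ∈ Cfsg.Geo.subgroupNormalizer R, (∀ v ∈ R, y ^ r * v = v * y ^ r) → ¬ (∀ v ∈ R, y * v = v * y) → _ := fun y hy1 hy2 hy3 =>
    hP.odd_cases h2 hcard4 (k := 2) (by rw [hRZ]; norm_num) hR5 hy1 hr2 hy2 hy3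
  by_contra hcon
  push Not at hcon
  by_cases hrp : r = p
  · -- transvections
    obtain ⟨x, hx, hxM⟩ := exists_transvectionGL (F := F)
    have hxr : x ^ r = 1 := by
      apply Units.ext
      rw [Units.val_pow_eq_pow_val, hxM, transvection_pow, hrp, CharP.cast_eq_zero, Matrix.transvection_zero]
      rfl
    have hx1 : x ≠ 1 := by
      rintro rfl
      have h3 := congrFun (congrFun hxM 0) 1
      simp [Matrix.transvection] at h3
    obtain ⟨y, hyN, g, hyg, hyr, hyc, hyn⟩ := key x hx hxr hx1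
    apply hyn
    apply hP.not_rank_one h2 hyN hrodd hyr (by rw [hcard4]; norm_num)
    rw [hyg, GL_conj_ker, hxM, finrank_ker_transvection, hcard4]
  by_cases h35 : r = 3 ∨ r = 5
  · rcases h35 with rfl | rfl
    · -- diagonal elements
      have hp1 : p % 3 = 1 := by
        have h4 : p % 3 ≠ 0 := fun h => hp3 (((Nat.prime_dvd_prime_iff_eq (by norm_num) hp).mp (Nat.dvd_of_mod_eq_zero h)).symm)
        have h5 := hcon.1 rfl
        omega
      obtain ⟨ω, hω1, hω3⟩ := exists_prim_root (F := F) (r := 3) (by rw [hF]; omega)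
      have hω0 : ω ≠ 0 := by
        rintro rfl
        norm_num at hω3
      have hω2 : ω ^ 2 + ω + 1 = 0 := by
        have h3 : (ω - 1) * (ω ^ 2 + ω + 1) = 0 := by linear_combination hω3
        exact (mul_eq_zero.mp h3).resolve_left (sub_ne_zero.mpr hω1)
      have hωi : ω⁻¹ = ω ^ 2 := by
        rw [inv_eq_of_mul_eq_one_right]
        linear_combination hω3
      obtain ⟨x, hxM, hxi⟩ := exists_diagGL (F := F) (ι := Fin 4) (f := ![ω, ω, ω, 1]) (by
        intro i; fin_cases i <;> simp [hω0])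
      have hx : x ∈ Cfsg.Geo.specialLinear (Fin 4) F := by
        rw [mem_SL, hxM, Matrix.det_diagonal, Fin.prod_univ_four]
        simp
        linear_combination hω3
      have hxr : x ^ 3 = 1 := by
        apply Units.ext
        rw [Units.val_pow_eq_pow_val, hxM, Matrix.diagonal_pow]
        ext i j
        fin_cases i <;> fin_cases j <;> simp [hω3, Matrix.one_apply]
      have hx1 : x ≠ 1 := by
        rintro rfl
        have h3 := congrFun (congrFun hxM 0) 0
        simp at h3
        exact hω1 h3.symm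
      obtain ⟨y, hyN, g, hyg, hyr, hyc, hyn⟩ := key x hx hxr hx1
      have hc := hcases y hyN hyc hyn
      rw [hyg, GL_conj_trace, GL_conj_trace', hxM, hxi, Matrix.trace_diagonal, Matrix.trace_diagonal, Fin.sum_univ_four, Fin.sum_univ_four] at hc
      simp only [Matrix.cons_val_zero, Matrix.cons_val_one, Matrix.cons_val, hωi, inv_one] at hc
      have h7 : (ω + ω + ω + 1) * (ω ^ 2 + ω ^ 2 + ω ^ 2 + 1) = 7 := by
        linear_combination 9 * hω3 + 3 * hω2
      rw [h7] at hc
      rcases hc with ⟨-, hc, -⟩ | ⟨-, hc, -⟩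
      · have h6 : ((6 : ℕ) : F) = 0 := by push_cast; linear_combination hc
        have h8 : p ∈ Nat.primeFactors 6 := Nat.mem_primeFactors.mpr ⟨hp, hpF 6 h6, by norm_num⟩
        have h9 : Nat.primeFactors 6 = {2, 3} := by decide +kernel
        rw [h9] at h8
        simp only [Finset.mem_insert, Finset.mem_singleton] at h8
        omega
      · have h3 : ((3 : ℕ) : F) = 0 := by push_cast; linear_combination hc
        exact hp3 ((Nat.prime_dvd_prime_iff_eq hp (by norm_num)).mp (hpF 3 h3))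
    · -- elements of `SL₂`
      have hp5 : p % 5 ≠ 0 := fun h => hrp ((Nat.prime_dvd_prime_iff_eq (by norm_num) hp).mp (Nat.dvd_of_mod_eq_zero h))
      have hp1 := hp.one_lt
      have hrd : 5 ∣ Fintype.card F * ((Fintype.card F - 1) * (Fintype.card F + 1)) := by
        rw [hF]
        apply Dvd.dvd.mul_left
        rcases mod_five_of_order hp5 (hcon.2 rfl) with h8 | h8
        · apply Dvd.dvd.mul_right; omega
        · apply Dvd.dvd.mul_left; omega
      obtain ⟨M, hMd, hMr, hM1⟩ := exists_sl2_order hrd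
      obtain ⟨x, hx, hxM, hxi⟩ := exists_psiGL hMd
      have hxr : x ^ 5 = 1 := by
        apply Units.ext
        rw [Units.val_pow_eq_pow_val, hxM, ← psiM_pow, hMr, psiM_one]
        rfl
      have hx1 : x ≠ 1 := by
        rintro rfl
        exact hM1 (psiM_injective hxM.symm)
      obtain ⟨y, hyN, g, hyg, hyr, hyc, hyn⟩ := key x hx hxr hx1
      have hc := hcases y hyN hyc hyn
      rw [hyg, GL_conj_trace, GL_conj_trace', hxM, hxi, psiM_trace, psiM_trace, adjugate_trace_two] at hc
      have hτ := sl2_five hMd hMr hM1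
      rcases hc with ⟨-, hc, -⟩ | ⟨h3, -⟩
      · have h3 : (M.trace + 1) * (M.trace + 3) = 0 := by linear_combination hc
        rcases mul_eq_zero.mp h3 with h4 | h4
        · have h5 : M.trace = -1 := by linear_combination h4
          rw [h5] at hτ
          apply h2
          linear_combination hτ
        · have h5 : M.trace = -3 := by linear_combination h4
          rw [h5] at hτ
          have h6 : ((20 : ℕ) : F) = 0 := by push_cast; linear_combination -hτ
          have h7 := hpF 20 h6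
          have h8 : p ∈ Nat.primeFactors 20 := Nat.mem_primeFactors.mpr ⟨hp, h7, by norm_num⟩
          have h9 : Nat.primeFactors 20 = {2, 5} := by decide +kernel
          rw [h9] at h8
          simp only [Finset.mem_insert, Finset.mem_singleton] at h8
          rcases h8 with h8 | h8
          · omega
          · exact hrp h8.symm
      · exact absurd h3 (by norm_num)
  · -- large primes
    have hrG : r ∣ Nat.card (Cfsg.Geo.specialLinear (Fin 4) F) := hΩ.trans ((Subgroup.relIndex_dvd_card _ _))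
    obtain ⟨x, hx⟩ := exists_prime_orderOf_dvd_card' r hrG
    have hxr : (x : GL (Fin 4) F) ^ r = 1 := by
      have h3 : x ^ r = 1 := by rw [← hx]; exact pow_orderOf_eq_one x
      exact congrArg Subtype.val h3
    have hx1 : (x : GL (Fin 4) F) ≠ 1 := by
      intro h3
      have h4 : x = 1 := Subtype.ext h3
      rw [h4, orderOf_one] at hx
      exact hr.ne_one hx.symm
    obtain ⟨y, hyN, g, hyg, hyr, hyc, hyn⟩ := key x x.2 hxr hx1
    rcases hcases y hyN hyc hyn with ⟨h3, -⟩ | ⟨h3, -⟩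
    · exact h35 h3
    · exact h35 (Or.inl h3)


/-- Elements of prime order of PSL_4(p), p ≡ 1 (mod 4), and the normalizer of a 2-group of symplectic type of order 2⁶. Here `T = PSL_4(F)` for the field `F` with `p` elements, `p` a prime with `p ≡ 1 (mod 4)`; `R` is an absolutely irreducible subgroup of GL_4(F) of order 2⁶ that is a 2-group of symplectic type of exponent 4 with centre of order 4 (the central product of the scalars of order 4 with an extraspecial group 2^{1+4}), and `H` is the subgroup of matrices of determinant 1 normalizing `R` — a subgroup of type 2⁴.Sp₄(2) (maximality is not assumed). Ω is the set of cosets of `H` in `T`, so an element of `T` of prime order `r` (a matrix `x` of determinant 1 with `x^r` scalar, `x` not scalar) fixes a point of Ω exactly when some conjugate of `x` by a matrix of determinant 1 normalizes `R`. Let `r` be a prime dividing the index of `H`. Then every element of `T` of order `r` fixes a point of Ω if and only if `r = 2`, or `r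 = 3` and `p ≡ 2 (mod 3)`, or `r = 5` and `p ≡ ±2 (mod 5)` (`p` has multiplicative order 4 modulo 5). -/
theorem result {F : Type*} [Field F] [Fintype F] {p : ℕ} [Fact p.Prime] [CharP F p] (hF : Fintype.card F = p) (hp4 : p % 4 = 1)
    (R : Subgroup (GL (Fin 4) F)) (hR : Cfsg.Geo.IsLinearSymplecticTypeData 2 R) (hR6 : Nat.card R = 2 ^ 6)
    (r : ℕ) [Fact r.Prime]
    (hΩ : r ∣ (Cfsg.Geo.subgroupNormalizer R).relIndex (Cfsg.Geo.specialLinear (Fin 4) F)) :
    (∀ x ∈ Cfsg.Geo.specialLinear (Fin 4) F, (∃ z : F, ((x ^ r : GL (Fin 4) F) : Matrix (Fin 4) (Fin 4) F) = z • (1 : Matrix (Fin 4) (Fin 4) F)) →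
      (∀ z : F, (x : Matrix (Fin 4) (Fin 4) F) ≠ z • (1 : Matrix (Fin 4) (Fin 4) F)) →
      ∃ g ∈ Cfsg.Geo.specialLinear (Fin 4) F, g⁻¹ * x * g ∈ Cfsg.Geo.subgroupNormalizer R) ↔ (r = 2 ∨ (r = 3 ∧ p % 3 = 2) ∨ (r = 5 ∧ orderOf (p : ZMod 5) = 4)) := by
  have hp : p.Prime := Fact.out
  have hpF : ∀ m : ℕ, (m : F) = 0 → p ∣ m := fun m hm => (CharP.cast_eq_zero_iff F p m).mp hm
  have h2 : (2 : F) ≠ 0 := by
    intro h
    have h1 := hpF 2 (by exact_mod_cast h)
    have := (Nat.prime_dvd_prime_iff_eq hp Nat.prime_two).mp h1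
    omega
  have hp3 : p ≠ 3 := by omega
  have hp5 : 5 ≤ p := by
    have := hp.two_le
    omega
  have h3F : (3 : F) ≠ 0 := by
    intro h
    have h1 := hpF 3 (by exact_mod_cast h)
    exact hp3 ((Nat.prime_dvd_prime_iff_eq hp (by norm_num)).mp h1)
  have hcard4 : Fintype.card (Fin 4) = 4 := by simp
  have hRZ : Nat.card (Subgroup.center R) = 4 := by
    obtain ⟨p', e, -, -, h | h | h⟩ := hR.field
    · exact absurd h.1 (by decide)
    · exact h.2.2.1
    · exfalso
      have := h.2.2.1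
      rw [hcard4] at this
      omega
  have hP : PGrp R := PGrp.of_type hR.symplecticType hR.absIrred (by rw [hcard4]; norm_num)
  obtain ⟨a0, b0, c0, d0, hq0⟩ := hP.exists_quad h2 (by rw [hcard4]; norm_num) (by rw [hR6, hRZ]; norm_num)
  obtain ⟨s, hs, i, hsi, hii, hss⟩ := hP.exists_i hRZ
  have hsc : ∀ v : GL (Fin 4) F, s * v = v * s := comm_of_val_smul hsi
  obtain ⟨a, b, c, d, hq, haa, hbb, hcc, hdd⟩ := hq0.exists_plus hP hs hsc hss
  have hRN : R ≤ Cfsg.Geo.subgroupNormalizer R := Subgroup.le_normalizer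
  have hz0 : ∀ x : GL (Fin 4) F, ∀ z : F, ∀ r : ℕ, ((x ^ r : GL (Fin 4) F) : Matrix (Fin 4) (Fin 4) F) = z • (1 : Matrix (Fin 4) (Fin 4) F) → z ≠ 0 := by
    intro x z r hz h0
    rw [h0, zero_smul] at hz
    have h3 : ((x ^ r : GL (Fin 4) F) : Matrix (Fin 4) (Fin 4) F) * (((x ^ r)⁻¹ : GL (Fin 4) F) : Matrix (Fin 4) (Fin 4) F) = 1 := by rw [← Units.val_mul, mul_inv_cancel]; rfl
    rw [hz, zero_mul] at h3
    have := congrFun (congrFun h3 0) 0
    simp at this
  -- reduction to `x ^ r = 1`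
  have hred : ∀ (r : ℕ), ∀ x : GL (Fin 4) F, ∀ z w : F, w ≠ 0 → w ^ r = z →
      ((x ^ r : GL (Fin 4) F) : Matrix (Fin 4) (Fin 4) F) = z • (1 : Matrix (Fin 4) (Fin 4) F) →
      (∀ x' : GL (Fin 4) F, x' ^ r = 1 → (x' : Matrix (Fin 4) (Fin 4) F) = w⁻¹ • (x : Matrix (Fin 4) (Fin 4) F) →
        ∃ g ∈ Cfsg.Geo.specialLinear (Fin 4) F, g⁻¹ * x' * g ∈ Cfsg.Geo.subgroupNormalizer R) →
      ∃ g ∈ Cfsg.Geo.specialLinear (Fin 4) F, g⁻¹ * x * g ∈ Cfsg.Geo.subgroupNormalizer R := by
    intro r x z w hw0 hwz hz hx'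
    obtain ⟨t, ht, hti⟩ := exists_scalar_GL (ι := Fin 4) hw0
    have htc : ∀ v : GL (Fin 4) F, t * v = v * t := comm_of_val_smul ht
    have htic : ∀ v : GL (Fin 4) F, t⁻¹ * v = v * t⁻¹ := comm_of_val_smul hti
    have hval : ((t⁻¹ * x : GL (Fin 4) F) : Matrix (Fin 4) (Fin 4) F) = w⁻¹ • (x : Matrix (Fin 4) (Fin 4) F) := by
      rw [Units.val_mul, hti, Matrix.smul_mul, one_mul]
    obtain ⟨g, hg, hgN⟩ := hx' (t⁻¹ * x) (by
      apply Units.ext
      rw [Units.val_pow_eq_pow_val, hval, smul_pow, ← Units.val_pow_eq_pow_val, hz, smul_smul, inv_pow, hwz, inv_mul_cancel₀ (by rw [← hwz]; exact pow_ne_zero _ hw0), one_smul]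
      rfl) hval
    refine ⟨g, hg, ?_⟩
    have e : g⁻¹ * x * g = t * (g⁻¹ * (t⁻¹ * x) * g) := by
      rw [← mul_assoc g⁻¹ t⁻¹ x, ← htic g⁻¹, mul_assoc t⁻¹, mul_assoc t⁻¹, mul_inv_cancel_left]
    rw [e]
    exact Subgroup.mul_mem _ (scalar_mem_normalizer ht) hgN
  have hfin4 : ∀ f : (Fin 4 → F) →ₗ[F] (Fin 4 → F), finrank F (LinearMap.ker f) ≤ 4 := by
    intro f
    have := Submodule.finrank_le (LinearMap.ker f)
    rwa [finrank_fintype_fun_eq_card, hcard4] at this
  have hker4 : ∀ x : GL (Fin 4) F, finrank F (LinearMap.ker (Matrix.toLin' (x : Matrix (Fin 4) (Fin 4) F) - 1)) = 4 → x = 1 := by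
    intro x h9
    have h10 : LinearMap.ker (Matrix.toLin' (x : Matrix (Fin 4) (Fin 4) F) - 1) = ⊤ := by
      apply Submodule.eq_top_of_finrank_eq
      rw [h9, finrank_fintype_fun_eq_card, hcard4]
    apply Units.ext
    apply ext_single
    intro i
    have h11 : (Pi.single i 1 : Fin 4 → F) ∈ LinearMap.ker (Matrix.toLin' (x : Matrix (Fin 4) (Fin 4) F) - 1) := by
      rw [h10]; exact Submodule.mem_top
    rw [LinearMap.mem_ker, LinearMap.sub_apply, sub_eq_zero, Matrix.toLin'_apply, Module.End.one_apply] at h11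
    rw [h11, Units.val_one, Matrix.one_mulVec]
  have hcast : ∀ k l : ℕ, k ≤ 4 → l ≤ 4 → (k : F) = l → k = l := by
    intro k l hk hl hkl
    have h1 := (CharP.natCast_eq_natCast F p).mp hkl
    exact Nat.ModEq.eq_of_lt_of_lt h1 (by omega) (by omega)
  constructor
  · intro H
    by_cases hr2 : r = 2
    · exact Or.inl hr2
    right
    apply no_fix hF hp4 hP hR6 hRZ r hr2 hΩ
    intro x hx hxr hx1
    apply H x hx
    · exact ⟨1, by rw [hxr, one_smul]; rfl⟩
    · intro z hz
      exact hx1 (SL4_scalar_eq_one hx ((Fact.out : r.Prime).odd_of_ne_two hr2) hxr hz)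
  · rintro (rfl | ⟨rfl, h3⟩ | ⟨rfl, h4⟩)
    · -- involutions modulo scalars
      intro x hx ⟨z, hz⟩ hns
      have hzne := hz0 x z 2 hz
      have hsq : ∃ w : F, w ^ 2 = z := by
        by_contra hcon
        push Not at hcon
        have h5 := det_of_nonpower (r := 2) Nat.prime_two z hcon (Matrix.toLin' (x : Matrix (Fin 4) (Fin 4) F)) (by
          rw [← Matrix.toLin'_pow, ← Units.val_pow_eq_pow_val, hz]
          ext v
          simp)
        have h6 := h5.2
        rw [LinearMap.det_toLin', mem_SL.mp hx, finrank_fintype_fun_eq_card, hcard4] at h6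
        have h7 : (z - 1) * (z + 1) = 0 := by
          norm_num at h6
          linear_combination -h6
        rcases mul_eq_zero.mp h7 with h8 | h8
        · exact hcon 1 (by rw [one_pow]; linear_combination -h8)
        · exact hcon i (by rw [pow_two, hii]; linear_combination -h8)
      obtain ⟨w, hw⟩ := hsq
      have hw0 : w ≠ 0 := by
        rintro rfl
        exact hzne (by rw [← hw]; norm_num)
      apply hred 2 x z w hw0 hw hz
      intro x' hx'2 hx'v
      have hx'1 : x' ≠ 1 := by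
        rintro rfl
        apply hns w
        have h5 := congrArg (fun M => w • M) hx'v
        simp only [smul_smul, mul_inv_cancel₀ hw0, one_smul] at h5
        exact h5.symm
      have hx'n1 : x' ≠ -1 := by
        rintro rfl
        apply hns (-w)
        have h5 := congrArg (fun M => w • M) hx'v
        simp only [smul_smul, mul_inv_cancel₀ hw0, one_smul] at h5
        rw [← h5]
        simp
      have hi2 : orderOf ((Fintype.card F : ℕ) : ZMod 2) = 2 - 1 := order_zmod_two (by rw [hF, Nat.odd_iff]; omega)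
      have h2p : (2 : ℕ) ≠ p := by omega
      have hker := ker_two h2 hx'2
      have hk4 := hfin4 (Matrix.toLin' (x' : Matrix (Fin 4) (Fin 4) F) - 1)
      have hkne4 : finrank F (LinearMap.ker (Matrix.toLin' (x' : Matrix (Fin 4) (Fin 4) F) - 1)) ≠ 4 := fun h => hx'1 (hker4 x' h)
      have hkne0 : finrank F (LinearMap.ker (Matrix.toLin' (x' : Matrix (Fin 4) (Fin 4) F) - 1)) ≠ 0 := by
        intro h
        apply hx'n1
        have h5 : LinearMap.ker (Matrix.toLin' (x' : Matrix (Fin 4) (Fin 4) F) - 1) = ⊥ := Submodule.finrank_eq_zero.mp h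
        apply Units.ext
        apply ext_single
        intro j
        have h6 : (x' : Matrix (Fin 4) (Fin 4) F) *ᵥ (Pi.single j 1) + Pi.single j 1 ∈ LinearMap.ker (Matrix.toLin' (x' : Matrix (Fin 4) (Fin 4) F) - 1) := by
          rw [LinearMap.mem_ker, LinearMap.sub_apply, sub_eq_zero, Matrix.toLin'_apply, Module.End.one_apply, Matrix.mulVec_add, Matrix.mulVec_mulVec,
            ← Units.val_mul, ← pow_two, hx'2, Units.val_one, Matrix.one_mulVec, add_comm]
        rw [h5, Submodule.mem_bot] at h6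
        rw [eq_neg_of_add_eq_zero_left h6, Units.val_neg, Units.val_one, Matrix.neg_mulVec, Matrix.one_mulVec]
      -- representatives
      have hrep : ∀ y : GL (Fin 4) F, y ∈ Cfsg.Geo.subgroupNormalizer R → y ^ 2 = 1 → ∀ k : ℕ, k ≤ 4 →
          (4 : F) + (y : Matrix (Fin 4) (Fin 4) F).trace = 2 * k → finrank F (LinearMap.ker (Matrix.toLin' (x' : Matrix (Fin 4) (Fin 4) F) - 1)) = k →
          ∃ g ∈ Cfsg.Geo.specialLinear (Fin 4) F, g⁻¹ * x' * g ∈ Cfsg.Geo.subgroupNormalizer R := by
        intro y hyN hy2 k hk hyt hxk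
        have h5 := ker_two h2 hy2
        push_cast at h5
        rw [hyt] at h5
        have h6 := hcast _ _ hk (hfin4 _) (mul_left_cancel₀ h2 h5)
        obtain ⟨g, hg, hgx⟩ := SL_conj_of_ker (by norm_num) h2p hi2 hx'2 hy2 (hxk.trans h6)
        exact ⟨g, hg, by rw [hgx]; exact hyN⟩
      obtain ⟨t, htN, htt, htv⟩ := hq.exists_refl hP h2 haa hcc
      have tra : (a : Matrix (Fin 4) (Fin 4) F).trace = 0 := trace_zero_of_anti h2 hq.ab
      have trc : (c : Matrix (Fin 4) (Fin 4) F).trace = 0 := trace_zero_of_anti h2 hq.cd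
      have trac : ((a : Matrix (Fin 4) (Fin 4) F) * (c : Matrix (Fin 4) (Fin 4) F)).trace = 0 := by
        rw [← Units.val_mul]
        apply trace_zero_of_anti h2 (w := b)
        rw [mul_assoc, ← hq.bc, ← mul_assoc, hq.ab, neg_mul, mul_assoc]
      have trt : (t : Matrix (Fin 4) (Fin 4) F).trace = 2 := by
        rw [htv, Matrix.trace_smul, Matrix.trace_sub, Matrix.trace_sub, Matrix.trace_sub, tra, trc, trac, Matrix.trace_one, hcard4, smul_eq_mul]
        push_cast
        field_simp
        norm_num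
      have hk : finrank F (LinearMap.ker (Matrix.toLin' (x' : Matrix (Fin 4) (Fin 4) F) - 1)) = 1 ∨
          finrank F (LinearMap.ker (Matrix.toLin' (x' : Matrix (Fin 4) (Fin 4) F) - 1)) = 2 ∨
          finrank F (LinearMap.ker (Matrix.toLin' (x' : Matrix (Fin 4) (Fin 4) F) - 1)) = 3 := by omega
      rcases hk with hk | hk | hk
      · apply hrep (-t) (by rw [← neg_one_mul]; exact Subgroup.mul_mem _ (hRN hP.neg) htN) (by rw [neg_sq, pow_two, htt]) 1 (by norm_num) _ hk
        rw [Units.val_neg, Matrix.trace_neg, trt]; norm_num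
      · apply hrep a (hRN hq.ha) (by rw [pow_two, haa]) 2 (by norm_num) _ hk
        rw [tra]; norm_num
      · apply hrep t htN (by rw [pow_two, htt]) 3 (by norm_num) _ hk
        rw [trt]; norm_num
    · -- elements of order three
      intro x hx ⟨z, hz⟩ hns
      have hzne := hz0 x z 3 hz
      have h3q : ¬ 3 ∣ Fintype.card F - 1 := by rw [hF]; omega
      obtain ⟨w, hw0, hw⟩ := exists_root (F := F) (r := 3) (by norm_num) h3q hzne
      apply hred 3 x z w hw0 hw hz
      intro x' hx'3 hx'v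
      have hx'1 : x' ≠ 1 := by
        rintro rfl
        apply hns w
        have h5 := congrArg (fun M => w • M) hx'v
        simp only [smul_smul, mul_inv_cancel₀ hw0, one_smul] at h5
        exact h5.symm
      have hord : orderOf ((Fintype.card F : ℕ) : ZMod 3) = 2 := by rw [hF]; exact order_zmod_three h3
      have h3p : (3 : ℕ) ≠ p := fun h => hp3 h.symm
      have hmod := finrank_modEq_fixed (p := p) h3p (Matrix.toLin' (x' : Matrix (Fin 4) (Fin 4) F)) (toLin_pow_GL hx'3)
      rw [hord, finrank_fintype_fun_eq_card, hcard4] at hmod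
      have hk4 := hfin4 (Matrix.toLin' (x' : Matrix (Fin 4) (Fin 4) F) - 1)
      have hkne4 : finrank F (LinearMap.ker (Matrix.toLin' (x' : Matrix (Fin 4) (Fin 4) F) - 1)) ≠ 4 := fun h => hx'1 (hker4 x' h)
      have hmod' : 4 % 2 = finrank F (LinearMap.ker (Matrix.toLin' (x' : Matrix (Fin 4) (Fin 4) F) - 1)) % 2 := hmod
      obtain ⟨t1, t2, n1, n2, p1, p2, hcom, tr1, tr1i, tr12, tr12i, -⟩ := hq.exists_three hP h2 hcard4 haa hbb hcc hdd hs hsc hss
      have hrep : ∀ y : GL (Fin 4) F, y ∈ Cfsg.Geo.subgroupNormalizer R → y ^ 3 = 1 → ∀ k : ℕ, k ≤ 4 →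
          (4 : F) + (y : Matrix (Fin 4) (Fin 4) F).trace + ((y⁻¹ : GL (Fin 4) F) : Matrix (Fin 4) (Fin 4) F).trace = 3 * k →
          finrank F (LinearMap.ker (Matrix.toLin' (x' : Matrix (Fin 4) (Fin 4) F) - 1)) = k →
          ∃ g ∈ Cfsg.Geo.specialLinear (Fin 4) F, g⁻¹ * x' * g ∈ Cfsg.Geo.subgroupNormalizer R := by
        intro y hyN hy2 k hk hyt hxk
        have h5 := ker_three h3F hy2
        rw [Nat.cast_ofNat] at h5
        rw [hyt] at h5
        have h6 := hcast _ _ hk (hfin4 _) (mul_left_cancel₀ h3F h5)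
        obtain ⟨g, hg, hgx⟩ := SL_conj_of_ker (by norm_num) h3p (by rw [hord]) hx'3 hy2 (hxk.trans h6)
        exact ⟨g, hg, by rw [hgx]; exact hyN⟩
      have hk : finrank F (LinearMap.ker (Matrix.toLin' (x' : Matrix (Fin 4) (Fin 4) F) - 1)) = 0 ∨
          finrank F (LinearMap.ker (Matrix.toLin' (x' : Matrix (Fin 4) (Fin 4) F) - 1)) = 2 := by omega
      rcases hk with hk | hk
      · apply hrep t1 n1 p1 0 (by norm_num) _ hk
        rw [tr1, tr1i]; norm_num
      · apply hrep (t1 * t2) (Subgroup.mul_mem _ n1 n2) _ 2 (by norm_num) _ hk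
        · have : Commute t1 t2 := hcom
          rw [this.mul_pow, p1, p2, one_mul]
        · rw [tr12, tr12i]; norm_num
    · -- elements of order five
      have h5p : (5 : ℕ) ≠ p := by
        rintro rfl
        have h6 : ((5 : ℕ) : ZMod 5) = 0 := ZMod.natCast_self 5
        rw [h6] at h4
        exact order_zmod_five_zero h4
      have hp5 : ¬ 5 ∣ Fintype.card F - 1 := by
        rw [hF]
        have := mod_five_of_order_four h4
        omega
      have h5F : ((5 : ℕ) : F) ≠ 0 := fun h => h5p (((Nat.prime_dvd_prime_iff_eq hp (by norm_num)).mp (hpF 5 h)).symm)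
      obtain ⟨w, hwN, hw5, hw1, -⟩ := (hq.five haa hbb (by rw [hcc, hdd]) (Or.inl hcc) hs hsc
        (by rw [hcc, hss])).exists_order_five hP h2 hp5
      have hSL : ∀ x : GL (Fin 4) F, x ^ 5 = 1 → x ∈ Cfsg.Geo.specialLinear (Fin 4) F := by
        intro x hx5
        rw [mem_SL]
        apply eq_one_of_pow_eq_one hp5
        rw [← Matrix.det_pow, ← Units.val_pow_eq_pow_val, hx5, Units.val_one, Matrix.det_one]
      have hfree : ∀ x ∈ Cfsg.Geo.specialLinear (Fin 4) F, x ^ 5 = 1 → x ≠ 1 → ∀ v : Fin 4 → F, (x : Matrix (Fin 4) (Fin 4) F) *ᵥ v = v → v = 0 := by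
        intro x hx hx5 hx1 v hv
        have h6 := finrank_modEq_fixed (p := p) h5p (Matrix.toLin' (x : Matrix (Fin 4) (Fin 4) F)) (toLin_pow_GL hx5)
        rw [hF, h4, finrank_fintype_fun_eq_card, hcard4] at h6
        have h7 := hfin4 (Matrix.toLin' (x : Matrix (Fin 4) (Fin 4) F) - 1)
        have h8 : finrank F (LinearMap.ker (Matrix.toLin' (x : Matrix (Fin 4) (Fin 4) F) - 1)) ≠ 4 := fun h9 => hx1 (hker4 x h9)
        have h9 : finrank F (LinearMap.ker (Matrix.toLin' (x : Matrix (Fin 4) (Fin 4) F) - 1)) = 0 := by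
          have h10 : 4 % 4 = finrank F (LinearMap.ker (Matrix.toLin' (x : Matrix (Fin 4) (Fin 4) F) - 1)) % 4 := h6
          omega
        have h10 : LinearMap.ker (Matrix.toLin' (x : Matrix (Fin 4) (Fin 4) F) - 1) = ⊥ := Submodule.finrank_eq_zero.mp h9
        have h11 : v ∈ LinearMap.ker (Matrix.toLin' (x : Matrix (Fin 4) (Fin 4) F) - 1) := by
          rw [LinearMap.mem_ker, LinearMap.sub_apply, sub_eq_zero, Matrix.toLin'_apply, hv]
          rfl
        rw [h10, Submodule.mem_bot] at h11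
        exact h11
      intro x hx ⟨z, hz⟩ hns
      have hzne := hz0 x z 5 hz
      obtain ⟨u, hu0, hu⟩ := exists_root (F := F) (r := 5) (by norm_num) hp5 hzne
      apply hred 5 x z u hu0 hu hz
      intro x' hx'5 hx'v
      obtain ⟨g, hg, k, hk⟩ := conj_of_fpf h5F hfree (hSL x' hx'5) (hSL w hw5) hx'5 hw5 hw1
      exact ⟨g, hg, by rw [hk]; exact Subgroup.pow_mem _ hwN k⟩


end Cfsg.Agent.S6000
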