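import Cfsg.Statements.S6001
import Cfsg.Agent.H99.PauliO

set_option autoImplicit false
open scoped MatrixGroups
open Cfsg

namespace Cfsg.Agent.S6001


set_option maxHeartbeats 4000000

open Module Cfsg.Agent.H99 Cfsg.Agent.Uni
open scoped Matrix

lemma exists_tau {F : Type*} [Field F] [Fintype F] {p : ℕ} [Fact p.Prime] [CharP F p] (hF : Fintype.card F = p ^ 2) (hp5 : p % 5 = 1 ∨ p % 5 = 4) :
    ∃ τ : F, τ ^ 2 + τ = 1 ∧ τ ^ p = τ := by
  have : Fact (Nat.Prime 5) := ⟨by norm_num⟩
  have hp1 := (Fact.out : p.Prime).one_lt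
  have h5 : 5 ∣ Fintype.card F - 1 := by
    rw [hF]
    have h1 : p ^ 2 % 5 = 1 := by
      rw [Nat.pow_mod]
      rcases hp5 with h | h <;> rw [h]
    have h2 : 1 ≤ p ^ 2 := Nat.one_le_pow _ _ (by omega)
    omega
  obtain ⟨l, hl1, hl5⟩ := exists_prim_root (F := F) (r := 5) h5
  have hl0 : l ≠ 0 := by
    rintro rfl
    norm_num at hl5
  have hl4 : l ^ 4 + l ^ 3 + l ^ 2 + l + 1 = 0 := by
    have h3 : (l - 1) * (l ^ 4 + l ^ 3 + l ^ 2 + l + 1) = 0 := by linear_combination hl5
    exact (mul_eq_zero.mp h3).resolve_left (sub_ne_zero.mpr hl1)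
  have hli : l⁻¹ = l ^ 4 := by
    rw [inv_eq_of_mul_eq_one_right]
    linear_combination hl5
  refine ⟨l + l ^ 4, ?_, ?_⟩
  · linear_combination (l ^ 3 + 2) * hl5 + hl4
  · have hpow : ∀ k, l ^ (5 * k) = 1 := fun k => by rw [pow_mul, hl5, one_pow]
    have e4 : ∀ m : ℕ, (l ^ m) ^ 4 = l ^ (4 * m) := fun m => by rw [← pow_mul, mul_comm]
    rw [add_pow_q hF, ← pow_mul]
    rcases hp5 with h | h
    · have e : p = 5 * (p / 5) + 1 := by omega
      have e1 : l ^ p = l := by rw [e, pow_add, hpow, one_mul, pow_one]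
      have e2 : l ^ (4 * p) = l ^ 4 := by rw [mul_comm, pow_mul, e1]
      rw [e1, e2]
    · have e : p = 5 * (p / 5) + 4 := by omega
      have e1 : l ^ p = l ^ 4 := by rw [e, pow_add, hpow, one_mul]
      have e2 : l ^ (4 * p) = l := by
        rw [mul_comm, pow_mul, e1, ← pow_mul]
        calc l ^ (4 * 4) = l ^ (5 * 3) * l := by ring
          _ = l := by rw [hpow, one_mul]
      rw [e1, e2, add_comm]

theorem no_fix {F : Type*} [Field F] [Fintype F] {p : ℕ} [Fact p.Prime] [CharP F p] (hF : Fintype.card F = p ^ 2) (hp4 : p % 4 = 3)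
    {R : Subgroup (GL (Fin 4) F)} (hP : PGrp R)
    (hR5 : Nat.card R = 2 ^ 6) (hRZ : Nat.card (Subgroup.center R) = 4)
    (r : ℕ) [Fact r.Prime] (hr2 : r ≠ 2)
    (hΩ : r ∣ (Cfsg.Geo.subgroupNormalizer R).relIndex (Cfsg.GU 4 F p ⊓ Cfsg.Geo.specialLinear (Fin 4) F))
    (H : ∀ x ∈ Cfsg.GU 4 F p ⊓ Cfsg.Geo.specialLinear (Fin 4) F, x ^ r = 1 → x ≠ 1 → ∃ g ∈ Cfsg.GU 4 F p ⊓ Cfsg.Geo.specialLinear (Fin 4) F, g⁻¹ * x * g ∈ Cfsg.Geo.subgroupNormalizer R) :
    (r = 3 ∧ p % 3 = 1) ∨ (r = 5 ∧ orderOf (p : ZMod 5) = 4) := by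
  have hp : p.Prime := Fact.out
  have hr : r.Prime := Fact.out
  have hrodd : Odd r := hr.odd_of_ne_two hr2
  have hpF : ∀ m : ℕ, (m : F) = 0 → p ∣ m := fun m hm => (CharP.cast_eq_zero_iff F p m).mp hm
  have h2 : (2 : F) ≠ 0 := by
    intro h
    have h1 := hpF 2 (by exact_mod_cast h)
    have := (Nat.prime_dvd_prime_iff_eq hp Nat.prime_two).mp h1
    omega
  have hcard4 : Fintype.card (Fin 4) = 4 := by simp
  -- the key facts on conjugates in the normaliser
  have key : ∀ x ∈ Cfsg.GU 4 F p ⊓ Cfsg.Geo.specialLinear (Fin 4) F, x ^ r = 1 → x ≠ 1 → ∃ y ∈ Cfsg.Geo.subgroupNormalizer R, ∃ g : GL (Fin 4) F, y = g⁻¹ * x * g ∧ y ^ r = 1 ∧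
      (∀ v ∈ R, y ^ r * v = v * y ^ r) ∧ ¬ (∀ v ∈ R, y * v = v * y) := by
    intro x hx hxr hx1
    obtain ⟨g, hg, hgN⟩ := H x hx hxr hx1
    have hyr : (g⁻¹ * x * g) ^ r = 1 := GL_conj_pow hxr
    refine ⟨_, hgN, g, rfl, hyr, fun v _ => by rw [hyr, one_mul, mul_one], ?_⟩
    intro hcom
    obtain ⟨z, hz⟩ := scalar_of_comm_R hP hcom
    exact hx1 (SL4_scalar_eq_one hx.2 hrodd hxr (GL_conj_scalar hz))
  have hcases : ∀ y ∈ Cfsg.Geo.subgroupNormalizer R, (∀ v ∈ R, y ^ r * v = v * y ^ r) → ¬ (∀ v ∈ R, y * v = v * y) → _ := fun y hy1 hy2 hy3 =>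
    hP.odd_cases h2 hcard4 (k := 2) (by rw [hRZ]; norm_num) hR5 hy1 hr2 hy2 hy3
  by_contra hcon
  push Not at hcon
  by_cases hrp : r = p
  · -- transvections
    obtain ⟨x, hx, hxr, hx1, hxk⟩ := exists_transv_SU hF (p := p)
    rw [← hrp] at hxr
    obtain ⟨y, hyN, g, hyg, hyr, hyc, hyn⟩ := key x hx hxr hx1
    apply hyn
    apply hP.not_rank_one h2 hyN hrodd hyr (by rw [hcard4]; norm_num)
    rw [hyg, GL_conj_ker, hxk, hcard4]
  by_cases h35 : r = 3 ∨ r = 5
  · rcases h35 with rfl | rfl
    · -- diagonal elements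
      have hp3 : p ≠ 3 := fun h => hrp h.symm
      have hp1 : p % 3 = 2 := by
        have h4 : p % 3 ≠ 0 := fun h => hp3 (((Nat.prime_dvd_prime_iff_eq (by norm_num) hp).mp (Nat.dvd_of_mod_eq_zero h)).symm)
        have h5 := hcon.1 rfl
        omega
      obtain ⟨ω, hω1, hω3⟩ := exists_prim_root (F := F) (r := 3) (by
        rw [hF]
        have h1 : p ^ 2 % 3 = 1 := by rw [Nat.pow_mod, hp1]
        have h2 : 1 ≤ p ^ 2 := Nat.one_le_pow _ _ hp.pos
        omega)
      have hω0 : ω ≠ 0 := by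
        rintro rfl
        norm_num at hω3
      have hω2 : ω ^ 2 + ω + 1 = 0 := by
        have h3 : (ω - 1) * (ω ^ 2 + ω + 1) = 0 := by linear_combination hω3
        exact (mul_eq_zero.mp h3).resolve_left (sub_ne_zero.mpr hω1)
      have hωi : ω⁻¹ = ω ^ 2 := by
        rw [inv_eq_of_mul_eq_one_right]
        linear_combination hω3
      have hωp : ω ^ (p + 1) = 1 := by
        have e : p + 1 = 3 * ((p + 1) / 3) := by omega
        rw [e, pow_mul, hω3, one_pow]
      obtain ⟨x, hxM, hxi⟩ := exists_diagGL (F := F) (ι := Fin 4) (f := ![ω, ω, ω, 1]) (by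
        intro i; fin_cases i <;> simp [hω0])
      have hxS : x ∈ Cfsg.Geo.specialLinear (Fin 4) F := by
        rw [mem_SL, hxM, Matrix.det_diagonal, Fin.prod_univ_four]
        simp
        linear_combination hω3
      have hxG : x ∈ Cfsg.GU 4 F p := by
        rw [Uni.mem_GU, hxM]
        apply pres_diagonal
        intro i
        fin_cases i <;> simp [hωp]
      have hx : x ∈ Cfsg.GU 4 F p ⊓ Cfsg.Geo.specialLinear (Fin 4) F := ⟨hxG, hxS⟩
      have hxr : x ^ 3 = 1 := by
        apply Units.ext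
        rw [Units.val_pow_eq_pow_val, hxM, Matrix.diagonal_pow]
        ext i j
        fin_cases i <;> fin_cases j <;> simp [hω3, Matrix.one_apply]
      have hx1 : x ≠ 1 := by
        rintro rfl
        have h3 := congrFun (congrFun hxM 0) 0
        simp at h3
        exact hω1 h3.symm
      obtain ⟨y, hyN, g, hyg, hyr, hyc, hyn⟩ := key x hx hxr hx1
      have hc := hcases y hyN hyc hyn
      rw [hyg, GL_conj_trace, GL_conj_trace', hxM, hxi, Matrix.trace_diagonal, Matrix.trace_diagonal, Fin.sum_univ_four, Fin.sum_univ_four] at hc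
      simp only [Matrix.cons_val_zero, Matrix.cons_val_one, Matrix.cons_val, hωi, inv_one] at hc
      have h7 : (ω + ω + ω + 1) * (ω ^ 2 + ω ^ 2 + ω ^ 2 + 1) = 7 := by
        linear_combination 9 * hω3 + 3 * hω2
      rw [h7] at hc
      rcases hc with ⟨-, hc, -⟩ | ⟨-, hc, -⟩
      · have h6 : ((6 : ℕ) : F) = 0 := by push_cast; linear_combination hc
        have h8 : p ∈ Nat.primeFactors 6 := Nat.mem_primeFactors.mpr ⟨hp, hpF 6 h6, by norm_num⟩
        have h9 : Nat.primeFactors 6 = {2, 3} := by decide +kernel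
        rw [h9] at h8
        simp only [Finset.mem_insert, Finset.mem_singleton] at h8
        omega
      · have h3 : ((3 : ℕ) : F) = 0 := by push_cast; linear_combination hc
        exact hp3 ((Nat.prime_dvd_prime_iff_eq hp (by norm_num)).mp (hpF 3 h3))
    · -- elements of `SU₂`
      have hp5 : p % 5 ≠ 0 := fun h => hrp ((Nat.prime_dvd_prime_iff_eq (by norm_num) hp).mp (Nat.dvd_of_mod_eq_zero h))
      have h5F : (5 : F) ≠ 0 := by
        intro h
        have h1 := hpF 5 (by exact_mod_cast h)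
        exact hrp ((Nat.prime_dvd_prime_iff_eq hp (by norm_num)).mp h1).symm
      obtain ⟨τ, hτ1, hτ2⟩ := exists_tau hF (mod_five_of_order hp5 (hcon.2 rfl))
      obtain ⟨M, hMd, hMr, hM1, x, hx, hxM, hxi⟩ := exists_five_SU hF h2 h5F hτ1 hτ2
      have hxr : x ^ 5 = 1 := by
        apply Units.ext
        rw [Units.val_pow_eq_pow_val, hxM, ← psiM_pow, hMr, psiM_one]
        rfl
      have hx1 : x ≠ 1 := by
        rintro rfl
        exact hM1 (psiM_injective hxM.symm)
      obtain ⟨y, hyN, g, hyg, hyr, hyc, hyn⟩ := key x hx hxr hx1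
      have hc := hcases y hyN hyc hyn
      rw [hyg, GL_conj_trace, GL_conj_trace', hxM, hxi, psiM_trace, psiM_trace, adjugate_trace_two] at hc
      have hτ := sl2_five hMd hMr hM1
      rcases hc with ⟨-, hc, -⟩ | ⟨h3, -⟩
      · have h3 : (M.trace + 1) * (M.trace + 3) = 0 := by linear_combination hc
        rcases mul_eq_zero.mp h3 with h4 | h4
        · have h5 : M.trace = -1 := by linear_combination h4
          rw [h5] at hτ
          apply h2
          linear_combination hτ
        · have h5 : M.trace = -3 := by linear_combination h4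
          rw [h5] at hτ
          have h6 : ((20 : ℕ) : F) = 0 := by push_cast; linear_combination -hτ
          have h7 := hpF 20 h6
          have h8 : p ∈ Nat.primeFactors 20 := Nat.mem_primeFactors.mpr ⟨hp, h7, by norm_num⟩
          have h9 : Nat.primeFactors 20 = {2, 5} := by decide +kernel
          rw [h9] at h8
          simp only [Finset.mem_insert, Finset.mem_singleton] at h8
          rcases h8 with h8 | h8
          · omega
          · exact hrp h8.symm
      · exact absurd h3 (by norm_num)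
  · -- large primes
    have hrG : r ∣ Nat.card (Cfsg.GU 4 F p ⊓ Cfsg.Geo.specialLinear (Fin 4) F : Subgroup (GL (Fin 4) F)) := hΩ.trans ((Subgroup.relIndex_dvd_card _ _))
    obtain ⟨x, hx⟩ := exists_prime_orderOf_dvd_card' r hrG
    have hxr : (x : GL (Fin 4) F) ^ r = 1 := by
      have h3 : x ^ r = 1 := by rw [← hx]; exact pow_orderOf_eq_one x
      exact congrArg Subtype.val h3
    have hx1 : (x : GL (Fin 4) F) ≠ 1 := by
      intro h3
      have h4 : x = 1 := Subtype.ext h3
      rw [h4, orderOf_one] at hx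
      exact hr.ne_one hx.symm
    obtain ⟨y, hyN, g, hyg, hyr, hyc, hyn⟩ := key x x.2 hxr hx1
    rcases hcases y hyN hyc hyn with ⟨h3, -⟩ | ⟨h3, -⟩
    · exact h35 h3
    · exact h35 (Or.inl h3)


/-- Elements of prime order of PSU_4(p), p ≡ 3 (mod 4), and the normalizer of a 2-group of symplectic type of order 2⁶. Here `T = PSU_4(p)` for a prime `p ≡ 3 (mod 4)`, realised through `SU_4(p)`, the matrices of determinant 1 over the field `F` with `p²` elements preserving the hermitian form `f = Σ uᵢvᵢ^p`; `R` is an absolutely irreducible subgroup of the full unitary group of `f` of order 2⁶ that is a 2-group of symplectic type of exponent 4 with centre of order 4, and `H` is the subgroup of `SU_4(p)` normalizing `R` — a subgroup of type 2⁴.Sp₄(2) (maximality is not assumed). Ω is the set of cosets of `H`, so an element of `T` of prime order `r` (`x ∈ SU_4(p)` with `x^r` scalar, `x` not scalar) fixes a point of Ω exactly when some `SU_4(p)`-conjugate of `x` normalizes `R`. Let `r`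 be a prime dividing the index of `H`. Then every element of `T` of order `r` fixes a point of Ω if and only if `r = 2`, or `r = 3` and `p ≡ 1 (mod 3)`, or `r = 5` and `p ≡ ±2 (mod 5)` (`p` has multiplicative order 4 modulo 5). -/
theorem result {F : Type*} [Field F] [Fintype F] {p : ℕ} [Fact p.Prime] [CharP F p] (hF : Fintype.card F = p ^ 2) (hp4 : p % 4 = 3)
    (R : Subgroup (GL (Fin 4) F)) (hRs : Cfsg.Geo.IsSymplecticTypeGroup 2 R) (hRi : Cfsg.Geo.ActsAbsolutelyIrreducibly (Cfsg.Geo.matrixSet R))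
    (hRU : R ≤ Cfsg.GU 4 F p) (hR6 : Nat.card R = 2 ^ 6) (hRZ : Nat.card (Subgroup.center R) = 4)
    (r : ℕ) [Fact r.Prime]
    (hΩ : r ∣ (Cfsg.Geo.subgroupNormalizer R).relIndex (Cfsg.GU 4 F p ⊓ Cfsg.Geo.specialLinear (Fin 4) F)) :
    (∀ x ∈ Cfsg.GU 4 F p ⊓ Cfsg.Geo.specialLinear (Fin 4) F, (∃ z : F, ((x ^ r : GL (Fin 4) F) : Matrix (Fin 4) (Fin 4) F) = z • (1 : Matrix (Fin 4) (Fin 4) F)) →
      (∀ z : F, (x : Matrix (Fin 4) (Fin 4) F) ≠ z • (1 : Matrix (Fin 4) (Fin 4) F)) →
      ∃ g ∈ Cfsg.GU 4 F p ⊓ Cfsg.Geo.specialLinear (Fin 4) F, g⁻¹ * x * g ∈ Cfsg.Geo.subgroupNormalizer R) ↔ (r = 2 ∨ (r = 3 ∧ p % 3 = 1) ∨ (r = 5 ∧ orderOf (p : ZMod 5) = 4)) := by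
  have hp : p.Prime := Fact.out
  have hpF : ∀ m : ℕ, (m : F) = 0 → p ∣ m := fun m hm => (CharP.cast_eq_zero_iff F p m).mp hm
  have h2 : (2 : F) ≠ 0 := by
    intro h
    have h1 := hpF 2 (by exact_mod_cast h)
    have := (Nat.prime_dvd_prime_iff_eq hp Nat.prime_two).mp h1
    omega
  have hp3 : 3 ≤ p := by omega
  have hpodd : Odd p := by rw [Nat.odd_iff]; omega
  have h2p : (2 : ℕ) ≠ p := by omega
  have hcard4 : Fintype.card (Fin 4) = 4 := by simp
  have hP : PGrp R := PGrp.of_type hRs hRi (by rw [hcard4]; norm_num)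
  obtain ⟨a0, b0, c0, d0, hq0⟩ := hP.exists_quad h2 (by rw [hcard4]; norm_num) (by rw [hR6, hRZ]; norm_num)
  obtain ⟨s, hs, i, hsi, hii, hss⟩ := hP.exists_i hRZ
  have hsc : ∀ v : GL (Fin 4) F, s * v = v * s := comm_of_val_smul hsi
  obtain ⟨a, b, c, d, hq, haa, hbb, hcc, hdd⟩ := hq0.exists_plus hP hs hsc hss
  have hRN : R ≤ Cfsg.Geo.subgroupNormalizer R := Subgroup.le_normalizer
  have hz0 : ∀ x : GL (Fin 4) F, ∀ z : F, ∀ r : ℕ, ((x ^ r : GL (Fin 4) F) : Matrix (Fin 4) (Fin 4) F) = z • (1 : Matrix (Fin 4) (Fin 4) F) → z ≠ 0 := by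
    intro x z r hz h0
    rw [h0, zero_smul] at hz
    have h3 : ((x ^ r : GL (Fin 4) F) : Matrix (Fin 4) (Fin 4) F) * (((x ^ r)⁻¹ : GL (Fin 4) F) : Matrix (Fin 4) (Fin 4) F) = 1 := by rw [← Units.val_mul, mul_inv_cancel]; rfl
    rw [hz, zero_mul] at h3
    have := congrFun (congrFun h3 0) 0
    simp at this
  -- scalars in the group
  have hzG : ∀ x ∈ Cfsg.GU 4 F p ⊓ Cfsg.Geo.specialLinear (Fin 4) F, ∀ z : F, ∀ r : ℕ, ((x ^ r : GL (Fin 4) F) : Matrix (Fin 4) (Fin 4) F) = z • (1 : Matrix (Fin 4) (Fin 4) F) →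
      z ^ 4 = 1 := by
    intro x hx z r hz
    have h1 := congrArg Matrix.det hz
    rw [Units.val_pow_eq_pow_val, Matrix.det_pow, mem_SL.mp hx.2, one_pow, Matrix.det_smul, Matrix.det_one, mul_one, hcard4] at h1
    exact h1.symm
  have hz41 : ∀ z : F, z ^ 4 = 1 → z ^ (p + 1) = 1 := by
    intro z hz
    have e : p + 1 = 4 * ((p + 1) / 4) := by omega
    rw [e, pow_mul, hz, one_pow]
  have hscal : ∀ z : F, ∀ t : GL (Fin 4) F, (t : Matrix (Fin 4) (Fin 4) F) = z • (1 : Matrix (Fin 4) (Fin 4) F) → z ^ (p + 1) = 1 → t ∈ Cfsg.GU 4 F p := by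
    intro z t ht hz
    rw [Uni.mem_GU]
    intro u v
    rw [ht, Matrix.smul_mulVec, Matrix.smul_mulVec, Matrix.one_mulVec, Matrix.one_mulVec, hermForm_smul_left, hermForm_smul_right, ← mul_assoc, ← pow_succ', hz, one_mul]
  -- reduction to `x ^ r = 1`
  have hred : ∀ (r : ℕ), ∀ x : GL (Fin 4) F, ∀ z w : F, w ≠ 0 → w ^ r = z →
      ((x ^ r : GL (Fin 4) F) : Matrix (Fin 4) (Fin 4) F) = z • (1 : Matrix (Fin 4) (Fin 4) F) →
      (∀ x' t : GL (Fin 4) F, x' ^ r = 1 → (t : Matrix (Fin 4) (Fin 4) F) = w • (1 : Matrix (Fin 4) (Fin 4) F) → x = t * x' →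
        ∃ g ∈ Cfsg.GU 4 F p ⊓ Cfsg.Geo.specialLinear (Fin 4) F, g⁻¹ * x' * g ∈ Cfsg.Geo.subgroupNormalizer R) →
      ∃ g ∈ Cfsg.GU 4 F p ⊓ Cfsg.Geo.specialLinear (Fin 4) F, g⁻¹ * x * g ∈ Cfsg.Geo.subgroupNormalizer R := by
    intro r x z w hw0 hwz hz hx'
    obtain ⟨t, ht, hti⟩ := exists_scalar_GL (ι := Fin 4) hw0
    have htc : ∀ v : GL (Fin 4) F, t * v = v * t := comm_of_val_smul ht
    have htic : ∀ v : GL (Fin 4) F, t⁻¹ * v = v * t⁻¹ := comm_of_val_smul hti
    have hval : ((t⁻¹ * x : GL (Fin 4) F) : Matrix (Fin 4) (Fin 4) F) = w⁻¹ • (x : Matrix (Fin 4) (Fin 4) F) := by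
      rw [Units.val_mul, hti, Matrix.smul_mul, one_mul]
    obtain ⟨g, hg, hgN⟩ := hx' (t⁻¹ * x) t (by
      apply Units.ext
      rw [Units.val_pow_eq_pow_val, hval, smul_pow, ← Units.val_pow_eq_pow_val, hz, smul_smul, inv_pow, hwz, inv_mul_cancel₀ (by rw [← hwz]; exact pow_ne_zero _ hw0), one_smul]
      rfl) ht (by rw [mul_inv_cancel_left])
    refine ⟨g, hg, ?_⟩
    have e : g⁻¹ * x * g = t * (g⁻¹ * (t⁻¹ * x) * g) := by
      rw [← mul_assoc g⁻¹ t⁻¹ x, ← htic g⁻¹, mul_assoc t⁻¹, mul_assoc t⁻¹, mul_inv_cancel_left]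
    rw [e]
    exact Subgroup.mul_mem _ (scalar_mem_normalizer ht) hgN
  -- the odd reduction: the scalar has norm one
  have hredU : ∀ (r : ℕ), ∀ x ∈ Cfsg.GU 4 F p ⊓ Cfsg.Geo.specialLinear (Fin 4) F, ∀ z w : F, z ^ 4 = 1 → w ^ 4 = 1 → w ^ r = z →
      ((x ^ r : GL (Fin 4) F) : Matrix (Fin 4) (Fin 4) F) = z • (1 : Matrix (Fin 4) (Fin 4) F) →
      (∀ x' ∈ Cfsg.GU 4 F p ⊓ Cfsg.Geo.specialLinear (Fin 4) F, x' ^ r = 1 → (∃ t : GL (Fin 4) F, (t : Matrix (Fin 4) (Fin 4) F) = w • (1 : Matrix (Fin 4) (Fin 4) F) ∧ x = t * x') →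
        ∃ g ∈ Cfsg.GU 4 F p ⊓ Cfsg.Geo.specialLinear (Fin 4) F, g⁻¹ * x' * g ∈ Cfsg.Geo.subgroupNormalizer R) →
      ∃ g ∈ Cfsg.GU 4 F p ⊓ Cfsg.Geo.specialLinear (Fin 4) F, g⁻¹ * x * g ∈ Cfsg.Geo.subgroupNormalizer R := by
    intro r x hx z w hz4 hw4 hwz hz hx'
    have hw0 : w ≠ 0 := by
      rintro rfl
      norm_num at hw4
    apply hred r x z w hw0 hwz hz
    intro x' t hx'r ht hxt
    apply hx' x' ?_ hx'r ⟨t, ht, hxt⟩
    have htG := hscal w t ht (hz41 w hw4)
    have htS : t ∈ Cfsg.Geo.specialLinear (Fin 4) F := by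
      rw [mem_SL, ht, Matrix.det_smul, Matrix.det_one, mul_one, hcard4, hw4]
    have e : x' = t⁻¹ * x := by rw [hxt, inv_mul_cancel_left]
    rw [e]
    exact Subgroup.mul_mem _ (Subgroup.inv_mem _ ⟨htG, htS⟩) hx
  have hx'1 : ∀ x x' t : GL (Fin 4) F, ∀ w : F, (t : Matrix (Fin 4) (Fin 4) F) = w • (1 : Matrix (Fin 4) (Fin 4) F) → x = t * x' →
      (∀ z : F, (x : Matrix (Fin 4) (Fin 4) F) ≠ z • (1 : Matrix (Fin 4) (Fin 4) F)) → x' ≠ 1 ∧ x' ≠ -1 := by
    intro x x' t w ht hxt hns
    constructor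
    · rintro rfl
      exact hns w (by rw [hxt, mul_one, ht])
    · rintro rfl
      apply hns (-w)
      rw [hxt, mul_neg, mul_one, Units.val_neg, ht, neg_smul]
  constructor
  · intro H
    by_cases hr2 : r = 2
    · exact Or.inl hr2
    right
    apply no_fix hF hp4 hP hR6 hRZ r hr2 hΩ
    intro x hx hxr hx1
    apply H x hx
    · exact ⟨1, by rw [hxr, one_smul]; rfl⟩
    · intro z hz
      exact hx1 (SL4_scalar_eq_one hx.2 ((Fact.out : r.Prime).odd_of_ne_two hr2) hxr hz)
  · rintro (rfl | ⟨rfl, h3⟩ | ⟨rfl, h4⟩)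
    · -- involutions modulo scalars
      intro x hx ⟨z, hz⟩ hns
      have hzne := hz0 x z 2 hz
      have hz4 := hzG x hx z 2 hz
      have hcharne : ringChar F ≠ 2 := by
        intro h
        have h3 : CharP F 2 := by rw [← h]; exact ringChar.charP F
        exact h2 CharTwo.two_eq_zero
      have hsq : ∃ w : F, w ^ 2 = z := by
        have h1 : IsSquare z := by
          rw [FiniteField.isSquare_iff hcharne hzne, hF]
          have e : p ^ 2 / 2 = 4 * (p ^ 2 / 8) := by
            obtain ⟨k, hk⟩ : ∃ k, p = 4 * k + 3 := ⟨p / 4, by omega⟩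
            have h5 : p ^ 2 = 8 * (2 * k ^ 2 + 3 * k + 1) + 1 := by rw [hk]; ring
            omega
          rw [e, pow_mul, hz4, one_pow]
        obtain ⟨w, hw⟩ := h1
        exact ⟨w, by rw [hw, pow_two]⟩
      obtain ⟨w, hw⟩ := hsq
      have hw0 : w ≠ 0 := by
        rintro rfl
        exact hzne (by rw [← hw]; norm_num)
      apply hred 2 x z w hw0 hw hz
      intro x' t hx'2 ht hxt
      obtain ⟨hx'1, hx'n1⟩ := hx'1 x x' t w ht hxt hns
      have hwε : w ^ (p + 1) = 1 ∨ w ^ (p + 1) = -1 := by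
        apply mul_self_eq_one_iff.mp
        rw [← mul_pow, ← pow_two, hw, hz41 z hz4]
      have hform : ∀ u v, w ^ (p + 1) * Cfsg.hermForm 4 F p ((x' : Matrix (Fin 4) (Fin 4) F) *ᵥ u) ((x' : Matrix (Fin 4) (Fin 4) F) *ᵥ v) = Cfsg.hermForm 4 F p u v := by
        intro u v
        have h5 := Uni.mem_GU.mp hx.1 u v
        rw [hxt, Units.val_mul, ← Matrix.mulVec_mulVec, ← Matrix.mulVec_mulVec, ht, Matrix.smul_mulVec, Matrix.smul_mulVec, Matrix.one_mulVec, Matrix.one_mulVec,
          hermForm_smul_left, hermForm_smul_right, ← mul_assoc, ← pow_succ'] at h5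
        exact h5
      rcases hwε with hwε | hwε
      · -- unitary involutions
        have hx'G : x' ∈ Cfsg.GU 4 F p := by
          rw [Uni.mem_GU]
          intro u v
          have := hform u v
          rwa [hwε, one_mul] at this
        have hcast : ∀ k l : ℕ, k ≤ 4 → l ≤ 4 → (k : F) = l → k ≡ l [MOD p] := fun k l _ _ h => (CharP.natCast_eq_natCast F p).mp h
        obtain ⟨N, hN⟩ := exists_InvN hF hpodd h2p hx'G (by rw [← pow_two]; exact hx'2)
        have hN4 := hN.le
        have hNne4 : N ≠ 4 := by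
          rintro rfl
          exact hx'1 hN.eq_one
        have hNne0 : N ≠ 0 := by
          rintro rfl
          exact hx'n1 (hN.eq_neg_one h2)
        obtain ⟨t', ht'N, ht't, ht'v⟩ := hq.exists_refl hP h2 haa hcc
        have haG := hRU hq.ha
        have hcG := hRU hq.hc
        have ht'G := refl_mem_GU hF haG hcG haa hcc hq.ac ht't ht'v
        have tra : (a : Matrix (Fin 4) (Fin 4) F).trace = 0 := trace_zero_of_anti h2 hq.ab
        have trc : (c : Matrix (Fin 4) (Fin 4) F).trace = 0 := trace_zero_of_anti h2 hq.cd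
        have trac : ((a : Matrix (Fin 4) (Fin 4) F) * (c : Matrix (Fin 4) (Fin 4) F)).trace = 0 := by
          rw [← Units.val_mul]
          apply trace_zero_of_anti h2 (w := b)
          rw [mul_assoc, ← hq.bc, ← mul_assoc, hq.ab, neg_mul, mul_assoc]
        have trt : (t' : Matrix (Fin 4) (Fin 4) F).trace = 2 := by
          rw [ht'v, Matrix.trace_smul, Matrix.trace_sub, Matrix.trace_sub, Matrix.trace_sub, tra, trc, trac, Matrix.trace_one, hcard4, smul_eq_mul]
          push_cast
          field_simp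
          norm_num
        have ht'n : t' ≠ -1 := by
          intro h
          rw [h, Units.val_neg, Units.val_one] at ht'v
          have h5 : (1 + (a : Matrix (Fin 4) (Fin 4) F)) * (1 + (c : Matrix (Fin 4) (Fin 4) F)) = (4 : F) • 1 := by
            have h6 := congrArg (fun M => (2 : F) • M) ht'v
            simp only [smul_smul, mul_inv_cancel₀ h2, one_smul] at h6
            have h7 : (1 + (a : Matrix (Fin 4) (Fin 4) F)) * (1 + (c : Matrix (Fin 4) (Fin 4) F)) = (2 : F) • 1 -
                (1 - (a : Matrix (Fin 4) (Fin 4) F) - (c : Matrix (Fin 4) (Fin 4) F) - (a : Matrix (Fin 4) (Fin 4) F) * (c : Matrix (Fin 4) (Fin 4) F)) := by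
              rw [two_smul, add_mul, mul_add, mul_add, one_mul, one_mul, mul_one]
              abel
            rw [h7, ← h6]
            have h8 : (4 : F) = 2 + 2 := by norm_num
            rw [h8, add_smul, smul_neg, sub_neg_eq_add]
          have h9 : (1 - (a : Matrix (Fin 4) (Fin 4) F)) * ((1 + (a : Matrix (Fin 4) (Fin 4) F)) * (1 + (c : Matrix (Fin 4) (Fin 4) F))) = 0 := by
            have h10 : (a : Matrix (Fin 4) (Fin 4) F) * (a : Matrix (Fin 4) (Fin 4) F) = 1 := by rw [← Units.val_mul, haa]; rfl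
            have h11 : (1 - (a : Matrix (Fin 4) (Fin 4) F)) * (1 + (a : Matrix (Fin 4) (Fin 4) F)) = 0 := by
              rw [sub_mul, mul_add, mul_add, one_mul, one_mul, mul_one, h10]; abel
            rw [← mul_assoc, h11, zero_mul]
          rw [h5, Matrix.mul_smul, mul_one] at h9
          have h40 : (4 : F) ≠ 0 := by
            have : (4 : F) = 2 * 2 := by norm_num
            rw [this]; exact mul_ne_zero h2 h2
          have h12 := (smul_eq_zero.mp h9).resolve_left h40
          apply (ne_one_of_anti h2 hq.ab).1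
          apply Units.ext
          rw [sub_eq_zero] at h12
          exact h12.symm
        obtain ⟨Na, hNa⟩ := exists_InvN hF hpodd h2p haG haa
        obtain ⟨Nt, hNt⟩ := exists_InvN hF hpodd h2p ht'G ht't
        have hNa2 : Na = 2 := by
          have h5 := hNa.trace
          rw [tra] at h5
          have h6 : ((Na : ℕ) : F) = ((2 : ℕ) : F) := by
            apply mul_left_cancel₀ h2
            push_cast
            linear_combination -h5
          have h7 := hcast _ _ hNa.le (by norm_num) h6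
          have h8 := hNa.le
          by_contra h9
          rcases Nat.lt_or_gt_of_ne h9 with h10 | h10
          · have h11 := (Nat.modEq_iff_dvd' h10.le).mp h7
            have := Nat.le_of_dvd (by omega) h11
            omega
          · have h11 := (Nat.modEq_iff_dvd' h10.le).mp h7.symm
            have := Nat.le_of_dvd (by omega) h11
            omega
        have hNt3 : Nt = 3 := by
          have h5 := hNt.trace
          rw [trt] at h5
          have h6 : ((Nt : ℕ) : F) = ((3 : ℕ) : F) := by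
            apply mul_left_cancel₀ h2
            push_cast
            linear_combination -h5
          have h7 := hcast _ _ hNt.le (by norm_num) h6
          have h8 := hNt.le
          have h0 : Nt ≠ 0 := by
            rintro rfl
            exact ht'n (hNt.eq_neg_one h2)
          by_contra h9
          rcases Nat.lt_or_gt_of_ne h9 with h10 | h10
          · have h11 := (Nat.modEq_iff_dvd' h10.le).mp h7
            have := Nat.le_of_dvd (by omega) h11
            omega
          · have h11 := (Nat.modEq_iff_dvd' h10.le).mp h7.symm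
            have := Nat.le_of_dvd (by omega) h11
            omega
        have hN123 : N = 1 ∨ N = 2 ∨ N = 3 := by omega
        rcases hN123 with rfl | rfl | rfl
        · rw [hNt3] at hNt
          obtain ⟨g, hg, hgx⟩ := hN.conj hF h2 (hNt.neg h2)
          exact ⟨g, hg, by rw [hgx, ← neg_one_mul]; exact Subgroup.mul_mem _ (hRN hP.neg) ht'N⟩
        · rw [hNa2] at hNa
          obtain ⟨g, hg, hgx⟩ := hN.conj hF h2 hNa
          exact ⟨g, hg, by rw [hgx]; exact hRN hq.ha⟩
        · rw [hNt3] at hNt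
          obtain ⟨g, hg, hgx⟩ := hN.conj hF h2 hNt
          exact ⟨g, hg, by rw [hgx]; exact ht'N⟩
      · -- impossible
        exfalso
        have hx'x' : ∀ v, (x' : Matrix (Fin 4) (Fin 4) F) *ᵥ ((x' : Matrix (Fin 4) (Fin 4) F) *ᵥ v) = v := by
          intro v
          rw [Matrix.mulVec_mulVec, ← Units.val_mul, ← pow_two, hx'2, Units.val_one, Matrix.one_mulVec]
        have hti : ∀ W : Submodule F (Fin 4 → F), (∀ u ∈ W, ∀ v ∈ W, Cfsg.hermForm 4 F p u v = 0) → finrank F W ≤ 2 := by
          intro W hW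
          have h5 : W ≤ Uni.perp p W := by
            intro u hu
            rw [Uni.mem_perp]
            intro v hv
            exact hW u hu v hv
          have h6 := Submodule.finrank_mono h5
          have h7 := Uni.finrank_perp hF W
          omega
        have hε : ∀ W : Submodule F (Fin 4 → F), ∀ ε : F, ε * ε ^ p = 1 → (∀ u ∈ W, (x' : Matrix (Fin 4) (Fin 4) F) *ᵥ u = ε • u) → finrank F W ≤ 2 := by
          intro W ε hεε hW
          apply hti
          intro u hu v hv
          have h5 := hform u v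
          rw [hwε, hW u hu, hW v hv, hermForm_smul_left, hermForm_smul_right, ← mul_assoc ε, hεε, one_mul] at h5
          have h6 : 2 * Cfsg.hermForm 4 F p u v = 0 := by linear_combination -h5
          exact (mul_eq_zero.mp h6).resolve_left h2
        set f := Matrix.toLin' (x' : Matrix (Fin 4) (Fin 4) F) with hf
        have hk1 : finrank F (LinearMap.ker (f - 1)) ≤ 2 := by
          apply hε _ 1 (by rw [one_pow, one_mul])
          intro u hu
          rw [LinearMap.mem_ker, LinearMap.sub_apply, sub_eq_zero, hf, Matrix.toLin'_apply, Module.End.one_apply] at hu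
          rw [hu, one_smul]
        have hk2 : finrank F (LinearMap.range (f - 1)) ≤ 2 := by
          apply hε _ (-1) (by rw [neg_pow_q hF, one_pow]; ring)
          rintro _ ⟨u, rfl⟩
          rw [LinearMap.sub_apply, hf, Matrix.toLin'_apply, Module.End.one_apply, Matrix.mulVec_sub, hx'x']
          simp
        have hsum := LinearMap.finrank_range_add_finrank_ker (f - 1)
        rw [finrank_fintype_fun_eq_card, hcard4] at hsum
        have hk : finrank F (LinearMap.ker (f - 1)) = 2 := by omega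
        -- comparison with a diagonal matrix
        obtain ⟨y0, hy0, -⟩ := exists_diagGL (F := F) (ι := Fin 4) (f := ![1, 1, -1, -1]) (by
          intro i; fin_cases i <;> simp)
        have hy02 : y0 ^ 2 = 1 := by
          apply Units.ext
          rw [Units.val_pow_eq_pow_val, hy0, Matrix.diagonal_pow]
          ext i j
          fin_cases i <;> fin_cases j <;> simp [Matrix.one_apply]
        have hy0k : finrank F (LinearMap.ker (Matrix.toLin' (y0 : Matrix (Fin 4) (Fin 4) F) - 1)) = 2 := by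
          have h5 := ker_two h2 hy02
          rw [hy0, Matrix.trace_diagonal, Fin.sum_univ_four] at h5
          simp only [Matrix.cons_val_zero, Matrix.cons_val_one, Matrix.cons_val] at h5
          rw [← hy0] at h5
          have h6 : ((finrank F (LinearMap.ker (Matrix.toLin' (y0 : Matrix (Fin 4) (Fin 4) F) - 1)) : ℕ) : F) = ((2 : ℕ) : F) := by
            apply mul_left_cancel₀ h2
            rw [← h5]
            push_cast
            ring
          have h7 := (CharP.natCast_eq_natCast F p).mp h6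
          have h8 : finrank F (LinearMap.ker (Matrix.toLin' (y0 : Matrix (Fin 4) (Fin 4) F) - 1)) ≤ 4 := by
            have := Submodule.finrank_le (LinearMap.ker (Matrix.toLin' (y0 : Matrix (Fin 4) (Fin 4) F) - 1))
            rwa [finrank_fintype_fun_eq_card, hcard4] at this
          by_contra h9
          rcases Nat.lt_or_gt_of_ne h9 with h10 | h10
          · have h11 := (Nat.modEq_iff_dvd' h10.le).mp h7
            have := Nat.le_of_dvd (by omega) h11
            omega
          · have h11 := (Nat.modEq_iff_dvd' h10.le).mp h7.symm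
            have := Nat.le_of_dvd (by omega) h11
            omega
        have hi2 : orderOf ((Fintype.card F : ℕ) : ZMod 2) = 2 - 1 := order_zmod_two (by rw [hF]; exact hpodd.pow)
        obtain ⟨g, -, hg⟩ := SL_conj_of_ker (by norm_num) h2p hi2 hx'2 hy02 (hk.trans hy0k.symm)
        have hdet : (x' : Matrix (Fin 4) (Fin 4) F).det = 1 := by
          have h5 : (y0 : Matrix (Fin 4) (Fin 4) F).det = 1 := by
            rw [hy0, Matrix.det_diagonal, Fin.prod_univ_four]
            simp
          have h6 : x' = g * y0 * g⁻¹ := by rw [← hg]; group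
          rw [h6, Units.val_mul, Units.val_mul, Matrix.det_mul, Matrix.det_mul, h5, mul_one, ← Matrix.det_mul, ← Units.val_mul, mul_inv_cancel, Units.val_one, Matrix.det_one]
        have hdx := mem_SL.mp hx.2
        rw [hxt, Units.val_mul, Matrix.det_mul, hdet, mul_one, ht, Matrix.det_smul, Matrix.det_one, mul_one, hcard4] at hdx
        have h5 := hz41 w hdx
        rw [hwε] at h5
        apply h2
        linear_combination -h5
    · -- elements of order three
      intro x hx ⟨z, hz⟩ hns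
      have hz4 := hzG x hx z 3 hz
      apply hredU 3 x hx z (z ^ 3) hz4 (by rw [← pow_mul, mul_comm, pow_mul, hz4, one_pow]) (by
        calc (z ^ 3) ^ 3 = (z ^ 4) ^ 2 * z := by ring
          _ = z := by rw [hz4, one_pow, one_mul]) hz
      rintro x' hx'G hx'3 ⟨t, ht, hxt⟩
      obtain ⟨hx'1, -⟩ := hx'1 x x' t _ ht hxt hns
      have h3F : (3 : F) ≠ 0 := by
        intro h
        have h1 := hpF 3 (by exact_mod_cast h)
        have := (Nat.prime_dvd_prime_iff_eq hp (by norm_num)).mp h1
        rw [this] at h3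
        omega
      obtain ⟨ω, hω1, hω3⟩ := exists_prim_root (F := F) (r := 3) (by
        rw [hF]
        have h1 : p ^ 2 % 3 = 1 := by rw [Nat.pow_mod, h3]
        have h2 : 1 ≤ p ^ 2 := Nat.one_le_pow _ _ hp.pos
        omega)
      have hω2 : ω ^ 2 + ω + 1 = 0 := by
        have h3 : (ω - 1) * (ω ^ 2 + ω + 1) = 0 := by linear_combination hω3
        exact (mul_eq_zero.mp h3).resolve_left (sub_ne_zero.mpr hω1)
      have hωq : ω ^ p = ω := by
        have e : p = 3 * (p / 3) + 1 := by omega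
        rw [e, pow_add, pow_mul, hω3, one_pow, one_mul, pow_one]
      obtain ⟨t1, t2, n1, n2, p1, p2, hcom, tr1, tr1i, tr12, tr12i, v1, v2, w1, w2⟩ := hq.exists_three hP h2 hcard4 haa hbb hcc hdd hs hsc hss
      have hsG := hRU hs
      have hsq : ∀ x : GL (Fin 4) F, x * x = 1 → (s * x) * (s * x) = -1 := by
        intro x hx
        rw [mul_assoc, ← mul_assoc x s x, ← hsc x, mul_assoc s x x, hx, mul_one, hss]
      have hsant : ∀ x y : GL (Fin 4) F, x * y = -(y * x) → (s * x) * (s * y) = -((s * y) * (s * x)) := by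
        intro x y hxy
        rw [mul_assoc, ← mul_assoc x s y, ← hsc x, mul_assoc s x y, hxy, mul_assoc s y, ← mul_assoc y s x, ← hsc y, mul_assoc s y x, mul_neg, mul_neg]
      have ht1G : t1 ∈ Cfsg.GU 4 F p := quat_mem_GU hF (Subgroup.mul_mem _ hsG (hRU hq.ha)) (Subgroup.mul_mem _ hsG (hRU hq.hb)) (hsq a haa) (hsq b hbb) (hsant a b hq.ab) v1 w1
      have ht2G : t2 ∈ Cfsg.GU 4 F p := quat_mem_GU hF (Subgroup.mul_mem _ hsG (hRU hq.hc)) (Subgroup.mul_mem _ hsG (hRU hq.hd)) (hsq c hcc) (hsq d hdd) (hsant c d hq.cd) v2 w2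
      have h1 : t1 ≠ 1 := by
        rintro rfl
        rw [Units.val_one, Matrix.trace_one, hcard4] at tr1
        have h6 : ((6 : ℕ) : F) = 0 := by push_cast at tr1 ⊢; linear_combination tr1
        have h7 : (6 : F) = 2 * 3 := by norm_num
        push_cast at h6
        rw [h7] at h6
        rcases mul_eq_zero.mp h6 with h8 | h8
        · exact h2 h8
        · exact h3F h8
      have h12 : t1 * t2 ≠ 1 := by
        intro h
        rw [h, Units.val_one, Matrix.trace_one, hcard4] at tr12
        apply h3F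
        push_cast at tr12
        linear_combination tr12
      have hcm : Commute t1 t2 := hcom
      have h12_3 : (t1 * t2) ^ 3 = 1 := by rw [hcm.mul_pow, p1, p2, one_mul]
      -- traces of the two types
      have htrA : ∀ (y : GL (Fin 4) F) (c : Fin 4 → F) (σ : Equiv.Perm (Fin 4)), (∃ v : Fin 4 → Fin 4 → F, (∀ i j, Cfsg.hermForm 4 F p (v i) (v j) = if j = σ i then 1 else 0) ∧
          ∀ i, (y : Matrix (Fin 4) (Fin 4) F) *ᵥ v i = c i • v i) → (y : Matrix (Fin 4) (Fin 4) F).trace = ∑ i, c i := by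
        rintro y c σ ⟨v, hv, hyv⟩
        have hli := linInd_of_gram hv
        let B := basisOfLinearIndependentOfCardEqFinrank hli (by simp)
        have hB : ∀ i, B i = v i := fun i => by simp [B]
        rw [← Matrix.trace_toLin'_eq, LinearMap.trace_eq_matrix_trace F B, Matrix.trace]
        apply Finset.sum_congr rfl
        intro i _
        rw [Matrix.diag_apply, LinearMap.toMatrix_apply, Matrix.toLin'_apply, hB, hyv, ← hB, map_smul, Basis.repr_self]
        simp
      have hsA : ∑ i, (![ω, ω ^ 2, 1, 1] : Fin 4 → F) i = 1 := by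
        rw [Fin.sum_univ_four]; simp only [Matrix.cons_val_zero, Matrix.cons_val_one, Matrix.cons_val]; linear_combination hω2
      have hsB : ∑ i, (![ω, ω ^ 2, ω, ω ^ 2] : Fin 4 → F) i = -2 := by
        rw [Fin.sum_univ_four]; simp only [Matrix.cons_val_zero, Matrix.cons_val_one, Matrix.cons_val]; linear_combination 2 * hω2
      have hc01 : ω * (ω ^ 2) ^ p = 1 := by
        rw [← pow_mul, mul_comm 2 p, pow_mul, hωq, ← pow_succ', hω3]
      have hA1 := types_three hF h3F ht1G p1 h1 hω2 hωq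
      have hA2 := types_three hF h3F (Subgroup.mul_mem _ ht1G ht2G) h12_3 h12 hω2 hωq
      have hB1 := hA1.resolve_left (by
        intro h
        have h5 := htrA _ _ _ h
        rw [tr1, hsA] at h5
        apply h3F
        linear_combination -h5)
      have hB2 := hA2.resolve_right (by
        intro h
        have h5 := htrA _ _ _ h
        rw [tr12, hsB] at h5
        apply h3F
        linear_combination h5)
      rcases types_three hF h3F hx'G.1 hx'3 hx'1 hω2 hωq with ⟨v, hv, hxv⟩ | ⟨v, hv, hxv⟩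
      · obtain ⟨w, hw, hyw⟩ := hB2
        obtain ⟨g, hg, hgx⟩ := conj_of_gram hF (σ := Equiv.swap 0 1) (by decide) (by decide) (c := ![ω, ω ^ 2, 1, 1]) (by simpa using hc01)
          hx'G.1 (Subgroup.mul_mem _ ht1G ht2G) hv hw hxv hyw
        exact ⟨g, hg, by rw [hgx]; exact Subgroup.mul_mem _ n1 n2⟩
      · obtain ⟨w, hw, hyw⟩ := hB1
        obtain ⟨g, hg, hgx⟩ := conj_of_gram hF (σ := Equiv.swap (0 : Fin 4) 1 * Equiv.swap 2 3) (by decide) (by decide) (c := ![ω, ω ^ 2, ω, ω ^ 2]) (by simpa using hc01)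
          hx'G.1 ht1G hv hw hxv hyw
        exact ⟨g, hg, by rw [hgx]; exact n1⟩
    · -- elements of order five
      have hp5 := mod_five_of_order_four h4
      have h5p : (5 : ℕ) ≠ p := by omega
      have hp5' : ¬ 5 ∣ Fintype.card F - 1 := by
        rw [hF]
        have h7 : p ^ 2 % 5 = 4 := by
          rw [Nat.pow_mod]
          rcases hp5 with h8 | h8 <;> rw [h8]
        have h9 : 1 ≤ p ^ 2 := Nat.one_le_pow _ _ hp.pos
        omega
      have h5F : ((5 : ℕ) : F) ≠ 0 := fun h => h5p (((Nat.prime_dvd_prime_iff_eq hp (by norm_num)).mp (hpF 5 h)).symm)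
      have hfive := hq.five haa hbb (by rw [hcc, hdd]) (Or.inl hcc) hs hsc (by rw [hcc, hss])
      obtain ⟨w, hwN, hw5, hw1, hwB⟩ := hfive.exists_order_five hP h2 hp5'
      have hwG : w ∈ Cfsg.GU 4 F p := by
        rw [Uni.mem_GU]
        apply hwB (B := Cfsg.hermForm 4 F p)
        · intro x y z
          exact hermForm_sub_left x y z
        · intro x y z
          exact hermForm_sub_right hF x y z
        · intro i u v
          exact Uni.mem_GU.mp (hRU (hfive.mem i)) u v
      have hwS : w ∈ Cfsg.Geo.specialLinear (Fin 4) F := by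
        rw [mem_SL]
        apply eq_one_of_pow_eq_one hp5'
        rw [← Matrix.det_pow, ← Units.val_pow_eq_pow_val, hw5, Units.val_one, Matrix.det_one]
      have hfree : ∀ x ∈ Cfsg.GU 4 F p ⊓ Cfsg.Geo.specialLinear (Fin 4) F, x ^ 5 = 1 → x ≠ 1 → ∀ v : Fin 4 → F, (x : Matrix (Fin 4) (Fin 4) F) *ᵥ v = v → v = 0 := by
        intro x hx hx5 hx1 v hv
        exact free_five hF hp5 (by exact_mod_cast h5F) hx.1 hx5 hx1 v hv
      intro x hx ⟨z, hz⟩ hns
      have hz4 := hzG x hx z 5 hz
      apply hredU 5 x hx z z hz4 hz4 (by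
        calc z ^ 5 = z ^ 4 * z := by ring
          _ = z := by rw [hz4, one_mul]) hz
      rintro x' hx'G hx'5 -
      obtain ⟨g, hg, k, hk⟩ := conj_of_fpf h5F hfree hx'G ⟨hwG, hwS⟩ hx'5 hw5 hw1
      exact ⟨g, hg, by rw [hk]; exact Subgroup.pow_mem _ hwN k⟩


end Cfsg.Agent.S6001
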