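import Cfsg.Statements.S6002
import Cfsg.Agent.H99.PauliI
import Cfsg.Agent.H99.PrimeElt

set_option autoImplicit false
open scoped MatrixGroups
open Cfsg

namespace Cfsg.Agent.S6002


set_option maxHeartbeats 4000000

open Module Cfsg.Agent.H99
open scoped Matrix

lemma order_zmod_five {m : ℕ} (h : m = 2 ∨ m = 3) : orderOf ((m : ℕ) : ZMod 5) = 4 := by
  have hpp : ∀ u : ZMod 5, u ^ 2 ≠ 1 → u ^ 4 = 1 → orderOf u = 4 := by
    intro u hu1 hu2
    have h11 := orderOf_dvd_of_pow_eq_one hu2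
    have h12 : orderOf u ∈ Nat.divisors 4 := Nat.mem_divisors.mpr ⟨h11, by norm_num⟩
    have h13 : Nat.divisors 4 = {1, 2, 4} := by decide +kernel
    rw [h13] at h12
    simp only [Finset.mem_insert, Finset.mem_singleton] at h12
    rcases h12 with h12 | h12 | h12
    · exfalso; apply hu1; rw [orderOf_eq_one_iff.mp h12, one_pow]
    · exfalso; apply hu1; rw [← h12, pow_orderOf_eq_one]
    · exact h12
  rcases h with rfl | rfl
  · exact hpp _ (by decide) (by decide)
  · exact hpp _ (by decide) (by decide)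

lemma order_zmod_five_zero : orderOf (0 : ZMod 5) ≠ 4 := by
  intro h
  have h7 := pow_orderOf_eq_one (0 : ZMod 5)
  rw [h] at h7
  exact absurd h7 (by decide)

lemma GL_conj_scalar {ι : Type} [Fintype ι] [DecidableEq ι] {F : Type*} [Field F] {x g : GL ι F} {z : F}
    (h : ((g⁻¹ * x * g : GL ι F) : Matrix ι ι F) = z • (1 : Matrix ι ι F)) : (x : Matrix ι ι F) = z • (1 : Matrix ι ι F) := by
  have h1 := comm_of_val_smul h g
  have h2 : g⁻¹ * x * g = x := by
    have h3 : g * (g⁻¹ * x * g) * g⁻¹ = g⁻¹ * x * g := by rw [← h1, mul_inv_cancel_right]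
    rw [← h3]; group
  rw [← h, h2]

lemma scalar_eq_one {F : Type*} [Field F] {x : GL (Fin 2 ⊕ Fin 2) F} (hx : x ∈ Cfsg.spGL 2 F) {r : ℕ} (hr : Odd r) (hxr : x ^ r = 1) {z : F}
    (hz : (x : Matrix (Fin 2 ⊕ Fin 2) (Fin 2 ⊕ Fin 2) F) = z • (1 : Matrix (Fin 2 ⊕ Fin 2) (Fin 2 ⊕ Fin 2) F)) : x = 1 := by
  have hA := sympForm_altForm (F := F) 2
  obtain ⟨u, v, huv⟩ := exists_symp_ne_zero (F := F) (d := 2) (by norm_num)
  have h1 := mem_spGL2.mp hx u v
  rw [hz, Matrix.smul_mulVec, Matrix.smul_mulVec, Matrix.one_mulVec, Matrix.one_mulVec, hA.smul_left, hA.smul_right] at h1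
  have h2 : z * z = 1 := by
    apply mul_right_cancel₀ huv
    rw [one_mul, mul_assoc]; exact h1
  have h3 : z ^ r = 1 := by
    have h4 := congrArg (fun y : GL (Fin 2 ⊕ Fin 2) F => (y : Matrix (Fin 2 ⊕ Fin 2) (Fin 2 ⊕ Fin 2) F)) hxr
    simp only [Units.val_pow_eq_pow_val, hz, smul_pow, one_pow, Units.val_one] at h4
    apply GL_smul_one_inj (ι := Fin 2 ⊕ Fin 2)
    rw [h4, one_smul]
  have h4 : z = 1 := by
    apply eq_one_of_coprime_pow hr _ h3
    calc z ^ 4 = (z * z) * (z * z) := by ring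
      _ = 1 := by rw [h2, one_mul]
  apply Units.ext
  rw [hz, h4, one_smul]; rfl

theorem no_fix {F : Type*} [Field F] [Fintype F] {p : ℕ} [Fact p.Prime] [CharP F p] (hF : Fintype.card F = p) (hodd : Odd p)
    {R : Subgroup (GL (Fin 2 ⊕ Fin 2) F)} (hP : PGrp R)
    (hR5 : Nat.card R = 2 ^ 5) (hRZ : Nat.card (Subgroup.center R) = 2) (hRm : Cfsg.Geo.IsOfMinusType 2 R)
    (r : ℕ) [Fact r.Prime] (hr2 : r ≠ 2)
    (hΩ : r ∣ (Cfsg.Geo.subgroupNormalizer R).relIndex (Cfsg.spGL 2 F))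
    (H : ∀ x ∈ Cfsg.spGL 2 F, x ^ r = 1 → x ≠ 1 → ∃ g ∈ Cfsg.spGL 2 F, g⁻¹ * x * g ∈ Cfsg.Geo.subgroupNormalizer R) :
    r = 5 ∧ orderOf (p : ZMod 5) = 4 := by
  have hp : p.Prime := Fact.out
  have hr : r.Prime := Fact.out
  have hrodd : Odd r := hr.odd_of_ne_two hr2
  have h2 : (2 : F) ≠ 0 := by
    intro h
    have h1 : ((2 : ℕ) : F) = 0 := by exact_mod_cast h
    rw [CharP.cast_eq_zero_iff F p] at h1
    have := (Nat.prime_dvd_prime_iff_eq hp Nat.prime_two).mp h1
    subst this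
    exact absurd hodd (by decide)
  have hcard4 : Fintype.card (Fin 2 ⊕ Fin 2) = 4 := by simp
  obtain ⟨a0, b0, c0, d0, hq0⟩ := hP.exists_quad h2 (by rw [hcard4]; norm_num) (by rw [hR5, hRZ]; norm_num)
  obtain ⟨a, b, c, d, hq, haa, hbb, hcc, hdd⟩ := hq0.exists_minus hP h2 hRm
  -- the key facts on conjugates in the normaliser
  have key : ∀ x ∈ Cfsg.spGL 2 F, x ^ r = 1 → x ≠ 1 → ∃ y ∈ Cfsg.Geo.subgroupNormalizer R, ∃ g : GL (Fin 2 ⊕ Fin 2) F, y = g⁻¹ * x * g ∧ y ^ r = 1 ∧
      (∀ v ∈ R, y ^ r * v = v * y ^ r) ∧ ¬ (∀ v ∈ R, y * v = v * y) := by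
    intro x hx hxr hx1
    obtain ⟨g, hg, hgN⟩ := H x hx hxr hx1
    have hyr : (g⁻¹ * x * g) ^ r = 1 := by
      have h3 : g⁻¹ * x * g = g⁻¹ * x * g⁻¹⁻¹ := by rw [inv_inv]
      rw [h3, conj_pow, hxr, mul_one, mul_inv_cancel]
    refine ⟨_, hgN, g, rfl, hyr, fun v _ => by rw [hyr, one_mul, mul_one], ?_⟩
    intro hcom
    obtain ⟨z, hz⟩ := scalar_of_comm_R hP hcom
    exact hx1 (scalar_eq_one hx hrodd hxr (GL_conj_scalar hz))
  have htr : ∀ x g : GL (Fin 2 ⊕ Fin 2) F, ((g⁻¹ * x * g : GL (Fin 2 ⊕ Fin 2) F) : Matrix (Fin 2 ⊕ Fin 2) (Fin 2 ⊕ Fin 2) F).trace =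
      (x : Matrix (Fin 2 ⊕ Fin 2) (Fin 2 ⊕ Fin 2) F).trace := by
    intro x g
    rw [mul_assoc, Units.val_mul, Matrix.trace_mul_comm, ← Units.val_mul, mul_assoc, mul_inv_cancel, mul_one]
  have htr' : ∀ x g : GL (Fin 2 ⊕ Fin 2) F, (((g⁻¹ * x * g)⁻¹ : GL (Fin 2 ⊕ Fin 2) F) : Matrix (Fin 2 ⊕ Fin 2) (Fin 2 ⊕ Fin 2) F).trace =
      ((x⁻¹ : GL (Fin 2 ⊕ Fin 2) F) : Matrix (Fin 2 ⊕ Fin 2) (Fin 2 ⊕ Fin 2) F).trace := by
    intro x g
    have h3 : (g⁻¹ * x * g)⁻¹ = g⁻¹ * x⁻¹ * g := by group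
    rw [h3, htr]
  have hcases : ∀ y ∈ Cfsg.Geo.subgroupNormalizer R, (∀ v ∈ R, y ^ r * v = v * y ^ r) → ¬ (∀ v ∈ R, y * v = v * y) → _ := fun y hy1 hy2 hy3 =>
    hP.odd_cases h2 hcard4 (k := 1) (by rw [hRZ, pow_one]) hR5 hy1 hr2 hy2 hy3
  by_contra hcon
  by_cases h35 : r = 3 ∨ r = 5
  · -- elements of `SL₂`
    by_cases hrp : r = p
    · -- transvections
      have hd : (!![1, 1; 0, 1] : Matrix (Fin 2) (Fin 2) F).det = 1 := by simp
      obtain ⟨x, hx, hxM, -⟩ := exists_phiGL hd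
      have hMpow : ∀ k : ℕ, (!![1, 1; 0, 1] : Matrix (Fin 2) (Fin 2) F) ^ k = !![1, (k : F); 0, 1] := by
        intro k
        induction k with
        | zero => rw [pow_zero, Matrix.one_fin_two]; simp
        | succ k ih => rw [pow_succ, ih]; simp [add_comm]
      have hxr : x ^ r = 1 := by
        apply Units.ext
        rw [Units.val_pow_eq_pow_val, hxM, ← phiM_pow, hMpow, hrp, CharP.cast_eq_zero, ← Matrix.one_fin_two, phiM_one]
        rfl
      have hx1 : x ≠ 1 := by
        rintro rfl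
        have h3 := congrFun (congrFun hxM (Sum.inl 0)) (Sum.inr 0)
        simp [phiM] at h3
      obtain ⟨y, hyN, g, hyg, hyr, hyc, hyn⟩ := key x hx hxr hx1
      apply hyn
      apply hP.not_rank_one h2 hyN hrodd hyr (by rw [hcard4]; norm_num)
      have h4 := finrank_ker_conj (F := F) (V := Fin 2 ⊕ Fin 2 → F) (W := Fin 2 ⊕ Fin 2 → F)
        ((y : Matrix (Fin 2 ⊕ Fin 2) (Fin 2 ⊕ Fin 2) F).toLin') ((x : Matrix (Fin 2 ⊕ Fin 2) (Fin 2 ⊕ Fin 2) F).toLin')
        (LinearEquiv.ofBijective (Matrix.toLin' (g : Matrix (Fin 2 ⊕ Fin 2) (Fin 2 ⊕ Fin 2) F)) (by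
          rw [Function.bijective_iff_has_inverse]
          refine ⟨Matrix.toLin' ((g⁻¹ : GL (Fin 2 ⊕ Fin 2) F) : Matrix (Fin 2 ⊕ Fin 2) (Fin 2 ⊕ Fin 2) F), ?_, ?_⟩
          · intro v
            rw [Matrix.toLin'_apply, Matrix.toLin'_apply, Matrix.mulVec_mulVec, ← Units.val_mul, inv_mul_cancel, Units.val_one, Matrix.one_mulVec]
          · intro v
            rw [Matrix.toLin'_apply, Matrix.toLin'_apply, Matrix.mulVec_mulVec, ← Units.val_mul, mul_inv_cancel, Units.val_one, Matrix.one_mulVec]))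
        (by
          intro v
          simp only [LinearEquiv.ofBijective_apply, Matrix.toLin'_apply]
          rw [Matrix.mulVec_mulVec, Matrix.mulVec_mulVec, ← Units.val_mul, ← Units.val_mul, hyg]
          congr 2
          group) 1
      rw [one_smul] at h4
      rw [h4, hxM, finrank_ker_phiM_transvection, hcard4]
    · -- semisimple elements
      have hrd : r ∣ Fintype.card F * ((Fintype.card F - 1) * (Fintype.card F + 1)) := by
        rw [hF]
        have hp1 := hp.one_lt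
        have hpr : ¬ r ∣ p := fun h => hrp ((Nat.prime_dvd_prime_iff_eq hr hp).mp h)
        apply Dvd.dvd.mul_left
        rcases h35 with rfl | rfl
        · have h3 : p % 3 = 1 ∨ p % 3 = 2 := by
            have := Nat.mod_lt p (show 3 > 0 by norm_num)
            have h4 : p % 3 ≠ 0 := fun h => hpr (Nat.dvd_of_mod_eq_zero h)
            omega
          rcases h3 with h3 | h3
          · apply Dvd.dvd.mul_right; omega
          · apply Dvd.dvd.mul_left; omega
        · have h4 : p % 5 ≠ 0 := fun h => hpr (Nat.dvd_of_mod_eq_zero h)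
          have h5 : orderOf (p : ZMod 5) ≠ 4 := fun h => hcon ⟨rfl, h⟩
          have h6 : (p : ZMod 5) = ((p % 5 : ℕ) : ZMod 5) := by rw [ZMod.natCast_mod]
          rw [h6] at h5
          have h7 := Nat.mod_lt p (show 5 > 0 by norm_num)
          have h8 : p % 5 = 1 ∨ p % 5 = 4 := by
            by_contra h9
            have h10 : p % 5 = 2 ∨ p % 5 = 3 := by omega
            exact h5 (order_zmod_five h10)
          rcases h8 with h8 | h8
          · apply Dvd.dvd.mul_right; omega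
          · apply Dvd.dvd.mul_left; omega
      obtain ⟨M, hMd, hMr, hM1⟩ := exists_sl2_order hrd
      obtain ⟨x, hx, hxM, hxi⟩ := exists_phiGL hMd
      have hxr : x ^ r = 1 := by
        apply Units.ext
        rw [Units.val_pow_eq_pow_val, hxM, ← phiM_pow, hMr, phiM_one]
        rfl
      have hx1 : x ≠ 1 := by
        rintro rfl
        apply hM1
        have e1 := congrFun (congrFun hxM (Sum.inl 0)) (Sum.inl 0)
        have e2 := congrFun (congrFun hxM (Sum.inl 0)) (Sum.inr 0)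
        have e3 := congrFun (congrFun hxM (Sum.inr 0)) (Sum.inl 0)
        have e4 := congrFun (congrFun hxM (Sum.inr 0)) (Sum.inr 0)
        simp [phiM] at e1 e2 e3 e4
        ext i j
        fin_cases i <;> fin_cases j <;> simp [← e1, ← e2, ← e3, ← e4]
      obtain ⟨y, hyN, g, hyg, hyr, hyc, hyn⟩ := key x hx hxr hx1
      have hc := hcases y hyN hyc hyn
      rw [hyg, htr, htr', ← hyg, hxM, hxi, phiM_trace, phiM_trace, adjugate_trace_two] at hc
      have hpF : ∀ m : ℕ, (m : F) = 0 → p ∣ m := fun m hm => (CharP.cast_eq_zero_iff F p m).mp hm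
      rcases h35 with rfl | rfl
      · have hτ := sl2_three hMd hMr hM1
        rw [hτ] at hc
        rcases hc with ⟨-, -, hc⟩ | ⟨-, hc, -⟩
        · exact minus_three hP h2 hRm hq.ha haa hq.hb hq.ab hyN hyc (by rw [hc, pow_one])
        · have h3 : ((3 : ℕ) : F) = 0 := by push_cast; linear_combination -hc
          exact hrp (((Nat.prime_dvd_prime_iff_eq hp (by norm_num)).mp (hpF 3 h3)).symm)
      · have hτ := sl2_five hMd hMr hM1
        rcases hc with ⟨-, hc, -⟩ | ⟨h3, -⟩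
        · have h3 : (M.trace + 1) * (M.trace + 3) = 0 := by linear_combination hc
          rcases mul_eq_zero.mp h3 with h4 | h4
          · have h5 : M.trace = -1 := by linear_combination h4
            rw [h5] at hτ
            apply h2
            linear_combination hτ
          · have h5 : M.trace = -3 := by linear_combination h4
            rw [h5] at hτ
            have h6 : ((20 : ℕ) : F) = 0 := by push_cast; linear_combination -hτ
            have h7 := hpF 20 h6
            have h8 : p ∈ Nat.primeFactors 20 := Nat.mem_primeFactors.mpr ⟨hp, h7, by norm_num⟩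
            have h9 : Nat.primeFactors 20 = {2, 5} := by decide +kernel
            rw [h9] at h8
            simp only [Finset.mem_insert, Finset.mem_singleton] at h8
            rcases h8 with h8 | h8
            · rw [h8] at hodd; exact absurd hodd (by decide)
            · exact hrp h8.symm
        · exact absurd h3 (by norm_num)
  · -- large primes
    have hrG : r ∣ Nat.card (Cfsg.spGL 2 F) := hΩ.trans ((Subgroup.relIndex_dvd_card _ _))
    obtain ⟨x, hx⟩ := exists_prime_orderOf_dvd_card' r hrG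
    have hxr : (x : GL (Fin 2 ⊕ Fin 2) F) ^ r = 1 := by
      have h3 : x ^ r = 1 := by rw [← hx]; exact pow_orderOf_eq_one x
      exact congrArg Subtype.val h3
    have hx1 : (x : GL (Fin 2 ⊕ Fin 2) F) ≠ 1 := by
      intro h3
      have h4 : x = 1 := Subtype.ext h3
      rw [h4, orderOf_one] at hx
      exact hr.ne_one hx.symm
    obtain ⟨y, hyN, g, hyg, hyr, hyc, hyn⟩ := key x x.2 hxr hx1
    rcases hcases y hyN hyc hyn with ⟨h3, -⟩ | ⟨h3, -⟩
    · exact h35 h3
    · exact h35 (Or.inl h3)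


/-- Elements of prime order of PSp_4(p), p odd, and the normalizer of an extraspecial 2-group of order 2⁵ of minus type. Here `T = PSp_4(F)` for the field `F` with `p` elements, `p` an odd prime, realised through the matrices preserving the standard alternating form `f`; `R` is an absolutely irreducible subgroup of `T` (it preserves `f`) that is a 2-group of symplectic type of exponent 4, order 2⁵ and centre of order 2, of minus type (no elementary abelian subgroup of order 2³), and `H` is the subgroup of `T` normalizing `R` — a subgroup of type 2^{1+4}.O₄⁻(2) (maximality is not assumed). Ω is the set of cosets of `H` in `T`, so an element of `T` of prime order `r` (`x ∈ T` with `x^r` scalar, `x` not scalar) fixes a point of Ω exactly when some `T`-conjugate of `x` normalizes `R`. Let `r` be a prime dividing the index of `H`. Then every element of `T` of order `r` fixes a point of Ω if and only if `r = 2`, or `r = 5` and `p` has multiplicative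 order 4 modulo 5. -/
theorem result {F : Type*} [Field F] [Fintype F] {p : ℕ} [Fact p.Prime] [CharP F p] (hF : Fintype.card F = p) (hodd : Odd p)
    (R : Subgroup (GL (Fin 2 ⊕ Fin 2) F)) (hRs : Cfsg.Geo.IsSymplecticTypeGroup 2 R) (hRi : Cfsg.Geo.ActsAbsolutelyIrreducibly (Cfsg.Geo.matrixSet R))
    (hRf : R ≤ Cfsg.spGL 2 F) (hR5 : Nat.card R = 2 ^ 5) (hRZ : Nat.card (Subgroup.center R) = 2) (hRm : Cfsg.Geo.IsOfMinusType 2 R)
    (r : ℕ) [Fact r.Prime]
    (hΩ : r ∣ (Cfsg.Geo.subgroupNormalizer R).relIndex (Cfsg.spGL 2 F)) :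
    (∀ x ∈ Cfsg.spGL 2 F, (∃ z : F, ((x ^ r : GL (Fin 2 ⊕ Fin 2) F) : Matrix (Fin 2 ⊕ Fin 2) (Fin 2 ⊕ Fin 2) F) = z • (1 : Matrix (Fin 2 ⊕ Fin 2) (Fin 2 ⊕ Fin 2) F)) →
      (∀ z : F, (x : Matrix (Fin 2 ⊕ Fin 2) (Fin 2 ⊕ Fin 2) F) ≠ z • (1 : Matrix (Fin 2 ⊕ Fin 2) (Fin 2 ⊕ Fin 2) F)) →
      ∃ g ∈ Cfsg.spGL 2 F, g⁻¹ * x * g ∈ Cfsg.Geo.subgroupNormalizer R) ↔ (r = 2 ∨ (r = 5 ∧ orderOf (p : ZMod 5) = 4)) := by
  have hp : p.Prime := Fact.out
  have h2 : (2 : F) ≠ 0 := by
    intro h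
    have h1 : ((2 : ℕ) : F) = 0 := by exact_mod_cast h
    rw [CharP.cast_eq_zero_iff F p] at h1
    have := (Nat.prime_dvd_prime_iff_eq hp Nat.prime_two).mp h1
    subst this
    exact absurd hodd (by decide)
  have hcard4 : Fintype.card (Fin 2 ⊕ Fin 2) = 4 := by simp
  have hP : PGrp R := PGrp.of_type hRs hRi (by rw [hcard4]; norm_num)
  have hA := sympForm_altForm (F := F) 2
  obtain ⟨a0, b0, c0, d0, hq0⟩ := hP.exists_quad h2 (by rw [hcard4]; norm_num) (by rw [hR5, hRZ]; norm_num)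
  obtain ⟨a, b, c, d, hq, haa, hbb, hcc, hdd⟩ := hq0.exists_minus hP h2 hRm
  have hRN : R ≤ Cfsg.Geo.subgroupNormalizer R := Subgroup.le_normalizer
  have hzz : ∀ x ∈ Cfsg.spGL 2 F, ∀ z : F, ∀ r : ℕ, ((x ^ r : GL (Fin 2 ⊕ Fin 2) F) : Matrix (Fin 2 ⊕ Fin 2) (Fin 2 ⊕ Fin 2) F) = z • (1 : Matrix (Fin 2 ⊕ Fin 2) (Fin 2 ⊕ Fin 2) F) → z * z = 1 := by
    intro x hx z r hz
    obtain ⟨u, v, huv⟩ := exists_symp_ne_zero (F := F) (d := 2) (by norm_num)
    have h1 := mem_spGL2.mp (Subgroup.pow_mem _ hx r) u v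
    rw [hz, Matrix.smul_mulVec, Matrix.smul_mulVec, Matrix.one_mulVec, Matrix.one_mulVec, hA.smul_left, hA.smul_right] at h1
    apply mul_right_cancel₀ huv
    rw [one_mul, mul_assoc]; exact h1
  constructor
  · intro H
    by_cases hr2 : r = 2
    · exact Or.inl hr2
    right
    apply no_fix hF hodd hP hR5 hRZ hRm r hr2 hΩ
    intro x hx hxr hx1
    apply H x hx
    · exact ⟨1, by rw [hxr, one_smul]; rfl⟩
    · intro z hz
      exact hx1 (scalar_eq_one hx ((Fact.out : r.Prime).odd_of_ne_two hr2) hxr hz)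
  · rintro (rfl | ⟨rfl, h4⟩)
    · intro x hx ⟨z, hz⟩ hns
      have h1 := hzz x hx z 2 hz
      rcases mul_self_eq_one_iff.mp h1 with h3 | h3
      · have hxx : x * x = 1 := by
          rw [← pow_two]; apply Units.ext; rw [hz, h3, one_smul]; rfl
        obtain ⟨g, hg, hgx⟩ := conj_of_common (sp_involution h2 hx hxx
          (by rintro rfl; exact hns 1 (by rw [one_smul]; rfl)) (by rintro rfl; exact hns (-1) (by simp)))
          (sp_involution h2 (hRf hq.ha) haa (ne_one_of_anti h2 hq.ab).1 (ne_one_of_anti h2 hq.ab).2)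
        exact ⟨g, hg, by rw [hgx]; exact hRN hq.ha⟩
      · have hxx : x * x = -1 := by
          rw [← pow_two]; apply Units.ext; rw [hz, h3]; simp
        obtain ⟨g, hg, hgx⟩ := conj_of_common (sp_neg h2 hx hxx) (sp_neg h2 (hRf hq.hc) hcc)
        exact ⟨g, hg, by rw [hgx]; exact hRN hq.hc⟩
    · have hp5 : ¬ 5 ∣ Fintype.card F - 1 := by
        rw [hF]
        intro h
        have hp1 := hp.one_lt
        have h6 : (p : ZMod 5) = 1 := by
          have h7 : (((p - 1 : ℕ)) : ZMod 5) = 0 := (ZMod.natCast_eq_zero_iff _ _).mpr h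
          rw [Nat.cast_sub hp1.le, Nat.cast_one, sub_eq_zero] at h7
          exact h7
        rw [h6, orderOf_one] at h4
        norm_num at h4
      have h5p : (5 : ℕ) ≠ p := by
        rintro rfl
        have h6 : ((5 : ℕ) : ZMod 5) = 0 := ZMod.natCast_self 5
        rw [h6] at h4
        exact order_zmod_five_zero h4
      obtain ⟨w, hwN, hw5, hw1, hwB⟩ := (hq.five haa hbb (by rw [hcc, hdd]) (Or.inr hcc) R.one_mem (fun v => by rw [one_mul, mul_one])
        (by rw [hcc]; simp)).exists_order_five hP h2 hp5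
      have hwsp : w ∈ Cfsg.spGL 2 F := by
        rw [mem_spGL2]
        apply hwB (B := Cfsg.sympForm 2 F)
        · intro x y z
          exact Cfsg.Agent.ClGeo.sympForm_sub_left 2 x y z
        · intro x y z
          exact Cfsg.Agent.ClGeo.sympForm_sub_right 2 x y z
        · intro i u v
          exact mem_spGL2.mp (hRf ((hq.five haa hbb (by rw [hcc, hdd]) (Or.inr hcc) R.one_mem (fun v => by rw [one_mul, mul_one])
            (by rw [hcc]; simp)).mem i)) u v
      have hfree : ∀ x ∈ Cfsg.spGL 2 F, x ^ 5 = 1 → x ≠ 1 → ∀ v : Fin 2 ⊕ Fin 2 → F, (x : Matrix (Fin 2 ⊕ Fin 2) (Fin 2 ⊕ Fin 2) F) *ᵥ v = v → v = 0 := by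
        intro x hx hx5 hx1 v hv
        have hf5 : (Matrix.toLin' (x : Matrix (Fin 2 ⊕ Fin 2) (Fin 2 ⊕ Fin 2) F)) ^ 5 = 1 := by
          rw [← Matrix.toLin'_pow, ← Units.val_pow_eq_pow_val, hx5, Units.val_one, Matrix.toLin'_one]
          rfl
        have h6 := finrank_modEq_fixed (p := p) h5p (Matrix.toLin' (x : Matrix (Fin 2 ⊕ Fin 2) (Fin 2 ⊕ Fin 2) F)) hf5
        rw [hF, h4, finrank_symp] at h6
        have h7 : finrank F (LinearMap.ker (Matrix.toLin' (x : Matrix (Fin 2 ⊕ Fin 2) (Fin 2 ⊕ Fin 2) F) - 1)) ≤ 4 := by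
          have := Submodule.finrank_le (LinearMap.ker (Matrix.toLin' (x : Matrix (Fin 2 ⊕ Fin 2) (Fin 2 ⊕ Fin 2) F) - 1))
          rwa [finrank_symp] at this
        have h8 : finrank F (LinearMap.ker (Matrix.toLin' (x : Matrix (Fin 2 ⊕ Fin 2) (Fin 2 ⊕ Fin 2) F) - 1)) ≠ 4 := by
          intro h9
          have h10 : LinearMap.ker (Matrix.toLin' (x : Matrix (Fin 2 ⊕ Fin 2) (Fin 2 ⊕ Fin 2) F) - 1) = ⊤ := by
            apply Submodule.eq_top_of_finrank_eq
            rw [h9, finrank_symp]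
          apply hx1
          apply Units.ext
          apply ext_single
          intro i
          have h11 : (Pi.single i 1 : Fin 2 ⊕ Fin 2 → F) ∈ LinearMap.ker (Matrix.toLin' (x : Matrix (Fin 2 ⊕ Fin 2) (Fin 2 ⊕ Fin 2) F) - 1) := by
            rw [h10]; exact Submodule.mem_top
          rw [LinearMap.mem_ker, LinearMap.sub_apply, sub_eq_zero, Matrix.toLin'_apply, Module.End.one_apply] at h11
          rw [h11, Units.val_one, Matrix.one_mulVec]
        have h9 : finrank F (LinearMap.ker (Matrix.toLin' (x : Matrix (Fin 2 ⊕ Fin 2) (Fin 2 ⊕ Fin 2) F) - 1)) = 0 := by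
          have h10 : (2 * 2) % 4 = finrank F (LinearMap.ker (Matrix.toLin' (x : Matrix (Fin 2 ⊕ Fin 2) (Fin 2 ⊕ Fin 2) F) - 1)) % 4 := h6
          omega
        have h10 : LinearMap.ker (Matrix.toLin' (x : Matrix (Fin 2 ⊕ Fin 2) (Fin 2 ⊕ Fin 2) F) - 1) = ⊥ := Submodule.finrank_eq_zero.mp h9
        have h11 : v ∈ LinearMap.ker (Matrix.toLin' (x : Matrix (Fin 2 ⊕ Fin 2) (Fin 2 ⊕ Fin 2) F) - 1) := by
          rw [LinearMap.mem_ker, LinearMap.sub_apply, sub_eq_zero, Matrix.toLin'_apply, hv]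
          rfl
        rw [h10, Submodule.mem_bot] at h11
        exact h11
      intro x hx ⟨z, hz⟩ hns
      have hz2 := hzz x hx z 5 hz
      have h5F : ((5 : ℕ) : F) ≠ 0 := fun h => h5p (((Nat.prime_dvd_prime_iff_eq hp (by norm_num)).mp ((CharP.cast_eq_zero_iff F p 5).mp h)).symm)
      have hneg : (-1 : GL (Fin 2 ⊕ Fin 2) F) ∈ Cfsg.spGL 2 F := hRf hP.neg
      rcases mul_self_eq_one_iff.mp hz2 with h3 | h3
      · have hx5 : x ^ 5 = 1 := by
          apply Units.ext; rw [hz, h3, one_smul]; rfl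
        obtain ⟨g, hg, k, hk⟩ := conj_of_fpf h5F hfree hx hwsp hx5 hw5 hw1
        exact ⟨g, hg, by rw [hk]; exact Subgroup.pow_mem _ hwN k⟩
      · have hx5 : (-x) ^ 5 = 1 := by
          rw [Odd.neg_pow (by decide : Odd 5)]
          apply Units.ext; rw [Units.val_neg, hz, h3]; simp
        obtain ⟨g, hg, k, hk⟩ := conj_of_fpf h5F hfree (x := -x) (by rw [← neg_one_mul]; exact Subgroup.mul_mem _ hneg hx) hwsp hx5 hw5 hw1
        refine ⟨g, hg, ?_⟩
        have e : g⁻¹ * x * g = -1 * w ^ k := by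
          rw [← hk]; simp
        rw [e]
        exact Subgroup.mul_mem _ (hRN hP.neg) (Subgroup.pow_mem _ hwN k)


end Cfsg.Agent.S6002
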